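import Cfsg.Statements.S0865
import Mathlib
import Cfsg.Agent.Helper7.LinChar

set_option autoImplicit false
open Cfsg

namespace Cfsg.Agent.S0865

/-- Let N be a normal subgroup of the finite group G and λ a character of N of degree 1, invariant under conjugation by G, whose order (under pointwise multiplication) is coprime to the index of N. Then there is a character μ of G of degree 1 restricting to λ with the same order as λ, and μ is the only degree-1 character of G restricting to λ whose order is coprime to the index of N. -/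
theorem result {G : Type*} [Group G] [Finite G] (N : Subgroup G) [hN : N.Normal] (lam : N → ℂ) (hlam : Cfsg.IsCharacter N lam ∧ lam 1 = 1) (hinv : ∀ (g : G) (n : N), lam ⟨g * n * g⁻¹, hN.conj_mem (n : G) n.2 g⟩ = lam n) (hcop : Nat.Coprime N.index (orderOf lam)) : ∃ μ : G → ℂ, (Cfsg.IsCharacter G μ ∧ μ 1 = 1 ∧ (∀ n : N, μ n = lam n) ∧ orderOf μ = orderOf lam) ∧ ∀ μ' : G → ℂ, Cfsg.IsCharacter G μ' ∧ μ' 1 = 1 → (∀ n : N, μ' n = lam n) → Nat.Coprime N.index (orderOf μ') → μ' = μ := by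
  classical
  obtain ⟨Λ, rfl⟩ := Cfsg.Agent.Helper7.exists_hom_of_linear lam hlam.1 hlam.2
  rw [Cfsg.Agent.Helper7.orderOf_hom_fun] at hcop
  letI : Fintype G := Fintype.ofFinite G
  have hinvΛ : ∀ (g : G) (n : N), Λ ⟨g * n * g⁻¹, hN.conj_mem (n : G) n.2 g⟩ = Λ n :=
    fun g n => Units.ext (hinv g n)
  obtain ⟨δ, hδ⟩ := Cfsg.Agent.Helper7.exists_hom_restrict_pow N N le_rfl Λ hinvΛ
    (fun n => ((Λ n : ℂˣ) : ℂ)) hlam.1 hlam.2 (fun n => rfl)
  have hRδ : Cfsg.Agent.Helper7.resHom N δ = Λ ^ N.index := by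
    ext n
    exact congrArg Units.val (hδ n)
  obtain ⟨μ, hRμ, hord, huniq⟩ := Cfsg.Agent.Helper7.exists_unique_lift_of_coprime
    (Cfsg.Agent.Helper7.resHom N) Λ δ N.index hRδ hcop (by
      intro β hβ
      exact Cfsg.Agent.Helper7.hom_pow_index_eq_one N β (fun n => DFunLike.congr_fun hβ n))
  refine ⟨fun g => ((μ g : ℂˣ) : ℂ), ⟨Cfsg.Agent.Helper7.isCharacter_of_hom μ, by simp, ?_, ?_⟩, ?_⟩
  · intro n
    exact congrArg Units.val (DFunLike.congr_fun hRμ n)
  · rw [Cfsg.Agent.Helper7.orderOf_hom_fun, Cfsg.Agent.Helper7.orderOf_hom_fun, hord]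
  · intro μ' hμ' hres' hcop'
    obtain ⟨f', rfl⟩ := Cfsg.Agent.Helper7.exists_hom_of_linear μ' hμ'.1 hμ'.2
    rw [Cfsg.Agent.Helper7.orderOf_hom_fun] at hcop'
    have hRf' : Cfsg.Agent.Helper7.resHom N f' = Λ := by
      ext n
      exact hres' n
    rw [huniq f' hRf' hcop']

end Cfsg.Agent.S0865
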