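import Cfsg.Statements.S1516
import Mathlib
import Cfsg.Agent.Helper11.Coh4

set_option autoImplicit false
open Cfsg

namespace Cfsg.Agent.S1516

open Cfsg.Agent.Helper11

/-- Let (S, τ, R) be a coherence system from L to G with degrees φ 1 = d φ and squared norms ⟨φ, φ⟩ = n φ for φ ∈ S. Let S₁ ⊆ S be a finite subset closed under complex conjugation such that (S₁, L minus 1, τ) is coherent, let χ ∈ S with χ ∉ S₁ and conj χ ∉ S₁, and let χ₁ ∈ S₁ with d χ₁ dividing d χ and 2 d χ d χ₁ < Σ_{φ ∈ S₁} (d φ)² / n φ. Then S₁ together with χ and conj χ is coherent. -/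
theorem result {L : Type*} [Group L] [Fintype L] {G : Type*} [Group G] [Fintype G] (S : Set (L → ℂ)) (τ : (L → ℂ) → (G → ℂ)) (R : (L → ℂ) → Finset (G → ℂ)) (hS : Cfsg.IsCoherenceSystem S τ R) (d n : (L → ℂ) → ℕ) (hd : ∀ φ ∈ S, φ 1 = (d φ : ℂ)) (hn : ∀ φ ∈ S, Cfsg.classInner φ φ = (n φ : ℂ)) (S₁ : Finset (L → ℂ)) (hS₁ : ↑S₁ ⊆ S) (hS₁c : ∀ φ ∈ S₁, Cfsg.conjFun φ ∈ S₁) (hcoh : Cfsg.IsCoherent (↑S₁ : Set (L → ℂ)) {1}ᶜ τ) (χ : L → ℂ) (hχ : χ ∈ S) (hχ₁ : χ ∉ S₁) (hχ₂ : Cfsg.conjFun χ ∉ S₁) (χ₁ : L → ℂ) (hχ₁S : χ₁ ∈ S₁) (hdvd : d χ₁ ∣ d χ) (hineq : (2 * d χ * d χ₁ : ℝ) < ∑ φ ∈ S₁, ((d φ : ℝ) ^ 2 / (n φ : ℝ))) : Cfsg.IsCoherent (↑S₁ ∪ {χ, Cfsg.conjFun χ} : Set (L → ℂ)) {1}ᶜ τ := by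
  classical
  obtain ⟨⟨α₀, hα₀, hα₀ne⟩, τ₁, hτ₁, hagree⟩ := hcoh
  obtain ⟨hτadd, hτsmul, hτiso, hτgen⟩ := hS.isometry
  have horth := hS.orthogonal
  set χ' := conjFun χ with hχ'def
  have hχ' : χ' ∈ S := hS.conj_mem χ hχ
  have hχ'ne : χ' ≠ χ := hS.conj_ne χ hχ
  have hS₁mem : ∀ φ ∈ S₁, φ ∈ S := fun φ hφ => hS₁ (Finset.mem_coe.mpr hφ)
  have hneχ : ∀ φ ∈ S₁, φ ≠ χ := fun φ hφ h => hχ₁ (h ▸ hφ)
  have hneχ' : ∀ φ ∈ S₁, φ ≠ χ' := fun φ hφ h => hχ₂ (h ▸ hφ)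
  have hχne0 : ∀ φ ∈ S, φ ≠ 0 := by
    intro φ hφ h
    apply hS.conj_ne φ hφ
    rw [h]
    funext x
    simp [conjFun]
  have hnpos : ∀ φ ∈ S, 0 < n φ := by
    intro φ hφ
    rcases Nat.eq_zero_or_pos (n φ) with h | h
    · exfalso
      have h1 := hn φ hφ
      rw [h, Nat.cast_zero] at h1
      exact hχne0 φ hφ ((Cfsg.Agent.Helper2.classInner_self_eq_zero_iff φ).mp h1)
    · exact h
  have hdpos : ∀ φ ∈ S, 0 < d φ := by
    intro φ hφ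
    have h1 := char_one_ne_zero_of_ne_zero (hS.isCharacter φ hφ) (hχne0 φ hφ)
    rw [hd φ hφ] at h1
    have h2 : d φ ≠ 0 := by exact_mod_cast h1
    omega
  have hdconj : ∀ φ ∈ S, (conjFun φ) 1 = φ 1 := by
    intro φ hφ
    show (starRingEnd ℂ) (φ 1) = φ 1
    rw [hd φ hφ, Complex.conj_natCast]
  have hmem1 : ∀ φ ∈ S₁, φ ∈ zspan (↑S₁ : Set (L → ℂ)) :=
    fun φ hφ => Submodule.subset_span (Finset.mem_coe.mpr hφ)
  have hmemS : ∀ φ ∈ S, φ ∈ zspan S := fun φ hφ => Submodule.subset_span hφ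
  have hsub1 : zspanOn (↑S₁ : Set (L → ℂ)) {1}ᶜ ⊆ zspanOn S {1}ᶜ := zspanOn_mono hS₁ _
  have hτ₁0 : τ₁ 0 = 0 := isLinIso_map_zero hτ₁
  obtain ⟨a, ha⟩ := hdvd
  have hχ₁S' : χ₁ ∈ S := hS₁mem χ₁ hχ₁S
  have hd1 := hdpos χ₁ hχ₁S'
  have hn1 := hnpos χ₁ hχ₁S'
  have hdχ := hdpos χ hχ
  have hapos : 0 < a := by
    rcases Nat.eq_zero_or_pos a with h | h
    · rw [h, mul_zero] at ha; omega
    · exact h
  have e_χχ₁ : classInner χ χ₁ = 0 := horth χ hχ χ₁ hχ₁S' (fun h => hneχ χ₁ hχ₁S h.symm)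
  have e_χ₁χ : classInner χ₁ χ = 0 := horth χ₁ hχ₁S' χ hχ (hneχ χ₁ hχ₁S)
  have e_χ₁χ' : classInner χ₁ χ' = 0 := horth χ₁ hχ₁S' χ' hχ' (hneχ' χ₁ hχ₁S)
  have e_χχ' : classInner χ χ' = 0 := horth χ hχ χ' hχ' (Ne.symm hχ'ne)
  have e_χ'χ : classInner χ' χ = 0 := horth χ' hχ' χ hχ hχ'ne
  set β : L → ℂ := χ + (-(a : ℤ)) • χ₁ with hβdef
  have hβ : β ∈ zspanOn S {1}ᶜ := by
    apply mem_zspanOn_compl_one
    · exact Submodule.add_mem _ (hmemS χ hχ) (Submodule.smul_mem _ _ (hmemS χ₁ hχ₁S'))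
    · show χ 1 + (-(a : ℤ)) • χ₁ 1 = 0
      rw [hd χ hχ, hd χ₁ hχ₁S', ha, zsmul_eq_mul]
      push_cast
      ring
  have hβχ : ∀ f : L → ℂ, classInner β f =
      classInner χ f + ((-(a : ℤ) : ℤ) : ℂ) * classInner χ₁ f := by
    intro f
    rw [hβdef, Cfsg.Agent.Helper2.classInner_add_left, zsmul_fun_eq,
      Cfsg.Agent.Helper2.classInner_smul_left]
  have hχχ' : (χ - χ') ∈ zspanOn S {1}ᶜ := by
    apply mem_zspanOn_compl_one (Submodule.sub_mem _ (hmemS χ hχ) (hmemS χ' hχ'))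
    rw [Pi.sub_apply, hχ'def, hdconj χ hχ, sub_self]
  have hsumB : τ (χ - χ') = ∑ α ∈ R χ, α := hS.sum_eq χ hχ
  have hBorth := hS.orthonormal χ hχ
  have hBgen := hS.virtual χ hχ
  set v := τ β with hvdef
  have hvgen : IsGeneralizedCharacter G v := hτgen β hβ
  -- (P1): the images of S₁ are orthogonal to R χ
  have hP1 : ∀ φ ∈ S₁, ∀ α ∈ R χ, classInner (τ₁ φ) α = 0 := by
    intro φ hφ α hα
    have hφS := hS₁mem φ hφ
    have hφc : conjFun φ ∈ S₁ := hS₁c φ hφ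
    have hφcS := hS₁mem _ hφc
    have hφcne : conjFun φ ≠ φ := hS.conj_ne φ hφS
    have hdiffmem : (φ - conjFun φ) ∈ zspanOn (↑S₁ : Set (L → ℂ)) {1}ᶜ := by
      apply mem_zspanOn_compl_one (Submodule.sub_mem _ (hmem1 φ hφ) (hmem1 _ hφc))
      rw [Pi.sub_apply, hdconj φ hφS, sub_self]
    have hsumφ : ∑ α ∈ R φ, α = τ₁ (φ - conjFun φ) := by
      rw [← hS.sum_eq φ hφS, hagree _ hdiffmem]
    have hRφχ : ∀ α' ∈ R φ, ∀ β' ∈ R χ, classInner α' β' = 0 :=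
      hS.disjoint χ hχ φ hφS (horth φ hφS χ hχ (hneχ φ hφ)) (horth φ hφS χ' hχ' (hneχ' φ hφ))
    obtain ⟨m, -, -, -, -, -, -, hm7⟩ := coh_two_family (R φ) ∅ (-τ₁ φ)
      (Cfsg.Agent.Helper7.isGeneralizedCharacter_neg (hτ₁.2.2.2 φ (hmem1 φ hφ)))
      (hS.orthonormal φ hφS) (by simp) (by simp) (hS.virtual φ hφS) (by simp) (n φ) 0
      (by
        rw [hsumφ, Cfsg.Agent.Helper2.classInner_neg_left,
          hτ₁.2.2.1 φ (hmem1 φ hφ) _ hdiffmem.1, Cfsg.Agent.Helper2.classInner_sub_right,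
          hn φ hφS, horth φ hφS _ hφcS (Ne.symm hφcne), sub_zero])
      (by simp [Cfsg.Agent.Helper2.classInner_zero_right])
      (by
        rw [Cfsg.Agent.Helper2.classInner_neg_left, Cfsg.Agent.Helper2.classInner_neg_right,
          neg_neg, hτ₁.2.2.1 φ (hmem1 φ hφ) φ (hmem1 φ hφ), hn φ hφS]
        simp)
    rw [Finset.sum_empty, add_zero] at hm7
    have h1 : τ₁ φ = -∑ α' ∈ R φ, (m α') • α' := by rw [← hm7, neg_neg]
    rw [h1, Cfsg.Agent.Helper2.classInner_neg_left, Cfsg.Agent.Helper2.classInner_sum_left,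
      Finset.sum_eq_zero, neg_zero]
    intro α' hα'
    rw [zsmul_fun_eq, Cfsg.Agent.Helper2.classInner_smul_left, hRφχ α' hα' α hα, mul_zero]
  have hP1' : ∀ φ ∈ S₁, ∀ α ∈ R χ, classInner α (τ₁ φ) = 0 := by
    intro φ hφ α hα
    rw [Cfsg.Agent.Helper2.classInner_conj_symm, hP1 φ hφ α hα, map_zero]
  -- coefficients along R χ
  have hyex : ∀ α ∈ R χ, ∃ k : ℤ, classInner v α = (k : ℂ) := fun α hα =>
    classInner_virtual_int hvgen (hBgen α hα)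
  choose! y hy using hyex
  have hysum : ∑ α ∈ R χ, y α = (n χ : ℤ) := by
    have h1 : classInner v (∑ α ∈ R χ, α) = (n χ : ℂ) := by
      rw [← hsumB, hvdef, hτiso β hβ _ hχχ', hβχ, Cfsg.Agent.Helper2.classInner_sub_right,
        Cfsg.Agent.Helper2.classInner_sub_right, hn χ hχ, e_χχ', e_χ₁χ, e_χ₁χ']
      ring
    rw [Cfsg.Agent.Helper2.classInner_sum_right] at h1
    have h2 : ((∑ α ∈ R χ, y α : ℤ) : ℂ) = ((n χ : ℤ) : ℂ) := by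
      push_cast
      rw [← h1]
      exact Finset.sum_congr rfl (fun α hα => (hy α hα).symm)
    exact_mod_cast h2
  obtain ⟨hv'orth, hv'norm⟩ := bessel_decomp (R χ) (fun α => α) hBorth v y hy
  set X : G → ℂ := ∑ α ∈ R χ, (y α) • α with hXdef
  have hvv : classInner v v = ((n χ : ℂ) + (a : ℂ) ^ 2 * (n χ₁ : ℂ)) := by
    rw [hvdef, hτiso β hβ β hβ]
    simp only [hβdef, zsmul_fun_eq, Cfsg.Agent.Helper2.classInner_add_left,
      Cfsg.Agent.Helper2.classInner_add_right, Cfsg.Agent.Helper2.classInner_smul_left,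
      Cfsg.Agent.Helper2.classInner_smul_right, map_intCast]
    rw [hn χ hχ, hn χ₁ hχ₁S', e_χχ₁, e_χ₁χ]
    push_cast
    ring
  -- coefficients along τ₁ S₁
  have hxex : ∀ φ ∈ S₁, ∃ k : ℤ, classInner v (τ₁ φ) = (k : ℂ) := fun φ hφ =>
    classInner_virtual_int hvgen (hτ₁.2.2.2 φ (hmem1 φ hφ))
  choose! x hx using hxex
  have hx' : ∀ φ ∈ S₁, classInner (v - X) (τ₁ φ) = (((x φ : ℤ) : ℝ) : ℂ) := by
    intro φ hφ
    rw [hXdef, Cfsg.Agent.Helper2.classInner_sub_left, hx φ hφ,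
      Cfsg.Agent.Helper2.classInner_sum_left, Finset.sum_eq_zero, sub_zero]
    · push_cast; rfl
    · intro α hα
      rw [zsmul_fun_eq, Cfsg.Agent.Helper2.classInner_smul_left, hP1' φ hφ α hα, mul_zero]
  have horthτ₁ : ∀ i ∈ S₁, ∀ j ∈ S₁, classInner (τ₁ i) (τ₁ j) =
      if i = j then (((n i : ℕ) : ℝ) : ℂ) else 0 := by
    intro i hi j hj
    rw [hτ₁.2.2.1 i (hmem1 i hi) j (hmem1 j hj)]
    by_cases hij : i = j
    · rw [if_pos hij, hij, hn j (hS₁mem j hj)]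
      push_cast; rfl
    · rw [if_neg hij]
      exact horth i (hS₁mem i hi) j (hS₁mem j hj) hij
  obtain ⟨hΔorth, hΔnorm⟩ := bessel_decomp_real S₁ τ₁ (fun φ => ((n φ : ℕ) : ℝ))
    (fun i hi => by
      have := hnpos i (hS₁mem i hi)
      positivity) horthτ₁ (v - X) (fun φ => ((x φ : ℤ) : ℝ)) hx'
  set Δ : G → ℂ := v - X - ∑ i ∈ S₁, ((((x i : ℤ) : ℝ) / ((n i : ℕ) : ℝ) : ℝ) : ℂ) • τ₁ i
    with hΔdef
  have hΔreal : classInner Δ Δ = (((n χ : ℝ) + (a : ℝ) ^ 2 * (n χ₁ : ℝ) -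
      ((∑ α ∈ R χ, (y α) ^ 2 : ℤ) : ℝ) - ∑ φ ∈ S₁, ((x φ : ℤ) : ℝ) ^ 2 / ((n φ : ℕ) : ℝ) : ℝ) : ℂ) := by
    rw [hΔnorm, hv'norm, hvv]
    push_cast
    ring
  have hnn := classInner_self_real_nonneg hΔreal
  -- the relation between the x's
  set u : ℤ := x χ₁ + a * n χ₁ with hudef
  have hF5 : ∀ φ ∈ S₁, (d χ₁ : ℤ) * x φ = (d φ : ℤ) * u -
      (if φ = χ₁ then (a : ℤ) * n χ₁ * d χ₁ else 0) := by
    intro φ hφ
    have hφS := hS₁mem φ hφ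
    have hγ : ((d χ₁ : ℤ) • φ + (-(d φ : ℤ)) • χ₁) ∈ zspanOn (↑S₁ : Set (L → ℂ)) {1}ᶜ := by
      apply mem_zspanOn_compl_one
      · exact Submodule.add_mem _ (Submodule.smul_mem _ _ (hmem1 φ hφ))
          (Submodule.smul_mem _ _ (hmem1 χ₁ hχ₁S))
      · show (d χ₁ : ℤ) • φ 1 + (-(d φ : ℤ)) • χ₁ 1 = 0
        rw [hd φ hφS, hd χ₁ hχ₁S', zsmul_eq_mul, zsmul_eq_mul]
        push_cast
        ring
    have hτγ : τ ((d χ₁ : ℤ) • φ + (-(d φ : ℤ)) • χ₁) =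
        (d χ₁ : ℤ) • τ₁ φ + (-(d φ : ℤ)) • τ₁ χ₁ := by
      rw [← hagree _ hγ,
        hτ₁.1 _ (Submodule.smul_mem _ _ (hmem1 φ hφ)) _ (Submodule.smul_mem _ _ (hmem1 χ₁ hχ₁S)),
        hτ₁.2.1 φ (hmem1 φ hφ), hτ₁.2.1 χ₁ (hmem1 χ₁ hχ₁S)]
    have h1 := hτiso β hβ _ (hsub1 hγ)
    rw [hτγ, hβχ] at h1
    simp only [zsmul_fun_eq, Cfsg.Agent.Helper2.classInner_add_right,
      Cfsg.Agent.Helper2.classInner_smul_right, map_intCast] at h1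
    rw [hx φ hφ, hx χ₁ hχ₁S, horth χ hχ φ hφS (fun h => hneχ φ hφ h.symm), e_χχ₁,
      hn χ₁ hχ₁S'] at h1
    by_cases hφχ₁ : φ = χ₁
    · rw [if_pos hφχ₁, hφχ₁, hudef]
      ring
    · rw [if_neg hφχ₁]
      rw [horth χ₁ hχ₁S' φ hφS (fun h => hφχ₁ h.symm)] at h1
      have h2 : ((d χ₁ : ℤ) * x φ : ℂ) = ((d φ : ℤ) * (x χ₁ + a * n χ₁) : ℂ) := by
        push_cast
        push_cast at h1
        linear_combination h1
      have h3 : (d χ₁ : ℤ) * x φ = (d φ : ℤ) * (x χ₁ + a * n χ₁) := by exact_mod_cast h2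
      rw [h3, sub_zero]
  have hd1R : (0 : ℝ) < (d χ₁ : ℝ) := by exact_mod_cast hd1
  have hn1R : (0 : ℝ) < (n χ₁ : ℝ) := by exact_mod_cast hn1
  have haR : (1 : ℝ) ≤ (a : ℝ) := by exact_mod_cast hapos
  have hsumx : (d χ₁ : ℝ) ^ 2 * ∑ φ ∈ S₁, ((x φ : ℤ) : ℝ) ^ 2 / ((n φ : ℕ) : ℝ) =
      (u : ℝ) ^ 2 * (∑ φ ∈ S₁, ((d φ : ℝ) ^ 2 / (n φ : ℝ))) - 2 * (u : ℝ) * a * (d χ₁ : ℝ) ^ 2 +
        (a : ℝ) ^ 2 * (n χ₁ : ℝ) * (d χ₁ : ℝ) ^ 2 := by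
    have h1 : ∀ φ ∈ S₁, (d χ₁ : ℝ) ^ 2 * (((x φ : ℤ) : ℝ) ^ 2 / ((n φ : ℕ) : ℝ)) =
        (u : ℝ) ^ 2 * ((d φ : ℝ) ^ 2 / (n φ : ℝ)) -
        (if φ = χ₁ then 2 * (u : ℝ) * a * (d χ₁ : ℝ) ^ 2 -
          (a : ℝ) ^ 2 * (n χ₁ : ℝ) * (d χ₁ : ℝ) ^ 2 else 0) := by
      intro φ hφ
      have h2 := hF5 φ hφ
      have hnφ : (0 : ℝ) < (n φ : ℝ) := by exact_mod_cast hnpos φ (hS₁mem φ hφ)
      have h3 : (d χ₁ : ℝ) * ((x φ : ℤ) : ℝ) = (d φ : ℝ) * (u : ℝ) -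
          (if φ = χ₁ then (a : ℝ) * (n χ₁ : ℝ) * (d χ₁ : ℝ) else 0) := by
        have h4 : (((d χ₁ : ℤ) * x φ : ℤ) : ℝ) = (((d φ : ℤ) * u -
            (if φ = χ₁ then (a : ℤ) * n χ₁ * d χ₁ else 0) : ℤ) : ℝ) := by rw [h2]
        push_cast at h4
        rw [h4]
      have h5 : (d χ₁ : ℝ) ^ 2 * (((x φ : ℤ) : ℝ) ^ 2 / ((n φ : ℕ) : ℝ)) =
          ((d χ₁ : ℝ) * ((x φ : ℤ) : ℝ)) ^ 2 / (n φ : ℝ) := by ring
      rw [h5, h3]
      by_cases hφχ₁ : φ = χ₁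
      · rw [if_pos hφχ₁, if_pos hφχ₁, hφχ₁]
        field_simp
        ring
      · rw [if_neg hφχ₁, if_neg hφχ₁]
        ring
    rw [Finset.mul_sum, Finset.sum_congr rfl h1, Finset.sum_sub_distrib,
      Finset.sum_ite_eq' S₁ χ₁, if_pos hχ₁S, ← Finset.mul_sum]
    ring
  have hysq : (n χ : ℤ) ≤ ∑ α ∈ R χ, (y α) ^ 2 := by
    rw [← hysum]
    apply Finset.sum_le_sum
    intro α _
    nlinarith [sq_nonneg (2 * y α - 1)]
  have hysqR : (n χ : ℝ) ≤ ((∑ α ∈ R χ, (y α) ^ 2 : ℤ) : ℝ) := by exact_mod_cast hysq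
  have hD : 2 * (a : ℝ) * (d χ₁ : ℝ) ^ 2 < ∑ φ ∈ S₁, ((d φ : ℝ) ^ 2 / (n φ : ℝ)) := by
    have h1 : (2 * (d χ : ℝ) * (d χ₁ : ℝ)) = 2 * (a : ℝ) * (d χ₁ : ℝ) ^ 2 := by
      rw [ha]; push_cast; ring
    rw [← h1]
    exact hineq
  have hu0 : u = 0 := by
    by_contra hune
    have hxle : (d χ₁ : ℝ) ^ 2 * ∑ φ ∈ S₁, ((x φ : ℤ) : ℝ) ^ 2 / ((n φ : ℕ) : ℝ) ≤
        (d χ₁ : ℝ) ^ 2 * ((a : ℝ) ^ 2 * (n χ₁ : ℝ)) := by
      apply mul_le_mul_of_nonneg_left _ (by positivity)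
      linarith
    rw [hsumx] at hxle
    have hu2 : (u : ℝ) ≤ (u : ℝ) ^ 2 := by
      have : u ≤ u ^ 2 := by nlinarith [sq_nonneg (2 * u - 1)]
      exact_mod_cast this
    have hu2pos : (0 : ℝ) < (u : ℝ) ^ 2 := by
      have : (u : ℝ) ≠ 0 := by exact_mod_cast hune
      positivity
    have h1 : (u : ℝ) ^ 2 * (2 * (a : ℝ) * (d χ₁ : ℝ) ^ 2) <
        (u : ℝ) ^ 2 * ∑ φ ∈ S₁, ((d φ : ℝ) ^ 2 / (n φ : ℝ)) :=
      mul_lt_mul_of_pos_left hD hu2pos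
    have h2 : (u : ℝ) ^ 2 * (2 * (a : ℝ) * (d χ₁ : ℝ) ^ 2) < (u : ℝ) * (2 * (a : ℝ) * (d χ₁ : ℝ) ^ 2) := by
      nlinarith
    have h3 : (0 : ℝ) < 2 * (a : ℝ) * (d χ₁ : ℝ) ^ 2 := by positivity
    have h4 : (u : ℝ) ^ 2 < (u : ℝ) := lt_of_mul_lt_mul_right h2 h3.le
    linarith
  have hx0 : ∀ φ ∈ S₁, x φ = if φ = χ₁ then -((a : ℤ) * n χ₁) else 0 := by
    intro φ hφ
    have h1 := hF5 φ hφ
    rw [hu0, mul_zero, zero_sub] at h1
    have hd1' : (d χ₁ : ℤ) ≠ 0 := by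
      have : 0 < (d χ₁ : ℤ) := by exact_mod_cast hd1
      exact this.ne'
    by_cases hφχ₁ : φ = χ₁
    · rw [if_pos hφχ₁] at h1 ⊢
      have h2 : (d χ₁ : ℤ) * x φ = (d χ₁ : ℤ) * (-((a : ℤ) * n χ₁)) := by rw [h1]; ring
      exact mul_left_cancel₀ hd1' h2
    · rw [if_neg hφχ₁] at h1 ⊢
      have h2 : (d χ₁ : ℤ) * x φ = (d χ₁ : ℤ) * 0 := by rw [h1]; ring
      exact mul_left_cancel₀ hd1' h2
  have hxsum : ∑ φ ∈ S₁, ((x φ : ℤ) : ℝ) ^ 2 / ((n φ : ℕ) : ℝ) = (a : ℝ) ^ 2 * (n χ₁ : ℝ) := by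
    rw [Finset.sum_eq_single χ₁]
    · rw [hx0 χ₁ hχ₁S, if_pos rfl]
      push_cast
      field_simp
    · intro φ hφ hne
      rw [hx0 φ hφ, if_neg hne]
      simp
    · intro h
      exact absurd hχ₁S h
  rw [hxsum] at hnn hΔreal
  have hysq' : ∑ α ∈ R χ, (y α) ^ 2 = (n χ : ℤ) := by
    have h1 : ((∑ α ∈ R χ, (y α) ^ 2 : ℤ) : ℝ) ≤ (n χ : ℝ) := by linarith
    have h2 : ∑ α ∈ R χ, (y α) ^ 2 ≤ (n χ : ℤ) := by exact_mod_cast h1
    omega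
  have hΔ0 : Δ = 0 := by
    rw [← Cfsg.Agent.Helper2.classInner_self_eq_zero_iff, hΔreal, hysq']
    push_cast
    ring_nf
  have hvX : v = X + (-(a : ℤ)) • τ₁ χ₁ := by
    have h1 : ∑ i ∈ S₁, ((((x i : ℤ) : ℝ) / ((n i : ℕ) : ℝ) : ℝ) : ℂ) • τ₁ i =
        (-(a : ℤ)) • τ₁ χ₁ := by
      rw [Finset.sum_eq_single χ₁]
      · rw [hx0 χ₁ hχ₁S, if_pos rfl, zsmul_fun_eq]
        congr 1
        have hn1C : (n χ₁ : ℂ) ≠ 0 := by
          have : n χ₁ ≠ 0 := by omega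
          exact_mod_cast this
        push_cast
        rw [neg_div, mul_div_assoc, div_self hn1C, mul_one]
      · intro φ hφ hne
        rw [hx0 φ hφ, if_neg hne]
        simp
      · intro h
        exact absurd hχ₁S h
    have h2 : v - X - ∑ i ∈ S₁, ((((x i : ℤ) : ℝ) / ((n i : ℕ) : ℝ) : ℝ) : ℂ) • τ₁ i = 0 := hΔ0
    rw [h1] at h2
    have h3 := sub_eq_zero.mp h2
    rw [← h3]
    abel
  -- properties of X and X'
  have hXα : ∀ α ∈ R χ, classInner X α = (y α : ℂ) := by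
    intro α hα
    rw [hXdef, Cfsg.Agent.Helper2.classInner_sum_left, Finset.sum_eq_single α]
    · rw [zsmul_fun_eq, Cfsg.Agent.Helper2.classInner_smul_left, hBorth α hα α hα, if_pos rfl,
        mul_one]
    · intro β' hβ' hne
      rw [zsmul_fun_eq, Cfsg.Agent.Helper2.classInner_smul_left, hBorth β' hβ' α hα, if_neg hne,
        mul_zero]
    · intro h
      exact absurd hα h
  have hysumC : ∑ α ∈ R χ, (y α : ℂ) = (n χ : ℂ) := by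
    have := congrArg (fun z : ℤ => (z : ℂ)) hysum
    push_cast at this
    exact this
  have hysqC : ∑ α ∈ R χ, (y α : ℂ) * (y α : ℂ) = (n χ : ℂ) := by
    have := congrArg (fun z : ℤ => (z : ℂ)) hysq'
    push_cast at this
    rw [← this]
    apply Finset.sum_congr rfl
    intro α _
    ring
  have hXX : classInner X X = (n χ : ℂ) := by
    have h1 : classInner X X = ∑ α ∈ R χ, (y α : ℂ) * classInner X α := by
      conv_lhs => rw [hXdef]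
      rw [Cfsg.Agent.Helper2.classInner_sum_right]
      apply Finset.sum_congr rfl
      intro α _
      rw [zsmul_fun_eq, Cfsg.Agent.Helper2.classInner_smul_right, map_intCast]
    rw [h1, Finset.sum_congr rfl (fun α hα => by rw [hXα α hα]), hysqC]
  set Sg : G → ℂ := ∑ α ∈ R χ, α with hSgdef
  have hXSg : classInner X Sg = (n χ : ℂ) := by
    rw [hSgdef, Cfsg.Agent.Helper2.classInner_sum_right,
      Finset.sum_congr rfl (fun α hα => hXα α hα), hysumC]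
  have hSgX : classInner Sg X = (n χ : ℂ) := by
    rw [Cfsg.Agent.Helper2.classInner_conj_symm, hXSg, Complex.conj_natCast]
  have hSgSg : classInner Sg Sg = (n χ : ℂ) + (n χ' : ℂ) := by
    rw [← hsumB, hτiso _ hχχ' _ hχχ', Cfsg.Agent.Helper2.classInner_sub_left,
      Cfsg.Agent.Helper2.classInner_sub_right, Cfsg.Agent.Helper2.classInner_sub_right,
      hn χ hχ, hn χ' hχ', e_χχ', e_χ'χ]
    ring
  set X' : G → ℂ := X - Sg with hX'def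
  have hX'X' : classInner X' X' = (n χ' : ℂ) := by
    rw [hX'def, Cfsg.Agent.Helper2.classInner_sub_left, Cfsg.Agent.Helper2.classInner_sub_right,
      Cfsg.Agent.Helper2.classInner_sub_right, hXX, hXSg, hSgX, hSgSg]
    ring
  have hXX' : classInner X X' = 0 := by
    rw [hX'def, Cfsg.Agent.Helper2.classInner_sub_right, hXX, hXSg, sub_self]
  have hX'X : classInner X' X = 0 := by
    rw [hX'def, Cfsg.Agent.Helper2.classInner_sub_left, hXX, hSgX, sub_self]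
  have hXτ : ∀ φ ∈ S₁, classInner X (τ₁ φ) = 0 := by
    intro φ hφ
    rw [hXdef, Cfsg.Agent.Helper2.classInner_sum_left]
    apply Finset.sum_eq_zero
    intro α hα
    rw [zsmul_fun_eq, Cfsg.Agent.Helper2.classInner_smul_left, hP1' φ hφ α hα, mul_zero]
  have hSgτ : ∀ φ ∈ S₁, classInner Sg (τ₁ φ) = 0 := by
    intro φ hφ
    rw [hSgdef, Cfsg.Agent.Helper2.classInner_sum_left]
    exact Finset.sum_eq_zero (fun α hα => hP1' φ hφ α hα)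
  have hX'τ : ∀ φ ∈ S₁, classInner X' (τ₁ φ) = 0 := by
    intro φ hφ
    rw [hX'def, Cfsg.Agent.Helper2.classInner_sub_left, hXτ φ hφ, hSgτ φ hφ, sub_zero]
  have hτX : ∀ φ ∈ S₁, classInner (τ₁ φ) X = 0 := by
    intro φ hφ
    rw [Cfsg.Agent.Helper2.classInner_conj_symm, hXτ φ hφ, map_zero]
  have hτX' : ∀ φ ∈ S₁, classInner (τ₁ φ) X' = 0 := by
    intro φ hφ
    rw [Cfsg.Agent.Helper2.classInner_conj_symm, hX'τ φ hφ, map_zero]
  have hXgen : IsGeneralizedCharacter G X := isGeneralizedCharacter_finset_sum _ _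
    (fun α hα => Cfsg.Agent.Helper7.isGeneralizedCharacter_zsmul _ (hBgen α hα))
  have hSggen : IsGeneralizedCharacter G Sg := isGeneralizedCharacter_finset_sum _ _ hBgen
  have hX'gen : IsGeneralizedCharacter G X' := isGeneralizedCharacter_sub' hXgen hSggen
  -- the extension
  set S₂ : Set (L → ℂ) := (↑S₁ ∪ {χ, χ'} : Set (L → ℂ)) with hS₂def
  have hS₂cases : ∀ f ∈ S₂, f ∈ S₁ ∨ f = χ ∨ f = χ' := by
    intro f hf
    rcases hf with h | h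
    · left; exact Finset.mem_coe.mp h
    · rcases h with h | h
      · right; left; exact h
      · right; right; exact h
  have hS₂sub : S₂ ⊆ S := by
    intro f hf
    rcases hS₂cases f hf with h | h | h
    · exact hS₁mem f h
    · rw [h]; exact hχ
    · rw [h]; exact hχ'
  have hS₁S₂ : (↑S₁ : Set (L → ℂ)) ⊆ S₂ := Set.subset_union_left
  have hχS₂ : χ ∈ S₂ := Set.mem_union_right _ (Set.mem_insert χ _)
  have hχ'S₂ : χ' ∈ S₂ := Set.mem_union_right _ (Set.mem_insert_of_mem χ (Set.mem_singleton χ'))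
  set t : (L → ℂ) → (G → ℂ) := fun f => if f = χ then X else if f = χ' then X' else τ₁ f
    with htdef
  have htχ : t χ = X := if_pos rfl
  have htχ' : t χ' = X' := by
    show (if χ' = χ then X else if χ' = χ' then X' else τ₁ χ') = X'
    rw [if_neg hχ'ne, if_pos rfl]
  have htφ : ∀ φ ∈ S₁, t φ = τ₁ φ := by
    intro φ hφ
    show (if φ = χ then X else if φ = χ' then X' else τ₁ φ) = τ₁ φ
    rw [if_neg (hneχ φ hφ), if_neg (hneχ' φ hφ)]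
  have horth₂ : ∀ f ∈ S₂, ∀ g ∈ S₂, f ≠ g → classInner f g = 0 :=
    fun f hf g hg h => horth f (hS₂sub hf) g (hS₂sub hg) h
  have hne₂ : ∀ f ∈ S₂, classInner f f ≠ 0 := by
    intro f hf h
    exact hχne0 f (hS₂sub hf) ((Cfsg.Agent.Helper2.classInner_self_eq_zero_iff f).mp h)
  have hS₂fin : S₂.Finite := orth_set_finite horth₂ hne₂
  have hT1 : ∀ f ∈ S₂, IsGeneralizedCharacter G (t f) := by
    intro f hf
    rcases hS₂cases f hf with h | h | h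
    · rw [htφ f h]; exact hτ₁.2.2.2 f (hmem1 f h)
    · rw [h, htχ]; exact hXgen
    · rw [h, htχ']; exact hX'gen
  have hT2 : ∀ f ∈ S₂, ∀ g ∈ S₂, classInner (t f) (t g) = classInner f g := by
    intro f hf g hg
    rcases hS₂cases f hf with h | h | h <;> rcases hS₂cases g hg with h' | h' | h'
    · rw [htφ f h, htφ g h']; exact hτ₁.2.2.1 f (hmem1 f h) g (hmem1 g h')
    · rw [htφ f h, h', htχ, hτX f h, horth f (hS₁mem f h) χ hχ (hneχ f h)]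
    · rw [htφ f h, h', htχ', hτX' f h, horth f (hS₁mem f h) χ' hχ' (hneχ' f h)]
    · rw [h, htχ, htφ g h', hXτ g h', horth χ hχ g (hS₁mem g h') (fun e => hneχ g h' e.symm)]
    · rw [h, h', htχ, hXX, hn χ hχ]
    · rw [h, h', htχ, htχ', hXX', e_χχ']
    · rw [h, htχ', htφ g h', hX'τ g h', horth χ' hχ' g (hS₁mem g h') (fun e => hneχ' g h' e.symm)]
    · rw [h, h', htχ', htχ, hX'X, e_χ'χ]
    · rw [h, h', htχ', hX'X', hn χ' hχ']
  obtain ⟨τ₂, hτ₂iso, hτ₂S, hτ₂add, hτ₂smul⟩ :=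
    exists_isLinIso_extension hS₂fin horth₂ hne₂ t hT1 hT2
  have hτ₂0 : τ₂ 0 = 0 := by
    have := hτ₂smul 0 0
    rwa [zero_smul, zero_smul] at this
  have hclaim : ∀ f ∈ zspan S₂, ∃ (k l : ℤ) (s : L → ℂ), s ∈ zspan (↑S₁ : Set (L → ℂ)) ∧
      f = s + k • χ + l • χ' ∧ τ₂ f = τ₁ s + k • X + l • X' := by
    intro f hf
    refine Submodule.span_induction (p := fun f _ => ∃ (k l : ℤ) (s : L → ℂ),
      s ∈ zspan (↑S₁ : Set (L → ℂ)) ∧ f = s + k • χ + l • χ' ∧ τ₂ f = τ₁ s + k • X + l • X')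
      ?_ ?_ ?_ ?_ hf
    · intro f hf
      rcases hS₂cases f hf with h | h | h
      · refine ⟨0, 0, f, hmem1 f h, ?_, ?_⟩
        · rw [zero_smul, zero_smul, add_zero, add_zero]
        · rw [hτ₂S f hf, htφ f h, zero_smul, zero_smul, add_zero, add_zero]
      · refine ⟨1, 0, 0, Submodule.zero_mem _, ?_, ?_⟩
        · rw [h, one_smul, zero_smul, zero_add, add_zero]
        · rw [hτ₂S f hf, h, htχ, hτ₁0, one_smul, zero_smul, zero_add, add_zero]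
      · refine ⟨0, 1, 0, Submodule.zero_mem _, ?_, ?_⟩
        · rw [h, one_smul, zero_smul, zero_add, zero_add]
        · rw [hτ₂S f hf, h, htχ', hτ₁0, one_smul, zero_smul, zero_add, zero_add]
    · refine ⟨0, 0, 0, Submodule.zero_mem _, ?_, ?_⟩
      · rw [zero_smul, zero_smul, add_zero, add_zero]
      · rw [hτ₂0, hτ₁0, zero_smul, zero_smul, add_zero, add_zero]
    · rintro f g _ _ ⟨k, l, s, hs, hf1, hf2⟩ ⟨k', l', s', hs', hg1, hg2⟩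
      refine ⟨k + k', l + l', s + s', Submodule.add_mem _ hs hs', ?_, ?_⟩
      · rw [hf1, hg1, add_smul, add_smul]; abel
      · rw [hτ₂add, hf2, hg2, hτ₁.1 s hs s' hs', add_smul, add_smul]; abel
    · rintro c f _ ⟨k, l, s, hs, hf1, hf2⟩
      refine ⟨c * k, c * l, c • s, Submodule.smul_mem _ _ hs, ?_, ?_⟩
      · rw [hf1, smul_add, smul_add, mul_smul, mul_smul]
      · rw [hτ₂smul, hf2, hτ₁.2.1 s hs c, smul_add, smul_add, mul_smul, mul_smul]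
  refine ⟨⟨α₀, zspanOn_mono hS₁S₂ _ hα₀, hα₀ne⟩, τ₂, hτ₂iso, ?_⟩
  intro θ hθ
  obtain ⟨k, l, s, hs, hθ1, hθ2⟩ := hclaim θ hθ.1
  have hθ0 : θ 1 = 0 := zspanOn_compl_one_apply hθ
  have hs'mem : (s + ((k + l) * a) • χ₁) ∈ zspanOn (↑S₁ : Set (L → ℂ)) {1}ᶜ := by
    apply mem_zspanOn_compl_one
    · exact Submodule.add_mem _ hs (Submodule.smul_mem _ _ (hmem1 χ₁ hχ₁S))
    · have h1 : s 1 + k • χ 1 + l • χ' 1 = 0 := by
        have : (s + k • χ + l • χ') 1 = 0 := by rw [← hθ1]; exact hθ0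
        exact this
      show s 1 + ((k + l) * a) • χ₁ 1 = 0
      rw [hχ'def, hdconj χ hχ, hd χ hχ, ha, zsmul_eq_mul, zsmul_eq_mul] at h1
      rw [hd χ₁ hχ₁S', zsmul_eq_mul]
      push_cast at h1 ⊢
      linear_combination h1
  have hident : θ = (s + ((k + l) * a) • χ₁) + (k + l) • β + (-l) • (χ - χ') := by
    rw [hθ1, hβdef]
    funext g
    simp only [Pi.add_apply, Pi.smul_apply, Pi.sub_apply]
    simp only [zsmul_eq_mul]
    push_cast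
    ring
  have hm1 := hsub1 hs'mem
  have hm2 := zspanOn_zsmul_mem (k + l) hβ
  have hm3 := zspanOn_zsmul_mem (-l) hχχ'
  have h1 : τ θ = τ₁ (s + ((k + l) * a) • χ₁) + (k + l) • v + (-l) • Sg := by
    rw [hident, hτadd _ (zspanOn_add_mem hm1 hm2) _ hm3, hτadd _ hm1 _ hm2, hτsmul β hβ,
      hτsmul _ hχχ', hsumB, ← hagree _ hs'mem]
  rw [h1, hτ₁.1 s hs _ (Submodule.smul_mem _ _ (hmem1 χ₁ hχ₁S)), hτ₁.2.1 χ₁ (hmem1 χ₁ hχ₁S), hvX,
    hθ2, hX'def]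
  funext g
  simp only [Pi.add_apply, Pi.smul_apply, Pi.sub_apply]
  simp only [zsmul_eq_mul]
  push_cast
  ring

end Cfsg.Agent.S1516
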