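import Cfsg.Statements.S1517
import Mathlib
import Cfsg.Agent.Helper11.Coh3

set_option autoImplicit false
open Cfsg

namespace Cfsg.Agent.S1517

open Cfsg.Agent.Helper11

/-- Let (S, τ, R) be a coherence system from L to G such that φ 1 = ψ 1 for all φ, ψ ∈ S. Then (S, L minus 1, τ) is coherent. -/
theorem result {L : Type*} [Group L] [Fintype L] {G : Type*} [Group G] [Fintype G] (S : Set (L → ℂ)) (τ : (L → ℂ) → (G → ℂ)) (R : (L → ℂ) → Finset (G → ℂ)) (hS : Cfsg.IsCoherenceSystem S τ R) (hdeg : ∀ φ ∈ S, ∀ ψ ∈ S, φ 1 = ψ 1) : Cfsg.IsCoherent S {1}ᶜ τ := by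
  classical
  obtain ⟨χ₀, hχ₀⟩ := hS.nonempty
  have hconjconj : ∀ f : L → ℂ, conjFun (conjFun f) = f := by
    intro f
    funext x
    simp [conjFun]
  set χ₀' := conjFun χ₀ with hχ₀'def
  have hχ₀' : χ₀' ∈ S := hS.conj_mem χ₀ hχ₀
  have hne₀ : χ₀' ≠ χ₀ := hS.conj_ne χ₀ hχ₀
  have hnorm : ∀ χ ∈ S, ∃ n : ℕ, classInner χ χ = (n : ℂ) := fun χ hχ =>
    Cfsg.Agent.Helper2.classInner_char_nat (hS.isCharacter χ hχ) (hS.isCharacter χ hχ)
  choose! nn hnn using hnorm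
  have hχne0 : ∀ χ ∈ S, χ ≠ 0 := by
    intro χ hχ h
    apply hS.conj_ne χ hχ
    rw [h]
    funext x
    simp [conjFun]
  have hnnne : ∀ χ ∈ S, classInner χ χ ≠ 0 := by
    intro χ hχ h
    exact hχne0 χ hχ ((Cfsg.Agent.Helper2.classInner_self_eq_zero_iff χ).mp h)
  have horth := hS.orthogonal
  have hSfin : S.Finite := orth_set_finite horth hnnne
  obtain ⟨hτadd, hτsmul, hτiso, hτgen⟩ := hS.isometry
  have hd0 : χ₀ 1 ≠ 0 := by
    obtain ⟨n, ρ, hρ⟩ := hS.isCharacter χ₀ hχ₀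
    have h1 : χ₀ 1 = (n : ℂ) := by rw [← hρ]; exact Cfsg.Agent.Helper25.rep_char_one ρ
    rw [h1]
    intro hn
    have hn0 : n = 0 := by exact_mod_cast hn
    subst hn0
    apply hχne0 χ₀ hχ₀
    rw [← hρ]
    funext g
    have h2 : ρ g = 0 := LinearMap.ext (fun x => Subsingleton.elim _ _)
    show LinearMap.trace ℂ _ (ρ g) = 0
    rw [h2, map_zero]
  have hmemS : ∀ χ ∈ S, χ ∈ zspan S := fun χ hχ => Submodule.subset_span hχ
  have hdiff : ∀ χ ∈ S, ∀ φ ∈ S, (χ - φ) ∈ zspanOn S {1}ᶜ := by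
    intro χ hχ φ hφ
    apply mem_zspanOn_compl_one (Submodule.sub_mem _ (hmemS χ hχ) (hmemS φ hφ))
    rw [Pi.sub_apply, hdeg χ hχ φ hφ, sub_self]
  have hτ0 : τ 0 = 0 := by
    have h1 := hτsmul _ (hdiff χ₀ hχ₀ χ₀ hχ₀) 0
    rwa [zero_smul, zero_smul] at h1
  have hτneg : ∀ α ∈ zspanOn S {1}ᶜ, τ (-α) = -τ α := by
    intro α hα
    have h1 := hτsmul α hα (-1)
    rwa [neg_one_zsmul, neg_one_zsmul] at h1
  have hτsub : ∀ α ∈ zspanOn S {1}ᶜ, ∀ β ∈ zspanOn S {1}ᶜ, τ (α - β) = τ α - τ β := by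
    intro α hα β hβ
    have hnβ : -β ∈ zspanOn S {1}ᶜ := by
      have := zspanOn_zsmul_mem (-1) hβ
      rwa [neg_one_zsmul] at this
    rw [sub_eq_add_neg, hτadd α hα (-β) hnβ, hτneg β hβ, sub_eq_add_neg]
  have hinn : ∀ a ∈ S, ∀ b ∈ S, ∀ c ∈ S, ∀ e ∈ S, classInner (τ (a - b)) (τ (c - e)) =
      classInner a c - classInner a e - classInner b c + classInner b e := by
    intro a ha b hb c hc e he
    rw [hτiso _ (hdiff a ha b hb) _ (hdiff c hc e he), Cfsg.Agent.Helper2.classInner_sub_left,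
      Cfsg.Agent.Helper2.classInner_sub_right, Cfsg.Agent.Helper2.classInner_sub_right]
    ring
  have hsumA : τ (χ₀ - χ₀') = ∑ α ∈ R χ₀, α := hS.sum_eq χ₀ hχ₀
  have hAorth := hS.orthonormal χ₀ hχ₀
  have hAgen := hS.virtual χ₀ hχ₀
  have h00' : classInner χ₀ χ₀' = 0 := horth χ₀ hχ₀ χ₀' hχ₀' (Ne.symm hne₀)
  have h0'0 : classInner χ₀' χ₀ = 0 := horth χ₀' hχ₀' χ₀ hχ₀ hne₀
  have hRR' : ∀ χ ∈ S, ∀ φ ∈ S, φ ≠ χ → φ ≠ conjFun χ →
      ∀ α ∈ R φ, ∀ β ∈ R χ, classInner α β = 0 := by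
    intro χ hχ φ hφ h1 h2
    exact hS.disjoint χ hχ φ hφ (horth φ hφ χ hχ h1) (horth φ hφ _ (hS.conj_mem χ hχ) h2)
  have hconj_ne : ∀ χ ∈ S, χ ≠ χ₀' → conjFun χ ≠ χ₀ := by
    intro χ _ h2 h
    apply h2
    rw [hχ₀'def, ← h, hconjconj]
  have hRR : ∀ χ ∈ S, χ ≠ χ₀ → χ ≠ χ₀' → ∀ α ∈ R χ₀, ∀ β ∈ R χ, classInner α β = 0 := by
    intro χ hχ h1 h2
    exact hRR' χ hχ χ₀ hχ₀ (Ne.symm h1) (Ne.symm (hconj_ne χ hχ h2))
  have hD : ∀ χ ∈ S, χ ≠ χ₀ → χ ≠ χ₀' → ∃ m : (G → ℂ) → ℤ,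
      (∀ α ∈ R χ₀, classInner (τ (χ - χ₀)) α = (m α : ℂ)) ∧
      (∀ β ∈ R χ, classInner (τ (χ - χ₀)) β = (m β : ℂ)) ∧
      (∀ α ∈ R χ₀, m α = 0 ∨ m α = -1) ∧ (∀ β ∈ R χ, m β = 0 ∨ m β = 1) ∧
      (∑ α ∈ R χ₀, m α = -(nn χ₀ : ℤ)) ∧ (∑ β ∈ R χ, m β = (nn χ : ℤ)) ∧
      τ (χ - χ₀) = ∑ α ∈ R χ₀, (m α) • α + ∑ β ∈ R χ, (m β) • β := by
    intro χ hχ h1 h2
    have hχc : conjFun χ ∈ S := hS.conj_mem χ hχ
    have hc1 : conjFun χ ≠ χ₀ := hconj_ne χ hχ h2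
    have hc2 : conjFun χ ≠ χ := hS.conj_ne χ hχ
    have e1 : classInner χ₀ χ = 0 := horth χ₀ hχ₀ χ hχ (Ne.symm h1)
    have e2 : classInner χ₀ (conjFun χ) = 0 := horth χ₀ hχ₀ _ hχc (Ne.symm hc1)
    have e3 : classInner χ χ₀ = 0 := horth χ hχ χ₀ hχ₀ h1
    have e4 : classInner χ χ₀' = 0 := horth χ hχ χ₀' hχ₀' h2
    have e5 : classInner χ (conjFun χ) = 0 := horth χ hχ _ hχc (Ne.symm hc2)
    apply coh_two_family (R χ₀) (R χ) (τ (χ - χ₀)) (hτgen _ (hdiff χ hχ χ₀ hχ₀)) hAorth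
      (hS.orthonormal χ hχ) (hRR χ hχ h1 h2) hAgen (hS.virtual χ hχ) (nn χ₀) (nn χ)
    · rw [← hsumA, hinn χ hχ χ₀ hχ₀ χ₀ hχ₀ χ₀' hχ₀', e3, e4, hnn χ₀ hχ₀, h00']; ring
    · rw [← hS.sum_eq χ hχ, hinn χ hχ χ₀ hχ₀ χ hχ _ hχc, hnn χ hχ, e5, e1, e2]; ring
    · rw [hinn χ hχ χ₀ hχ₀ χ hχ χ₀ hχ₀, hnn χ hχ, e3, e1, hnn χ₀ hχ₀]; ring
  choose! M hM using hD
  -- the coefficients of t₀
  have hc : ∃ c : (G → ℂ) → ℤ, (∀ α ∈ R χ₀, c α = 0 ∨ c α = 1) ∧
      (∑ α ∈ R χ₀, c α = (nn χ₀ : ℤ)) ∧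
      (∀ χ ∈ S, χ ≠ χ₀ → χ ≠ χ₀' → ∑ α ∈ R χ₀, c α * M χ α = -(nn χ₀ : ℤ)) := by
    by_cases hS' : ∃ χ₁ ∈ S, χ₁ ≠ χ₀ ∧ χ₁ ≠ χ₀'
    · obtain ⟨χ₁, hχ₁, h1, h2⟩ := hS'
      obtain ⟨hM1, hM2, hM3, hM4, hM5, hM6, hM7⟩ := hM χ₁ hχ₁ h1 h2
      have hsq : ∑ α ∈ R χ₀, M χ₁ α * M χ₁ α = (nn χ₀ : ℤ) := by
        have h3 : ∀ α ∈ R χ₀, M χ₁ α * M χ₁ α = -M χ₁ α := by
          intro α hα
          rcases hM3 α hα with h | h <;> rw [h] <;> ring
        rw [Finset.sum_congr rfl h3, Finset.sum_neg_distrib, hM5]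
        ring
      refine ⟨fun α => -M χ₁ α, ?_, ?_, ?_⟩
      · intro α hα
        rcases hM3 α hα with h | h
        · left; simp [h]
        · right; simp [h]
      · rw [Finset.sum_neg_distrib, hM5]; ring
      · intro χ hχ hχ1 hχ2
        obtain ⟨hN1, hN2, hN3, hN4, hN5, hN6, hN7⟩ := hM χ hχ hχ1 hχ2
        suffices hkey : ∑ α ∈ R χ₀, M χ₁ α * M χ α = (nn χ₀ : ℤ) by
          rw [← hkey, ← Finset.sum_neg_distrib]
          apply Finset.sum_congr rfl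
          intro α _
          ring
        by_cases hχeq : χ = χ₁
        · rw [hχeq]; exact hsq
        · by_cases hχeq' : χ = conjFun χ₁
          · have hsame : ∀ α ∈ R χ₀, M χ α = M χ₁ α := by
              intro α hα
              have h3 : τ (χ - χ₀) = τ (χ₁ - χ₀) - τ (χ₁ - conjFun χ₁) := by
                rw [← hτsub _ (hdiff χ₁ hχ₁ χ₀ hχ₀) _ (hdiff χ₁ hχ₁ _ (hS.conj_mem χ₁ hχ₁)), hχeq']
                congr 1
                abel
              have h4 : classInner (τ (χ - χ₀)) α = classInner (τ (χ₁ - χ₀)) α := by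
                rw [h3, Cfsg.Agent.Helper2.classInner_sub_left, hS.sum_eq χ₁ hχ₁,
                  Cfsg.Agent.Helper2.classInner_sum_left, Finset.sum_eq_zero, sub_zero]
                intro β hβ
                rw [Cfsg.Agent.Helper2.classInner_conj_symm, hRR χ₁ hχ₁ h1 h2 α hα β hβ, map_zero]
              rw [hN1 α hα, hM1 α hα] at h4
              exact_mod_cast h4
            rw [Finset.sum_congr rfl (fun α hα => by rw [hsame α hα])]
            exact hsq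
          · have h5 : classInner (τ (χ - χ₀)) (τ (χ₁ - χ₀)) = (nn χ₀ : ℂ) := by
              rw [hinn χ hχ χ₀ hχ₀ χ₁ hχ₁ χ₀ hχ₀, horth χ hχ χ₁ hχ₁ hχeq,
                horth χ hχ χ₀ hχ₀ hχ1, horth χ₀ hχ₀ χ₁ hχ₁ (Ne.symm h1), hnn χ₀ hχ₀]
              ring
            have h6 : ∀ β ∈ R χ₁, classInner (τ (χ - χ₀)) β = 0 := by
              intro β hβ
              rw [hN7, Cfsg.Agent.Helper2.classInner_add_left,
                Cfsg.Agent.Helper2.classInner_sum_left, Cfsg.Agent.Helper2.classInner_sum_left,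
                Finset.sum_eq_zero, Finset.sum_eq_zero, add_zero]
              · intro β' hβ'
                rw [zsmul_fun_eq, Cfsg.Agent.Helper2.classInner_smul_left,
                  hRR' χ₁ hχ₁ χ hχ hχeq hχeq' β' hβ' β hβ, mul_zero]
              · intro α hα
                rw [zsmul_fun_eq, Cfsg.Agent.Helper2.classInner_smul_left,
                  hRR χ₁ hχ₁ h1 h2 α hα β hβ, mul_zero]
            rw [hM7, Cfsg.Agent.Helper2.classInner_add_right,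
              Cfsg.Agent.Helper2.classInner_sum_right, Cfsg.Agent.Helper2.classInner_sum_right] at h5
            have h7 : ∑ β ∈ R χ₁, classInner (τ (χ - χ₀)) ((M χ₁ β) • β) = 0 := by
              apply Finset.sum_eq_zero
              intro β hβ
              rw [zsmul_fun_eq, Cfsg.Agent.Helper2.classInner_smul_right, h6 β hβ, mul_zero]
            rw [h7, add_zero] at h5
            have h8 : ∑ α ∈ R χ₀, classInner (τ (χ - χ₀)) ((M χ₁ α) • α) =
                ((∑ α ∈ R χ₀, M χ₁ α * M χ α : ℤ) : ℂ) := by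
              push_cast
              apply Finset.sum_congr rfl
              intro α hα
              rw [zsmul_fun_eq, Cfsg.Agent.Helper2.classInner_smul_right, hN1 α hα, map_intCast]
            rw [h8] at h5
            exact_mod_cast h5
    · push Not at hS'
      have hcard : nn χ₀ ≤ (R χ₀).card := by
        have h1 : classInner (∑ α ∈ R χ₀, α) (∑ α ∈ R χ₀, α) = ((R χ₀).card : ℂ) := by
          rw [Cfsg.Agent.Helper2.classInner_sum_left]
          rw [Finset.sum_congr rfl (fun α hα => by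
            rw [Cfsg.Agent.Helper2.classInner_sum_right,
              Finset.sum_congr rfl (fun β hβ => hAorth α hα β hβ), Finset.sum_ite_eq, if_pos hα])]
          simp
        rw [← hsumA, hinn χ₀ hχ₀ χ₀' hχ₀' χ₀ hχ₀ χ₀' hχ₀', hnn χ₀ hχ₀, h00', h0'0,
          hnn χ₀' hχ₀'] at h1
        have h2 : ((nn χ₀ + nn χ₀' : ℕ) : ℂ) = ((R χ₀).card : ℂ) := by
          push_cast
          linear_combination h1
        have h3 : nn χ₀ + nn χ₀' = (R χ₀).card := by exact_mod_cast h2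
        omega
      obtain ⟨A₁, hA₁, hA₁c⟩ := Finset.exists_subset_card_eq hcard
      refine ⟨fun α => if α ∈ A₁ then 1 else 0, ?_, ?_, ?_⟩
      · intro α _
        by_cases h : α ∈ A₁ <;> simp [h]
      · rw [Finset.sum_ite_mem, Finset.inter_eq_right.mpr hA₁, Finset.sum_const, hA₁c]
        simp
      · intro χ hχ h1 h2
        exact absurd (hS' χ hχ h1) h2
  obtain ⟨c, hc1, hc2, hc3⟩ := hc
  have hc2' : ∑ α ∈ R χ₀, (c α : ℂ) = (nn χ₀ : ℂ) := by
    have := congrArg (fun z : ℤ => (z : ℂ)) hc2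
    push_cast at this
    exact this
  set t₀ : G → ℂ := ∑ α ∈ R χ₀, (c α) • α with ht₀
  have ht₀gen : IsGeneralizedCharacter G t₀ := isGeneralizedCharacter_finset_sum _ _
    (fun α hα => Cfsg.Agent.Helper7.isGeneralizedCharacter_zsmul _ (hAgen α hα))
  have hinner_t₀ : ∀ w : G → ℂ, classInner w t₀ = ∑ α ∈ R χ₀, (c α : ℂ) * classInner w α := by
    intro w
    rw [ht₀, Cfsg.Agent.Helper2.classInner_sum_right]
    apply Finset.sum_congr rfl
    intro α _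
    rw [zsmul_fun_eq, Cfsg.Agent.Helper2.classInner_smul_right, map_intCast]
  have ht₀norm : classInner t₀ t₀ = (nn χ₀ : ℂ) := by
    rw [hinner_t₀]
    have h1 : ∀ α ∈ R χ₀, (c α : ℂ) * classInner t₀ α = (c α : ℂ) := by
      intro α hα
      have h2 : classInner t₀ α = (c α : ℂ) := by
        rw [ht₀, Cfsg.Agent.Helper2.classInner_sum_left, Finset.sum_eq_single α]
        · rw [zsmul_fun_eq, Cfsg.Agent.Helper2.classInner_smul_left, hAorth α hα α hα, if_pos rfl,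
            mul_one]
        · intro β hβ hne
          rw [zsmul_fun_eq, Cfsg.Agent.Helper2.classInner_smul_left, hAorth β hβ α hα, if_neg hne,
            mul_zero]
        · intro h
          exact absurd hα h
      rw [h2]
      rcases hc1 α hα with h | h <;> rw [h] <;> simp
    rw [Finset.sum_congr rfl h1, hc2']
  have hK : ∀ χ ∈ S, classInner (τ (χ - χ₀)) t₀ = -(nn χ₀ : ℂ) + classInner χ χ₀ := by
    intro χ hχ
    rw [hinner_t₀]
    by_cases h1 : χ = χ₀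
    · rw [h1, sub_self, hτ0, hnn χ₀ hχ₀]
      simp [Cfsg.Agent.Helper2.classInner_zero_left]
    · by_cases h2 : χ = χ₀'
      · rw [h2, h0'0, add_zero]
        have h3 : τ (χ₀' - χ₀) = -∑ α ∈ R χ₀, α := by
          rw [← hsumA, ← hτneg _ (hdiff χ₀ hχ₀ χ₀' hχ₀'), neg_sub]
        have h4 : ∀ α ∈ R χ₀, (c α : ℂ) * classInner (τ (χ₀' - χ₀)) α = -(c α : ℂ) := by
          intro α hα
          rw [h3, Cfsg.Agent.Helper2.classInner_neg_left, Cfsg.Agent.Helper2.classInner_sum_left,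
            Finset.sum_eq_single α]
          · rw [hAorth α hα α hα, if_pos rfl]; ring
          · intro β hβ hne
            rw [hAorth β hβ α hα, if_neg hne]
          · intro h
            exact absurd hα h
        rw [Finset.sum_congr rfl h4, Finset.sum_neg_distrib, hc2']
      · obtain ⟨hM1, -, -, -, -, -, -⟩ := hM χ hχ h1 h2
        rw [horth χ hχ χ₀ hχ₀ h1, add_zero]
        have h4 : ∀ α ∈ R χ₀, (c α : ℂ) * classInner (τ (χ - χ₀)) α =
            ((c α * M χ α : ℤ) : ℂ) := by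
          intro α hα
          rw [hM1 α hα]
          push_cast
          ring
        rw [Finset.sum_congr rfl h4, ← Int.cast_sum, hc3 χ hχ h1 h2]
        push_cast
        ring
  set t : (L → ℂ) → (G → ℂ) := fun χ => t₀ + τ (χ - χ₀) with ht
  have hT1 : ∀ χ ∈ S, IsGeneralizedCharacter G (t χ) := fun χ hχ =>
    Cfsg.Agent.Helper7.isGeneralizedCharacter_add ht₀gen (hτgen _ (hdiff χ hχ χ₀ hχ₀))
  have hT2 : ∀ χ ∈ S, ∀ φ ∈ S, classInner (t χ) (t φ) = classInner χ φ := by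
    intro χ hχ φ hφ
    show classInner (t₀ + τ (χ - χ₀)) (t₀ + τ (φ - χ₀)) = classInner χ φ
    rw [Cfsg.Agent.Helper2.classInner_add_left, Cfsg.Agent.Helper2.classInner_add_right,
      Cfsg.Agent.Helper2.classInner_add_right, ht₀norm, hK χ hχ,
      Cfsg.Agent.Helper2.classInner_conj_symm (τ (φ - χ₀)) t₀, hK φ hφ,
      hinn χ hχ χ₀ hχ₀ φ hφ χ₀ hχ₀, hnn χ₀ hχ₀, map_add, map_neg, Complex.conj_natCast,
      ← Cfsg.Agent.Helper2.classInner_conj_symm]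
    ring
  obtain ⟨τ₁, hτ₁iso, hτ₁S, hτ₁add, hτ₁smul⟩ :=
    exists_isLinIso_extension hSfin horth hnnne t hT1 hT2
  have hτ₁0 : τ₁ 0 = 0 := by
    have := hτ₁smul 0 0
    rwa [zero_smul, zero_smul] at this
  refine ⟨⟨χ₀ - χ₀', hdiff χ₀ hχ₀ χ₀' hχ₀', ?_⟩, τ₁, hτ₁iso, ?_⟩
  · intro h
    exact hne₀ (sub_eq_zero.mp h).symm
  · have hclaim : ∀ f ∈ zspan S, ∃ k : ℤ, (f + (-k) • χ₀) ∈ zspanOn S {1}ᶜ ∧
        τ₁ (f + (-k) • χ₀) = τ (f + (-k) • χ₀) := by
      intro f hf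
      refine Submodule.span_induction (p := fun f _ => ∃ k : ℤ, (f + (-k) • χ₀) ∈ zspanOn S {1}ᶜ ∧
        τ₁ (f + (-k) • χ₀) = τ (f + (-k) • χ₀)) ?_ ?_ ?_ ?_ hf
      · intro χ hχ
        have h1 : χ + (-(1 : ℤ)) • χ₀ = χ - χ₀ := by rw [neg_smul, one_smul, sub_eq_add_neg]
        refine ⟨1, ?_, ?_⟩
        · rw [h1]; exact hdiff χ hχ χ₀ hχ₀
        · rw [hτ₁add, hτ₁smul, hτ₁S χ hχ, hτ₁S χ₀ hχ₀, h1]
          show t₀ + τ (χ - χ₀) + (-(1 : ℤ)) • (t₀ + τ (χ₀ - χ₀)) = τ (χ - χ₀)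
          rw [sub_self, hτ0, add_zero, neg_smul, one_smul]
          abel
      · refine ⟨0, ?_, ?_⟩
        · rw [neg_zero, zero_smul, add_zero]
          exact ⟨Submodule.zero_mem _, fun _ _ => rfl⟩
        · rw [neg_zero, zero_smul, add_zero, hτ₁0, hτ0]
      · rintro x y _ _ ⟨k, hk1, hk2⟩ ⟨k', hk1', hk2'⟩
        have h1 : x + y + (-(k + k')) • χ₀ = (x + (-k) • χ₀) + (y + (-k') • χ₀) := by
          rw [neg_add, add_smul]; abel
        refine ⟨k + k', ?_, ?_⟩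
        · rw [h1]; exact zspanOn_add_mem hk1 hk1'
        · rw [h1, hτ₁add, hk2, hk2', hτadd _ hk1 _ hk1']
      · rintro a x _ ⟨k, hk1, hk2⟩
        have h1 : a • x + (-(a * k)) • χ₀ = a • (x + (-k) • χ₀) := by
          rw [smul_add, smul_smul, mul_neg]
        refine ⟨a * k, ?_, ?_⟩
        · rw [h1]; exact zspanOn_zsmul_mem a hk1
        · rw [h1, hτ₁smul, hk2, hτsmul _ hk1 a]
    intro θ hθ
    obtain ⟨k, hk1, hk2⟩ := hclaim θ hθ.1
    have h1 := zspanOn_compl_one_apply hk1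
    have h2 := zspanOn_compl_one_apply hθ
    have h3 : θ 1 + (-k) • χ₀ 1 = 0 := h1
    rw [h2, zero_add, zsmul_eq_mul] at h3
    have hk0 : k = 0 := by
      rcases mul_eq_zero.mp h3 with h | h
      · have h4 : -k = 0 := by exact_mod_cast h
        omega
      · exact absurd h hd0
    rw [hk0, neg_zero, zero_smul, add_zero] at hk2
    exact hk2

end Cfsg.Agent.S1517
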