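import Cfsg.Statements.S1500
import Cfsg.Agent.Helper11.DadeIso

set_option autoImplicit false
open Cfsg

namespace Cfsg.Agent.S1500

open Cfsg.Agent.Helper11

/-- Under the Dade hypothesis for (A, L, H), let α be a class function of L vanishing outside A. Then (i) for every class function β of L vanishing outside A, the inner product over G of the Dade images of α and β equals the inner product of α and β over L; and (ii) for every class function χ of G and every function ψ on L whose value at each a ∈ A is the average of χ over the coset a·H(a), the inner product over G of the Dade image of α with χ equals the inner product over L of α with ψ. -/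
theorem result {G : Type*} [Group G] [Fintype G] (A : Set G) (L : Subgroup G) [Fintype L] (H : G → Subgroup G) (hD : Cfsg.DadeHypothesis A L H) (α : L → ℂ) (hα : Cfsg.IsClassFunction L α) (hαA : ∀ x : L, (x : G) ∉ A → α x = 0) : (∀ β : L → ℂ, Cfsg.IsClassFunction L β → (∀ x : L, (x : G) ∉ A → β x = 0) → Cfsg.classInner (Cfsg.dadeIsometry A L H α) (Cfsg.dadeIsometry A L H β) = Cfsg.classInner α β) ∧ (∀ (χ : G → ℂ) (ψ : L → ℂ), Cfsg.IsClassFunction G χ → (∀ a : L, (a : G) ∈ A → ψ a = (Nat.card (H a) : ℂ)⁻¹ * ∑ᶠ u ∈ (H a : Set G), χ (a * u)) → Cfsg.classInner (Cfsg.dadeIsometry A L H α) χ = Cfsg.classInner α ψ) := by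
  classical
  have hii : ∀ (χ : G → ℂ) (ψ : L → ℂ), Cfsg.IsClassFunction G χ → (∀ a : L, (a : G) ∈ A → ψ a = (Nat.card (H a) : ℂ)⁻¹ * ∑ᶠ u ∈ (H a : Set G), χ (a * u)) → Cfsg.classInner (Cfsg.dadeIsometry A L H α) χ = Cfsg.classInner α ψ := by
    intro χ ψ hχ hψ
    exact dade_reciprocity hD α hα hαA χ ψ hχ hψ
  refine ⟨?_, hii⟩
  intro β hβ hβA
  apply hii _ _ (dadeIsometry_isClassFunction hD β hβ)
  intro a ha
  have h1 : ∑ᶠ u ∈ ((H a : Subgroup G) : Set G), dadeIsometry A L H β (a * u) =
      ∑ᶠ u ∈ ((H a : Subgroup G) : Set G), β a := by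
    apply finsum_mem_congr rfl
    intro u hu
    rw [dadeIsometry_apply hD β hβ ha hu (x := 1) (by group)]
  rw [h1]
  have h2 : ((H a : Subgroup G) : Set G) = ↑(Finset.univ.filter (fun u : G => u ∈ H a)) := by
    ext u; simp
  have hH : Nat.card (H a) = (Finset.univ.filter (fun y : G => y ∈ H a)).card := by
    rw [Nat.card_eq_fintype_card, Fintype.card_subtype]
  rw [h2, finsum_mem_coe_finset, Finset.sum_const, ← hH, nsmul_eq_mul]
  have hH0 : (Nat.card (H a) : ℂ) ≠ 0 := Nat.cast_ne_zero.mpr Nat.card_pos.ne'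
  field_simp

end Cfsg.Agent.S1500
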