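import Cfsg.Statements.S1528
import Mathlib
import Cfsg.Agent.Helper11.BrauerConj
import Cfsg.Agent.Helper2.IndNormal

set_option autoImplicit false
open Cfsg

namespace Cfsg.Agent.S1528

open Cfsg.Agent.Helper11

/-- Let N be a normal subgroup of the finite group G such that every element of G commuting with a non-identity element of N lies in N. If χ is an irreducible character of G with χ n ≠ χ 1 for some n ∈ N, then χ is the function induced from some irreducible character of N. -/
theorem result {G : Type*} [Group G] [Fintype G] (N : Subgroup G) [N.Normal] (hC : ∀ n ∈ N, n ≠ 1 → Subgroup.centralizer ({n} : Set G) ≤ N) (χ : G → ℂ) (hχ : Cfsg.IsIrrCharacter G χ) (hker : ∃ n ∈ N, χ n ≠ χ 1) : ∃ φ : N → ℂ, Cfsg.IsIrrCharacter N φ ∧ χ = Cfsg.indFun N φ := by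
  classical
  have hN : N.Normal := inferInstance
  have : Fintype N := Fintype.ofFinite N
  have hχc : IsCharacter G χ := Cfsg.Agent.Helper25.isCharacter_of_irr hχ
  have hχcl : IsClassFunction G χ := Cfsg.Agent.Helper25.char_isClassFunction hχc
  set ψ : N → ℂ := fun h => χ h with hψ
  have hψc : IsCharacter N ψ := Cfsg.Agent.Helper2.isCharacter_restrict N hχc
  have hψcl : IsClassFunction N ψ := Cfsg.Agent.Helper25.char_isClassFunction hψc
  have hex : ∃ φ : IrrCharacter N, (φ : N → ℂ) ≠ (fun _ => 1) ∧ classInner ψ (φ : N → ℂ) ≠ 0 := by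
    by_contra hcon
    push Not at hcon
    have hsum := Cfsg.Agent.Helper2.classFun_eq_sum_classInner hψcl
    have h1 : ψ = classInner ψ (Cfsg.Agent.Helper25.trivChar N : N → ℂ) •
        (Cfsg.Agent.Helper25.trivChar N : N → ℂ) := by
      conv_lhs => rw [hsum]
      apply Finset.sum_eq_single (Cfsg.Agent.Helper25.trivChar N)
      · intro θ _ hθ
        rw [hcon θ (fun h => hθ (Subtype.ext h)), zero_smul]
      · intro h; exact absurd (Finset.mem_univ _) h
    obtain ⟨n, hn, hne⟩ := hker
    apply hne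
    have e1 := congrFun h1 ⟨n, hn⟩
    have e2 := congrFun h1 1
    simp only [Pi.smul_apply, Cfsg.Agent.Helper25.trivChar_apply, smul_eq_mul, mul_one] at e1 e2
    have e1' : χ n = classInner ψ (Cfsg.Agent.Helper25.trivChar N : N → ℂ) := e1
    have e2' : χ 1 = classInner ψ (Cfsg.Agent.Helper25.trivChar N : N → ℂ) := e2
    rw [e1', e2']
  obtain ⟨φ, hφne, hφin⟩ := hex
  have hfix : ∀ g : G, g ∉ N → (fun h => (φ : N → ℂ) (conjMap N g h)) ≠ (φ : N → ℂ) := by
    intro g hg hfix
    apply hφne
    apply eq_one_of_conj_fixed N g _ φ hfix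
    intro c hc hconj
    obtain ⟨u, hu⟩ := isConj_iff.mp hconj
    have huM : (u : G) * (g * c * g⁻¹) * (u : G)⁻¹ = c := by
      have := congrArg Subtype.val hu
      simpa [conjMap] using this
    have hcen : (u : G) * g ∈ Subgroup.centralizer ({(c : G)} : Set G) := by
      rw [Subgroup.mem_centralizer_singleton_iff]
      calc (u : G) * g * c = ((u : G) * (g * c * g⁻¹) * (u : G)⁻¹) * ((u : G) * g) := by group
        _ = c * ((u : G) * g) := by rw [huM]
    have hmem := hC c c.2 (fun h => hc (Subtype.ext h)) hcen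
    apply hg
    have : g = (u : G)⁻¹ * ((u : G) * g) := by group
    rw [this]
    exact N.mul_mem (N.inv_mem u.2) hmem
  have hnorm : classInner (indFun N (φ : N → ℂ)) (indFun N (φ : N → ℂ)) = 1 := by
    rw [Cfsg.Agent.Helper2.frobenius_reciprocity N (φ : N → ℂ) (indFun N φ)
      (Cfsg.Agent.Helper2.indFun_isClassFunction N φ),
      Cfsg.Agent.Helper2.indFun_restrict_normal N (φ : N → ℂ),
      Cfsg.Agent.Helper2.classInner_smul_right, Cfsg.Agent.Helper2.classInner_sum_right]
    have hterm : ∀ x : G, classInner (φ : N → ℂ) (Cfsg.Agent.Helper2.conjChar N φ x⁻¹) =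
        if x ∈ N then 1 else 0 := by
      intro x
      by_cases hx : x ∈ N
      · rw [if_pos hx, Cfsg.Agent.Helper2.conjChar_of_mem N φ
          (Cfsg.Agent.Helper1.isClassFunction_irr φ) (N.inv_mem hx)]
        exact (Cfsg.Agent.Helper25.irr_classInner φ φ).trans (if_pos rfl)
      · rw [if_neg hx]
        have hne : (⟨Cfsg.Agent.Helper2.conjChar N φ x⁻¹,
            Cfsg.Agent.Helper2.isIrrCharacter_conjChar N φ.2 x⁻¹⟩ : IrrCharacter N) ≠ φ := by
          intro h
          exact hfix x⁻¹ (fun h' => hx (by simpa using N.inv_mem h')) (congrArg Subtype.val h)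
        have := Cfsg.Agent.Helper25.irr_classInner φ
          ⟨_, Cfsg.Agent.Helper2.isIrrCharacter_conjChar N φ.2 x⁻¹⟩
        rw [if_neg (Ne.symm hne)] at this
        exact this
    rw [Finset.sum_congr rfl (fun x _ => hterm x), Finset.sum_boole]
    have hcard : Nat.card N = (Finset.univ.filter (fun y : G => y ∈ N)).card := by
      rw [Nat.card_eq_fintype_card, Fintype.card_subtype]
    rw [← hcard, map_inv₀, Complex.conj_natCast]
    have hN0 : (Nat.card N : ℂ) ≠ 0 := Nat.cast_ne_zero.mpr Nat.card_pos.ne'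
    field_simp
  have hind_char : IsCharacter G (indFun N (φ : N → ℂ)) :=
    Cfsg.Agent.Helper2.isCharacter_indFun N (Cfsg.Agent.Helper25.irr_isCharacter φ)
  have hind_irr : IsIrrCharacter G (indFun N (φ : N → ℂ)) :=
    Cfsg.Agent.Helper2.isIrrCharacter_of_classInner_self hind_char hnorm
  refine ⟨φ, φ.2, ?_⟩
  by_contra hne
  have h := Cfsg.Agent.Helper25.irr_classInner (⟨indFun N φ, hind_irr⟩ : IrrCharacter G) ⟨χ, hχ⟩
  rw [if_neg (fun h' => hne (congrArg Subtype.val h').symm)] at h
  rw [Cfsg.Agent.Helper2.frobenius_reciprocity N (φ : N → ℂ) χ hχcl] at h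
  apply hφin
  rw [Cfsg.Agent.Helper2.classInner_conj_symm (φ : N → ℂ) ψ, h, map_zero]

end Cfsg.Agent.S1528
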