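import Cfsg.Statements.S1496
import Cfsg.Agent.Helper11.Basic

set_option autoImplicit false
open Cfsg

namespace Cfsg.Agent.S1496

open Cfsg.Agent.Helper11

/-- Conjugation action of a subgroup on a subset it normalises. -/
def conjSetAction {G : Type*} [Group G] (Z : Subgroup G) (Ω : Set G)
    (hZ : Z ≤ Subgroup.normalizer Ω) : MulAction Z Ω where
  smul z w := ⟨(z : G) * w * (z : G)⁻¹,
    (Subgroup.mem_set_normalizer_iff.mp (hZ z.2) w).mp w.2⟩
  one_smul w := Subtype.ext (by show ((1 : Z) : G) * w * ((1 : Z) : G)⁻¹ = w; simp)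
  mul_smul z z' w := Subtype.ext (by
    show ((z * z' : Z) : G) * w * ((z * z' : Z) : G)⁻¹ = (z : G) * ((z' : G) * w * (z' : G)⁻¹) * (z : G)⁻¹
    simp [mul_assoc])

theorem normalizer_conj_mem {G : Type*} [Group G] (H : Subgroup G) {g : G}
    (hg : g ∈ Subgroup.normalizer (H : Set G)) {x : G} (hx : x ∈ H) : g * x * g⁻¹ ∈ H :=
  (Subgroup.mem_set_normalizer_iff.mp hg x).mp hx

/-- `(h * g) ^ k * (g ^ k)⁻¹ ∈ H` when `g` normalises `H` and `h ∈ H`. -/
theorem pow_mul_inv_mem {G : Type*} [Group G] (H : Subgroup G) {g : G}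
    (hg : g ∈ Subgroup.normalizer (H : Set G)) {h : G} (hh : h ∈ H) (k : ℕ) :
    (h * g) ^ k * (g ^ k)⁻¹ ∈ H := by
  induction k with
  | zero => simp
  | succ k ih =>
    have h1 : g ^ k * h * (g ^ k)⁻¹ ∈ H :=
      normalizer_conj_mem H (Subgroup.pow_mem _ hg k) hh
    have : (h * g) ^ (k + 1) * (g ^ (k + 1))⁻¹ =
        ((h * g) ^ k * (g ^ k)⁻¹) * (g ^ k * h * (g ^ k)⁻¹) := by
      rw [pow_succ, pow_succ]; group
    rw [this]
    exact H.mul_mem ih h1

/-- Existence of a fixed point: a `q`-element `y` normalising the set of `H`-conjugates of `a`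
commutes with one of them, when `q` does not divide `|H|`. -/
theorem exists_conj_commute {G : Type*} [Group G] [Finite G] (H : Subgroup G) (a y : G)
    (q : ℕ) [Fact q.Prime] (e : ℕ) (hy : y ^ q ^ e = 1) (hq : ¬ q ∣ Nat.card H)
    (hyN : y ∈ Subgroup.normalizer {w : G | ∃ x ∈ H, w = x * a * x⁻¹}) :
    ∃ x ∈ H, y * (x * a * x⁻¹) * y⁻¹ = x * a * x⁻¹ := by
  set Ω : Set G := {w : G | ∃ x ∈ H, w = x * a * x⁻¹} with hΩ
  -- |Ω| divides |H|
  have hcard : Nat.card Ω ∣ Nat.card H := by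
    let _ : MulAction H G :=
      MulAction.compHom G ((ConjAct.toConjAct (G := G)).toMonoidHom.comp H.subtype)
    have h1 : (MulAction.orbit H a) = Ω := by
      ext w
      constructor
      · rintro ⟨x, rfl⟩
        exact ⟨x, x.2, rfl⟩
      · rintro ⟨x, hx, rfl⟩
        exact ⟨⟨x, hx⟩, rfl⟩
    have h2 : (MulAction.stabilizer H a).index = (MulAction.orbit H a).ncard :=
      MulAction.index_stabilizer H a
    have h3 : Nat.card Ω = (MulAction.orbit H a).ncard := by
      rw [h1]; rfl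
    rw [h3, ← h2]
    exact Subgroup.index_dvd_card _
  have hqΩ : ¬ q ∣ Nat.card Ω := fun h => hq (h.trans hcard)
  -- the q-group generated by y acts on Ω
  set Z := Subgroup.zpowers y with hZdef
  have hZ : Z ≤ Subgroup.normalizer Ω := by
    rw [hZdef, Subgroup.zpowers_le]; exact hyN
  have hZp : IsPGroup q Z := by
    have hord : orderOf y ∣ q ^ e := orderOf_dvd_of_pow_eq_one hy
    obtain ⟨j, _, hj⟩ := (Nat.dvd_prime_pow (Fact.out : q.Prime)).mp hord
    apply IsPGroup.of_card (n := j)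
    rw [hZdef, Nat.card_zpowers, hj]
  let _ := conjSetAction Z Ω hZ
  obtain ⟨w, hw⟩ := hZp.nonempty_fixed_point_of_prime_not_dvd_card Ω hqΩ
  obtain ⟨x, hx, hwx⟩ := w.2
  refine ⟨x, hx, ?_⟩
  have := hw ⟨y, Subgroup.mem_zpowers y⟩
  have h4 : ((⟨y, Subgroup.mem_zpowers y⟩ : Z) • w : Ω).1 = y * w.1 * y⁻¹ := rfl
  rw [this] at h4
  rw [← hwx]
  exact h4.symm

theorem conj_set_normalizer {G : Type*} [Group G] (H : Subgroup G) (a : G)
    (ha : a ∈ Subgroup.normalizer (H : Set G)) :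
    H ≤ Subgroup.normalizer {w : G | ∃ x ∈ H, w = x * a * x⁻¹} ∧
      a ∈ Subgroup.normalizer {w : G | ∃ x ∈ H, w = x * a * x⁻¹} := by
  constructor
  · intro t ht
    rw [Subgroup.mem_set_normalizer_iff]
    intro w
    constructor
    · rintro ⟨x, hx, rfl⟩
      exact ⟨t * x, H.mul_mem ht hx, by group⟩
    · rintro ⟨x, hx, hw⟩
      refine ⟨t⁻¹ * x, H.mul_mem (H.inv_mem ht) hx, ?_⟩
      have : w = t⁻¹ * (t * w * t⁻¹) * t := by group
      rw [this, hw]; group
  · rw [Subgroup.mem_set_normalizer_iff]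
    intro w
    constructor
    · rintro ⟨x, hx, rfl⟩
      exact ⟨a * x * a⁻¹, normalizer_conj_mem H ha hx, by group⟩
    · rintro ⟨x, hx, hw⟩
      have ha' : a⁻¹ ∈ Subgroup.normalizer (H : Set G) := Subgroup.inv_mem _ ha
      refine ⟨a⁻¹ * x * a⁻¹⁻¹, normalizer_conj_mem H ha' hx, ?_⟩
      have : w = a⁻¹ * (a * w * a⁻¹) * a := by group
      rw [this, hw]; group

theorem step {G : Type*} [Group G] [Finite G] (H : Subgroup G) (g : G)
    (hg : g ∈ Subgroup.normalizer (H : Set G)) (hcop : (orderOf g).Coprime (Nat.card H))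
    (hg1 : g ≠ 1) :
    ∃ a b : G, a * b = g ∧ Commute a b ∧ a ∈ Subgroup.normalizer (H : Set G) ∧
      b ∈ Subgroup.normalizer (H : Set G) ∧ orderOf b < orderOf g ∧ orderOf b ∣ orderOf g ∧
      ∀ h ∈ H, ∃ x ∈ H, ∃ h' ∈ H, Commute h' a ∧ x * (h * g) * x⁻¹ = h' * g := by
  obtain ⟨n, hn⟩ : ∃ n, n = orderOf g := ⟨_, rfl⟩
  have hn0 : n ≠ 0 := by rw [hn]; exact (orderOf_pos g).ne'
  have hn1 : n ≠ 1 := by rw [hn, Ne, orderOf_eq_one_iff]; exact hg1
  obtain ⟨q, hqdef⟩ : ∃ q, q = n.minFac := ⟨_, rfl⟩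
  have hq : q.Prime := by rw [hqdef]; exact Nat.minFac_prime hn1
  have : Fact q.Prime := ⟨hq⟩
  have hqn : q ∣ n := by rw [hqdef]; exact Nat.minFac_dvd n
  obtain ⟨Q, hQ⟩ : ∃ Q, Q = q ^ n.factorization q := ⟨_, rfl⟩
  obtain ⟨m, hm⟩ : ∃ m, m = n / q ^ n.factorization q := ⟨_, rfl⟩
  have hQm : Q * m = n := by rw [hQ, hm]; exact Nat.ordProj_mul_ordCompl_eq_self n q
  have hqm : q.Coprime m := by rw [hm]; exact Nat.coprime_ordCompl hq hn0
  have hcop' : n.Coprime (Nat.card H) := by rw [hn]; exact hcop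
  have hqH : q.Coprime (Nat.card H) := Nat.Coprime.coprime_dvd_left hqn hcop'
  have hQM : Q.Coprime (m * Nat.card H) := by
    rw [hQ]; exact Nat.Coprime.pow_left _ (Nat.Coprime.mul_right hqm hqH)
  obtain ⟨α, hα1, hα0⟩ := Nat.chineseRemainder hQM 1 0
  have hMα : m * Nat.card H ∣ α := (Nat.modEq_zero_iff_dvd).mp hα0
  have hmα : m ∣ α := (Dvd.intro _ rfl).trans hMα
  have hQ2 : 2 ≤ Q := by
    have h1 : 0 < n.factorization q := hq.factorization_pos_of_dvd hn0 hqn
    have h2 : q ^ 1 ≤ q ^ n.factorization q := Nat.pow_le_pow_right hq.pos h1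
    rw [hQ]
    calc 2 ≤ q := hq.two_le
      _ = q ^ 1 := (pow_one q).symm
      _ ≤ _ := h2
  have hm0 : 0 < m := by
    apply Nat.pos_of_ne_zero
    rintro rfl
    rw [mul_zero] at hQm
    exact hn0 hQm.symm
  have hmn : m < n := by rw [← hQm]; nlinarith
  obtain ⟨a, ha⟩ : ∃ a, a = g ^ α := ⟨_, rfl⟩
  have hag : Commute a g := by rw [ha]; exact (Commute.refl g).pow_left α
  have haQ : a ^ Q = 1 := by
    rw [ha, ← pow_mul]
    apply orderOf_dvd_iff_pow_eq_one.mp
    rw [← hn, ← hQm, mul_comm α Q]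
    exact Nat.mul_dvd_mul (dvd_refl Q) hmα
  have hbm : (a⁻¹ * g) ^ m = 1 := by
    have hc : Commute a⁻¹ g := hag.inv_left
    rw [hc.mul_pow, inv_pow, ha, ← pow_mul, inv_mul_eq_one, pow_eq_pow_iff_modEq, ← hn, ← hQm]
    have := Nat.ModEq.mul_right' m hα1
    simpa using this
  have hbord : orderOf (a⁻¹ * g) ∣ m := orderOf_dvd_of_pow_eq_one hbm
  have haN : a ∈ Subgroup.normalizer (H : Set G) := by rw [ha]; exact Subgroup.pow_mem _ hg α
  refine ⟨a, a⁻¹ * g, by group, ?_, haN, ?_, ?_, ?_, ?_⟩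
  · exact Commute.mul_right (Commute.inv_right (Commute.refl a)) hag
  · exact Subgroup.mul_mem _ (Subgroup.inv_mem _ haN) hg
  · rw [← hn]
    exact lt_of_le_of_lt (Nat.le_of_dvd hm0 hbord) hmn
  · rw [← hn, ← hQm]
    exact hbord.trans (Dvd.intro_left Q rfl)
  · intro h hh
    obtain ⟨y, hy⟩ : ∃ y, y = h * g := ⟨_, rfl⟩
    have hL1 : ∀ k : ℕ, y ^ k * (g ^ k)⁻¹ ∈ H := by
      intro k; rw [hy]; exact pow_mul_inv_mem H hg hh k
    have hu : y ^ α * a⁻¹ ∈ H := by rw [ha]; exact hL1 α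
    have hyn : y ^ n ∈ H := by
      have := hL1 n
      rwa [hn, pow_orderOf_eq_one, inv_one, mul_one, ← hn] at this
    have hynH : y ^ (n * Nat.card H) = 1 := by
      rw [pow_mul]; exact pow_card_subgroup_eq_one H hyn
    have hyaQ : (y ^ α) ^ q ^ n.factorization q = 1 := by
      rw [← hQ, ← pow_mul]
      obtain ⟨s, hs⟩ := hMα
      have : α * Q = n * Nat.card H * s := by rw [hs, ← hQm]; ring
      rw [this, pow_mul, hynH, one_pow]
    obtain ⟨hHN, haN'⟩ := conj_set_normalizer H a haN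
    have hyN : y ^ α ∈ Subgroup.normalizer {w : G | ∃ x ∈ H, w = x * a * x⁻¹} := by
      have : y ^ α = (y ^ α * a⁻¹) * a := by group
      rw [this]
      exact Subgroup.mul_mem _ (hHN hu) haN'
    have hq' : ¬ q ∣ Nat.card H := (Nat.Prime.coprime_iff_not_dvd hq).mp hqH
    obtain ⟨x, hx, hfix⟩ := exists_conj_commute H a (y ^ α) q (n.factorization q) hyaQ hq' hyN
    obtain ⟨a', ha'⟩ : ∃ a', a' = x * a * x⁻¹ := ⟨_, rfl⟩
    rw [← ha'] at hfix
    have ha'H : a' * a⁻¹ ∈ H := by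
      have : a' * a⁻¹ = x * (a * x⁻¹ * a⁻¹) := by rw [ha']; group
      rw [this]
      exact H.mul_mem hx (normalizer_conj_mem H haN (H.inv_mem hx))
    have hd : y ^ α * a'⁻¹ ∈ H := by
      have : y ^ α * a'⁻¹ = (y ^ α * a⁻¹) * (a' * a⁻¹)⁻¹ := by group
      rw [this]
      exact H.mul_mem hu (H.inv_mem ha'H)
    have hcomm' : Commute (y ^ α) a' := by
      show y ^ α * a' = a' * y ^ α
      calc y ^ α * a' = (y ^ α * a' * (y ^ α)⁻¹) * y ^ α := by group
        _ = a' * y ^ α := by rw [hfix]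
    have ha'Q : a' ^ Q = 1 := by
      rw [ha', conj_pow', haQ]; group
    have hdQ : (y ^ α * a'⁻¹) ^ Q = 1 := by
      rw [(hcomm'.inv_right).mul_pow, inv_pow, ha'Q, hQ, hyaQ]; simp
    have hd1 : y ^ α * a'⁻¹ = 1 := by
      have h1 : orderOf (y ^ α * a'⁻¹) ∣ Q := orderOf_dvd_of_pow_eq_one hdQ
      have h2 : orderOf (y ^ α * a'⁻¹) ∣ Nat.card H :=
        orderOf_dvd_of_pow_eq_one (pow_card_subgroup_eq_one H hd)
      have hQH : Q.Coprime (Nat.card H) := by rw [hQ]; exact Nat.Coprime.pow_left _ hqH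
      exact orderOf_eq_one_iff.mp (Nat.eq_one_of_dvd_coprimes hQH h1 h2)
    have hya : y ^ α = a' := mul_inv_eq_one.mp hd1
    have hy' : (x⁻¹ * y * x) ^ α = a := by
      have := conj_pow' x⁻¹ y α
      rw [inv_inv] at this
      rw [this, hya, ha']; group
    have h1 : Commute (x⁻¹ * y * x) a := by
      rw [← hy']; exact Commute.pow_right (Commute.refl _) α
    have h2 : x⁻¹ * h * (g * x * g⁻¹) = (x⁻¹ * y * x) * g⁻¹ := by rw [hy]; group
    refine ⟨x⁻¹, H.inv_mem hx, x⁻¹ * h * (g * x * g⁻¹), ?_, ?_, ?_⟩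
    · exact H.mul_mem (H.mul_mem (H.inv_mem hx) hh) (normalizer_conj_mem H hg hx)
    · rw [h2]
      exact h1.mul_left hag.symm.inv_left
    · group

theorem main {G : Type*} [Group G] [Finite G] (N : ℕ) :
    ∀ (H : Subgroup G) (g : G), orderOf g ≤ N → g ∈ Subgroup.normalizer (H : Set G) →
      (orderOf g).Coprime (Nat.card H) → ∀ h ∈ H,
      ∃ x ∈ H, ∃ c ∈ H, c * g = g * c ∧ x * (h * g) * x⁻¹ = c * g := by
  induction N with
  | zero =>
    intro H g hN
    exact absurd (orderOf_pos g) (by omega)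
  | succ N ih =>
    intro H g hN hg hcop h hh
    by_cases hg1 : g = 1
    · subst hg1
      exact ⟨1, H.one_mem, h, hh, by simp, by simp⟩
    obtain ⟨a, b, hab, hcomm, haN, hbN, hblt, hbdvd, hstep⟩ := step H g hg hcop hg1
    obtain ⟨x, hx, h', hh', hh'a, hxe⟩ := hstep h hh
    -- the subgroup H₁ = C_H(a)
    set H₁ := H ⊓ Subgroup.centralizer ({a} : Set G) with hH₁
    have hbN₁ : b ∈ Subgroup.normalizer (H₁ : Set G) := by
      have key : ∀ c : G, Commute c a → c ∈ Subgroup.normalizer (H : Set G) →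
          ∀ t ∈ H₁, c * t * c⁻¹ ∈ H₁ := by
        intro c hca hcN t ht
        refine Subgroup.mem_inf.mpr ⟨normalizer_conj_mem H hcN (Subgroup.mem_inf.mp ht).1, ?_⟩
        rw [Subgroup.mem_centralizer_singleton_iff]
        have hta : t * a = a * t := by
          have := (Subgroup.mem_inf.mp ht).2
          rwa [Subgroup.mem_centralizer_singleton_iff] at this
        have hca' : c * a = a * c := hca
        have hca'' : c⁻¹ * a = a * c⁻¹ := hca.inv_left
        calc c * t * c⁻¹ * a = c * t * (c⁻¹ * a) := by group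
          _ = c * t * (a * c⁻¹) := by rw [hca'']
          _ = c * (t * a) * c⁻¹ := by group
          _ = c * (a * t) * c⁻¹ := by rw [hta]
          _ = (c * a) * t * c⁻¹ := by group
          _ = a * (c * t * c⁻¹) := by rw [hca']; group
      rw [Subgroup.mem_set_normalizer_iff]
      intro t
      constructor
      · exact key b hcomm.symm hbN t
      · intro ht
        have := key b⁻¹ hcomm.symm.inv_left (Subgroup.inv_mem _ hbN) _ ht
        have e : b⁻¹ * (b * t * b⁻¹) * b⁻¹⁻¹ = t := by group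
        rwa [e] at this
    have hh'₁ : h' ∈ H₁ := by
      refine Subgroup.mem_inf.mpr ⟨hh', ?_⟩
      rw [Subgroup.mem_centralizer_singleton_iff]
      exact hh'a
    have hcop₁ : (orderOf b).Coprime (Nat.card H₁) := by
      apply Nat.Coprime.coprime_dvd_left hbdvd
      exact Nat.Coprime.coprime_dvd_right (Subgroup.card_dvd_of_le inf_le_left) hcop
    obtain ⟨x₁, hx₁, c, hc, hcb, hx₁e⟩ := ih H₁ b (by omega) hbN₁ hcop₁ h' hh'₁
    have hx₁a : x₁ * a = a * x₁ := by
      have := (Subgroup.mem_inf.mp hx₁).2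
      rwa [Subgroup.mem_centralizer_singleton_iff] at this
    have hca : c * a = a * c := by
      have := (Subgroup.mem_inf.mp hc).2
      rwa [Subgroup.mem_centralizer_singleton_iff] at this
    have hh'a' : h' * a = a * h' := hh'a
    refine ⟨x₁ * x, H.mul_mem (Subgroup.mem_inf.mp hx₁).1 hx, c, (Subgroup.mem_inf.mp hc).1, ?_, ?_⟩
    · rw [← hab]
      calc c * (a * b) = (c * a) * b := by group
        _ = a * (c * b) := by rw [hca]; group
        _ = a * (b * c) := by rw [hcb]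
        _ = a * b * c := by group
    · calc x₁ * x * (h * g) * (x₁ * x)⁻¹ = x₁ * (x * (h * g) * x⁻¹) * x₁⁻¹ := by group
        _ = x₁ * (h' * (a * b)) * x₁⁻¹ := by rw [hxe, hab]
        _ = x₁ * ((h' * a) * b) * x₁⁻¹ := by group
        _ = x₁ * a * (h' * b) * x₁⁻¹ := by rw [hh'a']; group
        _ = a * (x₁ * (h' * b) * x₁⁻¹) := by rw [hx₁a]; group
        _ = a * (c * b) := by rw [hx₁e]
        _ = (c * a) * b := by rw [hca]; group
        _ = c * g := by rw [← hab]; group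

/-- Let H be a subgroup of the finite group G and g an element normalising H whose order is coprime to the order of H. Then for every h ∈ H there are x ∈ H and c ∈ H commuting with g such that x * (h * g) * x⁻¹ = c * g. -/
theorem result {G : Type*} [Group G] [Finite G] (H : Subgroup G) (g : G) (hg : g ∈ Subgroup.normalizer (H : Set G)) (hcop : Nat.Coprime (orderOf g) (Nat.card H)) (h : G) (hh : h ∈ H) : ∃ x ∈ H, ∃ c ∈ H, c * g = g * c ∧ x * (h * g) * x⁻¹ = c * g :=
  main (orderOf g) H g le_rfl hg hcop h hh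

end Cfsg.Agent.S1496
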