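import Cfsg.Statements.S1512
import Cfsg.Agent.S1496

set_option autoImplicit false
open Cfsg

namespace Cfsg.Agent.S1512

open Cfsg.Agent.Helper11

theorem exists_rep {L : Type*} [Group L] [Finite L] (K W₂ : Subgroup L) [hK : K.Normal] (x : L) (hx1 : x ≠ 1) (hx : Nat.Coprime (orderOf x) (Nat.card K)) (hC : ∀ y ∈ Subgroup.zpowers x, y ≠ 1 → K ⊓ Subgroup.centralizer ({y} : Set L) = W₂)
    (C : ConjClasses K)
    (hinv : ConjClasses.map (MulEquiv.toMonoidHom ((MulAut.conjNormal x : MulAut K))) C = C) :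
    ∃ k : K, ConjClasses.mk k = C ∧ (k : L) ∈ W₂ := by
  obtain ⟨k, rfl⟩ := ConjClasses.exists_rep C
  · have h1 : ConjClasses.mk ((MulAut.conjNormal x : MulAut K) k) = ConjClasses.mk k := hinv
    rw [ConjClasses.mk_eq_mk_iff_isConj, isConj_iff] at h1
    obtain ⟨u, hu⟩ := h1
    have hu' : (u : L) * (x * (k : L) * x⁻¹) * (u : L)⁻¹ = (k : L) := by
      have := congrArg (Subtype.val) hu
      simpa [MulAut.conjNormal_apply] using this
    have hxN : x ∈ Subgroup.normalizer (K : Set L) := by
      rw [Subgroup.normalizer_eq_top]; trivial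
    obtain ⟨z, hz, c, hc, hcx, hze⟩ := Cfsg.Agent.S1496.result K x hxN hx (u : L) u.2
    -- u * x commutes with k
    have h2 : (u : L) * x * (k : L) = (k : L) * ((u : L) * x) := by
      calc (u : L) * x * (k : L) = ((u : L) * (x * (k : L) * x⁻¹) * (u : L)⁻¹) * ((u : L) * x) := by group
        _ = (k : L) * ((u : L) * x) := by rw [hu']
    -- c * x commutes with z k z⁻¹
    have h3 : (c * x) * (z * (k : L) * z⁻¹) = (z * (k : L) * z⁻¹) * (c * x) := by
      rw [← hze]
      calc z * ((u : L) * x) * z⁻¹ * (z * (k : L) * z⁻¹) = z * ((u : L) * x * (k : L)) * z⁻¹ := by group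
        _ = z * ((k : L) * ((u : L) * x)) * z⁻¹ := by rw [h2]
        _ = z * (k : L) * z⁻¹ * (z * ((u : L) * x) * z⁻¹) := by group
    -- x is a power of c * x
    obtain ⟨j, hj⟩ := exists_pow_eq_left (orderOf x) (Nat.card K) hx
    have h4 : (x * c) ^ j = x := hj x c hcx.symm (pow_orderOf_eq_one x) (pow_card_subgroup_eq_one K hc)
    have h5 : Commute (x * c) (z * (k : L) * z⁻¹) := by
      show (x * c) * _ = _ * (x * c)
      rw [← hcx]; exact h3
    have h6 : Commute x (z * (k : L) * z⁻¹) := by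
      rw [← h4]; exact h5.pow_left j
    have hk'K : z * (k : L) * z⁻¹ ∈ K := hK.conj_mem _ k.2 z
    refine ⟨⟨z * (k : L) * z⁻¹, hk'K⟩, ?_, ?_⟩
    · rw [ConjClasses.mk_eq_mk_iff_isConj, isConj_comm, isConj_iff]
      exact ⟨⟨z, hz⟩, rfl⟩
    · rw [← hC x (Subgroup.mem_zpowers x) hx1]
      refine Subgroup.mem_inf.mpr ⟨hk'K, ?_⟩
      rw [Subgroup.mem_centralizer_singleton_iff]
      exact h6.symm.eq

/-- Let K be a normal subgroup of the finite group L and x a non-identity element whose order is coprime to the order of K, such that K ⊓ C_L(y) = W₂ for every non-identity element y of the cyclic group generated by x. Then the number of conjugacy classes of K mapped to themselves by conjugation by x is at most Nat.card W₂. -/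
theorem result {L : Type*} [Group L] [Finite L] (K W₂ : Subgroup L) [hK : K.Normal] (x : L) (hx1 : x ≠ 1) (hx : Nat.Coprime (orderOf x) (Nat.card K)) (hC : ∀ y ∈ Subgroup.zpowers x, y ≠ 1 → K ⊓ Subgroup.centralizer ({y} : Set L) = W₂) : Nat.card {C : ConjClasses K // ConjClasses.map (MulEquiv.toMonoidHom ((MulAut.conjNormal x : MulAut K))) C = C} ≤ Nat.card W₂ := by
  classical
  have key := fun (C : {C : ConjClasses K // ConjClasses.map (MulEquiv.toMonoidHom ((MulAut.conjNormal x : MulAut K))) C = C}) =>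
    exists_rep K W₂ x hx1 hx hC C.1 C.2
  choose f hf1 hf2 using key
  let F : {C : ConjClasses K // ConjClasses.map (MulEquiv.toMonoidHom ((MulAut.conjNormal x : MulAut K))) C = C} → W₂ :=
    fun C => ⟨(f C : L), hf2 C⟩
  apply Nat.card_le_card_of_injective F
  intro C C' hCC'
  have h1 : (f C : L) = (f C' : L) := congrArg (fun w : W₂ => (w : L)) hCC'
  have h2 : f C = f C' := Subtype.ext h1
  apply Subtype.ext
  rw [← hf1 C, ← hf1 C', h2]

end Cfsg.Agent.S1512
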