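import Mathlib
import Cfsg.Statements.S0825
import Cfsg.Agent.S0287

set_option autoImplicit false
open Cfsg

namespace Cfsg.Agent.S0825

section aux

variable {F : Type*} [Field F]

/-- lift of `F^6` into the even-weight vectors of `F^8` (hyperbolic basis of weight-four vectors) -/
def lam (x : Fin 3 ⊕ Fin 3 → F) : Fin 8 → F :=
  ![x (.inl 0) + x (.inr 0) + x (.inl 1) + x (.inr 1) + x (.inl 2) + x (.inr 2),
    x (.inl 0) + x (.inr 0) + x (.inl 1) + x (.inr 1),
    x (.inl 0) + x (.inr 0) + x (.inl 2),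
    x (.inl 0) + x (.inr 2),
    x (.inr 0) + x (.inr 2),
    x (.inl 1) + x (.inr 1) + x (.inr 2),
    x (.inl 1) + x (.inl 2),
    x (.inr 1) + x (.inl 2)]

/-- projection of `F^8` onto `F^6` killing the all-ones vector -/
def pr (w : Fin 8 → F) : Fin 3 ⊕ Fin 3 → F :=
  Sum.elim ![w 0 + w 1 + w 2 + w 4, w 0 + w 1 + w 5 + w 7, w 0 + w 3 + w 4 + w 5]
    ![w 0 + w 1 + w 2 + w 3, w 0 + w 1 + w 5 + w 6, w 0 + w 2 + w 6 + w 7]

/-- the second elementary symmetric function -/
def QF (w : Fin 8 → F) : F := ∑ i, ∑ j, if i < j then w i * w j else 0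

/-- the action of a permutation on `F^6` -/
def T (σ : Equiv.Perm (Fin 8)) (x : Fin 3 ⊕ Fin 3 → F) : Fin 3 ⊕ Fin 3 → F :=
  pr (fun i => lam x (σ.symm i))

theorem lam_sum (h2 : (2 : F) = 0) (x : Fin 3 ⊕ Fin 3 → F) : ∑ i, lam x i = 0 := by
  simp only [Fin.sum_univ_eight, lam]
  simp
  grind

theorem lam_pr (h2 : (2 : F) = 0) (w : Fin 8 → F) (hw : ∑ i, w i = 0) :
    lam (pr w) = fun i => w i + (w 0 + w 2 + w 5) := by
  rw [Fin.sum_univ_eight] at hw
  ext i
  fin_cases i <;> simp [lam, pr] <;> grind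

theorem pr_add_const (h2 : (2 : F) = 0) (u : Fin 8 → F) (c : F) :
    pr (fun i => u i + c) = pr u := by
  ext j
  rcases j with j | j
  · fin_cases j <;> simp [pr] <;> grind
  · fin_cases j <;> simp [pr] <;> grind

theorem pr_lam (x : Fin 3 ⊕ Fin 3 → F) (h2 : (2 : F) = 0) : pr (lam x) = x := by
  ext j
  rcases j with j | j
  · fin_cases j <;> simp [pr, lam] <;> grind
  · fin_cases j <;> simp [pr, lam] <;> grind

theorem T_one (h2 : (2 : F) = 0) (x : Fin 3 ⊕ Fin 3 → F) : T 1 x = x := by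
  unfold T
  exact pr_lam x h2

theorem T_mul (h2 : (2 : F) = 0) (σ τ : Equiv.Perm (Fin 8)) (x : Fin 3 ⊕ Fin 3 → F) :
    T σ (T τ x) = T (σ * τ) x := by
  have hw : ∑ i, (fun i => lam x (τ.symm i)) i = 0 := by
    rw [Equiv.sum_comp τ.symm (lam x)]
    exact lam_sum h2 x
  unfold T
  rw [lam_pr h2 _ hw]
  exact pr_add_const h2 (fun i => lam x (τ.symm (σ.symm i))) _

theorem qf_lam (h2 : (2 : F) = 0) (x : Fin 3 ⊕ Fin 3 → F) :
    Cfsg.quadFormPlus 3 F x = QF (lam x) := by
  simp only [QF, Fin.sum_univ_eight, lam, Cfsg.quadFormPlus, Fin.sum_univ_three]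
  simp
  grind

theorem QF_shift (h2 : (2 : F) = 0) (u : Fin 8 → F) (c : F) (hu : ∑ i, u i = 0) :
    QF (fun i => u i + c) = QF u := by
  rw [Fin.sum_univ_eight] at hu
  simp only [QF, Fin.sum_univ_eight]
  simp
  grind

theorem Qz_id (u : Fin 8 → ℤ) :
    2 * (∑ i, ∑ j, if i < j then u i * u j else 0) = (∑ i, u i) ^ 2 - ∑ i, u i ^ 2 := by
  simp only [Fin.sum_univ_eight]
  simp
  ring

theorem Qz_perm (σ : Equiv.Perm (Fin 8)) (u : Fin 8 → ℤ) :
    (∑ i, ∑ j, if i < j then u (σ i) * u (σ j) else 0)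
      = ∑ i, ∑ j, if i < j then u i * u j else 0 := by
  have h1 := Qz_id (fun i => u (σ i))
  have h2 := Qz_id u
  beta_reduce at h1
  rw [Equiv.sum_comp σ u, Equiv.sum_comp σ (fun i => u i ^ 2)] at h1
  linarith

theorem QF_perm (h01 : ∀ x : F, x = 0 ∨ x = 1) (σ : Equiv.Perm (Fin 8)) (w : Fin 8 → F) :
    QF (fun i => w (σ i)) = QF w := by
  classical
  let z : Fin 8 → ℤ := fun i => if w i = 0 then 0 else 1
  have hz : ∀ i, w i = ((z i : ℤ) : F) := by
    intro i
    rcases h01 (w i) with h | h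
    · simp [z, h]
    · simp [z, h]
  have h1 : ∀ v : Fin 8 → ℤ, QF (fun i => ((v i : ℤ) : F))
      = (((∑ i, ∑ j, if i < j then v i * v j else 0 : ℤ)) : F) := by
    intro v
    unfold QF
    push_cast
    rfl
  have hw : w = fun i => ((z i : ℤ) : F) := funext hz
  rw [hw, h1 z]
  have h3 := h1 (fun i => z (σ i))
  rw [h3, Qz_perm]

theorem qf_T (h01 : ∀ x : F, x = 0 ∨ x = 1) (h2 : (2 : F) = 0) (σ : Equiv.Perm (Fin 8))
    (x : Fin 3 ⊕ Fin 3 → F) :
    Cfsg.quadFormPlus 3 F (T σ x) = Cfsg.quadFormPlus 3 F x := by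
  have hx : ∑ i, (fun i => lam x (σ.symm i)) i = 0 := by
    rw [Equiv.sum_comp σ.symm (lam x)]
    exact lam_sum h2 x
  rw [qf_lam h2, qf_lam h2]
  unfold T
  rw [lam_pr h2 _ hx, QF_shift h2 _ _ hx]
  exact QF_perm h01 σ.symm (lam x)

theorem lam_add (x y : Fin 3 ⊕ Fin 3 → F) : lam (x + y) = lam x + lam y := by
  ext i
  fin_cases i <;> simp [lam] <;> ring

theorem lam_smul (c : F) (x : Fin 3 ⊕ Fin 3 → F) : lam (c • x) = c • lam x := by
  ext i
  fin_cases i <;> simp [lam] <;> ring

theorem pr_add (u v : Fin 8 → F) : pr (u + v) = pr u + pr v := by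
  ext j
  rcases j with j | j
  · fin_cases j <;> simp [pr] <;> ring
  · fin_cases j <;> simp [pr] <;> ring

theorem pr_smul (c : F) (u : Fin 8 → F) : pr (c • u) = c • pr u := by
  ext j
  rcases j with j | j
  · fin_cases j <;> simp [pr] <;> ring
  · fin_cases j <;> simp [pr] <;> ring

/-- `T σ` as a linear map -/
def Tl (σ : Equiv.Perm (Fin 8)) : (Fin 3 ⊕ Fin 3 → F) →ₗ[F] (Fin 3 ⊕ Fin 3 → F) where
  toFun := T σ
  map_add' := by
    intro x y
    unfold T
    rw [lam_add, ← pr_add]
    rfl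
  map_smul' := by
    intro c x
    unfold T
    rw [lam_smul, RingHom.id_apply, ← pr_smul]
    rfl

theorem Tl_apply (σ : Equiv.Perm (Fin 8)) (x : Fin 3 ⊕ Fin 3 → F) : Tl σ x = T σ x := rfl

theorem supp_lemma (h01 : ∀ x : F, x = 0 ∨ x = 1) (σ : Equiv.Perm (Fin 8)) (a b : Fin 8)
    (hab : a ≠ b) (u : Fin 8 → F) (hu : ∀ i, u i = if i = a ∨ i = b then 1 else 0) (c : F)
    (h : ∀ i, u i = u (σ.symm i) + c) :
    (σ.symm a = a ∨ σ.symm a = b) ∧ (σ.symm b = a ∨ σ.symm b = b) := by
  rcases h01 c with rfl | rfl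
  · constructor
    · have h1 := h a
      rw [hu a, hu (σ.symm a)] at h1
      by_contra hc
      rw [if_neg hc] at h1
      simp at h1
    · have h1 := h b
      rw [hu b, hu (σ.symm b)] at h1
      by_contra hc
      rw [if_neg hc] at h1
      simp at h1
  · exfalso
    have hmaps : ∀ i ∈ ({a, b} : Finset (Fin 8))ᶜ, σ.symm i ∈ ({a, b} : Finset (Fin 8)) := by
      intro i hi
      have h1 := h i
      rw [hu i, hu (σ.symm i)] at h1
      simp only [Finset.mem_compl, Finset.mem_insert, Finset.mem_singleton] at hi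
      rw [if_neg hi] at h1
      by_contra hc
      simp only [Finset.mem_insert, Finset.mem_singleton] at hc
      rw [if_neg hc] at h1
      simp at h1
    have h2 := Finset.card_le_card_of_injOn σ.symm hmaps σ.symm.injective.injOn
    rw [Finset.card_compl, Finset.card_pair hab] at h2
    simp at h2

theorem ind_sum (h2 : (2 : F) = 0) (a b : Fin 8) (hab : a ≠ b) :
    ∑ i, (if i = a ∨ i = b then (1 : F) else 0) = 0 := by
  classical
  rw [Finset.sum_boole]
  have h : (Finset.univ.filter (fun i : Fin 8 => i = a ∨ i = b)) = {a, b} := by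
    ext i
    simp
  rw [h, Finset.card_pair hab]
  exact_mod_cast h2

end aux

/-- O⁺_6(2) ≅ S_8: the isometry group of the hyperbolic form x_1y_1 + x_2y_2 + x_3y_3 over the field with 2 elements is isomorphic to the symmetric group on 8 letters. -/
theorem result {F : Type*} [Field F] [Fintype F] (hF : Fintype.card F = 2) : Nonempty (↥(Cfsg.isometryGroup F (Cfsg.quadFormPlus 3 F)) ≃* Equiv.Perm (Fin 8)) := by
  classical
  have h01 : ∀ x : F, x = 0 ∨ x = 1 := by
    intro x
    by_contra hx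
    push Not at hx
    have h3 : ({0, 1, x} : Finset F).card = 3 := by
      rw [Finset.card_insert_of_notMem, Finset.card_insert_of_notMem, Finset.card_singleton]
      · simpa using hx.2.symm
      · simp only [Finset.mem_insert, Finset.mem_singleton, not_or]
        exact ⟨zero_ne_one, hx.1.symm⟩
    have h4 := Finset.card_le_univ ({0, 1, x} : Finset F)
    omega
  have h2 : (2 : F) = 0 := by
    rcases h01 2 with h | h
    · exact h
    · exfalso
      have : (1 : F) = 0 := by linear_combination h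
      exact one_ne_zero this
  have hcomp : ∀ σ τ : Equiv.Perm (Fin 8),
      (Tl σ : (Fin 3 ⊕ Fin 3 → F) →ₗ[F] (Fin 3 ⊕ Fin 3 → F)).comp (Tl τ) = Tl (σ * τ) :=
    fun σ τ => LinearMap.ext fun x => by
      simp only [LinearMap.comp_apply, Tl_apply]
      exact T_mul h2 σ τ x
  have hone : (Tl (1 : Equiv.Perm (Fin 8)) : (Fin 3 ⊕ Fin 3 → F) →ₗ[F] (Fin 3 ⊕ Fin 3 → F))
      = LinearMap.id := LinearMap.ext fun x => T_one h2 x
  let M : Equiv.Perm (Fin 8) → Matrix (Fin 3 ⊕ Fin 3) (Fin 3 ⊕ Fin 3) F :=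
    fun σ => LinearMap.toMatrix' (Tl σ)
  have hMmul : ∀ σ τ, M σ * M τ = M (σ * τ) := by
    intro σ τ
    show LinearMap.toMatrix' (Tl σ) * LinearMap.toMatrix' (Tl τ) = LinearMap.toMatrix' (Tl (σ * τ))
    rw [← LinearMap.toMatrix'_comp, hcomp]
  have hMone : M 1 = 1 := by
    show LinearMap.toMatrix' (Tl 1) = 1
    rw [hone, LinearMap.toMatrix'_id]
  have hMv : ∀ σ (x : Fin 3 ⊕ Fin 3 → F), (M σ).mulVec x = T σ x := by
    intro σ x
    show (LinearMap.toMatrix' (Tl σ)).mulVec x = T σ x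
    rw [← Matrix.toLin'_apply, Matrix.toLin'_toMatrix']
    rfl
  let U : Equiv.Perm (Fin 8) → Matrix.GeneralLinearGroup (Fin 3 ⊕ Fin 3) F := fun σ =>
    ⟨M σ, M σ⁻¹, by rw [hMmul, mul_inv_cancel, hMone], by rw [hMmul, inv_mul_cancel, hMone]⟩
  have hU : ∀ σ, U σ ∈ Cfsg.isometryGroup F (Cfsg.quadFormPlus 3 F) := by
    intro σ u v
    show Cfsg.quadFormPlus 3 F ((M σ).mulVec u) = Cfsg.quadFormPlus 3 F u
    rw [hMv]
    exact qf_T h01 h2 σ u
  let φ : Equiv.Perm (Fin 8) →* Cfsg.isometryGroup F (Cfsg.quadFormPlus 3 F) :=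
    MonoidHom.mk' (fun σ => ⟨U σ, hU σ⟩) (by
      intro σ τ
      apply Subtype.ext
      apply Units.ext
      show M (σ * τ) = M σ * M τ
      rw [hMmul])
  have hinj : Function.Injective φ := by
    rw [injective_iff_map_eq_one]
    intro σ hσ
    have hM1 : M σ = 1 := by
      have h := congrArg (fun g : Cfsg.isometryGroup F (Cfsg.quadFormPlus 3 F) =>
        ((g : Matrix.GeneralLinearGroup (Fin 3 ⊕ Fin 3) F) : Matrix (Fin 3 ⊕ Fin 3) (Fin 3 ⊕ Fin 3) F)) hσ
      exact h
    have h1 : ∀ x : Fin 3 ⊕ Fin 3 → F, T σ x = x := by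
      intro x
      rw [← hMv, hM1, Matrix.one_mulVec]
    have h3 : ∀ u : Fin 8 → F, ∑ i, u i = 0 → ∃ c : F, ∀ i, u i = u (σ.symm i) + c := by
      intro u hu
      have h4 := lam_pr h2 u hu
      have hw : ∑ i, (fun i => lam (pr u) (σ.symm i)) i = 0 := by
        rw [Equiv.sum_comp σ.symm (lam (pr u))]
        exact lam_sum h2 _
      have h5 := lam_pr h2 _ hw
      have h6 : lam (pr fun i => lam (pr u) (σ.symm i)) = lam (pr u) := by
        have h6' := h1 (pr u)
        unfold T at h6'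
        rw [h6']
      rw [h6] at h5
      refine ⟨(u (σ.symm 0) + (u 0 + u 2 + u 5)) + (u (σ.symm 2) + (u 0 + u 2 + u 5))
        + (u (σ.symm 5) + (u 0 + u 2 + u 5)), fun i => ?_⟩
      have h7 := congrFun h5 i
      rw [h4] at h7
      beta_reduce at h7
      linear_combination h7
    obtain ⟨c0, hc0⟩ := h3 (fun i => if i = 0 ∨ i = 1 then 1 else 0) (ind_sum h2 0 1 (by decide))
    have P0 := supp_lemma h01 σ 0 1 (by decide) _ (fun i => rfl) c0 hc0
    obtain ⟨c1, hc1⟩ := h3 (fun i => if i = 1 ∨ i = 2 then 1 else 0) (ind_sum h2 1 2 (by decide))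
    have P1 := supp_lemma h01 σ 1 2 (by decide) _ (fun i => rfl) c1 hc1
    obtain ⟨c2, hc2⟩ := h3 (fun i => if i = 2 ∨ i = 3 then 1 else 0) (ind_sum h2 2 3 (by decide))
    have P2 := supp_lemma h01 σ 2 3 (by decide) _ (fun i => rfl) c2 hc2
    obtain ⟨c3, hc3⟩ := h3 (fun i => if i = 3 ∨ i = 4 then 1 else 0) (ind_sum h2 3 4 (by decide))
    have P3 := supp_lemma h01 σ 3 4 (by decide) _ (fun i => rfl) c3 hc3
    obtain ⟨c4, hc4⟩ := h3 (fun i => if i = 4 ∨ i = 5 then 1 else 0) (ind_sum h2 4 5 (by decide))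
    have P4 := supp_lemma h01 σ 4 5 (by decide) _ (fun i => rfl) c4 hc4
    obtain ⟨c5, hc5⟩ := h3 (fun i => if i = 5 ∨ i = 6 then 1 else 0) (ind_sum h2 5 6 (by decide))
    have P5 := supp_lemma h01 σ 5 6 (by decide) _ (fun i => rfl) c5 hc5
    obtain ⟨c6, hc6⟩ := h3 (fun i => if i = 6 ∨ i = 7 then 1 else 0) (ind_sum h2 6 7 (by decide))
    have P6 := supp_lemma h01 σ 6 7 (by decide) _ (fun i => rfl) c6 hc6
    have e1 : σ.symm 1 = 1 := by
      rcases P0.2 with h | h
      · rcases P1.1 with h' | h'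
        · exact h'
        · rw [h] at h'
          exact absurd h' (by decide)
      · exact h
    have e2 : σ.symm 2 = 2 := by
      rcases P1.2 with h | h
      · rcases P2.1 with h' | h'
        · exact h'
        · rw [h] at h'
          exact absurd h' (by decide)
      · exact h
    have e3 : σ.symm 3 = 3 := by
      rcases P2.2 with h | h
      · rcases P3.1 with h' | h'
        · exact h'
        · rw [h] at h'
          exact absurd h' (by decide)
      · exact h
    have e4 : σ.symm 4 = 4 := by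
      rcases P3.2 with h | h
      · rcases P4.1 with h' | h'
        · exact h'
        · rw [h] at h'
          exact absurd h' (by decide)
      · exact h
    have e5 : σ.symm 5 = 5 := by
      rcases P4.2 with h | h
      · rcases P5.1 with h' | h'
        · exact h'
        · rw [h] at h'
          exact absurd h' (by decide)
      · exact h
    have e6 : σ.symm 6 = 6 := by
      rcases P5.2 with h | h
      · rcases P6.1 with h' | h'
        · exact h'
        · rw [h] at h'
          exact absurd h' (by decide)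
      · exact h
    have e0 : σ.symm 0 = 0 := by
      rcases P0.1 with h | h
      · exact h
      · exact absurd (σ.symm.injective (h.trans e1.symm)) (by decide)
    have e7 : σ.symm 7 = 7 := by
      rcases P6.2 with h | h
      · exact absurd (σ.symm.injective (h.trans e6.symm)) (by decide)
      · exact h
    have hs : σ.symm = 1 := by
      ext i
      fin_cases i
      · exact congrArg Fin.val e0
      · exact congrArg Fin.val e1
      · exact congrArg Fin.val e2
      · exact congrArg Fin.val e3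
      · exact congrArg Fin.val e4
      · exact congrArg Fin.val e5
      · exact congrArg Fin.val e6
      · exact congrArg Fin.val e7
    have hs' : σ⁻¹ = 1 := hs
    exact inv_eq_one.1 hs'
  have hcardO : Nat.card (Cfsg.isometryGroup F (Cfsg.quadFormPlus 3 F)) = 40320 := by
    rw [Cfsg.Agent.S0287.result hF 3 (by norm_num)]
    decide
  have hcard : Nat.card (Equiv.Perm (Fin 8))
      = Nat.card (Cfsg.isometryGroup F (Cfsg.quadFormPlus 3 F)) := by
    rw [hcardO, Nat.card_perm, Nat.card_fin]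
    decide
  haveI : Finite (Cfsg.isometryGroup F (Cfsg.quadFormPlus 3 F)) :=
    Nat.finite_of_card_ne_zero (by rw [hcardO]; norm_num)
  have hbij : Function.Bijective φ := by
    rw [Nat.bijective_iff_injective_and_card]
    exact ⟨hinj, hcard⟩
  exact ⟨(MulEquiv.ofBijective φ hbij).symm⟩

end Cfsg.Agent.S0825
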