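import Mathlib
import Cfsg.Statements.S0256
import Cfsg.Agent.Helper6.Klein
import Cfsg.Agent.S0825
import Cfsg.Agent.S0242

set_option autoImplicit false
open Cfsg

namespace Cfsg.Agent.S0256

/-- PSL_4(2) is isomorphic to A_8. -/
theorem result {F : Type*} [Field F] [Fintype F] (hF : Fintype.card F = 2) : Nonempty (Matrix.ProjectiveSpecialLinearGroup (Fin 4) F ≃* alternatingGroup (Fin 8)) := by
  classical
  have h01 : ∀ x : F, x = 0 ∨ x = 1 := by
    intro x
    by_contra hx
    push Not at hx
    have h3 : ({0, 1, x} : Finset F).card = 3 := by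
      rw [Finset.card_insert_of_notMem, Finset.card_insert_of_notMem, Finset.card_singleton]
      · simpa using hx.2.symm
      · simp only [Finset.mem_insert, Finset.mem_singleton, not_or]
        exact ⟨zero_ne_one, hx.1.symm⟩
    have h4 := Finset.card_le_univ ({0, 1, x} : Finset F)
    omega
  have hkmul : ∀ g h : Matrix.SpecialLinearGroup (Fin 4) F,
      Cfsg.Agent.Helper6.kl (g * h).1 = Cfsg.Agent.Helper6.kl g.1 * Cfsg.Agent.Helper6.kl h.1 := by
    intro g h
    rw [← Cfsg.Agent.Helper6.kl_mul]
    rfl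
  have hkone : Cfsg.Agent.Helper6.kl (1 : Matrix.SpecialLinearGroup (Fin 4) F).1 = 1 :=
    Cfsg.Agent.Helper6.kl_one
  let U : Matrix.SpecialLinearGroup (Fin 4) F → Matrix.GeneralLinearGroup (Fin 3 ⊕ Fin 3) F :=
    fun g => ⟨Cfsg.Agent.Helper6.kl g.1, Cfsg.Agent.Helper6.kl (g⁻¹).1,
      by rw [← hkmul, mul_inv_cancel, hkone], by rw [← hkmul, inv_mul_cancel, hkone]⟩
  have hU : ∀ g, U g ∈ Cfsg.isometryGroup F (Cfsg.quadFormPlus 3 F) := by
    intro g u v
    show Cfsg.quadFormPlus 3 F ((Cfsg.Agent.Helper6.kl g.1).mulVec u) = Cfsg.quadFormPlus 3 F u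
    rw [Cfsg.Agent.Helper6.kl_pf, g.2, one_mul]
  let φ : Matrix.SpecialLinearGroup (Fin 4) F →* Cfsg.isometryGroup F (Cfsg.quadFormPlus 3 F) :=
    MonoidHom.mk' (fun g => ⟨U g, hU g⟩) (by
      intro g h
      apply Subtype.ext
      apply Units.ext
      exact hkmul g h)
  have hinj : Function.Injective φ := by
    rw [injective_iff_map_eq_one]
    intro g hg
    have hk : Cfsg.Agent.Helper6.kl g.1 = 1 := by
      have h := congrArg (fun x : Cfsg.isometryGroup F (Cfsg.quadFormPlus 3 F) =>
        ((x : Matrix.GeneralLinearGroup (Fin 3 ⊕ Fin 3) F) : Matrix (Fin 3 ⊕ Fin 3) (Fin 3 ⊕ Fin 3) F)) hg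
      exact h
    obtain ⟨hoff, d01, d23⟩ := Cfsg.Agent.Helper6.kl_ker g.1 hk
    have hd : ∀ a : Fin 4, g.1 a a = 1 := by
      intro a
      rcases h01 (g.1 a a) with h | h
      · exfalso
        fin_cases a
        · simp only [Fin.zero_eta] at h
          rw [h, zero_mul] at d01
          exact zero_ne_one d01
        · simp only [Fin.mk_one] at h
          rw [h, mul_zero] at d01
          exact zero_ne_one d01
        · have h' : g.1 2 2 = 0 := h
          rw [h', zero_mul] at d23
          exact zero_ne_one d23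
        · have h' : g.1 3 3 = 0 := h
          rw [h', mul_zero] at d23
          exact zero_ne_one d23
      · exact h
    apply Subtype.ext
    ext c a
    by_cases hca : c = a
    · subst hca
      rw [hd]
      simp
    · rw [hoff c a hca]
      simp [Matrix.one_apply, hca]
  obtain ⟨e⟩ := Cfsg.Agent.S0825.result hF
  let ψ : Matrix.SpecialLinearGroup (Fin 4) F →* Equiv.Perm (Fin 8) := e.toMonoidHom.comp φ
  have hψ : Function.Injective ψ := e.injective.comp hinj
  have hSL : Nat.card (Matrix.SpecialLinearGroup (Fin 4) F) = 20160 := by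
    have h := Cfsg.Agent.S0242.result hF 4 (by norm_num)
    simp only [Fin.prod_univ_four] at h
    norm_num at h
    rw [Nat.card_eq_fintype_card]
    exact h
  have hrange : Nat.card ψ.range = 20160 := by
    rw [← hSL]
    exact (Nat.card_congr (Equiv.ofInjective ψ hψ)).symm
  have hidx : ψ.range.index = 2 := by
    have h := ψ.range.card_mul_index
    rw [hrange, Nat.card_perm, Nat.card_fin] at h
    have h8 : (8 : ℕ).factorial = 40320 := by decide
    omega
  have hA := Equiv.Perm.eq_alternatingGroup_of_index_eq_two hidx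
  let e1 : Matrix.SpecialLinearGroup (Fin 4) F ≃* ψ.range := MonoidHom.ofInjective hψ
  let e2 : ψ.range ≃* alternatingGroup (Fin 8) := MulEquiv.subgroupCongr hA
  have hc : Subgroup.center (Matrix.SpecialLinearGroup (Fin 4) F) = ⊥ := by
    rw [eq_bot_iff]
    intro A hA
    obtain ⟨r, hr, hrA⟩ := Matrix.SpecialLinearGroup.mem_center_iff.1 hA
    have hr1 : r = 1 := by
      rcases h01 r with h | h
      · rw [h] at hr
        simp at hr
      · exact h
    rw [hr1] at hrA
    rw [Subgroup.mem_bot]
    apply Subtype.ext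
    rw [← hrA]
    simp
  let e0 : Matrix.ProjectiveSpecialLinearGroup (Fin 4) F ≃* Matrix.SpecialLinearGroup (Fin 4) F :=
    (QuotientGroup.quotientMulEquivOfEq hc).trans QuotientGroup.quotientBot
  exact ⟨e0.trans (e1.trans e2)⟩

end Cfsg.Agent.S0256
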