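import Cfsg.Statements.S5553
import Cfsg.Agent.Helper28.LeechGolay
import Cfsg.Agent.Helper3.GolayLemmas

set_option autoImplicit false
open Cfsg

namespace Cfsg.Agent.S5553

open Cfsg Cfsg.Agent.Helper28.Code Cfsg.Agent.Helper28.Leech

/-- the map from the lattice onto the code -/
def fval (x : GolayPt → ℤ) : GolayPt → ZMod 2 :=
  fun i => (((x i - x none) / 2 + x none : ℤ) : ZMod 2)

theorem fval_add (x y : GolayPt → ℤ) (hx : ∀ i, x i ≡ x none [ZMOD 2])
    (hy : ∀ i, y i ≡ y none [ZMOD 2]) : fval (x + y) = fval x + fval y := by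
  funext i
  simp only [fval, Pi.add_apply]
  rw [← Int.cast_add]
  congr 1
  have h1 := hx i
  have h2 := hy i
  unfold Int.ModEq at h1 h2
  omega

theorem par {x : GolayPt → ℤ} (hx : x ∈ leechLattice) (i : GolayPt) : x i ≡ x none [ZMOD 2] := by
  rw [mem_leechLattice_iff] at hx
  obtain ⟨m, h1, -, -⟩ := hx
  exact (h1 i).trans (h1 none).symm

/-- the homomorphism from the lattice onto the code -/
def F : leechLattice →+ (GolayPt → ZMod 2) :=
  AddMonoidHom.mk' (fun x => fval (x : GolayPt → ℤ)) (fun x y => by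
    rw [AddSubgroup.coe_add]
    exact fval_add _ _ (par x.2) (par y.2))

theorem F_apply (x : leechLattice) : F x = fval (x : GolayPt → ℤ) := rfl

theorem half_cast (d : ℤ) (hd : d % 2 = 0) :
    ((d / 2 : ℤ) : ZMod 2) = if d ≡ 2 [ZMOD 4] then 1 else 0 := by
  have h4 : d % 4 = 0 ∨ d % 4 = 2 := by omega
  rcases h4 with h4 | h4
  · have hn : ¬ (d ≡ 2 [ZMOD 4]) := by unfold Int.ModEq; omega
    rw [if_neg hn]
    have h2 : (2 : ℤ) ∣ d / 2 := by omega
    exact (ZMod.intCast_zmod_eq_zero_iff_dvd _ 2).mpr (by exact_mod_cast h2)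
  · have hp : d ≡ 2 [ZMOD 4] := by unfold Int.ModEq; omega
    rw [if_pos hp]
    have h2 : ((d / 2 : ℤ) : ZMod 2) = ((1 : ℤ) : ZMod 2) :=
      (ZMod.intCast_eq_intCast_iff _ _ 2).mpr (by unfold Int.ModEq; push_cast; omega)
    rw [h2]; simp

theorem fval_eq (x : GolayPt → ℤ) (hx : ∀ i, x i ≡ x none [ZMOD 2]) :
    fval x = ofSet (res x (x none + 2)) + ((x none : ℤ) : ZMod 2) • (1 : GolayPt → ZMod 2) := by
  funext i
  simp only [fval, Pi.add_apply, Pi.smul_apply, Pi.one_apply, smul_eq_mul, mul_one, ofSet,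
    mem_res]
  have hi := hx i
  unfold Int.ModEq at hi
  rw [Int.cast_add, half_cast _ (by omega)]
  congr 1
  have h : (x i - x none ≡ 2 [ZMOD 4]) ↔ (x i ≡ x none + 2 [ZMOD 4]) := by
    unfold Int.ModEq; omega
  simp only [h]

theorem fval_mem {x : GolayPt → ℤ} (hx : x ∈ leechLattice) : fval x ∈ golayCode := by
  rw [fval_eq x (par hx)]
  exact golayCode.add_mem (res_mem ((mem_leechLattice_iff x).mp hx) _)
    (golayCode.smul_mem _ one_mem)

theorem fval_zero {x : GolayPt → ℤ} (hx : ∀ i, x i ≡ x none [ZMOD 2]) (h : fval x = 0) :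
    x none % 2 = 0 ∧ ∀ i, x i % 4 = x none % 4 := by
  have h0 : ∀ i, (2 : ℤ) ∣ (x i - x none) / 2 + x none := by
    intro i
    have h1 := congrFun h i
    simp only [fval, Pi.zero_apply] at h1
    exact_mod_cast (ZMod.intCast_zmod_eq_zero_iff_dvd _ 2).mp h1
  have hn := h0 none
  rw [sub_self, Int.zero_ediv, zero_add] at hn
  refine ⟨by omega, fun i => ?_⟩
  have h1 := h0 i
  have h2 := hx i
  unfold Int.ModEq at h2
  omega

/-- twice a code word, as an integer vector -/
def dbl (c : GolayPt → ZMod 2) : GolayPt → ℤ := fun i => if i ∈ support₂ c then 2 else 0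

theorem dbl_mem (c : GolayPt → ZMod 2) (hc : c ∈ golayCode) : dbl c ∈ leechLattice := by
  rw [mem_leechLattice_iff, mem_leechSet_iff]
  refine ⟨0, fun i => ?_, ?_, ?_⟩
  · unfold dbl; split_ifs <;> decide
  · have h1 : ∑ i, dbl c i = 2 * ((support₂ c).card : ℤ) := by
      unfold dbl
      rw [Finset.sum_ite_mem, Finset.univ_inter, Finset.sum_const, nsmul_eq_mul, mul_comm]
    obtain ⟨k, hk⟩ := golay_H1 c hc
    rw [norm_eq] at hk
    rw [h1, hk]
    unfold Int.ModEq
    push_cast
    omega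
  · have hr : res (dbl c) 0 = (support₂ c)ᶜ := by
      ext i
      rw [mem_res, Finset.mem_compl]
      unfold dbl
      split_ifs with h
      · simp only [h, not_true, iff_false]; decide
      · simp only [h, not_false_iff, iff_true]; decide
    rw [hr, ofSet_compl, ofSet_supp]
    exact golayCode.add_mem one_mem hc

theorem fval_dbl (c : GolayPt → ZMod 2) (h0 : c none = 0) : fval (dbl c) = c := by
  have hn : dbl c none = 0 := by
    unfold dbl
    rw [if_neg]
    rw [mem_supp]; simp [h0]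
  have h1 : fval (dbl c) = ofSet (support₂ c) := by
    funext i
    simp only [fval, hn, sub_zero, add_zero, ofSet]
    unfold dbl
    split_ifs <;> simp
  rw [h1, ofSet_supp]

/-- an odd vector of the lattice -/
def wOdd : GolayPt → ℤ := fun i => if i = none then -3 else 1

theorem wOdd_mem : wOdd ∈ leechLattice := by
  rw [mem_leechLattice_iff, mem_leechSet_iff]
  refine ⟨1, fun i => ?_, ?_, ?_⟩
  · unfold wOdd; split_ifs <;> decide
  · have h1 : ∑ i, wOdd i = 20 := by
      rw [Fintype.sum_option]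
      simp [wOdd]
    rw [h1]; decide
  · have hr : res wOdd 1 = Finset.univ := by
      ext i
      rw [mem_res]
      unfold wOdd
      split_ifs <;> simp <;> decide
    rw [hr, ofSet_univ]
    exact one_mem

theorem fval_wOdd : fval wOdd = 1 := by
  funext i
  cases i with
  | none => simp only [fval, wOdd]; decide
  | some a => simp only [fval, wOdd]; simp

theorem range_F (c : GolayPt → ZMod 2) : c ∈ F.range ↔ c ∈ golayCode := by
  constructor
  · rintro ⟨x, rfl⟩
    exact fval_mem x.2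
  · intro hc
    rcases zmod2_cases (c none) with h0 | h1
    · exact ⟨⟨dbl c, dbl_mem c hc⟩, fval_dbl c h0⟩
    · have hc' : c + 1 ∈ golayCode := golayCode.add_mem hc one_mem
      have h0 : (c + 1) none = 0 := by
        simp only [Pi.add_apply, Pi.one_apply, h1]; decide
      refine ⟨⟨dbl (c + 1), dbl_mem _ hc'⟩ + ⟨wOdd, wOdd_mem⟩, ?_⟩
      rw [map_add, F_apply, F_apply]
      simp only
      rw [fval_dbl _ h0, fval_wOdd, add_assoc, add_self, add_zero]

theorem sq0 (t : ℤ) (h : t % 4 = 0) : (32 : ℤ) ∣ t ^ 2 - 4 * t := by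
  obtain ⟨s, rfl⟩ : ∃ s, t = 4 * s := ⟨t / 4, by omega⟩
  obtain ⟨r, hr⟩ := Int.even_mul_succ_self (s - 1)
  exact ⟨r, by linear_combination 16 * hr⟩

theorem sq2 (t : ℤ) (h : t % 4 = 2) : (32 : ℤ) ∣ t ^ 2 - 4 := by
  obtain ⟨s, rfl⟩ : ∃ s, t = 4 * s + 2 := ⟨t / 4, by omega⟩
  obtain ⟨r, hr⟩ := Int.even_mul_succ_self s
  exact ⟨r, by linear_combination 16 * hr⟩

/-- The Leech lattice of the definitions has an additive subgroup A containing twice the lattice, of index 2^12 in the lattice, all of whose vectors have squared length divisible by 32: the invariant quadratic form 'squared length over 16 modulo 2' on the lattice modulo twice the lattice (a 24-dimensional space over the field with two elements) vanishes on a 12-dimensional subspace, so it is of plus type. -/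
theorem result : ∃ A : AddSubgroup (Cfsg.GolayPt → ℤ), A ≤ Cfsg.leechLattice ∧ (∀ v ∈ Cfsg.leechLattice, (2 : ℤ) • v ∈ A) ∧ (A.addSubgroupOf Cfsg.leechLattice).index = 2 ^ 12 ∧ ∀ v ∈ A, (32 : ℤ) ∣ Cfsg.sqNorm v := by
  refine ⟨F.ker.map leechLattice.subtype, AddSubgroup.map_subtype_le _, ?_, ?_, ?_⟩
  · intro v hv
    refine ⟨(2 : ℤ) • ⟨v, hv⟩, ?_, rfl⟩
    rw [SetLike.mem_coe, AddMonoidHom.mem_ker, map_zsmul, two_zsmul, add_self]
  · have h1 : (F.ker.map leechLattice.subtype).addSubgroupOf leechLattice = F.ker := by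
      unfold AddSubgroup.addSubgroupOf
      exact AddSubgroup.comap_map_eq_self_of_injective (AddSubgroup.subtype_injective _) _
    rw [h1, AddSubgroup.index_ker]
    have h2 : Nat.card F.range = Nat.card golayCode :=
      Nat.card_congr (Equiv.subtypeEquivRight range_F)
    rw [h2, Cfsg.Agent.Helper3.golayCode_natCard]
    norm_num
  · rintro v ⟨y, hy, rfl⟩
    rw [SetLike.mem_coe, AddMonoidHom.mem_ker, F_apply] at hy
    obtain ⟨hn, hall⟩ := fval_zero (par y.2) hy
    obtain ⟨m, hm1, hm2, -⟩ := (mem_leechLattice_iff _).mp y.2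
    have hmn := hm1 none
    unfold Int.ModEq at hmn hm2
    have hsum : (8 : ℤ) ∣ ∑ i, (y : GolayPt → ℤ) i := by omega
    simp only [AddSubgroup.coe_subtype]
    have h4 : (y : GolayPt → ℤ) none % 4 = 0 ∨ (y : GolayPt → ℤ) none % 4 = 2 := by omega
    rcases h4 with h4 | h4
    · have hd : (32 : ℤ) ∣ ∑ i, ((y : GolayPt → ℤ) i ^ 2 - 4 * (y : GolayPt → ℤ) i) :=
        Finset.dvd_sum (fun i _ => sq0 _ (by rw [hall i]; exact h4))
      rw [Finset.sum_sub_distrib, ← Finset.mul_sum] at hd
      obtain ⟨k, hk⟩ := hsum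
      rw [hk] at hd
      unfold sqNorm
      omega
    · have hd : (32 : ℤ) ∣ ∑ i, ((y : GolayPt → ℤ) i ^ 2 - 4) :=
        Finset.dvd_sum (fun i _ => sq2 _ (by rw [hall i]; exact h4))
      rw [Finset.sum_sub_distrib, Finset.sum_const, Finset.card_univ, card_pts] at hd
      unfold sqNorm
      simp only [nsmul_eq_mul] at hd
      omega

end Cfsg.Agent.S5553
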