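import Cfsg.Statements.S1587
import Mathlib

set_option autoImplicit false
open Matrix
open Cfsg

namespace Cfsg.Agent.S1587

theorem bil_symm {n : Type*} [Fintype n] (B : Matrix n n ℤ) (hsymm : B.IsSymm) (u v : n → ℤ) :
    u ⬝ᵥ (B *ᵥ v) = v ⬝ᵥ (B *ᵥ u) := by
  rw [Matrix.dotProduct_mulVec, dotProduct_comm v, ← Matrix.vecMul_transpose, hsymm.eq]

/-- First step of the characterisation of the rank-24 lattice: in an even lattice without roots, norm-8 vectors congruent modulo 2 are equal, opposite or orthogonal. -/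
theorem result (B : Matrix (Fin 24) (Fin 24) ℤ) (hsymm : B.IsSymm) (hpos : ∀ x : Fin 24 → ℤ, x ≠ 0 → 0 < x ⬝ᵥ (B *ᵥ x)) (heven : ∀ x : Fin 24 → ℤ, (2 : ℤ) ∣ x ⬝ᵥ (B *ᵥ x)) (h2 : ∀ x : Fin 24 → ℤ, x ⬝ᵥ (B *ᵥ x) ≠ 2) (x y : Fin 24 → ℤ) (hx : x ⬝ᵥ (B *ᵥ x) = 8) (hy : y ⬝ᵥ (B *ᵥ y) = 8) (hc : ∀ i, (2 : ℤ) ∣ (x - y) i) : y = x ∨ y = -x ∨ x ⬝ᵥ (B *ᵥ y) = 0 := by
  choose z hz using hc
  have hxz : x = y + (2 : ℤ) • z := by
    funext i
    have := hz i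
    simp only [Pi.sub_apply] at this
    simp only [Pi.add_apply, Pi.smul_apply, smul_eq_mul]
    omega
  have hnonneg : ∀ v : Fin 24 → ℤ, 0 ≤ v ⬝ᵥ (B *ᵥ v) := by
    intro v
    by_cases hv : v = 0
    · subst hv; simp
    · exact (hpos v hv).le
  have hzero : ∀ v : Fin 24 → ℤ, v ⬝ᵥ (B *ᵥ v) = 0 → v = 0 := by
    intro v hv
    by_contra hne
    have := hpos v hne
    omega
  -- expansions
  have hyz : y ⬝ᵥ (B *ᵥ z) = z ⬝ᵥ (B *ᵥ y) := bil_symm B hsymm y z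
  have e1 : x ⬝ᵥ (B *ᵥ x) = y ⬝ᵥ (B *ᵥ y) + 4 * (y ⬝ᵥ (B *ᵥ z)) + 4 * (z ⬝ᵥ (B *ᵥ z)) := by
    rw [hxz]
    simp only [Matrix.mulVec_add, Matrix.mulVec_smul, dotProduct_add, add_dotProduct,
      smul_dotProduct, dotProduct_smul, smul_eq_mul]
    rw [← hyz]; ring
  have e2 : (y + z) ⬝ᵥ (B *ᵥ (y + z)) = y ⬝ᵥ (B *ᵥ y) + 2 * (y ⬝ᵥ (B *ᵥ z)) + z ⬝ᵥ (B *ᵥ z) := by
    simp only [Matrix.mulVec_add, dotProduct_add, add_dotProduct]
    rw [← hyz]; ring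
  have e3 : x ⬝ᵥ (B *ᵥ y) = y ⬝ᵥ (B *ᵥ y) + 2 * (y ⬝ᵥ (B *ᵥ z)) := by
    rw [hxz]
    simp only [add_dotProduct, smul_dotProduct, smul_eq_mul]
    rw [← hyz]
  have hz0 := hnonneg z
  have hw0 := hnonneg (y + z)
  have hze := heven z
  have hwe := heven (y + z)
  have hz2 := h2 z
  have hw2 := h2 (y + z)
  obtain ⟨k, hk⟩ := hze
  obtain ⟨l, hl⟩ := hwe
  have hsum : z ⬝ᵥ (B *ᵥ z) + (y + z) ⬝ᵥ (B *ᵥ (y + z)) = 8 := by
    rw [e2]; rw [hx, hy] at e1; rw [hy]; linarith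
  have hk0 : 0 ≤ k := by omega
  have hl0 : 0 ≤ l := by omega
  have hkl : k + l = 4 := by omega
  have hk1 : k ≠ 1 := by omega
  have hl1 : l ≠ 1 := by omega
  have hcases : k = 0 ∨ k = 2 ∨ k = 4 := by omega
  rcases hcases with h | h | h
  · left
    have : z = 0 := hzero z (by omega)
    rw [hxz, this]; simp
  · right; right
    rw [e3, hy]; rw [hx, hy] at e1; omega
  · right; left
    have hw : y + z = 0 := hzero (y + z) (by omega)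
    have hzy : z = -y := by
      have := eq_neg_of_add_eq_zero_right hw
      exact this
    rw [hxz, hzy]
    funext i
    simp only [Pi.add_apply, Pi.smul_apply, Pi.neg_apply, smul_eq_mul]
    ring

end Cfsg.Agent.S1587
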