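import Cfsg.Statements.S1588
import Cfsg.Agent.S1587
import Mathlib

set_option autoImplicit false
open Matrix
open Cfsg

namespace Cfsg.Agent.S1588

/-- two vectors of small norm congruent modulo 2 are equal or opposite -/
theorem pair_small (B : Matrix (Fin 24) (Fin 24) ℤ) (hsymm : B.IsSymm)
    (hpos : ∀ x : Fin 24 → ℤ, x ≠ 0 → 0 < x ⬝ᵥ (B *ᵥ x))
    (heven : ∀ x : Fin 24 → ℤ, (2 : ℤ) ∣ x ⬝ᵥ (B *ᵥ x))
    (h2 : ∀ x : Fin 24 → ℤ, x ⬝ᵥ (B *ᵥ x) ≠ 2) (x y : Fin 24 → ℤ)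
    (hab : x ⬝ᵥ (B *ᵥ x) + y ⬝ᵥ (B *ᵥ y) ≤ 14)
    (hc : ∀ i, (2 : ℤ) ∣ (x - y) i) : y = x ∨ y = -x := by
  choose z hz using hc
  have hxz : x = y + (2 : ℤ) • z := by
    funext i
    have := hz i
    simp only [Pi.sub_apply] at this
    simp only [Pi.add_apply, Pi.smul_apply, smul_eq_mul]
    omega
  have hnonneg : ∀ v : Fin 24 → ℤ, 0 ≤ v ⬝ᵥ (B *ᵥ v) := by
    intro v
    by_cases hv : v = 0
    · subst hv; simp
    · exact (hpos v hv).le
  have hzero : ∀ v : Fin 24 → ℤ, v ⬝ᵥ (B *ᵥ v) = 0 → v = 0 := by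
    intro v hv
    by_contra hne
    have := hpos v hne
    omega
  have hyz : y ⬝ᵥ (B *ᵥ z) = z ⬝ᵥ (B *ᵥ y) := Cfsg.Agent.S1587.bil_symm B hsymm y z
  have e1 : x ⬝ᵥ (B *ᵥ x) = y ⬝ᵥ (B *ᵥ y) + 4 * (y ⬝ᵥ (B *ᵥ z)) + 4 * (z ⬝ᵥ (B *ᵥ z)) := by
    rw [hxz]
    simp only [Matrix.mulVec_add, Matrix.mulVec_smul, dotProduct_add, add_dotProduct,
      smul_dotProduct, dotProduct_smul, smul_eq_mul]
    rw [← hyz]; ring
  have e2 : (y + z) ⬝ᵥ (B *ᵥ (y + z)) = y ⬝ᵥ (B *ᵥ y) + 2 * (y ⬝ᵥ (B *ᵥ z)) + z ⬝ᵥ (B *ᵥ z) := by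
    simp only [Matrix.mulVec_add, dotProduct_add, add_dotProduct]
    rw [← hyz]; ring
  have hz0 := hnonneg z
  have hw0 := hnonneg (y + z)
  have hy0 := hnonneg y
  have hz2 := h2 z
  have hw2 := h2 (y + z)
  obtain ⟨k, hk⟩ := heven z
  obtain ⟨l, hl⟩ := heven (y + z)
  have hcases : k = 0 ∨ l = 0 := by omega
  rcases hcases with h | h
  · left
    have : z = 0 := hzero z (by omega)
    rw [hxz, this]; simp
  · right
    have hw : y + z = 0 := hzero (y + z) (by omega)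
    have hzy : z = -y := eq_neg_of_add_eq_zero_right hw
    rw [hxz, hzy]
    funext i
    simp only [Pi.add_apply, Pi.smul_apply, Pi.neg_apply, smul_eq_mul]
    ring

/-- a finite set of vectors of positive norm, pairwise equal, opposite or orthogonal, has at most
48 members -/
theorem card_le_48 (B : Matrix (Fin 24) (Fin 24) ℤ)
    (A : Finset (Fin 24 → ℤ)) (hA0 : ∀ y ∈ A, y ⬝ᵥ (B *ᵥ y) ≠ 0)
    (hA : ∀ y ∈ A, ∀ y' ∈ A, y' = y ∨ y' = -y ∨ y ⬝ᵥ (B *ᵥ y') = 0) : A.card ≤ 48 := by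
  classical
  have h1 : A.card ≤ 2 * (A.image (fun y => ({y, -y} : Finset (Fin 24 → ℤ)))).card := by
    refine Finset.card_le_mul_card_image A 2 ?_
    intro p hp
    obtain ⟨y₀, hy₀, rfl⟩ := Finset.mem_image.mp hp
    refine le_trans (Finset.card_le_card (t := {y₀, -y₀}) ?_) Finset.card_le_two
    intro y hy
    rw [Finset.mem_filter] at hy
    have : y ∈ ({y, -y} : Finset (Fin 24 → ℤ)) := Finset.mem_insert_self _ _
    rw [hy.2] at this
    exact this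
  have hrep : ∀ p ∈ A.image (fun y => ({y, -y} : Finset (Fin 24 → ℤ))),
      ∃ y, y ∈ A ∧ ({y, -y} : Finset (Fin 24 → ℤ)) = p := by
    intro p hp
    obtain ⟨y₀, hy₀, rfl⟩ := Finset.mem_image.mp hp
    exact ⟨y₀, hy₀, rfl⟩
  choose! r hr using hrep
  have horth : ∀ p ∈ A.image (fun y => ({y, -y} : Finset (Fin 24 → ℤ))),
      ∀ q ∈ A.image (fun y => ({y, -y} : Finset (Fin 24 → ℤ))), p ≠ q →
      r p ⬝ᵥ (B *ᵥ r q) = 0 := by
    intro p hp q hq hpq
    rcases hA (r p) (hr p hp).1 (r q) (hr q hq).1 with h | h | h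
    · exfalso; apply hpq
      rw [← (hr p hp).2, ← (hr q hq).2, h]
    · exfalso; apply hpq
      rw [← (hr p hp).2, ← (hr q hq).2, h, neg_neg, Finset.pair_comm]
    · exact h
  have hli : LinearIndependent ℚ
      (fun p : ↥(A.image (fun y => ({y, -y} : Finset (Fin 24 → ℤ)))) =>
        (fun i => ((r p.1 i : ℤ) : ℚ) : Fin 24 → ℚ)) := by
    rw [Fintype.linearIndependent_iff]
    intro g hg j
    have hL := congrArg (fun u : Fin 24 → ℚ => ∑ k, u k * (((B *ᵥ r j.1) k : ℤ) : ℚ)) hg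
    simp only [Finset.sum_apply, Pi.smul_apply, smul_eq_mul, Pi.zero_apply, zero_mul,
      Finset.sum_const_zero, Finset.sum_mul] at hL
    rw [Finset.sum_comm] at hL
    have hterm : ∀ p : ↥(A.image (fun y => ({y, -y} : Finset (Fin 24 → ℤ)))),
        ∑ k, g p * ((r p.1 k : ℤ) : ℚ) * (((B *ᵥ r j.1) k : ℤ) : ℚ) =
          g p * ((r p.1 ⬝ᵥ (B *ᵥ r j.1) : ℤ) : ℚ) := by
      intro p
      unfold dotProduct
      push_cast
      rw [Finset.mul_sum]
      apply Finset.sum_congr rfl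
      intro k _
      ring
    rw [Finset.sum_congr rfl (fun p _ => hterm p)] at hL
    rw [Finset.sum_eq_single j] at hL
    · have hne : ((r j.1 ⬝ᵥ (B *ᵥ r j.1) : ℤ) : ℚ) ≠ 0 := by
        exact_mod_cast hA0 _ (hr j.1 j.2).1
      exact (mul_eq_zero.mp hL).resolve_right hne
    · intro p _ hpj
      rw [horth p.1 p.2 j.1 j.2 (fun h => hpj (Subtype.ext h))]
      simp
    · intro h
      exact absurd (Finset.mem_univ j) h
  have h2 := hli.fintype_card_le_finrank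
  rw [Fintype.card_coe, Module.finrank_fin_fun] at h2
  omega

/-- Second step of the characterisation: under the vector counts of the rank-24 lattice, the norm-8 vectors fall into congruence classes of exactly 48 modulo twice the lattice. -/
theorem result (B : Matrix (Fin 24) (Fin 24) ℤ) (hsymm : B.IsSymm) (hpos : ∀ x : Fin 24 → ℤ, x ≠ 0 → 0 < x ⬝ᵥ (B *ᵥ x)) (heven : ∀ x : Fin 24 → ℤ, (2 : ℤ) ∣ x ⬝ᵥ (B *ᵥ x)) (h2 : ∀ x : Fin 24 → ℤ, x ⬝ᵥ (B *ᵥ x) ≠ 2) (h4 : {x : Fin 24 → ℤ | x ⬝ᵥ (B *ᵥ x) = 4}.ncard = 196560) (h6 : {x : Fin 24 → ℤ | x ⬝ᵥ (B *ᵥ x) = 6}.ncard = 16773120) (h8 : {x : Fin 24 → ℤ | x ⬝ᵥ (B *ᵥ x) = 8}.ncard = 398034000) (x : Fin 24 → ℤ) (hx : x ⬝ᵥ (B *ᵥ x) = 8) : {y : Fin 24 → ℤ | y ⬝ᵥ (B *ᵥ y) = 8 ∧ ∀ i, (2 : ℤ) ∣ (x - y) i}.ncard = 48 := by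
  classical
  have hf4 : {x : Fin 24 → ℤ | x ⬝ᵥ (B *ᵥ x) = 4}.Finite :=
    Set.finite_of_ncard_ne_zero (by rw [h4]; norm_num)
  have hf6 : {x : Fin 24 → ℤ | x ⬝ᵥ (B *ᵥ x) = 6}.Finite :=
    Set.finite_of_ncard_ne_zero (by rw [h6]; norm_num)
  have hf8 : {x : Fin 24 → ℤ | x ⬝ᵥ (B *ᵥ x) = 8}.Finite :=
    Set.finite_of_ncard_ne_zero (by rw [h8]; norm_num)
  have hc4 : hf4.toFinset.card = 196560 := by rw [← Set.ncard_eq_toFinset_card _ hf4, h4]
  have hc6 : hf6.toFinset.card = 16773120 := by rw [← Set.ncard_eq_toFinset_card _ hf6, h6]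
  have hc8 : hf8.toFinset.card = 398034000 := by rw [← Set.ncard_eq_toFinset_card _ hf8, h8]
  have hm4 : ∀ v, v ∈ hf4.toFinset ↔ v ⬝ᵥ (B *ᵥ v) = 4 := fun v => by
    rw [Set.Finite.mem_toFinset]; rfl
  have hm6 : ∀ v, v ∈ hf6.toFinset ↔ v ⬝ᵥ (B *ᵥ v) = 6 := fun v => by
    rw [Set.Finite.mem_toFinset]; rfl
  have hm8 : ∀ v, v ∈ hf8.toFinset ↔ v ⬝ᵥ (B *ᵥ v) = 8 := fun v => by
    rw [Set.Finite.mem_toFinset]; rfl
  -- reduction modulo 2
  let φ : (Fin 24 → ℤ) → (Fin 24 → ZMod 2) := fun v i => ((v i : ℤ) : ZMod 2)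
  have hφ : ∀ u v : Fin 24 → ℤ, φ u = φ v ↔ ∀ i, (2 : ℤ) ∣ (u - v) i := by
    intro u v
    constructor
    · intro h i
      have := congrFun h i
      have h' : ((v i : ℤ) : ZMod 2) = ((u i : ℤ) : ZMod 2) := this.symm
      rw [ZMod.intCast_eq_intCast_iff_dvd_sub] at h'
      exact h'
    · intro h
      funext i
      have h' : ((v i : ℤ) : ZMod 2) = ((u i : ℤ) : ZMod 2) := by
        rw [ZMod.intCast_eq_intCast_iff_dvd_sub]
        exact h i
      exact h'.symm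
  have hneg : ∀ v : Fin 24 → ℤ, (-v) ⬝ᵥ (B *ᵥ (-v)) = v ⬝ᵥ (B *ᵥ v) := by
    intro v
    simp [Matrix.mulVec_neg]
  have hP : ∀ u v : Fin 24 → ℤ, u ⬝ᵥ (B *ᵥ u) + v ⬝ᵥ (B *ᵥ v) ≤ 14 → φ u = φ v →
      v = u ∨ v = -u := fun u v hle h => pair_small B hsymm hpos heven h2 u v hle ((hφ u v).mp h)
  have hPn : ∀ u v : Fin 24 → ℤ, u ⬝ᵥ (B *ᵥ u) + v ⬝ᵥ (B *ᵥ v) ≤ 14 → φ u = φ v →
      v ⬝ᵥ (B *ᵥ v) = u ⬝ᵥ (B *ᵥ u) := by
    intro u v hle h
    rcases hP u v hle h with h1 | h1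
    · rw [h1]
    · rw [h1, hneg]
  have h0 : (0 : Fin 24 → ℤ) ⬝ᵥ (B *ᵥ 0) = 0 := by simp
  -- fibre bounds
  have hb4 : hf4.toFinset.card ≤ 2 * (hf4.toFinset.image φ).card := by
    refine Finset.card_le_mul_card_image _ 2 ?_
    intro c hc
    obtain ⟨v₀, hv₀, rfl⟩ := Finset.mem_image.mp hc
    refine le_trans (Finset.card_le_card (t := {v₀, -v₀}) ?_) Finset.card_le_two
    intro v hv
    rw [Finset.mem_filter] at hv
    have hv4 := (hm4 v).mp hv.1
    have hv₀4 := (hm4 v₀).mp hv₀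
    rcases hP v₀ v (by rw [hv4, hv₀4]; norm_num) hv.2.symm with h1 | h1
    · rw [h1]; exact Finset.mem_insert_self _ _
    · rw [h1]; exact Finset.mem_insert_of_mem (Finset.mem_singleton_self _)
  have hb6 : hf6.toFinset.card ≤ 2 * (hf6.toFinset.image φ).card := by
    refine Finset.card_le_mul_card_image _ 2 ?_
    intro c hc
    obtain ⟨v₀, hv₀, rfl⟩ := Finset.mem_image.mp hc
    refine le_trans (Finset.card_le_card (t := {v₀, -v₀}) ?_) Finset.card_le_two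
    intro v hv
    rw [Finset.mem_filter] at hv
    have hv6 := (hm6 v).mp hv.1
    have hv₀6 := (hm6 v₀).mp hv₀
    rcases hP v₀ v (by rw [hv6, hv₀6]; norm_num) hv.2.symm with h1 | h1
    · rw [h1]; exact Finset.mem_insert_self _ _
    · rw [h1]; exact Finset.mem_insert_of_mem (Finset.mem_singleton_self _)
  have hfib8 : ∀ c ∈ hf8.toFinset.image φ, (hf8.toFinset.filter (fun v => φ v = c)).card ≤ 48 := by
    intro c hc
    refine card_le_48 B _ ?_ ?_
    · intro v hv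
      rw [Finset.mem_filter] at hv
      rw [(hm8 v).mp hv.1]; norm_num
    · intro v hv v' hv'
      rw [Finset.mem_filter] at hv hv'
      exact Cfsg.Agent.S1587.result B hsymm hpos heven h2 v v' ((hm8 v).mp hv.1) ((hm8 v').mp hv'.1)
        ((hφ v v').mp (hv.2.trans hv'.2.symm))
  have hb8 : hf8.toFinset.card ≤ 48 * (hf8.toFinset.image φ).card :=
    Finset.card_le_mul_card_image _ 48 hfib8
  -- disjointness of the images
  have hd04 : φ 0 ∉ hf4.toFinset.image φ := by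
    intro hc
    obtain ⟨v, hv, hv'⟩ := Finset.mem_image.mp hc
    have := hPn 0 v (by rw [h0, (hm4 v).mp hv]; norm_num) hv'.symm
    rw [h0, (hm4 v).mp hv] at this; omega
  have hd06 : φ 0 ∉ hf6.toFinset.image φ := by
    intro hc
    obtain ⟨v, hv, hv'⟩ := Finset.mem_image.mp hc
    have := hPn 0 v (by rw [h0, (hm6 v).mp hv]; norm_num) hv'.symm
    rw [h0, (hm6 v).mp hv] at this; omega
  have hd08 : φ 0 ∉ hf8.toFinset.image φ := by
    intro hc
    obtain ⟨v, hv, hv'⟩ := Finset.mem_image.mp hc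
    have := hPn 0 v (by rw [h0, (hm8 v).mp hv]; norm_num) hv'.symm
    rw [h0, (hm8 v).mp hv] at this; omega
  have hd46 : Disjoint (hf4.toFinset.image φ) (hf6.toFinset.image φ) := by
    rw [Finset.disjoint_left]
    intro c hc4' hc6'
    obtain ⟨u, hu, rfl⟩ := Finset.mem_image.mp hc4'
    obtain ⟨v, hv, hv'⟩ := Finset.mem_image.mp hc6'
    have := hPn u v (by rw [(hm4 u).mp hu, (hm6 v).mp hv]; norm_num) hv'.symm
    rw [(hm4 u).mp hu, (hm6 v).mp hv] at this; omega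
  have hd48 : Disjoint (hf4.toFinset.image φ) (hf8.toFinset.image φ) := by
    rw [Finset.disjoint_left]
    intro c hc4' hc8'
    obtain ⟨u, hu, rfl⟩ := Finset.mem_image.mp hc4'
    obtain ⟨v, hv, hv'⟩ := Finset.mem_image.mp hc8'
    have := hPn u v (by rw [(hm4 u).mp hu, (hm8 v).mp hv]; norm_num) hv'.symm
    rw [(hm4 u).mp hu, (hm8 v).mp hv] at this; omega
  have hd68 : Disjoint (hf6.toFinset.image φ) (hf8.toFinset.image φ) := by
    rw [Finset.disjoint_left]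
    intro c hc6' hc8'
    obtain ⟨u, hu, rfl⟩ := Finset.mem_image.mp hc6'
    obtain ⟨v, hv, hv'⟩ := Finset.mem_image.mp hc8'
    have := hPn u v (by rw [(hm6 u).mp hu, (hm8 v).mp hv]; norm_num) hv'.symm
    rw [(hm6 u).mp hu, (hm8 v).mp hv] at this; omega
  -- the union bound
  have hU : ((({φ 0} : Finset (Fin 24 → ZMod 2)) ∪ hf4.toFinset.image φ) ∪ hf6.toFinset.image φ ∪
      hf8.toFinset.image φ).card ≤ 2 ^ 24 := by
    refine le_trans (Finset.card_le_univ _) ?_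
    rw [Fintype.card_fun, ZMod.card, Fintype.card_fin]
  rw [Finset.card_union_of_disjoint, Finset.card_union_of_disjoint, Finset.card_union_of_disjoint,
    Finset.card_singleton] at hU
  rotate_left
  · rw [Finset.disjoint_singleton_left]; exact hd04
  · rw [Finset.disjoint_union_left, Finset.disjoint_singleton_left]; exact ⟨hd06, hd46⟩
  · rw [Finset.disjoint_union_left, Finset.disjoint_union_left, Finset.disjoint_singleton_left]
    exact ⟨⟨hd08, hd48⟩, hd68⟩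
  have hI8 : (hf8.toFinset.image φ).card = 8292375 := by
    rw [hc4] at hb4
    rw [hc6] at hb6
    rw [hc8] at hb8
    norm_num at hU
    omega
  -- all fibres have exactly 48 elements
  have h48 : ∀ c ∈ hf8.toFinset.image φ, (hf8.toFinset.filter (fun v => φ v = c)).card = 48 := by
    by_contra hcon
    push Not at hcon
    obtain ⟨c₀, hc₀, hne⟩ := hcon
    have hlt : (hf8.toFinset.filter (fun v => φ v = c₀)).card < 48 :=
      lt_of_le_of_ne (hfib8 c₀ hc₀) hne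
    have hsum := Finset.card_eq_sum_card_image φ hf8.toFinset
    have hlt' : ∑ c ∈ hf8.toFinset.image φ, (hf8.toFinset.filter (fun v => φ v = c)).card <
        ∑ _c ∈ hf8.toFinset.image φ, 48 := Finset.sum_lt_sum hfib8 ⟨c₀, hc₀, hlt⟩
    rw [Finset.sum_const, smul_eq_mul, hI8, ← hsum, hc8] at hlt'
    omega
  have hx8 : x ∈ hf8.toFinset := (hm8 x).mpr hx
  have hfin := h48 (φ x) (Finset.mem_image_of_mem φ hx8)
  rw [← hfin, ← Set.ncard_coe_finset]
  congr 1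
  ext y
  simp only [Set.mem_setOf_eq, Finset.coe_filter]
  rw [hm8 y]
  constructor
  · rintro ⟨h1, h2'⟩
    exact ⟨h1, ((hφ x y).mpr h2').symm⟩
  · rintro ⟨h1, h2'⟩
    exact ⟨h1, (hφ x y).mp h2'.symm⟩

end Cfsg.Agent.S1588
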