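import Cfsg.Statements.S5552
import Cfsg.Agent.Helper3.LeechMod2

set_option autoImplicit false
open Cfsg

namespace Cfsg.Agent.S5552

open Cfsg.Agent.Helper3 Cfsg.Agent.Helper28.Leech

/-! explicit vectors -/

def uA : GolayPt → ℤ := fun i => if i = gPt 23 then -3 else 1
def v1A : GolayPt → ℤ := fun i => if i = gPt 0 ∨ i = gPt 1 then -4 else 0
def v2A : GolayPt → ℤ := fun i => if i = gPt 23 ∨ i = gPt 1 then 4 else 0
def uB : GolayPt → ℤ := fun i => if i = gPt 2 ∨ i = gPt 3 then 4 else 0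
def v1B : GolayPt → ℤ := fun i => if i = gPt 0 ∨ i = gPt 1 then 4 else 0
def v2B : GolayPt → ℤ := fun i => if i = gPt 0 then -4 else if i = gPt 4 then 4 else 0

set_option maxRecDepth 100000 in
theorem uA_test : ltest uA = true := by decide +kernel
set_option maxRecDepth 100000 in
theorem v1A_test : ltest v1A = true := by decide +kernel
set_option maxRecDepth 100000 in
theorem v2A_test : ltest v2A = true := by decide +kernel
set_option maxRecDepth 100000 in
theorem uB_test : ltest uB = true := by decide +kernel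
set_option maxRecDepth 100000 in
theorem v1B_test : ltest v1B = true := by decide +kernel
set_option maxRecDepth 100000 in
theorem v2B_test : ltest v2B = true := by decide +kernel

def UA : ↥leechLattice := ⟨uA, ltest_sound _ uA_test⟩
def V1A : ↥leechLattice := ⟨v1A, ltest_sound _ v1A_test⟩
def V2A : ↥leechLattice := ⟨v2A, ltest_sound _ v2A_test⟩
def UB : ↥leechLattice := ⟨uB, ltest_sound _ uB_test⟩
def V1B : ↥leechLattice := ⟨v1B, ltest_sound _ v1B_test⟩
def V2B : ↥leechLattice := ⟨v2B, ltest_sound _ v2B_test⟩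

set_option maxRecDepth 100000 in
theorem normsA : sqNorm uA = 32 ∧ sqNorm v1A = 32 ∧ sqNorm v2A = 32 ∧ sqNorm (v1A + v2A) = 32 ∧
    sqNorm (v1A + uA) = 48 ∧ sqNorm (v2A + uA) = 48 ∧ sqNorm (v1A + v2A + uA) = 32 := by
  decide +kernel

set_option maxRecDepth 100000 in
theorem normsB : sqNorm uB = 32 ∧ sqNorm v1B = 32 ∧ sqNorm v2B = 32 ∧ sqNorm (v1B + v2B) = 32 ∧
    sqNorm (v1B + uB) = 64 ∧ sqNorm (v2B + uB) = 64 ∧ sqNorm (v1B + v2B + uB) = 64 := by
  decide +kernel

theorem sqNorm_add_two (y z : GolayPt → ℤ) :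
    sqNorm (y + 2 • z) = sqNorm y + 4 * dotInt y z + 4 * sqNorm z := by
  unfold sqNorm dotInt
  rw [Finset.mul_sum, Finset.mul_sum, ← Finset.sum_add_distrib, ← Finset.sum_add_distrib]
  apply Finset.sum_congr rfl
  intro i _
  simp only [Pi.add_apply, Pi.smul_apply]
  ring

theorem zmod2_cases (x : ZMod 2) : x = 0 ∨ x = 1 := by
  revert x
  decide

/-- every lattice vector is congruent modulo twice the lattice to a short one -/
theorem short_rep (Q : ↥leechLattice → ZMod 2)
    (hcoset : ∀ v w : ↥leechLattice, Q (v + (w + w)) = Q v) (x : ↥leechLattice) :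
    ∃ y : ↥leechLattice, Q x = Q y ∧
      (sqNorm (y : GolayPt → ℤ) = 0 ∨ sqNorm (y : GolayPt → ℤ) = 32 ∨
        sqNorm (y : GolayPt → ℤ) = 48 ∨ sqNorm (y : GolayPt → ℤ) = 64) ∧
      ((sqNorm (x : GolayPt → ℤ) / 16 : ℤ) : ZMod 2) =
        ((sqNorm (y : GolayPt → ℤ) / 16 : ℤ) : ZMod 2) := by
  obtain ⟨y, hy, hyn, z, hz, hxy⟩ := mod_two_rep x.1 x.2
  have hx : (x : GolayPt → ℤ) = y + 2 • z := by
    rw [← hxy]
    abel
  have hxs : x = (⟨y, hy⟩ : ↥leechLattice) + ((⟨z, hz⟩ : ↥leechLattice) + ⟨z, hz⟩) := by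
    apply Subtype.ext
    show (x : GolayPt → ℤ) = y + (z + z)
    rw [hx, two_smul]
  refine ⟨⟨y, hy⟩, ?_, ?_, ?_⟩
  · rw [hxs]
    exact hcoset _ _
  · show sqNorm y = 0 ∨ sqNorm y = 32 ∨ sqNorm y = 48 ∨ sqNorm y = 64
    obtain ⟨k, hk⟩ := leech_dvd y hy
    have h0 := sqNorm_nonneg y
    by_cases hy0 : y = 0
    · left
      rw [hy0]
      unfold sqNorm
      simp
    · have h32 := leech_min_norm y hy hy0
      omega
  · show ((sqNorm (x : GolayPt → ℤ) / 16 : ℤ) : ZMod 2) = ((sqNorm y / 16 : ℤ) : ZMod 2)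
    obtain ⟨A, hA⟩ := leech_dvd y hy
    obtain ⟨B, hB⟩ := dot_dvd y z hy hz
    obtain ⟨C, hC⟩ := leech_dvd z hz
    have e1 : sqNorm (x : GolayPt → ℤ) = 16 * (A + 2 * B + 4 * C) := by
      rw [hx, sqNorm_add_two, hA, hB, hC]
      ring
    rw [e1, hA, Int.mul_ediv_cancel_left _ (by norm_num), Int.mul_ediv_cancel_left _ (by norm_num)]
    push_cast
    have h2 : (2 : ZMod 2) = 0 := by decide
    have h4 : (4 : ZMod 2) = 0 := by decide
    rw [h2, h4]
    ring

/-- On the Leech lattice of the definitions, let Q be a function to the field with two elements that is constant on cosets of twice the lattice, is a quadratic form there (Q(u+v+w) + Q(u) + Q(v) + Q(w) = Q(u+v) + Q(u+w) + Q(v+w) for all u, v, w), is invariant under every lattice automorphism, and is not identically zero. Then Q(v) is the squared length of v divided by 16, reduced modulo 2, for every lattice vector v (squared lengths of lattice vectors are multiples of 16). -/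
theorem result (Q : ↥Cfsg.leechLattice → ZMod 2) (hcoset : ∀ v w : ↥Cfsg.leechLattice, Q (v + (w + w)) = Q v) (hquad : ∀ u v w : ↥Cfsg.leechLattice, Q (u + v + w) + Q u + Q v + Q w = Q (u + v) + Q (u + w) + Q (v + w)) (hinv : ∀ (g : ↥Cfsg.Co0) (v : ↥Cfsg.leechLattice), Q (g • v) = Q v) (hne : ∃ v : ↥Cfsg.leechLattice, Q v ≠ 0) (v : ↥Cfsg.leechLattice) : Q v = ((Cfsg.sqNorm (v : Cfsg.GolayPt → ℤ) / 16 : ℤ) : ZMod 2) := by
  have h32 : ∀ x y : ↥leechLattice, sqNorm (x : GolayPt → ℤ) = 32 → sqNorm (y : GolayPt → ℤ) = 32 →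
      Q x = Q y := by
    intro x y hx hy
    obtain ⟨g, hg⟩ := co0_trans_min x y hx hy
    rw [← hg, hinv]
  have h48 : ∀ x y : ↥leechLattice, sqNorm (x : GolayPt → ℤ) = 48 → sqNorm (y : GolayPt → ℤ) = 48 →
      Q x = Q y := by
    intro x y hx hy
    obtain ⟨g, hg⟩ := co0_trans_48 x y hx hy
    rw [← hg, hinv]
  have h64 : ∀ x y : ↥leechLattice, sqNorm (x : GolayPt → ℤ) = 64 → sqNorm (y : GolayPt → ℤ) = 64 →
      Q x = Q y := by
    intro x y hx hy
    obtain ⟨g, hg⟩ := co0_trans_64 x y hx hy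
    rw [← hg, hinv]
  -- Q 0 = 0
  have hQ0 : Q 0 = 0 := by
    have h := hquad 0 0 0
    simp only [add_zero] at h
    rcases zmod2_cases (Q 0) with h0 | h0
    · exact h0
    · rw [h0] at h
      exact absurd h (by decide)
  -- a = 0
  obtain ⟨nA1, nA2, nA3, nA4, nA5, nA6, nA7⟩ := normsA
  obtain ⟨nB1, nB2, nB3, nB4, nB5, nB6, nB7⟩ := normsB
  have ha : Q UA = 0 := by
    have h := hquad V1A V2A UA
    have e1 : Q (V1A + V2A + UA) = Q UA := h32 _ _ nA7 nA1
    have e2 : Q V1A = Q UA := h32 _ _ nA2 nA1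
    have e3 : Q V2A = Q UA := h32 _ _ nA3 nA1
    have e4 : Q (V1A + V2A) = Q UA := h32 _ _ nA4 nA1
    have e5 : Q (V2A + UA) = Q (V1A + UA) := h48 _ _ nA6 nA5
    rw [e1, e2, e3, e4, e5] at h
    rcases zmod2_cases (Q UA) with h0 | h0
    · exact h0
    · rw [h0] at h
      rcases zmod2_cases (Q (V1A + UA)) with h1 | h1
      · rw [h1] at h
        exact absurd h (by decide)
      · rw [h1] at h
        exact absurd h (by decide)
  have hc : Q (V1B + UB) = 0 := by
    have h := hquad V1B V2B UB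
    have e1 : Q (V1B + V2B + UB) = Q (V1B + UB) := h64 _ _ nB7 nB5
    have e2 : Q V1B = Q UA := h32 _ _ nB2 nA1
    have e3 : Q V2B = Q UA := h32 _ _ nB3 nA1
    have e4 : Q (V1B + V2B) = Q UA := h32 _ _ nB4 nA1
    have e5 : Q (V2B + UB) = Q (V1B + UB) := h64 _ _ nB6 nB5
    have e6 : Q UB = Q UA := h32 _ _ nB1 nA1
    rw [e1, e2, e3, e4, e5, e6, ha] at h
    rcases zmod2_cases (Q (V1B + UB)) with h0 | h0
    · exact h0
    · rw [h0] at h
      exact absurd h (by decide)
  -- values on short vectors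
  have hval : ∀ y : ↥leechLattice, sqNorm (y : GolayPt → ℤ) = 0 ∨ sqNorm (y : GolayPt → ℤ) = 32 ∨
      sqNorm (y : GolayPt → ℤ) = 64 → Q y = 0 := by
    intro y hy
    rcases hy with h | h | h
    · have e : y = 0 := Subtype.ext (sqNorm_eq_zero _ h)
      rw [e, hQ0]
    · rw [h32 y UA h nA1, ha]
    · rw [h64 y (V1B + UB) h nB5, hc]
  have hb : Q (V1A + UA) = 1 := by
    obtain ⟨v0, hv0⟩ := hne
    obtain ⟨y, hy1, hy2, -⟩ := short_rep Q hcoset v0
    rcases hy2 with h | h | h | h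
    · exact absurd (hy1.trans (hval y (Or.inl h))) hv0
    · exact absurd (hy1.trans (hval y (Or.inr (Or.inl h)))) hv0
    · rw [hy1, h48 y (V1A + UA) h nA5] at hv0
      rcases zmod2_cases (Q (V1A + UA)) with h0 | h0
      · exact absurd h0 hv0
      · exact h0
    · exact absurd (hy1.trans (hval y (Or.inr (Or.inr h)))) hv0
  obtain ⟨y, hy1, hy2, hy3⟩ := short_rep Q hcoset v
  rw [hy1, hy3]
  rcases hy2 with h | h | h | h
  · rw [hval y (Or.inl h), h]
    decide
  · rw [hval y (Or.inr (Or.inl h)), h]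
    decide
  · rw [h48 y (V1A + UA) h nA5, hb, h]
    decide
  · rw [hval y (Or.inr (Or.inr h)), h]
    decide

end Cfsg.Agent.S5552
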