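import Cfsg.Statements.S0598
import Mathlib.GroupTheory.Index
import Mathlib.Tactic.Group
import Mathlib.Tactic.Ring
import Mathlib.Tactic.Linarith

set_option autoImplicit false
open Cfsg
open scoped commutatorElement

namespace Cfsg.Agent.S0598

variable {G : Type*} [Group G]

/-- fixed points of `B` in `V` -/
def cv (V B : Subgroup G) : Subgroup G := V ⊓ Subgroup.centralizer (B : Set G)

/-- generators of the commutator `[S, A]` -/
def gens (A : Subgroup G) (S : Set G) : Set G := {g : G | ∃ u ∈ S, ∃ b ∈ A, ⁅u, b⁆ = g}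

/-- the centralizer in `A` of `[S, A]` -/
def aS (A : Subgroup G) (S : Set G) : Subgroup G := A ⊓ Subgroup.centralizer (gens A S)

theorem card_subgroupOf {A U : Subgroup G} (h : A ≤ U) :
    Nat.card (A.subgroupOf U) = Nat.card A :=
  Nat.card_congr (Subgroup.subgroupOfEquivOfLe h).toEquiv

theorem card_mul_relIndex {H K : Subgroup G} (h : H ≤ K) :
    Nat.card H * H.relIndex K = Nat.card K := by
  have h1 := Subgroup.card_mul_index (H.subgroupOf K)
  rw [card_subgroupOf h] at h1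
  exact h1

theorem card_mul_le [Finite G] (H K : Subgroup G) :
    Nat.card H * Nat.card K ≤ Nat.card (H ⊔ K : Subgroup G) * Nat.card (H ⊓ K : Subgroup G) := by
  have h1 : Nat.card (H ⊓ K : Subgroup G) * H.relIndex K = Nat.card K := by
    rw [← Subgroup.inf_relIndex_right]
    exact card_mul_relIndex inf_le_right
  have h2 : Nat.card H * H.relIndex (H ⊔ K) = Nat.card (H ⊔ K : Subgroup G) :=
    card_mul_relIndex le_sup_left
  have hne : H.relIndex (H ⊔ K) ≠ 0 := by
    intro h0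
    rw [h0, mul_zero] at h2
    exact (Nat.card_pos (α := (H ⊔ K : Subgroup G))).ne h2
  have h3 : H.relIndex K ≤ H.relIndex (H ⊔ K) := Subgroup.relIndex_le_of_le_right le_sup_right hne
  calc Nat.card H * Nat.card K = Nat.card H * (Nat.card (H ⊓ K : Subgroup G) * H.relIndex K) := by
        rw [h1]
    _ ≤ Nat.card H * (Nat.card (H ⊓ K : Subgroup G) * H.relIndex (H ⊔ K)) :=
        Nat.mul_le_mul_left _ (Nat.mul_le_mul_left _ h3)
    _ = Nat.card (H ⊔ K : Subgroup G) * Nat.card (H ⊓ K : Subgroup G) := by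
        rw [← h2]; ring

section
variable (V A : Subgroup G) (hVc : IsMulCommutative V)
  (hAV : A ≤ Subgroup.normalizer (V : Set G))
  (hab : ⁅A, A⁆ ≤ Subgroup.centralizer (V : Set G))
include hVc hAV hab

theorem conj_mem {a : G} (ha : a ∈ A) {v : G} (hv : v ∈ V) : a * v * a⁻¹ ∈ V :=
  ((Subgroup.mem_normalizer_iff.mp (hAV ha)) v).1 hv

theorem comm_mem {a : G} (ha : a ∈ A) {v : G} (hv : v ∈ V) : ⁅v, a⁆ ∈ V := by
  have h1 : a * v⁻¹ * a⁻¹ ∈ V := conj_mem V A hVc hAV hab ha (V.inv_mem hv)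
  have : ⁅v, a⁆ = v * (a * v⁻¹ * a⁻¹) := by rw [commutatorElement_def]; group
  rw [this]
  exact V.mul_mem hv h1

theorem conj_comm {a b : G} (ha : a ∈ A) (hb : b ∈ A) {w : G} (hw : w ∈ V) :
    a * b * w * b⁻¹ * a⁻¹ = b * a * w * a⁻¹ * b⁻¹ := by
  have h1 : ⁅a, b⁆ ∈ Subgroup.centralizer (V : Set G) :=
    hab (Subgroup.commutator_mem_commutator ha hb)
  have hw' : b * a * w * a⁻¹ * b⁻¹ ∈ V := by
    have := conj_mem V A hVc hAV hab (A.mul_mem hb ha) hw
    have e : b * a * w * (b * a)⁻¹ = b * a * w * a⁻¹ * b⁻¹ := by group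
    rw [e] at this
    exact this
  have h2 := (Subgroup.mem_centralizer_iff.mp h1) _ hw'
  have e1 : a * b * w * b⁻¹ * a⁻¹ = ⁅a, b⁆ * (b * a * w * a⁻¹ * b⁻¹) * ⁅a, b⁆⁻¹ := by
    rw [commutatorElement_def]; group
  rw [e1, ← h2]
  group

theorem symm_comm {a b : G} (ha : a ∈ A) (hb : b ∈ A) {v : G} (hv : v ∈ V) :
    ⁅⁅v, a⁆, b⁆ = ⁅⁅v, b⁆, a⁆ := by
  have hx : a * v⁻¹ * a⁻¹ ∈ V := conj_mem V A hVc hAV hab ha (V.inv_mem hv)
  have hy : b * v⁻¹ * b⁻¹ ∈ V := conj_mem V A hVc hAV hab hb (V.inv_mem hv)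
  have hz : b * a * v * a⁻¹ * b⁻¹ ∈ V := by
    have := conj_mem V A hVc hAV hab (A.mul_mem hb ha) hv
    have e : b * a * v * (b * a)⁻¹ = b * a * v * a⁻¹ * b⁻¹ := by group
    rw [e] at this
    exact this
  have e1 : ⁅⁅v, a⁆, b⁆ = v * ((a * v⁻¹ * a⁻¹) * ((b * a * v * a⁻¹ * b⁻¹) * (b * v⁻¹ * b⁻¹))) := by
    simp only [commutatorElement_def]; group
  have e2 : ⁅⁅v, b⁆, a⁆ = v * ((b * v⁻¹ * b⁻¹) * ((a * b * v * b⁻¹ * a⁻¹) * (a * v⁻¹ * a⁻¹))) := by
    simp only [commutatorElement_def]; group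
  rw [e1, e2, conj_comm V A hVc hAV hab ha hb hv]
  congr 1
  have c1 : (a * v⁻¹ * a⁻¹) * ((b * a * v * a⁻¹ * b⁻¹) * (b * v⁻¹ * b⁻¹)) =
      ((b * a * v * a⁻¹ * b⁻¹) * (b * v⁻¹ * b⁻¹)) * (a * v⁻¹ * a⁻¹) :=
    setLike_mul_comm hx (V.mul_mem hz hy)
  have c2 : (b * a * v * a⁻¹ * b⁻¹) * (b * v⁻¹ * b⁻¹) =
      (b * v⁻¹ * b⁻¹) * (b * a * v * a⁻¹ * b⁻¹) := setLike_mul_comm hz hy
  rw [c1, c2, mul_assoc]

theorem mem_aS_single {u : G} (hu : u ∈ V) {d : G} :
    d ∈ aS A {u} ↔ d ∈ A ∧ ⁅u, d⁆ ∈ Subgroup.centralizer (A : Set G) := by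
  unfold aS gens
  constructor
  · rintro ⟨hdA, hd⟩
    refine ⟨hdA, Subgroup.mem_centralizer_iff.mpr ?_⟩
    intro b hb
    have h1 : ⁅⁅u, b⁆, d⁆ = 1 := by
      rw [commutatorElement_eq_one_iff_mul_comm]
      exact (Subgroup.mem_centralizer_iff.mp hd) _ ⟨u, rfl, b, hb, rfl⟩
    have h2 : ⁅⁅u, d⁆, b⁆ = 1 := by
      rw [symm_comm V A hVc hAV hab hdA hb hu]; exact h1
    exact (commutatorElement_eq_one_iff_mul_comm.mp h2).symm
  · rintro ⟨hdA, hd⟩
    refine ⟨hdA, Subgroup.mem_centralizer_iff.mpr ?_⟩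
    rintro _ ⟨u', hu', b, hb, rfl⟩
    rw [Set.mem_singleton_iff] at hu'
    subst hu'
    have h2 : ⁅⁅u', d⁆, b⁆ = 1 := by
      rw [commutatorElement_eq_one_iff_mul_comm]
      exact ((Subgroup.mem_centralizer_iff.mp hd) b hb).symm
    have h1 : ⁅⁅u', b⁆, d⁆ = 1 := by
      rw [symm_comm V A hVc hAV hab hb hdA hu]; exact h2
    exact commutatorElement_eq_one_iff_mul_comm.mp h1

theorem gens_subset {S : Set G} (hS : S ⊆ V) : gens A S ⊆ V := by
  rintro _ ⟨u, hu, b, hb, rfl⟩
  exact comm_mem V A hVc hAV hab hb (hS hu)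

theorem top_le_cv {S : Set G} (hS : S ⊆ V) :
    Subgroup.closure (gens A S) ⊔ cv V A ≤ cv V (aS A S) := by
  apply sup_le
  · rw [Subgroup.closure_le]
    intro x hx
    refine ⟨gens_subset V A hVc hAV hab hS hx, Subgroup.mem_centralizer_iff.mpr ?_⟩
    intro d hd
    exact ((Subgroup.mem_centralizer_iff.mp hd.2) x hx).symm
  · exact inf_le_inf_left V (Subgroup.centralizer_le (fun x hx => hx.1))

theorem single_step [Finite G] {u : G} (hu : u ∈ V) :
    Nat.card A * Nat.card (cv V A) ≤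
      Nat.card (aS A {u}) * Nat.card (Subgroup.closure (gens A {u}) ⊔ cv V A : Subgroup G) := by
  set Au := aS A {u} with hAu
  set T := Subgroup.closure (gens A {u}) ⊔ cv V A with hT
  set C := cv V A with hC
  have hAuA : Au ≤ A := inf_le_left
  have hCT : C ≤ T := le_sup_right
  have hfT : ∀ a : A, ⁅u, (a : G)⁆ ∈ T := fun a =>
    Subgroup.mem_sup_left (Subgroup.subset_closure ⟨u, rfl, a, a.2, rfl⟩)
  -- key equivalence
  have key : ∀ a a' : A, ((a : G)⁻¹ * (a' : G) ∈ Au) ↔ (⁅u, (a : G)⁆⁻¹ * ⁅u, (a' : G)⁆ ∈ C) := by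
    intro a a'
    have e : ⁅u, (a : G)⁆⁻¹ * ⁅u, (a' : G)⁆ = (a : G) * ⁅u, (a : G)⁻¹ * (a' : G)⁆ * (a : G)⁻¹ := by
      simp only [commutatorElement_def]; group
    have hdA : (a : G)⁻¹ * (a' : G) ∈ A := A.mul_mem (A.inv_mem a.2) a'.2
    rw [e, hAu, mem_aS_single V A hVc hAV hab hu]
    constructor
    · rintro ⟨_, hd⟩
      have h1 : (a : G) * ⁅u, (a : G)⁻¹ * (a' : G)⁆ = ⁅u, (a : G)⁻¹ * (a' : G)⁆ * (a : G) :=
        (Subgroup.mem_centralizer_iff.mp hd) _ a.2
      rw [h1, mul_inv_cancel_right]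
      exact ⟨comm_mem V A hVc hAV hab hdA hu, hd⟩
    · intro hd
      refine ⟨hdA, ?_⟩
      have h1 := (Subgroup.mem_centralizer_iff.mp hd.2) _ a.2
      have h2 : ⁅u, (a : G)⁻¹ * (a' : G)⁆ = (a : G) * ⁅u, (a : G)⁻¹ * (a' : G)⁆ * (a : G)⁻¹ := by
        calc ⁅u, (a : G)⁻¹ * (a' : G)⁆
            = (a : G)⁻¹ * (((a : G) * ⁅u, (a : G)⁻¹ * (a' : G)⁆ * (a : G)⁻¹) * (a : G)) := by group
          _ = (a : G)⁻¹ * ((a : G) * ((a : G) * ⁅u, (a : G)⁻¹ * (a' : G)⁆ * (a : G)⁻¹)) := by
              rw [h1]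
          _ = (a : G) * ⁅u, (a : G)⁻¹ * (a' : G)⁆ * (a : G)⁻¹ := by group
      rw [h2]
      exact hd.2
  let f : A → T := fun a => ⟨⁅u, (a : G)⁆, hfT a⟩
  let F : A ⧸ Au.subgroupOf A → T ⧸ C.subgroupOf T :=
    Quotient.map' f (by
      intro a a' h
      rw [QuotientGroup.leftRel_apply] at h ⊢
      rw [Subgroup.mem_subgroupOf] at h ⊢
      exact (key a a').1 h)
  have hF : Function.Injective F := by
    intro x y
    induction x using Quotient.inductionOn' with
    | h a =>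
      induction y using Quotient.inductionOn' with
      | h a' =>
        intro h
        have h' : (Quotient.mk'' (f a) : T ⧸ C.subgroupOf T) = Quotient.mk'' (f a') := h
        rw [Quotient.eq''] at h' ⊢
        rw [QuotientGroup.leftRel_apply] at h' ⊢
        rw [Subgroup.mem_subgroupOf] at h' ⊢
        exact (key a a').2 h'
  have hidx : (Au.subgroupOf A).index ≤ (C.subgroupOf T).index :=
    Nat.card_le_card_of_injective F hF
  have h1 := Subgroup.card_mul_index (Au.subgroupOf A)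
  rw [card_subgroupOf hAuA] at h1
  have h2 := Subgroup.card_mul_index (C.subgroupOf T)
  rw [card_subgroupOf hCT] at h2
  calc Nat.card A * Nat.card C = Nat.card Au * ((Au.subgroupOf A).index * Nat.card C) := by
        rw [← h1]; ring
    _ ≤ Nat.card Au * ((C.subgroupOf T).index * Nat.card C) :=
        Nat.mul_le_mul_left _ (Nat.mul_le_mul_right _ hidx)
    _ = Nat.card Au * Nat.card T := by rw [← h2]; ring

end

theorem cv_sup_ge (V B₁ B₂ : Subgroup G) : cv V B₁ ⊓ cv V B₂ ≤ cv V (B₁ ⊔ B₂) := by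
  intro x hx
  refine ⟨hx.1.1, Subgroup.mem_centralizer_iff.mpr ?_⟩
  have h1 : B₁ ≤ Subgroup.centralizer ({x} : Set G) := by
    intro b hb
    rw [Subgroup.mem_centralizer_iff]
    intro y hy
    rw [Set.mem_singleton_iff] at hy
    subst hy
    exact ((Subgroup.mem_centralizer_iff.mp hx.1.2) b hb).symm
  have h2 : B₂ ≤ Subgroup.centralizer ({x} : Set G) := by
    intro b hb
    rw [Subgroup.mem_centralizer_iff]
    intro y hy
    rw [Set.mem_singleton_iff] at hy
    subst hy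
    exact ((Subgroup.mem_centralizer_iff.mp hx.2.2) b hb).symm
  intro h hh
  have := (sup_le h1 h2) hh
  exact ((Subgroup.mem_centralizer_iff.mp this) x rfl).symm

theorem cv_inf_ge (V B₁ B₂ : Subgroup G) : cv V B₁ ⊔ cv V B₂ ≤ cv V (B₁ ⊓ B₂) := by
  apply sup_le
  · exact inf_le_inf_left V (Subgroup.centralizer_le (fun x hx => hx.1))
  · exact inf_le_inf_left V (Subgroup.centralizer_le (fun x hx => hx.2))

theorem inter_lemma [Finite G] (V A B₁ B₂ : Subgroup G) (h1A : B₁ ≤ A) (h2A : B₂ ≤ A)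
    (hbest : ∀ B : Subgroup G, B ≤ A →
      Nat.card B * Nat.card (cv V B) ≤ Nat.card A * Nat.card (cv V A))
    (h1 : Nat.card B₁ * Nat.card (cv V B₁) = Nat.card A * Nat.card (cv V A))
    (h2 : Nat.card B₂ * Nat.card (cv V B₂) = Nat.card A * Nat.card (cv V A)) :
    Nat.card (B₁ ⊓ B₂ : Subgroup G) * Nat.card (cv V (B₁ ⊓ B₂)) = Nat.card A * Nat.card (cv V A) ∧
      cv V (B₁ ⊓ B₂) = cv V B₁ ⊔ cv V B₂ := by
  have hE := hbest (B₁ ⊔ B₂) (sup_le h1A h2A)
  have hD := hbest (B₁ ⊓ B₂) (inf_le_left.trans h1A)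
  have hb := card_mul_le B₁ B₂
  have hp := card_mul_le (cv V B₁) (cv V B₂)
  have hi : Nat.card (cv V B₁ ⊓ cv V B₂ : Subgroup G) ≤ Nat.card (cv V (B₁ ⊔ B₂)) :=
    Subgroup.card_le_of_le (cv_sup_ge V B₁ B₂)
  have hs : Nat.card (cv V B₁ ⊔ cv V B₂ : Subgroup G) ≤ Nat.card (cv V (B₁ ⊓ B₂)) :=
    Subgroup.card_le_of_le (cv_inf_ge V B₁ B₂)
  set M := Nat.card A * Nat.card (cv V A) with hM
  set e := Nat.card (B₁ ⊔ B₂ : Subgroup G) with he
  set d := Nat.card (B₁ ⊓ B₂ : Subgroup G) with hd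
  set ce := Nat.card (cv V (B₁ ⊔ B₂)) with hce
  set cd := Nat.card (cv V (B₁ ⊓ B₂)) with hcd
  set s := Nat.card (cv V B₁ ⊔ cv V B₂ : Subgroup G) with hs'
  set i := Nat.card (cv V B₁ ⊓ cv V B₂ : Subgroup G) with hi'
  set b₁ := Nat.card B₁ with hb₁
  set b₂ := Nat.card B₂ with hb₂
  set p₁ := Nat.card (cv V B₁) with hp₁
  set p₂ := Nat.card (cv V B₂) with hp₂
  have hMpos : 0 < M := Nat.mul_pos Nat.card_pos Nat.card_pos
  have hepos : 0 < e := Nat.card_pos
  have hdpos : 0 < d := Nat.card_pos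
  have hipos : 0 < i := Nat.card_pos
  -- M * M ≤ (e * d) * (s * i)
  have k1 : M * M ≤ (e * d) * (s * i) := by
    calc M * M = (b₁ * p₁) * (b₂ * p₂) := by rw [h1, h2]
      _ = (b₁ * b₂) * (p₁ * p₂) := by ring
      _ ≤ (e * d) * (s * i) := Nat.mul_le_mul hb hp
  -- (e * d) * (s * i) ≤ (e * ce) * (d * cd)
  have k2 : (e * d) * (s * i) ≤ (e * d) * (cd * ce) :=
    Nat.mul_le_mul_left _ (Nat.mul_le_mul hs hi)
  have k3 : (e * d) * (cd * ce) = (e * ce) * (d * cd) := by ring
  have k4 : (e * ce) * (d * cd) ≤ M * M := Nat.mul_le_mul hE hD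
  have hDeq : d * cd = M := by
    by_contra hne
    have hlt : d * cd < M := lt_of_le_of_ne hD hne
    have : (e * ce) * (d * cd) < M * M :=
      calc (e * ce) * (d * cd) ≤ M * (d * cd) := Nat.mul_le_mul_right _ hE
        _ < M * M := Nat.mul_lt_mul_of_pos_left hlt hMpos
    linarith
  refine ⟨hDeq, ?_⟩
  have hscd : cd ≤ s := by
    by_contra hlt
    push Not at hlt
    have : (e * d) * (s * i) < (e * d) * (cd * i) :=
      Nat.mul_lt_mul_of_pos_left (Nat.mul_lt_mul_of_pos_right hlt hipos) (Nat.mul_pos hepos hdpos)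
    have k5 : (e * d) * (cd * i) ≤ (e * d) * (cd * ce) :=
      Nat.mul_le_mul_left _ (Nat.mul_le_mul_left _ hi)
    linarith
  exact (Subgroup.eq_of_le_of_card_ge (cv_inf_ge V B₁ B₂) hscd).symm

/-- Thompson's replacement dichotomy: for A acting with abelian image on an elementary abelian p-group V and U ≤ V, either some subgroup of A increases the product of its order with the order of its fixed points, or C_A([U,A]) preserves that product and has fixed points exactly [U,A]C_V(A). -/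
theorem result {G : Type*} [Group G] [Finite G] {p : ℕ} [Fact p.Prime] (V A : Subgroup G) (hV : Cfsg.IsElementaryAbelian p V) (hAV : A ≤ Subgroup.normalizer (V : Set G)) (hab : ⁅A, A⁆ ≤ Subgroup.centralizer (V : Set G)) (U : Subgroup G) (hU : U ≤ V) : ∃ B : Subgroup G, B ≤ A ∧ ((Nat.card A * Nat.card ↥(V ⊓ Subgroup.centralizer (A : Set G)) < Nat.card B * Nat.card ↥(V ⊓ Subgroup.centralizer (B : Set G))) ∨ (B = A ⊓ Subgroup.centralizer ((⁅U, A⁆ : Subgroup G) : Set G) ∧ (V ⊓ Subgroup.centralizer (B : Set G)) = ⁅U, A⁆ ⊔ (V ⊓ Subgroup.centralizer (A : Set G)) ∧ Nat.card A * Nat.card ↥(V ⊓ Subgroup.centralizer (A : Set G)) = Nat.card B * Nat.card ↥(V ⊓ Subgroup.centralizer (B : Set G)))) := by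
  have hVc := hV.1
  by_cases hbest : ∀ B : Subgroup G, B ≤ A →
      Nat.card B * Nat.card (cv V B) ≤ Nat.card A * Nat.card (cv V A)
  · -- induction over finite subsets of U
    have main : ∀ S : Set G, S.Finite → S ⊆ (U : Set G) →
        (Nat.card (aS A S) * Nat.card (cv V (aS A S)) = Nat.card A * Nat.card (cv V A) ∧
          cv V (aS A S) = Subgroup.closure (gens A S) ⊔ cv V A) := by
      intro S hS
      induction S, hS using Set.Finite.induction_on with
      | empty =>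
        intro _
        have hg : gens A (∅ : Set G) = ∅ := by
          ext x; simp [gens]
        have hA : aS A (∅ : Set G) = A := by
          unfold aS
          rw [hg]
          apply le_antisymm inf_le_left
          refine le_inf le_rfl ?_
          intro x _
          exact Subgroup.mem_centralizer_iff.mpr (fun h hh => absurd hh (Set.notMem_empty h))
        rw [hA, hg, Subgroup.closure_empty, bot_sup_eq]
        exact ⟨rfl, rfl⟩
      | @insert u S huS hSfin ih =>
        intro hsub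
        have huU : u ∈ U := hsub (Set.mem_insert u S)
        have huV : u ∈ V := hU huU
        have hSU : S ⊆ (U : Set G) := fun x hx => hsub (Set.mem_insert_of_mem u hx)
        obtain ⟨ih1, ih2⟩ := ih hSU
        have hg : gens A (insert u S) = gens A {u} ∪ gens A S := by
          ext x
          simp only [gens, Set.mem_insert_iff, Set.mem_union, Set.mem_ofPred_eq,
            Set.mem_singleton_iff]
          constructor
          · rintro ⟨v, hv | hv, b, hb, rfl⟩
            · exact Or.inl ⟨v, hv, b, hb, rfl⟩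
            · exact Or.inr ⟨v, hv, b, hb, rfl⟩
          · rintro (⟨v, hv, b, hb, rfl⟩ | ⟨v, hv, b, hb, rfl⟩)
            · exact ⟨v, Or.inl hv, b, hb, rfl⟩
            · exact ⟨v, Or.inr hv, b, hb, rfl⟩
        have hAS : aS A (insert u S) = aS A {u} ⊓ aS A S := by
          unfold aS
          rw [hg]
          ext x
          simp only [Subgroup.mem_inf, Subgroup.mem_centralizer_iff, Set.mem_union]
          constructor
          · rintro ⟨hx, h⟩
            exact ⟨⟨hx, fun y hy => h y (Or.inl hy)⟩, ⟨hx, fun y hy => h y (Or.inr hy)⟩⟩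
          · rintro ⟨⟨hx, h1⟩, ⟨_, h2⟩⟩
            exact ⟨hx, fun y hy => hy.elim (h1 y) (h2 y)⟩
        -- single step for u
        have hstep := single_step V A hVc hAV hab huV
        have htop := top_le_cv V A hVc hAV hab (S := {u}) (by
          intro x hx; rw [Set.mem_singleton_iff] at hx; rw [hx]; exact huV)
        have hcardle : Nat.card (Subgroup.closure (gens A {u}) ⊔ cv V A : Subgroup G) ≤
            Nat.card (cv V (aS A {u})) := Subgroup.card_le_of_le htop
        have hbu := hbest (aS A {u}) inf_le_left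
        have hu1 : Nat.card (aS A {u}) * Nat.card (cv V (aS A {u})) =
            Nat.card A * Nat.card (cv V A) := by
          apply le_antisymm hbu
          exact hstep.trans (Nat.mul_le_mul_left _ hcardle)
        have hu2 : cv V (aS A {u}) = Subgroup.closure (gens A {u}) ⊔ cv V A := by
          symm
          apply Subgroup.eq_of_le_of_card_ge htop
          have hpos : 0 < Nat.card (aS A {u}) := Nat.card_pos
          have : Nat.card (aS A {u}) * Nat.card (cv V (aS A {u})) ≤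
              Nat.card (aS A {u}) *
                Nat.card (Subgroup.closure (gens A {u}) ⊔ cv V A : Subgroup G) := by
            rw [hu1]; exact hstep
          exact Nat.le_of_mul_le_mul_left this hpos
        obtain ⟨r1, r2⟩ := inter_lemma V A (aS A {u}) (aS A S) inf_le_left inf_le_left hbest hu1 ih1
        rw [hAS]
        refine ⟨r1, ?_⟩
        rw [r2, hu2, ih2, hg, Subgroup.closure_union]
        apply le_antisymm
        · exact sup_le (sup_le (le_sup_of_le_left le_sup_left) le_sup_right)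
            (sup_le (le_sup_of_le_left le_sup_right) le_sup_right)
        · exact sup_le (sup_le (le_sup_of_le_left le_sup_left) (le_sup_of_le_right le_sup_left))
            (le_sup_of_le_left le_sup_right)
    obtain ⟨m1, m2⟩ := main (U : Set G) (Set.toFinite _) le_rfl
    have hcomm : (⁅U, A⁆ : Subgroup G) = Subgroup.closure (gens A (U : Set G)) := by
      rw [Subgroup.commutator_def]
      rfl
    have hB : A ⊓ Subgroup.centralizer ((⁅U, A⁆ : Subgroup G) : Set G) = aS A (U : Set G) := by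
      unfold aS
      rw [hcomm, Subgroup.centralizer_closure]
    refine ⟨A ⊓ Subgroup.centralizer ((⁅U, A⁆ : Subgroup G) : Set G), inf_le_left, Or.inr ⟨rfl, ?_, ?_⟩⟩
    · rw [hB, hcomm]
      exact m2
    · rw [hB]
      exact m1.symm
  · push Not at hbest
    obtain ⟨B, hBA, hlt⟩ := hbest
    exact ⟨B, hBA, Or.inl hlt⟩

end Cfsg.Agent.S0598
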