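import Cfsg.Statements.S0836
import Mathlib

set_option autoImplicit false
open Cfsg

namespace Cfsg.Agent.S0836

theorem comm3 {F : Type*} [Field F] {n : ℕ} (i j k : Fin n) (hij : i ≠ j) (hik : i ≠ k) (hjk : j ≠ k) (c : F) :
    Matrix.transvection i k c * Matrix.transvection k j (1 : F) * Matrix.transvection i k (-c)
      * Matrix.transvection k j (-1 : F) = Matrix.transvection i j c := by
  have hneg : ∀ (a b : Fin n) (x : F), Matrix.single a b (-x) = -Matrix.single a b x := by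
    intro a b x
    ext u v
    simp only [Matrix.single_apply, Matrix.neg_apply]
    split_ifs <;> simp
  simp only [Matrix.transvection, mul_add, add_mul, mul_one, one_mul,
    Matrix.single_mul_single_same, 
    Matrix.single_mul_single_of_ne _ _ _ _ hik.symm, Matrix.single_mul_single_of_ne _ _ _ _ hij.symm,
    Matrix.single_mul_single_of_ne _ _ _ _ hjk, 
    add_zero, mul_neg]
  simp only [hneg, neg_neg]
  abel


theorem sl2_upper {F : Type*} [Field F] (x : F) (hx0 : x ≠ 0) (a : F) :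
    ∃ g₁ g₂ : Matrix.SpecialLinearGroup (Fin 2) F,
      ((g₁ * g₂ * g₁⁻¹ * g₂⁻¹ : Matrix.SpecialLinearGroup (Fin 2) F) : Matrix (Fin 2) (Fin 2) F) = !![1, x ^ 2 * a - a; 0, 1] := by
  let g₁ : Matrix.SpecialLinearGroup (Fin 2) F := ⟨!![x, 0; 0, x⁻¹], by simp [Matrix.det_fin_two, hx0]⟩
  let g₁' : Matrix.SpecialLinearGroup (Fin 2) F := ⟨!![x⁻¹, 0; 0, x], by simp [Matrix.det_fin_two, hx0]⟩
  let g₂ : Matrix.SpecialLinearGroup (Fin 2) F := ⟨!![1, a; 0, 1], by simp [Matrix.det_fin_two]⟩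
  let g₂' : Matrix.SpecialLinearGroup (Fin 2) F := ⟨!![1, -a; 0, 1], by simp [Matrix.det_fin_two]⟩
  have h1 : g₁⁻¹ = g₁' := by
    apply inv_eq_of_mul_eq_one_right
    apply Subtype.ext
    show !![x, 0; 0, x⁻¹] * !![x⁻¹, 0; 0, x] = (1 : Matrix (Fin 2) (Fin 2) F)
    rw [Matrix.mul_fin_two, Matrix.one_fin_two]
    simp [hx0]
  have h2 : g₂⁻¹ = g₂' := by
    apply inv_eq_of_mul_eq_one_right
    apply Subtype.ext
    show !![1, a; 0, 1] * !![1, -a; 0, 1] = (1 : Matrix (Fin 2) (Fin 2) F)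
    rw [Matrix.mul_fin_two, Matrix.one_fin_two]
    simp
  refine ⟨g₁, g₂, ?_⟩
  rw [h1, h2]
  show !![x, 0; 0, x⁻¹] * !![1, a; 0, 1] * !![x⁻¹, 0; 0, x] * !![1, -a; 0, 1] = _
  rw [Matrix.mul_fin_two, Matrix.mul_fin_two, Matrix.mul_fin_two]
  ext u v
  fin_cases u <;> fin_cases v <;> simp [hx0] <;> ring

theorem sl2_lower {F : Type*} [Field F] (x : F) (hx0 : x ≠ 0) (a : F) :
    ∃ g₁ g₂ : Matrix.SpecialLinearGroup (Fin 2) F,
      ((g₁ * g₂ * g₁⁻¹ * g₂⁻¹ : Matrix.SpecialLinearGroup (Fin 2) F) : Matrix (Fin 2) (Fin 2) F) = !![1, 0; x ^ 2 * a - a, 1] := by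
  let g₁ : Matrix.SpecialLinearGroup (Fin 2) F := ⟨!![x⁻¹, 0; 0, x], by simp [Matrix.det_fin_two, hx0]⟩
  let g₁' : Matrix.SpecialLinearGroup (Fin 2) F := ⟨!![x, 0; 0, x⁻¹], by simp [Matrix.det_fin_two, hx0]⟩
  let g₂ : Matrix.SpecialLinearGroup (Fin 2) F := ⟨!![1, 0; a, 1], by simp [Matrix.det_fin_two]⟩
  let g₂' : Matrix.SpecialLinearGroup (Fin 2) F := ⟨!![1, 0; -a, 1], by simp [Matrix.det_fin_two]⟩
  have h1 : g₁⁻¹ = g₁' := by
    apply inv_eq_of_mul_eq_one_right
    apply Subtype.ext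
    show !![x⁻¹, 0; 0, x] * !![x, 0; 0, x⁻¹] = (1 : Matrix (Fin 2) (Fin 2) F)
    rw [Matrix.mul_fin_two, Matrix.one_fin_two]
    simp [hx0]
  have h2 : g₂⁻¹ = g₂' := by
    apply inv_eq_of_mul_eq_one_right
    apply Subtype.ext
    show !![1, 0; a, 1] * !![1, 0; -a, 1] = (1 : Matrix (Fin 2) (Fin 2) F)
    rw [Matrix.mul_fin_two, Matrix.one_fin_two]
    simp
  refine ⟨g₁, g₂, ?_⟩
  rw [h1, h2]
  show !![x⁻¹, 0; 0, x] * !![1, 0; a, 1] * !![x, 0; 0, x⁻¹] * !![1, 0; -a, 1] = _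
  rw [Matrix.mul_fin_two, Matrix.mul_fin_two, Matrix.mul_fin_two]
  ext u v
  fin_cases u <;> fin_cases v <;> simp [hx0] <;> ring

theorem transv01 {F : Type*} [Field F] (c : F) : Matrix.transvection (0 : Fin 2) 1 c = !![1, c; 0, 1] := by
  ext u v
  fin_cases u <;> fin_cases v <;> simp [Matrix.transvection]

theorem transv10 {F : Type*} [Field F] (c : F) : Matrix.transvection (1 : Fin 2) 0 c = !![1, 0; c, 1] := by
  ext u v
  fin_cases u <;> fin_cases v <;> simp [Matrix.transvection]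

/-- For i ≠ j and any scalar c, the elementary transvection 1 + c E_ij is a commutator ⁅g, h⁆ of two elements of SL_n(F) provided n ≥ 3, or n = 2 and F contains x ≠ 0 with x² ≠ 1. -/
theorem result {F : Type*} [Field F] (n : ℕ) (hn : 3 ≤ n ∨ (n = 2 ∧ ∃ x : F, x ≠ 0 ∧ x ^ 2 ≠ 1)) (i j : Fin n) (hij : i ≠ j) (c : F) (t : Matrix.SpecialLinearGroup (Fin n) F) (ht : (t : Matrix (Fin n) (Fin n) F) = Matrix.transvection i j c) : t ∈ commutatorSet (Matrix.SpecialLinearGroup (Fin n) F) := by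
  classical
  rw [commutatorSet]
  rcases hn with hn | ⟨rfl, x, hx0, hx1⟩
  · -- n ≥ 3
    obtain ⟨k, hki, hkj⟩ : ∃ k : Fin n, k ≠ i ∧ k ≠ j := by
      by_contra hcon
      push Not at hcon
      have : (Finset.univ : Finset (Fin n)) ⊆ {i, j} := by
        intro k _
        by_cases hk : k = i
        · simp [hk]
        · simp [hcon k hk]
      have h2 := Finset.card_le_card this
      rw [Finset.card_univ, Fintype.card_fin] at h2
      have h3 : ({i, j} : Finset (Fin n)).card ≤ 2 := Finset.card_le_two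
      omega
    let g₁ : Matrix.SpecialLinearGroup (Fin n) F := ⟨Matrix.transvection i k c, Matrix.det_transvection_of_ne i k hki.symm c⟩
    let g₁' : Matrix.SpecialLinearGroup (Fin n) F := ⟨Matrix.transvection i k (-c), Matrix.det_transvection_of_ne i k hki.symm (-c)⟩
    let g₂ : Matrix.SpecialLinearGroup (Fin n) F := ⟨Matrix.transvection k j 1, Matrix.det_transvection_of_ne k j hkj 1⟩
    let g₂' : Matrix.SpecialLinearGroup (Fin n) F := ⟨Matrix.transvection k j (-1), Matrix.det_transvection_of_ne k j hkj (-1)⟩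
    have h1 : g₁⁻¹ = g₁' := by
      apply inv_eq_of_mul_eq_one_right
      apply Subtype.ext
      show Matrix.transvection i k c * Matrix.transvection i k (-c) = 1
      rw [Matrix.transvection_mul_transvection_same _ _ hki.symm, add_neg_cancel, Matrix.transvection_zero]
    have h2 : g₂⁻¹ = g₂' := by
      apply inv_eq_of_mul_eq_one_right
      apply Subtype.ext
      show Matrix.transvection k j (1 : F) * Matrix.transvection k j (-1) = 1
      rw [Matrix.transvection_mul_transvection_same _ _ hkj, add_neg_cancel, Matrix.transvection_zero]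
    refine ⟨g₁, g₂, ?_⟩
    rw [commutatorElement_def, h1, h2]
    apply Subtype.ext
    rw [ht]
    show Matrix.transvection i k c * Matrix.transvection k j (1 : F) * Matrix.transvection i k (-c)
      * Matrix.transvection k j (-1 : F) = Matrix.transvection i j c
    exact comm3 i j k hij hki.symm hkj.symm c
  · -- n = 2
    have hx2 : x ^ 2 - 1 ≠ 0 := sub_ne_zero.mpr hx1
    have hac : x ^ 2 * (c / (x ^ 2 - 1)) - c / (x ^ 2 - 1) = c := by
      field_simp
    have hcases : (i = 0 ∧ j = 1) ∨ (i = 1 ∧ j = 0) := by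
      fin_cases i <;> fin_cases j <;> simp_all
    rcases hcases with ⟨rfl, rfl⟩ | ⟨rfl, rfl⟩
    · obtain ⟨g₁, g₂, h⟩ := sl2_upper x hx0 (c / (x ^ 2 - 1))
      refine ⟨g₁, g₂, ?_⟩
      rw [commutatorElement_def]
      apply Subtype.ext
      rw [ht, h, hac, transv01]
    · obtain ⟨g₁, g₂, h⟩ := sl2_lower x hx0 (c / (x ^ 2 - 1))
      refine ⟨g₁, g₂, ?_⟩
      rw [commutatorElement_def]
      apply Subtype.ext
      rw [ht, h, hac, transv10]

end Cfsg.Agent.S0836
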