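import Mathlib
import Cfsg.Statements.S0288
import Cfsg.Agent.Helper6.OrthMinus

set_option autoImplicit false
open Cfsg

namespace Cfsg.Agent.S0288

theorem reidx (m : ℕ) (g : ℕ → ℕ) :
    ∏ i ∈ Finset.range m, g (m - i) = ∏ s ∈ Finset.range m, g (s + 1) := by
  rw [← Finset.prod_range_reflect (fun s => g (s + 1)) m]
  apply Finset.prod_congr rfl
  intro i hi
  rw [Finset.mem_range] at hi
  show g (m - i) = g (m - 1 - i + 1)
  congr 1
  omega

/-- the number of singular vectors in a minus type space with `r` hyperbolic pairs -/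
def zeta (q : ℕ) (r : ℕ) : ℕ := q ^ r * (q * (q ^ r - 1) + 1)

theorem zeta_eq (q : ℕ) (hq : 1 ≤ q) (r : ℕ) :
    q * zeta q r + q ^ (r + 2) = q ^ (r + 1) + q ^ (2 * r + 2) := by
  have h1 : 1 ≤ q ^ r := Nat.one_le_pow _ _ hq
  unfold zeta
  zify [h1]
  ring

theorem zeta_sub (q : ℕ) (hq : 1 ≤ q) (r : ℕ) :
    zeta q r - 1 = (q ^ (r + 1) + 1) * (q ^ r - 1) := by
  have h1 : 1 ≤ q ^ r := Nat.one_le_pow _ _ hq
  apply Nat.sub_eq_of_eq_add
  unfold zeta
  zify [h1]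
  ring

theorem arith (q : ℕ) (hq : 1 ≤ q) (n : ℕ) :
    2 * (q + 1) * ∏ s ∈ Finset.range n,
        ((q ^ (s + 1 + 1) + 1) * (q ^ (s + 1) - 1) * q ^ (2 * (s + 1) + 2))
      = (2 * q ^ ((n + 1) * n) * (q ^ (n + 1) + 1) * ∏ i ∈ Finset.range n, (q ^ (2 * (i + 1)) - 1))
        * q ^ (2 * n) := by
  induction n with
  | zero =>
    rw [Finset.prod_range_zero, Finset.prod_range_zero]
    simp only [zero_add, pow_one, pow_zero, mul_zero, mul_one]
  | succ n ih =>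
    have h1 : 1 ≤ q ^ (n + 1) := Nat.one_le_pow _ _ hq
    have h2 : q ^ (2 * (n + 1)) - 1 = (q ^ (n + 1) - 1) * (q ^ (n + 1) + 1) := by
      have h3 : 1 ≤ q ^ (2 * (n + 1)) := Nat.one_le_pow _ _ hq
      zify [h1, h3]
      ring
    rw [Finset.prod_range_succ, Finset.prod_range_succ (fun i => q ^ (2 * (i + 1)) - 1), h2,
      ← mul_assoc (2 * (q + 1)), ih]
    ring
/-- |GO^-_{2m}(q)| = 2 q^(m(m-1)) (q^m + 1) prod_{i=1}^{m-1} (q^(2i) - 1), m at least 1, all q; the form is quadFormMinus (m-1) with an anisotropic binary part. -/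
theorem result {F : Type*} [Field F] [Fintype F] {q : ℕ} (hF : Fintype.card F = q) (m : ℕ) (hm : 1 ≤ m) (a b : F) (hab : ∀ z₁ z₂ : F, z₁ ^ 2 + a * z₁ * z₂ + b * z₂ ^ 2 = 0 → z₁ = 0 ∧ z₂ = 0) : Nat.card (Cfsg.isometryGroup F (Cfsg.quadFormMinus (m - 1) F a b)) = 2 * q ^ (m * (m - 1)) * (q ^ m + 1) * ∏ i ∈ Finset.range (m - 1), (q ^ (2 * (i + 1)) - 1) := by
  classical
  subst hF
  have hq : 1 ≤ Fintype.card F := Fintype.card_pos
  obtain ⟨n, rfl⟩ : ∃ n, m = n + 1 := ⟨m - 1, by omega⟩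
  simp only [Nat.add_sub_cancel]
  have key := Helper6.minus_count (F := F) n a b hab (zeta (Fintype.card F)) (zeta_eq _ hq)
  rw [reidx n (fun r => (zeta (Fintype.card F) r - 1) * Fintype.card F ^ (2 * r + 2))] at key
  simp only [zeta_sub _ hq] at key
  rw [arith _ hq n] at key
  exact Nat.eq_of_mul_eq_mul_right (pow_pos hq _) key

end Cfsg.Agent.S0288
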