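import Cfsg.Statements.S2570
-- import your own Cfsg.Agent.* helpers here
import Cfsg.Agent.Helper29.Jordan

set_option autoImplicit false
open Cfsg

namespace Cfsg.Agent.S2570

open Cfsg.Agent.Helper29 Cfsg.Agent.S5959

/-- Number of conjugacy classes of elements of order p in GL_n over a finite field of characteristic p: they correspond to the Jordan types, that is, to the partitions of n with all parts at most p other than the partition into ones, so there are (number of partitions of n with parts ≤ p) − 1 of them. -/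
theorem result {F : Type*} [Field F] [Fintype F] {p : ℕ} [Fact p.Prime] [CharP F p] (n : ℕ) : Nat.card {C : ConjClasses (GL (Fin n) F) // ∃ g : GL (Fin n) F, ConjClasses.mk g = C ∧ orderOf g = p} = (Finset.univ.filter (fun μ : Nat.Partition n => ∀ a ∈ μ.parts, a ≤ p)).card - 1 := by
  classical
  have hp := (Fact.out : p.Prime)
  have hchar : ∀ (μ : Nat.Partition n) (g : GL (Fin n) F), ConjClasses.mk g = classOf F μ →
      (orderOf g = p ↔ (∀ a ∈ μ.parts, a ≤ p) ∧ ∃ a ∈ μ.parts, 2 ≤ a) := by
    intro μ g hg
    rw [order_p_iff]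
    have hr := rank_of_class μ g hg
    have e1 : (Ng g) ^ p = 0 ↔ S p μ.parts = 0 := by
      rw [← hr p, Submodule.finrank_eq_zero, LinearMap.range_eq_bot]
    have e2 : Ng g = 0 ↔ S 1 μ.parts = 0 := by
      rw [← hr 1, Submodule.finrank_eq_zero, LinearMap.range_eq_bot, pow_one]
    rw [e1, Ne, e2]
    constructor
    · rintro ⟨h1, h2⟩
      constructor
      · intro a ha
        unfold S at h1
        have h3 := (Multiset.sum_eq_zero_iff.mp h1) (a - p) (Multiset.mem_map_of_mem _ ha)
        omega
      · by_contra hcon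
        push Not at hcon
        apply h2
        unfold S
        apply Multiset.sum_eq_zero
        intro x hx
        obtain ⟨b, hb, rfl⟩ := Multiset.mem_map.mp hx
        have h3 := hcon b hb
        omega
    · rintro ⟨h1, h2⟩
      constructor
      · unfold S
        apply Multiset.sum_eq_zero
        intro x hx
        obtain ⟨b, hb, rfl⟩ := Multiset.mem_map.mp hx
        have h3 := h1 b hb
        omega
      · have h3 := S_one_pos μ.parts h2
        omega
  obtain ⟨ones, hones⟩ : ∃ ones : Nat.Partition n, ones.parts = Multiset.replicate n 1 :=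
    ⟨⟨Multiset.replicate n 1, fun {i} hi => by
      rw [Multiset.eq_of_mem_replicate hi]
      exact Nat.one_pos, by simp⟩, rfl⟩
  have honesT : ones ∈ Finset.univ.filter (fun μ : Nat.Partition n => ∀ a ∈ μ.parts, a ≤ p) := by
    rw [Finset.mem_filter]
    refine ⟨Finset.mem_univ _, ?_⟩
    intro a ha
    rw [hones] at ha
    rw [Multiset.eq_of_mem_replicate ha]
    exact hp.one_le
  have hne : ∀ μ : Nat.Partition n, μ ≠ ones ↔ ∃ a ∈ μ.parts, 2 ≤ a := by
    intro μ
    constructor
    · intro h
      by_contra hcon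
      push Not at hcon
      apply h
      apply Nat.Partition.ext
      have h1 : ∀ b ∈ μ.parts, b = 1 := fun b hb => by
        have h2 := μ.parts_pos hb
        have h3 := hcon b hb
        omega
      have h2 : μ.parts = Multiset.replicate (Multiset.card μ.parts) 1 :=
        Multiset.eq_replicate.mpr ⟨rfl, h1⟩
      have h3 := μ.parts_sum
      rw [h2] at h3
      simp at h3
      rw [h2, h3, hones]
    · rintro ⟨a, ha, ha2⟩ h
      rw [h, hones] at ha
      have h1 := Multiset.eq_of_mem_replicate ha
      omega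
  have key : ∀ μ : {μ : Nat.Partition n //
      μ ∈ (Finset.univ.filter (fun μ : Nat.Partition n => ∀ a ∈ μ.parts, a ≤ p)).erase ones},
      ∃ g : GL (Fin n) F, ConjClasses.mk g = classOf F μ.1 ∧ orderOf g = p := by
    rintro ⟨μ, hμ⟩
    obtain ⟨g, hg⟩ := ConjClasses.mk_surjective (classOf F μ)
    refine ⟨g, hg, ?_⟩
    rw [hchar μ g hg]
    have h1 := Finset.mem_erase.mp hμ
    exact ⟨(Finset.mem_filter.mp h1.2).2, (hne μ).mp h1.1⟩
  have hbij : Function.Bijective (fun μ : {μ : Nat.Partition n //
      μ ∈ (Finset.univ.filter (fun μ : Nat.Partition n => ∀ a ∈ μ.parts, a ≤ p)).erase ones} =>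
      (⟨classOf F μ.1, key μ⟩ : {C : ConjClasses (GL (Fin n) F) //
        ∃ g : GL (Fin n) F, ConjClasses.mk g = C ∧ orderOf g = p})) := by
    constructor
    · intro μ ν h
      exact Subtype.ext (classOf_injective (congrArg Subtype.val h))
    · rintro ⟨C, g, rfl, hg⟩
      obtain ⟨μ, hμ⟩ := exists_class g ((ppow_iff_nilp p g).mp ⟨1, by rw [pow_one]; exact hg⟩)
      have h1 := (hchar μ g hμ).mp hg
      exact ⟨⟨μ, Finset.mem_erase.mpr ⟨(hne μ).mpr h1.2,
        Finset.mem_filter.mpr ⟨Finset.mem_univ _, h1.1⟩⟩⟩, Subtype.ext hμ.symm⟩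
  rw [Nat.card_congr (Equiv.ofBijective _ hbij).symm, Nat.card_eq_fintype_card,
    Fintype.card_coe, Finset.card_erase_of_mem honesT]

end Cfsg.Agent.S2570
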