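import Cfsg.Statements.S2587
import Cfsg.Agent.Helper16.NormB

set_option autoImplicit false
open Cfsg

namespace Cfsg.Agent.S2587

open Matrix Cfsg.Agent.Helper3 Cfsg.Agent.Helper16 in
/-- the matrix-level core: unitary matrices conjugate under GL are conjugate under GU -/
theorem core_h16 {K : Type*} [Field K] [Fintype K] {q n : ℕ} (hK : Fintype.card K = q ^ 2)
    (A B : ↥(Cfsg.GU n K q)) (g : GL (Fin n) K)
    (hg : g * (A : GL (Fin n) K) * g⁻¹ = (B : GL (Fin n) K)) : IsConj A B := by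
  rcases Nat.eq_zero_or_pos n with hn | hn
  · subst hn
    have : A = B := Subtype.ext (Units.ext (Subsingleton.elim _ _))
    rw [this]
  haveI : NeZero n := ⟨by omega⟩
  obtain ⟨Φ⟩ := exists_Frob hK
  obtain ⟨Am, hAm⟩ : ∃ Am : Matrix (Fin n) (Fin n) K,
      Am = ((A : GL (Fin n) K) : Matrix (Fin n) (Fin n) K) := ⟨_, rfl⟩
  obtain ⟨Bm, hBm⟩ : ∃ Bm : Matrix (Fin n) (Fin n) K,
      Bm = ((B : GL (Fin n) K) : Matrix (Fin n) (Fin n) K) := ⟨_, rfl⟩
  have hA : ctr Φ Am * Am = 1 := by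
    rw [hAm]; exact (hpres_iff hK Φ _).mp ((mem_GU_iff _).mp A.2)
  have hB : ctr Φ Bm * Bm = 1 := by
    rw [hBm]; exact (hpres_iff hK Φ _).mp ((mem_GU_iff _).mp B.2)
  have hA' : Am * ctr Φ Am = 1 := mul_eq_one_comm.mp hA
  have hgA : (g : Matrix (Fin n) (Fin n) K) * Am = Bm * g := by
    have : g * (A : GL (Fin n) K) = (B : GL (Fin n) K) * g := by rw [← hg]; group
    rw [hAm, hBm]
    exact congrArg Units.val this
  obtain ⟨gm, hgm⟩ : ∃ gm, gm = (g : Matrix (Fin n) (Fin n) K) := ⟨_, rfl⟩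
  obtain ⟨gi, hgi⟩ : ∃ gi, gi = ((g⁻¹ : GL (Fin n) K) : Matrix (Fin n) (Fin n) K) := ⟨_, rfl⟩
  have hgi1 : gm * gi = 1 := by rw [hgm, hgi]; exact g.mul_inv
  have hgi2 : gi * gm = 1 := by rw [hgm, hgi]; exact g.inv_mul
  rw [← hgm] at hgA
  obtain ⟨h0, hh0⟩ : ∃ h0, h0 = ctr Φ gm * gm := ⟨_, rfl⟩
  have hh : ctr Φ h0 = h0 := by rw [hh0, ctr_mul, ctr_ctr]
  have hi1 : h0 * (gi * ctr Φ gi) = 1 := by
    rw [hh0]
    calc ctr Φ gm * gm * (gi * ctr Φ gi) = ctr Φ gm * (gm * gi) * ctr Φ gi := by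
          simp only [mul_assoc]
      _ = ctr Φ (gi * gm) := by rw [hgi1, mul_one, ← ctr_mul]
      _ = 1 := by rw [hgi2, ctr_one]
  have hi2 : (gi * ctr Φ gi) * h0 = 1 := mul_eq_one_comm.mp hi1
  obtain ⟨c, hc, hcomm⟩ := exists_ctr_sqrt hK Φ h0 _ hh hi1 hi2
  have hAh : Am * h0 = h0 * Am := by
    have e1 : ctr Φ Am * ctr Φ gm = ctr Φ gm * ctr Φ Bm := by
      rw [← ctr_mul, ← ctr_mul, hgA]
    have e2 : ctr Φ gm * Bm = Am * ctr Φ gm := by
      calc ctr Φ gm * Bm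
          = (Am * ctr Φ Am) * ctr Φ gm * Bm := by rw [hA', one_mul]
        _ = Am * (ctr Φ Am * ctr Φ gm) * Bm := by simp only [mul_assoc]
        _ = Am * (ctr Φ gm * ctr Φ Bm) * Bm := by rw [e1]
        _ = Am * ctr Φ gm * (ctr Φ Bm * Bm) := by simp only [mul_assoc]
        _ = Am * ctr Φ gm := by rw [hB, mul_one]
    rw [hh0]
    calc Am * (ctr Φ gm * gm) = (Am * ctr Φ gm) * gm := by
          rw [mul_assoc]
      _ = ctr Φ gm * Bm * gm := by rw [e2]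
      _ = ctr Φ gm * (gm * Am) := by rw [mul_assoc, hgA]
      _ = ctr Φ gm * gm * Am := by rw [mul_assoc]
  have hcA : Am * c = c * Am := hcomm _ hAh
  have hcdet : IsUnit c.det := by
    have h3 : (ctr Φ c * c).det * (gi * ctr Φ gi).det = 1 := by
      rw [← Matrix.det_mul, hc, hi1, Matrix.det_one]
    rw [Matrix.det_mul] at h3
    exact IsUnit.of_mul_eq_one ((ctr Φ c).det * (gi * ctr Φ gi).det) (by linear_combination h3)
  obtain ⟨cU, hcU⟩ : ∃ cU : GL (Fin n) K, (cU : Matrix (Fin n) (Fin n) K) = c :=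
    ⟨Matrix.GeneralLinearGroup.mk'' c hcdet, rfl⟩
  obtain ⟨ci, hci⟩ : ∃ ci, ci = ((cU⁻¹ : GL (Fin n) K) : Matrix (Fin n) (Fin n) K) := ⟨_, rfl⟩
  have hci1 : c * ci = 1 := by rw [← hcU, hci]; exact cU.mul_inv
  have hci2 : ci * c = 1 := by rw [← hcU, hci]; exact cU.inv_mul
  have hU : g * cU⁻¹ ∈ Cfsg.GU n K q := by
    rw [mem_GU_iff, hpres_iff hK Φ]
    show ctr Φ ((g : Matrix (Fin n) (Fin n) K) * ((cU⁻¹ : GL (Fin n) K) : Matrix (Fin n) (Fin n) K))
      * ((g : Matrix (Fin n) (Fin n) K) * ((cU⁻¹ : GL (Fin n) K) : Matrix (Fin n) (Fin n) K)) = 1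
    rw [← hgm, ← hci, ctr_mul]
    calc ctr Φ ci * ctr Φ gm * (gm * ci) = ctr Φ ci * (ctr Φ gm * gm) * ci := by
          simp only [mul_assoc]
      _ = ctr Φ ci * (ctr Φ c * c) * ci := by rw [← hh0, hc]
      _ = (ctr Φ ci * ctr Φ c) * (c * ci) := by simp only [mul_assoc]
      _ = 1 := by rw [hci1, mul_one, ← ctr_mul, hci1, ctr_one]
  refine isConj_iff.mpr ⟨⟨g * cU⁻¹, hU⟩, ?_⟩
  apply Subtype.ext
  show g * cU⁻¹ * (A : GL (Fin n) K) * (g * cU⁻¹)⁻¹ = B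
  have hcomU : Commute cU (A : GL (Fin n) K) := by
    apply Units.ext
    show (cU : Matrix (Fin n) (Fin n) K) * ((A : GL (Fin n) K) : Matrix (Fin n) (Fin n) K)
      = ((A : GL (Fin n) K) : Matrix (Fin n) (Fin n) K) * cU
    rw [hcU, ← hAm, hcA]
  have h5 : cU⁻¹ * (A : GL (Fin n) K) = (A : GL (Fin n) K) * cU⁻¹ := (hcomU.inv_left).eq
  rw [← hg]
  calc g * cU⁻¹ * (A : GL (Fin n) K) * (g * cU⁻¹)⁻¹
      = g * (cU⁻¹ * (A : GL (Fin n) K)) * cU * g⁻¹ := by group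
    _ = g * (A : GL (Fin n) K) * g⁻¹ := by rw [h5]; group


/-- Conjugacy in the finite general unitary group is controlled by the general linear group: two elements of GU_n(q) (the invertible matrices over the field with q² elements preserving the Hermitian form Σ u_i v_i^q) are conjugate in GU_n(q) if and only if they are conjugate in GL_n(q²). -/
theorem result {K : Type*} [Field K] [Fintype K] {q n : ℕ} (hK : Fintype.card K = q ^ 2) (A B : ↥(Cfsg.GU n K q)) : IsConj A B ↔ IsConj (A : GL (Fin n) K) (B : GL (Fin n) K) := by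
  constructor
  · intro h
    obtain ⟨c, hc⟩ := isConj_iff.mp h
    exact isConj_iff.mpr ⟨(c : GL (Fin n) K), by rw [← hc]; rfl⟩
  · intro h
    obtain ⟨g, hg⟩ := isConj_iff.mp h
    exact core_h16 hK A B g hg

end Cfsg.Agent.S2587
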