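import Cfsg.Statements.S2588
import Cfsg.Agent.Helper16.NormC

set_option autoImplicit false
open Cfsg

namespace Cfsg.Agent.S2588

open Matrix Cfsg.Agent.Helper3 Cfsg.Agent.Helper16 in
theorem rhs_h16 {K : Type*} [Field K] [Fintype K] {q n : ℕ} (Φ : Frob K q) (A : GL (Fin n) K) :
    (((A : Matrix (Fin n) (Fin n) K).map (fun x : K => x ^ q)).transpose)⁻¹
      = ctr Φ ((A⁻¹ : GL (Fin n) K) : Matrix (Fin n) (Fin n) K) := by
  have e : ((A : Matrix (Fin n) (Fin n) K).map (fun x : K => x ^ q)).transpose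
      = ctr Φ (A : Matrix (Fin n) (Fin n) K) := by
    ext i j
    simp [ctr_apply, Φ.hφ]
  rw [e]
  apply Matrix.inv_eq_right_inv
  rw [← ctr_mul]
  have : ((A⁻¹ : GL (Fin n) K) : Matrix (Fin n) (Fin n) K) * (A : Matrix (Fin n) (Fin n) K) = 1 :=
    A.inv_mul
  rw [this, ctr_one]

open Matrix Cfsg.Agent.Helper3 Cfsg.Agent.Helper16 in
theorem fwd_h16 {K : Type*} [Field K] [Fintype K] {q n : ℕ} (hK : Fintype.card K = q ^ 2)
    (Φ : Frob K q) (A : GL (Fin n) K) (B : ↥(Cfsg.GU n K q)) (g : GL (Fin n) K)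
    (hg : g * A * g⁻¹ = (B : GL (Fin n) K)) :
    IsConj (A : Matrix (Fin n) (Fin n) K)
      (ctr Φ ((A⁻¹ : GL (Fin n) K) : Matrix (Fin n) (Fin n) K)) := by
  obtain ⟨Am, hAm⟩ : ∃ Am : Matrix (Fin n) (Fin n) K, Am = (A : Matrix (Fin n) (Fin n) K) :=
    ⟨_, rfl⟩
  obtain ⟨Ai, hAi⟩ : ∃ Ai : Matrix (Fin n) (Fin n) K,
      Ai = ((A⁻¹ : GL (Fin n) K) : Matrix (Fin n) (Fin n) K) := ⟨_, rfl⟩
  obtain ⟨Bm, hBm⟩ : ∃ Bm : Matrix (Fin n) (Fin n) K,
      Bm = ((B : GL (Fin n) K) : Matrix (Fin n) (Fin n) K) := ⟨_, rfl⟩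
  obtain ⟨gm, hgm⟩ : ∃ gm, gm = (g : Matrix (Fin n) (Fin n) K) := ⟨_, rfl⟩
  obtain ⟨gi, hgi⟩ : ∃ gi, gi = ((g⁻¹ : GL (Fin n) K) : Matrix (Fin n) (Fin n) K) := ⟨_, rfl⟩
  have hgi1 : gm * gi = 1 := by rw [hgm, hgi]; exact g.mul_inv
  have hgi2 : gi * gm = 1 := by rw [hgm, hgi]; exact g.inv_mul
  have hA1 : Am * Ai = 1 := by rw [hAm, hAi]; exact A.mul_inv
  have hA2 : Ai * Am = 1 := by rw [hAm, hAi]; exact A.inv_mul
  have hB : ctr Φ Bm * Bm = 1 := by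
    rw [hBm]; exact (hpres_iff hK Φ _).mp ((mem_GU_iff _).mp B.2)
  have hgA : gm * Am = Bm * gm := by
    have : g * A = (B : GL (Fin n) K) * g := by rw [← hg]; group
    rw [hAm, hBm, hgm]
    exact congrArg Units.val this
  rw [← hAm, ← hAi]
  have hc1 : ctr Φ gm * gm * (gi * ctr Φ gi) = 1 := by
    calc ctr Φ gm * gm * (gi * ctr Φ gi) = ctr Φ gm * (gm * gi) * ctr Φ gi := by
          simp only [mul_assoc]
      _ = ctr Φ (gi * gm) := by rw [hgi1, mul_one, ← ctr_mul]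
      _ = 1 := by rw [hgi2, ctr_one]
  have hc2 : gi * ctr Φ gi * (ctr Φ gm * gm) = 1 := mul_eq_one_comm.mp hc1
  refine ⟨⟨ctr Φ gm * gm, gi * ctr Φ gi, hc1, hc2⟩, ?_⟩
  show ctr Φ gm * gm * Am = ctr Φ Ai * (ctr Φ gm * gm)
  have e1 : ctr Φ Am * ctr Φ gm = ctr Φ gm * ctr Φ Bm := by
    rw [← ctr_mul, ← ctr_mul, hgA]
  have e2 : ctr Φ gm * Bm = ctr Φ Ai * ctr Φ gm := by
    calc ctr Φ gm * Bm = ctr Φ (Am * Ai) * ctr Φ gm * Bm := by rw [hA1, ctr_one, one_mul]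
      _ = ctr Φ Ai * (ctr Φ Am * ctr Φ gm) * Bm := by rw [ctr_mul]; simp only [mul_assoc]
      _ = ctr Φ Ai * (ctr Φ gm * ctr Φ Bm) * Bm := by rw [e1]
      _ = ctr Φ Ai * ctr Φ gm * (ctr Φ Bm * Bm) := by simp only [mul_assoc]
      _ = ctr Φ Ai * ctr Φ gm := by rw [hB, mul_one]
  calc ctr Φ gm * gm * Am = ctr Φ gm * (gm * Am) := by rw [mul_assoc]
    _ = ctr Φ gm * Bm * gm := by rw [hgA, mul_assoc]
    _ = ctr Φ Ai * (ctr Φ gm * gm) := by rw [e2, mul_assoc]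

open Matrix Cfsg.Agent.Helper3 Cfsg.Agent.Helper16 in
theorem bwd_h16 {K : Type*} [Field K] [Fintype K] {q n : ℕ} [NeZero n]
    (hK : Fintype.card K = q ^ 2)
    (Φ : Frob K q) (A : GL (Fin n) K)
    (h : IsConj (A : Matrix (Fin n) (Fin n) K)
      (ctr Φ ((A⁻¹ : GL (Fin n) K) : Matrix (Fin n) (Fin n) K))) :
    ∃ B : ↥(Cfsg.GU n K q), IsConj A (B : GL (Fin n) K) := by
  obtain ⟨Am, hAm⟩ : ∃ Am : Matrix (Fin n) (Fin n) K, Am = (A : Matrix (Fin n) (Fin n) K) :=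
    ⟨_, rfl⟩
  obtain ⟨Ai, hAi⟩ : ∃ Ai : Matrix (Fin n) (Fin n) K,
      Ai = ((A⁻¹ : GL (Fin n) K) : Matrix (Fin n) (Fin n) K) := ⟨_, rfl⟩
  have hA1 : Am * Ai = 1 := by rw [hAm, hAi]; exact A.mul_inv
  have hA2 : Ai * Am = 1 := by rw [hAm, hAi]; exact A.inv_mul
  rw [← hAm, ← hAi] at h
  obtain ⟨c, hc⟩ := h
  obtain ⟨g, hg⟩ : ∃ g, g = (c : Matrix (Fin n) (Fin n) K) := ⟨_, rfl⟩
  obtain ⟨gi, hgi⟩ : ∃ gi, gi = ((c⁻¹ : (Matrix (Fin n) (Fin n) K)ˣ) : Matrix (Fin n) (Fin n) K) :=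
    ⟨_, rfl⟩
  have hg1 : g * gi = 1 := by rw [hg, hgi]; exact c.mul_inv
  have hg2 : gi * g = 1 := by rw [hg, hgi]; exact c.inv_mul
  have hc' : g * Am = ctr Φ Ai * g := by rw [hg]; exact hc
  have hcA1 : ctr Φ Am * ctr Φ Ai = 1 := by rw [← ctr_mul, hA2, ctr_one]
  have hcA2 : ctr Φ Ai * ctr Φ Am = 1 := by rw [← ctr_mul, hA1, ctr_one]
  have hX : ctr Φ Am * g * Am = g := by
    rw [mul_assoc, hc', ← mul_assoc, hcA1, one_mul]
  -- A commutes with s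
  have hAs : Am * (gi * ctr Φ g) = (gi * ctr Φ g) * Am := by
    have e1 : Am * gi = gi * ctr Φ Ai := by
      calc Am * gi = (gi * g) * Am * gi := by rw [hg2, one_mul]
        _ = gi * (g * Am) * gi := by simp only [mul_assoc]
        _ = gi * (ctr Φ Ai * g) * gi := by rw [hc']
        _ = gi * ctr Φ Ai * (g * gi) := by simp only [mul_assoc]
        _ = gi * ctr Φ Ai := by rw [hg1, mul_one]
    have e2 : ctr Φ Am * ctr Φ g = ctr Φ g * Ai := by
      have := congrArg (ctr Φ) hc'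
      rw [ctr_mul, ctr_mul, ctr_ctr] at this
      exact this
    have e3 : ctr Φ g * Am = ctr Φ Ai * ctr Φ g := by
      calc ctr Φ g * Am = (ctr Φ Ai * ctr Φ Am) * ctr Φ g * Am := by rw [hcA2, one_mul]
        _ = ctr Φ Ai * (ctr Φ Am * ctr Φ g) * Am := by simp only [mul_assoc]
        _ = ctr Φ Ai * (ctr Φ g * Ai) * Am := by rw [e2]
        _ = ctr Φ Ai * ctr Φ g * (Ai * Am) := by simp only [mul_assoc]
        _ = ctr Φ Ai * ctr Φ g := by rw [hA2, mul_one]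
    calc Am * (gi * ctr Φ g) = (Am * gi) * ctr Φ g := by rw [mul_assoc]
      _ = gi * (ctr Φ Ai * ctr Φ g) := by rw [e1, mul_assoc]
      _ = gi * (ctr Φ g * Am) := by rw [e3]
      _ = (gi * ctr Φ g) * Am := by rw [mul_assoc]
  obtain ⟨u, ui, hu1, hu2, hherm, hcomm⟩ := twisted_h90 hK Φ g gi hg1 hg2
  have hAu : Am * u = u * Am := hcomm Am hAs
  obtain ⟨h0, hh0⟩ : ∃ h0, h0 = g * u := ⟨_, rfl⟩
  rw [← hh0] at hherm
  have hi1 : h0 * (ui * gi) = 1 := by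
    rw [hh0]
    calc g * u * (ui * gi) = g * (u * ui) * gi := by simp only [mul_assoc]
      _ = 1 := by rw [hu1, mul_one, hg1]
  have hi2 : (ui * gi) * h0 = 1 := mul_eq_one_comm.mp hi1
  have hinv : ctr Φ Am * h0 * Am = h0 := by
    rw [hh0]
    calc ctr Φ Am * (g * u) * Am = ctr Φ Am * g * (u * Am) := by simp only [mul_assoc]
      _ = (ctr Φ Am * g * Am) * u := by rw [← hAu]; simp only [mul_assoc]
      _ = g * u := by rw [hX]
  obtain ⟨c', hc'', -⟩ := exists_ctr_sqrt hK Φ h0 _ hherm hi1 hi2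
  have hcdet : IsUnit c'.det := by
    have h3 : (ctr Φ c' * c').det * (ui * gi).det = 1 := by
      rw [← Matrix.det_mul, hc'', hi1, Matrix.det_one]
    rw [Matrix.det_mul] at h3
    exact IsUnit.of_mul_eq_one ((ctr Φ c').det * (ui * gi).det) (by linear_combination h3)
  obtain ⟨cU, hcU⟩ : ∃ cU : GL (Fin n) K, (cU : Matrix (Fin n) (Fin n) K) = c' :=
    ⟨Matrix.GeneralLinearGroup.mk'' c' hcdet, rfl⟩
  obtain ⟨ci, hci⟩ : ∃ ci, ci = ((cU⁻¹ : GL (Fin n) K) : Matrix (Fin n) (Fin n) K) := ⟨_, rfl⟩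
  have hci1 : c' * ci = 1 := by rw [← hcU, hci]; exact cU.mul_inv
  have hci2 : ci * c' = 1 := by rw [← hcU, hci]; exact cU.inv_mul
  have hU : cU * A * cU⁻¹ ∈ Cfsg.GU n K q := by
    rw [mem_GU_iff, hpres_iff hK Φ]
    show ctr Φ ((cU : Matrix (Fin n) (Fin n) K) * (A : Matrix (Fin n) (Fin n) K)
        * ((cU⁻¹ : GL (Fin n) K) : Matrix (Fin n) (Fin n) K))
      * ((cU : Matrix (Fin n) (Fin n) K) * (A : Matrix (Fin n) (Fin n) K)
        * ((cU⁻¹ : GL (Fin n) K) : Matrix (Fin n) (Fin n) K)) = 1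
    rw [hcU, ← hAm, ← hci, ctr_mul, ctr_mul]
    calc ctr Φ ci * (ctr Φ Am * ctr Φ c') * (c' * Am * ci)
        = ctr Φ ci * (ctr Φ Am * (ctr Φ c' * c') * Am) * ci := by simp only [mul_assoc]
      _ = ctr Φ ci * (ctr Φ c' * c') * ci := by rw [hc'', hinv]
      _ = (ctr Φ ci * ctr Φ c') * (c' * ci) := by simp only [mul_assoc]
      _ = 1 := by rw [hci1, mul_one, ← ctr_mul, hci1, ctr_one]
  exact ⟨⟨cU * A * cU⁻¹, hU⟩, isConj_iff.mpr ⟨cU, rfl⟩⟩


/-- An invertible matrix A over the field with q² elements is conjugate in GL_n(q²) to an element of the general unitary group GU_n(q) (isometries of the Hermitian form Σ u_i v_i^q) if and only if A is similar to the inverse transpose of its entrywise q-th power (A ~ A^(−qT), the image of A under the map sending a matrix to the inverse transpose of its entrywise q-th power — inverse transpose composed with the field automorphism — whose fixed points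 form GU_n(q)). -/
theorem result {K : Type*} [Field K] [Fintype K] {q n : ℕ} (hK : Fintype.card K = q ^ 2) (A : GL (Fin n) K) : (∃ B : ↥(Cfsg.GU n K q), IsConj A (B : GL (Fin n) K)) ↔ IsConj (A : Matrix (Fin n) (Fin n) K) (((A : Matrix (Fin n) (Fin n) K).map (fun x : K => x ^ q)).transpose)⁻¹ := by
  obtain ⟨Φ⟩ := Cfsg.Agent.Helper16.exists_Frob hK
  rw [rhs_h16 Φ A]
  constructor
  · rintro ⟨B, hB⟩
    obtain ⟨g, hg⟩ := isConj_iff.mp hB
    exact fwd_h16 hK Φ A B g hg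
  · intro h
    rcases Nat.eq_zero_or_pos n with hn | hn
    · subst hn
      refine ⟨1, ?_⟩
      have : A = ((1 : ↥(Cfsg.GU 0 K q)) : GL (Fin 0) K) := Units.ext (Subsingleton.elim _ _)
      rw [this]
    · haveI : NeZero n := ⟨by omega⟩
      exact bwd_h16 hK Φ A h

end Cfsg.Agent.S2588
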