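import Cfsg.Statements.S2642
import Cfsg.Agent.Helper16.NormD
import Cfsg.Agent.S2570
import Cfsg.Agent.S2587
import Cfsg.Agent.S2588

set_option autoImplicit false
open Cfsg

namespace Cfsg.Agent.S2642

open Matrix Cfsg.Agent.Helper3 Cfsg.Agent.Helper16 Cfsg.Agent.Helper29 in
/-- every unipotent element of `GL_n(q²)` is conjugate to an element of `GU_n(q)` -/
theorem unip_meets_h16 {K : Type*} [Field K] [Fintype K] {q n : ℕ}
    (hK : Fintype.card K = q ^ 2) (g : GL (Fin n) K) (hnil : ∃ k, (Ng g) ^ k = 0) :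
    ∃ B : ↥(Cfsg.GU n K q), IsConj g (B : GL (Fin n) K) := by
  obtain ⟨Φ⟩ := exists_Frob hK
  rw [Cfsg.Agent.S2588.result hK g, Cfsg.Agent.S2588.rhs_h16 Φ g]
  obtain ⟨gm, hgm⟩ : ∃ gm, gm = (g : Matrix (Fin n) (Fin n) K) := ⟨_, rfl⟩
  obtain ⟨gi, hgi⟩ : ∃ gi, gi = ((g⁻¹ : GL (Fin n) K) : Matrix (Fin n) (Fin n) K) := ⟨_, rfl⟩
  have hgi1 : gm * gi = 1 := by rw [hgm, hgi]; exact g.mul_inv
  have hgi2 : gi * gm = 1 := by rw [hgm, hgi]; exact g.inv_mul
  have h1 : ctr Φ gi * ctr Φ gm = 1 := by rw [← ctr_mul, hgi1, ctr_one]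
  have h2 : ctr Φ gm * ctr Φ gi = 1 := by rw [← ctr_mul, hgi2, ctr_one]
  obtain ⟨g', hg'⟩ : ∃ g' : GL (Fin n) K, (g' : Matrix (Fin n) (Fin n) K) = ctr Φ gi :=
    ⟨⟨ctr Φ gi, ctr Φ gm, h1, h2⟩, rfl⟩
  have hconj : IsConj g g' := unip_conj_ctr Φ g g' (by rw [hg', hgi]) hnil
  obtain ⟨c, hc⟩ := isConj_iff.mp hconj
  have hc' : c * g = g' * c := mul_inv_eq_iff_eq_mul.mp hc
  refine ⟨c, ?_⟩
  show (c : Matrix (Fin n) (Fin n) K) * (g : Matrix (Fin n) (Fin n) K)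
    = ctr Φ ((g⁻¹ : GL (Fin n) K) : Matrix (Fin n) (Fin n) K) * (c : Matrix (Fin n) (Fin n) K)
  rw [← hgi, ← hg']
  exact congrArg Units.val hc'


/-- Number of conjugacy classes of elements of order p in the general unitary group GU_n(q), q a power of p: every unipotent Jordan type occurs and the classes correspond to the partitions of n with all parts at most p other than the all-ones partition, exactly as in GL_n; so there are (number of partitions of n with parts ≤ p) − 1 classes. -/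
theorem result {K : Type*} [Field K] [Fintype K] {p q n : ℕ} [Fact p.Prime] [CharP K p] (hK : Fintype.card K = q ^ 2) : Nat.card {C : ConjClasses ↥(Cfsg.GU n K q) // ∃ g : ↥(Cfsg.GU n K q), ConjClasses.mk g = C ∧ orderOf g = p} = (Finset.univ.filter (fun μ : Nat.Partition n => ∀ a ∈ μ.parts, a ≤ p)).card - 1 := by
  classical
  rw [← Cfsg.Agent.S2570.result (F := K) (p := p) n]
  have key : ∀ C : {C : ConjClasses ↥(Cfsg.GU n K q) //
      ∃ g : ↥(Cfsg.GU n K q), ConjClasses.mk g = C ∧ orderOf g = p},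
      ∃ g : GL (Fin n) K, ConjClasses.mk g = ConjClasses.map (Cfsg.GU n K q).subtype C.1
        ∧ orderOf g = p := by
    rintro ⟨C, g, rfl, ho⟩
    exact ⟨(g : GL (Fin n) K), rfl, by rw [Subgroup.orderOf_coe]; exact ho⟩
  refine Nat.card_congr (Equiv.ofBijective (fun C => ⟨_, key C⟩) ⟨?_, ?_⟩)
  · rintro ⟨C₁, g₁, rfl, h₁⟩ ⟨C₂, g₂, rfl, h₂⟩ h
    apply Subtype.ext
    have h' : ConjClasses.mk (g₁ : GL (Fin n) K) = ConjClasses.mk (g₂ : GL (Fin n) K) :=
      congrArg Subtype.val h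
    rw [ConjClasses.mk_eq_mk_iff_isConj] at h' ⊢
    exact (Cfsg.Agent.S2587.result hK g₁ g₂).mpr h'
  · rintro ⟨C, g, rfl, ho⟩
    obtain ⟨B, hB⟩ := unip_meets_h16 hK g
      ((Cfsg.Agent.Helper29.ppow_iff_nilp p g).mp ⟨1, by rw [pow_one]; exact ho⟩)
    have hoB : orderOf B = p := by
      obtain ⟨c, hc⟩ := isConj_iff.mp hB
      rw [← Subgroup.orderOf_coe, ← hc, ← ho]
      exact (MulAut.conj c).orderOf_eq g
    refine ⟨⟨ConjClasses.mk B, B, rfl, hoB⟩, ?_⟩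
    apply Subtype.ext
    show ConjClasses.mk (B : GL (Fin n) K) = ConjClasses.mk g
    exact ConjClasses.mk_eq_mk_iff_isConj.mpr hB.symm

end Cfsg.Agent.S2642
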