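import Cfsg.Statements.S0250
import Mathlib
import Cfsg.Agent.Helper2.PermIso
import Cfsg.Agent.S0243

set_option autoImplicit false
open Cfsg

namespace Cfsg.Agent.S0250

open Cfsg.Agent.Helper2
open scoped LinearAlgebra.Projectivization

/-- SL_2(2) is isomorphic to S_3. -/
theorem result {F : Type*} [Field F] [Fintype F] (hF : Fintype.card F = 2) : Nonempty (Matrix.SpecialLinearGroup (Fin 2) F ≃* Equiv.Perm (Fin 3)) := by
  have hcard := Cfsg.Agent.S0242.result hF 2 (by norm_num)
  have h6 : Nat.card (Matrix.SpecialLinearGroup (Fin 2) F) = 6 := by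
    simp [Fin.prod_univ_two] at hcard
    omega
  haveI : Finite (Matrix.SpecialLinearGroup (Fin 2) F) :=
    Nat.finite_of_card_ne_zero (by rw [h6]; norm_num)
  classical
  haveI : Fintype (ℙ F (Fin 2 → F)) := Fintype.ofFinite _
  have hα : Fintype.card (ℙ F (Fin 2 → F)) = 3 := by
    rw [← Nat.card_eq_fintype_card, Projectivization.card_of_finrank_two F (Fin 2 → F) (by simp),
      Nat.card_eq_fintype_card, hF]
  have hker : (MulAction.toPermHom (Matrix.SpecialLinearGroup (Fin 2) F) (ℙ F (Fin 2 → F))).ker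
      = ⊥ := by
    rw [Projectivization.SL_mulAction_ker, ← Subgroup.card_eq_one,
      Cfsg.Agent.S0243.card_center_SL 2 (by norm_num), hF]
    rfl
  exact nonempty_equiv_perm_of_injective hα _ ((MonoidHom.ker_eq_bot_iff _).mp hker)
    (by rw [h6]; rfl)

end Cfsg.Agent.S0250
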