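import Cfsg.Statements.S0264
import Mathlib
import Cfsg.Agent.S0249

set_option autoImplicit false
open Cfsg
open scoped commutatorElement

namespace Cfsg.Agent.S0264

theorem diag_mul_transvection {n : ℕ} {F : Type*} [Field F] (i j : Fin n) (hij : i ≠ j)
    (a c c' : F) (h : a * c' = c + c') :
    Matrix.diagonal (fun k => if k = i then a else 1) * Matrix.transvection i j c' =
      Matrix.transvection i j (c + c') * Matrix.diagonal (fun k => if k = i then a else 1) := by
  ext k l
  rw [Matrix.diagonal_mul, Matrix.mul_diagonal]
  simp only [Matrix.transvection, Matrix.add_apply, Matrix.one_apply, Matrix.single_apply]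
  by_cases hk : k = i <;> by_cases hl : l = j
  · subst hk; subst hl
    simp [hij, hij.symm, h]
  · subst hk
    have hl' : ¬ j = l := fun e => hl e.symm
    by_cases hkl : k = l
    · subst hkl
      simp [hl']
    · simp [hl', hkl]
  · subst hl
    have hk' : ¬ i = k := fun e => hk e.symm
    by_cases hkl : k = l
    · subst hkl
      simp [hk', hk]
    · simp [hk', hkl, hk]
  · have hk' : ¬ i = k := fun e => hk e.symm
    by_cases hkl : k = l
    · subst hkl
      simp [hk', hk]
    · simp [hk', hkl]

/-- GL_n(F)' = SL_n(F) (as the kernel of det), for every field F and every n, except n = 2 over the field of two elements. -/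
theorem result {F : Type*} [Field F] (n : ℕ) (h : n = 2 → ∃ a : F, a ≠ 0 ∧ a ≠ 1) : commutator (Matrix.GeneralLinearGroup (Fin n) F) = (Matrix.GeneralLinearGroup.det : Matrix.GeneralLinearGroup (Fin n) F →* Fˣ).ker := by
  classical
  apply le_antisymm
  · exact Abelianization.commutator_subset_ker _
  · intro g hg
    rw [MonoidHom.mem_ker] at hg
    have hdet : (g : Matrix (Fin n) (Fin n) F).det = 1 := by
      have := congrArg Units.val hg
      simpa using this
    obtain ⟨A, hA⟩ : ∃ A : Matrix.SpecialLinearGroup (Fin n) F,
        Matrix.SpecialLinearGroup.toGL A = g := ⟨⟨g.1, hdet⟩, Units.ext rfl⟩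
    rw [← hA]
    rcases Nat.lt_or_ge n 2 with hn | hn
    · have hA1 : A = 1 := by
        apply Subtype.ext
        ext i j
        interval_cases n
        · exact i.elim0
        · have hd := A.det_coe
          rw [Matrix.det_unique] at hd
          fin_cases i; fin_cases j
          simpa using hd
      rw [hA1, map_one]
      exact one_mem _
    · haveI : Nontrivial (Fin n) := Fin.nontrivial_iff_two_le.mpr hn
      refine Cfsg.Agent.S0249.transvection_induction
        (fun A => Matrix.SpecialLinearGroup.toGL A ∈
          commutator (Matrix.GeneralLinearGroup (Fin n) F)) ?_ ?_ A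
      · intro i j hij c
        rcases Nat.eq_or_lt_of_le hn with h2 | h3
        · obtain ⟨a, ha0, ha1⟩ := h h2.symm
          have ha1' : a - 1 ≠ 0 := sub_ne_zero.mpr ha1
          have hdne : (Matrix.diagonal (fun k : Fin n => if k = i then a else 1)).det ≠ 0 := by
            rw [Matrix.det_diagonal, Finset.prod_ne_zero_iff]
            intro k _
            split_ifs
            · exact ha0
            · exact one_ne_zero
          obtain ⟨D, hD⟩ : ∃ D : Matrix.GeneralLinearGroup (Fin n) F,
              (D : Matrix (Fin n) (Fin n) F) =
                Matrix.diagonal (fun k : Fin n => if k = i then a else 1) :=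
            ⟨Matrix.GeneralLinearGroup.mkOfDetNeZero _ hdne, rfl⟩
          have hc' : a * (c / (a - 1)) = c + c / (a - 1) := by
            field_simp
            ring
          have key : D * Matrix.SpecialLinearGroup.toGL
                (Matrix.SpecialLinearGroup.transvection hij (c / (a - 1))) =
              Matrix.SpecialLinearGroup.toGL (Matrix.SpecialLinearGroup.transvection hij c) *
                Matrix.SpecialLinearGroup.toGL
                  (Matrix.SpecialLinearGroup.transvection hij (c / (a - 1))) * D := by
            apply Units.ext
            show (D : Matrix (Fin n) (Fin n) F) * Matrix.transvection i j (c / (a - 1)) =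
              Matrix.transvection i j c * Matrix.transvection i j (c / (a - 1)) *
                (D : Matrix (Fin n) (Fin n) F)
            rw [hD, Matrix.transvection_mul_transvection_same _ _ hij]
            exact diag_mul_transvection i j hij a c _ hc'
          have hcomm : Matrix.SpecialLinearGroup.toGL
              (Matrix.SpecialLinearGroup.transvection hij c) =
              ⁅D, Matrix.SpecialLinearGroup.toGL
                (Matrix.SpecialLinearGroup.transvection hij (c / (a - 1)))⁆ := by
            rw [commutatorElement_def, key]
            group
          show Matrix.SpecialLinearGroup.toGL (Matrix.SpecialLinearGroup.transvection hij c) ∈ _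
          rw [hcomm]
          exact Subgroup.commutator_mem_commutator (Subgroup.mem_top _) (Subgroup.mem_top _)
        · obtain ⟨k, hki, hkj⟩ : ∃ k : Fin n, k ≠ i ∧ k ≠ j := by
            by_contra hcon
            simp only [not_exists, not_and, not_not] at hcon
            have hsub : (Finset.univ : Finset (Fin n)) ⊆ {i, j} := by
              intro k _
              by_cases hki : k = i
              · simp [hki]
              · simp [hcon k hki]
            have h1 := Finset.card_le_card hsub
            have h2 : ({i, j} : Finset (Fin n)).card ≤ 2 := Finset.card_le_two
            rw [Finset.card_univ, Fintype.card_fin] at h1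
            omega
          show Matrix.SpecialLinearGroup.toGL (Matrix.SpecialLinearGroup.transvection hij c) ∈ _
          rw [Cfsg.Agent.S0249.transvection_eq_commutator hij hki.symm hkj c, map_commutatorElement]
          exact Subgroup.commutator_mem_commutator (Subgroup.mem_top _) (Subgroup.mem_top _)
      · intro A B hA hB
        show Matrix.SpecialLinearGroup.toGL (A * B) ∈ _
        rw [map_mul]
        exact mul_mem hA hB

end Cfsg.Agent.S0264
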