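import Mathlib
import Cfsg.Statements.S0286
import Cfsg.Agent.Helper6.OrthOdd

set_option autoImplicit false
open Cfsg

namespace Cfsg.Agent.S0286

theorem reidx (m : ℕ) (g : ℕ → ℕ) :
    ∏ i ∈ Finset.range m, g (m - i) = ∏ s ∈ Finset.range m, g (s + 1) := by
  rw [← Finset.prod_range_reflect (fun s => g (s + 1)) m]
  apply Finset.prod_congr rfl
  intro i hi
  rw [Finset.mem_range] at hi
  show g (m - i) = g (m - 1 - i + 1)
  congr 1
  omega

theorem arith (q : ℕ) (m : ℕ) :
    ∏ s ∈ Finset.range m, ((q ^ (2 * (s + 1)) - 1) * q ^ (2 * (s + 1) + 1))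
      = (q ^ (m ^ 2) * ∏ i ∈ Finset.range m, (q ^ (2 * (i + 1)) - 1)) * q ^ (2 * m) := by
  induction m with
  | zero => simp
  | succ n ih =>
    rw [Finset.prod_range_succ, ih, Finset.prod_range_succ (fun i => q ^ (2 * (i + 1)) - 1)]
    ring
/-- |GO_{2m+1}(q)| = 2 q^(m^2) prod_{i=1}^{m} (q^(2i) - 1) for q odd. -/
theorem result {F : Type*} [Field F] [Fintype F] {q : ℕ} (hF : Fintype.card F = q) (hodd : Odd q) (m : ℕ) : Nat.card (Cfsg.isometryGroup F (Cfsg.quadFormOdd m F)) = 2 * q ^ (m ^ 2) * ∏ i ∈ Finset.range m, (q ^ (2 * (i + 1)) - 1) := by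
  classical
  subst hF
  have hq : 1 ≤ Fintype.card F := Fintype.card_pos
  have h2 : (2 : F) ≠ 0 := by
    intro h
    haveI : CharP F 2 := CharTwo.of_one_ne_zero_of_two_eq_zero one_ne_zero h
    have h3 := FiniteField.even_card_of_char_two (ringChar.eq F 2)
    obtain ⟨k, hk⟩ := hodd
    omega
  have key := Helper6.odd_count (F := F) m h2
  rw [reidx m (fun r => (Fintype.card F ^ (2 * r) - 1) * Fintype.card F ^ (2 * r + 1)),
    arith] at key
  apply Nat.eq_of_mul_eq_mul_right (pow_pos hq (2 * m))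
  rw [key]
  ring

end Cfsg.Agent.S0286
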