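import Cfsg.Statements.S2579
import Cfsg.Agent.Helper16.Transvection

set_option autoImplicit false
open Cfsg

namespace Cfsg.Agent.S2579

/-- every transvection of `SL_{k+3}` is conjugate to the standard one -/
theorem conj_std {F : Type*} [Field F] (k : ℕ)
    (s : Matrix.SpecialLinearGroup (Fin (k + 3)) F)
    (hs : Cfsg.IsTransvection (s : Matrix (Fin (k + 3)) (Fin (k + 3)) F)) :
    ∃ g : Matrix.SpecialLinearGroup (Fin (k + 3)) F,
      (s : Matrix (Fin (k + 3)) (Fin (k + 3)) F) * g.1 =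
        g.1 * (1 + Matrix.single (1 : Fin (k + 3)) (0 : Fin (k + 3)) (1 : F)) := by
  obtain ⟨P, hP, hNP⟩ := Cfsg.Agent.Helper16.exists_conj_single k
    ((s : Matrix (Fin (k + 3)) (Fin (k + 3)) F) - 1) hs.1 hs.2
  refine ⟨⟨P, hP⟩, ?_⟩
  show (s : Matrix (Fin (k + 3)) (Fin (k + 3)) F) * P = P * (1 + Matrix.single 1 0 1)
  rw [mul_add, mul_one, ← hNP, sub_mul, one_mul]
  abel

/-- In SL_n(F) with n ≥ 3, over a finite field F, any two transvections (matrices t with t − 1 of rank one and square zero) are conjugate by an element of SL_n(F). -/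
theorem result {F : Type*} [Field F] [Finite F] {n : ℕ} (hn : 3 ≤ n) (s t : Matrix.SpecialLinearGroup (Fin n) F) (hs : Cfsg.IsTransvection (s : Matrix (Fin n) (Fin n) F)) (ht : Cfsg.IsTransvection (t : Matrix (Fin n) (Fin n) F)) : IsConj s t := by
  obtain ⟨k, rfl⟩ : ∃ k, n = k + 3 := ⟨n - 3, by omega⟩
  obtain ⟨g₁, h₁⟩ := conj_std k s hs
  obtain ⟨g₂, h₂⟩ := conj_std k t ht
  rw [isConj_iff]
  refine ⟨g₂ * g₁⁻¹, ?_⟩
  -- s = g₁ u g₁⁻¹, t = g₂ u g₂⁻¹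
  have key : t * g₂ * g₁⁻¹ = g₂ * g₁⁻¹ * s := by
    have e1 : (g₁⁻¹ * s * g₁ : Matrix.SpecialLinearGroup (Fin (k + 3)) F) = g₂⁻¹ * t * g₂ := by
      apply Subtype.ext
      have a1 : ((g₁⁻¹ * s * g₁ : Matrix.SpecialLinearGroup (Fin (k + 3)) F) :
          Matrix (Fin (k + 3)) (Fin (k + 3)) F) =
          (g₁⁻¹ : Matrix.SpecialLinearGroup (Fin (k + 3)) F).1 * (s.1 * g₁.1) := by
        rw [mul_assoc]; rfl
      have a2 : ((g₂⁻¹ * t * g₂ : Matrix.SpecialLinearGroup (Fin (k + 3)) F) :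
          Matrix (Fin (k + 3)) (Fin (k + 3)) F) =
          (g₂⁻¹ : Matrix.SpecialLinearGroup (Fin (k + 3)) F).1 * (t.1 * g₂.1) := by
        rw [mul_assoc]; rfl
      have b1 : (g₁⁻¹ : Matrix.SpecialLinearGroup (Fin (k + 3)) F).1 * g₁.1 = 1 := by
        have : (g₁⁻¹ * g₁ : Matrix.SpecialLinearGroup (Fin (k + 3)) F) = 1 := inv_mul_cancel g₁
        exact congrArg Subtype.val this
      have b2 : (g₂⁻¹ : Matrix.SpecialLinearGroup (Fin (k + 3)) F).1 * g₂.1 = 1 := by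
        have : (g₂⁻¹ * g₂ : Matrix.SpecialLinearGroup (Fin (k + 3)) F) = 1 := inv_mul_cancel g₂
        exact congrArg Subtype.val this
      show ((g₁⁻¹ * s * g₁ : Matrix.SpecialLinearGroup (Fin (k + 3)) F) :
          Matrix (Fin (k + 3)) (Fin (k + 3)) F) = _
      rw [a1, a2, h₁, h₂, ← mul_assoc, ← mul_assoc, b1, b2]
    calc t * g₂ * g₁⁻¹ = g₂ * (g₂⁻¹ * t * g₂) * g₁⁻¹ := by group
      _ = g₂ * (g₁⁻¹ * s * g₁) * g₁⁻¹ := by rw [e1]
      _ = g₂ * g₁⁻¹ * s := by group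
  calc g₂ * g₁⁻¹ * s * (g₂ * g₁⁻¹)⁻¹ = (t * g₂ * g₁⁻¹) * (g₂ * g₁⁻¹)⁻¹ := by rw [key]
    _ = t := by group

end Cfsg.Agent.S2579
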