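import Cfsg.Statements.S5016
import Cfsg.Agent.Helper26.RankOne

set_option autoImplicit false
open Cfsg

namespace Cfsg.Agent.S5016

variable {k : Type*} [Field k]

def lo (t : k) : Matrix.SpecialLinearGroup (Fin 2) k :=
  ⟨!![1, 0; t, 1], by simp [Matrix.det_fin_two_of]⟩

def up (t : k) : Matrix.SpecialLinearGroup (Fin 2) k :=
  ⟨!![1, t; 0, 1], by simp [Matrix.det_fin_two_of]⟩

@[simp] theorem coe_lo (t : k) :
    ((lo t : Matrix.SpecialLinearGroup (Fin 2) k) : Matrix (Fin 2) (Fin 2) k) = !![1, 0; t, 1] := rfl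

@[simp] theorem coe_up (t : k) :
    ((up t : Matrix.SpecialLinearGroup (Fin 2) k) : Matrix (Fin 2) (Fin 2) k) = !![1, t; 0, 1] := rfl

theorem lo_mul (s t : k) : lo s * lo t = lo (s + t) := by
  ext i j
  fin_cases i <;> fin_cases j <;> simp [Matrix.mul_apply, Fin.sum_univ_two, add_comm]

theorem up_mul (s t : k) : up s * up t = up (s + t) := by
  ext i j
  fin_cases i <;> fin_cases j <;> simp [Matrix.mul_apply, Fin.sum_univ_two, add_comm]

theorem lo_zero : lo (0 : k) = 1 := by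
  ext i j
  fin_cases i <;> fin_cases j <;> simp

theorem up_zero : up (0 : k) = 1 := by
  ext i j
  fin_cases i <;> fin_cases j <;> simp

theorem lo_inv (t : k) : (lo t)⁻¹ = lo (-t) := by
  rw [inv_eq_iff_mul_eq_one, lo_mul]; simp [lo_zero]

theorem up_inv (t : k) : (up t)⁻¹ = up (-t) := by
  rw [inv_eq_iff_mul_eq_one, up_mul]; simp [up_zero]

theorem lo_inj {s t : k} (h : lo s = lo t) : s = t := by
  have := congrArg (fun g : Matrix.SpecialLinearGroup (Fin 2) k => g 1 0) h
  simpa using this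

theorem up_inj {s t : k} (h : up s = up t) : s = t := by
  have := congrArg (fun g : Matrix.SpecialLinearGroup (Fin 2) k => g 0 1) h
  simpa using this

theorem lo_ne_one {t : k} (ht : t ≠ 0) : lo t ≠ 1 := by
  intro h; rw [← lo_zero] at h; exact ht (lo_inj h)

theorem up_ne_one {t : k} (ht : t ≠ 0) : up t ≠ 1 := by
  intro h; rw [← up_zero] at h; exact ht (up_inj h)

theorem key (t s x : k) (hts : t * s = 1) :
    up (-s) * lo x * up s = lo (-t) * up (-(s ^ 2 * x)) * lo t := by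
  have hs : s ≠ 0 := by
    rintro rfl; simp at hts
  have ht : t = s⁻¹ := eq_inv_of_mul_eq_one_left hts
  subst ht
  ext i j
  fin_cases i <;> fin_cases j <;>
    simp [Matrix.mul_apply, Fin.sum_univ_two] <;> field_simp <;> ring

theorem mem_lower {g : Matrix.SpecialLinearGroup (Fin 2) k} :
    g ∈ lowerUnipotentSL2 k ↔ ∃ t : k, g = lo t := by
  constructor
  · intro hg
    unfold lowerUnipotentSL2 at hg
    induction hg using Subgroup.closure_induction with
    | mem x hx =>
      obtain ⟨h01, h00, h11⟩ := hx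
      refine ⟨x 1 0, ?_⟩
      ext i j
      fin_cases i <;> fin_cases j <;> simp [h01, h00, h11]
    | one => exact ⟨0, lo_zero.symm⟩
    | mul x y _ _ hx hy =>
      obtain ⟨s, rfl⟩ := hx
      obtain ⟨t, rfl⟩ := hy
      exact ⟨s + t, lo_mul s t⟩
    | inv x _ hx =>
      obtain ⟨s, rfl⟩ := hx
      exact ⟨-s, lo_inv s⟩
  · rintro ⟨t, rfl⟩
    apply Subgroup.subset_closure
    simp

theorem mem_upper {g : Matrix.SpecialLinearGroup (Fin 2) k} :
    g ∈ upperUnipotentSL2 k ↔ ∃ t : k, g = up t := by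
  constructor
  · intro hg
    unfold upperUnipotentSL2 at hg
    induction hg using Subgroup.closure_induction with
    | mem x hx =>
      obtain ⟨h10, h00, h11⟩ := hx
      refine ⟨x 0 1, ?_⟩
      ext i j
      fin_cases i <;> fin_cases j <;> simp [h10, h00, h11]
    | one => exact ⟨0, up_zero.symm⟩
    | mul x y _ _ hx hy =>
      obtain ⟨s, rfl⟩ := hx
      obtain ⟨t, rfl⟩ := hy
      exact ⟨s + t, up_mul s t⟩
    | inv x _ hx =>
      obtain ⟨s, rfl⟩ := hx
      exact ⟨-s, up_inv s⟩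
  · rintro ⟨t, rfl⟩
    apply Subgroup.subset_closure
    simp

theorem lo_mem (t : k) : lo t ∈ lowerUnipotentSL2 k := mem_lower.mpr ⟨t, rfl⟩
theorem up_mem (t : k) : up t ∈ upperUnipotentSL2 k := mem_upper.mpr ⟨t, rfl⟩

open Cfsg.Agent.Helper26 in
/-- the conjugation identity `u(s)⁻¹ L u(s) = l(t)⁻¹ U l(t)` for `t s = 1` -/
theorem conj_eq (t s : k) (hts : t * s = 1) :
    conjBy (lowerUnipotentSL2 k) (up s)⁻¹ = conjBy (upperUnipotentSL2 k) (lo t)⁻¹ := by
  have hst : s * t = 1 := by rw [mul_comm]; exact hts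
  ext m
  rw [mem_conjBy, mem_conjBy, inv_inv, inv_inv, mem_lower, mem_upper]
  constructor
  · rintro ⟨x, hx⟩
    refine ⟨-(s ^ 2 * x), ?_⟩
    have hm : m = up (-s) * lo x * up s := by
      rw [← up_inv, ← hx]; group
    rw [hm, key t s x hts, ← lo_inv]; group
  · rintro ⟨y, hy⟩
    refine ⟨-(t ^ 2 * y), ?_⟩
    have hm : m = lo (-t) * up y * lo t := by
      rw [← lo_inv, ← hy]; group
    have hk := key t s (-(t ^ 2 * y)) hts
    have hy' : -(s ^ 2 * -(t ^ 2 * y)) = y := by
      linear_combination (exp := 1) (y * (s * t + 1)) * hst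
    rw [hy'] at hk
    rw [hm, ← hk, ← up_inv]; group

theorem lower_comm : IsMulCommutative (lowerUnipotentSL2 k) := by
  refine ⟨⟨?_⟩⟩
  rintro ⟨a, ha⟩ ⟨b, hb⟩
  obtain ⟨s, rfl⟩ := mem_lower.mp ha
  obtain ⟨t, rfl⟩ := mem_lower.mp hb
  apply Subtype.ext
  show lo s * lo t = lo t * lo s
  rw [lo_mul, lo_mul, add_comm]

theorem upper_comm : IsMulCommutative (upperUnipotentSL2 k) := by
  refine ⟨⟨?_⟩⟩
  rintro ⟨a, ha⟩ ⟨b, hb⟩
  obtain ⟨s, rfl⟩ := mem_upper.mp ha
  obtain ⟨t, rfl⟩ := mem_upper.mp hb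
  apply Subtype.ext
  show up s * up t = up t * up s
  rw [up_mul, up_mul, add_comm]

open Cfsg.Agent.Helper26 in
theorem pair : IsRankOnePair (lowerUnipotentSL2 k) (upperUnipotentSL2 k) := by
  refine ⟨?_, isNilpotent_of_isMulCommutative lower_comm,
    isNilpotent_of_isMulCommutative upper_comm, ?_, ?_⟩
  · intro h
    have h1 : lo (1 : k) ∈ upperUnipotentSL2 k := by rw [← h]; exact lo_mem 1
    obtain ⟨t, ht⟩ := mem_upper.mp h1
    have := congrArg (fun g : Matrix.SpecialLinearGroup (Fin 2) k => g 1 0) ht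
    simp at this
  · intro a ha ha1
    obtain ⟨t, rfl⟩ := mem_lower.mp ha
    have ht : t ≠ 0 := by
      rintro rfl; exact ha1 lo_zero
    refine ⟨up t⁻¹, up_mem _, up_ne_one (inv_ne_zero ht), conj_eq t t⁻¹ (mul_inv_cancel₀ ht)⟩
  · intro b hb hb1
    obtain ⟨s, rfl⟩ := mem_upper.mp hb
    have hs : s ≠ 0 := by
      rintro rfl; exact hb1 up_zero
    refine ⟨lo s⁻¹, lo_mem _, lo_ne_one (inv_ne_zero hs), (conj_eq s⁻¹ s (inv_mul_cancel₀ hs)).symm⟩

theorem generate (g : Matrix.SpecialLinearGroup (Fin 2) k) :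
    g ∈ lowerUnipotentSL2 k ⊔ upperUnipotentSL2 k := by
  have hL : ∀ t : k, lo t ∈ lowerUnipotentSL2 k ⊔ upperUnipotentSL2 k :=
    fun t => Subgroup.mem_sup_left (lo_mem t)
  have hU : ∀ t : k, up t ∈ lowerUnipotentSL2 k ⊔ upperUnipotentSL2 k :=
    fun t => Subgroup.mem_sup_right (up_mem t)
  -- the case of nonzero lower-left entry
  have main : ∀ g : Matrix.SpecialLinearGroup (Fin 2) k, g 1 0 ≠ 0 →
      g ∈ lowerUnipotentSL2 k ⊔ upperUnipotentSL2 k := by
    intro g hr
    have hdet : g 0 0 * g 1 1 - g 0 1 * g 1 0 = 1 := by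
      have := g.2
      rw [Matrix.det_fin_two] at this
      exact this
    have hg : g = up ((g 0 0 - 1) / g 1 0) * lo (g 1 0) * up ((g 1 1 - 1) / g 1 0) := by
      ext i j
      fin_cases i <;> fin_cases j <;>
        simp [Matrix.mul_apply, Fin.sum_univ_two] <;> field_simp <;>
        (first | ring1 | linear_combination (-1 : k) * hdet)
    rw [hg]
    exact Subgroup.mul_mem _ (Subgroup.mul_mem _ (hU _) (hL _)) (hU _)
  by_cases hr : g 1 0 = 0
  · have hdet : g 0 0 * g 1 1 - g 0 1 * g 1 0 = 1 := by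
      have := g.2
      rw [Matrix.det_fin_two] at this
      exact this
    have hp : g 0 0 ≠ 0 := by
      intro h0
      rw [h0, hr] at hdet
      simp at hdet
    have h1 : lo 1 * g ∈ lowerUnipotentSL2 k ⊔ upperUnipotentSL2 k := by
      apply main
      simp [Matrix.mul_apply, Fin.sum_univ_two, hr, hp]
    have h2 : g = (lo 1)⁻¹ * (lo 1 * g) := by group
    rw [h2]
    exact Subgroup.mul_mem _ (Subgroup.inv_mem _ (hL 1)) h1
  · exact main g hr

open Cfsg.Agent.Helper26 in
/-- For any field k, the special linear group SL₂(k) is a special rank one group with abelian unipotent subgroups, the unipotent subgroups being the group of lower unitriangular matrices and the group of upper unitriangular matrices. -/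
theorem result (k : Type*) [Field k] :
    Cfsg.IsRankOneGroup (Matrix.SpecialLinearGroup (Fin 2) k) (Cfsg.lowerUnipotentSL2 k) (Cfsg.upperUnipotentSL2 k) ∧
    Cfsg.IsSpecialRankOnePair (Cfsg.lowerUnipotentSL2 k) (Cfsg.upperUnipotentSL2 k) ∧
    Cfsg.HasAbelianUnipotents (Cfsg.lowerUnipotentSL2 k) (Cfsg.upperUnipotentSL2 k) := by
  refine ⟨⟨?_, pair⟩, ⟨pair, ?_⟩, ⟨lower_comm, upper_comm⟩⟩
  · rw [eq_top_iff]
    intro g _
    exact generate g
  · intro a ha ha1 b hb hb1 hab
    obtain ⟨t, rfl⟩ := mem_lower.mp ha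
    have ht : t ≠ 0 := by
      rintro rfl; exact ha1 lo_zero
    have hb' : b = up t⁻¹ :=
      rankOne_unique_left pair hb (up_mem _) hab (conj_eq t t⁻¹ (mul_inv_cancel₀ ht))
    rw [hb', up_inv, lo_inv]
    have hk := key t t⁻¹ t (mul_inv_cancel₀ ht)
    have h1 : -(t⁻¹ ^ 2 * t) = -t⁻¹ := by
      field_simp
    rw [h1] at hk
    exact hk

end Cfsg.Agent.S5016
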