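import Mathlib
import Cfsg.Statements.S5058
import Cfsg.Agent.S2579
import Cfsg.Agent.S0249

set_option autoImplicit false
open Matrix
open Cfsg

namespace Cfsg.Agent.S5058

section aux

open Matrix

variable {F : Type*} [Field F] {ι : Type*} [Fintype ι] [DecidableEq ι]

theorem vmv_mulVec (p φ v : ι → F) : vecMulVec p φ *ᵥ v = (φ ⬝ᵥ v) • p := by
  ext i
  show ∑ j, vecMulVec p φ i j * v j = (∑ j, φ j * v j) * p i
  rw [Finset.sum_mul]
  apply Finset.sum_congr rfl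
  intro j _
  rw [vecMulVec_apply]
  ring

theorem mat_ext_mulVec (A B : Matrix ι ι F) (h : ∀ v, A *ᵥ v = B *ᵥ v) : A = B := by
  ext i j
  have h1 := congrFun (h (Pi.single j 1)) i
  rw [Matrix.mulVec_single_one, Matrix.mulVec_single_one] at h1
  exact h1

theorem rank_vmv (p φ : ι → F) (hp : p ≠ 0) (hφ : φ ≠ 0) : (vecMulVec p φ).rank = 1 := by
  apply le_antisymm (Matrix.rank_vecMulVec_le p φ)
  rw [Nat.one_le_iff_ne_zero]
  intro h
  have h' : Module.finrank F (LinearMap.range (vecMulVec p φ).mulVecLin) = 0 := h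
  have h1 : LinearMap.range (vecMulVec p φ).mulVecLin = ⊥ := Submodule.finrank_eq_zero.1 h'
  obtain ⟨j, hj⟩ : ∃ j, φ j ≠ 0 := by
    by_contra hc
    push Not at hc
    exact hφ (funext hc)
  have h2 : (vecMulVec p φ) *ᵥ (Pi.single j 1) ∈ LinearMap.range (vecMulVec p φ).mulVecLin :=
    ⟨_, rfl⟩
  rw [h1, Submodule.mem_bot, vmv_mulVec, dotProduct_single_one] at h2
  rcases smul_eq_zero.1 h2 with h3 | h3
  · exact hj h3
  · exact hp h3

/-- the nilpotent part of the product `(1 + pφᵀ)(1 + rψᵀ)`, as a function -/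
def Nf (p φ r ψ : ι → F) (v : ι → F) : ι → F :=
  ((φ ⬝ᵥ v) + (φ ⬝ᵥ r) * (ψ ⬝ᵥ v)) • p + (ψ ⬝ᵥ v) • r

/-- the function of `AB + BA` -/
def Cf (p φ r ψ : ι → F) (v : ι → F) : ι → F :=
  ((φ ⬝ᵥ r) * (ψ ⬝ᵥ v)) • p + ((ψ ⬝ᵥ p) * (φ ⬝ᵥ v)) • r

theorem ab_mulVec (p φ r ψ v : ι → F) :
    (1 + vecMulVec p φ) *ᵥ ((1 + vecMulVec r ψ) *ᵥ v) = v + Nf p φ r ψ v := by
  simp only [Matrix.add_mulVec, Matrix.one_mulVec, vmv_mulVec, Nf, dotProduct_add,
    dotProduct_smul, smul_eq_mul]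
  module

theorem ba_mulVec (p φ r ψ v : ι → F) :
    (1 + vecMulVec r ψ) *ᵥ ((1 + vecMulVec p φ) *ᵥ v)
      = v + (φ ⬝ᵥ v) • p + ((ψ ⬝ᵥ v) + (ψ ⬝ᵥ p) * (φ ⬝ᵥ v)) • r := by
  simp only [Matrix.add_mulVec, Matrix.one_mulVec, vmv_mulVec, dotProduct_add,
    dotProduct_smul, smul_eq_mul]
  module

theorem step_lemma (p φ r ψ : ι → F) (hφp : φ ⬝ᵥ p = 0) (hψr : ψ ⬝ᵥ r = 0) (α β γ : F)
    (v : ι → F) :
    α • (v + Nf p φ r ψ v) + β • Nf p φ r ψ (v + Nf p φ r ψ v)
        + γ • Cf p φ r ψ (v + Nf p φ r ψ v)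
      = α • v + (α + β + β * ((φ ⬝ᵥ r) * (ψ ⬝ᵥ p)) + γ * ((φ ⬝ᵥ r) * (ψ ⬝ᵥ p))) • Nf p φ r ψ v
        + (β + γ) • Cf p φ r ψ v := by
  simp only [Nf, Cf, dotProduct_add, dotProduct_smul, smul_eq_mul, hφp, hψr]
  module

theorem g2_lemma (p φ r ψ : ι → F) (hφp : φ ⬝ᵥ p = 0) (hψr : ψ ⬝ᵥ r = 0) (v : ι → F) :
    (v + Nf p φ r ψ v) + Nf p φ r ψ (v + Nf p φ r ψ v)
      = v + Cf p φ r ψ v + (2 + (φ ⬝ᵥ r) * (ψ ⬝ᵥ p)) • Nf p φ r ψ v := by
  simp only [Nf, Cf, dotProduct_add, dotProduct_smul, smul_eq_mul, hφp, hψr]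
  module

theorem g3_lemma (p φ r ψ : ι → F) (hφp : φ ⬝ᵥ p = 0) (hψr : ψ ⬝ᵥ r = 0) (v : ι → F) :
    ((v + Nf p φ r ψ v) + Nf p φ r ψ (v + Nf p φ r ψ v))
        + Nf p φ r ψ ((v + Nf p φ r ψ v) + Nf p φ r ψ (v + Nf p φ r ψ v))
      = v + (3 + (φ ⬝ᵥ r) * (ψ ⬝ᵥ p)) • Cf p φ r ψ v
        + (3 + 4 * ((φ ⬝ᵥ r) * (ψ ⬝ᵥ p)) + ((φ ⬝ᵥ r) * (ψ ⬝ᵥ p)) ^ 2) • Nf p φ r ψ v := by
  simp only [Nf, Cf, dotProduct_add, dotProduct_smul, smul_eq_mul, hφp, hψr]
  module

theorem pow_rep (p φ r ψ : ι → F) (hφp : φ ⬝ᵥ p = 0) (hψr : ψ ⬝ᵥ r = 0) (g : Matrix ι ι F)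
    (hg : ∀ v, g *ᵥ v = v + Nf p φ r ψ v) (i : ℕ) :
    ∃ α β γ : F, ∀ v, (g ^ i) *ᵥ v = α • v + β • Nf p φ r ψ v + γ • Cf p φ r ψ v := by
  induction i with
  | zero => exact ⟨1, 0, 0, fun v => by simp⟩
  | succ i ih =>
    obtain ⟨α, β, γ, h⟩ := ih
    refine ⟨α, α + β + β * ((φ ⬝ᵥ r) * (ψ ⬝ᵥ p)) + γ * ((φ ⬝ᵥ r) * (ψ ⬝ᵥ p)), β + γ,
      fun v => ?_⟩
    rw [pow_succ, ← Matrix.mulVec_mulVec, hg, h, step_lemma p φ r ψ hφp hψr]

theorem invol_trivial (h2 : (2 : F) = 0) (p φ r ψ : ι → F) (hφp : φ ⬝ᵥ p = 0)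
    (hψr : ψ ⬝ᵥ r = 0) (hx : φ ⬝ᵥ r ≠ 0) (hy : ψ ⬝ᵥ p ≠ 0)
    (H : Matrix ι ι F) (α β γ : F)
    (hH : ∀ v, H *ᵥ v = α • v + β • Nf p φ r ψ v + γ • Cf p φ r ψ v)
    (hHH : H * H = 1) : H = 1 := by
  have hr : H *ᵥ r = (α + γ * ((φ ⬝ᵥ r) * (ψ ⬝ᵥ p))) • r + (β * (φ ⬝ᵥ r)) • p := by
    rw [hH]
    simp only [Nf, Cf, hψr]
    module
  have hp' : H *ᵥ p = (α + β * ((φ ⬝ᵥ r) * (ψ ⬝ᵥ p)) + γ * ((φ ⬝ᵥ r) * (ψ ⬝ᵥ p))) • p
      + (β * (ψ ⬝ᵥ p)) • r := by
    rw [hH]
    simp only [Nf, Cf, hφp, hψr]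
    module
  have E : H *ᵥ (H *ᵥ r) = r := by rw [Matrix.mulVec_mulVec, hHH, Matrix.one_mulVec]
  rw [hr, Matrix.mulVec_add, Matrix.mulVec_smul, Matrix.mulVec_smul, hr, hp'] at E
  have E1 := congrArg (fun z => φ ⬝ᵥ z) E
  have E2 := congrArg (fun z => ψ ⬝ᵥ z) E
  simp only [dotProduct_add, dotProduct_smul, smul_eq_mul, hφp, hψr] at E1 E2
  have hβ : β = 0 := by
    have h3 : (β * ((φ ⬝ᵥ r) * (ψ ⬝ᵥ p))) ^ 2 = 0 := by
      linear_combination E2 - (β * ((φ ⬝ᵥ r) * (ψ ⬝ᵥ p))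
        * (α + γ * ((φ ⬝ᵥ r) * (ψ ⬝ᵥ p)))) * h2
    have h4 := (pow_eq_zero_iff two_ne_zero).1 h3
    rcases mul_eq_zero.1 h4 with h | h
    · exact h
    · exact absurd h (mul_ne_zero hx hy)
  subst hβ
  have hαγ : α + γ * ((φ ⬝ᵥ r) * (ψ ⬝ᵥ p)) = 1 := by
    have h3 : (α + γ * ((φ ⬝ᵥ r) * (ψ ⬝ᵥ p))) ^ 2 = 1 := by
      have h4 : ((α + γ * ((φ ⬝ᵥ r) * (ψ ⬝ᵥ p))) ^ 2 - 1) * (φ ⬝ᵥ r) = 0 := by
        linear_combination E1
      rcases mul_eq_zero.1 h4 with h | h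
      · linear_combination h
      · exact absurd h hx
    have h5 : (α + γ * ((φ ⬝ᵥ r) * (ψ ⬝ᵥ p)) - 1) ^ 2 = 0 := by
      linear_combination h3 - (α + γ * ((φ ⬝ᵥ r) * (ψ ⬝ᵥ p)) - 1) * h2
    have h6 := (pow_eq_zero_iff two_ne_zero).1 h5
    linear_combination h6
  apply mat_ext_mulVec
  intro v
  rw [Matrix.one_mulVec]
  have hv : ∀ v, H *ᵥ v = α • v + γ • Cf p φ r ψ v := by
    intro v
    rw [hH, zero_smul, add_zero]
  have E3 : H *ᵥ (H *ᵥ v) = v := by rw [Matrix.mulVec_mulVec, hHH, Matrix.one_mulVec]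
  have hC : H *ᵥ (Cf p φ r ψ v) = Cf p φ r ψ v := by
    have hCC : Cf p φ r ψ (Cf p φ r ψ v) = ((φ ⬝ᵥ r) * (ψ ⬝ᵥ p)) • Cf p φ r ψ v := by
      simp only [Cf, dotProduct_add, dotProduct_smul, smul_eq_mul, hφp, hψr]
      module
    rw [hv, hCC, smul_smul, ← add_smul, hαγ, one_smul]
  rw [hv v, Matrix.mulVec_add, Matrix.mulVec_smul, Matrix.mulVec_smul, hv v, hC] at E3
  have E4 : (α + 1) • ((α - 1) • v + γ • Cf p φ r ψ v) = 0 := by
    linear_combination (norm := module) E3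
  rcases smul_eq_zero.1 E4 with h | h
  · have hα : α = 1 := by linear_combination h - h2
    have hγ : γ = 0 := by
      have h7 : γ * ((φ ⬝ᵥ r) * (ψ ⬝ᵥ p)) = 0 := by linear_combination hαγ - hα
      rcases mul_eq_zero.1 h7 with h' | h'
      · exact h'
      · exact absurd h' (mul_ne_zero hx hy)
    rw [hv, hα, hγ, one_smul, zero_smul, add_zero]
  · rw [hv]
    linear_combination (norm := module) h

theorem odd_order_of {G : Type*} [Group G] [Finite G] (g : G)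
    (P : ∀ j : ℕ, g ^ j * g ^ j = 1 → g ^ j = 1) : Odd (orderOf g) := by
  by_contra hodd
  rw [Nat.not_odd_iff_even] at hodd
  obtain ⟨j, hj⟩ := hodd
  have hpos : 0 < orderOf g := orderOf_pos g
  have h1 : g ^ j * g ^ j = 1 := by rw [← pow_add, ← hj, pow_orderOf_eq_one]
  have h2 := orderOf_dvd_of_pow_eq_one (P j h1)
  have h3 := Nat.le_of_dvd (by omega) h2
  omega

/-- the set of the statement -/
def Dset (F : Type*) [Field F] (n : ℕ) : Set (Matrix.SpecialLinearGroup (Fin (n + 3)) F) :=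
  {t | ∃ c : F, c ≠ 0 ∧ ∃ g : Matrix.SpecialLinearGroup (Fin (n + 3)) F,
    ((g⁻¹ * t * g : Matrix.SpecialLinearGroup (Fin (n + 3)) F) :
      Matrix (Fin (n + 3)) (Fin (n + 3)) F) = Matrix.transvection 0 1 c}

theorem single_eq_vmv {κ : Type*} [DecidableEq κ] (i j : κ) (c : F) :
    Matrix.single i j c = vecMulVec (Pi.single i c) (Pi.single j 1) := by
  ext a b
  rw [vecMulVec_apply, Matrix.single_apply, Pi.single_apply, Pi.single_apply]
  by_cases ha : i = a <;> by_cases hb : j = b <;> simp [ha, hb, eq_comm]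

theorem isTv_of_form {n : ℕ} (t : Matrix (Fin n) (Fin n) F) (p φ : Fin n → F) (hp : p ≠ 0)
    (hφ : φ ≠ 0) (hφp : φ ⬝ᵥ p = 0) (ht : t = 1 + vecMulVec p φ) : Cfsg.IsTransvection t := by
  constructor
  · rw [ht, add_sub_cancel_left]
    exact rank_vmv p φ hp hφ
  · rw [ht, add_sub_cancel_left, vecMulVec_mul_vecMulVec, hφp, zero_smul, vecMulVec_zero]

theorem D_form {n : ℕ} (t : Matrix.SpecialLinearGroup (Fin (n + 3)) F) (ht : t ∈ Dset F n) :
    ∃ p φ : Fin (n + 3) → F, p ≠ 0 ∧ φ ≠ 0 ∧ φ ⬝ᵥ p = 0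
      ∧ (t : Matrix (Fin (n + 3)) (Fin (n + 3)) F) = 1 + vecMulVec p φ := by
  obtain ⟨c, hc, g, hg⟩ := ht
  have hGGi : (g : Matrix (Fin (n + 3)) (Fin (n + 3)) F)
      * ((g⁻¹ : Matrix.SpecialLinearGroup (Fin (n + 3)) F) : Matrix (Fin (n + 3)) (Fin (n + 3)) F)
      = 1 := by
    rw [← Matrix.SpecialLinearGroup.coe_mul, mul_inv_cancel]
    rfl
  have hGiG : ((g⁻¹ : Matrix.SpecialLinearGroup (Fin (n + 3)) F) :
        Matrix (Fin (n + 3)) (Fin (n + 3)) F)
      * (g : Matrix (Fin (n + 3)) (Fin (n + 3)) F) = 1 := by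
    rw [← Matrix.SpecialLinearGroup.coe_mul, inv_mul_cancel]
    rfl
  have e : t = g * (g⁻¹ * t * g) * g⁻¹ := by group
  have e1 : (t : Matrix (Fin (n + 3)) (Fin (n + 3)) F)
      = (g : Matrix (Fin (n + 3)) (Fin (n + 3)) F) * Matrix.transvection 0 1 c
        * ((g⁻¹ : Matrix.SpecialLinearGroup (Fin (n + 3)) F) :
          Matrix (Fin (n + 3)) (Fin (n + 3)) F) := by
    rw [← hg, ← Matrix.SpecialLinearGroup.coe_mul, ← Matrix.SpecialLinearGroup.coe_mul, ← e]
  refine ⟨(g : Matrix (Fin (n + 3)) (Fin (n + 3)) F) *ᵥ Pi.single 0 c,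
    Pi.single 1 1 ᵥ* ((g⁻¹ : Matrix.SpecialLinearGroup (Fin (n + 3)) F) :
      Matrix (Fin (n + 3)) (Fin (n + 3)) F), ?_, ?_, ?_, ?_⟩
  · intro h0
    have h1 := congrArg (fun z => ((g⁻¹ : Matrix.SpecialLinearGroup (Fin (n + 3)) F) :
      Matrix (Fin (n + 3)) (Fin (n + 3)) F) *ᵥ z) h0
    simp only [Matrix.mulVec_mulVec, hGiG, Matrix.one_mulVec, Matrix.mulVec_zero] at h1
    have h2 := congrFun h1 0
    simp at h2
    exact hc h2
  · intro h0
    have h1 := congrArg (fun z => z ᵥ* (g : Matrix (Fin (n + 3)) (Fin (n + 3)) F)) h0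
    simp only [Matrix.vecMul_vecMul, hGiG, Matrix.vecMul_one, Matrix.zero_vecMul] at h1
    have h2 := congrFun h1 1
    simp at h2
  · rw [← Matrix.dotProduct_mulVec, Matrix.mulVec_mulVec, hGiG, Matrix.one_mulVec]
    simp
  · rw [e1, Matrix.transvection, mul_add, add_mul, mul_one, hGGi, single_eq_vmv,
      Matrix.mul_vecMulVec, Matrix.vecMulVec_mul]

theorem D_of_form [Finite F] {n : ℕ} (t : Matrix.SpecialLinearGroup (Fin (n + 3)) F)
    (p φ : Fin (n + 3) → F) (hp : p ≠ 0) (hφ : φ ≠ 0) (hφp : φ ⬝ᵥ p = 0)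
    (ht : (t : Matrix (Fin (n + 3)) (Fin (n + 3)) F) = 1 + vecMulVec p φ) : t ∈ Dset F n := by
  have h01 : (0 : Fin (n + 3)) ≠ 1 := by
    intro h
    have := congrArg Fin.val h
    simp at this
  have ht0 : Cfsg.IsTransvection
      ((Matrix.SpecialLinearGroup.transvection h01 (1 : F) :
        Matrix.SpecialLinearGroup (Fin (n + 3)) F) : Matrix (Fin (n + 3)) (Fin (n + 3)) F) := by
    apply isTv_of_form _ (Pi.single 0 1) (Pi.single 1 1)
    · intro h
      have := congrFun h 0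
      simp at this
    · intro h
      have := congrFun h 1
      simp at this
    · simp [h01]
    · rw [Matrix.SpecialLinearGroup.transvection_coe, single_eq_vmv]
  have hconj := Cfsg.Agent.S2579.result (n := n + 3) (by omega) t
    (Matrix.SpecialLinearGroup.transvection h01 (1 : F)) (isTv_of_form _ p φ hp hφ hφp ht) ht0
  obtain ⟨c, hc⟩ := isConj_iff.1 hconj
  refine ⟨1, one_ne_zero, c⁻¹, ?_⟩
  rw [inv_inv, hc]
  rfl

theorem order_two (h2 : (2 : F) = 0) {n : ℕ} (t : Matrix.SpecialLinearGroup (Fin n) F)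
    (p φ : Fin n → F) (hp : p ≠ 0) (hφ : φ ≠ 0) (hφp : φ ⬝ᵥ p = 0)
    (ht : (t : Matrix (Fin n) (Fin n) F) = 1 + vecMulVec p φ) : orderOf t = 2 := by
  haveI : Fact (Nat.Prime 2) := ⟨Nat.prime_two⟩
  apply orderOf_eq_prime
  · apply Subtype.ext
    apply mat_ext_mulVec
    intro v
    rw [pow_two, Matrix.SpecialLinearGroup.coe_mul, ← Matrix.mulVec_mulVec, ht]
    simp only [Matrix.add_mulVec, Matrix.one_mulVec, vmv_mulVec, dotProduct_add,
      dotProduct_smul, smul_eq_mul, hφp, Matrix.SpecialLinearGroup.coe_one]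
    have h3 : (2 : F) • ((φ ⬝ᵥ v) • p) = 0 := by rw [h2, zero_smul]
    linear_combination (norm := module) h3
  · intro h1
    have h3 : vecMulVec p φ = 0 := by
      have h4 : (t : Matrix (Fin n) (Fin n) F) = 1 := by rw [h1]; rfl
      rw [ht] at h4
      simpa using h4
    rcases vecMulVec_eq_zero.1 h3 with h | h
    · exact hp h
    · exact hφ h

theorem order4 [Finite F] (h2 : (2 : F) = 0) {n : ℕ}
    (g : Matrix.SpecialLinearGroup (Fin (n + 3)) F)
    (p φ : Fin (n + 3) → F) (hp : p ≠ 0) (hφ : φ ≠ 0) (hφp : φ ⬝ᵥ p = 0)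
    (hg : ((g ^ 2 : Matrix.SpecialLinearGroup (Fin (n + 3)) F) :
      Matrix (Fin (n + 3)) (Fin (n + 3)) F) = 1 + vecMulVec p φ) :
    orderOf g = 4 ∧ g ^ 2 ∈ Dset F n := by
  haveI : Fact (Nat.Prime 2) := ⟨Nat.prime_two⟩
  have ho := order_two h2 (g ^ 2) p φ hp hφ hφp hg
  refine ⟨?_, D_of_form _ p φ hp hφ hφp hg⟩
  have h4 : orderOf g = 2 ^ (1 + 1) := by
    apply orderOf_eq_prime_pow
    · intro h
      rw [pow_one] at h
      rw [h, orderOf_one] at ho
      omega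
    · have := pow_orderOf_eq_one (g ^ 2)
      rw [ho, ← pow_mul] at this
      exact this
  rw [h4]
  norm_num

theorem pair_analysis [Fintype F] (h2 : (2 : F) = 0) {n : ℕ}
    (a b : Matrix.SpecialLinearGroup (Fin (n + 3)) F)
    (ha : a ∈ Dset F n) (hb : b ∈ Dset F n) :
    a * b = b * a ∨ (orderOf (a * b) = 4 ∧ (a * b) ^ 2 ∈ Dset F n)
      ∨ (Odd (orderOf (a * b)) ∧ (Fintype.card F = 2 → (a * b) ^ 3 = 1)) := by
  classical
  obtain ⟨p, φ, hp, hφ, hφp, hA⟩ := D_form a ha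
  obtain ⟨r, ψ, hr, hψ, hψr, hB⟩ := D_form b hb
  have hg : ∀ v, ((a * b : Matrix.SpecialLinearGroup (Fin (n + 3)) F) :
      Matrix (Fin (n + 3)) (Fin (n + 3)) F) *ᵥ v = v + Nf p φ r ψ v := by
    intro v
    rw [Matrix.SpecialLinearGroup.coe_mul, ← Matrix.mulVec_mulVec, hA, hB, ab_mulVec]
  have hg2 : ∀ v, (((a * b) ^ 2 : Matrix.SpecialLinearGroup (Fin (n + 3)) F) :
      Matrix (Fin (n + 3)) (Fin (n + 3)) F) *ᵥ v
      = v + Cf p φ r ψ v + (2 + (φ ⬝ᵥ r) * (ψ ⬝ᵥ p)) • Nf p φ r ψ v := by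
    intro v
    rw [pow_two, Matrix.SpecialLinearGroup.coe_mul, ← Matrix.mulVec_mulVec, hg, hg,
      g2_lemma p φ r ψ hφp hψr]
  by_cases hx : φ ⬝ᵥ r = 0
  · by_cases hy : ψ ⬝ᵥ p = 0
    · left
      apply Subtype.ext
      apply mat_ext_mulVec
      intro v
      rw [Matrix.SpecialLinearGroup.coe_mul, Matrix.SpecialLinearGroup.coe_mul,
        ← Matrix.mulVec_mulVec, ← Matrix.mulVec_mulVec, hA, hB, ab_mulVec, ba_mulVec]
      simp only [Nf, hx, hy]
      module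
    · right; left
      apply order4 h2 (a * b) ((ψ ⬝ᵥ p) • r) φ (smul_ne_zero hy hr) hφ
        (by rw [dotProduct_smul, hx, smul_zero])
      apply mat_ext_mulVec
      intro v
      rw [hg2, hx, zero_mul, add_zero, h2, zero_smul, add_zero, Matrix.add_mulVec,
        Matrix.one_mulVec, vmv_mulVec]
      simp only [Cf, hx]
      module
  · by_cases hy : ψ ⬝ᵥ p = 0
    · right; left
      apply order4 h2 (a * b) ((φ ⬝ᵥ r) • p) ψ (smul_ne_zero hx hp) hψ
        (by rw [dotProduct_smul, hy, smul_zero])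
      apply mat_ext_mulVec
      intro v
      rw [hg2, hy, mul_zero, add_zero, h2, zero_smul, add_zero, Matrix.add_mulVec,
        Matrix.one_mulVec, vmv_mulVec]
      simp only [Cf, hy]
      module
    · right; right
      constructor
      · apply odd_order_of
        intro j hj
        obtain ⟨α, β, γ, hrep⟩ := pow_rep p φ r ψ hφp hψr _ hg j
        apply Subtype.ext
        rw [Matrix.SpecialLinearGroup.coe_pow, Matrix.SpecialLinearGroup.coe_one]
        apply invol_trivial h2 p φ r ψ hφp hψr hx hy _ α β γ hrep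
        have := congrArg (fun z : Matrix.SpecialLinearGroup (Fin (n + 3)) F =>
          (z : Matrix (Fin (n + 3)) (Fin (n + 3)) F)) hj
        simpa [Matrix.SpecialLinearGroup.coe_mul, Matrix.SpecialLinearGroup.coe_pow] using this
      · intro hcard
        have h01 : ∀ z : F, z = 0 ∨ z = 1 := by
          intro z
          by_contra hcon
          push Not at hcon
          have h3 : ({0, 1, z} : Finset F).card = 3 := by
            rw [Finset.card_insert_of_notMem, Finset.card_insert_of_notMem,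
              Finset.card_singleton]
            · simp [hcon.2.symm]
            · simp [hcon.1.symm]
          have h4 := Finset.card_le_univ ({0, 1, z} : Finset F)
          omega
        have hx1 : φ ⬝ᵥ r = 1 := (h01 _).resolve_left hx
        have hy1 : ψ ⬝ᵥ p = 1 := (h01 _).resolve_left hy
        apply Subtype.ext
        apply mat_ext_mulVec
        intro v
        rw [pow_succ, Matrix.SpecialLinearGroup.coe_mul, ← Matrix.mulVec_mulVec, hg, pow_two,
          Matrix.SpecialLinearGroup.coe_mul, ← Matrix.mulVec_mulVec, hg, hg,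
          g3_lemma p φ r ψ hφp hψr, hx1, hy1, Matrix.SpecialLinearGroup.coe_one,
          Matrix.one_mulVec]
        have c1 : (3 + (1 : F) * 1) = 0 := by linear_combination 2 * h2
        have c2 : (3 + 4 * ((1 : F) * 1) + ((1 : F) * 1) ^ 2) = 0 := by
          linear_combination 4 * h2
        rw [c1, c2, zero_smul, zero_smul, add_zero, add_zero]

theorem D_rootSet [Fintype F] (h2 : (2 : F) = 0) (n : ℕ) :
    Cfsg.IsRootInvolutionSet (Dset F n) where
  orderOf_eq := by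
    intro d hd
    obtain ⟨p, φ, hp, hφ, hφp, hA⟩ := D_form d hd
    exact order_two h2 d p φ hp hφ hφp hA
  generates := by
    classical
    rw [eq_top_iff]
    intro A _
    apply Cfsg.Agent.S0249.transvection_induction
      (P := fun A => A ∈ Subgroup.closure (Dset F n))
    · intro i j hij c
      by_cases hc : c = 0
      · rw [hc, Matrix.SpecialLinearGroup.transvection_coeff_zero]
        exact Subgroup.one_mem _
      · apply Subgroup.subset_closure
        apply D_of_form _ (Pi.single i c) (Pi.single j 1)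
        · intro h
          have := congrFun h i
          simp at this
          exact hc this
        · intro h
          have := congrFun h j
          simp at this
        · simp [hij.symm]
        · rw [Matrix.SpecialLinearGroup.transvection_coe, single_eq_vmv]
    · intro A B hA hB
      exact Subgroup.mul_mem _ hA hB
  conj_mem := by
    rintro d ⟨c, hc, h, hh⟩ g
    refine ⟨c, hc, g * h, ?_⟩
    rw [show (g * h)⁻¹ * (g * d * g⁻¹) * (g * h) = h⁻¹ * d * h by group]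
    exact hh
  pair := by
    intro a ha b hb
    rcases pair_analysis h2 a b ha hb with h | h | h
    · exact Or.inl h
    · exact Or.inr (Or.inr h)
    · exact Or.inr (Or.inl h.1)

end aux

/-- Let F be a finite field of characteristic 2 and n a natural number. Then the transvections of SL_{n+3}(F) (so in every dimension at least 3) (the conjugates of the elementary matrices 1 + c E₁₂, c ≠ 0) form a class of root involutions of SL_{n+3}(F); when F has two elements they form a class of {3,4}⁺-transpositions (every product of odd order has order 1 or 3). -/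
theorem result (F : Type*) [Field F] [Fintype F] [CharP F 2] (n : ℕ) :
    Cfsg.IsRootInvolutionClass {t : Matrix.SpecialLinearGroup (Fin (n + 3)) F | ∃ c : F, c ≠ 0 ∧
        ∃ g : Matrix.SpecialLinearGroup (Fin (n + 3)) F, ((g⁻¹ * t * g : Matrix.SpecialLinearGroup (Fin (n + 3)) F) :
          Matrix (Fin (n + 3)) (Fin (n + 3)) F) = Matrix.transvection 0 1 c} ∧
    (Fintype.card F = 2 → Cfsg.IsThreeFourPlusTranspositionSet {t : Matrix.SpecialLinearGroup (Fin (n + 3)) F | ∃ c : F, c ≠ 0 ∧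
        ∃ g : Matrix.SpecialLinearGroup (Fin (n + 3)) F, ((g⁻¹ * t * g : Matrix.SpecialLinearGroup (Fin (n + 3)) F) :
          Matrix (Fin (n + 3)) (Fin (n + 3)) F) = Matrix.transvection 0 1 c}) := by
  have h2 : (2 : F) = 0 := CharTwo.two_eq_zero
  show Cfsg.IsRootInvolutionClass (Dset F n)
    ∧ (Fintype.card F = 2 → Cfsg.IsThreeFourPlusTranspositionSet (Dset F n))
  have hset := D_rootSet h2 n
  have h01 : (0 : Fin (n + 3)) ≠ 1 := by
    intro h
    have := congrArg Fin.val h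
    simp at this
  refine ⟨⟨hset, ⟨Matrix.SpecialLinearGroup.transvection h01 (1 : F), 1, one_ne_zero, 1, ?_⟩, ?_⟩,
    ?_⟩
  · rw [inv_one, one_mul, mul_one]
    rfl
  · intro a ha b hb
    obtain ⟨p, φ, hp, hφ, hφp, hA⟩ := D_form a ha
    obtain ⟨r, ψ, hr, hψ, hψr, hB⟩ := D_form b hb
    have hconj := Cfsg.Agent.S2579.result (n := n + 3) (by omega) a b
      (isTv_of_form _ p φ hp hφ hφp hA) (isTv_of_form _ r ψ hr hψ hψr hB)
    obtain ⟨c, hc⟩ := isConj_iff.1 hconj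
    exact ⟨c, hc.symm⟩
  · intro hcard
    refine ⟨hset, ?_⟩
    intro a ha b hb hodd
    rcases pair_analysis h2 a b ha hb with h | h | h
    · left
      have ha2 : a ^ 2 = 1 := by
        have := pow_orderOf_eq_one a
        rwa [hset.orderOf_eq a ha] at this
      have hb2 : b ^ 2 = 1 := by
        have := pow_orderOf_eq_one b
        rwa [hset.orderOf_eq b hb] at this
      have h3 : (a * b) ^ 2 = 1 := by
        rw [(show Commute a b from h).mul_pow, ha2, hb2, one_mul]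
      have h4 := orderOf_dvd_of_pow_eq_one h3
      rcases (Nat.dvd_prime Nat.prime_two).1 h4 with h5 | h5
      · exact h5
      · rw [h5] at hodd
        exact absurd hodd (by decide)
    · rw [h.1] at hodd
      exact absurd hodd (by decide)
    · have h4 := orderOf_dvd_of_pow_eq_one (h.2 hcard)
      exact (Nat.dvd_prime Nat.prime_three).1 h4

end Cfsg.Agent.S5058
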