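import Mathlib
import Cfsg.Statements.S5043
import Cfsg.Agent.S5058
import Cfsg.Agent.S2579
import Cfsg.Agent.S0249
import Cfsg.Agent.S5016
import Cfsg.Agent.Helper26.RankOne

set_option autoImplicit false
open Matrix
open Cfsg

namespace Cfsg.Agent.S5043

section aux

open Matrix Cfsg.Agent.Helper26 Cfsg.Agent.S5058

variable {k : Type*} [Field k] {ι : Type*} [Fintype ι] [DecidableEq ι]

theorem det_tv (p φ : ι → k) (h : φ ⬝ᵥ p = 0) (c : k) : (1 + c • vecMulVec p φ).det = 1 := by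
  rw [← Matrix.smul_vecMulVec, Matrix.vecMulVec_eq (Fin 1),
    Matrix.det_one_add_replicateCol_mul_replicateRow, dotProduct_smul, h, smul_zero, add_zero]

/-- the transvection `1 + c p φᵀ` as an element of `SL` (junk value `1` if `φ ⬝ᵥ p ≠ 0`) -/
noncomputable def tv (p φ : ι → k) (c : k) : Matrix.SpecialLinearGroup ι k := by
  classical
  exact if h : φ ⬝ᵥ p = 0 then ⟨1 + c • vecMulVec p φ, det_tv p φ h c⟩ else 1

theorem tv_coe (p φ : ι → k) (h : φ ⬝ᵥ p = 0) (c : k) :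
    ((tv p φ c : Matrix.SpecialLinearGroup ι k) : Matrix ι ι k) = 1 + c • vecMulVec p φ := by
  unfold tv
  simp only [h, ↓reduceDIte]

theorem tv_mulVec (p φ : ι → k) (h : φ ⬝ᵥ p = 0) (c : k) (v : ι → k) :
    ((tv p φ c : Matrix.SpecialLinearGroup ι k) : Matrix ι ι k) *ᵥ v
      = v + (c * (φ ⬝ᵥ v)) • p := by
  rw [tv_coe p φ h, Matrix.add_mulVec, Matrix.one_mulVec, Matrix.smul_mulVec, vmv_mulVec,
    smul_smul]

theorem tv_vecMul (p φ : ι → k) (h : φ ⬝ᵥ p = 0) (c : k) (w : ι → k) :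
    w ᵥ* ((tv p φ c : Matrix.SpecialLinearGroup ι k) : Matrix ι ι k)
      = w + (c * (w ⬝ᵥ p)) • φ := by
  rw [tv_coe p φ h, Matrix.vecMul_add, Matrix.vecMul_one, Matrix.vecMul_smul,
    Matrix.vecMul_vecMulVec, smul_smul]

theorem sl_ext (A B : Matrix.SpecialLinearGroup ι k)
    (h : ∀ v : ι → k, (A : Matrix ι ι k) *ᵥ v = (B : Matrix ι ι k) *ᵥ v) : A = B :=
  Subtype.ext (mat_ext_mulVec _ _ h)

theorem sl_inv_mulVec (g : Matrix.SpecialLinearGroup ι k) (v : ι → k) :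
    ((g⁻¹ : Matrix.SpecialLinearGroup ι k) : Matrix ι ι k) *ᵥ ((g : Matrix ι ι k) *ᵥ v) = v := by
  rw [Matrix.mulVec_mulVec, ← Matrix.SpecialLinearGroup.coe_mul, inv_mul_cancel,
    Matrix.SpecialLinearGroup.coe_one, Matrix.one_mulVec]

theorem sl_mulVec_inv (g : Matrix.SpecialLinearGroup ι k) (v : ι → k) :
    (g : Matrix ι ι k) *ᵥ (((g⁻¹ : Matrix.SpecialLinearGroup ι k) : Matrix ι ι k) *ᵥ v) = v := by
  rw [Matrix.mulVec_mulVec, ← Matrix.SpecialLinearGroup.coe_mul, mul_inv_cancel,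
    Matrix.SpecialLinearGroup.coe_one, Matrix.one_mulVec]

theorem tv_mul (p φ : ι → k) (h : φ ⬝ᵥ p = 0) (c d : k) :
    tv p φ c * tv p φ d = tv p φ (c + d) := by
  apply sl_ext
  intro v
  rw [Matrix.SpecialLinearGroup.coe_mul, ← Matrix.mulVec_mulVec, tv_mulVec p φ h,
    tv_mulVec p φ h, tv_mulVec p φ h]
  simp only [dotProduct_add, dotProduct_smul, smul_eq_mul, h]
  module

theorem tv_zero (p φ : ι → k) (h : φ ⬝ᵥ p = 0) : tv p φ 0 = 1 := by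
  apply sl_ext
  intro v
  rw [tv_mulVec p φ h, zero_mul, zero_smul, add_zero, Matrix.SpecialLinearGroup.coe_one,
    Matrix.one_mulVec]

theorem tv_inv (p φ : ι → k) (h : φ ⬝ᵥ p = 0) (c : k) : (tv p φ c)⁻¹ = tv p φ (-c) := by
  apply inv_eq_of_mul_eq_one_right
  rw [tv_mul p φ h, add_neg_cancel, tv_zero p φ h]

theorem conj_valid (p φ : ι → k) (h : φ ⬝ᵥ p = 0) (g : Matrix.SpecialLinearGroup ι k) :
    (φ ᵥ* ((g⁻¹ : Matrix.SpecialLinearGroup ι k) : Matrix ι ι k))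
      ⬝ᵥ ((g : Matrix ι ι k) *ᵥ p) = 0 := by
  rw [← Matrix.dotProduct_mulVec, sl_inv_mulVec, h]

theorem tv_conj (p φ : ι → k) (h : φ ⬝ᵥ p = 0) (g : Matrix.SpecialLinearGroup ι k) (c : k) :
    g * tv p φ c * g⁻¹ = tv ((g : Matrix ι ι k) *ᵥ p)
      (φ ᵥ* ((g⁻¹ : Matrix.SpecialLinearGroup ι k) : Matrix ι ι k)) c := by
  apply sl_ext
  intro v
  rw [Matrix.SpecialLinearGroup.coe_mul, Matrix.SpecialLinearGroup.coe_mul,
    ← Matrix.mulVec_mulVec, ← Matrix.mulVec_mulVec, tv_mulVec p φ h,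
    tv_mulVec _ _ (conj_valid p φ h g), Matrix.mulVec_add, Matrix.mulVec_smul, sl_mulVec_inv,
    ← Matrix.dotProduct_mulVec]

theorem tv_smul_left (p φ : ι → k) (h : φ ⬝ᵥ p = 0) (a c : k) :
    tv (a • p) φ c = tv p φ (a * c) := by
  apply sl_ext
  intro v
  rw [tv_mulVec _ _ (by rw [dotProduct_smul, h, smul_zero]), tv_mulVec p φ h, smul_smul]
  congr 2
  ring

theorem tv_smul_right (p φ : ι → k) (h : φ ⬝ᵥ p = 0) (a c : k) :
    tv p (a • φ) c = tv p φ (a * c) := by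
  apply sl_ext
  intro v
  rw [tv_mulVec _ _ (by rw [smul_dotProduct, h, smul_zero]), tv_mulVec p φ h, smul_dotProduct,
    smul_eq_mul]
  congr 2
  ring

theorem exists_dot_ne (φ : ι → k) (hφ : φ ≠ 0) : ∃ v : ι → k, φ ⬝ᵥ v ≠ 0 := by
  obtain ⟨j, hj⟩ : ∃ j, φ j ≠ 0 := by
    by_contra hc
    push Not at hc
    exact hφ (funext hc)
  exact ⟨Pi.single j 1, by rw [dotProduct_single_one]; exact hj⟩

theorem exists_dot_ne' (p : ι → k) (hp : p ≠ 0) : ∃ η : ι → k, η ⬝ᵥ p ≠ 0 := by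
  obtain ⟨v, hv⟩ := exists_dot_ne p hp
  exact ⟨v, by rw [dotProduct_comm]; exact hv⟩

theorem tv_ne_one (p φ : ι → k) (hp : p ≠ 0) (hφ : φ ≠ 0) (h : φ ⬝ᵥ p = 0) (c : k)
    (hc : c ≠ 0) : tv p φ c ≠ 1 := by
  intro h1
  obtain ⟨v, hv⟩ := exists_dot_ne φ hφ
  have h2 := tv_mulVec p φ h c v
  rw [h1, Matrix.SpecialLinearGroup.coe_one, Matrix.one_mulVec] at h2
  have h3 : (c * (φ ⬝ᵥ v)) • p = 0 := by simpa using h2.symm
  rcases smul_eq_zero.1 h3 with h4 | h4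
  · rcases mul_eq_zero.1 h4 with h5 | h5
    · exact hc h5
    · exact hv h5
  · exact hp h4

/-- the root group of `(p, φ)` -/
def Tg (p φ : ι → k) : Subgroup (Matrix.SpecialLinearGroup ι k) :=
  Subgroup.closure (Set.range (tv p φ))

theorem mem_Tg (p φ : ι → k) (h : φ ⬝ᵥ p = 0) (t : Matrix.SpecialLinearGroup ι k) :
    t ∈ Tg p φ ↔ ∃ c : k, t = tv p φ c := by
  constructor
  · intro ht
    refine Subgroup.closure_induction (p := fun t _ => ∃ c : k, t = tv p φ c) ?_ ?_ ?_ ?_ ht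
    · rintro _ ⟨c, rfl⟩
      exact ⟨c, rfl⟩
    · exact ⟨0, (tv_zero p φ h).symm⟩
    · rintro _ _ _ _ ⟨c, rfl⟩ ⟨d, rfl⟩
      exact ⟨c + d, tv_mul p φ h c d⟩
    · rintro _ _ ⟨c, rfl⟩
      exact ⟨-c, tv_inv p φ h c⟩
  · rintro ⟨c, rfl⟩
    exact Subgroup.subset_closure ⟨c, rfl⟩

theorem tv_mem_Tg (p φ : ι → k) (c : k) : tv p φ c ∈ Tg p φ :=
  Subgroup.subset_closure ⟨c, rfl⟩

theorem Tg_comm (p φ : ι → k) (h : φ ⬝ᵥ p = 0) : IsMulCommutative (Tg p φ) :=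
  ⟨⟨by
    rintro ⟨a, ha⟩ ⟨b, hb⟩
    obtain ⟨c, rfl⟩ := (mem_Tg p φ h a).1 ha
    obtain ⟨d, rfl⟩ := (mem_Tg p φ h b).1 hb
    apply Subtype.ext
    show tv p φ c * tv p φ d = tv p φ d * tv p φ c
    rw [tv_mul p φ h, tv_mul p φ h, add_comm]⟩⟩

theorem Tg_smul_left (p φ : ι → k) (h : φ ⬝ᵥ p = 0) (a : k) (ha : a ≠ 0) :
    Tg (a • p) φ = Tg p φ := by
  have h' : φ ⬝ᵥ (a • p) = 0 := by rw [dotProduct_smul, h, smul_zero]
  ext t
  rw [mem_Tg _ _ h', mem_Tg _ _ h]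
  constructor
  · rintro ⟨c, rfl⟩
    exact ⟨a * c, tv_smul_left p φ h a c⟩
  · rintro ⟨c, rfl⟩
    refine ⟨a⁻¹ * c, ?_⟩
    rw [tv_smul_left p φ h, ← mul_assoc, mul_inv_cancel₀ ha, one_mul]

theorem Tg_smul_right (p φ : ι → k) (h : φ ⬝ᵥ p = 0) (a : k) (ha : a ≠ 0) :
    Tg p (a • φ) = Tg p φ := by
  have h' : (a • φ) ⬝ᵥ p = 0 := by rw [smul_dotProduct, h, smul_zero]
  ext t
  rw [mem_Tg _ _ h', mem_Tg _ _ h]
  constructor
  · rintro ⟨c, rfl⟩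
    exact ⟨a * c, tv_smul_right p φ h a c⟩
  · rintro ⟨c, rfl⟩
    refine ⟨a⁻¹ * c, ?_⟩
    rw [tv_smul_right p φ h, ← mul_assoc, mul_inv_cancel₀ ha, one_mul]

theorem conjBy_Tg (p φ : ι → k) (h : φ ⬝ᵥ p = 0) (g : Matrix.SpecialLinearGroup ι k) :
    Cfsg.conjBy (Tg p φ) g = Tg ((g : Matrix ι ι k) *ᵥ p)
      (φ ᵥ* ((g⁻¹ : Matrix.SpecialLinearGroup ι k) : Matrix ι ι k)) := by
  ext t
  rw [mem_conjBy, mem_Tg _ _ h, mem_Tg _ _ (conj_valid p φ h g)]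
  constructor
  · rintro ⟨c, hc⟩
    refine ⟨c, ?_⟩
    rw [← tv_conj p φ h, ← hc]
    group
  · rintro ⟨c, rfl⟩
    refine ⟨c, ?_⟩
    rw [← tv_conj p φ h]
    group

theorem Tg_eq_imp (p1 φ1 p2 φ2 : ι → k) (h1 : φ1 ⬝ᵥ p1 = 0) (h2 : φ2 ⬝ᵥ p2 = 0)
    (heq : Tg p1 φ1 = Tg p2 φ2) :
    ∃ e : k, ∀ v : ι → k, (φ1 ⬝ᵥ v) • p1 = (e * (φ2 ⬝ᵥ v)) • p2 := by
  have hm : tv p1 φ1 1 ∈ Tg p2 φ2 := by
    rw [← heq]
    exact tv_mem_Tg p1 φ1 1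
  obtain ⟨e, he⟩ := (mem_Tg p2 φ2 h2 _).1 hm
  refine ⟨e, fun v => ?_⟩
  have h3 : ((tv p1 φ1 1 : Matrix.SpecialLinearGroup ι k) : Matrix ι ι k) *ᵥ v
      = ((tv p2 φ2 e : Matrix.SpecialLinearGroup ι k) : Matrix ι ι k) *ᵥ v := by rw [he]
  rw [tv_mulVec p1 φ1 h1, tv_mulVec p2 φ2 h2, one_mul] at h3
  exact add_left_cancel h3

theorem Tg_ne_of (p φ r ψ : ι → k) (h1 : φ ⬝ᵥ p = 0) (h2 : ψ ⬝ᵥ r = 0) (hp : p ≠ 0)
    (v : ι → k) (hv1 : φ ⬝ᵥ v ≠ 0) (hv2 : ψ ⬝ᵥ v = 0) : Tg p φ ≠ Tg r ψ := by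
  intro heq
  obtain ⟨e, he⟩ := Tg_eq_imp p φ r ψ h1 h2 heq
  have h3 := he v
  rw [hv2, mul_zero, zero_smul] at h3
  rcases smul_eq_zero.1 h3 with h4 | h4
  · exact hv1 h4
  · exact hp h4

theorem tv_comm_of (p φ r ψ : ι → k) (h1 : φ ⬝ᵥ p = 0) (h2 : ψ ⬝ᵥ r = 0)
    (hx : φ ⬝ᵥ r = 0) (hy : ψ ⬝ᵥ p = 0) (c d : k) :
    tv p φ c * tv r ψ d = tv r ψ d * tv p φ c := by
  apply sl_ext
  intro v
  rw [Matrix.SpecialLinearGroup.coe_mul, Matrix.SpecialLinearGroup.coe_mul,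
    ← Matrix.mulVec_mulVec, ← Matrix.mulVec_mulVec, tv_mulVec p φ h1, tv_mulVec r ψ h2,
    tv_mulVec p φ h1, tv_mulVec r ψ h2]
  simp only [dotProduct_add, dotProduct_smul, smul_eq_mul, hx, hy]
  module

theorem tv_rank_one_cond (p φ r ψ : ι → k) (hr : r ≠ 0) (hψ : ψ ≠ 0)
    (h1 : φ ⬝ᵥ p = 0) (h2 : ψ ⬝ᵥ r = 0) (hx : φ ⬝ᵥ r ≠ 0) (hy : ψ ⬝ᵥ p ≠ 0) :
    Cfsg.RankOneCondition (Tg p φ) (Tg r ψ) := by
  intro a ha ha1
  obtain ⟨c, rfl⟩ := (mem_Tg p φ h1 a).1 ha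
  have hc : c ≠ 0 := by
    rintro rfl
    exact ha1 (tv_zero p φ h1)
  obtain ⟨d, hd⟩ : ∃ d : k, d = (c * (φ ⬝ᵥ r) * (ψ ⬝ᵥ p))⁻¹ := ⟨_, rfl⟩
  have hd0 : d ≠ 0 := by
    rw [hd]
    exact inv_ne_zero (mul_ne_zero (mul_ne_zero hc hx) hy)
  have hdc : d * (c * (φ ⬝ᵥ r) * (ψ ⬝ᵥ p)) = 1 := by
    rw [hd]
    exact inv_mul_cancel₀ (mul_ne_zero (mul_ne_zero hc hx) hy)
  refine ⟨tv r ψ d, tv_mem_Tg r ψ d, tv_ne_one r ψ hr hψ h2 d hd0, ?_⟩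
  rw [conjBy_Tg p φ h1, conjBy_Tg r ψ h2, inv_inv, inv_inv, tv_inv r ψ h2, tv_inv p φ h1,
    tv_mulVec r ψ h2, tv_mulVec p φ h1, tv_vecMul r ψ h2, tv_vecMul p φ h1]
  have e1 : p + (-d * (ψ ⬝ᵥ p)) • r = (-d * (ψ ⬝ᵥ p)) • (r + (-c * (φ ⬝ᵥ r)) • p) := by
    have : (-d * (ψ ⬝ᵥ p)) * (-c * (φ ⬝ᵥ r)) = 1 := by linear_combination hdc
    rw [smul_add, smul_smul, this, one_smul, add_comm]
  have e2 : φ + (d * (φ ⬝ᵥ r)) • ψ = (d * (φ ⬝ᵥ r)) • (ψ + (c * (ψ ⬝ᵥ p)) • φ) := by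
    have : (d * (φ ⬝ᵥ r)) * (c * (ψ ⬝ᵥ p)) = 1 := by linear_combination hdc
    rw [smul_add, smul_smul, this, one_smul, add_comm]
  have hval : (ψ + (c * (ψ ⬝ᵥ p)) • φ) ⬝ᵥ (r + (-c * (φ ⬝ᵥ r)) • p) = 0 := by
    simp only [dotProduct_add, add_dotProduct, dotProduct_smul, smul_dotProduct, smul_eq_mul,
      h1, h2]
    ring
  have hval2 : ((d * (φ ⬝ᵥ r)) • (ψ + (c * (ψ ⬝ᵥ p)) • φ)) ⬝ᵥ (r + (-c * (φ ⬝ᵥ r)) • p) = 0 := by
    rw [smul_dotProduct, hval, smul_zero]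
  rw [e1, e2, Tg_smul_left _ _ hval2 _ (mul_ne_zero (neg_ne_zero.2 hd0) hy),
    Tg_smul_right _ _ hval _ (mul_ne_zero hd0 hx)]

theorem tv_rank_one (p φ r ψ : ι → k) (hp : p ≠ 0) (hφ : φ ≠ 0) (hr : r ≠ 0) (hψ : ψ ≠ 0)
    (h1 : φ ⬝ᵥ p = 0) (h2 : ψ ⬝ᵥ r = 0) (hx : φ ⬝ᵥ r ≠ 0) (hy : ψ ⬝ᵥ p ≠ 0) :
    Cfsg.IsRankOnePair (Tg p φ) (Tg r ψ) :=
  ⟨Tg_ne_of p φ r ψ h1 h2 hp r hx h2, isNilpotent_of_isMulCommutative (Tg_comm p φ h1),
    isNilpotent_of_isMulCommutative (Tg_comm r ψ h2),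
    tv_rank_one_cond p φ r ψ hr hψ h1 h2 hx hy, tv_rank_one_cond r ψ p φ hp hφ h2 h1 hy hx⟩

theorem not_rank_one (p φ r ψ : ι → k) (hp : p ≠ 0) (hφ : φ ≠ 0) (hr : r ≠ 0)
    (h1 : φ ⬝ᵥ p = 0) (h2 : ψ ⬝ᵥ r = 0) (hx : φ ⬝ᵥ r = 0) :
    ¬ Cfsg.IsRankOnePair (Tg p φ) (Tg r ψ) := by
  intro hpair
  obtain ⟨b, hb, -, hconj⟩ := hpair.cond_left (tv p φ 1) (tv_mem_Tg p φ 1)
    (tv_ne_one p φ hp hφ h1 1 one_ne_zero)
  obtain ⟨d, rfl⟩ := (mem_Tg r ψ h2 b).1 hb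
  rw [conjBy_Tg p φ h1, conjBy_Tg r ψ h2, inv_inv, inv_inv, tv_inv r ψ h2, tv_inv p φ h1,
    tv_mulVec r ψ h2, tv_mulVec p φ h1, tv_vecMul r ψ h2, tv_vecMul p φ h1, hx] at hconj
  simp only [mul_zero, zero_smul, add_zero, one_mul] at hconj
  have hv1 : φ ⬝ᵥ (p + (-d * (ψ ⬝ᵥ p)) • r) = 0 := by
    rw [dotProduct_add, dotProduct_smul, h1, hx, smul_zero, add_zero]
  have hv2 : (ψ + (ψ ⬝ᵥ p) • φ) ⬝ᵥ r = 0 := by
    rw [add_dotProduct, smul_dotProduct, h2, hx, smul_zero, add_zero]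
  obtain ⟨e, he⟩ := Tg_eq_imp _ _ _ _ hv1 hv2 hconj
  by_cases hy : ψ ⬝ᵥ p = 0
  · rw [hy] at hconj
    simp only [mul_zero, zero_smul, add_zero] at hconj
    exact hpair.ne hconj
  · have h3 := he p
    rw [h1, zero_smul, add_dotProduct, smul_dotProduct, h1, smul_zero, add_zero] at h3
    have he0 : e = 0 := by
      rcases smul_eq_zero.1 h3.symm with h4 | h4
      · rcases mul_eq_zero.1 h4 with h5 | h5
        · exact h5
        · exact absurd h5 hy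
      · exact absurd h4 hr
    obtain ⟨v0, hv0⟩ := exists_dot_ne φ hφ
    have h5 := he v0
    rw [he0, zero_mul, zero_smul] at h5
    have h6 : p + (-d * (ψ ⬝ᵥ p)) • r = 0 := by
      rcases smul_eq_zero.1 h5 with h7 | h7
      · exact absurd h7 hv0
      · exact h7
    have h8 := congrArg (fun z => ψ ⬝ᵥ z) h6
    simp only [dotProduct_add, dotProduct_smul, h2, smul_zero, add_zero, dotProduct_zero] at h8
    exact hy h8

theorem sl_mulVec_ne_zero (g : Matrix.SpecialLinearGroup ι k) (p : ι → k) (hp : p ≠ 0) :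
    (g : Matrix ι ι k) *ᵥ p ≠ 0 := by
  intro h0
  apply hp
  rw [← sl_inv_mulVec g p, h0, Matrix.mulVec_zero]

theorem sl_vecMul_ne_zero (g : Matrix.SpecialLinearGroup ι k) (φ : ι → k) (hφ : φ ≠ 0) :
    φ ᵥ* ((g⁻¹ : Matrix.SpecialLinearGroup ι k) : Matrix ι ι k) ≠ 0 := by
  intro h0
  apply hφ
  have h3 : (φ ᵥ* ((g⁻¹ : Matrix.SpecialLinearGroup ι k) : Matrix ι ι k)) ᵥ* (g : Matrix ι ι k)
      = φ := by
    rw [Matrix.vecMul_vecMul, ← Matrix.SpecialLinearGroup.coe_mul, inv_mul_cancel,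
      Matrix.SpecialLinearGroup.coe_one, Matrix.vecMul_one]
  rw [← h3, h0, Matrix.zero_vecMul]

/-- action of a 2×2 matrix on the plane `⟨e, f⟩` with dual coordinates `ψ, φ` -/
noncomputable def Tl2 (e f φ ψ : ι → k) (M : Matrix (Fin 2) (Fin 2) k) :
    (ι → k) →ₗ[k] (ι → k) where
  toFun v := v + ((M 0 0 - 1) * (ψ ⬝ᵥ v) + M 0 1 * (φ ⬝ᵥ v)) • e
    + (M 1 0 * (ψ ⬝ᵥ v) + (M 1 1 - 1) * (φ ⬝ᵥ v)) • f
  map_add' v w := by
    simp only [dotProduct_add]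
    module
  map_smul' a v := by
    simp only [dotProduct_smul, smul_eq_mul, RingHom.id_apply]
    module

theorem Tl2_apply (e f φ ψ : ι → k) (M : Matrix (Fin 2) (Fin 2) k) (v : ι → k) :
    Tl2 e f φ ψ M v = v + ((M 0 0 - 1) * (ψ ⬝ᵥ v) + M 0 1 * (φ ⬝ᵥ v)) • e
      + (M 1 0 * (ψ ⬝ᵥ v) + (M 1 1 - 1) * (φ ⬝ᵥ v)) • f := rfl

theorem Tl2_psi (e f φ ψ : ι → k) (hf : ψ ⬝ᵥ f = 0) (hy : ψ ⬝ᵥ e = 1)
    (M : Matrix (Fin 2) (Fin 2) k) (v : ι → k) :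
    ψ ⬝ᵥ Tl2 e f φ ψ M v = M 0 0 * (ψ ⬝ᵥ v) + M 0 1 * (φ ⬝ᵥ v) := by
  rw [Tl2_apply]
  simp only [dotProduct_add, dotProduct_smul, smul_eq_mul, hf, hy]
  ring

theorem Tl2_phi (e f φ ψ : ι → k) (he : φ ⬝ᵥ e = 0) (hx : φ ⬝ᵥ f = 1)
    (M : Matrix (Fin 2) (Fin 2) k) (v : ι → k) :
    φ ⬝ᵥ Tl2 e f φ ψ M v = M 1 0 * (ψ ⬝ᵥ v) + M 1 1 * (φ ⬝ᵥ v) := by
  rw [Tl2_apply]
  simp only [dotProduct_add, dotProduct_smul, smul_eq_mul, he, hx]
  ring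

theorem Tl2_mul (e f φ ψ : ι → k) (he : φ ⬝ᵥ e = 0) (hf : ψ ⬝ᵥ f = 0) (hx : φ ⬝ᵥ f = 1)
    (hy : ψ ⬝ᵥ e = 1) (M N : Matrix (Fin 2) (Fin 2) k) (v : ι → k) :
    Tl2 e f φ ψ (M * N) v = Tl2 e f φ ψ M (Tl2 e f φ ψ N v) := by
  rw [Tl2_apply e f φ ψ M, Tl2_psi e f φ ψ hf hy, Tl2_phi e f φ ψ he hx, Tl2_apply, Tl2_apply]
  simp only [Matrix.mul_apply, Fin.sum_univ_two]
  module

theorem Tl2_one (e f φ ψ : ι → k) (v : ι → k) : Tl2 e f φ ψ 1 v = v := by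
  rw [Tl2_apply]
  simp

theorem toMat_mulVec' (g : (ι → k) →ₗ[k] (ι → k)) (x : ι → k) :
    LinearMap.toMatrix' g *ᵥ x = g x := by
  rw [← Matrix.toLin'_apply, Matrix.toLin'_toMatrix']

/-- the monoid homomorphism `SL₂ → matrices` -/
noncomputable def f0 (e f φ ψ : ι → k) (he : φ ⬝ᵥ e = 0) (hf : ψ ⬝ᵥ f = 0) (hx : φ ⬝ᵥ f = 1)
    (hy : ψ ⬝ᵥ e = 1) : Matrix.SpecialLinearGroup (Fin 2) k →* Matrix ι ι k where
  toFun M := LinearMap.toMatrix' (Tl2 e f φ ψ M.1)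
  map_one' := by
    apply mat_ext_mulVec
    intro v
    rw [toMat_mulVec', Matrix.one_mulVec]
    exact Tl2_one e f φ ψ v
  map_mul' M N := by
    apply mat_ext_mulVec
    intro v
    rw [← Matrix.mulVec_mulVec, toMat_mulVec', toMat_mulVec', toMat_mulVec']
    exact Tl2_mul e f φ ψ he hf hx hy M.1 N.1 v

theorem f0_mulVec (e f φ ψ : ι → k) (he : φ ⬝ᵥ e = 0) (hf : ψ ⬝ᵥ f = 0) (hx : φ ⬝ᵥ f = 1)
    (hy : ψ ⬝ᵥ e = 1) (M : Matrix.SpecialLinearGroup (Fin 2) k) (v : ι → k) :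
    f0 e f φ ψ he hf hx hy M *ᵥ v = Tl2 e f φ ψ M.1 v := toMat_mulVec' _ v

theorem f0_up (e f φ ψ : ι → k) (he : φ ⬝ᵥ e = 0) (hf : ψ ⬝ᵥ f = 0) (hx : φ ⬝ᵥ f = 1)
    (hy : ψ ⬝ᵥ e = 1) (t : k) :
    f0 e f φ ψ he hf hx hy (Cfsg.Agent.S5016.up t)
      = ((tv e φ t : Matrix.SpecialLinearGroup ι k) : Matrix ι ι k) := by
  apply mat_ext_mulVec
  intro v
  rw [tv_mulVec e φ he, f0_mulVec, Tl2_apply]
  show v + (((1 : k) - 1) * (ψ ⬝ᵥ v) + t * (φ ⬝ᵥ v)) • e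
    + ((0 : k) * (ψ ⬝ᵥ v) + ((1 : k) - 1) * (φ ⬝ᵥ v)) • f = _
  module

theorem f0_lo (e f φ ψ : ι → k) (he : φ ⬝ᵥ e = 0) (hf : ψ ⬝ᵥ f = 0) (hx : φ ⬝ᵥ f = 1)
    (hy : ψ ⬝ᵥ e = 1) (t : k) :
    f0 e f φ ψ he hf hx hy (Cfsg.Agent.S5016.lo t)
      = ((tv f ψ t : Matrix.SpecialLinearGroup ι k) : Matrix ι ι k) := by
  apply mat_ext_mulVec
  intro v
  rw [tv_mulVec f ψ hf, f0_mulVec, Tl2_apply]
  show v + (((1 : k) - 1) * (ψ ⬝ᵥ v) + (0 : k) * (φ ⬝ᵥ v)) • e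
    + (t * (ψ ⬝ᵥ v) + ((1 : k) - 1) * (φ ⬝ᵥ v)) • f = _
  module

theorem f0_det (e f φ ψ : ι → k) (he : φ ⬝ᵥ e = 0) (hf : ψ ⬝ᵥ f = 0) (hx : φ ⬝ᵥ f = 1)
    (hy : ψ ⬝ᵥ e = 1) (M : Matrix.SpecialLinearGroup (Fin 2) k) :
    (f0 e f φ ψ he hf hx hy M).det = 1 := by
  have hker : (Matrix.GeneralLinearGroup.det.comp (f0 e f φ ψ he hf hx hy).toHomUnits).ker
      = ⊤ := by
    rw [eq_top_iff, ← (Cfsg.Agent.S5016.result k).1.1]
    apply sup_le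
    · intro M hM
      obtain ⟨t, rfl⟩ := Cfsg.Agent.S5016.mem_lower.1 hM
      rw [MonoidHom.mem_ker]
      apply Units.ext
      rw [MonoidHom.comp_apply, Matrix.GeneralLinearGroup.val_det_apply,
        MonoidHom.coe_toHomUnits, f0_lo, Units.val_one]
      exact (tv f ψ t).2
    · intro M hM
      obtain ⟨t, rfl⟩ := Cfsg.Agent.S5016.mem_upper.1 hM
      rw [MonoidHom.mem_ker]
      apply Units.ext
      rw [MonoidHom.comp_apply, Matrix.GeneralLinearGroup.val_det_apply,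
        MonoidHom.coe_toHomUnits, f0_up, Units.val_one]
      exact (tv e φ t).2
  have h1 : M ∈ (Matrix.GeneralLinearGroup.det.comp
      (f0 e f φ ψ he hf hx hy).toHomUnits).ker := by
    rw [hker]
    trivial
  have h2 := congrArg Units.val (MonoidHom.mem_ker.1 h1)
  rw [MonoidHom.comp_apply, Matrix.GeneralLinearGroup.val_det_apply,
    MonoidHom.coe_toHomUnits, Units.val_one] at h2
  exact h2

/-- the homomorphism `SL₂ → SL` attached to a pair of opposite root groups -/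
noncomputable def phi2 (e f φ ψ : ι → k) (he : φ ⬝ᵥ e = 0) (hf : ψ ⬝ᵥ f = 0) (hx : φ ⬝ᵥ f = 1)
    (hy : ψ ⬝ᵥ e = 1) : Matrix.SpecialLinearGroup (Fin 2) k →* Matrix.SpecialLinearGroup ι k :=
  MonoidHom.mk' (fun M => ⟨f0 e f φ ψ he hf hx hy M, f0_det e f φ ψ he hf hx hy M⟩)
    (fun M N => Subtype.ext ((f0 e f φ ψ he hf hx hy).map_mul M N))

theorem phi2_up (e f φ ψ : ι → k) (he : φ ⬝ᵥ e = 0) (hf : ψ ⬝ᵥ f = 0) (hx : φ ⬝ᵥ f = 1)
    (hy : ψ ⬝ᵥ e = 1) (t : k) :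
    phi2 e f φ ψ he hf hx hy (Cfsg.Agent.S5016.up t) = tv e φ t :=
  Subtype.ext (f0_up e f φ ψ he hf hx hy t)

theorem phi2_lo (e f φ ψ : ι → k) (he : φ ⬝ᵥ e = 0) (hf : ψ ⬝ᵥ f = 0) (hx : φ ⬝ᵥ f = 1)
    (hy : ψ ⬝ᵥ e = 1) (t : k) :
    phi2 e f φ ψ he hf hx hy (Cfsg.Agent.S5016.lo t) = tv f ψ t :=
  Subtype.ext (f0_lo e f φ ψ he hf hx hy t)

theorem psl2_pair (e f φ ψ : ι → k) (he : φ ⬝ᵥ e = 0) (hf : ψ ⬝ᵥ f = 0) (hx : φ ⬝ᵥ f = 1)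
    (hy : ψ ⬝ᵥ e = 1) : Cfsg.IsPSL2PairOver k (Tg e φ) (Tg f ψ) := by
  have hupper : (Cfsg.upperUnipotentSL2 k).map (phi2 e f φ ψ he hf hx hy) = Tg e φ := by
    ext A
    rw [Subgroup.mem_map, mem_Tg e φ he]
    constructor
    · rintro ⟨M, hM, rfl⟩
      obtain ⟨t, rfl⟩ := Cfsg.Agent.S5016.mem_upper.1 hM
      exact ⟨t, phi2_up e f φ ψ he hf hx hy t⟩
    · rintro ⟨c, rfl⟩
      exact ⟨Cfsg.Agent.S5016.up c, Cfsg.Agent.S5016.up_mem c, phi2_up e f φ ψ he hf hx hy c⟩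
  have hlower : (Cfsg.lowerUnipotentSL2 k).map (phi2 e f φ ψ he hf hx hy) = Tg f ψ := by
    ext A
    rw [Subgroup.mem_map, mem_Tg f ψ hf]
    constructor
    · rintro ⟨M, hM, rfl⟩
      obtain ⟨t, rfl⟩ := Cfsg.Agent.S5016.mem_lower.1 hM
      exact ⟨t, phi2_lo e f φ ψ he hf hx hy t⟩
    · rintro ⟨c, rfl⟩
      exact ⟨Cfsg.Agent.S5016.lo c, Cfsg.Agent.S5016.lo_mem c, phi2_lo e f φ ψ he hf hx hy c⟩
  refine ⟨phi2 e f φ ψ he hf hx hy, ?_, ?_, hupper, hlower⟩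
  · rw [MonoidHom.range_eq_map, ← (Cfsg.Agent.S5016.result k).1.1, Subgroup.map_sup, hupper,
      hlower, sup_comm]
  · intro M hM
    rw [MonoidHom.mem_ker] at hM
    have h1 : ∀ v, Tl2 e f φ ψ M.1 v = v := by
      intro v
      have h3 : ((phi2 e f φ ψ he hf hx hy M : Matrix.SpecialLinearGroup ι k) : Matrix ι ι k)
          *ᵥ v = v := by
        rw [hM, Matrix.SpecialLinearGroup.coe_one, Matrix.one_mulVec]
      rw [← f0_mulVec e f φ ψ he hf hx hy]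
      exact h3
    have ha : M.1 0 0 = 1 := by
      have h := Tl2_psi e f φ ψ hf hy M.1 e
      rw [h1, hy, he] at h
      linear_combination -h
    have hb : M.1 0 1 = 0 := by
      have h := Tl2_psi e f φ ψ hf hy M.1 f
      rw [h1, hf, hx] at h
      linear_combination -h
    have hc : M.1 1 0 = 0 := by
      have h := Tl2_phi e f φ ψ he hx M.1 e
      rw [h1, hy, he] at h
      linear_combination -h
    have hd : M.1 1 1 = 1 := by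
      have h := Tl2_phi e f φ ψ he hx M.1 f
      rw [h1, hf, hx] at h
      linear_combination -h
    have hM1 : M = 1 := by
      ext i j
      fin_cases i <;> fin_cases j <;> simp [ha, hb, hc, hd]
    rw [hM1]
    exact Subgroup.one_mem _

end aux

section aux2

open Matrix Cfsg.Agent.Helper26 Cfsg.Agent.S5058

variable {k : Type*} [Field k] {n : ℕ}

/-- the set of transvection subgroups, parametrised by vectors and covectors -/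
def Sset (k : Type*) [Field k] (n : ℕ) :
    Set (Subgroup (Matrix.SpecialLinearGroup (Fin (n + 3)) k)) :=
  {A | ∃ p φ : Fin (n + 3) → k, p ≠ 0 ∧ φ ≠ 0 ∧ φ ⬝ᵥ p = 0 ∧ A = Tg p φ}

theorem comm_case_core (p φ r ψ : Fin (n + 3) → k)
    (h1 : φ ⬝ᵥ p = 0) (h2 : ψ ⬝ᵥ r = 0)
    (q χ : Fin (n + 3) → k) (κ : k) (hq : q ≠ 0) (hχ : χ ≠ 0) (hχq : χ ⬝ᵥ q = 0) (hκ : κ ≠ 0)
    (H1 : ∀ c d : k, tv p φ c * tv r ψ d = tv q χ (κ * c * d) * (tv r ψ d * tv p φ c))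
    (H2a : ∀ c e : k, tv q χ e * tv p φ c = tv p φ c * tv q χ e)
    (H2b : ∀ d e : k, tv q χ e * tv r ψ d = tv r ψ d * tv q χ e) :
    Cfsg.RootCommutatorCase (Sset k n) (Tg p φ) (Tg r ψ) := by
  have H1' : ∀ c d : k, tv p φ c * tv r ψ d * (tv p φ c)⁻¹ * (tv r ψ d)⁻¹
      = tv q χ (κ * c * d) := by
    intro c d
    rw [H1]
    group
  have hcomm : ⁅Tg p φ, Tg r ψ⁆ = Tg q χ := by
    apply le_antisymm
    · rw [Subgroup.commutator_le]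
      intro a ha b hb
      obtain ⟨c, rfl⟩ := (mem_Tg p φ h1 a).1 ha
      obtain ⟨d, rfl⟩ := (mem_Tg r ψ h2 b).1 hb
      rw [commutatorElement_def, H1']
      exact tv_mem_Tg _ _ _
    · intro t ht
      obtain ⟨e, rfl⟩ := (mem_Tg q χ hχq t).1 ht
      have h3 := H1' 1 (e / κ)
      have h4 : κ * 1 * (e / κ) = e := by field_simp
      rw [h4] at h3
      rw [← h3]
      exact Subgroup.commutator_mem_commutator (tv_mem_Tg p φ 1) (tv_mem_Tg r ψ (e / κ))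
  refine ⟨?_, ?_, ?_, ?_⟩
  · rw [hcomm]
    exact ⟨q, χ, hq, hχ, hχq, rfl⟩
  · rw [hcomm]
    intro z hz w hw
    have hle : Tg p φ ⊔ Tg r ψ
        ≤ Subgroup.centralizer (Tg q χ : Set (Matrix.SpecialLinearGroup (Fin (n + 3)) k)) := by
      apply sup_le
      · intro a ha
        obtain ⟨c, rfl⟩ := (mem_Tg p φ h1 a).1 ha
        rw [Subgroup.mem_centralizer_iff]
        intro z hz
        obtain ⟨e, rfl⟩ := (mem_Tg q χ hχq z).1 hz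
        exact H2a c e
      · intro b hb
        obtain ⟨d, rfl⟩ := (mem_Tg r ψ h2 b).1 hb
        rw [Subgroup.mem_centralizer_iff]
        intro z hz
        obtain ⟨e, rfl⟩ := (mem_Tg q χ hχq z).1 hz
        exact H2b d e
    exact Subgroup.mem_centralizer_iff.1 (hle hw) z hz
  · intro a ha ha1
    obtain ⟨c, rfl⟩ := (mem_Tg p φ h1 a).1 ha
    have hc : c ≠ 0 := by
      rintro rfl
      exact ha1 (tv_zero p φ h1)
    rw [hcomm]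
    apply le_antisymm
    · rw [Subgroup.closure_le]
      rintro _ ⟨b, hb, rfl⟩
      obtain ⟨d, rfl⟩ := (mem_Tg r ψ h2 b).1 hb
      show tv p φ c * tv r ψ d * (tv p φ c)⁻¹ * (tv r ψ d)⁻¹ ∈ Tg q χ
      rw [H1']
      exact tv_mem_Tg _ _ _
    · intro t ht
      obtain ⟨e, rfl⟩ := (mem_Tg q χ hχq t).1 ht
      apply Subgroup.subset_closure
      refine ⟨tv r ψ (e / (κ * c)), tv_mem_Tg _ _ _, ?_⟩
      show tv p φ c * tv r ψ (e / (κ * c)) * (tv p φ c)⁻¹ * (tv r ψ (e / (κ * c)))⁻¹ = _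
      rw [H1']
      congr 1
      field_simp
  · intro b hb hb1
    obtain ⟨d, rfl⟩ := (mem_Tg r ψ h2 b).1 hb
    have hd : d ≠ 0 := by
      rintro rfl
      exact hb1 (tv_zero r ψ h2)
    rw [hcomm]
    apply le_antisymm
    · rw [Subgroup.closure_le]
      rintro _ ⟨a, ha, rfl⟩
      obtain ⟨c, rfl⟩ := (mem_Tg p φ h1 a).1 ha
      show tv p φ c * tv r ψ d * (tv p φ c)⁻¹ * (tv r ψ d)⁻¹ ∈ Tg q χ
      rw [H1']
      exact tv_mem_Tg _ _ _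
    · intro t ht
      obtain ⟨e, rfl⟩ := (mem_Tg q χ hχq t).1 ht
      apply Subgroup.subset_closure
      refine ⟨tv p φ (e / (κ * d)), tv_mem_Tg _ _ _, ?_⟩
      show tv p φ (e / (κ * d)) * tv r ψ d * (tv p φ (e / (κ * d)))⁻¹ * (tv r ψ d)⁻¹ = _
      rw [H1']
      congr 1
      field_simp

theorem comm_case_x (p φ r ψ : Fin (n + 3) → k) (hφ : φ ≠ 0) (hr : r ≠ 0)
    (h1 : φ ⬝ᵥ p = 0) (h2 : ψ ⬝ᵥ r = 0) (hx : φ ⬝ᵥ r = 0) (hy : ψ ⬝ᵥ p ≠ 0) :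
    Cfsg.RootCommutatorCase (Sset k n) (Tg p φ) (Tg r ψ) := by
  apply comm_case_core p φ r ψ h1 h2 r φ (-(ψ ⬝ᵥ p)) hr hφ hx (neg_ne_zero.2 hy)
  · intro c d
    apply sl_ext
    intro v
    simp only [Matrix.SpecialLinearGroup.coe_mul, ← Matrix.mulVec_mulVec, tv_mulVec p φ h1,
      tv_mulVec r ψ h2, tv_mulVec r φ hx, dotProduct_add, dotProduct_smul, smul_eq_mul, h1,
      hx]
    module
  · intro c e
    exact tv_comm_of r φ p φ hx h1 h1 hx e c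
  · intro d e
    exact tv_comm_of r φ r ψ hx h2 hx h2 e d

theorem comm_case_y (p φ r ψ : Fin (n + 3) → k) (hp : p ≠ 0) (hψ : ψ ≠ 0)
    (h1 : φ ⬝ᵥ p = 0) (h2 : ψ ⬝ᵥ r = 0) (hx : φ ⬝ᵥ r ≠ 0) (hy : ψ ⬝ᵥ p = 0) :
    Cfsg.RootCommutatorCase (Sset k n) (Tg p φ) (Tg r ψ) := by
  apply comm_case_core p φ r ψ h1 h2 p ψ (φ ⬝ᵥ r) hp hψ hy hx
  · intro c d
    apply sl_ext
    intro v
    simp only [Matrix.SpecialLinearGroup.coe_mul, ← Matrix.mulVec_mulVec, tv_mulVec p φ h1,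
      tv_mulVec r ψ h2, tv_mulVec p ψ hy, dotProduct_add, dotProduct_smul, smul_eq_mul, h2,
      hy]
    module
  · intro c e
    exact tv_comm_of p ψ p φ hy h1 hy h1 e c
  · intro d e
    exact tv_comm_of p ψ r ψ hy h2 h2 hy e d

theorem single_ne_zero' (i : Fin (n + 3)) : (Pi.single i (1 : k) : Fin (n + 3) → k) ≠ 0 := by
  intro h
  have := congrFun h i
  simp at this

theorem single_dot (i j : Fin (n + 3)) (hij : i ≠ j) :
    (Pi.single i (1 : k) : Fin (n + 3) → k) ⬝ᵥ Pi.single j 1 = 0 := by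
  simp [hij]

theorem single_dot_self (i : Fin (n + 3)) :
    (Pi.single i (1 : k) : Fin (n + 3) → k) ⬝ᵥ Pi.single i 1 = 1 := by
  simp

theorem tv_single (i j : Fin (n + 3)) (hij : i ≠ j) (c : k) :
    ((tv (Pi.single i 1) (Pi.single j 1) c : Matrix.SpecialLinearGroup (Fin (n + 3)) k) :
      Matrix (Fin (n + 3)) (Fin (n + 3)) k) = 1 + Matrix.single i j c := by
  rw [tv_coe _ _ (single_dot j i hij.symm), single_eq_vmv, ← Matrix.smul_vecMulVec]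
  congr 2
  ext a
  simp [Pi.single_apply]

theorem Sset_isSet : Cfsg.IsRootSubgroupSet (Sset k n) where
  commutative := by
    rintro _ ⟨p, φ, hp, hφ, h, rfl⟩
    exact Tg_comm p φ h
  ne_bot := by
    rintro _ ⟨p, φ, hp, hφ, h, rfl⟩ hbot
    have h1 : tv p φ 1 ∈ Tg p φ := tv_mem_Tg p φ 1
    rw [hbot, Subgroup.mem_bot] at h1
    exact tv_ne_one p φ hp hφ h 1 one_ne_zero h1
  generates := by
    rw [eq_top_iff]
    intro M _
    apply Cfsg.Agent.S0249.transvection_induction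
      (P := fun M => M ∈ ⨆ A ∈ Sset k n, A)
    · intro i j hij c
      have h3 : Matrix.SpecialLinearGroup.transvection hij c
          = tv (Pi.single i 1) (Pi.single j 1) c := by
        apply Subtype.ext
        rw [tv_single i j hij]
        rfl
      rw [h3]
      exact Subgroup.mem_iSup_of_mem (Tg (Pi.single i 1) (Pi.single j 1))
        (Subgroup.mem_iSup_of_mem ⟨_, _, single_ne_zero' i, single_ne_zero' j,
          single_dot j i hij.symm, rfl⟩ (tv_mem_Tg _ _ c))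
    · intro A B hA hB
      exact Subgroup.mul_mem _ hA hB
  conj_mem := by
    rintro _ ⟨p, φ, hp, hφ, h, rfl⟩ g
    exact ⟨_, _, sl_mulVec_ne_zero g p hp, sl_vecMul_ne_zero g φ hφ, conj_valid p φ h g,
      conjBy_Tg p φ h g⟩
  pair := by
    rintro _ ⟨p, φ, hp, hφ, h1, rfl⟩ _ ⟨r, ψ, hr, hψ, h2, rfl⟩
    by_cases hx : φ ⬝ᵥ r = 0
    · by_cases hy : ψ ⬝ᵥ p = 0
      · left
        rw [Subgroup.commutator_eq_bot_iff_le_centralizer]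
        intro a ha b hb
        obtain ⟨c, rfl⟩ := (mem_Tg p φ h1 a).1 ha
        obtain ⟨d, rfl⟩ := (mem_Tg r ψ h2 b).1 hb
        exact (tv_comm_of p φ r ψ h1 h2 hx hy c d).symm
      · exact Or.inr (Or.inr (comm_case_x p φ r ψ hφ hr h1 h2 hx hy))
    · by_cases hy : ψ ⬝ᵥ p = 0
      · exact Or.inr (Or.inr (comm_case_y p φ r ψ hp hψ h1 h2 hx hy))
      · exact Or.inr (Or.inl (tv_rank_one p φ r ψ hp hφ hr hψ h1 h2 hx hy))

theorem Sset_nondeg : Cfsg.IsNondegenerateRootSet (Sset k n) := by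
  have h01 : (0 : Fin (n + 3)) ≠ 1 := by
    intro h; have := congrArg Fin.val h; simp at this
  obtain ⟨i2, hi2⟩ : ∃ i2 : Fin (n + 3), i2 = ⟨2, by omega⟩ := ⟨_, rfl⟩
  have h02 : (0 : Fin (n + 3)) ≠ i2 := by
    intro h; have := congrArg Fin.val h; rw [hi2] at this; simp at this
  have h12 : (1 : Fin (n + 3)) ≠ i2 := by
    intro h; have := congrArg Fin.val h; rw [hi2] at this; simp at this
  have m01 : Tg (Pi.single 0 (1 : k)) (Pi.single 1 1) ∈ Sset k n :=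
    ⟨_, _, single_ne_zero' 0, single_ne_zero' 1, single_dot 1 0 h01.symm, rfl⟩
  have m02 : Tg (Pi.single 0 (1 : k)) (Pi.single i2 1) ∈ Sset k n :=
    ⟨_, _, single_ne_zero' 0, single_ne_zero' i2, single_dot i2 0 h02.symm, rfl⟩
  have m10 : Tg (Pi.single 1 (1 : k)) (Pi.single 0 1) ∈ Sset k n :=
    ⟨_, _, single_ne_zero' 1, single_ne_zero' 0, single_dot 0 1 h01, rfl⟩
  have m12 : Tg (Pi.single 1 (1 : k)) (Pi.single i2 1) ∈ Sset k n :=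
    ⟨_, _, single_ne_zero' 1, single_ne_zero' i2, single_dot i2 1 h12.symm, rfl⟩
  refine ⟨⟨_, m01, _, m02, ?_, ?_⟩, ⟨_, m01, _, m10, ?_⟩, ⟨_, m01, _, m12, ?_⟩⟩
  · exact Tg_ne_of _ _ _ _ (single_dot 1 0 h01.symm) (single_dot i2 0 h02.symm)
      (single_ne_zero' 0) (Pi.single 1 1) (by rw [single_dot_self]; exact one_ne_zero)
      (single_dot i2 1 h12.symm)
  · rw [Subgroup.commutator_eq_bot_iff_le_centralizer]
    intro a ha b hb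
    obtain ⟨c, rfl⟩ := (mem_Tg _ _ (single_dot 1 0 h01.symm) a).1 ha
    obtain ⟨d, rfl⟩ := (mem_Tg _ _ (single_dot i2 0 h02.symm) b).1 hb
    exact (tv_comm_of _ _ _ _ (single_dot 1 0 h01.symm) (single_dot i2 0 h02.symm)
      (single_dot 1 0 h01.symm) (single_dot i2 0 h02.symm) c d).symm
  · exact tv_rank_one _ _ _ _ (single_ne_zero' 0) (single_ne_zero' 1) (single_ne_zero' 1)
      (single_ne_zero' 0) (single_dot 1 0 h01.symm) (single_dot 0 1 h01)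
      (by rw [single_dot_self]; exact one_ne_zero) (by rw [single_dot_self]; exact one_ne_zero)
  · exact comm_case_y _ _ _ _ (single_ne_zero' 0) (single_ne_zero' i2)
      (single_dot 1 0 h01.symm) (single_dot i2 1 h12.symm)
      (by rw [single_dot_self]; exact one_ne_zero) (single_dot i2 0 h02.symm)

theorem Sset_connected : Cfsg.IsConnectedFamily (Cfsg.FAdj (Sset k n)) (Sset k n) := by
  rintro _ ⟨p, φ, hp, hφ, h1, rfl⟩ _ ⟨r, ψ, hr, hψ, h2, rfl⟩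
  obtain ⟨s, hs1, hs2⟩ : ∃ s : Fin (n + 3) → k, φ ⬝ᵥ s ≠ 0 ∧ ψ ⬝ᵥ s ≠ 0 := by
    obtain ⟨v1, hv1⟩ := exists_dot_ne φ hφ
    obtain ⟨v2, hv2⟩ := exists_dot_ne ψ hψ
    by_cases h3 : ψ ⬝ᵥ v1 = 0
    · by_cases h4 : φ ⬝ᵥ v2 = 0
      · refine ⟨v1 + v2, ?_, ?_⟩
        · rw [dotProduct_add, h4, add_zero]
          exact hv1
        · rw [dotProduct_add, h3, zero_add]
          exact hv2
      · exact ⟨v2, h4, hv2⟩
    · exact ⟨v1, hv1, h3⟩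
  have hs0 : s ≠ 0 := by
    rintro rfl
    exact hs1 (dotProduct_zero φ)
  have key : ∀ (u χ : Fin (n + 3) → k), u ≠ 0 → χ ⬝ᵥ u = 0 → χ ⬝ᵥ s ≠ 0 →
      ∃ σ : Fin (n + 3) → k, σ ⬝ᵥ s = 0 ∧ σ ⬝ᵥ u ≠ 0 := by
    intro u χ hu hχu hχs
    obtain ⟨η, hη⟩ := exists_dot_ne' u hu
    refine ⟨(χ ⬝ᵥ s) • η - (η ⬝ᵥ s) • χ, ?_, ?_⟩
    · rw [sub_dotProduct, smul_dotProduct, smul_dotProduct, smul_eq_mul, smul_eq_mul]
      ring
    · rw [sub_dotProduct, smul_dotProduct, smul_dotProduct, hχu, smul_zero, sub_zero,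
        smul_eq_mul]
      exact mul_ne_zero hχs hη
  obtain ⟨σ1, hσ1s, hσ1p⟩ := key p φ hp h1 hs1
  obtain ⟨σ2, hσ2s, hσ2r⟩ := key r ψ hr h2 hs2
  obtain ⟨σ, hσs, hσp, hσr⟩ : ∃ σ : Fin (n + 3) → k, σ ⬝ᵥ s = 0 ∧ σ ⬝ᵥ p ≠ 0 ∧ σ ⬝ᵥ r ≠ 0 := by
    by_cases h3 : σ1 ⬝ᵥ r = 0
    · by_cases h4 : σ2 ⬝ᵥ p = 0
      · refine ⟨σ1 + σ2, ?_, ?_, ?_⟩
        · rw [add_dotProduct, hσ1s, hσ2s, add_zero]
        · rw [add_dotProduct, h4, add_zero]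
          exact hσ1p
        · rw [add_dotProduct, h3, zero_add]
          exact hσ2r
      · exact ⟨σ2, hσ2s, h4, hσ2r⟩
    · exact ⟨σ1, hσ1s, hσ1p, h3⟩
  have hσ0 : σ ≠ 0 := by
    rintro rfl
    exact hσp (zero_dotProduct p)
  have mS : Tg s σ ∈ Sset k n := ⟨s, σ, hs0, hσ0, hσs, rfl⟩
  exact Relation.ReflTransGen.head
    ⟨⟨p, φ, hp, hφ, h1, rfl⟩, mS, tv_rank_one p φ s σ hp hφ hs0 hσ0 h1 hσs hs1 hσp⟩
    (Relation.ReflTransGen.single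
      ⟨mS, ⟨r, ψ, hr, hψ, h2, rfl⟩, tv_rank_one s σ r ψ hs0 hσ0 hr hψ hσs h2 hσr hs2⟩)

theorem Sset_kroot : Cfsg.IsKRootSubgroupSet k (Sset k n) := by
  refine ⟨Sset_isSet, ?_⟩
  rintro _ ⟨p, φ, hp, hφ, h1, rfl⟩ _ ⟨r, ψ, hr, hψ, h2, rfl⟩ hpair
  have hx : φ ⬝ᵥ r ≠ 0 := fun h0 => not_rank_one p φ r ψ hp hφ hr h1 h2 h0 hpair
  have hy : ψ ⬝ᵥ p ≠ 0 := fun h0 =>
    not_rank_one r ψ p φ hr hψ hp h2 h1 h0 (Cfsg.RankOnePair_symm hpair)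
  have hA : Tg ((ψ ⬝ᵥ p)⁻¹ • p) φ = Tg p φ := Tg_smul_left p φ h1 _ (inv_ne_zero hy)
  have hB : Tg ((φ ⬝ᵥ r)⁻¹ • r) ψ = Tg r ψ := Tg_smul_left r ψ h2 _ (inv_ne_zero hx)
  rw [← hA, ← hB]
  exact psl2_pair _ _ φ ψ (by rw [dotProduct_smul, h1, smul_zero])
    (by rw [dotProduct_smul, h2, smul_zero])
    (by rw [dotProduct_smul, smul_eq_mul, inv_mul_cancel₀ hx])
    (by rw [dotProduct_smul, smul_eq_mul, inv_mul_cancel₀ hy])

/-- the set of the statement -/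
def S0 (k : Type*) [Field k] (n : ℕ) :
    Set (Subgroup (Matrix.SpecialLinearGroup (Fin (n + 3)) k)) :=
  {A | ∃ g : Matrix.SpecialLinearGroup (Fin (n + 3)) k,
    A = Cfsg.conjBy (Subgroup.closure {t : Matrix.SpecialLinearGroup (Fin (n + 3)) k |
      ∃ c : k, (t : Matrix (Fin (n + 3)) (Fin (n + 3)) k) = Matrix.transvection 0 1 c}) g}

theorem h01' : (0 : Fin (n + 3)) ≠ 1 := by
  intro h
  have := congrArg Fin.val h
  simp at this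

theorem std_eq :
    Subgroup.closure {t : Matrix.SpecialLinearGroup (Fin (n + 3)) k |
      ∃ c : k, (t : Matrix (Fin (n + 3)) (Fin (n + 3)) k) = Matrix.transvection 0 1 c}
      = Tg (Pi.single 0 1) (Pi.single 1 1) := by
  unfold Tg
  congr 1
  ext t
  constructor
  · rintro ⟨c, hc⟩
    exact ⟨c, Subtype.ext (by rw [tv_single 0 1 h01', hc]; rfl)⟩
  · rintro ⟨c, rfl⟩
    exact ⟨c, by rw [tv_single 0 1 h01']; rfl⟩

theorem Tg_conj_std (p φ : Fin (n + 3) → k) (hp : p ≠ 0) (hφ : φ ≠ 0) (h : φ ⬝ᵥ p = 0) :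
    ∃ g : Matrix.SpecialLinearGroup (Fin (n + 3)) k,
      Tg p φ = Cfsg.conjBy (Tg (Pi.single 1 1) (Pi.single 0 1)) g := by
  have hs : Cfsg.IsTransvection ((tv p φ 1 : Matrix.SpecialLinearGroup (Fin (n + 3)) k) :
      Matrix (Fin (n + 3)) (Fin (n + 3)) k) :=
    isTv_of_form _ p φ hp hφ h (by rw [tv_coe p φ h, one_smul])
  obtain ⟨g, hg⟩ := Cfsg.Agent.S2579.conj_std n (tv p φ 1) hs
  refine ⟨g, ?_⟩
  have h10 : (Pi.single 0 (1 : k) : Fin (n + 3) → k) ⬝ᵥ Pi.single 1 1 = 0 :=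
    single_dot 0 1 h01'
  have e1 : tv p φ 1 * g = g * tv (Pi.single 1 1) (Pi.single 0 1) 1 := by
    apply Subtype.ext
    rw [Matrix.SpecialLinearGroup.coe_mul, Matrix.SpecialLinearGroup.coe_mul, hg,
      tv_single 1 0 h01'.symm]
  have e2 : tv p φ 1 = g * tv (Pi.single 1 1) (Pi.single 0 1) 1 * g⁻¹ := by
    rw [← e1]
    group
  rw [tv_conj _ _ h10] at e2
  rw [conjBy_Tg _ _ h10]
  have e3 : ((tv p φ 1 : Matrix.SpecialLinearGroup (Fin (n + 3)) k) :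
      Matrix (Fin (n + 3)) (Fin (n + 3)) k)
      = ((tv ((g : Matrix (Fin (n + 3)) (Fin (n + 3)) k) *ᵥ Pi.single 1 1)
        (Pi.single 0 1 ᵥ* ((g⁻¹ : Matrix.SpecialLinearGroup (Fin (n + 3)) k) :
          Matrix (Fin (n + 3)) (Fin (n + 3)) k)) 1 :
          Matrix.SpecialLinearGroup (Fin (n + 3)) k) :
        Matrix (Fin (n + 3)) (Fin (n + 3)) k) := by
    rw [← e2]
  rw [tv_coe p φ h, tv_coe _ _ (conj_valid _ _ h10 g), one_smul, one_smul] at e3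
  have hM := add_left_cancel e3
  have hfun : tv p φ = tv ((g : Matrix (Fin (n + 3)) (Fin (n + 3)) k) *ᵥ Pi.single 1 1)
      (Pi.single 0 1 ᵥ* ((g⁻¹ : Matrix.SpecialLinearGroup (Fin (n + 3)) k) :
        Matrix (Fin (n + 3)) (Fin (n + 3)) k)) := by
    funext c
    apply Subtype.ext
    rw [tv_coe p φ h, tv_coe _ _ (conj_valid _ _ h10 g), hM]
  unfold Tg
  rw [hfun]

theorem set_eq : S0 k n = Sset k n := by
  have v01 : (Pi.single 1 (1 : k) : Fin (n + 3) → k) ⬝ᵥ Pi.single 0 1 = 0 :=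
    single_dot 1 0 h01'.symm
  ext A
  constructor
  · rintro ⟨g, rfl⟩
    rw [std_eq, conjBy_Tg _ _ v01]
    exact ⟨_, _, sl_mulVec_ne_zero g _ (single_ne_zero' 0), sl_vecMul_ne_zero g _
      (single_ne_zero' 1), conj_valid _ _ v01 g, rfl⟩
  · rintro ⟨p, φ, hp, hφ, h, rfl⟩
    obtain ⟨g, hg⟩ := Tg_conj_std p φ hp hφ h
    obtain ⟨g0, hg0⟩ := Tg_conj_std (Pi.single 0 (1 : k)) (Pi.single 1 1) (single_ne_zero' 0)
      (single_ne_zero' 1) v01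
    refine ⟨g * g0⁻¹, ?_⟩
    rw [std_eq, ← conjBy_conjBy, ← conjBy_eq_iff.1 hg0.symm, hg]

theorem S0_conj : Cfsg.IsConjClassOfSubgroups (S0 k n) := by
  refine ⟨⟨_, 1, rfl⟩, ?_⟩
  rintro _ ⟨g1, rfl⟩ _ ⟨g2, rfl⟩
  refine ⟨g2 * g1⁻¹, ?_⟩
  rw [conjBy_conjBy]
  congr 1
  group

end aux2
/-- Let k be a field and n a natural number. In SL_{n+3}(k) (so in every dimension at least 3) the conjugates of the root subgroup of elementary transvections 1 + c E₁₂ (c ∈ k) — that is, the groups of transvections attached to an incident point–hyperplane pair — form a non-degenerate class of abstract k-root subgroups of SL_{n+3}(k) whose graph of rank one pairs is connected. -/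
theorem result (k : Type*) [Field k] (n : ℕ) :
    Cfsg.IsRootSubgroupClass {A : Subgroup (Matrix.SpecialLinearGroup (Fin (n + 3)) k) |
        ∃ g : Matrix.SpecialLinearGroup (Fin (n + 3)) k,
          A = Cfsg.conjBy (Subgroup.closure {t : Matrix.SpecialLinearGroup (Fin (n + 3)) k |
            ∃ c : k, (t : Matrix (Fin (n + 3)) (Fin (n + 3)) k) = Matrix.transvection 0 1 c}) g} ∧
    Cfsg.IsNondegenerateRootSet {A : Subgroup (Matrix.SpecialLinearGroup (Fin (n + 3)) k) |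
        ∃ g : Matrix.SpecialLinearGroup (Fin (n + 3)) k,
          A = Cfsg.conjBy (Subgroup.closure {t : Matrix.SpecialLinearGroup (Fin (n + 3)) k |
            ∃ c : k, (t : Matrix (Fin (n + 3)) (Fin (n + 3)) k) = Matrix.transvection 0 1 c}) g} ∧
    Cfsg.IsKRootSubgroupSet k {A : Subgroup (Matrix.SpecialLinearGroup (Fin (n + 3)) k) |
        ∃ g : Matrix.SpecialLinearGroup (Fin (n + 3)) k,
          A = Cfsg.conjBy (Subgroup.closure {t : Matrix.SpecialLinearGroup (Fin (n + 3)) k |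
            ∃ c : k, (t : Matrix (Fin (n + 3)) (Fin (n + 3)) k) = Matrix.transvection 0 1 c}) g} ∧
    Cfsg.IsConnectedFamily (Cfsg.FAdj {A : Subgroup (Matrix.SpecialLinearGroup (Fin (n + 3)) k) |
        ∃ g : Matrix.SpecialLinearGroup (Fin (n + 3)) k,
          A = Cfsg.conjBy (Subgroup.closure {t : Matrix.SpecialLinearGroup (Fin (n + 3)) k |
            ∃ c : k, (t : Matrix (Fin (n + 3)) (Fin (n + 3)) k) = Matrix.transvection 0 1 c}) g})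
      {A : Subgroup (Matrix.SpecialLinearGroup (Fin (n + 3)) k) |
        ∃ g : Matrix.SpecialLinearGroup (Fin (n + 3)) k,
          A = Cfsg.conjBy (Subgroup.closure {t : Matrix.SpecialLinearGroup (Fin (n + 3)) k |
            ∃ c : k, (t : Matrix (Fin (n + 3)) (Fin (n + 3)) k) = Matrix.transvection 0 1 c}) g} := by
  show Cfsg.IsRootSubgroupClass (S0 k n) ∧ Cfsg.IsNondegenerateRootSet (S0 k n)
    ∧ Cfsg.IsKRootSubgroupSet k (S0 k n)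
    ∧ Cfsg.IsConnectedFamily (Cfsg.FAdj (S0 k n)) (S0 k n)
  refine ⟨⟨?_, S0_conj⟩, ?_, ?_, ?_⟩
  · rw [set_eq]
    exact Sset_isSet
  · rw [set_eq]
    exact Sset_nondeg
  · rw [set_eq]
    exact Sset_kroot
  · rw [set_eq]
    exact Sset_connected

end Cfsg.Agent.S5043
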