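import Mathlib
import Cfsg.Statements.S0779

set_option autoImplicit false
open Cfsg

namespace Cfsg.Agent.S0779

open Matrix

/-- Unitary transvections: let |F| = q², h the standard Hermitian form Σ x_i y_i^q and v ≠ 0 with h(v, v) = 0. The linear map x ↦ x + c h(x, v) v is an isometry of h if and only if c = 0 or c^(q−1) = −1. -/
theorem result {F : Type*} [Field F] [Fintype F] {q : ℕ} (hF : Fintype.card F = q ^ 2) (n : ℕ) (v : Fin n → F) (hv : v ≠ 0) (hv0 : Cfsg.hermForm n F q v v = 0) (c : F) : (∀ x y : Fin n → F, Cfsg.hermForm n F q ((Cfsg.unitaryTransvection n q v c).mulVec x) ((Cfsg.unitaryTransvection n q v c).mulVec y) = Cfsg.hermForm n F q x y) ↔ (c = 0 ∨ c ^ (q - 1) = -1) := by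
  classical
  obtain ⟨p, hchar, k, hp, hk⟩ := FiniteField.card' F
  haveI : Fact p.Prime := ⟨hp⟩
  haveI : ExpChar F p := ExpChar.prime hp
  have hqdvd : q ∣ p ^ (k : ℕ) := by
    rw [← hk, hF]; exact Dvd.intro_left (q ^ 1) (by ring)
  obtain ⟨m, -, hm⟩ := (Nat.dvd_prime_pow hp).mp hqdvd
  have hq1 : 1 ≤ q := by
    rcases Nat.eq_zero_or_pos q with h0 | h0
    · rw [h0] at hF
      have : 0 < Fintype.card F := Fintype.card_pos
      simp [hF] at this
    · exact h0
  set φ : F →+* F := iterateFrobenius F p m with hφ
  have hφq : ∀ a : F, φ a = a ^ q := by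
    intro a
    rw [hφ, iterateFrobenius_def, hm]
  have hφφ : ∀ a : F, φ (φ a) = a := by
    intro a
    rw [hφq, hφq, ← pow_mul, ← pow_two, ← hF, FiniteField.pow_card]
  -- the form in terms of φ
  have hh : ∀ x y : Fin n → F, Cfsg.hermForm n F q x y = ∑ i, x i * φ (y i) := by
    intro x y
    simp only [Cfsg.hermForm, hφq]
  have hT : ∀ x : Fin n → F, (Cfsg.unitaryTransvection n q v c).mulVec x =
      x + (c * Cfsg.hermForm n F q x v) • v := by
    intro x
    rw [Cfsg.unitaryTransvection, Matrix.add_mulVec, Matrix.one_mulVec, Matrix.smul_mulVec,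
      Matrix.vecMulVec_mulVec, op_smul_eq_smul, smul_smul]
    congr 3
    simp only [dotProduct, Cfsg.hermForm]
    exact Finset.sum_congr rfl fun i _ => mul_comm _ _
  have hsymm : ∀ x y : Fin n → F, Cfsg.hermForm n F q x y = φ (Cfsg.hermForm n F q y x) := by
    intro x y
    rw [hh, hh, map_sum]
    refine Finset.sum_congr rfl fun i _ => ?_
    rw [map_mul, hφφ, mul_comm]
  have hexp : ∀ x y : Fin n → F, ∀ s t : F,
      Cfsg.hermForm n F q (x + s • v) (y + t • v) =
        Cfsg.hermForm n F q x y + φ t * Cfsg.hermForm n F q x v + s * Cfsg.hermForm n F q v y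
          + s * φ t * Cfsg.hermForm n F q v v := by
    intro x y s t
    simp only [hh, Pi.add_apply, Pi.smul_apply, smul_eq_mul, map_add, map_mul, Finset.mul_sum,
      ← Finset.sum_add_distrib]
    refine Finset.sum_congr rfl fun i _ => ?_
    ring
  have key : ∀ x y : Fin n → F,
      Cfsg.hermForm n F q ((Cfsg.unitaryTransvection n q v c).mulVec x)
        ((Cfsg.unitaryTransvection n q v c).mulVec y) =
      Cfsg.hermForm n F q x y +
        (φ c + c) * (Cfsg.hermForm n F q x v * φ (Cfsg.hermForm n F q y v)) := by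
    intro x y
    rw [hT, hT, hexp, hv0, hsymm v y, map_mul]
    ring
  constructor
  · intro h
    obtain ⟨i, hi⟩ : ∃ i, v i ≠ 0 := by
      by_contra hcon
      push Not at hcon
      exact hv (funext hcon)
    have h1 := h (Pi.single i 1) (Pi.single i 1)
    rw [key] at h1
    have hval : Cfsg.hermForm n F q (Pi.single i 1) v = φ (v i) := by
      rw [hh, Finset.sum_eq_single i]
      · simp
      · intro j _ hj
        simp [Pi.single_apply, hj]
      · simp
    rw [hval, hφφ] at h1
    have h2 : (φ c + c) * (φ (v i) * v i) = 0 := by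
      linear_combination h1
    have hne : φ (v i) * v i ≠ 0 := by
      apply mul_ne_zero _ hi
      rw [hφq]
      exact pow_ne_zero _ hi
    have h3 : φ c + c = 0 := by
      rcases mul_eq_zero.mp h2 with h | h
      · exact h
      · exact absurd h hne
    by_cases hc : c = 0
    · left; exact hc
    · right
      rw [hφq] at h3
      have h4 : c ^ (q - 1) * c = (-1) * c := by
        rw [← pow_succ, Nat.sub_add_cancel hq1]
        linear_combination h3
      exact mul_right_cancel₀ hc h4
  · intro h x y
    rw [key]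
    have h3 : φ c + c = 0 := by
      rcases h with h | h
      · rw [h]; simp
      · rw [hφq]
        have : c ^ q = c ^ (q - 1) * c := by
          rw [← pow_succ, Nat.sub_add_cancel hq1]
        rw [this, h]; ring
    rw [h3, zero_mul, add_zero]

end Cfsg.Agent.S0779
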