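import Cfsg.Statements.S0781
-- import your own Cfsg.Agent.* helpers here
import Cfsg.Agent.Helper3.Unitary
import Cfsg.Agent.S0779

set_option autoImplicit false
open Cfsg

namespace Cfsg.Agent.S0781

open Matrix
open Cfsg.Agent.Helper3 (exists_frob HPres herm_phi herm_conj herm_smul_left herm_smul_right
  mem_SU_iff exists_norm_one_ne)

section Eich

variable {F : Type*} [Field F] [Fintype F] {q : ℕ} {n : ℕ}

theorem mat_ext_mv' (M N : Matrix (Fin n) (Fin n) F) (h : ∀ x, M *ᵥ x = N *ᵥ x) : M = N := by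
  apply Matrix.toLin'.injective
  apply LinearMap.ext
  intro x
  rw [Matrix.toLin'_apply, Matrix.toLin'_apply]
  exact h x

theorem vmv_mulVec (a b x : Fin n → F) :
    Matrix.vecMulVec a (fun j => b j ^ q) *ᵥ x = hermForm n F q x b • a := by
  ext i
  simp only [Matrix.mulVec, dotProduct, Matrix.vecMulVec_apply, hermForm, Pi.smul_apply,
    smul_eq_mul, Finset.sum_mul]
  apply Finset.sum_congr rfl
  intro j _
  ring

theorem herm_add_left (u w v : Fin n → F) :
    hermForm n F q (u + w) v = hermForm n F q u v + hermForm n F q w v := by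
  unfold hermForm
  simp only [Pi.add_apply, add_mul, Finset.sum_add_distrib]

theorem herm_add_right (φ : F →+* F) (hφ : ∀ x, φ x = x ^ q) (u v w : Fin n → F) :
    hermForm n F q u (v + w) = hermForm n F q u v + hermForm n F q u w := by
  rw [herm_phi φ hφ, herm_phi φ hφ, herm_phi φ hφ]
  simp only [Pi.add_apply, map_add, mul_add, Finset.sum_add_distrib]

theorem herm_smul_right' (φ : F →+* F) (hφ : ∀ x, φ x = x ^ q) (u v : Fin n → F) (s : F) :
    hermForm n F q u (s • v) = φ s * hermForm n F q u v := by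
  rw [herm_smul_right, hφ]

theorem herm_single_left (k : Fin n) (a : F) (y : Fin n → F) :
    hermForm n F q (Pi.single k a) y = a * y k ^ q := by
  unfold hermForm
  rw [Finset.sum_eq_single k]
  · rw [Pi.single_eq_same]
  · intro j _ hj
    rw [Pi.single_eq_of_ne hj, zero_mul]
  · intro h
    exact absurd (Finset.mem_univ k) h

/-- the Eichler transformation `x ↦ x + h(x,v) u + (s h(x,v) - h(x,u)) v` -/
def eich (n q : ℕ) (v u : Fin n → F) (s : F) : Matrix (Fin n) (Fin n) F :=
  1 + Matrix.vecMulVec u (fun j => v j ^ q) - Matrix.vecMulVec v (fun j => u j ^ q)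
    + s • Matrix.vecMulVec v (fun j => v j ^ q)

theorem eich_mulVec (v u : Fin n → F) (s : F) (x : Fin n → F) :
    eich n q v u s *ᵥ x = x + hermForm n F q x v • u
      + (s * hermForm n F q x v - hermForm n F q x u) • v := by
  unfold eich
  rw [Matrix.add_mulVec, Matrix.sub_mulVec, Matrix.add_mulVec, Matrix.one_mulVec,
    Matrix.smul_mulVec, vmv_mulVec, vmv_mulVec, vmv_mulVec, smul_smul]
  module

theorem tv_mulVec' (v : Fin n → F) (c : F) (x : Fin n → F) :
    Cfsg.unitaryTransvection n q v c *ᵥ x = x + (c * hermForm n F q x v) • v := by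
  unfold Cfsg.unitaryTransvection
  rw [Matrix.add_mulVec, Matrix.one_mulVec, Matrix.smul_mulVec, vmv_mulVec, smul_smul]

theorem herm_eich_v (v u : Fin n → F) (s : F) (hvv : hermForm n F q v v = 0)
    (huv : hermForm n F q u v = 0) (x : Fin n → F) :
    hermForm n F q (eich n q v u s *ᵥ x) v = hermForm n F q x v := by
  rw [eich_mulVec, herm_add_left, herm_add_left, herm_smul_left, herm_smul_left, hvv, huv,
    mul_zero, mul_zero, add_zero, add_zero]

theorem eich_pres (φ : F →+* F) (hφ : ∀ x, φ x = x ^ q) (hφ2 : ∀ x, φ (φ x) = x)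
    (v u : Fin n → F) (s : F) (hvv : hermForm n F q v v = 0) (huv : hermForm n F q u v = 0)
    (hs : s + φ s = - hermForm n F q u u) : HPres n q (eich n q v u s) := by
  intro x y
  have e1 : hermForm n F q u y = φ (hermForm n F q y u) := (herm_conj φ hφ hφ2 y u).symm
  have e2 : hermForm n F q v y = φ (hermForm n F q y v) := (herm_conj φ hφ hφ2 y v).symm
  have e3 : hermForm n F q v u = 0 := by rw [← herm_conj φ hφ hφ2 u v, huv, map_zero]
  rw [eich_mulVec, eich_mulVec]
  simp only [herm_add_left, herm_smul_left, herm_add_right φ hφ, herm_smul_right' φ hφ]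
  rw [e1, e2, e3, hvv, huv, map_sub, map_mul]
  linear_combination (hermForm n F q x v * φ (hermForm n F q y v)) * hs

theorem eich_det (φ : F →+* F) (hφ : ∀ x, φ x = x ^ q) (hφ2 : ∀ x, φ (φ x) = x)
    (v u : Fin n → F) (s : F) (hvv : hermForm n F q v v = 0) (huv : hermForm n F q u v = 0) :
    (eich n q v u s).det = 1 := by
  have e3 : hermForm n F q v u = 0 := by rw [← herm_conj φ hφ hφ2 u v, huv, map_zero]
  have h1 : eich n q v u s = 1 + (Matrix.of (fun i (k : Fin 2) => ![u i, v i] k)) *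
      (Matrix.of (fun (k : Fin 2) j => ![v j ^ q, s * v j ^ q - u j ^ q] k)) := by
    unfold eich
    ext i j
    simp only [Matrix.add_apply, Matrix.sub_apply, Matrix.smul_apply, Matrix.vecMulVec_apply,
      Matrix.mul_apply, Matrix.of_apply, Fin.sum_univ_two, Matrix.cons_val_zero,
      Matrix.cons_val_one, smul_eq_mul]
    ring
  rw [h1, Matrix.det_one_add_mul_comm, Matrix.det_fin_two]
  have a00 : ∑ j, v j ^ q * u j = 0 := by
    rw [← huv]
    unfold hermForm
    exact Finset.sum_congr rfl (fun j _ => mul_comm _ _)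
  have a01 : ∑ j, v j ^ q * v j = 0 := by
    rw [← hvv]
    unfold hermForm
    exact Finset.sum_congr rfl (fun j _ => mul_comm _ _)
  have a11 : ∑ j, (s * v j ^ q - u j ^ q) * v j = 0 := by
    have h2 : ∑ j, (s * v j ^ q - u j ^ q) * v j
        = s * hermForm n F q v v - hermForm n F q v u := by
      unfold hermForm
      rw [Finset.mul_sum, ← Finset.sum_sub_distrib]
      exact Finset.sum_congr rfl (fun j _ => by ring)
    rw [h2, hvv, e3, mul_zero, sub_zero]
  simp only [Matrix.add_apply, Matrix.one_apply_eq, Matrix.mul_apply, Matrix.of_apply,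
    Matrix.cons_val_zero, Matrix.cons_val_one, a00, a01, a11, ne_eq, not_false_eq_true,
    Matrix.one_apply_ne, zero_ne_one, one_ne_zero, add_zero, zero_add, mul_one, mul_zero,
    zero_mul, sub_zero]

theorem eich_comm (φ : F →+* F) (hφ : ∀ x, φ x = x ^ q) (hφ2 : ∀ x, φ (φ x) = x)
    (v u u' : Fin n → F) (s s' : F) (hvv : hermForm n F q v v = 0)
    (huv : hermForm n F q u v = 0) (hu'v : hermForm n F q u' v = 0) :
    eich n q v u s * eich n q v u' s' =
      Cfsg.unitaryTransvection n q v (hermForm n F q u u' - hermForm n F q u' u) *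
        (eich n q v u' s' * eich n q v u s) := by
  have e3 : hermForm n F q v u = 0 := by rw [← herm_conj φ hφ hφ2 u v, huv, map_zero]
  have e3' : hermForm n F q v u' = 0 := by rw [← herm_conj φ hφ hφ2 u' v, hu'v, map_zero]
  apply mat_ext_mv'
  intro x
  rw [← Matrix.mulVec_mulVec, ← Matrix.mulVec_mulVec, ← Matrix.mulVec_mulVec, tv_mulVec',
    herm_eich_v v u' s' hvv hu'v, herm_eich_v v u s hvv huv,
    eich_mulVec v u s (eich n q v u' s' *ᵥ x), herm_eich_v v u' s' hvv hu'v,
    eich_mulVec v u' s' (eich n q v u s *ᵥ x), herm_eich_v v u s hvv huv,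
    eich_mulVec v u' s' x, eich_mulVec v u s x]
  simp only [herm_add_left, herm_smul_left, e3, e3', mul_zero, add_zero]
  module

end Eich

theorem herm_sub_left' {F : Type*} [Field F] {q n : ℕ} (u w v : Fin n → F) :
    hermForm n F q (u - w) v = hermForm n F q u v - hermForm n F q w v := by
  unfold hermForm
  simp only [Pi.sub_apply, sub_mul, Finset.sum_sub_distrib]

/-- In SU_n(q) with n ≥ 4, or n = 3 and q > 2, every element whose matrix is a unitary transvection x ↦ x + c h(x, v) v (v isotropic) is a commutator ⁅B, C⁆ of two elements of SU_n(q). -/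
theorem result {F : Type*} [Field F] [Fintype F] {q : ℕ} (hF : Fintype.card F = q ^ 2) (n : ℕ) (hn : 4 ≤ n ∨ (n = 3 ∧ 3 ≤ q)) (A : ↥(Cfsg.SU n F q)) (v : Fin n → F) (c : F) (hv0 : Cfsg.hermForm n F q v v = 0) (hA : ((A : Matrix.SpecialLinearGroup (Fin n) F) : Matrix (Fin n) (Fin n) F) = Cfsg.unitaryTransvection n q v c) : A ∈ commutatorSet ↥(Cfsg.SU n F q) := by
  classical
  obtain ⟨φ, hφ, hφ2⟩ := exists_frob hF
  have hn3 : 3 ≤ n := by
    rcases hn with h | ⟨h, -⟩ <;> omega
  have hq1 : 1 ≤ q := by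
    rcases Nat.eq_zero_or_pos q with h | h
    · have h1 := Fintype.card_pos (α := F)
      rw [hF, h] at h1
      simp at h1
    · exact h
  have hApres : HPres n q (Cfsg.unitaryTransvection n q v c) := by
    rw [← hA]
    exact (mem_SU_iff _).mp A.2
  by_cases hv : v = 0
  · have hA1 : A = 1 := by
      apply Subtype.ext
      apply Subtype.ext
      rw [hA, hv]
      ext i j
      simp [Cfsg.unitaryTransvection, Matrix.vecMulVec_apply]
    rw [hA1]
    exact ⟨1, 1, by simp⟩
  by_cases hc : c = 0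
  · have hA1 : A = 1 := by
      apply Subtype.ext
      apply Subtype.ext
      rw [hA, hc]
      ext i j
      simp [Cfsg.unitaryTransvection]
    rw [hA1]
    exact ⟨1, 1, by simp⟩
  have hcq : φ c = -c := by
    have h1 := (Cfsg.Agent.S0779.result hF n v hv hv0 c).mp hApres
    rcases h1 with h1 | h1
    · exact absurd h1 hc
    · rw [hφ]
      have h2 : c ^ q = c ^ (q - 1) * c := by
        rw [← pow_succ]
        congr 1
        omega
      rw [h2, h1, neg_one_mul]
  obtain ⟨l, hl1, hl2, hl3⟩ := exists_norm_one_ne hF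
  have hφl : φ l ≠ l := by
    intro h
    rw [hφ] at h
    rw [h] at hl1
    exact hl3 hl1
  obtain ⟨t, ht⟩ : ∃ t : F, t - φ t = c := by
    have hδ : l - φ l ≠ 0 := sub_ne_zero.mpr (Ne.symm hφl)
    have hδφ : φ (l - φ l) = -(l - φ l) := by
      rw [map_sub, hφ2]
      ring
    refine ⟨c / (l - φ l) * l, ?_⟩
    rw [map_mul, map_div₀, hcq, hδφ]
    field_simp
  have htr : ∀ r : F, φ r = r → ∃ s : F, s + φ s = r := by
    intro r hr
    by_cases hτ : l + φ l = 0
    · have h2 : (2 : F) ≠ 0 := by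
        intro h2
        apply hφl
        have h3 : φ l = -l := by linear_combination hτ
        rw [h3]
        linear_combination -l * h2
      refine ⟨r / 2, ?_⟩
      rw [map_div₀, hr, map_ofNat]
      field_simp
      ring
    · have hτφ : φ (l + φ l) = l + φ l := by
        rw [map_add, hφ2]
        ring
      refine ⟨r / (l + φ l) * l, ?_⟩
      rw [map_mul, map_div₀, hr, hτφ]
      field_simp
  obtain ⟨u₀, u₀', h1, h2, h3⟩ : ∃ u₀ u₀' : Fin n → F, hermForm n F q u₀ v = 0 ∧
      hermForm n F q u₀' v = 0 ∧ hermForm n F q u₀ u₀' ≠ 0 := by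
    by_cases hk : ∃ k, v k = 0
    · obtain ⟨k, hk⟩ := hk
      refine ⟨Pi.single k 1, Pi.single k 1, ?_, ?_, ?_⟩
      · rw [herm_single_left, hk, zero_pow (by omega), mul_zero]
      · rw [herm_single_left, hk, zero_pow (by omega), mul_zero]
      · rw [herm_single_left, Pi.single_eq_same, one_pow, mul_one]
        exact one_ne_zero
    · push Not at hk
      obtain ⟨i0, i1, i2, h01, h02, h12⟩ : ∃ i0 i1 i2 : Fin n, i0 ≠ i1 ∧ i0 ≠ i2 ∧ i1 ≠ i2 :=
        ⟨⟨0, by omega⟩, ⟨1, by omega⟩, ⟨2, by omega⟩, by simp [Fin.ext_iff],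
          by simp [Fin.ext_iff], by simp [Fin.ext_iff]⟩
      refine ⟨Pi.single i0 (v i1 ^ q) - Pi.single i1 (v i0 ^ q),
        Pi.single i1 (v i2 ^ q) - Pi.single i2 (v i1 ^ q), ?_, ?_, ?_⟩
      · rw [herm_sub_left', herm_single_left, herm_single_left]
        ring
      · rw [herm_sub_left', herm_single_left, herm_single_left]
        ring
      · rw [herm_sub_left', herm_single_left, herm_single_left]
        simp only [Pi.sub_apply, Pi.single_eq_of_ne h01, Pi.single_eq_of_ne h02,
          Pi.single_eq_same, Pi.single_eq_of_ne h12, sub_zero]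
        have h4 : (v i2 ^ q) ^ q = v i2 := by rw [← hφ, ← hφ, hφ2]
        rw [h4, zero_pow (by omega), mul_zero, zero_sub]
        exact neg_ne_zero.mpr (mul_ne_zero (pow_ne_zero _ (hk i0)) (hk i2))
  obtain ⟨u, u', huv, hu'v, huu'⟩ : ∃ u u' : Fin n → F, hermForm n F q u v = 0 ∧
      hermForm n F q u' v = 0 ∧ hermForm n F q u u' - hermForm n F q u' u = c := by
    refine ⟨(t / hermForm n F q u₀ u₀') • u₀, u₀', ?_, h2, ?_⟩
    · rw [herm_smul_left, h1, mul_zero]
    · have e : hermForm n F q ((t / hermForm n F q u₀ u₀') • u₀) u₀' = t := by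
        rw [herm_smul_left, div_mul_cancel₀ _ h3]
      rw [← herm_conj φ hφ hφ2 ((t / hermForm n F q u₀ u₀') • u₀) u₀', e]
      exact ht
  obtain ⟨s, hs⟩ := htr (-hermForm n F q u u) (by rw [map_neg, herm_conj φ hφ hφ2])
  obtain ⟨s', hs'⟩ := htr (-hermForm n F q u' u') (by rw [map_neg, herm_conj φ hφ hφ2])
  obtain ⟨B, hB⟩ : ∃ B : ↥(Cfsg.SU n F q),
      ((B : Matrix.SpecialLinearGroup (Fin n) F) : Matrix (Fin n) (Fin n) F) = eich n q v u s :=
    ⟨⟨⟨eich n q v u s, eich_det φ hφ hφ2 v u s hv0 huv⟩,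
      (mem_SU_iff _).mpr (eich_pres φ hφ hφ2 v u s hv0 huv hs)⟩, rfl⟩
  obtain ⟨C, hC⟩ : ∃ C : ↥(Cfsg.SU n F q),
      ((C : Matrix.SpecialLinearGroup (Fin n) F) : Matrix (Fin n) (Fin n) F) = eich n q v u' s' :=
    ⟨⟨⟨eich n q v u' s', eich_det φ hφ hφ2 v u' s' hv0 hu'v⟩,
      (mem_SU_iff _).mpr (eich_pres φ hφ hφ2 v u' s' hv0 hu'v hs')⟩, rfl⟩
  have hBC : B * C = A * (C * B) := by
    apply Subtype.ext
    apply Subtype.ext
    show ((B : Matrix.SpecialLinearGroup (Fin n) F) : Matrix (Fin n) (Fin n) F) *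
        ((C : Matrix.SpecialLinearGroup (Fin n) F) : Matrix (Fin n) (Fin n) F) =
      ((A : Matrix.SpecialLinearGroup (Fin n) F) : Matrix (Fin n) (Fin n) F) *
        (((C : Matrix.SpecialLinearGroup (Fin n) F) : Matrix (Fin n) (Fin n) F) *
          ((B : Matrix.SpecialLinearGroup (Fin n) F) : Matrix (Fin n) (Fin n) F))
    rw [hA, hB, hC, eich_comm φ hφ hφ2 v u u' s s' hv0 huv hu'v, huu']
  refine ⟨B, C, ?_⟩
  rw [commutatorElement_def, hBC]
  group

end Cfsg.Agent.S0781
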