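import Cfsg.Statements.S0549
import Mathlib

set_option autoImplicit false
open Cfsg
open Pointwise

namespace Cfsg.Agent.S0549

/-- A nontrivial normal subgroup together with a core-free maximal subgroup generates the group:
every element is a product. -/
theorem exists_mul_of_normal {G : Type*} [Group G] (U : Subgroup G) (hU : IsCoatom U)
    (hcore : U.normalCore = ⊥) (K : Subgroup G) [K.Normal] (hK : K ≠ ⊥) (g : G) :
    ∃ k ∈ K, ∃ u ∈ U, g = k * u := by
  have hnot : ¬ K ≤ U := by
    intro h
    have : K ≤ U.normalCore := Subgroup.normal_le_normalCore.mpr h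
    rw [hcore] at this
    exact hK (le_bot_iff.mp this)
  have hlt : U < K ⊔ U := by
    refine lt_of_le_of_ne le_sup_right ?_
    intro h
    apply hnot
    rw [h]
    exact le_sup_left
  have htop : K ⊔ U = ⊤ := hU.2 _ hlt
  have hg : g ∈ ((K ⊔ U : Subgroup G) : Set G) := by
    rw [htop]; trivial
  rw [Subgroup.normal_mul] at hg
  obtain ⟨k, hk, u, hu, rfl⟩ := Set.mem_mul.mp hg
  exact ⟨k, hk, u, hu, rfl⟩

theorem centralizer_inf_eq_bot {G : Type*} [Group G] (U : Subgroup G) (hU : IsCoatom U)
    (hcore : U.normalCore = ⊥) (N : Subgroup G) [N.Normal] (hN : N ≠ ⊥) :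
    Subgroup.centralizer (N : Set G) ⊓ U = ⊥ := by
  have hnorm : (Subgroup.centralizer (N : Set G) ⊓ U).Normal := by
    constructor
    intro d hd g
    obtain ⟨n, hn, u, hu, rfl⟩ := exists_mul_of_normal U hU hcore N hN g
    have h1 : u * d * u⁻¹ ∈ Subgroup.centralizer (N : Set G) :=
      (Subgroup.normal_centralizer (H := N)).conj_mem d hd.1 u
    have h2 : u * d * u⁻¹ ∈ U := U.mul_mem (U.mul_mem hu hd.2) (U.inv_mem hu)
    have h3 : n * (u * d * u⁻¹) = (u * d * u⁻¹) * n := by
      rw [Subgroup.mem_centralizer_iff] at h1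
      exact h1 n hn
    have h4 : n * u * d * (n * u)⁻¹ = u * d * u⁻¹ := by
      calc n * u * d * (n * u)⁻¹ = n * (u * d * u⁻¹) * n⁻¹ := by group
        _ = (u * d * u⁻¹) * n * n⁻¹ := by rw [h3]
        _ = u * d * u⁻¹ := by group
    rw [h4]
    exact ⟨h1, h2⟩
  have hle : Subgroup.centralizer (N : Set G) ⊓ U ≤ U.normalCore :=
    Subgroup.normal_le_normalCore.mpr inf_le_right
  rw [hcore] at hle
  exact le_bot_iff.mp hle

/-- Let U be a maximal subgroup of a finite group G whose normal core is trivial, and N a nontrivial normal subgroup with centralizer C. Then C ∩ U = 1, and either C = 1 or C is a minimal normal subgroup of G. -/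
theorem result {G : Type*} [Group G] [Finite G] (U : Subgroup G) (hU : IsCoatom U) (hcore : U.normalCore = ⊥) (N : Subgroup G) [N.Normal] (hN : N ≠ ⊥) : Subgroup.centralizer (N : Set G) ⊓ U = ⊥ ∧ (Subgroup.centralizer (N : Set G) = ⊥ ∨ (Subgroup.centralizer (N : Set G) ≠ ⊥ ∧ ∀ K : Subgroup G, K.Normal → K ≤ Subgroup.centralizer (N : Set G) → K = ⊥ ∨ K = Subgroup.centralizer (N : Set G))) := by
  have hD := centralizer_inf_eq_bot U hU hcore N hN
  refine ⟨hD, ?_⟩
  by_cases hC : Subgroup.centralizer (N : Set G) = ⊥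
  · exact Or.inl hC
  · refine Or.inr ⟨hC, fun K hKn hKC => ?_⟩
    by_cases hK : K = ⊥
    · exact Or.inl hK
    · right
      apply le_antisymm hKC
      intro c hc
      haveI := hKn
      obtain ⟨k, hk, u, hu, rfl⟩ := exists_mul_of_normal U hU hcore K hK c
      have hu' : u ∈ Subgroup.centralizer (N : Set G) := by
        have : u = k⁻¹ * (k * u) := by group
        rw [this]
        exact Subgroup.mul_mem _ (Subgroup.inv_mem _ (hKC hk)) hc
      have : u ∈ Subgroup.centralizer (N : Set G) ⊓ U := ⟨hu', hu⟩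
      rw [hD, Subgroup.mem_bot] at this
      rw [this, mul_one]
      exact hk

end Cfsg.Agent.S0549
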