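import Cfsg.Statements.S0551
import Cfsg.Agent.S0549
import Cfsg.Agent.S0567
import Cfsg.Agent.S0001
import Cfsg.Agent.Helper4.MinNormal
import Mathlib

set_option autoImplicit false
open Cfsg

namespace Cfsg.Agent.S0551

open scoped Pointwise

theorem structure_lemma {G : Type*} [Group G] [Finite G] [Group.IsSolvable G] (A : Subgroup G)
    [A.Normal] (hA : A ≠ ⊥)
    (hAmin : ∀ K : Subgroup G, K.Normal → K ≤ A → K = ⊥ ∨ K = A)
    (U : Subgroup G) (hU : IsCoatom U) (hUc : U.normalCore = ⊥) :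
    Subgroup.centralizer (A : Set G) = A ∧ A ⊓ U = ⊥ := by
  have hab := Cfsg.Agent.Helper4.abelian_of_min_normal A hA hAmin
  have hAC : A ≤ Subgroup.centralizer (A : Set G) := by
    intro a ha
    rw [Subgroup.mem_centralizer_iff]
    intro h hh
    exact hab h hh a ha
  obtain ⟨hCU, hC⟩ := Cfsg.Agent.S0549.result U hU hUc A hA
  have hCA : Subgroup.centralizer (A : Set G) = A := by
    rcases hC with h | ⟨hne, hmin⟩
    · exfalso
      rw [h] at hAC
      exact hA (le_bot_iff.mp hAC)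
    · rcases hmin A inferInstance hAC with h' | h'
      · exact absurd h' hA
      · exact h'.symm
  refine ⟨hCA, ?_⟩
  have h2 := hCU
  rw [hCA] at h2
  exact h2

/-- a `p`-group acting by conjugation on a nontrivial normal `p`-subgroup centralizes a
nontrivial element of it. -/
theorem exists_ne_one_centralized {G : Type*} [Group G] [Finite G] (p : ℕ) [Fact p.Prime]
    (A Q : Subgroup G) [A.Normal] (hA : A ≠ ⊥) (hAp : IsPGroup p A) (hQp : IsPGroup p Q) :
    ∃ a ∈ A, a ≠ 1 ∧ ∀ x ∈ Q, x * a = a * x := by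
  let φ : Q →* MulAut A := (MulAut.conjNormal (H := A)).comp Q.subtype
  letI : MulAction Q A := MulAction.compHom A φ
  have hnt : Nontrivial A := (Subgroup.nontrivial_iff_ne_bot A).mpr hA
  have hdvd : p ∣ Nat.card A := by
    obtain ⟨n, hn0, hn⟩ := hAp.nontrivial_iff_card.mp hnt
    rw [hn]
    exact dvd_pow_self p hn0.ne'
  have h1 : (1 : A) ∈ MulAction.fixedPoints Q A := by
    intro x
    show φ x 1 = 1
    exact map_one _
  obtain ⟨b, hb, hne⟩ := hQp.exists_fixed_point_of_prime_dvd_card_of_fixed_point A hdvd h1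
  refine ⟨b, b.2, ?_, ?_⟩
  · intro h
    apply hne
    exact (Subtype.ext h).symm
  · intro x hx
    have h2 : φ ⟨x, hx⟩ b = b := hb ⟨x, hx⟩
    have h3 : x * (b : G) * x⁻¹ = b := congrArg Subtype.val h2
    calc x * (b : G) = x * b * x⁻¹ * x := by group
      _ = b * x := by rw [h3]

theorem card_sup_of_disjoint {G : Type*} [Group G] [Finite G] (A Q : Subgroup G) [A.Normal]
    (h : A ⊓ Q = ⊥) : Nat.card (A ⊔ Q : Subgroup G) = Nat.card Q * Nat.card A := by
  have h1 := Cfsg.Agent.S0001.card_map_mk_mul_card (M := A) (A := A ⊔ Q) le_sup_left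
  rw [Subgroup.map_sup, QuotientGroup.map_mk'_self, bot_sup_eq,
    Cfsg.Agent.S0001.card_map_mk_of_disjoint h] at h1
  exact h1.symm

theorem isCoatom_conj_smul {G : Type*} [Group G] (b : G) (U : Subgroup G) (hU : IsCoatom U) :
    IsCoatom (MulAut.conj b • U) := by
  have := (OrderIso.isCoatom_iff (MulEquiv.mapSubgroup (MulAut.conj b)) U).mpr hU
  exact this

/-- In a finite solvable group all core-free maximal subgroups are conjugate. -/
theorem result {G : Type*} [Group G] [Finite G] [Group.IsSolvable G] (U V : Subgroup G) (hU : IsCoatom U) (hV : IsCoatom V) (hUc : U.normalCore = ⊥) (hVc : V.normalCore = ⊥) : ∃ g : G, MulAut.conj g • U = V := by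
  have hnt : Nontrivial G := by
    by_contra h
    rw [not_nontrivial_iff_subsingleton] at h
    apply hU.1
    rw [Subgroup.eq_top_iff']
    intro x
    rw [Subsingleton.elim x 1]
    exact U.one_mem
  obtain ⟨A, hAn, hA, hAmin⟩ := Cfsg.Agent.S0048.exists_minimal_normal (G := G)
  obtain ⟨hCA, hAU⟩ := structure_lemma A hA hAmin U hU hUc
  obtain ⟨-, hAV⟩ := structure_lemma A hA hAmin V hV hVc
  have hab := Cfsg.Agent.Helper4.abelian_of_min_normal A hA hAmin
  have hGU := Cfsg.Agent.S0549.exists_mul_of_normal U hU hUc A hA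
  have hGV := Cfsg.Agent.S0549.exists_mul_of_normal V hV hVc A hA
  by_cases hUbot : U = ⊥
  · refine ⟨1, ?_⟩
    have hAtop : A = ⊤ := by
      rw [Subgroup.eq_top_iff']
      intro g
      obtain ⟨k, hk, u, hu, rfl⟩ := hGU g
      rw [hUbot, Subgroup.mem_bot] at hu
      rw [hu, mul_one]
      exact hk
    have hVbot : V = ⊥ := by
      rw [hAtop, top_inf_eq] at hAV
      exact hAV
    rw [map_one, one_smul, hUbot, hVbot]
  have hUnt : Nontrivial U := (Subgroup.nontrivial_iff_ne_bot U).mpr hUbot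
  obtain ⟨Q₀, hQ₀n, hQ₀, hQ₀min⟩ := Cfsg.Agent.S0048.exists_minimal_normal (G := U)
  obtain ⟨q, hq, hQ₀q⟩ := Cfsg.Agent.Helper4.isPGroup_of_min_normal Q₀ hQ₀ hQ₀min
  obtain ⟨p, hp, hAp⟩ := Cfsg.Agent.Helper4.isPGroup_of_min_normal A hA hAmin
  obtain ⟨Q, hQdef⟩ : ∃ Q : Subgroup G, Q = Q₀.map U.subtype := ⟨_, rfl⟩
  have hQU : Q ≤ U := by
    rw [hQdef]
    exact Subgroup.map_subtype_le Q₀
  have hQne : Q ≠ ⊥ := by
    intro h
    apply hQ₀
    rw [hQdef] at h
    exact (Subgroup.map_eq_bot_iff_of_injective Q₀ U.subtype_injective).mp h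
  have hQq : IsPGroup q Q := by
    rw [hQdef]
    exact hQ₀q.map U.subtype
  have hUQ : ∀ u ∈ U, ∀ x ∈ Q, u * x * u⁻¹ ∈ Q := by
    intro u hu x hx
    rw [hQdef] at hx ⊢
    obtain ⟨y, hy, rfl⟩ := hx
    exact ⟨⟨u, hu⟩ * y * ⟨u, hu⟩⁻¹, hQ₀n.conj_mem y hy ⟨u, hu⟩, rfl⟩
  have hAQ : A ⊓ Q = ⊥ := by
    have : A ⊓ Q ≤ A ⊓ U := inf_le_inf_left A hQU
    rw [hAU] at this
    exact le_bot_iff.mp this
  -- the primes differ
  have hpq : p ≠ q := by
    intro hpq
    subst hpq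
    have : Fact p.Prime := ⟨hp⟩
    obtain ⟨a, haA, ha1, hacomm⟩ := exists_ne_one_centralized p A Q hA hAp hQq
    have hCn : (A ⊓ Subgroup.centralizer (Q : Set G)).Normal := by
      constructor
      intro c hc g
      obtain ⟨k, hk, u, hu, rfl⟩ := hGU g
      have h1 : u * c * u⁻¹ ∈ A := hAn.conj_mem c hc.1 u
      have h2 : u * c * u⁻¹ ∈ Subgroup.centralizer (Q : Set G) := by
        rw [Subgroup.mem_centralizer_iff]
        intro x hx
        have h3 : u⁻¹ * x * u ∈ Q := by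
          have := hUQ u⁻¹ (U.inv_mem hu) x hx
          rwa [inv_inv] at this
        have h4 := (Subgroup.mem_centralizer_iff.mp hc.2) _ h3
        calc x * (u * c * u⁻¹) = u * ((u⁻¹ * x * u) * c) * u⁻¹ := by group
          _ = u * (c * (u⁻¹ * x * u)) * u⁻¹ := by rw [h4]
          _ = u * c * u⁻¹ * x := by group
      have e : k * u * c * (k * u)⁻¹ = u * c * u⁻¹ := by
        calc k * u * c * (k * u)⁻¹ = (k * (u * c * u⁻¹)) * k⁻¹ := by group
          _ = ((u * c * u⁻¹) * k) * k⁻¹ := by rw [hab k hk _ h1]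
          _ = u * c * u⁻¹ := by group
      rw [e]
      exact ⟨h1, h2⟩
    have hCA' : A ⊓ Subgroup.centralizer (Q : Set G) = A := by
      rcases hAmin _ hCn inf_le_left with h | h
      · exfalso
        have : a ∈ A ⊓ Subgroup.centralizer (Q : Set G) :=
          ⟨haA, Subgroup.mem_centralizer_iff.mpr (fun x hx => hacomm x hx)⟩
        rw [h, Subgroup.mem_bot] at this
        exact ha1 this
      · exact h
    have hQA : Q ≤ A := by
      intro x hx
      rw [← hCA, Subgroup.mem_centralizer_iff]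
      intro y hy
      have hy' : y ∈ A ⊓ Subgroup.centralizer (Q : Set G) := by rw [hCA']; exact hy
      exact ((Subgroup.mem_centralizer_iff.mp hy'.2) x hx).symm
    apply hQne
    have : Q ≤ A ⊓ Q := le_inf hQA le_rfl
    rw [hAQ] at this
    exact le_bot_iff.mp this
  -- B = A ⊔ Q is normal
  have hBn : (A ⊔ Q).Normal := by
    constructor
    intro b hb g
    obtain ⟨k, hk, u, hu, rfl⟩ := hGU g
    have h1 : u * b * u⁻¹ ∈ A ⊔ Q := by
      have : A ⊔ Q ≤ (A ⊔ Q).comap (MulAut.conj u).toMonoidHom := by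
        apply sup_le
        · intro n hn
          rw [Subgroup.mem_comap]
          exact (le_sup_left : A ≤ A ⊔ Q) (hAn.conj_mem n hn u)
        · intro n hn
          rw [Subgroup.mem_comap]
          exact (le_sup_right : Q ≤ A ⊔ Q) (hUQ u hu n hn)
      exact this hb
    have h2 : k ∈ A ⊔ Q := (le_sup_left : A ≤ A ⊔ Q) hk
    have e : k * u * b * (k * u)⁻¹ = k * (u * b * u⁻¹) * k⁻¹ := by group
    rw [e]
    exact (A ⊔ Q).mul_mem ((A ⊔ Q).mul_mem h2 h1) ((A ⊔ Q).inv_mem h2)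
  have hcardB := card_sup_of_disjoint A Q hAQ
  -- Q' = B ⊓ V
  obtain ⟨Q', hQ'def⟩ : ∃ Q' : Subgroup G, Q' = (A ⊔ Q) ⊓ V := ⟨_, rfl⟩
  have hQ'B : Q' ≤ A ⊔ Q := by rw [hQ'def]; exact inf_le_left
  have hQ'V : Q' ≤ V := by rw [hQ'def]; exact inf_le_right
  have hAQ' : A ⊓ Q' = ⊥ := by
    have : A ⊓ Q' ≤ A ⊓ V := inf_le_inf_left A hQ'V
    rw [hAV] at this
    exact le_bot_iff.mp this
  have hsup : A ⊔ Q' = A ⊔ Q := by
    apply le_antisymm (sup_le le_sup_left hQ'B)
    intro b hb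
    obtain ⟨k, hk, v, hv, rfl⟩ := hGV b
    have hvB : v ∈ A ⊔ Q := by
      have : v = k⁻¹ * (k * v) := by group
      rw [this]
      exact (A ⊔ Q).mul_mem ((le_sup_left : A ≤ A ⊔ Q) (A.inv_mem hk)) hb
    have hvQ' : v ∈ Q' := by rw [hQ'def]; exact ⟨hvB, hv⟩
    exact (A ⊔ Q').mul_mem ((le_sup_left : A ≤ A ⊔ Q') hk) ((le_sup_right : Q' ≤ A ⊔ Q') hvQ')
  have hcardQ' : Nat.card Q' = Nat.card Q := by
    have h1 := card_sup_of_disjoint A Q' hAQ'
    rw [hsup, hcardB] at h1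
    exact (Nat.eq_of_mul_eq_mul_right Nat.card_pos h1).symm
  -- conjugacy inside B
  have hconj : ∃ b : G, MulAut.conj b • Q = Q' := by
    have hpf : Fact p.Prime := ⟨hp⟩
    have hqf : Fact q.Prime := ⟨hq⟩
    obtain ⟨a, ha⟩ := IsPGroup.iff_card.mp hAp
    obtain ⟨c, hc⟩ := IsPGroup.iff_card.mp hQq
    have hNcard : Nat.card (A.subgroupOf (A ⊔ Q)) = Nat.card A :=
      Cfsg.Agent.S0001.card_subgroupOf_of_le le_sup_left
    have hNidx : (A.subgroupOf (A ⊔ Q)).index = Nat.card Q := by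
      have h1 := (A.subgroupOf (A ⊔ Q)).card_mul_index
      rw [hNcard, hcardB, mul_comm] at h1
      exact Nat.eq_of_mul_eq_mul_right Nat.card_pos h1
    have hcop : (Nat.card (A.subgroupOf (A ⊔ Q))).Coprime (A.subgroupOf (A ⊔ Q)).index := by
      rw [hNcard, hNidx, ha, hc]
      exact Nat.Coprime.pow _ _ ((Nat.coprime_primes hp hq).mpr hpq)
    have hH : Nat.card (Q.subgroupOf (A ⊔ Q)) = (A.subgroupOf (A ⊔ Q)).index := by
      rw [hNidx]
      exact Cfsg.Agent.S0001.card_subgroupOf_of_le le_sup_right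
    have hK : Nat.card (Q'.subgroupOf (A ⊔ Q)) = (A.subgroupOf (A ⊔ Q)).index := by
      rw [hNidx, ← hcardQ']
      exact Cfsg.Agent.S0001.card_subgroupOf_of_le hQ'B
    obtain ⟨g, hg⟩ := Cfsg.Agent.S0001.conj_of_card (A.subgroupOf (A ⊔ Q)) hcop
      (Or.inl inferInstance) (Q.subgroupOf (A ⊔ Q)) (Q'.subgroupOf (A ⊔ Q)) hH hK
    exact ⟨(g : G), Cfsg.Agent.S0001.conj_of_subgroupOf le_sup_right hQ'B g hg⟩
  obtain ⟨b, hb⟩ := hconj
  refine ⟨b, ?_⟩
  have hU' : IsCoatom (MulAut.conj b • U) := isCoatom_conj_smul b U hU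
  have hVN : V ≤ Subgroup.normalizer (Q' : Set G) := by
    apply Cfsg.Agent.S0567.le_normalizer_of_conj_mem
    intro v hv n hn
    rw [hQ'def] at hn ⊢
    exact ⟨hBn.conj_mem n hn.1 v, V.mul_mem (V.mul_mem hv hn.2) (V.inv_mem hv)⟩
  have hU'N : MulAut.conj b • U ≤ Subgroup.normalizer (Q' : Set G) := by
    apply Cfsg.Agent.S0567.le_normalizer_of_conj_mem
    intro x hx n hn
    rw [← hb] at hn ⊢
    rw [Subgroup.mem_smul_pointwise_iff_exists] at hx hn ⊢
    obtain ⟨u, hu, rfl⟩ := hx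
    obtain ⟨y, hy, rfl⟩ := hn
    refine ⟨u * y * u⁻¹, hUQ u hu y hy, ?_⟩
    simp only [MulAut.smul_def, MulAut.conj_apply]
    group
  have hNtop : Subgroup.normalizer (Q' : Set G) ≠ ⊤ := by
    intro h
    have hQ'n : Q'.Normal := Subgroup.normalizer_eq_top_iff.mp h
    have h1 : Q' ≤ V.normalCore := Subgroup.normal_le_normalCore.mpr hQ'V
    rw [hVc] at h1
    have h2 : Q' = ⊥ := le_bot_iff.mp h1
    have h3 : Nat.card Q = 1 := by rw [← hcardQ', h2, Subgroup.card_bot]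
    exact hQne (Subgroup.eq_bot_of_card_eq Q h3)
  have e1 : Subgroup.normalizer (Q' : Set G) = V := (hV.le_iff_eq hNtop).mp hVN
  have e2 : Subgroup.normalizer (Q' : Set G) = MulAut.conj b • U := (hU'.le_iff_eq hNtop).mp hU'N
  rw [← e2, e1]

end Cfsg.Agent.S0551
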