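import Cfsg.Statements.S0641

set_option autoImplicit false
open Cfsg

namespace Cfsg.Agent.S0641

/-- Regularity of a p-group passes to quotient groups. -/
theorem result {G : Type*} [Group G] {p : ℕ} [Fact p.Prime] (hG : Cfsg.IsRegularPGroup p G) (N : Subgroup G) [N.Normal] : Cfsg.IsRegularPGroup p (G ⧸ N) := by
  refine ⟨hG.1.to_quotient N, ?_⟩
  intro a b n
  obtain ⟨a, rfl⟩ := QuotientGroup.mk_surjective a
  obtain ⟨b, rfl⟩ := QuotientGroup.mk_surjective b
  obtain ⟨c, hc, hab⟩ := hG.2 a b n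
  refine ⟨(c : G ⧸ N), ?_, ?_⟩
  · have hcomm : (⁅Subgroup.closure ({a, b} : Set G), Subgroup.closure ({a, b} : Set G)⁆).map
        (QuotientGroup.mk' N) =
        ⁅Subgroup.closure ({(a : G ⧸ N), (b : G ⧸ N)} : Set (G ⧸ N)),
          Subgroup.closure ({(a : G ⧸ N), (b : G ⧸ N)} : Set (G ⧸ N))⁆ := by
      rw [Subgroup.map_commutator, MonoidHom.map_closure, Set.image_pair]
      rfl
    have key : (Cfsg.powerClosure p n ⁅Subgroup.closure ({a, b} : Set G),
        Subgroup.closure ({a, b} : Set G)⁆).map (QuotientGroup.mk' N) ≤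
        Cfsg.powerClosure p n ⁅Subgroup.closure ({(a : G ⧸ N), (b : G ⧸ N)} : Set (G ⧸ N)),
          Subgroup.closure ({(a : G ⧸ N), (b : G ⧸ N)} : Set (G ⧸ N))⁆ := by
      unfold Cfsg.powerClosure
      rw [MonoidHom.map_closure, Subgroup.closure_le]
      rintro _ ⟨y, ⟨x, hx, rfl⟩, rfl⟩
      apply Subgroup.subset_closure
      refine ⟨QuotientGroup.mk' N x, ?_, by simp⟩
      rw [← hcomm]
      exact Subgroup.mem_map_of_mem _ hx
    exact key (Subgroup.mem_map_of_mem (QuotientGroup.mk' N) hc)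
  · have := congrArg (QuotientGroup.mk' N) hab
    simpa using this

end Cfsg.Agent.S0641
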