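import Cfsg.Statements.S3745
import Cfsg.Agent.Lead.Glauberman
import Cfsg.Agent.Lead.Coprime
import Cfsg.Agent.Lead.CharSub
import Cfsg.Agent.Lead.SylowSub
import Cfsg.Agent.S0003
import Mathlib

set_option autoImplicit false
open Cfsg
open Pointwise

namespace Cfsg.Agent.S3745

universe u

/-! ### arithmetic of `π`-numbers -/

/-- all prime divisors lie in `π`. -/
def PiNum (π : Set ℕ) (n : ℕ) : Prop := ∀ p : ℕ, p.Prime → p ∣ n → p ∈ π

/-- no prime divisor lies in `π`. -/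
def PiNum' (π : Set ℕ) (n : ℕ) : Prop := ∀ p : ℕ, p.Prime → p ∈ π → ¬ p ∣ n

lemma PiNum.of_dvd {π : Set ℕ} {a b : ℕ} (h : PiNum π b) (hab : a ∣ b) : PiNum π a :=
  fun p hp hpa => h p hp (hpa.trans hab)

lemma PiNum'.of_dvd {π : Set ℕ} {a b : ℕ} (h : PiNum' π b) (hab : a ∣ b) : PiNum' π a :=
  fun p hp hpπ hpa => h p hp hpπ (hpa.trans hab)

lemma PiNum.mul {π : Set ℕ} {a b : ℕ} (ha : PiNum π a) (hb : PiNum π b) : PiNum π (a * b) :=
  fun p hp h => (hp.dvd_mul.mp h).elim (ha p hp) (hb p hp)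

lemma PiNum'.mul {π : Set ℕ} {a b : ℕ} (ha : PiNum' π a) (hb : PiNum' π b) : PiNum' π (a * b) :=
  fun p hp hpπ h => (hp.dvd_mul.mp h).elim (ha p hp hpπ) (hb p hp hpπ)

lemma piNum_one (π : Set ℕ) : PiNum π 1 :=
  fun p hp h => absurd (Nat.dvd_one.mp h) hp.ne_one

lemma piNum'_one (π : Set ℕ) : PiNum' π 1 :=
  fun p hp _ h => hp.ne_one (Nat.dvd_one.mp h)

lemma coprime_of_pi {π : Set ℕ} {a b : ℕ} (ha : PiNum π a) (hb : PiNum' π b) : a.Coprime b := by
  by_contra h
  obtain ⟨p, hp, hpa, hpb⟩ := Nat.Prime.not_coprime_iff_dvd.mp h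
  exact hb p hp (ha p hp hpa) hpb

lemma pi_unique {π : Set ℕ} {a b c d : ℕ} (ha : PiNum π a) (hb : PiNum' π b) (hc : PiNum π c)
    (hd : PiNum' π d) (h : a * b = c * d) (ha0 : 0 < a) : a = c ∧ b = d := by
  have h1 : a ∣ c := (coprime_of_pi ha hd).dvd_of_dvd_mul_right (h ▸ dvd_mul_right a b)
  have h2 : c ∣ a := (coprime_of_pi hc hb).dvd_of_dvd_mul_right (h.symm ▸ dvd_mul_right c d)
  have hac := Nat.dvd_antisymm h1 h2
  subst hac
  exact ⟨rfl, Nat.eq_of_mul_eq_mul_left ha0 h⟩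

lemma exists_pi_split (π : Set ℕ) :
    ∀ N : ℕ, 0 < N → ∃ m n, m * n = N ∧ PiNum π m ∧ PiNum' π n := by
  intro N
  induction N using Nat.strong_induction_on with
  | _ N ih =>
    intro hN
    by_cases h1 : N = 1
    · exact ⟨1, 1, by rw [h1], piNum_one π, piNum'_one π⟩
    · have hp := Nat.minFac_prime h1
      obtain ⟨N', hN'⟩ := Nat.minFac_dvd N
      have hN'pos : 0 < N' := by
        rcases Nat.eq_zero_or_pos N' with h | h
        · rw [h, mul_zero] at hN'
          omega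
        · exact h
      have hlt : N' < N := by
        have h2 := hp.two_le
        nlinarith
      obtain ⟨m, n, hmn, hm, hn⟩ := ih N' hlt hN'pos
      by_cases hpi : N.minFac ∈ π
      · refine ⟨N.minFac * m, n, by rw [mul_assoc, hmn, ← hN'], ?_, hn⟩
        intro q hq hdvd
        rcases hq.dvd_mul.mp hdvd with h | h
        · rw [(Nat.prime_dvd_prime_iff_eq hq hp).mp h]
          exact hpi
        · exact hm q hq h
      · refine ⟨m, N.minFac * n, by rw [← mul_assoc, mul_comm m, mul_assoc, hmn, ← hN'], hm, ?_⟩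
        intro q hq hqπ hdvd
        rcases hq.dvd_mul.mp hdvd with h | h
        · rw [(Nat.prime_dvd_prime_iff_eq hq hp).mp h] at hqπ
          exact hpi hqπ
        · exact hn q hq hqπ h

/-! ### Hall subgroups in terms of orders -/

section
variable {X : Type u} [Group X]

/-- `H` is a Hall `π`-subgroup of `G`, in terms of orders. -/
def HallC (π : Set ℕ) (H G : Subgroup X) : Prop :=
  H ≤ G ∧ PiNum π (Nat.card H) ∧ ∃ n, Nat.card H * n = Nat.card G ∧ PiNum' π n

variable [Finite X] {π : Set ℕ}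

lemma relIndex_mul_card' {H G : Subgroup X} (h : H ≤ G) :
    Nat.card H * H.relIndex G = Nat.card G := by
  have h2 := Subgroup.card_mul_index (H.subgroupOf G)
  rw [S0001.card_subgroupOf_of_le h] at h2
  exact h2

lemma isPiHallOf_iff {H G : Subgroup X} : Cfsg.IsPiHallOf π H G ↔ HallC π H G := by
  constructor
  · rintro ⟨hle, h1, h2⟩
    exact ⟨hle, h1, H.relIndex G, relIndex_mul_card' hle, h2⟩
  · rintro ⟨hle, h1, n, hn, h2⟩
    refine ⟨hle, h1, ?_⟩
    have h3 : H.relIndex G = n :=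
      Nat.eq_of_mul_eq_mul_left (Nat.card_pos (α := H)) ((relIndex_mul_card' hle).trans hn.symm)
    rw [h3]
    exact h2

lemma HallC.card_eq {H₁ H₂ G : Subgroup X} (h1 : HallC π H₁ G) (h2 : HallC π H₂ G) :
    Nat.card H₁ = Nat.card H₂ := by
  obtain ⟨-, a1, n1, e1, b1⟩ := h1
  obtain ⟨-, a2, n2, e2, b2⟩ := h2
  exact (pi_unique a1 b1 a2 b2 (e1.trans e2.symm) Nat.card_pos).1

omit [Finite X] in
lemma HallC.of_card_eq {H₀ H G : Subgroup X} (h0 : HallC π H₀ G) (hH : H ≤ G)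
    (hc : Nat.card H = Nat.card H₀) : HallC π H G := by
  obtain ⟨-, a, n, e, b⟩ := h0
  exact ⟨hH, by rw [hc]; exact a, n, by rw [hc]; exact e, b⟩

omit [Finite X] in
lemma conj_smul_le {g : X} {H G : Subgroup X} (hg : g ∈ Subgroup.normalizer (G : Set X))
    (h : H ≤ G) : MulAut.conj g • H ≤ G := by
  intro x hx
  rw [Lead.mem_conj_smul'] at hx
  have h1 := h hx
  have h2 := (Subgroup.mem_normalizer_iff.mp hg (g⁻¹ * x * g)).mp h1
  have e : g * (g⁻¹ * x * g) * g⁻¹ = x := by group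
  rwa [e] at h2

theorem hall_exists (π : Set ℕ) (G : Subgroup X) (hsolv : Group.IsSolvable G) :
    ∃ H, HallC π H G := by
  obtain ⟨m, n, hmn, hm, hn⟩ := exists_pi_split π (Nat.card G) Nat.card_pos
  obtain ⟨H', hH'⟩ := S0003.result (G := ↥G) m n hmn.symm (coprime_of_pi hm hn)
  refine ⟨H'.map G.subtype, Subgroup.map_subtype_le H', ?_, n, ?_, hn⟩
  · rw [Lead.card_map_subtype, hH']
    exact hm
  · rw [Lead.card_map_subtype, hH', hmn]

theorem hall_conj {G H₁ H₂ : Subgroup X} (hsolv : Group.IsSolvable G) (h1 : HallC π H₁ G)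
    (h2 : HallC π H₂ G) : ∃ k ∈ G, MulAut.conj k • H₁ = H₂ := by
  have hc := h1.card_eq h2
  obtain ⟨hle1, a1, n1, e1, b1⟩ := h1
  obtain ⟨g, hg⟩ := S0003.hall_conj (G := ↥G) (Nat.card H₁) n1 e1.symm (coprime_of_pi a1 b1)
    (H₁.subgroupOf G) (H₂.subgroupOf G) (S0001.card_subgroupOf_of_le hle1)
    ((S0001.card_subgroupOf_of_le h2.1).trans hc.symm)
  exact ⟨g, g.2, S0001.conj_of_subgroupOf hle1 h2.1 g hg⟩

theorem partA (A G : Subgroup X) (hAG : A ≤ Subgroup.normalizer (G : Set X))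
    (hcop : (Nat.card A).Coprime (Nat.card G)) (hsolv : Group.IsSolvable G) (π : Set ℕ) :
    ∃ H : Subgroup X, HallC π H G ∧ A ≤ Subgroup.normalizer (H : Set X) := by
  obtain ⟨H₀, hH₀⟩ := hall_exists π G hsolv
  have h : ∀ a ∈ A, ∃ k ∈ G, MulAut.conj a • H₀ = MulAut.conj k • H₀ := by
    intro a ha
    have hHa : HallC π (MulAut.conj a • H₀) G :=
      hH₀.of_card_eq (conj_smul_le (hAG ha) hH₀.1) (S0001.card_conj_smul a H₀)
    obtain ⟨k, hk, hkk⟩ := hall_conj hsolv hH₀ hHa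
    exact ⟨k, hk, hkk.symm⟩
  obtain ⟨n, hn, hA⟩ := Lead.exists_conj_normalized A G hAG hcop (Or.inr hsolv) H₀ h
  exact ⟨MulAut.conj n • H₀,
    hH₀.of_card_eq (conj_smul_le (Subgroup.le_normalizer hn) hH₀.1) (S0001.card_conj_smul n H₀), hA⟩

theorem partB (A G : Subgroup X) (hAG : A ≤ Subgroup.normalizer (G : Set X))
    (hcop : (Nat.card A).Coprime (Nat.card G)) (hsolv : Group.IsSolvable G) (π : Set ℕ)
    (H₁ H₂ : Subgroup X) (h1 : HallC π H₁ G) (hA1 : A ≤ Subgroup.normalizer (H₁ : Set X))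
    (h2 : HallC π H₂ G) (hA2 : A ≤ Subgroup.normalizer (H₂ : Set X)) :
    ∃ c ∈ G ⊓ Subgroup.centralizer (A : Set X), H₂ = MulAut.conj c • H₁ := by
  obtain ⟨k, hk, hkk⟩ := hall_conj hsolv h1 h2
  obtain ⟨c, hc, hcc⟩ := Lead.exists_centralizer_conj A G hAG hcop (Or.inr hsolv) H₁ hA1 k hk
    (by rw [hkk]; exact hA2)
  exact ⟨c, hc, by rw [hcc, hkk]⟩

end

/-! ### containment, by induction through quotients -/

/-- the `r`-torsion of an abelian subgroup. -/
def torsionSub {Γ : Type*} [Group Γ] (M : Subgroup Γ) (hM : ∀ x ∈ M, ∀ y ∈ M, x * y = y * x)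
    (r : ℕ) : Subgroup Γ where
  carrier := {x | x ∈ M ∧ x ^ r = 1}
  mul_mem' := by
    rintro x y ⟨hx, hx'⟩ ⟨hy, hy'⟩
    exact ⟨M.mul_mem hx hy,
      by rw [(show Commute x y from hM x hx y hy).mul_pow, hx', hy', one_mul]⟩
  one_mem' := ⟨M.one_mem, one_pow r⟩
  inv_mem' := by
    rintro x ⟨hx, hx'⟩
    exact ⟨M.inv_mem hx, by rw [inv_pow, hx', inv_one]⟩

lemma exists_normal_prime_sub {Γ : Type u} [Group Γ] [Finite Γ] (G : Subgroup Γ) [G.Normal]
    (hsolv : Group.IsSolvable G) (hG : G ≠ ⊥) :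
    ∃ (r : ℕ) (N : Subgroup Γ), r.Prime ∧ N.Normal ∧ N ≤ G ∧ N ≠ ⊥ ∧ ∀ x ∈ N, x ^ r = 1 := by
  obtain ⟨M, -, hM⟩ := Finite.exists_le_minimal
    (p := fun M : Subgroup Γ => M.Normal ∧ M ≠ ⊥ ∧ M ≤ G) (a := G) ⟨inferInstance, hG, le_rfl⟩
  obtain ⟨⟨hMn, hM0, hMG⟩, hmin⟩ := hM
  haveI := hMn
  have hab : IsMulCommutative M :=
    S0001.abelian_of_minimal_solvable M hM0 (Lead.isSolvable_of_le hMG hsolv)
      (fun M' hM'n hM'0 hM'M => hmin ⟨hM'n, hM'0, hM'M.trans hMG⟩ hM'M)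
  have hcomm : ∀ x ∈ M, ∀ y ∈ M, x * y = y * x := by
    intro x hx y hy
    exact congrArg Subtype.val (hab.is_comm.comm (⟨x, hx⟩ : M) ⟨y, hy⟩)
  have hcard : Nat.card M ≠ 1 := fun h => hM0 (Subgroup.card_eq_one.mp h)
  obtain ⟨r, hr, hrd⟩ := Nat.exists_prime_and_dvd hcard
  haveI : Fact r.Prime := ⟨hr⟩
  obtain ⟨x, hx⟩ := exists_prime_orderOf_dvd_card' r hrd
  refine ⟨r, torsionSub M hcomm r, hr, ?_, ?_, ?_, ?_⟩
  · exact ⟨fun y hy g => ⟨hMn.conj_mem y hy.1 g, by rw [conj_pow, hy.2, mul_one, mul_inv_cancel]⟩⟩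
  · exact fun y hy => hMG hy.1
  · intro h
    have hxN : (x : Γ) ∈ torsionSub M hcomm r := by
      refine ⟨x.2, ?_⟩
      have h1 := pow_orderOf_eq_one x
      rw [hx] at h1
      have h2 := congrArg Subtype.val h1
      simpa using h2
    rw [h, Subgroup.mem_bot] at hxN
    have h3 : x = 1 := Subtype.ext hxN
    rw [h3, orderOf_one] at hx
    exact hr.one_lt.ne hx
  · exact fun y hy => hy.2

/-- the statement proved by induction on the order of `G`. -/
def StmtC (π : Set ℕ) (n : ℕ) : Prop :=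
  ∀ (Γ : Type u) [Group Γ] [Finite Γ] (A G U : Subgroup Γ), G.Normal → Nat.card G = n →
    (Nat.card A).Coprime (Nat.card G) → Group.IsSolvable G → U ≤ G →
    A ≤ Subgroup.normalizer (U : Set Γ) → PiNum π (Nat.card U) →
    ∃ H : Subgroup Γ, HallC π H G ∧ A ≤ Subgroup.normalizer (H : Set Γ) ∧ U ≤ H

theorem stmtC_all (π : Set ℕ) : ∀ n, StmtC.{u} π n := by
  intro n
  induction n using Nat.strong_induction_on with
  | _ n ih =>
  intro Γ _ _ A G U hGn hcard hcop hsolv hUG hAU hU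
  by_cases hG : G = ⊥
  · subst hG
    refine ⟨⊥, ⟨le_rfl, ?_, 1, by simp, piNum'_one π⟩, ?_, hUG⟩
    · rw [Subgroup.card_bot]
      exact piNum_one π
    · rw [Subgroup.normalizer_eq_top]
      exact le_top
  haveI := hGn
  obtain ⟨r, N, hr, hNn, hNG, hN, hNr⟩ := exists_normal_prime_sub G hsolv hG
  haveI := hNn
  obtain ⟨φ, hφ⟩ : ∃ φ : Γ →* Γ ⧸ N, φ = QuotientGroup.mk' N := ⟨_, rfl⟩
  have hφs : Function.Surjective φ := hφ ▸ QuotientGroup.mk'_surjective N
  have hker : φ.ker = N := hφ ▸ QuotientGroup.ker_mk' N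
  have hcG : Nat.card (G.map φ) * Nat.card N = Nat.card G := by
    rw [hφ]
    exact S0001.card_map_mk_mul_card hNG
  have hN1 : 1 < Nat.card N := by
    rw [Finite.one_lt_card_iff_nontrivial]
    exact (Subgroup.nontrivial_iff_ne_bot _).mpr hN
  have hlt : Nat.card (G.map φ) < n := by
    have h0 : 0 < Nat.card (G.map φ) := Nat.card_pos
    rw [← hcard, ← hcG]
    nlinarith
  have hsolvb : Group.IsSolvable (G.map φ) :=
    Group.isSolvable_of_surjective (f := φ.subgroupMap G) (φ.subgroupMap_surjective G)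
  obtain ⟨Hb, hHb, hAHb, hUHb⟩ := ih _ hlt (Γ ⧸ N) (A.map φ) (G.map φ) (U.map φ)
    (hGn.map φ hφs) rfl
    (Nat.Coprime.coprime_dvd_left (Subgroup.card_map_dvd _ _)
      (Nat.Coprime.coprime_dvd_right (Subgroup.card_map_dvd _ _) hcop))
    hsolvb (Subgroup.map_mono hUG)
    ((Subgroup.map_mono hAU).trans (Subgroup.le_normalizer_map φ))
    (hU.of_dvd (Subgroup.card_map_dvd _ _))
  obtain ⟨H1, hH1⟩ : ∃ H1, H1 = Hb.comap φ := ⟨_, rfl⟩
  have hNH1 : N ≤ H1 := by
    rw [hH1]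
    have h1 := φ.ker_le_comap Hb
    rw [hker] at h1
    exact h1
  have hUH1 : U ≤ H1 := by
    rw [hH1]
    exact (Subgroup.le_comap_map φ U).trans (Subgroup.comap_mono hUHb)
  have hH1G : H1 ≤ G := by
    rw [hH1]
    have h1 := Subgroup.comap_mono (f := φ) hHb.1
    rw [Subgroup.comap_map_eq, hker, sup_of_le_left hNG] at h1
    exact h1
  have hAH1 : A ≤ Subgroup.normalizer (H1 : Set Γ) := by
    rw [hH1]
    exact ((Subgroup.le_comap_map φ A).trans (Subgroup.comap_mono hAHb)).trans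
      (Subgroup.le_normalizer_comap φ)
  have hmapH1 : H1.map φ = Hb := by
    rw [hH1]
    exact Subgroup.map_comap_eq_self_of_surjective hφs Hb
  have hcH1 : Nat.card Hb * Nat.card N = Nat.card H1 := by
    rw [← hmapH1, hφ]
    exact S0001.card_map_mk_mul_card hNH1
  obtain ⟨-, hHbπ, k, hk, hkπ⟩ := hHb
  have hH1k : Nat.card H1 * k = Nat.card G := by
    rw [← hcH1, ← hcG, ← hk]
    ring
  have hNcard : PiNum π (Nat.card N) ∨ PiNum' π (Nat.card N) := by
    have hNp : IsPGroup r N := by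
      intro g
      refine ⟨1, Subtype.ext ?_⟩
      rw [pow_one, Subgroup.coe_pow]
      exact hNr g g.2
    haveI : Fact r.Prime := ⟨hr⟩
    obtain ⟨j, hj⟩ := IsPGroup.iff_card.mp hNp
    rw [hj]
    by_cases hrπ : r ∈ π
    · left
      intro p hp hpd
      rw [(Nat.prime_dvd_prime_iff_eq hp hr).mp (hp.dvd_of_dvd_pow hpd)]
      exact hrπ
    · right
      intro p hp hpπ hpd
      rw [(Nat.prime_dvd_prime_iff_eq hp hr).mp (hp.dvd_of_dvd_pow hpd)] at hpπ
      exact hrπ hpπ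
  rcases hNcard with hNπ | hNπ'
  · exact ⟨H1, ⟨hH1G, by rw [← hcH1]; exact hHbπ.mul hNπ, k, hH1k, hkπ⟩, hAH1, hUH1⟩
  · have hsolH1 : Group.IsSolvable H1 := Lead.isSolvable_of_le hH1G hsolv
    have hcopH1 := Nat.Coprime.coprime_dvd_right (Subgroup.card_dvd_of_le hH1G) hcop
    obtain ⟨K, hK, hAK⟩ := partA A H1 hAH1 hcopH1 hsolH1 π
    obtain ⟨hKH1, hKπ, k', hk', hk'π⟩ := hK
    have huniq := pi_unique hKπ hk'π hHbπ hNπ' (hk'.trans hcH1.symm) Nat.card_pos
    have hKG : HallC π K G :=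
      ⟨hKH1.trans hH1G, hKπ, Nat.card N * k,
        by rw [← mul_assoc, ← huniq.2, hk', hH1k], hNπ'.mul hkπ⟩
    have hVH1 : U ⊔ N ≤ H1 := sup_le hUH1 hNH1
    have hVG : U ⊔ N ≤ G := hVH1.trans hH1G
    have hAV : A ≤ Subgroup.normalizer ((U ⊔ N : Subgroup Γ) : Set Γ) := by
      intro a ha
      rw [Lead.mem_normalizer_iff_conj_smul, Subgroup.smul_sup,
        Lead.mem_normalizer_iff_conj_smul.mp (hAU ha)]
      have hN' : a ∈ Subgroup.normalizer (N : Set Γ) := by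
        rw [Subgroup.normalizer_eq_top]
        exact Subgroup.mem_top a
      rw [Lead.mem_normalizer_iff_conj_smul.mp hN']
    have hcopUN : (Nat.card U).Coprime (Nat.card N) := coprime_of_pi hU hNπ'
    have hcV : Nat.card (U ⊔ N : Subgroup Γ) = Nat.card U * Nat.card N := by
      have h1 := relIndex_mul_card' (le_sup_right : N ≤ U ⊔ N)
      rw [Subgroup.relIndex_sup_right, Lead.relIndex_eq_card_of_coprime hcopUN] at h1
      rw [← h1, mul_comm]
    have hUV : HallC π U (U ⊔ N) := ⟨le_sup_left, hU, Nat.card N, hcV.symm, hNπ'⟩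
    have hW : HallC π ((U ⊔ N) ⊓ K) (U ⊔ N) := by
      apply hUV.of_card_eq inf_le_left
      have hWπ : PiNum π (Nat.card ((U ⊔ N) ⊓ K : Subgroup Γ)) :=
        hKπ.of_dvd (Subgroup.card_dvd_of_le inf_le_right)
      have hdvd : Nat.card ((U ⊔ N) ⊓ K : Subgroup Γ) ∣ Nat.card U := by
        apply (coprime_of_pi hWπ hNπ').dvd_of_dvd_mul_right
        rw [← hcV]
        exact Subgroup.card_dvd_of_le inf_le_left
      have hle : Nat.card U ≤ Nat.card ((U ⊔ N) ⊓ K : Subgroup Γ) := by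
        have h1 := relIndex_mul_card' (inf_le_left : (U ⊔ N) ⊓ K ≤ U ⊔ N)
        rw [inf_comm, Subgroup.inf_relIndex_right] at h1
        have h2 : K.relIndex (U ⊔ N) ≤ K.relIndex H1 := by
          apply Subgroup.relIndex_le_of_le_right hVH1
          intro h0
          have h3 := relIndex_mul_card' hKH1
          rw [h0, mul_zero] at h3
          exact (Nat.card_pos (α := H1)).ne h3
        have h3 : K.relIndex H1 = Nat.card N := by
          have h4 := relIndex_mul_card' hKH1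
          have h5 : Nat.card K * K.relIndex H1 = Nat.card K * k' := h4.trans hk'.symm
          rw [huniq.2] at h5
          exact Nat.eq_of_mul_eq_mul_left Nat.card_pos h5
        rw [h3] at h2
        rw [hcV] at h1
        have h6 : Nat.card U * Nat.card N ≤ Nat.card (K ⊓ (U ⊔ N) : Subgroup Γ) * Nat.card N := by
          rw [← h1]
          exact Nat.mul_le_mul_left _ h2
        rw [inf_comm]
        exact Nat.le_of_mul_le_mul_right h6 Nat.card_pos
      exact Nat.le_antisymm (Nat.le_of_dvd Nat.card_pos hdvd) hle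
    have hAW : A ≤ Subgroup.normalizer (((U ⊔ N) ⊓ K : Subgroup Γ) : Set Γ) :=
      Lead.le_normalizer_inf hAV hAK
    obtain ⟨c, hc, hcU⟩ := partB A (U ⊔ N) hAV
      (Nat.Coprime.coprime_dvd_right (Subgroup.card_dvd_of_le hVG) hcop)
      (Lead.isSolvable_of_le hVG hsolv) π _ _ hW hAW hUV hAU
    have hcG' : c ∈ Subgroup.normalizer (G : Set Γ) := Subgroup.le_normalizer (hVG hc.1)
    refine ⟨MulAut.conj c • K, hKG.of_card_eq (conj_smul_le hcG' hKG.1) (S0001.card_conj_smul c K),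
      ?_, ?_⟩
    · intro a ha
      rw [Lead.mem_normalizer_iff_conj_smul, ← S0001.conj_mul_smul]
      have hac : a * c = c * a := Subgroup.mem_centralizer_iff.mp hc.2 a ha
      rw [hac, S0001.conj_mul_smul, Lead.mem_normalizer_iff_conj_smul.mp (hAK ha)]
    · intro x hx
      rw [hcU, Lead.mem_conj_smul'] at hx
      rw [Lead.mem_conj_smul']
      exact hx.2

/-- containment, for subgroups of an ambient group. -/
theorem partC {X : Type u} [Group X] [Finite X] (A G : Subgroup X)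
    (hAG : A ≤ Subgroup.normalizer (G : Set X))
    (hcop : (Nat.card A).Coprime (Nat.card G)) (hsolv : Group.IsSolvable G) (π : Set ℕ)
    (U : Subgroup X) (hUG : U ≤ G) (hAU : A ≤ Subgroup.normalizer (U : Set X))
    (hU : PiNum π (Nat.card U)) :
    ∃ H : Subgroup X, HallC π H G ∧ A ≤ Subgroup.normalizer (H : Set X) ∧ U ≤ H := by
  obtain ⟨Y, hY⟩ : ∃ Y : Subgroup X, Y = Subgroup.normalizer (G : Set X) := ⟨_, rfl⟩
  have hGY : G ≤ Y := hY ▸ Subgroup.le_normalizer
  have hAY : A ≤ Y := hY ▸ hAG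
  have hUY : U ≤ Y := hUG.trans hGY
  have hGn : (G.subgroupOf Y).Normal := by
    rw [hY]
    infer_instance
  have hsolv' : Group.IsSolvable (G.subgroupOf Y) :=
    Group.isSolvable_of_isSolvable_injective (f := (Subgroup.subgroupOfEquivOfLe hGY).toMonoidHom)
      (Subgroup.subgroupOfEquivOfLe hGY).injective
  have hAU' : A.subgroupOf Y ≤ Subgroup.normalizer ((U.subgroupOf Y : Subgroup Y) : Set Y) := by
    intro a ha
    rw [Subgroup.mem_subgroupOf] at ha
    have h1 := Subgroup.mem_normalizer_iff.mp (hAU ha)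
    rw [Subgroup.mem_normalizer_iff]
    intro h
    rw [Subgroup.mem_subgroupOf, Subgroup.mem_subgroupOf]
    exact h1 h
  obtain ⟨H', hH', hAH', hUH'⟩ := stmtC_all π _ ↥Y (A.subgroupOf Y) (G.subgroupOf Y)
    (U.subgroupOf Y) hGn rfl
    (by rw [S0001.card_subgroupOf_of_le hAY, S0001.card_subgroupOf_of_le hGY]; exact hcop)
    hsolv' (Subgroup.comap_mono hUG) hAU'
    (by rw [S0001.card_subgroupOf_of_le hUY]; exact hU)
  obtain ⟨hH'G, hH'π, n, hn, hnπ⟩ := hH'
  refine ⟨H'.map Y.subtype, ⟨?_, ?_, n, ?_, hnπ⟩, ?_, ?_⟩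
  · have h1 := Subgroup.map_mono (f := Y.subtype) hH'G
    rwa [Subgroup.map_subgroupOf_eq_of_le hGY] at h1
  · rw [Lead.card_map_subtype]
    exact hH'π
  · rw [Lead.card_map_subtype, hn, S0001.card_subgroupOf_of_le hGY]
  · intro a ha
    have h1 : (⟨a, hAY ha⟩ : Y) ∈ Subgroup.normalizer ((H' : Subgroup Y) : Set Y) :=
      hAH' (Subgroup.mem_subgroupOf.mpr ha)
    exact Subgroup.le_normalizer_map Y.subtype ⟨⟨a, hAY ha⟩, h1, rfl⟩
  · have h1 := Subgroup.map_mono (f := Y.subtype) hUH'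
    rwa [Subgroup.map_subgroupOf_eq_of_le hUY] at h1

/-- Coprime action on a solvable group and Hall subgroups. Let A and G be subgroups of a finite group with A normalizing G, the orders of A and G coprime, and G solvable, and let π be a set of primes. Then (a) G has an A-invariant Hall π-subgroup; (b) any two A-invariant Hall π-subgroups of G are conjugate by an element of C_G(A); (c) every A-invariant π-subgroup of G lies in an A-invariant Hall π-subgroup of G. -/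
theorem result {X : Type*} [Group X] [Finite X] (A G : Subgroup X) (hAG : A ≤ Subgroup.normalizer (G : Set X)) (hcop : (Nat.card A).Coprime (Nat.card G)) (hsolv : Group.IsSolvable G) (π : Set ℕ) : (∃ H : Subgroup X, Cfsg.IsPiHallOf π H G ∧ A ≤ Subgroup.normalizer (H : Set X)) ∧ (∀ H₁ H₂ : Subgroup X, Cfsg.IsPiHallOf π H₁ G → A ≤ Subgroup.normalizer (H₁ : Set X) → Cfsg.IsPiHallOf π H₂ G → A ≤ Subgroup.normalizer (H₂ : Set X) → ∃ c ∈ G ⊓ Subgroup.centralizer (A : Set X), H₂ = H₁.map (MulAut.conj c).toMonoidHom) ∧ (∀ U : Subgroup X, U ≤ G → A ≤ Subgroup.normalizer (U : Set X) → (∀ p : ℕ, p.Prime → p ∣ Nat.card U → p ∈ π) → ∃ H : Subgroup X, Cfsg.IsPiHallOf π H G ∧ A ≤ Subgroup.normalizer (H : Set X) ∧ U ≤ H) := by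
  refine ⟨?_, ?_, ?_⟩
  · obtain ⟨H, hH, hA⟩ := partA A G hAG hcop hsolv π
    exact ⟨H, isPiHallOf_iff.mpr hH, hA⟩
  · intro H₁ H₂ h1 hA1 h2 hA2
    obtain ⟨c, hc, hcc⟩ := partB A G hAG hcop hsolv π H₁ H₂ (isPiHallOf_iff.mp h1) hA1
      (isPiHallOf_iff.mp h2) hA2
    exact ⟨c, hc, hcc⟩
  · intro U hUG hAU hU
    obtain ⟨H, hH, hA, hUH⟩ := partC A G hAG hcop hsolv π U hUG hAU hU
    exact ⟨H, isPiHallOf_iff.mpr hH, hA, hUH⟩

end Cfsg.Agent.S3745
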