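import Cfsg.Statements.S0898
import Mathlib
import Cfsg.Agent.Helper24.TICount

set_option autoImplicit false
open Cfsg

namespace Cfsg.Agent.S0898


open scoped ComplexConjugate
open Cfsg.Agent Cfsg.Agent.Helper24

universe u

theorem part1 {G : Type u} [Group G] [Fintype G] (H : Subgroup G) [Fintype H]
    (hab : ∀ a ∈ H, ∀ b ∈ H, a * b = b * a) (hZ : H ⊓ Subgroup.center G = ⊥)
    (hone : ∀ g : G, g ∉ Subgroup.center G → ∀ a b : G,
      Subgroup.centralizer ({g} : Set G) ⊓ H.map (MulAut.conj a).toMonoidHom ≠ ⊥ →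
      Subgroup.centralizer ({g} : Set G) ⊓ H.map (MulAut.conj b).toMonoidHom ≠ ⊥ →
      H.map (MulAut.conj a).toMonoidHom = H.map (MulAut.conj b).toMonoidHom)
    (ψ : IrrCharacter G) (hker : ∃ h ∈ H, (ψ : G → ℂ) h ≠ (ψ : G → ℂ) 1) :
    ∃ c : ℕ, classInner (fun h : H => (ψ : G → ℂ) h) (fun _ => 1) = c ∧
      Nat.card H * c ^ 2 < charDegree (ψ : G → ℂ) ^ 2 := by
  classical
  obtain ⟨c, hc⟩ := Helper2.classInner_char_nat
    (Helper2.isCharacter_restrict H (Helper25.irr_isCharacter ψ)) (Helper2.isCharacter_one (G := H))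
  refine ⟨c, hc, ?_⟩
  obtain ⟨d, hd⟩ : ∃ d : ℕ, d = charDegree (ψ : G → ℂ) := ⟨_, rfl⟩
  rw [← hd]
  have hψ1 : (ψ : G → ℂ) 1 = d := by rw [hd]; exact Helper25.irr_one_eq_degree ψ
  have hdpos : 0 < d := by rw [hd]; exact Helper25.irr_degree_pos ψ
  have hd0 : (d : ℂ) ≠ 0 := Nat.cast_ne_zero.mpr hdpos.ne'
  have hG0 : (Nat.card G : ℂ) ≠ 0 := Nat.cast_ne_zero.mpr Nat.card_pos.ne'
  have hH0 : (Nat.card H : ℂ) ≠ 0 := Nat.cast_ne_zero.mpr Nat.card_pos.ne'
  obtain ⟨N, hNdef⟩ : ∃ N : Subgroup G, N = Subgroup.normalizer (H : Set G) := ⟨_, rfl⟩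
  have hHN : H ≤ N := hNdef ▸ Subgroup.le_normalizer
  letI : Fintype N := Fintype.ofFinite _
  letI : Fintype (Subgroup.center G) := Fintype.ofFinite _
  -- group theory
  have hkey : ∀ g x : G, g ∉ Subgroup.center G → (∃ h ∈ H, h ≠ 1 ∧ h * g = g * h) →
      (∃ h ∈ H, h ≠ 1 ∧ (x * h * x⁻¹) * g = g * (x * h * x⁻¹)) → x ∈ N := by
    rintro g x hg ⟨h₁, hh₁, hne₁, hc₁⟩ ⟨h₂, hh₂, hne₂, hc₂⟩
    have e1 : Subgroup.centralizer ({g} : Set G) ⊓ H.map (MulAut.conj (1 : G)).toMonoidHom ≠ ⊥ := by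
      intro hbot
      have h3 : h₁ ∈ Subgroup.centralizer ({g} : Set G) ⊓ H.map (MulAut.conj (1 : G)).toMonoidHom :=
        Subgroup.mem_inf.mpr ⟨Subgroup.mem_centralizer_singleton_iff.mpr hc₁,
          ⟨h₁, hh₁, by simp⟩⟩
      rw [hbot, Subgroup.mem_bot] at h3
      exact hne₁ h3
    have e2 : Subgroup.centralizer ({g} : Set G) ⊓ H.map (MulAut.conj x).toMonoidHom ≠ ⊥ := by
      intro hbot
      have h3 : x * h₂ * x⁻¹ ∈ Subgroup.centralizer ({g} : Set G) ⊓ H.map (MulAut.conj x).toMonoidHom :=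
        Subgroup.mem_inf.mpr ⟨Subgroup.mem_centralizer_singleton_iff.mpr hc₂,
          ⟨h₂, hh₂, by simp [MulAut.conj_apply]⟩⟩
      rw [hbot, Subgroup.mem_bot] at h3
      apply hne₂
      have h4 : h₂ = x⁻¹ * (x * h₂ * x⁻¹) * x := by group
      rw [h4, h3]
      group
    have e3 := hone g hg 1 x e1 e2
    have e4 : ∀ y : G, y ∈ H ↔ y ∈ H.map (MulAut.conj x).toMonoidHom := by
      intro y
      rw [← e3]
      constructor
      · intro hy
        exact ⟨y, hy, by simp⟩
      · rintro ⟨y', hy', hyy⟩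
        have : y' = y := by simpa using hyy
        rw [← this]
        exact hy'
    rw [hNdef, Subgroup.mem_normalizer_iff]
    intro h
    constructor
    · intro hh
      exact (e4 _).mpr ⟨h, hh, by simp [MulAut.conj_apply]⟩
    · intro hh
      obtain ⟨y, hy, hxy⟩ := (e4 _).mp hh
      have h5 : x * y * x⁻¹ = x * h * x⁻¹ := by simpa [MulAut.conj_apply] using hxy
      have h6 : y = h := mul_left_cancel (mul_right_cancel h5)
      rw [← h6]
      exact hy
  obtain ⟨D, hDdef⟩ : ∃ D : G → Prop, ∀ g, D g ↔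
      (g ∉ Subgroup.center G ∧ ∃ h ∈ H, h ≠ 1 ∧ h * g = g * h) := ⟨_, fun _ => Iff.rfl⟩
  have hDZ : ∀ g, D g → g ∉ Subgroup.center G := fun g hg => ((hDdef g).mp hg).1
  have hDN : ∀ g, D g → g ∈ N := by
    intro g hg
    obtain ⟨hgz, h, hh, hne, hcomm⟩ := (hDdef g).mp hg
    refine hkey g g hgz ⟨h, hh, hne, hcomm⟩ ⟨h, hh, hne, ?_⟩
    have h1 : g * h * g⁻¹ = h := by rw [← hcomm, mul_inv_cancel_right]
    rw [h1]
    exact hcomm
  have hDD : ∀ g x : G, D g → D (x⁻¹ * g * x) → x ∈ N := by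
    intro g x hg hgx
    obtain ⟨hgz, h, hh, hne, hcomm⟩ := (hDdef g).mp hg
    obtain ⟨-, h₂, hh₂, hne₂, hcomm₂⟩ := (hDdef _).mp hgx
    refine hkey g x hgz ⟨h, hh, hne, hcomm⟩ ⟨h₂, hh₂, hne₂, ?_⟩
    calc x * h₂ * x⁻¹ * g = x * (h₂ * (x⁻¹ * g * x)) * x⁻¹ := by group
      _ = x * ((x⁻¹ * g * x) * h₂) * x⁻¹ := by rw [hcomm₂]
      _ = g * (x * h₂ * x⁻¹) := by group
  -- the function f
  obtain ⟨f, hf⟩ : ∃ f : G → ℝ, ∀ g, f g = Complex.normSq ((ψ : G → ℂ) g) := ⟨_, fun _ => rfl⟩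
  have hf0 : ∀ g, 0 ≤ f g := fun g => by rw [hf]; exact Complex.normSq_nonneg _
  have hfc : ∀ x g : G, f (x * g * x⁻¹) = f g := fun x g => by rw [hf, hf, Helper25.irr_conj]
  have hfsum : ∑ g : G, f g = (Nat.card G : ℝ) := by
    have h := Helper25.irr_classInner ψ ψ
    rw [if_pos rfl] at h
    unfold classInner at h
    have h' : ∑ g : G, (ψ : G → ℂ) g * conj ((ψ : G → ℂ) g) = (Nat.card G : ℂ) := by
      have h'' : (Nat.card G : ℂ) * ((Nat.card G : ℂ)⁻¹ *
          ∑ g : G, (ψ : G → ℂ) g * conj ((ψ : G → ℂ) g)) = (Nat.card G : ℂ) * 1 := by rw [h]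
      rw [← mul_assoc, mul_inv_cancel₀ hG0, one_mul, mul_one] at h''
      exact h''
    have h3 : ((∑ g : G, f g : ℝ) : ℂ) = ((Nat.card G : ℝ) : ℂ) := by
      push_cast
      rw [← h']
      apply Finset.sum_congr rfl
      intro g _
      rw [hf, Complex.mul_conj]
    exact_mod_cast h3
  have hmul : ∀ g z : G, z ∈ Subgroup.center G →
      (ψ : G → ℂ) (g * z) * d = (ψ : G → ℂ) g * (ψ : G → ℂ) z := by
    intro g z hz
    have h := Helper25.irr_sum_conj_mul ψ g z
    rw [Finset.sum_congr rfl (fun y _ => by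
      rw [show y * z * y⁻¹ = z from by rw [Subgroup.mem_center_iff.mp hz y, mul_inv_cancel_right]]),
      Finset.sum_const, Finset.card_univ, nsmul_eq_mul, ← Nat.card_eq_fintype_card, hψ1] at h
    have h' : (Nat.card G : ℂ) * ((ψ : G → ℂ) (g * z) * d)
        = (Nat.card G : ℂ) * ((ψ : G → ℂ) g * (ψ : G → ℂ) z) := by
      rw [← mul_assoc, h]
      field_simp
    exact mul_left_cancel₀ hG0 h'
  have hfZ : ∀ z ∈ Subgroup.center G, f z = (d : ℝ) ^ 2 := by
    intro z hz
    have h := hmul z⁻¹ z hz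
    rw [inv_mul_cancel, hψ1, Helper25.char_inv (Helper25.irr_isCharacter ψ) z] at h
    have h2 : ((f z : ℝ) : ℂ) = (((d : ℝ) ^ 2 : ℝ) : ℂ) := by
      rw [hf, ← Complex.mul_conj]
      push_cast
      rw [mul_comm, ← h]
      ring
    exact_mod_cast h2
  have hA2 := tc_count N D f hf0 hfc hDZ hDD
  have hcardZ : (Finset.univ.filter (fun g : G => g ∈ Subgroup.center G)).card
      = Nat.card (Subgroup.center G) := by
    rw [Nat.card_eq_fintype_card, Fintype.card_subtype]
  have hSZ : ∑ g : G, (if g ∈ Subgroup.center G then f g else 0)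
      = (Nat.card (Subgroup.center G) : ℝ) * (d : ℝ) ^ 2 := by
    have h1 : ∀ g : G, (if g ∈ Subgroup.center G then f g else 0)
        = if g ∈ Subgroup.center G then (d : ℝ) ^ 2 else 0 := by
      intro g
      by_cases hg : g ∈ Subgroup.center G
      · rw [if_pos hg, if_pos hg, hfZ g hg]
      · rw [if_neg hg, if_neg hg]
    rw [Finset.sum_congr rfl (fun g _ => h1 g), ← Finset.sum_filter, Finset.sum_const,
      nsmul_eq_mul, hcardZ]
  have hcompl : ∑ g : G, (if g ∈ Subgroup.center G then 0 else f g)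
      = (Nat.card G : ℝ) - (Nat.card (Subgroup.center G) : ℝ) * (d : ℝ) ^ 2 := by
    rw [← hfsum, ← hSZ, eq_sub_iff_add_eq, ← Finset.sum_add_distrib]
    apply Finset.sum_congr rfl
    intro g _
    by_cases hg : g ∈ Subgroup.center G
    · rw [if_pos hg, if_pos hg, zero_add]
    · rw [if_neg hg, if_neg hg, add_zero]
  rw [hcompl] at hA2
  -- coset averages
  obtain ⟨ξ₀, hξ₀⟩ : ∃ ξ₀ : G → ℂ, ξ₀ = Helper2.cosetAvg H (ψ : G → ℂ) := ⟨_, rfl⟩
  obtain ⟨η₀, hη₀⟩ : ∃ η₀ : G → ℂ, ∀ g, η₀ g = (ψ : G → ℂ) g - ξ₀ g := ⟨_, fun _ => rfl⟩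
  have hξinv : ∀ h ∈ H, ∀ g, ξ₀ (h * g) = ξ₀ g := fun h hh g => by
    rw [hξ₀]
    exact tc_cosetAvg_mul_left H _ hh g
  have hξsum : ∀ g, ∑ x : G, (if x ∈ H then (ψ : G → ℂ) (x * g) else 0)
      = (Nat.card H : ℂ) * ξ₀ g := by
    intro g
    rw [hξ₀, Helper2.cosetAvg_apply, ← mul_assoc, mul_inv_cancel₀ hH0, one_mul]
  have hηsum : ∀ g, ∑ x : G, (if x ∈ H then η₀ (x * g) else 0) = 0 := by
    intro g
    have h1 : ∀ x : G, (if x ∈ H then η₀ (x * g) else 0)
        = (if x ∈ H then (ψ : G → ℂ) (x * g) else 0) - (if x ∈ H then ξ₀ g else 0) := by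
      intro x
      by_cases hx : x ∈ H
      · rw [if_pos hx, if_pos hx, if_pos hx, hη₀, hξinv x hx]
      · rw [if_neg hx, if_neg hx, if_neg hx, sub_zero]
    rw [Finset.sum_congr rfl (fun x _ => h1 x), Finset.sum_sub_distrib, hξsum,
      Helper2.sum_indicator_subgroup, sub_self]
  obtain ⟨W, hWdef⟩ : ∃ W : G → Prop, ∀ g, W g ↔ (g ∈ Subgroup.center G ∨ D g) :=
    ⟨_, fun _ => Iff.rfl⟩
  have hWH : ∀ g, ∀ h ∈ H, W g → W (h * g) := by
    intro g h hh hw
    rw [hWdef] at hw ⊢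
    by_cases hcz : h * g ∈ Subgroup.center G
    · exact Or.inl hcz
    · right
      rw [hDdef]
      refine ⟨hcz, ?_⟩
      rcases hw with hgz | hgD
      · have hh1 : h ≠ 1 := by
          rintro rfl
          rw [one_mul] at hcz
          exact hcz hgz
        refine ⟨h, hh, hh1, ?_⟩
        rw [mul_assoc h g h, ← Subgroup.mem_center_iff.mp hgz h]
      · obtain ⟨_, h₀, hh₀, hne, hcomm⟩ := (hDdef g).mp hgD
        refine ⟨h₀, hh₀, hne, ?_⟩
        rw [← mul_assoc, hab h₀ hh₀ h hh, mul_assoc, hcomm, mul_assoc]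
  have hWiff : ∀ g, ∀ h ∈ H, (W (h * g) ↔ W g) := by
    intro g h hh
    constructor
    · intro hw
      have h1 := hWH (h * g) h⁻¹ (H.inv_mem hh) hw
      rwa [inv_mul_cancel_left] at h1
    · exact hWH g h hh
  have hWN : ∀ g, W g → g ∈ N := by
    intro g hw
    rcases (hWdef g).mp hw with hgz | hgD
    · rw [hNdef, Subgroup.mem_normalizer_iff]
      intro h
      have h1 : g * h * g⁻¹ = h := by
        rw [← Subgroup.mem_center_iff.mp hgz h, mul_inv_cancel_right]
      rw [h1]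
    · exact hDN g hgD
  have hη0 : ∀ g, g ∈ N → ¬ W g → η₀ g = 0 := by
    intro g hgN hgW
    have hgz : g ∉ Subgroup.center G := fun h => hgW ((hWdef g).mpr (Or.inl h))
    have hfree : ∀ k ∈ H, k * g = g * k → k = 1 := by
      intro k hk hcomm
      by_contra hk1
      exact hgW ((hWdef g).mpr (Or.inr ((hDdef g).mpr ⟨hgz, k, hk, hk1, hcomm⟩)))
    have hgN' : ∀ k, k ∈ H ↔ g * k * g⁻¹ ∈ H := by
      have h1 := hgN
      rw [hNdef, Subgroup.mem_normalizer_iff] at h1
      exact h1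
    have hσmem : ∀ k : H, (k : G) * g * (k : G)⁻¹ * g⁻¹ ∈ H := by
      intro k
      have h1 : g * (k : G)⁻¹ * g⁻¹ ∈ H := (hgN' _).mp (H.inv_mem k.2)
      have h2 : (k : G) * g * (k : G)⁻¹ * g⁻¹ = (k : G) * (g * (k : G)⁻¹ * g⁻¹) := by group
      rw [h2]
      exact H.mul_mem k.2 h1
    obtain ⟨σ, hσ⟩ : ∃ σ : H → H, ∀ k : H, ((σ k : H) : G) = (k : G) * g * (k : G)⁻¹ * g⁻¹ :=
      ⟨fun k => ⟨_, hσmem k⟩, fun k => rfl⟩
    have hσinj : Function.Injective σ := by
      intro k k' hkk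
      have h1 : (k : G) * g * (k : G)⁻¹ * g⁻¹ = (k' : G) * g * (k' : G)⁻¹ * g⁻¹ := by
        rw [← hσ, ← hσ, hkk]
      have h3 : (k : G) * g * (k : G)⁻¹ = (k' : G) * g * (k' : G)⁻¹ := mul_right_cancel h1
      have h2 : ((k' : G)⁻¹ * k) * g = g * ((k' : G)⁻¹ * k) := by
        calc ((k' : G)⁻¹ * k) * g = (k' : G)⁻¹ * ((k : G) * g * (k : G)⁻¹) * k := by group
          _ = (k' : G)⁻¹ * ((k' : G) * g * (k' : G)⁻¹) * k := by rw [h3]
          _ = g * ((k' : G)⁻¹ * k) := by group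
      have h4 := hfree _ (H.mul_mem (H.inv_mem k'.2) k.2) h2
      exact Subtype.ext (inv_mul_eq_one.mp h4).symm
    have hσbij : Function.Bijective σ := Finite.injective_iff_bijective.mp hσinj
    have h5 : ∑ k : H, (ψ : G → ℂ) ((σ k : G) * g) = ∑ k : H, (ψ : G → ℂ) ((k : G) * g) :=
      hσbij.sum_comp (fun k : H => (ψ : G → ℂ) ((k : G) * g))
    have h6 : ∀ k : H, (ψ : G → ℂ) ((σ k : G) * g) = (ψ : G → ℂ) g := by
      intro k
      rw [hσ, show (k : G) * g * (k : G)⁻¹ * g⁻¹ * g = (k : G) * g * (k : G)⁻¹ by group,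
        Helper25.irr_conj]
    rw [Finset.sum_congr rfl (fun k _ => h6 k), Finset.sum_const, Finset.card_univ, nsmul_eq_mul,
      ← Nat.card_eq_fintype_card] at h5
    have h7 := hξsum g
    rw [tc_sum_subgroup H (fun x => if x ∈ H then (ψ : G → ℂ) (x * g) else 0)
      (fun x hx => if_neg hx), Finset.sum_congr rfl (fun k _ => if_pos k.2), ← h5] at h7
    rw [hη₀, ← mul_left_cancel₀ hH0 h7, sub_self]
  -- the nonzero part has norm at least |N|
  haveI hKn : (H.subgroupOf N).Normal := by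
    rw [hNdef]
    exact Subgroup.normal_in_normalizer
  obtain ⟨t, ht1, hB⟩ := tc_cosetB (H.subgroupOf N) (fun n : N => (ψ : G → ℂ) n)
    (Helper2.isCharacter_restrict N (Helper25.irr_isCharacter ψ))
    (by
      obtain ⟨h, hh, hne⟩ := hker
      exact ⟨⟨h, hHN hh⟩, Subgroup.mem_subgroupOf.mpr hh, hne⟩)
  have hcardK : Nat.card (H.subgroupOf N) = Nat.card H :=
    Nat.card_congr (Subgroup.subgroupOfEquivOfLe hHN).toEquiv
  have havg : ∀ n : N, Helper2.cosetAvg (H.subgroupOf N) (fun n : N => (ψ : G → ℂ) n) n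
      = ξ₀ n := by
    intro n
    rw [hξ₀, Helper2.cosetAvg_apply, Helper2.cosetAvg_apply, hcardK]
    congr 1
    rw [tc_sum_subgroup N (fun x => if x ∈ H then (ψ : G → ℂ) (x * n) else 0)
      (fun x hx => if_neg (fun h => hx (hHN h)))]
    rfl
  have hSη : ∑ g : G, (if W g then Complex.normSq (η₀ g) else 0)
      = (t : ℝ) * (Nat.card N : ℝ) := by
    have h1 : ∀ g : G, (if W g then Complex.normSq (η₀ g) else 0)
        = if g ∈ N then Complex.normSq (η₀ g) else 0 := by
      intro g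
      by_cases hw : W g
      · rw [if_pos hw, if_pos (hWN g hw)]
      · rw [if_neg hw]
        by_cases hgN : g ∈ N
        · rw [if_pos hgN, hη0 g hgN hw, map_zero]
        · rw [if_neg hgN]
    rw [Finset.sum_congr rfl (fun g _ => h1 g),
      tc_sum_subgroup N (fun g => if g ∈ N then Complex.normSq (η₀ g) else 0)
        (fun x hx => if_neg hx), Finset.sum_congr rfl (fun n _ => if_pos n.2)]
    have h2 : ((∑ n : N, Complex.normSq (η₀ n) : ℝ) : ℂ)
        = (((t : ℝ) * (Nat.card N : ℝ) : ℝ) : ℂ) := by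
      push_cast
      rw [← hB]
      apply Finset.sum_congr rfl
      intro n _
      rw [havg n, ← hη₀, Complex.mul_conj]
    exact_mod_cast h2
  have hT : ∑ g : G, (if W g then ξ₀ g * conj (η₀ g) else 0) = 0 := by
    obtain ⟨T, hTdef⟩ : ∃ T : ℂ, T = ∑ g : G, (if W g then ξ₀ g * conj (η₀ g) else 0) :=
      ⟨_, rfl⟩
    rw [← hTdef]
    have hstep : ∀ h ∈ H, T = ∑ g : G, (if W g then ξ₀ g * conj (η₀ (h * g)) else 0) := by
      intro h hh
      rw [hTdef]
      have e1 : ∑ g : G, (if W g then ξ₀ g * conj (η₀ g) else 0)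
          = ∑ g : G, (if W (h * g) then ξ₀ (h * g) * conj (η₀ (h * g)) else 0) :=
        (Fintype.sum_equiv (Equiv.mulLeft h)
          (fun g => if W (h * g) then ξ₀ (h * g) * conj (η₀ (h * g)) else 0)
          (fun g => if W g then ξ₀ g * conj (η₀ g) else 0) (fun g => rfl)).symm
      rw [e1]
      apply Finset.sum_congr rfl
      intro g _
      rw [hξinv h hh g]
      by_cases hw : W g
      · rw [if_pos hw, if_pos ((hWiff g h hh).mpr hw)]
      · rw [if_neg hw, if_neg (fun h' => hw ((hWiff g h hh).mp h'))]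
    have h2 : (Nat.card H : ℂ) * T = ∑ x : G, (if x ∈ H then T else 0) :=
      (Helper2.sum_indicator_subgroup H T).symm
    have h3 : ∑ x : G, (if x ∈ H then T else 0)
        = ∑ x : G, ∑ g : G,
          (if W g then ξ₀ g * conj (if x ∈ H then η₀ (x * g) else 0) else 0) := by
      apply Finset.sum_congr rfl
      intro x _
      by_cases hx : x ∈ H
      · rw [if_pos hx, hstep x hx]
        apply Finset.sum_congr rfl
        intro g _
        rw [if_pos hx]
      · rw [if_neg hx]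
        symm
        apply Finset.sum_eq_zero
        intro g _
        rw [if_neg hx, map_zero, mul_zero, ite_self]
    rw [h3, Finset.sum_comm] at h2
    have h4 : ∀ g : G, ∑ x : G,
        (if W g then ξ₀ g * conj (if x ∈ H then η₀ (x * g) else 0) else 0) = 0 := by
      intro g
      by_cases hw : W g
      · simp only [if_pos hw]
        rw [← Finset.mul_sum, ← map_sum, hηsum g, map_zero, mul_zero]
      · simp only [if_neg hw, Finset.sum_const_zero]
    rw [Finset.sum_congr rfl (fun g _ => h4 g), Finset.sum_const_zero] at h2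
    exact (mul_eq_zero.mp h2).resolve_left hH0
  have hSW : ∑ g : G, (if W g then f g else 0)
      = ∑ g : G, (if W g then Complex.normSq (ξ₀ g) else 0) + (t : ℝ) * (Nat.card N : ℝ) := by
    rw [← hSη, ← Finset.sum_add_distrib]
    have h1 : ∀ g : G, (if W g then f g else 0)
        = (if W g then Complex.normSq (ξ₀ g) else 0) + (if W g then Complex.normSq (η₀ g) else 0)
          + 2 * (if W g then ξ₀ g * conj (η₀ g) else 0).re := by
      intro g
      by_cases hw : W g
      · rw [if_pos hw, if_pos hw, if_pos hw, if_pos hw, hf, ← Complex.normSq_add, hη₀]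
        congr 1
        ring
      · rw [if_neg hw, if_neg hw, if_neg hw, if_neg hw]
        simp
    have h2 : ∑ g : G, (if W g then f g else 0)
        = ∑ g : G, ((if W g then Complex.normSq (ξ₀ g) else 0)
            + (if W g then Complex.normSq (η₀ g) else 0))
          + 2 * (∑ g : G, (if W g then ξ₀ g * conj (η₀ g) else 0)).re := by
      rw [Complex.re_sum, Finset.mul_sum, ← Finset.sum_add_distrib]
      exact Finset.sum_congr rfl (fun g _ => h1 g)
    rw [h2, hT]
    simp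
  have hcsum : ∑ x : G, (if x ∈ H then (ψ : G → ℂ) x else 0) = (Nat.card H : ℂ) * c := by
    rw [tc_sum_subgroup H (fun x => if x ∈ H then (ψ : G → ℂ) x else 0) (fun x hx => if_neg hx),
      Finset.sum_congr rfl (fun k _ => if_pos k.2)]
    have h := hc
    unfold classInner at h
    rw [← h, ← mul_assoc, mul_inv_cancel₀ hH0, one_mul]
    apply Finset.sum_congr rfl
    intro k _
    simp
  have hdR : (d : ℝ) ≠ 0 := Nat.cast_ne_zero.mpr hdpos.ne'
  have hξZ : ∀ h ∈ H, ∀ z ∈ Subgroup.center G, Complex.normSq (ξ₀ (h * z)) = (c : ℝ) ^ 2 := by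
    intro h hh z hz
    rw [hξinv h hh z]
    have h1 := hξsum z
    have h2 : ∀ x : G, (if x ∈ H then (ψ : G → ℂ) (x * z) else 0)
        = (if x ∈ H then (ψ : G → ℂ) x else 0) * ((ψ : G → ℂ) z / d) := by
      intro x
      by_cases hx : x ∈ H
      · rw [if_pos hx, if_pos hx, mul_div_assoc', ← hmul x z hz, mul_div_assoc, div_self hd0,
          mul_one]
      · rw [if_neg hx, if_neg hx, zero_mul]
    rw [Finset.sum_congr rfl (fun x _ => h2 x), ← Finset.sum_mul, hcsum] at h1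
    have h3 : ξ₀ z = (c : ℂ) * ((ψ : G → ℂ) z / d) := by
      have h4 : (Nat.card H : ℂ) * ((c : ℂ) * ((ψ : G → ℂ) z / d)) = (Nat.card H : ℂ) * ξ₀ z := by
        rw [← h1]
        ring
      exact (mul_left_cancel₀ hH0 h4).symm
    rw [h3, Complex.normSq_mul, Complex.normSq_div, Complex.normSq_natCast,
      Complex.normSq_natCast, ← hf, hfZ z hz]
    field_simp
  have hSξ : (Nat.card H : ℝ) * (Nat.card (Subgroup.center G) : ℝ) * (c : ℝ) ^ 2
      ≤ ∑ g : G, (if W g then Complex.normSq (ξ₀ g) else 0) := by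
    rw [← Finset.sum_filter]
    have hinj : Function.Injective (fun p : H × Subgroup.center G => (p.1 : G) * (p.2 : G)) := by
      rintro ⟨h, z⟩ ⟨h', z'⟩ hp
      have hp' : (h : G) * (z : G) = (h' : G) * (z' : G) := hp
      have h1 : (h' : G)⁻¹ * h = (z' : G) * (z : G)⁻¹ := by
        calc (h' : G)⁻¹ * h = (h' : G)⁻¹ * ((h : G) * z) * (z : G)⁻¹ := by group
          _ = (h' : G)⁻¹ * ((h' : G) * z') * (z : G)⁻¹ := by rw [hp']
          _ = (z' : G) * (z : G)⁻¹ := by group
      have h2 : (h' : G)⁻¹ * h ∈ H ⊓ Subgroup.center G :=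
        Subgroup.mem_inf.mpr ⟨H.mul_mem (H.inv_mem h'.2) h.2,
          h1 ▸ (Subgroup.center G).mul_mem z'.2 ((Subgroup.center G).inv_mem z.2)⟩
      rw [hZ, Subgroup.mem_bot] at h2
      have h3 : (h : G) = h' := (inv_mul_eq_one.mp h2).symm
      have h4 : (z : G) = z' := by
        rw [h3] at hp'
        exact mul_left_cancel hp'
      exact Prod.ext (Subtype.ext h3) (Subtype.ext h4)
    have hsub : (Finset.univ : Finset (H × Subgroup.center G)).image
        (fun p => (p.1 : G) * (p.2 : G)) ⊆ Finset.univ.filter (fun g : G => W g) := by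
      intro g hg
      obtain ⟨p, _, rfl⟩ := Finset.mem_image.mp hg
      exact Finset.mem_filter.mpr ⟨Finset.mem_univ _,
        hWH _ _ p.1.2 ((hWdef _).mpr (Or.inl p.2.2))⟩
    calc (Nat.card H : ℝ) * (Nat.card (Subgroup.center G) : ℝ) * (c : ℝ) ^ 2
        = ∑ p : H × Subgroup.center G, Complex.normSq (ξ₀ ((p.1 : G) * (p.2 : G))) := by
          rw [Finset.sum_congr rfl (fun p _ => hξZ _ p.1.2 _ p.2.2), Finset.sum_const,
            Finset.card_univ, Fintype.card_prod, nsmul_eq_mul, ← Nat.card_eq_fintype_card,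
            ← Nat.card_eq_fintype_card]
          push_cast
          ring
      _ = ∑ g ∈ (Finset.univ : Finset (H × Subgroup.center G)).image
            (fun p => (p.1 : G) * (p.2 : G)), Complex.normSq (ξ₀ g) :=
          by rw [Finset.sum_image (fun x _ y _ hxy => hinj hxy)]
      _ ≤ ∑ g ∈ Finset.univ.filter (fun g : G => W g), Complex.normSq (ξ₀ g) :=
          Finset.sum_le_sum_of_subset_of_nonneg hsub (fun i _ _ => Complex.normSq_nonneg _)
  have hsplit : ∑ g : G, (if W g then f g else 0)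
      = ∑ g : G, (if g ∈ Subgroup.center G then f g else 0)
        + ∑ g : G, (if D g then f g else 0) := by
    rw [← Finset.sum_add_distrib]
    apply Finset.sum_congr rfl
    intro g _
    by_cases hgz : g ∈ Subgroup.center G
    · rw [if_pos ((hWdef g).mpr (Or.inl hgz)), if_pos hgz, if_neg (fun h => hDZ g h hgz), add_zero]
    · by_cases hgD : D g
      · rw [if_pos ((hWdef g).mpr (Or.inr hgD)), if_neg hgz, if_pos hgD, zero_add]
      · rw [if_neg (fun h => ((hWdef g).mp h).elim hgz hgD), if_neg hgz, if_neg hgD, add_zero]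
  -- final arithmetic
  obtain ⟨SD, hSD⟩ : ∃ SD : ℝ, SD = ∑ g : G, (if D g then f g else 0) := ⟨_, rfl⟩
  rw [← hSD] at hsplit hA2
  have ht1' : (1 : ℝ) ≤ t := by exact_mod_cast ht1
  have hNpos : (0 : ℝ) < Nat.card N := by exact_mod_cast Nat.card_pos
  have hGpos : (0 : ℝ) < Nat.card G := by exact_mod_cast Nat.card_pos
  have hZpos : (0 : ℝ) < Nat.card (Subgroup.center G) := by exact_mod_cast Nat.card_pos
  have hdpos' : (0 : ℝ) < d := by exact_mod_cast hdpos
  have h1 : (Nat.card H : ℝ) * (Nat.card (Subgroup.center G) : ℝ) * (c : ℝ) ^ 2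
      + (Nat.card N : ℝ) ≤ (Nat.card (Subgroup.center G) : ℝ) * (d : ℝ) ^ 2 + SD := by
    have h2 := hSW
    rw [hsplit, hSZ] at h2
    have h3 : (Nat.card N : ℝ) ≤ (t : ℝ) * (Nat.card N : ℝ) := by nlinarith
    linarith
  have h3 : (Nat.card G : ℝ) * ((Nat.card H : ℝ) * (Nat.card (Subgroup.center G) : ℝ) * (c : ℝ) ^ 2
      + (Nat.card N : ℝ) - (Nat.card (Subgroup.center G) : ℝ) * (d : ℝ) ^ 2)
      ≤ (Nat.card N : ℝ) * ((Nat.card G : ℝ) - (Nat.card (Subgroup.center G) : ℝ) * (d : ℝ) ^ 2) :=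
    le_trans (mul_le_mul_of_nonneg_left (by linarith) hGpos.le) hA2
  have h4 : (Nat.card (Subgroup.center G) : ℝ) * ((Nat.card G : ℝ) * ((Nat.card H : ℝ) * (c : ℝ) ^ 2))
      ≤ (Nat.card (Subgroup.center G) : ℝ) * ((d : ℝ) ^ 2 * ((Nat.card G : ℝ) - (Nat.card N : ℝ))) := by
    linarith
  have h5 := le_of_mul_le_mul_left h4 hZpos
  have h6 : (Nat.card G : ℝ) * ((Nat.card H : ℝ) * (c : ℝ) ^ 2) < (Nat.card G : ℝ) * (d : ℝ) ^ 2 := by
    have h7 : (0 : ℝ) < (d : ℝ) ^ 2 * (Nat.card N : ℝ) := by positivity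
    linarith
  have h8 : (Nat.card H : ℝ) * (c : ℝ) ^ 2 < (d : ℝ) ^ 2 := lt_of_mul_lt_mul_left h6 hGpos.le
  exact_mod_cast h8

theorem part2 {G : Type u} [Group G] [Fintype G] (H : Subgroup G) [Fintype H]
    (hab : ∀ a ∈ H, ∀ b ∈ H, a * b = b * a) (hZ : H ⊓ Subgroup.center G = ⊥)
    (hone : ∀ g : G, g ∉ Subgroup.center G → ∀ a b : G,
      Subgroup.centralizer ({g} : Set G) ⊓ H.map (MulAut.conj a).toMonoidHom ≠ ⊥ →
      Subgroup.centralizer ({g} : Set G) ⊓ H.map (MulAut.conj b).toMonoidHom ≠ ⊥ →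
      H.map (MulAut.conj a).toMonoidHom = H.map (MulAut.conj b).toMonoidHom)
    (χ : IrrCharacter G) (hχ1 : charDegree (χ : G → ℂ) ≠ 1)
    (hnorm : ∀ M : Subgroup G, M.Normal → H ≤ M → M = ⊤) :
    Nat.card H < (1 + charDegree (χ : G → ℂ)) ^ 2 := by
  classical
  by_contra hcon
  push Not at hcon
  obtain ⟨d, hd⟩ : ∃ d : ℕ, d = charDegree (χ : G → ℂ) := ⟨_, rfl⟩
  rw [← hd] at hcon hχ1
  have hχ1' : (χ : G → ℂ) 1 = d := by rw [hd]; exact Helper25.irr_one_eq_degree χ
  have hdpos : 0 < d := by rw [hd]; exact Helper25.irr_degree_pos χ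
  have hd2 : 2 ≤ d := by omega
  have hχc := Helper25.irr_isCharacter χ
  obtain ⟨Ψ, hΨdef⟩ : ∃ Ψ : G → ℂ, Ψ = (χ : G → ℂ) * fun g => conj ((χ : G → ℂ) g) := ⟨_, rfl⟩
  have hΨ : IsCharacter G Ψ := by
    rw [hΨdef]
    exact Helper2.isCharacter_mul hχc (Helper2.isCharacter_conj hχc)
  have hΨapp : ∀ g, Ψ g = (χ : G → ℂ) g * conj ((χ : G → ℂ) g) := fun g => by rw [hΨdef]; rfl
  choose m hm using fun φ : IrrCharacter G =>
    Helper2.classInner_char_nat hΨ (Helper25.irr_isCharacter φ)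
  have hexp := Helper2.classFun_eq_sum_classInner (Helper2.isClassFunction_of_isCharacter hΨ)
  have hexp' : ∀ g : G, Ψ g = ∑ φ : IrrCharacter G, (m φ : ℂ) * (φ : G → ℂ) g := by
    intro g
    have h3 := congrFun hexp g
    simp only [Finset.sum_apply, Pi.smul_apply, smul_eq_mul] at h3
    refine h3.trans ?_
    exact Finset.sum_congr rfl (fun φ _ => by rw [hm φ])
  have htrivdeg : charDegree (Helper25.trivChar G : G → ℂ) = 1 := by
    have h1 := Helper25.irr_one_eq_degree (Helper25.trivChar G)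
    rw [Helper25.trivChar_apply] at h1
    exact_mod_cast h1.symm
  have hmtriv : m (Helper25.trivChar G) = 1 := by
    have h1 := hm (Helper25.trivChar G)
    have h2 : classInner Ψ (Helper25.trivChar G : G → ℂ)
        = classInner (χ : G → ℂ) (χ : G → ℂ) := by
      unfold classInner
      congr 1
      apply Finset.sum_congr rfl
      intro g _
      rw [hΨapp, Helper25.trivChar_apply, map_one, mul_one]
    rw [h2, Helper25.irr_classInner χ χ, if_pos rfl] at h1
    exact_mod_cast h1.symm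
  have hdeg : ∑ φ : IrrCharacter G, m φ * charDegree (φ : G → ℂ) = d ^ 2 := by
    have h1 := hexp' 1
    rw [hΨapp, hχ1', Complex.conj_natCast,
      Finset.sum_congr rfl (fun φ _ => by rw [Helper25.irr_one_eq_degree φ])] at h1
    have h2 : ((d ^ 2 : ℕ) : ℂ)
        = ((∑ φ : IrrCharacter G, m φ * charDegree (φ : G → ℂ) : ℕ) : ℂ) := by
      push_cast
      rw [← h1]
      ring
    exact_mod_cast h2.symm
  have hdata : ∀ φ : IrrCharacter G, ∃ c : ℕ,
      classInner (fun h : H => (φ : G → ℂ) h) (fun _ => 1) = c ∧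
      (φ ≠ Helper25.trivChar G → (1 + d) * c < charDegree (φ : G → ℂ)) ∧
      (φ = Helper25.trivChar G → c = 1) := by
    intro φ
    by_cases hφ : φ = Helper25.trivChar G
    · refine ⟨1, ?_, fun h => absurd hφ h, fun _ => rfl⟩
      rw [hφ]
      unfold classInner
      simp only [Helper25.trivChar_apply, map_one, mul_one, Finset.sum_const, Finset.card_univ,
        nsmul_eq_mul]
      rw [← Nat.card_eq_fintype_card, Nat.cast_one,
        inv_mul_cancel₀ (Nat.cast_ne_zero.mpr Nat.card_pos.ne')]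
    · have hkerφ : ∃ h ∈ H, (φ : G → ℂ) h ≠ (φ : G → ℂ) 1 := by
        by_contra hno
        push Not at hno
        have h1 : H ≤ Helper25.irrKer φ := fun h hh => (Helper25.mem_irrKer φ h).mpr (hno h hh)
        exact hφ (Helper25.irr_eq_trivChar_of_ker_eq_top φ
          (hnorm _ (Helper25.irrKer_normal φ) h1))
      obtain ⟨c, hc, hlt⟩ := part1 H hab hZ hone φ hkerφ
      refine ⟨c, hc, fun _ => ?_, fun h => absurd h hφ⟩
      have h2 : ((1 + d) * c) ^ 2 < charDegree (φ : G → ℂ) ^ 2 := by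
        calc ((1 + d) * c) ^ 2 = (1 + d) ^ 2 * c ^ 2 := by ring
          _ ≤ Nat.card H * c ^ 2 := Nat.mul_le_mul_right _ hcon
          _ < _ := hlt
      exact lt_of_pow_lt_pow_left₀ 2 (Nat.zero_le _) h2
  choose cc hcc1 hcc2 hcc3 using hdata
  obtain ⟨s, hs1, hs2⟩ := tc_abel_norm (Q := H) (fun a b => Subtype.ext (hab a a.2 b b.2))
    (fun h : H => (χ : G → ℂ) h) (Helper2.isCharacter_restrict H hχc) d
    (by
      show (χ : G → ℂ) ((1 : H) : G) = d
      rw [Subgroup.coe_one, hχ1'])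
  have hH0 : (Nat.card H : ℂ) ≠ 0 := Nat.cast_ne_zero.mpr Nat.card_pos.ne'
  have hA : (s : ℂ) = ∑ φ : IrrCharacter G, (m φ : ℂ) * (cc φ : ℂ) := by
    have h1 : ∑ h : H, (χ : G → ℂ) h * conj ((χ : G → ℂ) h)
        = ∑ φ : IrrCharacter G, (m φ : ℂ) * ((Nat.card H : ℂ) * (cc φ : ℂ)) := by
      rw [Finset.sum_congr rfl (fun h _ => by rw [← hΨapp, hexp']), Finset.sum_comm]
      apply Finset.sum_congr rfl
      intro φ _
      rw [← Finset.mul_sum]
      congr 1
      have h2 := hcc1 φ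
      unfold classInner at h2
      rw [← h2, ← mul_assoc, mul_inv_cancel₀ hH0, one_mul]
      apply Finset.sum_congr rfl
      intro h _
      simp
    rw [hs2] at h1
    have h3 : (Nat.card H : ℂ) * (s : ℂ)
        = (Nat.card H : ℂ) * ∑ φ : IrrCharacter G, (m φ : ℂ) * (cc φ : ℂ) := by
      rw [h1, Finset.mul_sum]
      apply Finset.sum_congr rfl
      intro φ _
      ring
    exact mul_left_cancel₀ hH0 h3
  have hA' : s = ∑ φ : IrrCharacter G, m φ * cc φ := by exact_mod_cast hA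
  have hlt : ∑ φ : IrrCharacter G, m φ * ((1 + d) * cc φ)
      < ∑ φ : IrrCharacter G, (m φ * charDegree (φ : G → ℂ)
          + if φ = Helper25.trivChar G then d else 0) := by
    apply Finset.sum_lt_sum
    · intro φ _
      by_cases hφ : φ = Helper25.trivChar G
      · rw [if_pos hφ, hcc3 φ hφ, hφ, hmtriv, htrivdeg]
        omega
      · rw [if_neg hφ, add_zero]
        exact Nat.mul_le_mul_left _ (hcc2 φ hφ).le
    · have hex : ∃ φ, φ ≠ Helper25.trivChar G ∧ m φ ≠ 0 := by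
        by_contra hno
        push Not at hno
        have h1 : ∑ φ : IrrCharacter G, m φ * charDegree (φ : G → ℂ)
            = m (Helper25.trivChar G) * charDegree (Helper25.trivChar G : G → ℂ) := by
          apply Finset.sum_eq_single
          · intro φ _ hφ
            rw [hno φ hφ, zero_mul]
          · intro h
            exact absurd (Finset.mem_univ _) h
        rw [hdeg, hmtriv, htrivdeg] at h1
        nlinarith
      obtain ⟨φ, hφ, hmφ⟩ := hex
      refine ⟨φ, Finset.mem_univ _, ?_⟩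
      rw [if_neg hφ, add_zero]
      exact Nat.mul_lt_mul_of_pos_left (hcc2 φ hφ) (Nat.pos_of_ne_zero hmφ)
  have hite : ∑ φ : IrrCharacter G, (if φ = Helper25.trivChar G then d else 0) = d := by simp
  rw [Finset.sum_add_distrib, hdeg, hite] at hlt
  have hL : ∑ φ : IrrCharacter G, m φ * ((1 + d) * cc φ) = (1 + d) * s := by
    rw [hA', Finset.mul_sum]
    apply Finset.sum_congr rfl
    intro φ _
    ring
  rw [hL] at hlt
  nlinarith

/-- Let H be an abelian subgroup of the finite group G meeting the centre of G trivially, such that for every non-central g the centralizer of g has nontrivial intersection with at most one conjugate of H. Let χ be an irreducible character of G with χ h ≠ χ 1 for some h in H, and let c be the inner product of the restriction of χ to H with the principal character. Then χ(1)² > (order of H)·c²; and if in addition χ 1 ≠ 1 and no proper normal subgroup of G contains H, then (1 + χ 1)² > order of H (both sides read as real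 numbers). -/
theorem result {G : Type*} [Group G] [Fintype G] (H : Subgroup G) [Fintype H] (hab : ∀ a ∈ H, ∀ b ∈ H, a * b = b * a) (hZ : H ⊓ Subgroup.center G = ⊥) (hone : ∀ g : G, g ∉ Subgroup.center G → ∀ a b : G, Subgroup.centralizer ({g} : Set G) ⊓ H.map (MulAut.conj a).toMonoidHom ≠ ⊥ → Subgroup.centralizer ({g} : Set G) ⊓ H.map (MulAut.conj b).toMonoidHom ≠ ⊥ → H.map (MulAut.conj a).toMonoidHom = H.map (MulAut.conj b).toMonoidHom) (χ : G → ℂ) (hχ : Cfsg.IsIrrCharacter G χ) (hker : ∃ h ∈ H, χ h ≠ χ 1) : (χ 1).re ^ 2 > (Nat.card H : ℝ) * (Cfsg.classInner (fun h : H => χ h) (fun _ => 1)).re ^ 2 ∧ (χ 1 ≠ 1 → (∀ M : Subgroup G, M.Normal → H ≤ M → M = ⊤) → (1 + (χ 1).re) ^ 2 > (Nat.card H : ℝ)) := by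
  classical
  obtain ⟨c, hc, hlt⟩ := part1 H hab hZ hone ⟨χ, hχ⟩ hker
  have hχ1 : χ 1 = (Cfsg.charDegree χ : ℂ) := Cfsg.Agent.Helper25.irr_one_eq_degree ⟨χ, hχ⟩
  constructor
  · have hc' : Cfsg.classInner (fun h : H => χ h) (fun _ => 1) = (c : ℂ) := hc
    rw [hc', hχ1]
    simp only [Complex.natCast_re]
    have h1 : ((Nat.card H * c ^ 2 : ℕ) : ℝ) < ((Cfsg.charDegree χ ^ 2 : ℕ) : ℝ) := by
      exact_mod_cast hlt
    push_cast at h1
    exact h1
  · intro h1 hM
    have hd1 : Cfsg.charDegree χ ≠ 1 := by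
      intro h
      apply h1
      rw [hχ1, h]
      simp
    have h2 := part2 H hab hZ hone ⟨χ, hχ⟩ hd1 hM
    rw [hχ1]
    simp only [Complex.natCast_re]
    have h3 : ((Nat.card H : ℕ) : ℝ) < (((1 + Cfsg.charDegree χ) ^ 2 : ℕ) : ℝ) := by
      exact_mod_cast h2
    push_cast at h3
    exact h3

end Cfsg.Agent.S0898
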