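import Cfsg.Statements.S5025
import Cfsg.Agent.Helper26.RankOne

set_option autoImplicit false
open Cfsg

namespace Cfsg.Agent.S5025

open Cfsg.Agent.Helper26 in
/-- Let S be a set of abstract root subgroups of G, A ∈ S and B a rank one partner of A in S. If z ≠ 1 centralizes ⟨A, B⟩, then no product z a with a a non-identity element of A is a non-identity element of a member of S. -/
theorem result {G : Type*} [Group G] {S : Set (Subgroup G)} (hS : Cfsg.IsRootSubgroupSet S)
    {A B : Subgroup G} (hA : A ∈ S) (hB : B ∈ Cfsg.rankOnePartners S A) {z : G}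
    (hz : z ∈ Subgroup.centralizer ((A ⊔ B : Subgroup G) : Set G)) (hz1 : z ≠ 1) :
    ∀ a ∈ A, a ≠ 1 → z * a ∉ Cfsg.rootElements S := by
  obtain ⟨hBS, hAB⟩ := hB
  intro a ha ha1
  rintro ⟨hza1, E, hE, he⟩
  -- z commutes with everything in A ⊔ B
  have hzc : ∀ g ∈ A ⊔ B, g * z = z * g := fun g hg => Subgroup.mem_centralizer_iff.mp hz g hg
  have hzA : ∀ g ∈ A, g * z = z * g := fun g hg => hzc g (Subgroup.mem_sup_left hg)
  have hzB : ∀ g ∈ B, g * z = z * g := fun g hg => hzc g (Subgroup.mem_sup_right hg)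
  have haAB : a ∈ A ⊔ B := Subgroup.mem_sup_left ha
  -- z normalizes every subgroup of A ⊔ B
  have hznorm : ∀ K : Subgroup G, K ≤ A ⊔ B → conjBy K z = K := by
    intro K hK
    apply conjBy_eq_self_iff.mpr
    apply mem_normalizer_of_forall_comm
    intro k hk
    exact hzc k (hK hk)
  have hBa_le : conjBy B a ≤ A ⊔ B := by
    rintro _ ⟨b, hb, rfl⟩
    exact (A ⊔ B).mul_mem ((A ⊔ B).mul_mem haAB (Subgroup.mem_sup_right hb)) ((A ⊔ B).inv_mem haAB)
  rcases hS.pair E hE B hBS with h1 | h1 | h1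
  · apply ha1
    apply eq_one_of_mem_of_normalizes hAB ha
    apply mem_normalizer_of_forall_comm
    intro b hb
    have hbz : Commute b z := hzB b hb
    have hbza : Commute b (z * a) := (comm_of_commutator_eq_bot h1 he hb).symm
    have := hbz.inv_right.mul_right hbza
    rw [inv_mul_cancel_left] at this
    exact this
  · obtain ⟨b', hb', hb'1, hb'e⟩ := cond_left' h1 he hza1
    obtain ⟨b, hb, hb1, hbe⟩ := cond_left' hAB ha ha1
    have h2 : conjBy B (z * a) = conjBy B a := by
      rw [← conjBy_conjBy, hznorm _ hBa_le]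
    have hEd : E = conjBy A (b'⁻¹ * b) := by
      rw [← conjBy_conjBy A b, hbe, ← h2, ← hb'e, conjBy_conjBy]; simp [conjBy_one]
    by_cases hd : b'⁻¹ * b = 1
    · rw [hd, conjBy_one] at hEd
      rw [hEd] at he
      have hzA' : z ∈ A := by
        have : z = (z * a) * a⁻¹ := by group
        rw [this]; exact A.mul_mem he (A.inv_mem ha)
      apply hz1
      apply eq_one_of_mem_of_normalizes hAB hzA'
      apply mem_normalizer_of_forall_comm
      intro b₁ hb₁
      exact hzB b₁ hb₁
    · obtain ⟨a₁, ha₁, ha₁1, ha₁e⟩ := cond_right' hAB (B.mul_mem (B.inv_mem hb') hb) hd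
      rw [← hEd] at ha₁e
      rw [← ha₁e] at he
      obtain ⟨b₁, hb₁, hb₁e⟩ := he
      have hb₁e' : a₁ * b₁ * a₁⁻¹ = z * a := hb₁e
      have hcomm1 : a₁ * (z * a) = (z * a) * a₁ := by
        have h4 := hzA a₁ ha₁
        have h5 := comm_of_isMulCommutative (hS.commutative A hA) ha₁ ha
        calc a₁ * (z * a) = (a₁ * z) * a := by group
          _ = (z * a₁) * a := by rw [h4]
          _ = z * (a₁ * a) := by group
          _ = z * (a * a₁) := by rw [h5]
          _ = (z * a) * a₁ := by group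
      have h3 : b₁ = z * a := by
        calc b₁ = a₁⁻¹ * (a₁ * b₁ * a₁⁻¹) * a₁ := by group
          _ = a₁⁻¹ * (z * a) * a₁ := by rw [hb₁e']
          _ = a₁⁻¹ * ((z * a) * a₁) := by group
          _ = a₁⁻¹ * (a₁ * (z * a)) := by rw [hcomm1]
          _ = z * a := by group
      apply ha1
      apply eq_one_of_mem_of_normalizes hAB ha
      apply mem_normalizer_of_forall_comm
      intro b hb
      have hbz : Commute b z := hzB b hb
      have h7 := comm_of_isMulCommutative (hS.commutative B hBS) hb hb₁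
      rw [h3] at h7
      have hbza : Commute b (z * a) := h7
      have := hbz.inv_right.mul_right hbza
      rw [inv_mul_cancel_left] at this
      exact this
  · obtain ⟨hD, hcent, -, -⟩ := h1
    obtain ⟨b₀, hb₀, hb₀1, hb₀x⟩ := cond_left' hAB ha ha1
    apply hb₀1
    apply eq_one_of_normalizes_conj' hAB ha ha1 hb₀
    apply mem_normalizer_of_forall_comm
    rintro _ ⟨b, hb, rfl⟩
    show a * b * a⁻¹ * b₀ = b₀ * (a * b * a⁻¹)
    have hw : (z * a) * b * (z * a)⁻¹ * b⁻¹ ∈ ⁅E, B⁆ :=
      Subgroup.commutator_mem_commutator he hb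
    have hwc := hcent _ hw b₀ (Subgroup.mem_sup_right hb₀)
    have hcc := comm_of_isMulCommutative (hS.commutative B hBS) hb hb₀
    have h3 : a * b * a⁻¹ ∈ A ⊔ B :=
      (A ⊔ B).mul_mem ((A ⊔ B).mul_mem haAB (Subgroup.mem_sup_right hb)) ((A ⊔ B).inv_mem haAB)
    have h4 : (z * a) * b * (z * a)⁻¹ = a * b * a⁻¹ := by
      calc (z * a) * b * (z * a)⁻¹ = z * (a * b * a⁻¹) * z⁻¹ := by group
        _ = (a * b * a⁻¹) * z * z⁻¹ := by rw [hzc _ h3]
        _ = a * b * a⁻¹ := by group
    rw [h4] at hwc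
    calc a * b * a⁻¹ * b₀ = (a * b * a⁻¹ * b⁻¹) * (b * b₀) := by group
      _ = (a * b * a⁻¹ * b⁻¹) * (b₀ * b) := by rw [hcc]
      _ = ((a * b * a⁻¹ * b⁻¹) * b₀) * b := by group
      _ = (b₀ * (a * b * a⁻¹ * b⁻¹)) * b := by rw [hwc]
      _ = b₀ * (a * b * a⁻¹) := by group

end Cfsg.Agent.S5025
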