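import Cfsg.Statements.S5028
import Cfsg.Agent.Helper26.RankOne

set_option autoImplicit false
open Cfsg

namespace Cfsg.Agent.S5028

open Cfsg.Agent.Helper26 in
/-- Let S be a set of abstract root subgroups of G and A a member of S having a rank one partner in S. Then A meets every other member of S trivially. -/
theorem result {G : Type*} [Group G] {S : Set (Subgroup G)} (hS : Cfsg.IsRootSubgroupSet S)
    {A : Subgroup G} (hA : ¬ Cfsg.IsIsolatedIn (Cfsg.FAdj S) S A) (hAS : A ∈ S) : ∀ B ∈ S, A ⊓ B = ⊥ ∨ A = B := by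
  intro B hB
  by_cases hAB : A = B
  · exact Or.inr hAB
  left
  rw [eq_bot_iff]
  rintro x ⟨hxA, hxB⟩
  rw [Subgroup.mem_bot]
  by_contra hx1
  obtain ⟨C, hC, hAC⟩ := exists_partner hA hAS
  rcases hS.pair A hAS B hB with h1 | h1 | h1
  · -- commuting
    rcases hS.pair B hB C hC with h2 | h2 | h2
    · -- x centralizes C
      apply hx1
      apply eq_one_of_mem_of_normalizes hAC hxA
      apply mem_normalizer_of_forall_comm
      intro c hc
      exact (comm_of_commutator_eq_bot h2 hxB hc).symm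
    · obtain ⟨c, hc, hc1, hcx⟩ := cond_left' hAC hxA hx1
      obtain ⟨c', hc', hc'1, hc'x⟩ := cond_left' h2 hxB hx1
      have hBd : B = conjBy A (c'⁻¹ * c) := by
        rw [← conjBy_conjBy, hcx, ← hc'x, conjBy_conjBy]; simp [conjBy_one]
      by_cases hd : c'⁻¹ * c = 1
      · rw [hd, conjBy_one] at hBd; exact hAB hBd.symm
      · apply hx1
        apply eq_one_of_normalizes_conj hAC (C.mul_mem (C.inv_mem hc') hc) hd hxA
        rw [← hBd]
        apply mem_normalizer_of_forall_comm
        intro b hb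
        exact (comm_of_commutator_eq_bot h1 hxA hb).symm
    · -- commutator case B C
      obtain ⟨hD, hcent, -, -⟩ := h2
      obtain ⟨c₀, hc₀, hc₀1, hc₀x⟩ := cond_left' hAC hxA hx1
      apply hc₀1
      apply eq_one_of_normalizes_conj' hAC hxA hx1 hc₀
      apply mem_normalizer_of_forall_comm
      rintro _ ⟨c, hc, rfl⟩
      show x * c * x⁻¹ * c₀ = c₀ * (x * c * x⁻¹)
      have hz : x * c * x⁻¹ * c⁻¹ ∈ ⁅B, C⁆ := Subgroup.commutator_mem_commutator hxB hc
      have hzc := hcent _ hz c₀ (Subgroup.mem_sup_right hc₀)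
      have hcc := comm_of_isMulCommutative (hS.commutative C hC) hc hc₀
      calc x * c * x⁻¹ * c₀ = (x * c * x⁻¹ * c⁻¹) * (c * c₀) := by group
        _ = (x * c * x⁻¹ * c⁻¹) * (c₀ * c) := by rw [hcc]
        _ = ((x * c * x⁻¹ * c⁻¹) * c₀) * c := by group
        _ = (c₀ * (x * c * x⁻¹ * c⁻¹)) * c := by rw [hzc]
        _ = c₀ * (x * c * x⁻¹) := by group
  · exact hx1 (eq_one_of_mem_of_normalizes h1 hxA (Subgroup.le_normalizer hxB))
  · obtain ⟨hD, -, hgen, -⟩ := h1
    have h3 := hgen x hxA hx1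
    have h4 : (fun b : G => x * b * x⁻¹ * b⁻¹) '' (B : Set G) ⊆ {1} := by
      rintro _ ⟨b, hb, rfl⟩
      have := comm_of_isMulCommutative (hS.commutative B hB) hxB hb
      simp only [Set.mem_singleton_iff]
      rw [this]; group
    have h5 : ⁅A, B⁆ = ⊥ := by
      rw [← h3, eq_bot_iff]
      calc _ ≤ Subgroup.closure {1} := Subgroup.closure_mono h4
        _ = ⊥ := by simp
    exact hS.ne_bot _ hD h5

end Cfsg.Agent.S5028
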