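import Cfsg.Statements.S5017
import Cfsg.Agent.Helper26.RankOne

set_option autoImplicit false
open Cfsg

namespace Cfsg.Agent.S5017

open Cfsg.Agent.Helper26 in
/-- Let X be a rank one group with unipotent subgroups A and B and N a normal subgroup of X. Then either X = N A or N lies in the centre of X. Consequently a perfect rank one group is quasisimple. -/
theorem result {X : Type*} [Group X] {A B : Subgroup X} (h : Cfsg.IsRankOneGroup X A B) :
    (∀ N : Subgroup X, N.Normal → N ⊔ A = ⊤ ∨ N ≤ Subgroup.center X) ∧
    (Group.IsPerfect X → Cfsg.IsQuasisimple X) := by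
  refine ⟨fun N hN => normal_sup_or_le_center h N hN, fun hperf => ⟨hperf, ?_⟩⟩
  have hnt : Nontrivial (X ⧸ Subgroup.center X) := by
    by_contra hnt
    rw [not_nontrivial_iff_subsingleton] at hnt
    have hc : Subgroup.center X = ⊤ := QuotientGroup.subgroup_eq_top_of_subsingleton _ hnt
    apply not_forall_normalize h
    intro x
    apply conjBy_eq_self_iff.mpr
    have hx : x ∈ Subgroup.center X := by rw [hc]; trivial
    have : Subgroup.center X ≤ Subgroup.normalizer (A : Set X) := by
      intro z hz
      rw [Subgroup.mem_normalizer_iff]
      intro a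
      have hza : z * a * z⁻¹ = a := by
        rw [Subgroup.mem_center_iff] at hz
        rw [← hz a]; group
      rw [hza]
    exact this hx
  refine { toNontrivial := hnt, eq_bot_or_eq_top_of_normal := ?_ }
  intro M hM
  have hNn : (M.comap (QuotientGroup.mk' (Subgroup.center X))).Normal := hM.comap _
  rcases normal_sup_or_le_center h _ hNn with h1 | h1
  · right
    -- the quotient by N is nilpotent and perfect, hence trivial
    set N := M.comap (QuotientGroup.mk' (Subgroup.center X)) with hNdef
    have hsurj : Function.Surjective ((QuotientGroup.mk' N).comp A.subtype) := by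
      rw [← MonoidHom.range_eq_top, MonoidHom.range_comp, Subgroup.range_subtype]
      have h2 : Subgroup.map (QuotientGroup.mk' N) (N ⊔ A) = ⊤ := by
        rw [h1, ← MonoidHom.range_eq_map, MonoidHom.range_eq_top]
        exact QuotientGroup.mk'_surjective N
      rw [Subgroup.map_sup, QuotientGroup.map_mk'_self, bot_sup_eq] at h2
      exact h2
    have := h.2.nilpotent_left
    have hnil : Group.IsNilpotent (X ⧸ N) := Group.nilpotent_of_surjective _ hsurj
    have hsub : Subsingleton (X ⧸ N) := by
      by_contra hns
      rw [not_subsingleton_iff_nontrivial] at hns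
      exact Group.IsPerfect.not_isNilpotent (X ⧸ N) hnil
    have hNtop : N = ⊤ := QuotientGroup.subgroup_eq_top_of_subsingleton _ hsub
    rw [eq_top_iff]
    intro m _
    obtain ⟨x, rfl⟩ := QuotientGroup.mk'_surjective (Subgroup.center X) m
    have hx : x ∈ N := by rw [hNtop]; trivial
    exact hx
  · left
    rw [eq_bot_iff]
    intro m hm
    obtain ⟨x, rfl⟩ := QuotientGroup.mk'_surjective (Subgroup.center X) m
    have hx : x ∈ M.comap (QuotientGroup.mk' (Subgroup.center X)) := hm
    have hxc := h1 hx
    rw [Subgroup.mem_bot]
    exact (QuotientGroup.eq_one_iff x).mpr hxc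

end Cfsg.Agent.S5017
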