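import Cfsg.Statements.S5344
import Cfsg.Agent.Helper27.S4Pres


set_option autoImplicit false
open Cfsg

namespace Cfsg.Agent.S5344

/-- In a set of 3-transpositions, let a, b, c be members with a and c different and commuting, while neither a nor c commutes with b (a 3-string). Then there is an injective homomorphism from the symmetric group of degree 4 into the ambient group sending the transpositions (0 1), (1 2), (2 3) to a, b, c; so a, b, c generate a copy of the symmetric group of degree 4 in which they are transpositions. -/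
theorem result {G : Type*} [Group G] {D : Set G} (hD : Cfsg.IsThreeTranspositionSet D) {a b c : G} (ha : a ∈ D) (hb : b ∈ D) (hc : c ∈ D) (hac : a ≠ c) (hac' : Commute a c) (hab : ¬ Commute a b) (hbc : ¬ Commute b c) : ∃ φ : Equiv.Perm (Fin 4) →* G, Function.Injective φ ∧ φ (Equiv.swap 0 1) = a ∧ φ (Equiv.swap 1 2) = b ∧ φ (Equiv.swap 2 3) = c := by
  obtain ⟨hord, h23⟩ := hD
  have sq : ∀ d ∈ D, d * d = 1 := by
    intro d hd
    have h := hord d hd
    rw [← pow_two, ← h]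
    exact pow_orderOf_eq_one d
  have invself : ∀ d ∈ D, d⁻¹ = d := fun d hd => inv_eq_of_mul_eq_one_left (sq d hd)
  have braid : ∀ x ∈ D, ∀ y ∈ D, ¬ Commute x y → x * y * x = y * x * y := by
    intro x hx y hy hxy
    rcases h23 x hx y hy with h | h
    · exfalso
      apply hxy
      rw [pow_two] at h
      have h4 : x * y = (x * y)⁻¹ := eq_inv_of_mul_eq_one_left h
      rw [mul_inv_rev, invself x hx, invself y hy] at h4
      exact h4
    · have h4 : x * y * x = (y * x * y)⁻¹ := by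
        apply eq_inv_of_mul_eq_one_left
        rw [← h, pow_succ, pow_two]
        simp only [mul_assoc]
      rw [h4, mul_inv_rev, mul_inv_rev, invself x hx, invself y hy, mul_assoc]
  obtain ⟨φ, h0, h1, h2⟩ := Cfsg.Agent.Helper27.S4P.exists_hom a b c (sq a ha) (sq b hb) (sq c hc)
    (braid a ha b hb hab) (braid b hb c hc hbc) hac'
  refine ⟨φ, ?_, h0, h1, h2⟩
  have hv1 : φ (Equiv.swap 0 1 * Equiv.swap 2 3) ≠ 1 := by
    rw [map_mul, h0, h2]
    intro h
    apply hac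
    rw [eq_inv_of_mul_eq_one_left h, invself c hc]
  have hconj : ∀ τ v : Equiv.Perm (Fin 4), φ v ≠ 1 → φ (τ * v * τ⁻¹) ≠ 1 := by
    intro τ v hv h
    apply hv
    rw [map_mul, map_mul, map_inv] at h
    have : φ v = (φ τ)⁻¹ * 1 * φ τ := by rw [← h]; group
    simpa using this
  have hv2 : φ (Equiv.swap 0 2 * Equiv.swap 1 3) ≠ 1 := by
    have h := hconj (Equiv.swap 1 2) _ hv1
    have e : (Equiv.swap 1 2 : Equiv.Perm (Fin 4)) * (Equiv.swap 0 1 * Equiv.swap 2 3) * (Equiv.swap 1 2)⁻¹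
        = Equiv.swap 0 2 * Equiv.swap 1 3 := by decide
    rwa [e] at h
  have hv3 : φ (Equiv.swap 0 3 * Equiv.swap 1 2) ≠ 1 := by
    have h := hconj (Equiv.swap 1 3) _ hv1
    have e : (Equiv.swap 1 3 : Equiv.Perm (Fin 4)) * (Equiv.swap 0 1 * Equiv.swap 2 3) * (Equiv.swap 1 3)⁻¹
        = Equiv.swap 0 3 * Equiv.swap 1 2 := by decide
    rwa [e] at h
  have hV : ∀ v : Equiv.Perm (Fin 4), (v = Equiv.swap 0 1 * Equiv.swap 2 3 ∨ v = Equiv.swap 0 2 * Equiv.swap 1 3 ∨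
      v = Equiv.swap 0 3 * Equiv.swap 1 2) → φ v ≠ 1 := by
    rintro v (rfl | rfl | rfl)
    · exact hv1
    · exact hv2
    · exact hv3
  have key : ∀ σ : Equiv.Perm (Fin 4), σ ≠ 1 →
      (σ = Equiv.swap 0 1 * Equiv.swap 2 3 ∨ σ = Equiv.swap 0 2 * Equiv.swap 1 3 ∨
        σ = Equiv.swap 0 3 * Equiv.swap 1 2) ∨
      (σ * (Equiv.swap 0 1 * Equiv.swap 2 3) * σ⁻¹ * (Equiv.swap 0 1 * Equiv.swap 2 3)⁻¹ =
          Equiv.swap 0 1 * Equiv.swap 2 3 ∨
        σ * (Equiv.swap 0 1 * Equiv.swap 2 3) * σ⁻¹ * (Equiv.swap 0 1 * Equiv.swap 2 3)⁻¹ =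
          Equiv.swap 0 2 * Equiv.swap 1 3 ∨
        σ * (Equiv.swap 0 1 * Equiv.swap 2 3) * σ⁻¹ * (Equiv.swap 0 1 * Equiv.swap 2 3)⁻¹ =
          Equiv.swap 0 3 * Equiv.swap 1 2) ∨
      (σ * (Equiv.swap 0 2 * Equiv.swap 1 3) * σ⁻¹ * (Equiv.swap 0 2 * Equiv.swap 1 3)⁻¹ =
          Equiv.swap 0 1 * Equiv.swap 2 3 ∨
        σ * (Equiv.swap 0 2 * Equiv.swap 1 3) * σ⁻¹ * (Equiv.swap 0 2 * Equiv.swap 1 3)⁻¹ =
          Equiv.swap 0 2 * Equiv.swap 1 3 ∨
        σ * (Equiv.swap 0 2 * Equiv.swap 1 3) * σ⁻¹ * (Equiv.swap 0 2 * Equiv.swap 1 3)⁻¹ =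
          Equiv.swap 0 3 * Equiv.swap 1 2) := by decide
  rw [injective_iff_map_eq_one]
  intro σ hσ
  by_contra hne
  have hcomm : ∀ v : Equiv.Perm (Fin 4), φ (σ * v * σ⁻¹ * v⁻¹) = 1 := by
    intro v
    rw [map_mul, map_mul, map_mul, map_inv, map_inv, hσ]
    group
  rcases key σ hne with h | h | h
  · exact hV σ h hσ
  · exact hV _ h (hcomm _)
  · exact hV _ h (hcomm _)

end Cfsg.Agent.S5344
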