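import Cfsg.Statements.S0355
import Cfsg.Agent.Helper3.Steiner

set_option autoImplicit false
open Cfsg Cfsg.Agent.Helper3

namespace Cfsg.Agent.S0355

/-- In a Steiner system S(4, 7, 23), two distinct blocks intersect in 1 or 3 points. -/
theorem result {α : Type*} [Fintype α] [DecidableEq α] (hα : Fintype.card α = 23) {B : Set (Finset α)} (hB : Cfsg.IsSteinerSystem 4 7 B) {b c : Finset α} (hb : b ∈ B) (hc : c ∈ B) (hbc : b ≠ c) : (b ∩ c).card = 1 ∨ (b ∩ c).card = 3 := by
  obtain ⟨Bf, rfl⟩ := exists_finset_coe B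
  have hb' : b ∈ Bf := hb
  have hc' : c ∈ Bf := hc
  obtain ⟨h0, h2⟩ := s4723 hα hB hb'
  have hle : (b ∩ c).card ≤ 3 := by
    by_contra hcon
    exact hbc (block_eq_of_inter hB hb hc (by omega))
  have hn0 : (b ∩ c).card ≠ 0 := by
    intro h
    have hm : c ∈ Bf.filter (fun c => (b ∩ c).card = 0) := Finset.mem_filter.2 ⟨hc', h⟩
    rw [Finset.card_eq_zero] at h0
    rw [h0] at hm
    simp at hm
  have hn2 : (b ∩ c).card ≠ 2 := by
    intro h
    have hm : c ∈ Bf.filter (fun c => (b ∩ c).card = 2) := Finset.mem_filter.2 ⟨hc', h⟩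
    rw [Finset.card_eq_zero] at h2
    rw [h2] at hm
    simp at hm
  omega

end Cfsg.Agent.S0355
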