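import Mathlib
import Cfsg.Statements.S1600
import Cfsg.Agent.Helper3.M12Stmts
import Cfsg.Agent.Helper12.GolayStab

set_option autoImplicit false
open scoped Pointwise
open Cfsg

namespace Cfsg.Agent.S1600

open Cfsg.Agent.Helper12

/-- Tables of generators of the pointwise stabilizer of three points in the stabilizer of the standard dodecad. -/
def sS : ℕ := 0x1400001500000b00001700000700000800001300000300000a00001600001200000600000e00000f00000900000400000500001000001100000d00000c00000200000100000000000700001100001300000f00001500000300000b00000900000e00000500000800000400000a00001600001200000c00001700000600001400000d000010000002000001000000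
/-- Inverse tables. -/
def sQ : ℕ := 0x1400000e00001600001700001100000d00000500000600000a00000b00000400000300001500000f00000900001200001300000c00000700000800001000000200000100000000000700000a00001300000500001500000900001600000300001400000f00000400000800001100000b00001000000d00001700000600000e00000c000012000002000001000000
/-- Orbit certificate on the points. -/
def sPA : ℕ := 0x1400000e00001300000500001100000900000500000300001400000f00000400000300001100000f00001000001200001700000c00000000000c000000000000000000000000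
/-- Orbit certificate on the points. -/
def sTA : ℕ := 0x1000001000000000000000001000000000001000000000000000000000000000001000000000001000000000001000000000001000000000000000000000000000000000000
/-- Orbit certificate on the points. -/
def sRT : ℕ := 0x5000005000005000005000005000003000005000003000005000005000003000003000005000005000003000003000005000003000005000003000003000002000001000000
/-- Orbit certificate on the points. -/
def sRK : ℕ := 0x1000001700001600000d00001200000900000e00000400000f00001300000a00000500001100001400000600000b00001500000800000c000007000003000002000001000000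
theorem k_sys : sysOK sS sQ 2 = true := by decide +kernel
theorem k_m24 : sysM24 sS 2 = true := by decide +kernel
theorem k_fix : fixOK sS 2 340831 = true := by decide +kernel
theorem k_fix0 : fixPtOK sS 2 0 = true := by decide +kernel
theorem k_fix1 : fixPtOK sS 2 1 = true := by decide +kernel
theorem k_fix2 : fixPtOK sS 2 2 = true := by decide +kernel
theorem k_cert : certOK (sysAct sS) 2 SING sPA sTA sRT sRK 24 = true := by decide +kernel
theorem k_root : allB 24 (fun i => tb 340831 i || Nat.beq (get24 sRT i) 5) = true := by decide +kernel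

theorem gIdx_eq : ∀ p : GolayPt, Cfsg.Agent.Helper3.gIdx p = idx p := by decide +kernel

theorem dStd_eq_ofMask : Cfsg.Agent.Helper3.dStd = ofMask 340831 := by
  ext p
  simp only [Cfsg.Agent.Helper3.dStd, Cfsg.Agent.Helper3.gSup, Cfsg.Agent.Helper3.dMask,
    Finset.mem_filter, Finset.mem_univ, true_and, mem_ofMask, gIdx_eq]

theorem pt_eq0 : Cfsg.Agent.Helper3.pt 0 = pt 0 := by decide +kernel
theorem pt_eq1 : Cfsg.Agent.Helper3.pt 1 = pt 1 := by decide +kernel
theorem pt_eq2 : Cfsg.Agent.Helper3.pt 2 = pt 2 := by decide +kernel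

/-- The pointwise stabilizer of the first three points in the stabilizer of the standard dodecad. -/
def K3 : Subgroup (Equiv.Perm GolayPt) :=
  Cfsg.Agent.Helper3.fixN Cfsg.Agent.Helper3.KD [0, 1, 2]

theorem gen_mem (j : ℕ) : genOf sS sQ 2 k_sys j ∈ K3 := by
  refine ⟨⟨genOf_mem_M24 sS sQ 2 k_sys k_m24 j, ?_⟩, ?_⟩
  · show genOf sS sQ 2 k_sys j ∈ MulAction.stabilizer (Equiv.Perm GolayPt) Cfsg.Agent.Helper3.dStd
    rw [MulAction.mem_stabilizer_iff, dStd_eq_ofMask]
    exact genOf_fix sS sQ 2 k_sys k_fix j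
  · intro f hf
    simp only [List.mem_cons, List.not_mem_nil, or_false] at hf
    rcases hf with rfl | rfl | rfl
    · rw [pt_eq0]; exact genOf_fix_pt sS sQ 2 k_sys (by norm_num) k_fix0 j
    · rw [pt_eq1]; exact genOf_fix_pt sS sQ 2 k_sys (by norm_num) k_fix1 j
    · rw [pt_eq2]; exact genOf_fix_pt sS sQ 2 k_sys (by norm_num) k_fix2 j

theorem K3_trans (x y : GolayPt) (hx : x ∉ Cfsg.Agent.Helper3.dStd)
    (hy : y ∉ Cfsg.Agent.Helper3.dStd) : ∃ g ∈ K3, g x = y := by
  obtain ⟨i, hi, rfl⟩ := exists_idx x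
  obtain ⟨j, hj, rfl⟩ := exists_idx y
  rw [dStd_eq_ofMask, pt_mem_ofMask hi] at hx
  rw [dStd_eq_ofMask, pt_mem_ofMask hj] at hy
  have ri := allB_spec k_root i hi
  have rj := allB_spec k_root j hj
  rw [Bool.or_eq_true, Nat.beq_eq] at ri rj
  exact pt_orbit sS sQ 2 k_sys K3 (fun j _ => gen_mem j) sPA sTA sRT sRK k_cert i j hi hj
    (by rw [ri.resolve_left hx, rj.resolve_left hy])

theorem K3_card : Nat.card K3 = 72 := by
  have h0 := Cfsg.Agent.Helper3.fixN_card_ge Cfsg.Agent.Helper3.KD [] 0 _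
    (Cfsg.Agent.Helper3.lvl_lower Cfsg.Agent.Helper3.sound_m12Tabs _ _ _ Cfsg.Agent.Helper3.lvlA0)
  have h1 := Cfsg.Agent.Helper3.fixN_card_ge Cfsg.Agent.Helper3.KD [0] 1 _
    (Cfsg.Agent.Helper3.lvl_lower Cfsg.Agent.Helper3.sound_m12Tabs _ _ _ Cfsg.Agent.Helper3.lvlA1)
  have h2 := Cfsg.Agent.Helper3.fixN_card_ge Cfsg.Agent.Helper3.KD [0, 1] 2 _
    (Cfsg.Agent.Helper3.lvl_lower Cfsg.Agent.Helper3.sound_m12Tabs _ _ _ Cfsg.Agent.Helper3.lvlA2)
  have h3 := Cfsg.Agent.Helper3.fixN_card_ge Cfsg.Agent.Helper3.KD [0, 1, 2] 3 _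
    (Cfsg.Agent.Helper3.lvl_lower Cfsg.Agent.Helper3.sound_m12Tabs _ _ _ Cfsg.Agent.Helper3.lvlA3)
  have h4 := Cfsg.Agent.Helper3.fixN_card_ge Cfsg.Agent.Helper3.KD [0, 1, 2, 3] 4 _
    (Cfsg.Agent.Helper3.lvl_lower Cfsg.Agent.Helper3.sound_m12Tabs _ _ _ Cfsg.Agent.Helper3.lvlA4)
  rw [Cfsg.Agent.Helper3.fixN_nil, Cfsg.Agent.Helper3.KD_card, Cfsg.Agent.Helper3.cardA0] at h0
  rw [Cfsg.Agent.Helper3.cardA1] at h1
  rw [Cfsg.Agent.Helper3.cardA2] at h2
  rw [Cfsg.Agent.Helper3.cardA3] at h3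
  rw [Cfsg.Agent.Helper3.cardA4] at h4
  simp only [List.nil_append, List.cons_append] at h0 h1 h2 h3 h4
  have h5 := Cfsg.Agent.Helper3.fixA5_card
  show Nat.card (Cfsg.Agent.Helper3.fixN Cfsg.Agent.Helper3.KD [0, 1, 2]) = 72
  omega

theorem inv_apply_self' (f : Equiv.Perm GolayPt) (x : GolayPt) : f⁻¹ (f x) = x := by simp

theorem apply_inv_self' (f : Equiv.Perm GolayPt) (x : GolayPt) : f (f⁻¹ x) = x := by simp

theorem mem_smul_finset_iff' (g : Equiv.Perm GolayPt) (s : Finset GolayPt) (x : GolayPt) :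
    x ∈ g • s ↔ g⁻¹ x ∈ s := mem_smul_iff g x s

/-- Transport along a flag. -/
theorem main (d : Finset GolayPt) (p q r : GolayPt) (k : Equiv.Perm GolayPt) (hk : k ∈ M24)
    (hkd : k • Cfsg.Agent.Helper3.dStd = d) (hp : k (Cfsg.Agent.Helper3.pt 0) = p)
    (hq : k (Cfsg.Agent.Helper3.pt 1) = q) (hr : k (Cfsg.Agent.Helper3.pt 2) = r) :
    Nat.card ↥(MulAction.stabilizer ↥M24 d ⊓ MulAction.stabilizer ↥M24 p ⊓
      MulAction.stabilizer ↥M24 q ⊓ MulAction.stabilizer ↥M24 r) = 72 ∧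
    ∀ x ∉ d, ∀ y ∉ d, ∃ g ∈ (MulAction.stabilizer ↥M24 d ⊓ MulAction.stabilizer ↥M24 p ⊓
      MulAction.stabilizer ↥M24 q ⊓ MulAction.stabilizer ↥M24 r),
      ((g : ↥M24) : Equiv.Perm GolayPt) x = y := by
  -- membership in the subgroup
  have hmem : ∀ g : ↥M24, g ∈ (MulAction.stabilizer ↥M24 d ⊓ MulAction.stabilizer ↥M24 p ⊓
      MulAction.stabilizer ↥M24 q ⊓ MulAction.stabilizer ↥M24 r) ↔
      ((g : Equiv.Perm GolayPt) • d = d ∧ (g : Equiv.Perm GolayPt) p = p ∧
        (g : Equiv.Perm GolayPt) q = q ∧ (g : Equiv.Perm GolayPt) r = r) := by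
    intro g
    simp only [Subgroup.mem_inf, MulAction.mem_stabilizer_iff]
    constructor
    · rintro ⟨⟨⟨h1, h2⟩, h3⟩, h4⟩; exact ⟨h1, h2, h3, h4⟩
    · rintro ⟨h1, h2, h3, h4⟩; exact ⟨⟨⟨h1, h2⟩, h3⟩, h4⟩
  -- conjugation into the base group
  have into : ∀ g : Equiv.Perm GolayPt, g ∈ M24 → g • d = d → g p = p → g q = q → g r = r →
      k⁻¹ * g * k ∈ K3 := by
    intro g hg h1 h2 h3 h4
    refine ⟨⟨M24.mul_mem (M24.mul_mem (M24.inv_mem hk) hg) hk, ?_⟩, ?_⟩
    · show k⁻¹ * g * k ∈ MulAction.stabilizer (Equiv.Perm GolayPt) Cfsg.Agent.Helper3.dStd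
      rw [MulAction.mem_stabilizer_iff, mul_smul, mul_smul, hkd, h1, ← hkd, inv_smul_smul]
    · intro f hf
      simp only [List.mem_cons, List.not_mem_nil, or_false] at hf
      rcases hf with rfl | rfl | rfl
      · rw [Equiv.Perm.mul_apply, Equiv.Perm.mul_apply, hp, h2, ← hp, inv_apply_self']
      · rw [Equiv.Perm.mul_apply, Equiv.Perm.mul_apply, hq, h3, ← hq, inv_apply_self']
      · rw [Equiv.Perm.mul_apply, Equiv.Perm.mul_apply, hr, h4, ← hr, inv_apply_self']
  have outof : ∀ h : Equiv.Perm GolayPt, h ∈ K3 →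
      (k * h * k⁻¹ ∈ M24 ∧ (k * h * k⁻¹) • d = d ∧ (k * h * k⁻¹) p = p ∧ (k * h * k⁻¹) q = q ∧
        (k * h * k⁻¹) r = r) := by
    rintro h ⟨⟨hM, hd⟩, hfix⟩
    have hd' : h • Cfsg.Agent.Helper3.dStd = Cfsg.Agent.Helper3.dStd := hd
    have f0 := hfix 0 (by simp)
    have f1 := hfix 1 (by simp)
    have f2 := hfix 2 (by simp)
    refine ⟨M24.mul_mem (M24.mul_mem hk hM) (M24.inv_mem hk), ?_, ?_, ?_, ?_⟩
    · rw [mul_smul, mul_smul, ← hkd, inv_smul_smul, hd']
    · rw [Equiv.Perm.mul_apply, Equiv.Perm.mul_apply, ← hp, inv_apply_self', f0]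
    · rw [Equiv.Perm.mul_apply, Equiv.Perm.mul_apply, ← hq, inv_apply_self', f1]
    · rw [Equiv.Perm.mul_apply, Equiv.Perm.mul_apply, ← hr, inv_apply_self', f2]
  constructor
  · rw [← K3_card]
    apply Nat.card_congr
    refine
      { toFun := fun g => ⟨k⁻¹ * ((g : ↥M24) : Equiv.Perm GolayPt) * k,
          into _ (g : ↥M24).2 ((hmem g).mp g.2).1 ((hmem g).mp g.2).2.1 ((hmem g).mp g.2).2.2.1
            ((hmem g).mp g.2).2.2.2⟩
        invFun := fun h => ⟨⟨k * (h : Equiv.Perm GolayPt) * k⁻¹, (outof h h.2).1⟩,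
          (hmem _).mpr (outof h h.2).2⟩
        left_inv := ?_
        right_inv := ?_ }
    · intro g
      apply Subtype.ext
      apply Subtype.ext
      show k * (k⁻¹ * ((g : ↥M24) : Equiv.Perm GolayPt) * k) * k⁻¹ = _
      group
    · intro h
      apply Subtype.ext
      show k⁻¹ * (k * (h : Equiv.Perm GolayPt) * k⁻¹) * k = _
      group
  · intro x hx y hy
    have hx' : k⁻¹ x ∉ Cfsg.Agent.Helper3.dStd := by
      intro hc; apply hx; rw [← hkd, mem_smul_finset_iff']; exact hc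
    have hy' : k⁻¹ y ∉ Cfsg.Agent.Helper3.dStd := by
      intro hc; apply hy; rw [← hkd, mem_smul_finset_iff']; exact hc
    obtain ⟨h, hh, e⟩ := K3_trans _ _ hx' hy'
    refine ⟨⟨k * h * k⁻¹, (outof h hh).1⟩, (hmem _).mpr (outof h hh).2, ?_⟩
    show (k * h * k⁻¹) x = y
    rw [Equiv.Perm.mul_apply, Equiv.Perm.mul_apply, e, apply_inv_self']

/-- The pointwise stabiliser of three points of a dodecad inside the dodecad stabiliser (order 72) is transitive on the complementary dodecad. -/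
theorem result (d : Finset Cfsg.GolayPt) (hd : d ∈ Cfsg.dodecads) (p q r : Cfsg.GolayPt) (hp : p ∈ d) (hq : q ∈ d) (hr : r ∈ d) (hpq : p ≠ q) (hpr : p ≠ r) (hqr : q ≠ r) : Nat.card ↥(MulAction.stabilizer Cfsg.M24 d ⊓ MulAction.stabilizer Cfsg.M24 p ⊓ MulAction.stabilizer Cfsg.M24 q ⊓ MulAction.stabilizer Cfsg.M24 r) = 72 ∧ ∀ x ∉ d, ∀ y ∉ d, ∃ g ∈ (MulAction.stabilizer Cfsg.M24 d ⊓ MulAction.stabilizer Cfsg.M24 p ⊓ MulAction.stabilizer Cfsg.M24 q ⊓ MulAction.stabilizer Cfsg.M24 r), ((g : ↥Cfsg.M24) : Equiv.Perm Cfsg.GolayPt) x = y := by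

  -- two more points of the dodecad
  have hcard : 1 < (((d.erase p).erase q).erase r).card := by
    rw [Finset.card_erase_of_mem, Finset.card_erase_of_mem, Finset.card_erase_of_mem hp, hd.2]
    · norm_num
    · exact Finset.mem_erase.mpr ⟨hpq.symm, hq⟩
    · exact Finset.mem_erase.mpr ⟨hqr.symm, Finset.mem_erase.mpr ⟨hpr.symm, hr⟩⟩
  obtain ⟨s, hs, t, ht, hst⟩ := Finset.one_lt_card.mp hcard
  simp only [Finset.mem_erase] at hs ht
  obtain ⟨hsr, hsq, hsp, hsd⟩ := hs
  obtain ⟨htr, htq, htp, htd⟩ := ht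
  have hinj : Function.Injective (![p, q, r, s, t] : Fin 5 → GolayPt) := by
    intro i j hij
    fin_cases i <;> fin_cases j <;> simp_all
  obtain ⟨k, hk, hkd, hkx⟩ := Cfsg.Agent.Helper3.flag_five hd ⟨![p, q, r, s, t], hinj⟩
    (by
      intro i
      fin_cases i
      · exact hp
      · exact hq
      · exact hr
      · exact hsd
      · exact htd)
  exact main d p q r k hk hkd (hkx 0) (hkx 1) (hkx 2)

end Cfsg.Agent.S1600
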