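import Cfsg.Statements.S0352
import Cfsg.Agent.Helper3.Steiner

set_option autoImplicit false
open Cfsg Cfsg.Agent.Helper3

namespace Cfsg.Agent.S0352

/-- In a Steiner system S(5, 8, 24), two distinct blocks intersect in 0, 2 or 4 points. -/
theorem result {α : Type*} [Fintype α] [DecidableEq α] (hα : Fintype.card α = 24) {B : Set (Finset α)} (hB : Cfsg.IsSteinerSystem 5 8 B) {b c : Finset α} (hb : b ∈ B) (hc : c ∈ B) (hbc : b ≠ c) : (b ∩ c).card = 0 ∨ (b ∩ c).card = 2 ∨ (b ∩ c).card = 4 := by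
  obtain ⟨Bf, rfl⟩ := exists_finset_coe B
  have hb' : b ∈ Bf := hb
  have hc' : c ∈ Bf := hc
  obtain ⟨-, h1, h3⟩ := s5824 hα hB hb'
  have hle : (b ∩ c).card ≤ 4 := by
    by_contra hcon
    exact hbc (block_eq_of_inter hB hb hc (by omega))
  have hn1 : (b ∩ c).card ≠ 1 := by
    intro h
    have hm : c ∈ Bf.filter (fun c => (b ∩ c).card = 1) := Finset.mem_filter.2 ⟨hc', h⟩
    rw [Finset.card_eq_zero] at h1
    rw [h1] at hm
    simp at hm
  have hn3 : (b ∩ c).card ≠ 3 := by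
    intro h
    have hm : c ∈ Bf.filter (fun c => (b ∩ c).card = 3) := Finset.mem_filter.2 ⟨hc', h⟩
    rw [Finset.card_eq_zero] at h3
    rw [h3] at hm
    simp at hm
  omega

end Cfsg.Agent.S0352
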