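import Mathlib
import Cfsg.Statements.S0783

set_option autoImplicit false
open Cfsg

namespace Cfsg.Agent.S0783

open Matrix

lemma exists_frob {F : Type*} [Field F] [Fintype F] {q : ℕ} (hF : Fintype.card F = q ^ 2) :
    ∃ σ : F →+* F, ∀ x, σ x = x ^ q := by
  obtain ⟨p, hp⟩ := CharP.exists F
  haveI := hp
  obtain ⟨m, hpp, hm⟩ := FiniteField.card F p
  haveI : Fact p.Prime := ⟨hpp⟩
  have hq : q ∣ p ^ (m : ℕ) := by
    rw [← hm, hF]; exact Dvd.intro_left q (by ring)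
  obtain ⟨j, -, hj⟩ := (Nat.dvd_prime_pow hpp).1 hq
  refine ⟨iterateFrobenius F p j, fun x => ?_⟩
  rw [iterateFrobenius_def, hj]

lemma GU_transpose_mul {F : Type*} [Field F] [Fintype F] {q : ℕ} (hq : q ≠ 0) (n : ℕ)
    (σ : F →+* F) (hσ : ∀ x, σ x = x ^ q) (g : GL (Fin n) F) (hg : g ∈ Cfsg.GU n F q) :
    (g : Matrix (Fin n) (Fin n) F)ᵀ * (g : Matrix (Fin n) (Fin n) F).map σ = 1 := by
  classical
  ext i j
  have h : Cfsg.hermForm n F q ((g : Matrix (Fin n) (Fin n) F) *ᵥ Pi.single i 1)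
      ((g : Matrix (Fin n) (Fin n) F) *ᵥ Pi.single j 1) =
      Cfsg.hermForm n F q (Pi.single i 1) (Pi.single j 1) := hg (Pi.single i 1) (Pi.single j 1)
  rw [Matrix.mulVec_single_one, Matrix.mulVec_single_one] at h
  unfold Cfsg.hermForm at h
  rw [Matrix.mul_apply]
  have h1 : ∑ l, (g : Matrix (Fin n) (Fin n) F)ᵀ i l * ((g : Matrix (Fin n) (Fin n) F).map σ) l j =
      ∑ l, (g : Matrix (Fin n) (Fin n) F).col i l * ((g : Matrix (Fin n) (Fin n) F).col j l) ^ q := by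
    apply Finset.sum_congr rfl
    intro l _
    rw [Matrix.transpose_apply, Matrix.map_apply, hσ]
    rfl
  rw [h1, h]
  rw [Finset.sum_eq_single i]
  · rw [Pi.single_eq_same, one_mul, Matrix.one_apply, Pi.single_apply]
    by_cases hij : i = j
    · rw [if_pos hij, one_pow]
    · rw [if_neg hij, zero_pow hq]
  · intro l _ hl
    rw [Pi.single_eq_of_ne hl, zero_mul]
  · intro hi
    exact absurd (Finset.mem_univ i) hi

lemma GU_det_pow {F : Type*} [Field F] [Fintype F] {q : ℕ} (hF : Fintype.card F = q ^ 2) (n : ℕ)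
    (g : GL (Fin n) F) (hg : g ∈ Cfsg.GU n F q) :
    (Matrix.GeneralLinearGroup.det g) ^ (q + 1) = 1 := by
  have hq : q ≠ 0 := by
    rintro rfl
    have : 0 < Fintype.card F := Fintype.card_pos
    rw [hF] at this
    simp at this
  obtain ⟨σ, hσ⟩ := exists_frob hF
  have h := GU_transpose_mul hq n σ hσ g hg
  have h2 := congrArg Matrix.det h
  rw [Matrix.det_mul, Matrix.det_transpose, Matrix.det_one, ← RingHom.mapMatrix_apply,
    ← RingHom.map_det, hσ] at h2
  apply Units.ext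
  rw [Units.val_pow_eq_pow_val, Units.val_one, Matrix.GeneralLinearGroup.val_det_apply, pow_succ']
  exact h2

/-- diagonal element -/
def dg {F : Type*} [Field F] (n : ℕ) (d : Fin n → Fˣ) : GL (Fin n) F :=
  ⟨Matrix.diagonal (fun l => (d l : F)), Matrix.diagonal (fun l => (((d l)⁻¹ : Fˣ) : F)),
    by rw [Matrix.diagonal_mul_diagonal]; simp,
    by rw [Matrix.diagonal_mul_diagonal]; simp⟩

lemma dg_val {F : Type*} [Field F] (n : ℕ) (d : Fin n → Fˣ) :
    ((dg n d : GL (Fin n) F) : Matrix (Fin n) (Fin n) F) =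
      Matrix.diagonal (fun l => (d l : F)) := rfl

lemma dg_mem {F : Type*} [Field F] (n q : ℕ) (d : Fin n → Fˣ)
    (hd : ∀ l, (d l) ^ (q + 1) = 1) : dg n d ∈ Cfsg.GU n F q := by
  intro u v
  show Cfsg.hermForm n F q (Matrix.diagonal (fun l => (d l : F)) *ᵥ u)
    (Matrix.diagonal (fun l => (d l : F)) *ᵥ v) = Cfsg.hermForm n F q u v
  unfold Cfsg.hermForm
  apply Finset.sum_congr rfl
  intro l _
  rw [Matrix.mulVec_diagonal, Matrix.mulVec_diagonal, mul_pow]
  have h1 : (d l : F) * (d l : F) ^ q = 1 := by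
    rw [← pow_succ', ← Units.val_pow_eq_pow_val, hd l, Units.val_one]
  calc (d l : F) * u l * ((d l : F) ^ q * v l ^ q)
      = ((d l : F) * (d l : F) ^ q) * (u l * v l ^ q) := by ring
    _ = u l * v l ^ q := by rw [h1, one_mul]

lemma det_dg {F : Type*} [Field F] (n : ℕ) (d : Fin n → Fˣ) :
    Matrix.GeneralLinearGroup.det (dg n d) = ∏ l, d l := by
  apply Units.ext
  rw [Matrix.GeneralLinearGroup.val_det_apply, dg_val, Matrix.det_diagonal, Units.coe_prod]

/-- permutation matrix element -/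
def pm {F : Type*} [Field F] (n : ℕ) (τ : Equiv.Perm (Fin n)) : GL (Fin n) F :=
  ⟨τ.permMatrix F, (τ⁻¹).permMatrix F,
    by rw [← Matrix.permMatrix_mul, inv_mul_cancel, Matrix.permMatrix_one],
    by rw [← Matrix.permMatrix_mul, mul_inv_cancel, Matrix.permMatrix_one]⟩

lemma pm_val {F : Type*} [Field F] (n : ℕ) (τ : Equiv.Perm (Fin n)) :
    ((pm n τ : GL (Fin n) F) : Matrix (Fin n) (Fin n) F) = τ.permMatrix F := rfl

lemma pm_mem {F : Type*} [Field F] (n q : ℕ) (τ : Equiv.Perm (Fin n)) :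
    (pm n τ : GL (Fin n) F) ∈ Cfsg.GU n F q := by
  intro u v
  show Cfsg.hermForm n F q (τ.permMatrix F *ᵥ u) (τ.permMatrix F *ᵥ v) = Cfsg.hermForm n F q u v
  rw [Matrix.permMatrix_mulVec, Matrix.permMatrix_mulVec]
  unfold Cfsg.hermForm
  exact Equiv.sum_comp τ (fun l => u l * v l ^ q)

lemma center_scalar {F : Type*} [Field F] [Fintype F] {q : ℕ} (hF : Fintype.card F = q ^ 2)
    (n : ℕ) (hn : 0 < n) (z : ↥(Cfsg.GU n F q)) (hz : z ∈ Subgroup.center ↥(Cfsg.GU n F q))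
    (lam : Fˣ) (hlam : lam ^ (q + 1) = 1) (hlam1 : lam ≠ 1) :
    ∃ μ : Fˣ, μ ^ (q + 1) = 1 ∧ (z : GL (Fin n) F) = dg n (fun _ => μ) := by
  classical
  have hq : q ≠ 0 := by
    rintro rfl
    have : 0 < Fintype.card F := Fintype.card_pos
    rw [hF] at this
    simp at this
  obtain ⟨Z, hZ⟩ : ∃ Z : Matrix (Fin n) (Fin n) F, Z = ((z : GL (Fin n) F) : Matrix (Fin n) (Fin n) F) :=
    ⟨_, rfl⟩
  have hcomm : ∀ h : GL (Fin n) F, h ∈ Cfsg.GU n F q →
      Z * (h : Matrix (Fin n) (Fin n) F) = (h : Matrix (Fin n) (Fin n) F) * Z := by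
    intro h hh
    have h1 := Subgroup.mem_center_iff.1 hz ⟨h, hh⟩
    have h2 := congrArg (fun w : ↥(Cfsg.GU n F q) => ((w : GL (Fin n) F) : Matrix (Fin n) (Fin n) F)) h1
    simp only [Subgroup.coe_mul, Units.val_mul] at h2
    rw [hZ]
    exact h2.symm
  -- off-diagonal entries vanish
  have hoff : ∀ a b : Fin n, a ≠ b → Z a b = 0 := by
    intro a b hab
    have hD : dg n (Function.update (fun _ => (1 : Fˣ)) a lam) ∈ Cfsg.GU n F q := by
      apply dg_mem
      intro l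
      by_cases h : l = a
      · rw [h, Function.update_self]; exact hlam
      · rw [Function.update_of_ne h]; exact one_pow _
    have h1 := congrFun (congrFun (hcomm _ hD) a) b
    rw [dg_val, Matrix.mul_diagonal, Matrix.diagonal_mul, Function.update_self,
      Function.update_of_ne (Ne.symm hab), Units.val_one, mul_one] at h1
    have h2 : (1 - (lam : F)) * Z a b = 0 := by rw [sub_mul, one_mul, ← h1, sub_self]
    rcases mul_eq_zero.1 h2 with h3 | h3
    · exfalso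
      apply hlam1
      apply Units.ext
      rw [Units.val_one]
      exact (sub_eq_zero.1 h3).symm
    · exact h3
  have hZv : ∀ (v : Fin n → F) (a : Fin n), (Z *ᵥ v) a = Z a a * v a := by
    intro v a
    show ∑ l, Z a l * v l = Z a a * v a
    rw [Finset.sum_eq_single a]
    · intro l _ hl
      rw [hoff a l (Ne.symm hl), zero_mul]
    · intro ha
      exact absurd (Finset.mem_univ a) ha
  -- diagonal entries are equal
  have hdiag : ∀ a b : Fin n, Z a a = Z b b := by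
    intro a b
    have h1 := hcomm _ (pm_mem n q (Equiv.swap a b))
    rw [pm_val] at h1
    have h2 := congrFun (congrArg (fun M : Matrix (Fin n) (Fin n) F => M *ᵥ (fun _ => (1 : F))) h1) a
    simp only [← Matrix.mulVec_mulVec, Matrix.permMatrix_mulVec] at h2
    rw [hZv] at h2
    simp only [Function.comp_apply, mul_one] at h2
    rw [hZv, mul_one, Equiv.swap_apply_left] at h2
    exact h2
  obtain ⟨i0, -⟩ : ∃ i0 : Fin n, (i0 : ℕ) = 0 := ⟨⟨0, hn⟩, rfl⟩
  obtain ⟨σ, hσ⟩ := exists_frob hF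
  have hT := GU_transpose_mul hq n σ hσ (z : GL (Fin n) F) z.2
  rw [← hZ] at hT
  have hT0 := congrFun (congrFun hT i0) i0
  rw [Matrix.mul_apply, Finset.sum_eq_single i0, Matrix.transpose_apply, Matrix.map_apply, hσ,
    Matrix.one_apply_eq] at hT0
  rotate_left
  · intro l _ hl
    rw [Matrix.transpose_apply, hoff l i0 hl, zero_mul]
  · intro hi
    exact absurd (Finset.mem_univ i0) hi
  have hne : Z i0 i0 ≠ 0 := by
    intro h0
    rw [h0, zero_mul] at hT0
    exact zero_ne_one hT0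
  refine ⟨Units.mk0 (Z i0 i0) hne, ?_, ?_⟩
  · apply Units.ext
    rw [Units.val_pow_eq_pow_val, Units.val_mk0, Units.val_one, pow_succ']
    exact hT0
  · apply Units.ext
    rw [dg_val, ← hZ]
    ext a b
    rw [Matrix.diagonal_apply]
    by_cases hab : a = b
    · rw [if_pos hab, Units.val_mk0, ← hab]
      exact hdiag a i0
    · rw [if_neg hab]
      exact hoff a b hab

lemma card_units_sq {F : Type*} [Field F] [Fintype F] {q : ℕ} (hF : Fintype.card F = q ^ 2) :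
    2 ≤ q ∧ Nat.card Fˣ = (q - 1) * (q + 1) := by
  classical
  have h1 : 1 < Fintype.card F := Fintype.one_lt_card
  rw [hF] at h1
  have hq2 : 2 ≤ q := by
    by_contra hlt
    have hq1 : q ≤ 1 := by omega
    have : q ^ 2 ≤ 1 ^ 2 := Nat.pow_le_pow_left hq1 2
    omega
  refine ⟨hq2, ?_⟩
  rw [Nat.card_eq_fintype_card, Fintype.card_units, hF]
  obtain ⟨r, rfl⟩ : ∃ r, q = r + 1 := ⟨q - 1, by omega⟩
  have h2 : (r + 1) ^ 2 = r * (r + 2) + 1 := by ring
  rw [h2]
  simp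

lemma exists_elt_order {F : Type*} [Field F] [Fintype F] {q : ℕ} (hF : Fintype.card F = q ^ 2) :
    ∃ lam : Fˣ, orderOf lam = q + 1 := by
  obtain ⟨hq2, hcard⟩ := card_units_sq hF
  obtain ⟨ζ, hζ⟩ := IsCyclic.exists_generator (α := Fˣ)
  have hord : orderOf ζ = (q - 1) * (q + 1) := by
    rw [orderOf_eq_card_of_forall_mem_zpowers hζ, hcard]
  refine ⟨ζ ^ (q - 1), ?_⟩
  rw [orderOf_pow_of_dvd (by omega) (by rw [hord]; exact Dvd.intro _ rfl), hord]
  exact Nat.mul_div_cancel_left _ (by omega)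

lemma exists_root {F : Type*} [Field F] [Fintype F] {q : ℕ} (hF : Fintype.card F = q ^ 2) (n : ℕ)
    (δ : Fˣ) (h1 : δ ^ ((q + 1) / Nat.gcd n (q + 1)) = 1) :
    ∃ μ : Fˣ, μ ^ (q + 1) = 1 ∧ μ ^ n = δ := by
  obtain ⟨hq2, hcard⟩ := card_units_sq hF
  obtain ⟨ζ, hζ⟩ := IsCyclic.exists_generator (α := Fˣ)
  have hord : orderOf ζ = (q - 1) * (q + 1) := by
    rw [orderOf_eq_card_of_forall_mem_zpowers hζ, hcard]
  obtain ⟨b, hb⟩ := Subgroup.mem_zpowers_iff.1 (hζ δ)
  obtain ⟨d, hd⟩ : ∃ d, d = Nat.gcd n (q + 1) := ⟨_, rfl⟩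
  obtain ⟨e, he⟩ : ∃ e, e = (q + 1) / d := ⟨_, rfl⟩
  have hed : e * d = q + 1 := by
    rw [he, hd]; exact Nat.div_mul_cancel (Nat.gcd_dvd_right n (q + 1))
  have he0 : e ≠ 0 := by
    rintro rfl
    omega
  rw [← hd, ← he] at h1
  have hN : ((orderOf ζ : ℕ) : ℤ) = ((q : ℤ) - 1) * ((q : ℤ) + 1) := by
    rw [hord]
    push_cast [Nat.cast_sub (by omega : 1 ≤ q)]
    ring
  have hedZ : (e : ℤ) * (d : ℤ) = (q : ℤ) + 1 := by exact_mod_cast hed
  have hdvd : ((orderOf ζ : ℕ) : ℤ) ∣ b * (e : ℤ) := by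
    rw [orderOf_dvd_iff_zpow_eq_one, _root_.zpow_mul, hb, zpow_natCast]
    exact h1
  have hdvd2 : (((q : ℤ) - 1) * (d : ℤ)) * (e : ℤ) ∣ b * (e : ℤ) := by
    have h3 : (((q : ℤ) - 1) * (d : ℤ)) * (e : ℤ) = ((orderOf ζ : ℕ) : ℤ) := by
      rw [hN, ← hedZ]; ring
    rw [h3]; exact hdvd
  obtain ⟨c, hc⟩ := Int.dvd_of_mul_dvd_mul_right (by exact_mod_cast he0) hdvd2
  have bez : (d : ℤ) = (n : ℤ) * Nat.gcdA n (q + 1) + ((q + 1 : ℕ) : ℤ) * Nat.gcdB n (q + 1) := by
    rw [hd]; exact Nat.gcd_eq_gcd_ab n (q + 1)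
  obtain ⟨x, hx⟩ : ∃ x, x = Nat.gcdA n (q + 1) := ⟨_, rfl⟩
  obtain ⟨y, hy⟩ : ∃ y, y = Nat.gcdB n (q + 1) := ⟨_, rfl⟩
  rw [← hx, ← hy] at bez
  push_cast at bez
  have hζN : ζ ^ ((orderOf ζ : ℕ) : ℤ) = 1 := by
    rw [zpow_natCast]; exact pow_orderOf_eq_one ζ
  refine ⟨ζ ^ (((q : ℤ) - 1) * c * x), ?_, ?_⟩
  · rw [← zpow_natCast, ← _root_.zpow_mul]
    have h4 : ((q : ℤ) - 1) * c * x * ((q + 1 : ℕ) : ℤ) = ((orderOf ζ : ℕ) : ℤ) * (c * x) := by
      rw [hN]; push_cast; ring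
    rw [h4, _root_.zpow_mul, hζN, _root_.one_zpow]
  · rw [← zpow_natCast, ← _root_.zpow_mul, ← hb]
    have h5 : b = ((q : ℤ) - 1) * c * x * (n : ℤ) + ((orderOf ζ : ℕ) : ℤ) * (c * y) := by
      rw [hN]
      linear_combination hc + ((q : ℤ) - 1) * c * bez
    rw [h5, _root_.zpow_add, _root_.zpow_mul ζ ((orderOf ζ : ℕ) : ℤ), hζN, _root_.one_zpow, mul_one]

lemma cyc_iso {C : Type*} [Group C] [IsCyclic C] (m : ℕ) (h : Nat.card C = m) :
    Nonempty (C ≃* Multiplicative (ZMod m)) := by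
  subst h
  exact ⟨(zmodCyclicMulEquiv inferInstance).symm⟩

theorem result {F : Type*} [Field F] [Fintype F] {q : ℕ} (hF : Fintype.card F = q ^ 2) (n : ℕ) (hn : 2 ≤ n) : ∃ φ : ↥(Cfsg.GU n F q) →* Multiplicative (ZMod (Nat.gcd n (q + 1))), Function.Surjective φ ∧ φ.ker = (Matrix.GeneralLinearGroup.det : Matrix.GeneralLinearGroup (Fin n) F →* Fˣ).ker.subgroupOf (Cfsg.GU n F q) ⊔ Subgroup.center ↥(Cfsg.GU n F q) := by
  classical
  obtain ⟨hq2, -⟩ := card_units_sq hF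
  obtain ⟨d, hd⟩ : ∃ d, d = Nat.gcd n (q + 1) := ⟨_, rfl⟩
  obtain ⟨e, he⟩ : ∃ e, e = (q + 1) / d := ⟨_, rfl⟩
  have hed : e * d = q + 1 := by
    rw [he, hd]; exact Nat.div_mul_cancel (Nat.gcd_dvd_right n (q + 1))
  have hd0 : 0 < d := by rw [hd]; exact Nat.gcd_pos_of_pos_right _ (by omega)
  have he0 : e ≠ 0 := by
    rintro rfl
    omega
  obtain ⟨θ, hθ⟩ : ∃ θ : ↥(Cfsg.GU n F q) →* Fˣ, ∀ g : ↥(Cfsg.GU n F q),
      θ g = (Matrix.GeneralLinearGroup.det (g : GL (Fin n) F)) ^ e :=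
    ⟨(powMonoidHom e).comp ((Matrix.GeneralLinearGroup.det).comp (Cfsg.GU n F q).subtype),
      fun g => rfl⟩
  obtain ⟨lam, hlam⟩ := exists_elt_order hF
  have hlamq : lam ^ (q + 1) = 1 := by rw [← hlam]; exact pow_orderOf_eq_one lam
  have hlam1 : lam ≠ 1 := by
    rintro rfl
    rw [orderOf_one] at hlam
    omega
  have hn0 : 0 < n := by omega
  obtain ⟨i0, -⟩ : ∃ i0 : Fin n, (i0 : ℕ) = 0 := ⟨⟨0, hn0⟩, rfl⟩
  have hD0 : dg n (Function.update (fun _ => (1 : Fˣ)) i0 lam) ∈ Cfsg.GU n F q := by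
    apply dg_mem
    intro l
    by_cases h : l = i0
    · rw [h, Function.update_self]; exact hlamq
    · rw [Function.update_of_ne h]; exact one_pow _
  have hdetD0 : Matrix.GeneralLinearGroup.det
      (dg n (Function.update (fun _ => (1 : Fˣ)) i0 lam)) = lam := by
    rw [det_dg, Finset.prod_update_of_mem (Finset.mem_univ i0)]
    simp
  have hcardR : Nat.card θ.range = d := by
    apply le_antisymm
    · have hsub : (θ.range : Set Fˣ) ⊆
          ((Finset.univ.filter (fun a : Fˣ => a ^ d = 1) : Finset Fˣ) : Set Fˣ) := by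
        rintro r ⟨g, rfl⟩
        rw [Finset.mem_coe, Finset.mem_filter]
        refine ⟨Finset.mem_univ _, ?_⟩
        rw [hθ, ← pow_mul, hed]
        exact GU_det_pow hF n g g.2
      have h1 : Nat.card θ.range = Set.ncard (θ.range : Set Fˣ) := rfl
      rw [h1]
      calc Set.ncard (θ.range : Set Fˣ)
          ≤ Set.ncard ((Finset.univ.filter (fun a : Fˣ => a ^ d = 1) : Finset Fˣ) : Set Fˣ) :=
            Set.ncard_le_ncard hsub (Finset.finite_toSet _)
        _ = (Finset.univ.filter (fun a : Fˣ => a ^ d = 1)).card := Set.ncard_coe_finset _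
        _ ≤ d := IsCyclic.card_pow_eq_one_le hd0
    · have hr0 : lam ^ e ∈ θ.range := by
        refine ⟨⟨_, hD0⟩, ?_⟩
        rw [hθ]
        show (Matrix.GeneralLinearGroup.det (dg n _)) ^ e = lam ^ e
        rw [hdetD0]
      have hord : orderOf (lam ^ e) = d := by
        rw [orderOf_pow_of_dvd he0 (by rw [hlam]; exact Dvd.intro _ hed), hlam, ← hed]
        exact Nat.mul_div_cancel_left d (Nat.pos_of_ne_zero he0)
      have h2 : orderOf (⟨lam ^ e, hr0⟩ : θ.range) = d := by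
        rw [← hord]; exact Subgroup.orderOf_mk _ _
      rw [← h2]
      exact orderOf_le_card
  obtain ⟨ι⟩ := cyc_iso (C := θ.range) d hcardR
  subst hd
  refine ⟨ι.toMonoidHom.comp θ.rangeRestrict,
    ι.surjective.comp θ.rangeRestrict_surjective, ?_⟩
  have hker : ∀ g : ↥(Cfsg.GU n F q), g ∈ (ι.toMonoidHom.comp θ.rangeRestrict).ker ↔ θ g = 1 := by
    intro g
    rw [MonoidHom.mem_ker]
    show ι (θ.rangeRestrict g) = 1 ↔ θ g = 1
    rw [MulEquiv.map_eq_one_iff, Subtype.ext_iff]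
    rfl
  apply le_antisymm
  · intro g hg
    rw [hker, hθ] at hg
    obtain ⟨μ, hμq, hμn⟩ := exists_root hF n (Matrix.GeneralLinearGroup.det (g : GL (Fin n) F))
      (by rw [← he]; exact hg)
    have hsmem : dg n (fun _ => μ) ∈ Cfsg.GU n F q := dg_mem n q _ (fun _ => hμq)
    have hdets : Matrix.GeneralLinearGroup.det (dg n (fun _ : Fin n => μ)) = μ ^ n := by
      rw [det_dg, Finset.prod_const, Finset.card_univ, Fintype.card_fin]
    have hZ : (⟨dg n (fun _ => μ), hsmem⟩ : ↥(Cfsg.GU n F q)) ∈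
        Subgroup.center ↥(Cfsg.GU n F q) := by
      rw [Subgroup.mem_center_iff]
      intro h
      apply Subtype.ext
      apply Units.ext
      show ((h : GL (Fin n) F) : Matrix (Fin n) (Fin n) F) * Matrix.diagonal (fun _ => (μ : F)) =
        Matrix.diagonal (fun _ => (μ : F)) * ((h : GL (Fin n) F) : Matrix (Fin n) (Fin n) F)
      ext a b
      rw [Matrix.mul_diagonal, Matrix.diagonal_mul, mul_comm]
    have hSU : g * (⟨dg n (fun _ => μ), hsmem⟩ : ↥(Cfsg.GU n F q))⁻¹ ∈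
        (Matrix.GeneralLinearGroup.det : Matrix.GeneralLinearGroup (Fin n) F →* Fˣ).ker.subgroupOf
          (Cfsg.GU n F q) := by
      rw [Subgroup.mem_subgroupOf, MonoidHom.mem_ker]
      show Matrix.GeneralLinearGroup.det ((g : GL (Fin n) F) * (dg n (fun _ => μ))⁻¹) = 1
      rw [map_mul, map_inv, hdets, hμn, mul_inv_cancel]
    have hg_eq : g = g * (⟨dg n (fun _ => μ), hsmem⟩ : ↥(Cfsg.GU n F q))⁻¹ *
        ⟨dg n (fun _ => μ), hsmem⟩ := by
      rw [inv_mul_cancel_right]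
    rw [hg_eq]
    exact Subgroup.mul_mem_sup hSU hZ
  · apply sup_le
    · intro g hg
      rw [hker, hθ]
      rw [Subgroup.mem_subgroupOf, MonoidHom.mem_ker] at hg
      rw [hg, one_pow]
    · intro z hz
      rw [hker, hθ]
      obtain ⟨μ, hμq, hzeq⟩ := center_scalar hF n hn0 z hz lam hlamq hlam1
      rw [hzeq, det_dg, Finset.prod_const, Finset.card_univ, Fintype.card_fin, ← pow_mul]
      obtain ⟨t, ht⟩ := Nat.gcd_dvd_left n (q + 1)
      have h3 : n * e = (q + 1) * t := by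
        calc n * e = (Nat.gcd n (q + 1) * t) * e := by rw [← ht]
          _ = (e * Nat.gcd n (q + 1)) * t := by ring
          _ = (q + 1) * t := by rw [hed]
      rw [h3, pow_mul, hμq, one_pow]

end Cfsg.Agent.S0783
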