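import Mathlib
import Cfsg.Statements.S0837
import Cfsg.Agent.S0783
import Cfsg.Agent.S0755

set_option autoImplicit false
open Cfsg

namespace Cfsg.Agent.S0837

open Matrix

section prelim

variable {F : Type*} [Field F]

/-- the hermitian form, semilinear in the first argument -/
def Hf (σ : F →+* F) (n : ℕ) : (Fin n → F) →ₛₗ[σ] (Fin n → F) →ₗ[F] F :=
  LinearMap.mk₂'ₛₗ σ (RingHom.id F) (fun x y => ∑ i, y i * σ (x i))
    (by intro x x' y; simp [mul_add, Finset.sum_add_distrib])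
    (by
      intro c x y
      simp only [Pi.smul_apply, smul_eq_mul, map_mul, Finset.mul_sum]
      apply Finset.sum_congr rfl
      intro i _
      ring)
    (by intro x y y'; simp [add_mul, Finset.sum_add_distrib])
    (by intro c x y; simp [Finset.mul_sum, mul_assoc])

theorem Hf_apply (σ : F →+* F) {n : ℕ} (x y : Fin n → F) :
    Hf σ n x y = ∑ i, y i * σ (x i) := rfl

theorem Hf_symm (σ : F →+* F) (hσ2 : ∀ a, σ (σ a) = a) {n : ℕ} (x y : Fin n → F) :
    σ (Hf σ n x y) = Hf σ n y x := by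
  simp [Hf_apply, map_sum, hσ2, mul_comm]

theorem Hf_sep (σ : F →+* F) {n : ℕ} (y : Fin n → F) (hy : ∀ x, Hf σ n x y = 0) : y = 0 := by
  classical
  funext i
  have := hy (Pi.single i 1)
  simp [Hf_apply, Pi.single_apply, apply_ite σ] at this
  exact this

theorem Hf_herm (σ : F →+* F) (q : ℕ) (hσq : ∀ x, σ x = x ^ q) {n : ℕ} (x y : Fin n → F) :
    Hf σ n x y = Cfsg.hermForm n F q y x := by
  unfold Cfsg.hermForm
  rw [Hf_apply]
  simp [hσq]

/-- conjugate transpose -/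
def dag {a b : Type*} (σ : F →+* F) (M : Matrix a b F) : Matrix b a F := (M.map σ)ᵀ

theorem dag_apply {a b : Type*} (σ : F →+* F) (M : Matrix a b F) (i : b) (j : a) :
    dag σ M i j = σ (M j i) := rfl

theorem dag_mul {a b c : Type*} [Fintype b] (σ : F →+* F) (M : Matrix a b F) (N : Matrix b c F) :
    dag σ (M * N) = dag σ N * dag σ M := by
  unfold dag
  rw [Matrix.map_mul, Matrix.transpose_mul]

theorem dag_dag {a b : Type*} (σ : F →+* F) (hσ2 : ∀ x, σ (σ x) = x) (M : Matrix a b F) :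
    dag σ (dag σ M) = M := by
  ext i j
  simp [dag_apply, hσ2]

theorem dag_fromBlocks {a b c d : Type*} (σ : F →+* F) (A : Matrix a c F) (B : Matrix a d F)
    (C : Matrix b c F) (D : Matrix b d F) :
    dag σ (Matrix.fromBlocks A B C D) = Matrix.fromBlocks (dag σ A) (dag σ C) (dag σ B) (dag σ D) := by
  unfold dag
  rw [Matrix.fromBlocks_map, Matrix.fromBlocks_transpose]

theorem dag_zero {a b : Type*} (σ : F →+* F) : dag σ (0 : Matrix a b F) = 0 := by
  ext i j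
  simp [dag_apply]

theorem hpres_of_dag {q : ℕ} (σ : F →+* F) (hσ : ∀ x, σ x = x ^ q) {n : ℕ}
    (M : Matrix (Fin n) (Fin n) F) (h : dag σ M * M = 1) (u v : Fin n → F) :
    Cfsg.hermForm n F q (M *ᵥ u) (M *ᵥ v) = Cfsg.hermForm n F q u v := by
  have h1 : ∀ x y : Fin n → F, Cfsg.hermForm n F q x y = x ⬝ᵥ (σ ∘ y) := by
    intro x y
    unfold Cfsg.hermForm dotProduct
    simp [hσ]
  have h2 : Mᵀ * M.map σ = 1 := by
    have := congrArg Matrix.transpose h
    rw [Matrix.transpose_mul, Matrix.transpose_one] at this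
    rw [← this]
    rfl
  have h3 : σ ∘ (M *ᵥ v) = M.map σ *ᵥ (σ ∘ v) := by
    funext i
    exact RingHom.map_mulVec σ M v i
  rw [h1, h1, h3, ← Matrix.vecMul_transpose, ← Matrix.dotProduct_mulVec, Matrix.mulVec_mulVec, h2,
    Matrix.one_mulVec]

theorem dag_of_GU {F : Type*} [Field F] [Fintype F] {q : ℕ} (hq : q ≠ 0) (σ : F →+* F)
    (hσ : ∀ x, σ x = x ^ q) {n : ℕ} (g : GL (Fin n) F) (hg : g ∈ Cfsg.GU n F q) :
    dag σ (g : Matrix (Fin n) (Fin n) F) * (g : Matrix (Fin n) (Fin n) F) = 1 := by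
  have := congrArg Matrix.transpose (S0783.GU_transpose_mul hq n σ hσ g hg)
  rw [Matrix.transpose_mul, Matrix.transpose_one, Matrix.transpose_transpose] at this
  exact this

theorem frob {F : Type*} [Field F] [Fintype F] {q : ℕ} (hF : Fintype.card F = q ^ 2) :
    ∃ σ : F →+* F, (∀ x, σ x = x ^ q) ∧ (∀ x, σ (σ x) = x) ∧ σ ≠ RingHom.id F ∧ q ≠ 0 := by
  obtain ⟨σ, hσ⟩ := S0783.exists_frob hF
  obtain ⟨hq2, -⟩ := S0783.card_units_sq hF
  refine ⟨σ, hσ, ?_, ?_, by omega⟩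
  · intro x
    rw [hσ, hσ, ← pow_mul, ← sq, ← hF, FiniteField.pow_card]
  · intro hid
    obtain ⟨lam, hlam⟩ := S0783.exists_elt_order hF
    have h1 : (lam : F) ^ q = (lam : F) := by
      rw [← hσ, hid]
      rfl
    have h2 : lam ^ (q - 1) = 1 := by
      apply Units.ext
      rw [Units.val_pow_eq_pow_val, Units.val_one]
      have h3 : (lam : F) ^ (q - 1) * (lam : F) = 1 * (lam : F) := by
        rw [← pow_succ, one_mul, show q - 1 + 1 = q by omega, h1]
      exact mul_right_cancel₀ lam.ne_zero h3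
    have h4 := orderOf_dvd_of_pow_eq_one h2
    rw [hlam] at h4
    have := Nat.le_of_dvd (by omega) h4
    omega

end prelim

section onb

variable {F : Type*} [Field F] [Finite F]

theorem exists_onb (σ : F →+* F) (hσ : σ ≠ RingHom.id F) (hσ2 : ∀ a : F, σ (σ a) = a) {n : ℕ}
    (W : Submodule F (Fin n → F))
    (hW : ∀ u ∈ W, (∀ v ∈ W, Hf σ n v u = 0) → u = 0) :
    ∃ b : Module.Basis (Fin (Module.finrank F W)) F W,
      ∀ i j, Hf σ n (b i : Fin n → F) (b j : Fin n → F) = if i = j then 1 else 0 := by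
  have hS : ((Hf σ n).domRestrict₁₂ W W).IsSymm := by
    constructor
    intro x y
    rw [LinearMap.domRestrict₁₂_apply, LinearMap.domRestrict₁₂_apply]
    exact Hf_symm σ hσ2 _ _
  have hB : ((Hf σ n).domRestrict₁₂ W W).Nondegenerate := by
    constructor
    · intro x hx
      apply Subtype.ext
      apply hW x.1 x.2
      intro v hv
      have := hx ⟨v, hv⟩
      rw [LinearMap.domRestrict₁₂_apply] at this
      rw [← Hf_symm σ hσ2, this, map_zero]
    · intro y hy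
      apply Subtype.ext
      apply hW y.1 y.2
      intro v hv
      have := hy ⟨v, hv⟩
      rw [LinearMap.domRestrict₁₂_apply] at this
      exact this
  obtain ⟨b, hb⟩ := S0755.result σ hσ hσ2 _ hS hB
  refine ⟨b, fun i j => ?_⟩
  have := hb i j
  rw [LinearMap.domRestrict₁₂_apply] at this
  exact this

theorem exists_onb' (σ : F →+* F) (hσ : σ ≠ RingHom.id F) (hσ2 : ∀ a : F, σ (σ a) = a) {n k : ℕ}
    (W : Submodule F (Fin n → F)) (hWk : Module.finrank F W = k)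
    (hW : ∀ u ∈ W, (∀ v ∈ W, Hf σ n v u = 0) → u = 0) :
    ∃ b : Module.Basis (Fin k) F W,
      ∀ i j, Hf σ n (b i : Fin n → F) (b j : Fin n → F) = if i = j then 1 else 0 := by
  subst hWk
  exact exists_onb σ hσ hσ2 W hW

theorem exists_compl (σ : F →+* F) (hσ : σ ≠ RingHom.id F) (hσ2 : ∀ a : F, σ (σ a) = a) {n k : ℕ}
    (w : Fin k → (Fin n → F))
    (hw : ∀ i j, Hf σ n (w i) (w j) = if i = j then 1 else 0) :
    ∃ c : Fin (n - k) → (Fin n → F),
      (∀ i j, Hf σ n (c i) (c j) = if i = j then 1 else 0) ∧ ∀ i j, Hf σ n (w i) (c j) = 0 := by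
  classical
  let φ : (Fin n → F) →ₗ[F] (Fin k → F) := LinearMap.pi (fun i => Hf σ n (w i))
  have hφ : ∀ y i, φ y i = Hf σ n (w i) y := fun y i => rfl
  have hsurj : Function.Surjective φ := by
    intro x
    refine ⟨∑ j, x j • w j, ?_⟩
    funext i
    rw [hφ, map_sum]
    simp only [map_smul, hw, smul_eq_mul, mul_ite, mul_one, mul_zero]
    rw [Finset.sum_ite_eq]
    simp
  have hdim : Module.finrank F (LinearMap.ker φ) = n - k := by
    have h1 := LinearMap.finrank_range_add_finrank_ker φ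
    rw [LinearMap.range_eq_top.2 hsurj, finrank_top, Module.finrank_fin_fun,
      Module.finrank_fin_fun] at h1
    omega
  have hker : ∀ u : Fin n → F, u ∈ LinearMap.ker φ ↔ ∀ i, Hf σ n (w i) u = 0 := by
    intro u
    rw [LinearMap.mem_ker]
    constructor
    · intro h i
      rw [← hφ, h]
      rfl
    · intro h
      funext i
      rw [hφ, h]
      rfl
  have hnd : ∀ u ∈ LinearMap.ker φ, (∀ v ∈ LinearMap.ker φ, Hf σ n v u = 0) → u = 0 := by
    intro u hu hperp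
    apply Hf_sep σ
    intro v
    have hv' : v - ∑ i, (Hf σ n (w i) v) • w i ∈ LinearMap.ker φ := by
      rw [hker]
      intro j
      rw [map_sub, map_sum]
      simp only [map_smul, hw, smul_eq_mul, mul_ite, mul_one, mul_zero]
      rw [Finset.sum_ite_eq]
      simp
    have h1 := hperp _ hv'
    rw [LinearMap.map_sub₂, LinearMap.map_sum₂] at h1
    have h2 : ∑ i, Hf σ n ((Hf σ n (w i) v) • w i) u = 0 := by
      apply Finset.sum_eq_zero
      intro i _
      rw [LinearMap.map_smulₛₗ₂, (hker u).1 hu i, smul_zero]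
    rw [h2, sub_zero] at h1
    exact h1
  obtain ⟨b, hb⟩ := exists_onb σ hσ hσ2 (LinearMap.ker φ) hnd
  refine ⟨fun j => (b (Fin.cast hdim.symm j) : Fin n → F), ?_, ?_⟩
  · intro i j
    rw [hb]
    by_cases hij : i = j
    · rw [if_pos hij, if_pos (by rw [hij])]
    · rw [if_neg hij, if_neg (fun h => hij (Fin.cast_injective _ h))]
  · intro i j
    exact (hker _).1 (b (Fin.cast hdim.symm j)).2 i

end onb

section blk

variable {F : Type*} [Field F] {n k m : ℕ}

/-- the matrix with columns `w` and `c` -/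
def Pm (w : Fin k → (Fin n → F)) (c : Fin m → (Fin n → F)) : Matrix (Fin n) (Fin k ⊕ Fin m) F :=
  Matrix.of (fun l x => Sum.elim (fun i => w i l) (fun j => c j l) x)

omit [Field F] in
theorem Pm_col (w : Fin k → (Fin n → F)) (c : Fin m → (Fin n → F)) (x : Fin k ⊕ Fin m) :
    (fun l => Pm w c l x) = Sum.elim w c x := by
  funext l
  cases x <;> rfl

theorem dag_Pm_mulVec (σ : F →+* F) (w : Fin k → (Fin n → F)) (c : Fin m → (Fin n → F))
    (v : Fin n → F) (x : Fin k ⊕ Fin m) :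
    (dag σ (Pm w c) *ᵥ v) x = Hf σ n (Sum.elim w c x) v := by
  rw [Hf_apply, ← Pm_col]
  unfold Matrix.mulVec dotProduct
  apply Finset.sum_congr rfl
  intro l _
  show dag σ (Pm w c) x l * v l = v l * σ (Pm w c l x)
  rw [dag_apply, mul_comm]

theorem mul_mul_apply_col {ι : Type*} [Fintype ι] (Q : Matrix ι (Fin n) F)
    (g : Matrix (Fin n) (Fin n) F) (P : Matrix (Fin n) ι F) (x y : ι) :
    (Q * g * P) x y = (Q *ᵥ (g *ᵥ (fun l => P l y))) x := by
  rw [Matrix.mul_assoc, Matrix.mul_apply]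
  rfl

theorem dag_Pm_mul (σ : F →+* F) (hσ2 : ∀ a : F, σ (σ a) = a) (w : Fin k → (Fin n → F))
    (c : Fin m → (Fin n → F))
    (hw : ∀ i j, Hf σ n (w i) (w j) = if i = j then 1 else 0)
    (hc : ∀ i j, Hf σ n (c i) (c j) = if i = j then 1 else 0)
    (hwc : ∀ i j, Hf σ n (w i) (c j) = 0) :
    dag σ (Pm w c) * Pm w c = 1 := by
  ext x y
  have h1 : (dag σ (Pm w c) * Pm w c) x y = Hf σ n (Sum.elim w c x) (Sum.elim w c y) := by
    rw [← dag_Pm_mulVec, ← Pm_col w c y, Matrix.mul_apply]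
    rfl
  rw [h1]
  rcases x with i | i <;> rcases y with j | j
  · simp [hw, Matrix.one_apply]
  · simp [hwc]
  · simp only [Sum.elim_inr, Sum.elim_inl]
    rw [← Hf_symm σ hσ2, hwc, map_zero]
    simp
  · simp [hc, Matrix.one_apply]

theorem Pm_mul_dag (hk : k + m = n) (σ : F →+* F) (w : Fin k → (Fin n → F))
    (c : Fin m → (Fin n → F)) (h : dag σ (Pm w c) * Pm w c = 1) :
    Pm w c * dag σ (Pm w c) = 1 :=
  (Matrix.mul_eq_one_comm_of_equiv (finSumFinEquiv.trans (finCongr hk))).1 h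

theorem blk_mul {P : Matrix (Fin n) (Fin k ⊕ Fin m) F} {Q : Matrix (Fin k ⊕ Fin m) (Fin n) F}
    (hQP : Q * P = 1) (A A' : Matrix (Fin k) (Fin k) F) (D D' : Matrix (Fin m) (Fin m) F) :
    (P * Matrix.fromBlocks A 0 0 D * Q) * (P * Matrix.fromBlocks A' 0 0 D' * Q)
      = P * Matrix.fromBlocks (A * A') 0 0 (D * D') * Q := by
  have h : Matrix.fromBlocks (A * A') 0 0 (D * D')
      = Matrix.fromBlocks A 0 0 D * Matrix.fromBlocks A' 0 0 D' := by
    rw [Matrix.fromBlocks_multiply]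
    simp
  rw [h]
  calc P * Matrix.fromBlocks A 0 0 D * Q * (P * Matrix.fromBlocks A' 0 0 D' * Q)
      = P * Matrix.fromBlocks A 0 0 D * (Q * P) * Matrix.fromBlocks A' 0 0 D' * Q := by
        simp only [Matrix.mul_assoc]
    _ = P * (Matrix.fromBlocks A 0 0 D * Matrix.fromBlocks A' 0 0 D') * Q := by
        rw [hQP, Matrix.mul_one]
        simp only [Matrix.mul_assoc]

/-- block-diagonal element in the basis `P` -/
def blkGL (P : Matrix (Fin n) (Fin k ⊕ Fin m) F) (Q : Matrix (Fin k ⊕ Fin m) (Fin n) F)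
    (hQP : Q * P = 1) (hPQ : P * Q = 1) (A : GL (Fin k) F) (D : GL (Fin m) F) : GL (Fin n) F :=
  ⟨P * Matrix.fromBlocks (A : Matrix (Fin k) (Fin k) F) 0 0 (D : Matrix (Fin m) (Fin m) F) * Q,
   P * Matrix.fromBlocks ((A⁻¹ : GL (Fin k) F) : Matrix (Fin k) (Fin k) F) 0 0
     ((D⁻¹ : GL (Fin m) F) : Matrix (Fin m) (Fin m) F) * Q,
   by rw [blk_mul hQP, ← Units.val_mul, ← Units.val_mul, mul_inv_cancel, mul_inv_cancel,
        Units.val_one, Units.val_one, Matrix.fromBlocks_one, Matrix.mul_one, hPQ],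
   by rw [blk_mul hQP, ← Units.val_mul, ← Units.val_mul, inv_mul_cancel, inv_mul_cancel,
        Units.val_one, Units.val_one, Matrix.fromBlocks_one, Matrix.mul_one, hPQ]⟩

theorem blkGL_val (P : Matrix (Fin n) (Fin k ⊕ Fin m) F) (Q : Matrix (Fin k ⊕ Fin m) (Fin n) F)
    (hQP : Q * P = 1) (hPQ : P * Q = 1) (A : GL (Fin k) F) (D : GL (Fin m) F) :
    ((blkGL P Q hQP hPQ A D : GL (Fin n) F) : Matrix (Fin n) (Fin n) F)
      = P * Matrix.fromBlocks (A : Matrix (Fin k) (Fin k) F) 0 0 (D : Matrix (Fin m) (Fin m) F) * Q :=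
  rfl

theorem blkGL_mul (P : Matrix (Fin n) (Fin k ⊕ Fin m) F) (Q : Matrix (Fin k ⊕ Fin m) (Fin n) F)
    (hQP : Q * P = 1) (hPQ : P * Q = 1) (A A' : GL (Fin k) F) (D D' : GL (Fin m) F) :
    blkGL P Q hQP hPQ (A * A') (D * D') = blkGL P Q hQP hPQ A D * blkGL P Q hQP hPQ A' D' := by
  apply Units.ext
  rw [Units.val_mul, blkGL_val, blkGL_val, blkGL_val, blk_mul hQP, Units.val_mul, Units.val_mul]

theorem blkGL_one (P : Matrix (Fin n) (Fin k ⊕ Fin m) F) (Q : Matrix (Fin k ⊕ Fin m) (Fin n) F)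
    (hQP : Q * P = 1) (hPQ : P * Q = 1) : blkGL P Q hQP hPQ 1 1 = 1 := by
  apply Units.ext
  rw [blkGL_val, Units.val_one, Units.val_one, Units.val_one, Matrix.fromBlocks_one,
    Matrix.mul_one, hPQ]

end blk

/-- If W ≤ F^n (|F| = q²) is a k-dimensional subspace on which the Hermitian form Σ x_i y_i^q is non-degenerate, then the stabiliser of W in GU_n(q) is isomorphic to GU_k(q) × GU_(n−k)(q). -/
theorem result {F : Type*} [Field F] [Fintype F] {q : ℕ} (hF : Fintype.card F = q ^ 2) (n k : ℕ) (hk : k ≤ n) (W : Submodule F (Fin n → F)) (hWk : Module.finrank F W = k) (hW : ∀ u ∈ W, (∀ v ∈ W, Cfsg.hermForm n F q u v = 0) → u = 0) : Nonempty (↥((Cfsg.stabilizing (Cfsg.glToMat (Fin n) F) (W : Set (Fin n → F))).subgroupOf (Cfsg.GU n F q)) ≃* ↥(Cfsg.GU k F q) × ↥(Cfsg.GU (n - k) F q)) := by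
  classical
  obtain ⟨σ, hσ, hσ2, hσne, hq⟩ := frob hF
  have hW' : ∀ u ∈ W, (∀ v ∈ W, Hf σ n v u = 0) → u = 0 := by
    intro u hu h
    apply hW u hu
    intro v hv
    rw [← Hf_herm σ q hσ]
    exact h v hv
  obtain ⟨b, hb⟩ := exists_onb' σ hσne hσ2 W hWk hW'
  obtain ⟨c, hc, hwc0⟩ := exists_compl σ hσne hσ2 (fun i => (b i : Fin n → F)) hb
  obtain ⟨w, hwdef⟩ : ∃ w : Fin k → (Fin n → F),
      w = fun i => (b i : Fin n → F) := ⟨_, rfl⟩
  have hwc : ∀ i j, Hf σ n (w i) (c j) = 0 := by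
    rw [hwdef]
    exact hwc0
  have hw : ∀ i j, Hf σ n (w i) (w j) = if i = j then 1 else 0 := by
    rw [hwdef]
    exact hb
  have hwW : ∀ i, w i ∈ W := by
    intro i
    rw [hwdef]
    exact (b i).2
  obtain ⟨P, hP⟩ : ∃ P, P = Pm w c := ⟨_, rfl⟩
  obtain ⟨Q, hQ⟩ : ∃ Q, Q = dag σ P := ⟨_, rfl⟩
  have hQP : Q * P = 1 := by
    rw [hQ, hP]
    exact dag_Pm_mul σ hσ2 w c hw hc hwc
  have hPQ : P * Q = 1 := by
    rw [hQ, hP]
    exact Pm_mul_dag (by omega) σ w c (by rw [← hP, ← hQ]; exact hQP)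
  have hdagQ : dag σ Q = P := by
    rw [hQ]
    exact dag_dag σ hσ2 P
  have hWc : ∀ u ∈ W, ∀ j, Hf σ n (c j) u = 0 := by
    intro u hu j
    have h1 := b.sum_repr ⟨u, hu⟩
    have h2 : u = ∑ i, (b.repr ⟨u, hu⟩ i) • w i := by
      have h0 : ((∑ i, (b.repr ⟨u, hu⟩) i • b i : ↥W) : Fin n → F) = u := congrArg Subtype.val h1
      calc u = ((∑ i, (b.repr ⟨u, hu⟩) i • b i : ↥W) : Fin n → F) := h0.symm
        _ = ∑ i, (b.repr ⟨u, hu⟩ i) • w i := by
          rw [hwdef, Submodule.coe_sum]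
          apply Finset.sum_congr rfl
          intro i _
          rfl
    rw [h2, map_sum]
    apply Finset.sum_eq_zero
    intro i _
    rw [map_smul, ← Hf_symm σ hσ2, hwc, map_zero, smul_zero]
  have hQv : ∀ (v : Fin n → F) (x : Fin k ⊕ Fin (n - k)),
      (Q *ᵥ v) x = Hf σ n (Sum.elim w c x) v := by
    intro v x
    rw [hQ, hP]
    exact dag_Pm_mulVec σ w c v x
  have hWmem : ∀ v : Fin n → F, v ∈ W ↔ ∀ j, (Q *ᵥ v) (Sum.inr j) = 0 := by
    intro v
    constructor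
    · intro hv j
      rw [hQv]
      exact hWc v hv j
    · intro h
      have h1 : v = P *ᵥ (Q *ᵥ v) := by rw [Matrix.mulVec_mulVec, hPQ, Matrix.one_mulVec]
      have h2 : P *ᵥ (Q *ᵥ v) = ∑ i, (Q *ᵥ v) (Sum.inl i) • w i := by
        funext l
        rw [Matrix.mulVec, dotProduct, Fintype.sum_sum_type]
        simp only [h, mul_zero, Finset.sum_const_zero, add_zero]
        rw [Finset.sum_apply]
        apply Finset.sum_congr rfl
        intro i _
        rw [Pi.smul_apply, smul_eq_mul, mul_comm, hP]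
        rfl
      rw [h1, h2]
      exact Submodule.sum_mem _ (fun i _ => Submodule.smul_mem _ _ (hwW i))
  -- forward invariance of block elements
  have hfw : ∀ (A : GL (Fin k) F) (D : GL (Fin (n - k)) F)
      (v : Fin n → F), v ∈ W →
      ((blkGL P Q hQP hPQ A D : GL (Fin n) F) : Matrix (Fin n) (Fin n) F) *ᵥ v ∈ W := by
    intro A D v hv
    rw [hWmem] at hv ⊢
    intro j
    have h1 : Q * ((blkGL P Q hQP hPQ A D : GL (Fin n) F) : Matrix (Fin n) (Fin n) F)
        = Matrix.fromBlocks (A : Matrix (Fin k) (Fin k) F) 0 0 (D : Matrix (Fin (n - k)) (Fin (n - k)) F) * Q := by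
      rw [blkGL_val, ← Matrix.mul_assoc, ← Matrix.mul_assoc, hQP, Matrix.one_mul]
    rw [Matrix.mulVec_mulVec, h1, ← Matrix.mulVec_mulVec]
    rw [Matrix.mulVec, dotProduct, Fintype.sum_sum_type]
    simp [hv]
  have hGU : ∀ p : ↥(Cfsg.GU k F q) × ↥(Cfsg.GU (n - k) F q),
      blkGL P Q hQP hPQ p.1.1 p.2.1 ∈ Cfsg.GU n F q := by
    intro p u v
    show Cfsg.hermForm n F q
      (((blkGL P Q hQP hPQ p.1.1 p.2.1 : GL (Fin n) F) : Matrix (Fin n) (Fin n) F) *ᵥ u)
      (((blkGL P Q hQP hPQ p.1.1 p.2.1 : GL (Fin n) F) : Matrix (Fin n) (Fin n) F) *ᵥ v)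
      = Cfsg.hermForm n F q u v
    apply hpres_of_dag σ hσ
    have h1 : dag σ (P * Matrix.fromBlocks (p.1.1 : Matrix (Fin k) (Fin k) F) 0 0
        (p.2.1 : Matrix (Fin (n - k)) (Fin (n - k)) F) * Q)
        = P * Matrix.fromBlocks (dag σ (p.1.1 : Matrix (Fin k) (Fin k) F)) 0 0
          (dag σ (p.2.1 : Matrix (Fin (n - k)) (Fin (n - k)) F)) * Q := by
      rw [dag_mul, dag_mul, hdagQ, ← hQ, dag_fromBlocks, dag_zero, dag_zero, ← Matrix.mul_assoc]
    rw [blkGL_val, h1, blk_mul hQP, dag_of_GU hq σ hσ p.1.1 p.1.2,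
      dag_of_GU hq σ hσ p.2.1 p.2.2, Matrix.fromBlocks_one, Matrix.mul_one, hPQ]
  have hstab : ∀ p : ↥(Cfsg.GU k F q) × ↥(Cfsg.GU (n - k) F q),
      (⟨blkGL P Q hQP hPQ p.1.1 p.2.1, hGU p⟩ : ↥(Cfsg.GU n F q)) ∈
        (Cfsg.stabilizing (Cfsg.glToMat (Fin n) F) (W : Set (Fin n → F))).subgroupOf
          (Cfsg.GU n F q) := by
    intro p
    rw [Subgroup.mem_subgroupOf]
    intro v
    show v ∈ W ↔ ((blkGL P Q hQP hPQ p.1.1 p.2.1 : GL (Fin n) F) : Matrix (Fin n) (Fin n) F)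
      *ᵥ v ∈ W
    constructor
    · exact hfw _ _ v
    · intro h
      have h1 := hfw (p.1.1)⁻¹ (p.2.1)⁻¹ _ h
      rw [Matrix.mulVec_mulVec, ← Units.val_mul, ← blkGL_mul, inv_mul_cancel, inv_mul_cancel,
        blkGL_one, Units.val_one, Matrix.one_mulVec] at h1
      exact h1
  let f : ↥(Cfsg.GU k F q) × ↥(Cfsg.GU (n - k) F q) →*
      ↥((Cfsg.stabilizing (Cfsg.glToMat (Fin n) F) (W : Set (Fin n → F))).subgroupOf
        (Cfsg.GU n F q)) :=
    MonoidHom.mk' (fun p => ⟨⟨blkGL P Q hQP hPQ p.1.1 p.2.1, hGU p⟩, hstab p⟩) (by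
      intro p p'
      apply Subtype.ext
      apply Subtype.ext
      exact blkGL_mul P Q hQP hPQ p.1.1 p'.1.1 p.2.1 p'.2.1)
  have hfval : ∀ p, (((f p).1.1 : GL (Fin n) F) : Matrix (Fin n) (Fin n) F)
      = P * Matrix.fromBlocks (p.1.1 : Matrix (Fin k) (Fin k) F) 0 0 (p.2.1 : Matrix (Fin (n - k)) (Fin (n - k)) F) * Q :=
    fun p => rfl
  have hcancel : ∀ B : Matrix (Fin k ⊕ Fin (n - k))
      (Fin k ⊕ Fin (n - k)) F, Q * (P * B * Q) * P = B := by
    intro B
    calc Q * (P * B * Q) * P = (Q * P) * B * (Q * P) := by simp only [Matrix.mul_assoc]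
      _ = B := by rw [hQP, Matrix.one_mul, Matrix.mul_one]
  have hinj : Function.Injective f := by
    intro p p' hpp
    have h1 : P * Matrix.fromBlocks (p.1.1 : Matrix (Fin k) (Fin k) F) 0 0 (p.2.1 : Matrix (Fin (n - k)) (Fin (n - k)) F) * Q
        = P * Matrix.fromBlocks (p'.1.1 : Matrix (Fin k) (Fin k) F) 0 0 (p'.2.1 : Matrix (Fin (n - k)) (Fin (n - k)) F) * Q := by
      rw [← hfval, ← hfval, hpp]
    have h2 := congrArg (fun X => Q * X * P) h1
    simp only [hcancel] at h2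
    obtain ⟨hA, -, -, hD⟩ := Matrix.fromBlocks_inj.1 h2
    exact Prod.ext (Subtype.ext (Units.ext hA)) (Subtype.ext (Units.ext hD))
  have hsurj : Function.Surjective f := by
    intro s
    obtain ⟨g, hg⟩ : ∃ g : GL (Fin n) F, g = (s.1.1 : GL (Fin n) F) := ⟨_, rfl⟩
    have hgU : g ∈ Cfsg.GU n F q := by
      rw [hg]
      exact s.1.2
    have hgS : ∀ v : Fin n → F, v ∈ W ↔ (g : Matrix (Fin n) (Fin n) F) *ᵥ v ∈ W := by
      rw [hg]
      exact Subgroup.mem_subgroupOf.1 s.2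
    have hginv : ∀ v : Fin n → F, v ∈ W →
        ((g⁻¹ : GL (Fin n) F) : Matrix (Fin n) (Fin n) F) *ᵥ v ∈ W := by
      intro v hv
      rw [hgS, Matrix.mulVec_mulVec, ← Units.val_mul, mul_inv_cancel, Units.val_one,
        Matrix.one_mulVec]
      exact hv
    obtain ⟨B, hB⟩ : ∃ B, B = Q * (g : Matrix (Fin n) (Fin n) F) * P := ⟨_, rfl⟩
    have hB21 : ∀ j i, B (Sum.inr j) (Sum.inl i) = 0 := by
      intro j i
      rw [hB, mul_mul_apply_col, hP, Pm_col]
      exact (hWmem _).1 ((hgS _).1 (hwW i)) j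
    have hB12 : ∀ i j, B (Sum.inl i) (Sum.inr j) = 0 := by
      intro i j
      rw [hB, mul_mul_apply_col, hP, Pm_col, hQv]
      simp only [Sum.elim_inl, Sum.elim_inr]
      have h1 : w i = (g : Matrix (Fin n) (Fin n) F) *ᵥ
          (((g⁻¹ : GL (Fin n) F) : Matrix (Fin n) (Fin n) F) *ᵥ w i) := by
        rw [Matrix.mulVec_mulVec, ← Units.val_mul, mul_inv_cancel, Units.val_one,
          Matrix.one_mulVec]
      rw [Hf_herm σ q hσ, h1]
      have h2 := hgU (c j) (((g⁻¹ : GL (Fin n) F) : Matrix (Fin n) (Fin n) F) *ᵥ w i)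
      have h3 : Cfsg.hermForm n F q ((g : Matrix (Fin n) (Fin n) F) *ᵥ c j)
          ((g : Matrix (Fin n) (Fin n) F) *ᵥ
            (((g⁻¹ : GL (Fin n) F) : Matrix (Fin n) (Fin n) F) *ᵥ w i))
          = Cfsg.hermForm n F q (c j)
            (((g⁻¹ : GL (Fin n) F) : Matrix (Fin n) (Fin n) F) *ᵥ w i) := h2
      rw [h3, ← Hf_herm σ q hσ, ← Hf_symm σ hσ2, hWc _ (hginv _ (hwW i)) j, map_zero]
    have hBB : dag σ B * B = 1 := by
      have hgg := dag_of_GU hq σ hσ g hgU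
      rw [hB, dag_mul, dag_mul, ← hQ, hdagQ]
      calc Q * (dag σ (g : Matrix (Fin n) (Fin n) F) * P) * (Q * (g : Matrix (Fin n) (Fin n) F) * P)
          = Q * dag σ (g : Matrix (Fin n) (Fin n) F) * (P * Q) * (g : Matrix (Fin n) (Fin n) F) * P := by
            simp only [Matrix.mul_assoc]
        _ = Q * (dag σ (g : Matrix (Fin n) (Fin n) F) * (g : Matrix (Fin n) (Fin n) F)) * P := by
            rw [hPQ, Matrix.mul_one]
            simp only [Matrix.mul_assoc]
        _ = 1 := by rw [hgg, Matrix.mul_one, hQP]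
    have hBeq : B = Matrix.fromBlocks B.toBlocks₁₁ 0 0 B.toBlocks₂₂ := by
      have h1 : B.toBlocks₁₂ = 0 := by
        ext i j
        exact hB12 i j
      have h2 : B.toBlocks₂₁ = 0 := by
        ext j i
        exact hB21 j i
      rw [← h1, ← h2, Matrix.fromBlocks_toBlocks]
    have hblocks : dag σ B.toBlocks₁₁ * B.toBlocks₁₁ = 1 ∧ dag σ B.toBlocks₂₂ * B.toBlocks₂₂ = 1 := by
      have h1 := hBB
      rw [hBeq, dag_fromBlocks, dag_zero, dag_zero, Matrix.fromBlocks_multiply,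
        ← Matrix.fromBlocks_one] at h1
      obtain ⟨hA, -, -, hD⟩ := Matrix.fromBlocks_inj.1 h1
      simp only [Matrix.mul_zero, Matrix.zero_mul, add_zero, zero_add] at hA hD
      exact ⟨hA, hD⟩
    obtain ⟨hA, hD⟩ := hblocks
    refine ⟨(⟨⟨B.toBlocks₁₁, dag σ B.toBlocks₁₁, mul_eq_one_comm.1 hA, hA⟩,
        fun u v => hpres_of_dag σ hσ _ hA u v⟩,
      ⟨⟨B.toBlocks₂₂, dag σ B.toBlocks₂₂, mul_eq_one_comm.1 hD, hD⟩,
        fun u v => hpres_of_dag σ hσ _ hD u v⟩), ?_⟩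
    apply Subtype.ext
    apply Subtype.ext
    apply Units.ext
    rw [hfval, ← hg]
    show P * Matrix.fromBlocks B.toBlocks₁₁ 0 0 B.toBlocks₂₂ * Q = (g : Matrix (Fin n) (Fin n) F)
    rw [← hBeq, hB]
    calc P * (Q * (g : Matrix (Fin n) (Fin n) F) * P) * Q
        = (P * Q) * (g : Matrix (Fin n) (Fin n) F) * (P * Q) := by simp only [Matrix.mul_assoc]
      _ = (g : Matrix (Fin n) (Fin n) F) := by rw [hPQ, Matrix.one_mul, Matrix.mul_one]
  exact ⟨(MulEquiv.ofBijective f ⟨hinj, hsurj⟩).symm⟩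

end Cfsg.Agent.S0837
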