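import Mathlib
import Cfsg.Statements.S5631
import Cfsg.Agent.S5043

set_option autoImplicit false
open Cfsg

namespace Cfsg.Agent.S5631

open Matrix Cfsg.Agent.S5043 Cfsg.Agent.S5058

variable {F : Type*} [Field F] {n : ℕ}

/-- separation: a functional vanishing on `U` with value `1` at `x ∉ U` -/
theorem sep (U : Submodule F (Fin n → F)) (x : Fin n → F) (hx : x ∉ U) :
    ∃ φ : Fin n → F, (∀ u ∈ U, φ ⬝ᵥ u = 0) ∧ φ ⬝ᵥ x = 1 := by
  classical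
  obtain ⟨f, hfx, hfU⟩ := Submodule.exists_dual_map_eq_bot_of_notMem hx inferInstance
  have hf : ∀ v : Fin n → F, f v = (fun i => f (Pi.single i 1)) ⬝ᵥ v := by
    intro v
    rw [LinearMap.pi_apply_eq_sum_univ f v, dotProduct]
    apply Finset.sum_congr rfl
    intro i _
    rw [smul_eq_mul, mul_comm]
    congr 2
    ext j
    rw [Pi.single_apply]
    simp [eq_comm]
  refine ⟨(f x)⁻¹ • (fun i => f (Pi.single i 1)), ?_, ?_⟩
  · intro u hu
    rw [smul_dotProduct, ← hf]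
    have h1 : f u ∈ U.map f := Submodule.mem_map_of_mem hu
    rw [hfU, Submodule.mem_bot] at h1
    rw [h1, smul_zero]
  · rw [smul_dotProduct, ← hf, smul_eq_mul, inv_mul_cancel₀ hfx]

theorem gl_mem_specialLinear (g : GL (Fin n) F) :
    g ∈ Cfsg.Geo.specialLinear (Fin n) F ↔ (g : Matrix (Fin n) (Fin n) F).det = 1 := by
  unfold Cfsg.Geo.specialLinear
  rw [MonoidHom.mem_ker]
  constructor
  · intro h
    have := congrArg Units.val h
    simpa using this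
  · intro h
    apply Units.ext
    simpa using h

/-- transfer of maximality from `Matrix.SpecialLinearGroup` to the kernel of `det` in `GL` -/
theorem maximal_of_core_sl (W : Submodule F (Fin n → F))
    (hlt : ∃ A : Matrix.SpecialLinearGroup (Fin n) F,
      ¬ (∀ v, v ∈ W ↔ (A : Matrix (Fin n) (Fin n) F) *ᵥ v ∈ W))
    (hcore : ∀ M : Subgroup (Matrix.SpecialLinearGroup (Fin n) F),
      (∀ A : Matrix.SpecialLinearGroup (Fin n) F,
        (∀ v, v ∈ W ↔ (A : Matrix (Fin n) (Fin n) F) *ᵥ v ∈ W) → A ∈ M) →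
      (∃ A ∈ M, ¬ (∀ v, v ∈ W ↔ (A : Matrix (Fin n) (Fin n) F) *ᵥ v ∈ W)) → M = ⊤) :
    Cfsg.Geo.IsMaximalIn (Cfsg.Geo.specialLinear (Fin n) F)
      (Cfsg.Geo.subspaceStabilizer W ⊓ Cfsg.Geo.specialLinear (Fin n) F) := by
  have hsurj : ∀ g ∈ Cfsg.Geo.specialLinear (Fin n) F,
      ∃ A : Matrix.SpecialLinearGroup (Fin n) F, Matrix.SpecialLinearGroup.toGL A = g := by
    intro g hg
    refine ⟨⟨(g : Matrix (Fin n) (Fin n) F), (gl_mem_specialLinear g).1 hg⟩, ?_⟩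
    apply Units.ext
    rfl
  have hmem : ∀ A : Matrix.SpecialLinearGroup (Fin n) F,
      Matrix.SpecialLinearGroup.toGL A ∈ Cfsg.Geo.specialLinear (Fin n) F := by
    intro A
    rw [gl_mem_specialLinear]
    exact A.2
  constructor
  · refine lt_of_le_of_ne inf_le_right ?_
    intro heq
    obtain ⟨A, hA⟩ := hlt
    have h1 : Matrix.SpecialLinearGroup.toGL A ∈
        Cfsg.Geo.subspaceStabilizer W ⊓ Cfsg.Geo.specialLinear (Fin n) F := by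
      rw [heq]; exact hmem A
    exact hA h1.1
  · intro M hPM hMK
    by_cases hMP : M ≤ Cfsg.Geo.subspaceStabilizer W ⊓ Cfsg.Geo.specialLinear (Fin n) F
    · left; exact le_antisymm hMP hPM
    · right
      obtain ⟨h, hhM, hhP⟩ := SetLike.not_le_iff_exists.mp hMP
      obtain ⟨A, hA⟩ := hsurj h (hMK hhM)
      have key := hcore (M.comap Matrix.SpecialLinearGroup.toGL) ?_ ?_
      · apply le_antisymm hMK
        intro g hg
        obtain ⟨B, hB⟩ := hsurj g hg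
        have h2 : B ∈ M.comap Matrix.SpecialLinearGroup.toGL := by rw [key]; trivial
        rw [Subgroup.mem_comap, hB] at h2
        exact h2
      · intro B hB
        rw [Subgroup.mem_comap]
        exact hPM ⟨hB, hmem B⟩
      · refine ⟨A, ?_, ?_⟩
        · rw [Subgroup.mem_comap, hA]; exact hhM
        · intro hst
          apply hhP
          refine ⟨?_, hMK hhM⟩
          rw [← hA]; exact hst

/-- the transvection directions available in `M` -/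
def Dp (M : Subgroup (Matrix.SpecialLinearGroup (Fin n) F)) (u φ : Fin n → F) : Prop :=
  ∀ c : F, tv u φ c ∈ M

theorem Dp_conj (M : Subgroup (Matrix.SpecialLinearGroup (Fin n) F))
    (A : Matrix.SpecialLinearGroup (Fin n) F) (hA : A ∈ M) (u φ : Fin n → F)
    (h : φ ⬝ᵥ u = 0) (hD : Dp M u φ) :
    Dp M ((A : Matrix (Fin n) (Fin n) F) *ᵥ u)
      (φ ᵥ* ((A⁻¹ : Matrix.SpecialLinearGroup (Fin n) F) : Matrix (Fin n) (Fin n) F)) := by
  intro c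
  have := M.mul_mem (M.mul_mem hA (hD c)) (M.inv_mem hA)
  rwa [tv_conj u φ h] at this

theorem tv_add_left (u u' φ : Fin n → F) (h : φ ⬝ᵥ u = 0) (h' : φ ⬝ᵥ u' = 0) (c : F) :
    tv (u + u') φ c = tv u φ c * tv u' φ c := by
  apply sl_ext
  intro v
  rw [Matrix.SpecialLinearGroup.coe_mul, ← Matrix.mulVec_mulVec,
    tv_mulVec (u + u') φ (by rw [dotProduct_add, h, h', add_zero]), tv_mulVec u' φ h',
    tv_mulVec u φ h]
  simp only [dotProduct_add, dotProduct_smul, smul_eq_mul, h', mul_zero, add_zero]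
  module

theorem tv_add_right (u φ φ' : Fin n → F) (h : φ ⬝ᵥ u = 0) (h' : φ' ⬝ᵥ u = 0) (c : F) :
    tv u (φ + φ') c = tv u φ c * tv u φ' c := by
  apply sl_ext
  intro v
  rw [Matrix.SpecialLinearGroup.coe_mul, ← Matrix.mulVec_mulVec,
    tv_mulVec u (φ + φ') (by rw [add_dotProduct, h, h', add_zero]), tv_mulVec u φ' h',
    tv_mulVec u φ h]
  simp only [add_dotProduct, dotProduct_add, dotProduct_smul, smul_eq_mul, h, mul_zero, add_zero]
  module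

theorem Dp_add_left (M : Subgroup (Matrix.SpecialLinearGroup (Fin n) F)) (u u' φ : Fin n → F)
    (h : φ ⬝ᵥ u = 0) (h' : φ ⬝ᵥ u' = 0) (h1 : Dp M u φ) (h2 : Dp M u' φ) : Dp M (u + u') φ := by
  intro c
  rw [tv_add_left u u' φ h h']
  exact M.mul_mem (h1 c) (h2 c)

theorem Dp_add_right (M : Subgroup (Matrix.SpecialLinearGroup (Fin n) F)) (u φ φ' : Fin n → F)
    (h : φ ⬝ᵥ u = 0) (h' : φ' ⬝ᵥ u = 0) (h1 : Dp M u φ) (h2 : Dp M u φ') : Dp M u (φ + φ') := by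
  intro c
  rw [tv_add_right u φ φ' h h']
  exact M.mul_mem (h1 c) (h2 c)

theorem Dp_smul_left (M : Subgroup (Matrix.SpecialLinearGroup (Fin n) F)) (u φ : Fin n → F)
    (h : φ ⬝ᵥ u = 0) (a : F) (h1 : Dp M u φ) : Dp M (a • u) φ := by
  intro c
  rw [tv_smul_left u φ h a c]
  exact h1 _

theorem Dp_smul_right (M : Subgroup (Matrix.SpecialLinearGroup (Fin n) F)) (u φ : Fin n → F)
    (h : φ ⬝ᵥ u = 0) (a : F) (h1 : Dp M u φ) : Dp M u (a • φ) := by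
  intro c
  rw [tv_smul_right u φ h a c]
  exact h1 _

theorem sl_stab_of (W : Submodule F (Fin n → F)) (A : Matrix.SpecialLinearGroup (Fin n) F)
    (h1 : ∀ v ∈ W, (A : Matrix (Fin n) (Fin n) F) *ᵥ v ∈ W)
    (h2 : ∀ v ∈ W, ((A⁻¹ : Matrix.SpecialLinearGroup (Fin n) F) :
      Matrix (Fin n) (Fin n) F) *ᵥ v ∈ W) :
    ∀ v, v ∈ W ↔ (A : Matrix (Fin n) (Fin n) F) *ᵥ v ∈ W := by
  intro v
  refine ⟨h1 v, fun hv => ?_⟩
  have := h2 _ hv
  rwa [sl_inv_mulVec] at this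

theorem tv_junk (u φ : Fin n → F) (h : ¬ φ ⬝ᵥ u = 0) (c : F) : tv u φ c = 1 := by
  unfold tv
  simp only [h, ↓reduceDIte]

theorem Dp_of_mem (W : Submodule F (Fin n → F))
    (M : Subgroup (Matrix.SpecialLinearGroup (Fin n) F))
    (hP : ∀ A : Matrix.SpecialLinearGroup (Fin n) F,
      (∀ v, v ∈ W ↔ (A : Matrix (Fin n) (Fin n) F) *ᵥ v ∈ W) → A ∈ M)
    (u φ : Fin n → F) (hu : u ∈ W) : Dp M u φ := by
  intro c
  by_cases h : φ ⬝ᵥ u = 0
  · apply hP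
    intro v
    rw [tv_mulVec u φ h]
    exact (Submodule.add_mem_iff_left W (W.smul_mem _ hu)).symm
  · rw [tv_junk u φ h]; exact M.one_mem

theorem Dp_of_ann (W : Submodule F (Fin n → F))
    (M : Subgroup (Matrix.SpecialLinearGroup (Fin n) F))
    (hP : ∀ A : Matrix.SpecialLinearGroup (Fin n) F,
      (∀ v, v ∈ W ↔ (A : Matrix (Fin n) (Fin n) F) *ᵥ v ∈ W) → A ∈ M)
    (u φ : Fin n → F) (hφ : ∀ w ∈ W, φ ⬝ᵥ w = 0) : Dp M u φ := by
  intro c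
  by_cases h : φ ⬝ᵥ u = 0
  · apply hP
    apply sl_stab_of
    · intro v hv
      rw [tv_mulVec u φ h, hφ v hv, mul_zero, zero_smul, add_zero]; exact hv
    · intro v hv
      rw [tv_inv u φ h, tv_mulVec u φ h, hφ v hv, mul_zero, zero_smul, add_zero]; exact hv
  · rw [tv_junk u φ h]; exact M.one_mem

theorem step0 (W : Submodule F (Fin n → F))
    (M : Subgroup (Matrix.SpecialLinearGroup (Fin n) F))
    (hP : ∀ A : Matrix.SpecialLinearGroup (Fin n) F,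
      (∀ v, v ∈ W ↔ (A : Matrix (Fin n) (Fin n) F) *ᵥ v ∈ W) → A ∈ M)
    (hex : ∃ A ∈ M, ¬ (∀ v, v ∈ W ↔ (A : Matrix (Fin n) (Fin n) F) *ᵥ v ∈ W)) :
    ∃ u₀ φ₀ : Fin n → F, φ₀ ⬝ᵥ u₀ = 0 ∧ u₀ ∉ W ∧ (∃ w ∈ W, φ₀ ⬝ᵥ w ≠ 0) ∧ Dp M u₀ φ₀ := by
  obtain ⟨h, hhM, hhP⟩ := hex
  have h1 : ∃ g ∈ M, ∃ w ∈ W, (g : Matrix (Fin n) (Fin n) F) *ᵥ w ∉ W := by
    by_contra hcon
    push Not at hcon
    exact hhP (sl_stab_of W h (fun v hv => hcon h hhM v hv)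
      (fun v hv => hcon h⁻¹ (M.inv_mem hhM) v hv))
  obtain ⟨g, hgM, w, hw, hgw⟩ := h1
  have h2 : ((g⁻¹ : Matrix.SpecialLinearGroup (Fin n) F) : Matrix (Fin n) (Fin n) F) *ᵥ w ∉
      Submodule.span F {w} := by
    intro hmem
    obtain ⟨a, ha⟩ := Submodule.mem_span_singleton.mp hmem
    have h3 : a • ((g : Matrix (Fin n) (Fin n) F) *ᵥ w) = w := by
      rw [← Matrix.mulVec_smul, ha, sl_mulVec_inv]
    have ha0 : a ≠ 0 := by
      rintro rfl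
      rw [zero_smul] at h3
      apply hgw
      rw [← h3, Matrix.mulVec_zero]
      exact W.zero_mem
    apply hgw
    have h4 : (g : Matrix (Fin n) (Fin n) F) *ᵥ w = a⁻¹ • w := by
      calc (g : Matrix (Fin n) (Fin n) F) *ᵥ w
          = a⁻¹ • (a • ((g : Matrix (Fin n) (Fin n) F) *ᵥ w)) := by
            rw [smul_smul, inv_mul_cancel₀ ha0, one_smul]
        _ = a⁻¹ • w := by rw [h3]
    rw [h4]
    exact W.smul_mem _ hw
  obtain ⟨φ, hφ1, hφ2⟩ := sep _ _ h2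
  have hφw : φ ⬝ᵥ w = 0 := hφ1 w (Submodule.mem_span_singleton_self w)
  refine ⟨(g : Matrix (Fin n) (Fin n) F) *ᵥ w,
    φ ᵥ* ((g⁻¹ : Matrix.SpecialLinearGroup (Fin n) F) : Matrix (Fin n) (Fin n) F),
    conj_valid w φ hφw g, hgw, ⟨w, hw, ?_⟩, Dp_conj M g hgM w φ hφw (Dp_of_mem W M hP w φ hw)⟩
  rw [← Matrix.dotProduct_mulVec, hφ2]
  exact one_ne_zero

theorem caseI (W : Submodule F (Fin n → F))
    (M : Subgroup (Matrix.SpecialLinearGroup (Fin n) F))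
    (hP : ∀ A : Matrix.SpecialLinearGroup (Fin n) F,
      (∀ v, v ∈ W ↔ (A : Matrix (Fin n) (Fin n) F) *ᵥ v ∈ W) → A ∈ M)
    (u₀ φ₀ : Fin n → F) (h0 : φ₀ ⬝ᵥ u₀ = 0) (hu₀ : u₀ ∉ W)
    (w₀ : Fin n → F) (hw₀ : w₀ ∈ W) (hφw₀ : φ₀ ⬝ᵥ w₀ ≠ 0) (hD : Dp M u₀ φ₀)
    (w₁ : Fin n → F) (hw₁ : w₁ ∈ W) (hw₁0 : w₁ ≠ 0) (hφw₁ : φ₀ ⬝ᵥ w₁ = 0) :
    ∀ x ψ : Fin n → F, ψ ⬝ᵥ x = 0 → Dp M x ψ := by
  have sub1 : ∀ ψ : Fin n → F, ψ ⬝ᵥ u₀ = 0 → (∃ a ∈ W, ψ ⬝ᵥ a = 0 ∧ φ₀ ⬝ᵥ a ≠ 0) →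
      Dp M u₀ ψ := by
    rintro ψ hψ ⟨a, ha, hψa, hφa⟩
    have hs : tv a ψ (-(φ₀ ⬝ᵥ a)⁻¹) ∈ M := Dp_of_mem W M hP a ψ ha _
    have h1 := Dp_conj M _ hs u₀ φ₀ h0 hD
    rw [tv_mulVec a ψ hψa, hψ, mul_zero, zero_smul, add_zero, tv_inv a ψ hψa,
      tv_vecMul a ψ hψa] at h1
    have e : (- -(φ₀ ⬝ᵥ a)⁻¹ * (φ₀ ⬝ᵥ a)) = 1 := by rw [neg_neg, inv_mul_cancel₀ hφa]
    rw [e, one_smul] at h1
    have h2 : Dp M u₀ (-φ₀) := by
      have := Dp_smul_right M u₀ φ₀ h0 (-1) hD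
      rwa [neg_one_smul] at this
    have h3 := Dp_add_right M u₀ (φ₀ + ψ) (-φ₀) (by rw [add_dotProduct, h0, hψ, add_zero])
      (by rw [neg_dotProduct, h0, neg_zero]) h1 h2
    have e2 : φ₀ + ψ + -φ₀ = ψ := by abel
    rwa [e2] at h3
  have sub2 : ∀ ψ : Fin n → F, ψ ⬝ᵥ u₀ = 0 → ψ ⬝ᵥ w₁ ≠ 0 → Dp M u₀ ψ := by
    intro ψ hψ hne
    apply sub1 ψ hψ ⟨w₀ - ((ψ ⬝ᵥ w₀) / (ψ ⬝ᵥ w₁)) • w₁, W.sub_mem hw₀ (W.smul_mem _ hw₁), ?_, ?_⟩
    · rw [dotProduct_sub, dotProduct_smul, smul_eq_mul, div_mul_cancel₀ _ hne, sub_self]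
    · rw [dotProduct_sub, dotProduct_smul, hφw₁, smul_zero, sub_zero]; exact hφw₀
  have good_u₀ : ∀ ψ : Fin n → F, ψ ⬝ᵥ u₀ = 0 → Dp M u₀ ψ := by
    intro ψ hψ
    by_cases hne : ψ ⬝ᵥ w₁ = 0
    · have hw₁u : w₁ ∉ Submodule.span F {u₀} := by
        intro hmem
        obtain ⟨a, ha⟩ := Submodule.mem_span_singleton.mp hmem
        have ha0 : a ≠ 0 := by
          rintro rfl
          rw [zero_smul] at ha
          exact hw₁0 ha.symm
        apply hu₀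
        have h5 : u₀ = a⁻¹ • w₁ := by rw [← ha, smul_smul, inv_mul_cancel₀ ha0, one_smul]
        rw [h5]; exact W.smul_mem _ hw₁
      obtain ⟨ψ₁, hψ₁1, hψ₁2⟩ := sep _ w₁ hw₁u
      have hψ₁u : ψ₁ ⬝ᵥ u₀ = 0 := hψ₁1 u₀ (Submodule.mem_span_singleton_self u₀)
      have d1 : Dp M u₀ ψ₁ := sub2 ψ₁ hψ₁u (by rw [hψ₁2]; exact one_ne_zero)
      have hsub : (ψ - ψ₁) ⬝ᵥ u₀ = 0 := by rw [sub_dotProduct, hψ, hψ₁u, sub_zero]
      have d2 : Dp M u₀ (ψ - ψ₁) := sub2 (ψ - ψ₁) hsub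
        (by rw [sub_dotProduct, hne, hψ₁2, zero_sub]; exact neg_ne_zero.mpr one_ne_zero)
      have d3 := Dp_add_right M u₀ ψ₁ (ψ - ψ₁) hψ₁u hsub d1 d2
      have e : ψ₁ + (ψ - ψ₁) = ψ := by abel
      rwa [e] at d3
    · exact sub2 ψ hψ hne
  have good_conj : ∀ A ∈ M, ∀ x : Fin n → F, (∀ ψ : Fin n → F, ψ ⬝ᵥ x = 0 → Dp M x ψ) →
      ∀ ψ : Fin n → F, ψ ⬝ᵥ ((A : Matrix (Fin n) (Fin n) F) *ᵥ x) = 0 →
        Dp M ((A : Matrix (Fin n) (Fin n) F) *ᵥ x) ψ := by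
    intro A hA x hx ψ hψ
    have h1 : (ψ ᵥ* (A : Matrix (Fin n) (Fin n) F)) ⬝ᵥ x = 0 := by
      rw [← Matrix.dotProduct_mulVec]; exact hψ
    have h2 := Dp_conj M A hA x _ h1 (hx _ h1)
    rwa [Matrix.vecMul_vecMul, ← Matrix.SpecialLinearGroup.coe_mul, mul_inv_cancel,
      Matrix.SpecialLinearGroup.coe_one, Matrix.vecMul_one] at h2
  intro x
  by_cases hxW : x ∈ W
  · exact fun ψ _ => Dp_of_mem W M hP x ψ hxW
  by_cases hx : x ∈ W ⊔ Submodule.span F {u₀}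
  · obtain ⟨w, hw, y, hy, rfl⟩ := Submodule.mem_sup.mp hx
    obtain ⟨a, rfl⟩ := Submodule.mem_span_singleton.mp hy
    have ha0 : a ≠ 0 := by
      rintro rfl
      rw [zero_smul, add_zero] at hxW
      exact hxW hw
    have g1 : ∀ ψ : Fin n → F, ψ ⬝ᵥ (a • u₀) = 0 → Dp M (a • u₀) ψ := by
      intro ψ hψ
      have hψu : ψ ⬝ᵥ u₀ = 0 := by
        rw [dotProduct_smul, smul_eq_mul] at hψ
        exact (mul_eq_zero.mp hψ).resolve_left ha0
      exact Dp_smul_left M u₀ ψ hψu a (good_u₀ ψ hψu)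
    by_cases hw0 : w = 0
    · rw [hw0, zero_add]; exact g1
    have hnot : a • u₀ ∉ Submodule.span F {w} := by
      intro hmem
      obtain ⟨b, hb⟩ := Submodule.mem_span_singleton.mp hmem
      apply hu₀
      have h5 : u₀ = a⁻¹ • (b • w) := by rw [hb, smul_smul, inv_mul_cancel₀ ha0, one_smul]
      rw [h5]; exact W.smul_mem _ (W.smul_mem _ hw)
    obtain ⟨ψ, hψ1, hψ2⟩ := sep _ _ hnot
    have hψw : ψ ⬝ᵥ w = 0 := hψ1 w (Submodule.mem_span_singleton_self w)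
    have hs : tv w ψ 1 ∈ M := Dp_of_mem W M hP w ψ hw 1
    have g2 := good_conj _ hs _ g1
    rw [tv_mulVec w ψ hψw, hψ2, one_mul, one_smul, add_comm] at g2
    exact g2
  · have hnot : u₀ ∉ W ⊔ Submodule.span F {x - u₀} := by
      intro hmem
      obtain ⟨w, hw, y, hy, hsum⟩ := Submodule.mem_sup.mp hmem
      obtain ⟨a, rfl⟩ := Submodule.mem_span_singleton.mp hy
      have ha0 : a ≠ 0 := by
        rintro rfl
        rw [zero_smul, add_zero] at hsum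
        exact hu₀ (hsum ▸ hw)
      apply hx
      have h5 : x = (-a⁻¹) • w + (a⁻¹ + 1) • u₀ := by
        have h6 : a • x = (a + 1) • u₀ - w := by
          rw [smul_sub] at hsum
          linear_combination (norm := module) hsum
        calc x = a⁻¹ • (a • x) := by rw [smul_smul, inv_mul_cancel₀ ha0, one_smul]
          _ = a⁻¹ • ((a + 1) • u₀ - w) := by rw [h6]
          _ = (-a⁻¹) • w + (a⁻¹ + 1) • u₀ := by
            rw [smul_sub, smul_smul, mul_add, inv_mul_cancel₀ ha0, mul_one]; module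
      rw [h5]
      exact Submodule.add_mem _ (Submodule.mem_sup_left (W.smul_mem _ hw))
        (Submodule.mem_sup_right (Submodule.smul_mem _ _ (Submodule.mem_span_singleton_self u₀)))
    obtain ⟨ψ, hψ1, hψ2⟩ := sep _ _ hnot
    have hψW : ∀ w ∈ W, ψ ⬝ᵥ w = 0 := fun w hw => hψ1 w (Submodule.mem_sup_left hw)
    have hψa : ψ ⬝ᵥ (x - u₀) = 0 :=
      hψ1 _ (Submodule.mem_sup_right (Submodule.mem_span_singleton_self _))
    have hs : tv (x - u₀) ψ 1 ∈ M := Dp_of_ann W M hP _ ψ hψW 1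
    have g2 := good_conj _ hs _ good_u₀
    rw [tv_mulVec _ ψ hψa, hψ2, one_mul, one_smul, add_sub_cancel] at g2
    exact g2

theorem caseII (hn : 3 ≤ n) (W : Submodule F (Fin n → F))
    (M : Subgroup (Matrix.SpecialLinearGroup (Fin n) F))
    (hP : ∀ A : Matrix.SpecialLinearGroup (Fin n) F,
      (∀ v, v ∈ W ↔ (A : Matrix (Fin n) (Fin n) F) *ᵥ v ∈ W) → A ∈ M)
    (u₀ φ₀ : Fin n → F) (h0 : φ₀ ⬝ᵥ u₀ = 0) (hu₀ : u₀ ∉ W)
    (w₀ : Fin n → F) (hw₀ : w₀ ∈ W) (hφw₀ : φ₀ ⬝ᵥ w₀ ≠ 0) (hD : Dp M u₀ φ₀)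
    (hII : ∀ w ∈ W, φ₀ ⬝ᵥ w = 0 → w = 0) :
    ∀ x ψ : Fin n → F, ψ ⬝ᵥ x = 0 → Dp M x ψ := by
  classical
  have hW1 : ∀ w ∈ W, w = ((φ₀ ⬝ᵥ w) / (φ₀ ⬝ᵥ w₀)) • w₀ := by
    intro w hw
    have := hII (w - ((φ₀ ⬝ᵥ w) / (φ₀ ⬝ᵥ w₀)) • w₀) (W.sub_mem hw (W.smul_mem _ hw₀))
      (by rw [dotProduct_sub, dotProduct_smul, smul_eq_mul, div_mul_cancel₀ _ hφw₀, sub_self])
    exact sub_eq_zero.mp this
  have ha₁ : ∃ a₁ : Fin n → F, φ₀ ⬝ᵥ a₁ = 0 ∧ a₁ ∉ W ⊔ Submodule.span F {u₀} := by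
    have hlt : W ⊔ Submodule.span F {u₀} ≠ ⊤ := by
      intro htop
      have hle : W ⊔ Submodule.span F {u₀} ≤
          Submodule.span F ((({w₀, u₀} : Finset (Fin n → F)) : Set (Fin n → F))) := by
        apply sup_le
        · intro w hw
          rw [hW1 w hw]
          exact Submodule.smul_mem _ _ (Submodule.subset_span (by simp))
        · apply Submodule.span_mono
          simp
      have h1 : Module.finrank F (Submodule.span F
          ((({w₀, u₀} : Finset (Fin n → F)) : Set (Fin n → F)))) ≤ 2 :=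
        le_trans (finrank_span_finset_le_card (R := F) ({w₀, u₀} : Finset (Fin n → F)))
          Finset.card_le_two
      rw [htop] at hle
      have h3 := top_le_iff.mp hle
      rw [h3, finrank_top, Module.finrank_fintype_fun_eq_card, Fintype.card_fin] at h1
      omega
    obtain ⟨y, -, hy⟩ := SetLike.exists_of_lt (lt_top_iff_ne_top.mpr hlt)
    refine ⟨y - ((φ₀ ⬝ᵥ y) / (φ₀ ⬝ᵥ w₀)) • w₀, by
      rw [dotProduct_sub, dotProduct_smul, smul_eq_mul, div_mul_cancel₀ _ hφw₀, sub_self], ?_⟩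
    intro hmem
    apply hy
    have h5 : y = (y - ((φ₀ ⬝ᵥ y) / (φ₀ ⬝ᵥ w₀)) • w₀) + ((φ₀ ⬝ᵥ y) / (φ₀ ⬝ᵥ w₀)) • w₀ := by abel
    rw [h5]
    exact Submodule.add_mem _ hmem (Submodule.mem_sup_left (W.smul_mem _ hw₀))
  obtain ⟨a₁, hφa₁, ha₁not⟩ := ha₁
  have sub1 : ∀ a : Fin n → F, φ₀ ⬝ᵥ a = 0 → u₀ ∉ W ⊔ Submodule.span F {a} → Dp M a φ₀ := by
    intro a hφa hnot
    obtain ⟨ψ, hψ1, hψ2⟩ := sep _ _ hnot
    have hψW : ∀ w ∈ W, ψ ⬝ᵥ w = 0 := fun w hw => hψ1 w (Submodule.mem_sup_left hw)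
    have hψa : ψ ⬝ᵥ a = 0 :=
      hψ1 _ (Submodule.mem_sup_right (Submodule.mem_span_singleton_self _))
    have hs : tv a ψ 1 ∈ M := Dp_of_ann W M hP a ψ hψW 1
    have h1 := Dp_conj M _ hs u₀ φ₀ h0 hD
    rw [tv_mulVec a ψ hψa, hψ2, one_mul, one_smul, tv_inv a ψ hψa, tv_vecMul a ψ hψa, hφa,
      mul_zero, zero_smul, add_zero] at h1
    have h2 : Dp M (-u₀) φ₀ := by
      have := Dp_smul_left M u₀ φ₀ h0 (-1) hD
      rwa [neg_one_smul] at this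
    have h3 := Dp_add_left M (u₀ + a) (-u₀) φ₀ (by rw [dotProduct_add, h0, hφa, add_zero])
      (by rw [dotProduct_neg, h0, neg_zero]) h1 h2
    have e : u₀ + a + -u₀ = a := by abel
    rwa [e] at h3
  have hC : ∀ a : Fin n → F, a ∉ W ⊔ Submodule.span F {u₀} → u₀ ∉ W ⊔ Submodule.span F {a} := by
    intro a ha hmem
    obtain ⟨w, hw, y, hy, hsum⟩ := Submodule.mem_sup.mp hmem
    obtain ⟨c, rfl⟩ := Submodule.mem_span_singleton.mp hy
    have hc0 : c ≠ 0 := by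
      rintro rfl
      rw [zero_smul, add_zero] at hsum
      exact hu₀ (hsum ▸ hw)
    apply ha
    have h5 : a = c⁻¹ • (u₀ - w) := by
      rw [← hsum, add_sub_cancel_left, smul_smul, inv_mul_cancel₀ hc0, one_smul]
    rw [h5]
    exact Submodule.smul_mem _ _ (Submodule.sub_mem _
      (Submodule.mem_sup_right (Submodule.mem_span_singleton_self u₀)) (Submodule.mem_sup_left hw))
  have good_φ₀ : ∀ a : Fin n → F, φ₀ ⬝ᵥ a = 0 → Dp M a φ₀ := by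
    intro a hφa
    by_cases hCa : u₀ ∈ W ⊔ Submodule.span F {a}
    · have ha_in : a ∈ W ⊔ Submodule.span F {u₀} := by
        by_contra hn'
        exact hC a hn' hCa
      have h1 : a - a₁ ∉ W ⊔ Submodule.span F {u₀} := by
        intro hmem
        apply ha₁not
        have h5 : a₁ = a - (a - a₁) := by abel
        rw [h5]; exact Submodule.sub_mem _ ha_in hmem
      have hsub : φ₀ ⬝ᵥ (a - a₁) = 0 := by rw [dotProduct_sub, hφa, hφa₁, sub_zero]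
      have d1 := sub1 a₁ hφa₁ (hC a₁ ha₁not)
      have d2 := sub1 (a - a₁) hsub (hC _ h1)
      have d3 := Dp_add_left M a₁ (a - a₁) φ₀ hφa₁ hsub d1 d2
      have e : a₁ + (a - a₁) = a := by abel
      rwa [e] at d3
    · exact sub1 a hφa hCa
  have good_conj : ∀ A ∈ M, ∀ φ : Fin n → F, (∀ a : Fin n → F, φ ⬝ᵥ a = 0 → Dp M a φ) →
      ∀ a : Fin n → F,
        (φ ᵥ* ((A⁻¹ : Matrix.SpecialLinearGroup (Fin n) F) : Matrix (Fin n) (Fin n) F)) ⬝ᵥ a = 0 →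
        Dp M a (φ ᵥ* ((A⁻¹ : Matrix.SpecialLinearGroup (Fin n) F) : Matrix (Fin n) (Fin n) F)) := by
    intro A hA φ hφ a ha
    have h1 : φ ⬝ᵥ (((A⁻¹ : Matrix.SpecialLinearGroup (Fin n) F) :
        Matrix (Fin n) (Fin n) F) *ᵥ a) = 0 := by
      rw [Matrix.dotProduct_mulVec]; exact ha
    have h2 := Dp_conj M A hA _ φ h1 (hφ _ h1)
    rwa [sl_mulVec_inv] at h2
  intro x φ hφx
  obtain ⟨lam, hlam⟩ : ∃ lam : F, lam = (φ ⬝ᵥ w₀) / (φ₀ ⬝ᵥ w₀) := ⟨_, rfl⟩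
  obtain ⟨ψ, hψ⟩ : ∃ ψ : Fin n → F, ψ = φ - lam • φ₀ := ⟨_, rfl⟩
  have hψw₀ : ψ ⬝ᵥ w₀ = 0 := by
    rw [hψ, sub_dotProduct, smul_dotProduct, smul_eq_mul, hlam, div_mul_cancel₀ _ hφw₀, sub_self]
  have hψW : ∀ w ∈ W, ψ ⬝ᵥ w = 0 := by
    intro w hw
    rw [hW1 w hw, dotProduct_smul, hψw₀, smul_zero]
  by_cases hl : lam = 0
  · have h5 : φ = ψ := by rw [hψ, hl, zero_smul, sub_zero]
    rw [h5]; exact Dp_of_ann W M hP x ψ hψW
  · have hnot : φ₀ ∉ Submodule.span F {ψ} := by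
      intro hmem
      obtain ⟨c, hc⟩ := Submodule.mem_span_singleton.mp hmem
      apply hφw₀
      rw [← hc, smul_dotProduct, hψw₀, smul_zero]
    obtain ⟨a, ha1, ha2⟩ := sep _ _ hnot
    have haψ : ψ ⬝ᵥ a = 0 := by
      rw [dotProduct_comm]; exact ha1 ψ (Submodule.mem_span_singleton_self ψ)
    have haφ : φ₀ ⬝ᵥ a = 1 := by rw [dotProduct_comm]; exact ha2
    have hs : tv a ψ (-lam⁻¹) ∈ M := Dp_of_ann W M hP a ψ hψW _
    have g1 : ∀ b : Fin n → F, (lam • φ₀) ⬝ᵥ b = 0 → Dp M b (lam • φ₀) := by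
      intro b hb
      have hb' : φ₀ ⬝ᵥ b = 0 := by
        rw [smul_dotProduct, smul_eq_mul] at hb
        exact (mul_eq_zero.mp hb).resolve_left hl
      exact Dp_smul_right M b φ₀ hb' lam (good_φ₀ b hb')
    have g2 := good_conj _ hs _ g1
    rw [tv_inv a ψ haψ, tv_vecMul a ψ haψ, smul_dotProduct, haφ, smul_eq_mul, mul_one, neg_neg,
      inv_mul_cancel₀ hl, one_smul] at g2
    have e : lam • φ₀ + ψ = φ := by rw [hψ]; abel
    rw [e] at g2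
    exact g2 x hφx

theorem core_sl (hn : 3 ≤ n) (W : Submodule F (Fin n → F))
    (M : Subgroup (Matrix.SpecialLinearGroup (Fin n) F))
    (hP : ∀ A : Matrix.SpecialLinearGroup (Fin n) F,
      (∀ v, v ∈ W ↔ (A : Matrix (Fin n) (Fin n) F) *ᵥ v ∈ W) → A ∈ M)
    (hex : ∃ A ∈ M, ¬ (∀ v, v ∈ W ↔ (A : Matrix (Fin n) (Fin n) F) *ᵥ v ∈ W)) : M = ⊤ := by
  obtain ⟨u₀, φ₀, h0, hu₀, ⟨w₀, hw₀, hφw₀⟩, hD⟩ := step0 W M hP hex
  have hall : ∀ x ψ : Fin n → F, ψ ⬝ᵥ x = 0 → Dp M x ψ := by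
    by_cases hI : ∃ w₁ ∈ W, w₁ ≠ 0 ∧ φ₀ ⬝ᵥ w₁ = 0
    · obtain ⟨w₁, hw₁, hw₁0, hφw₁⟩ := hI
      exact caseI W M hP u₀ φ₀ h0 hu₀ w₀ hw₀ hφw₀ hD w₁ hw₁ hw₁0 hφw₁
    · push Not at hI
      exact caseII hn W M hP u₀ φ₀ h0 hu₀ w₀ hw₀ hφw₀ hD
        (fun w hw h => by
          by_contra hne
          exact hI w hw hne h)
  obtain ⟨n', rfl⟩ : ∃ n', n = n' + 3 := ⟨n - 3, by omega⟩
  rw [eq_top_iff]
  intro A _
  apply Cfsg.Agent.S0249.transvection_induction (P := fun A => A ∈ M)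
  · intro i j hij c
    have h3 : Matrix.SpecialLinearGroup.transvection hij c
        = tv (Pi.single i 1) (Pi.single j 1) c := by
      apply Subtype.ext
      rw [tv_single i j hij]
      rfl
    rw [h3]
    exact hall _ _ (single_dot j i hij.symm) c
  · intro A B hA hB
    exact M.mul_mem hA hB

/-- For a finite field F and n ≥ 13, the stabiliser in SL_n(F) of any proper non-zero subspace W of F^n is a maximal subgroup of SL_n(F). Here SL_n(F) is the kernel of the determinant inside GL_n(F) and the stabiliser is the set of elements of determinant one mapping W onto itself. -/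
theorem result {F : Type*} [Field F] [Fintype F] (n : ℕ) (hn : 13 ≤ n) (W : Submodule F (Fin n → F)) (hW0 : W ≠ ⊥) (hW1 : W ≠ ⊤) : Cfsg.Geo.IsMaximalIn (Cfsg.Geo.specialLinear (Fin n) F) (Cfsg.Geo.subspaceStabilizer W ⊓ Cfsg.Geo.specialLinear (Fin n) F) := by
  classical
  apply maximal_of_core_sl
  · obtain ⟨w, hw, hw0⟩ := (Submodule.ne_bot_iff W).mp hW0
    obtain ⟨u, -, hu⟩ := SetLike.exists_of_lt (lt_top_iff_ne_top.mpr hW1)
    have hnot : w ∉ Submodule.span F {u} := by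
      intro hmem
      obtain ⟨a, ha⟩ := Submodule.mem_span_singleton.mp hmem
      have ha0 : a ≠ 0 := by
        rintro rfl
        rw [zero_smul] at ha
        exact hw0 ha.symm
      apply hu
      have h5 : u = a⁻¹ • w := by rw [← ha, smul_smul, inv_mul_cancel₀ ha0, one_smul]
      rw [h5]; exact W.smul_mem _ hw
    obtain ⟨φ, hφ1, hφ2⟩ := sep _ _ hnot
    have hφu : φ ⬝ᵥ u = 0 := hφ1 u (Submodule.mem_span_singleton_self u)
    refine ⟨Cfsg.Agent.S5043.tv u φ 1, fun hst => ?_⟩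
    have h1 := (hst w).1 hw
    rw [Cfsg.Agent.S5043.tv_mulVec u φ hφu, hφ2, one_mul, one_smul] at h1
    exact hu ((Submodule.add_mem_iff_right W hw).mp h1)
  · intro M hP hex
    exact core_sl (by omega) W M hP hex

end Cfsg.Agent.S5631
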