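import Mathlib
import Cfsg.Statements.S5642
import Cfsg.Agent.S5631

set_option autoImplicit false
open Cfsg

namespace Cfsg.Agent.S5642

open Matrix Cfsg.Agent.S5043 Cfsg.Agent.S5058 Cfsg.Agent.S5631

variable {F : Type*} [Field F] {n : ℕ}

/-- transfer of maximality from `Matrix.SpecialLinearGroup` to the kernel of `det` in `GL`,
for an arbitrary subgroup `K₀` of `GL` -/
theorem maximal_of_core_sl' (K₀ : Subgroup (GL (Fin n) F))
    (hlt : ∃ A : Matrix.SpecialLinearGroup (Fin n) F, Matrix.SpecialLinearGroup.toGL A ∉ K₀)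
    (hcore : ∀ M : Subgroup (Matrix.SpecialLinearGroup (Fin n) F),
      (∀ A : Matrix.SpecialLinearGroup (Fin n) F,
        Matrix.SpecialLinearGroup.toGL A ∈ K₀ → A ∈ M) →
      (∃ A ∈ M, Matrix.SpecialLinearGroup.toGL A ∉ K₀) → M = ⊤) :
    Cfsg.Geo.IsMaximalIn (Cfsg.Geo.specialLinear (Fin n) F)
      (K₀ ⊓ Cfsg.Geo.specialLinear (Fin n) F) := by
  have hsurj : ∀ g ∈ Cfsg.Geo.specialLinear (Fin n) F,
      ∃ A : Matrix.SpecialLinearGroup (Fin n) F, Matrix.SpecialLinearGroup.toGL A = g := by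
    intro g hg
    refine ⟨⟨(g : Matrix (Fin n) (Fin n) F), (gl_mem_specialLinear g).1 hg⟩, ?_⟩
    apply Units.ext
    rfl
  have hmem : ∀ A : Matrix.SpecialLinearGroup (Fin n) F,
      Matrix.SpecialLinearGroup.toGL A ∈ Cfsg.Geo.specialLinear (Fin n) F := by
    intro A
    rw [gl_mem_specialLinear]
    exact A.2
  constructor
  · refine lt_of_le_of_ne inf_le_right ?_
    intro heq
    obtain ⟨A, hA⟩ := hlt
    have h1 : Matrix.SpecialLinearGroup.toGL A ∈ K₀ ⊓ Cfsg.Geo.specialLinear (Fin n) F := by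
      rw [heq]; exact hmem A
    exact hA h1.1
  · intro M hPM hMK
    by_cases hMP : M ≤ K₀ ⊓ Cfsg.Geo.specialLinear (Fin n) F
    · left; exact le_antisymm hMP hPM
    · right
      obtain ⟨h, hhM, hhP⟩ := SetLike.not_le_iff_exists.mp hMP
      obtain ⟨A, hA⟩ := hsurj h (hMK hhM)
      have key := hcore (M.comap Matrix.SpecialLinearGroup.toGL) ?_ ?_
      · apply le_antisymm hMK
        intro g hg
        obtain ⟨B, hB⟩ := hsurj g hg
        have h2 : B ∈ M.comap Matrix.SpecialLinearGroup.toGL := by rw [key]; trivial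
        rw [Subgroup.mem_comap, hB] at h2
        exact h2
      · intro B hB
        rw [Subgroup.mem_comap]
        exact hPM ⟨hB, hmem B⟩
      · refine ⟨A, ?_, ?_⟩
        · rw [Subgroup.mem_comap, hA]; exact hhM
        · intro hst
          apply hhP
          refine ⟨?_, hMK hhM⟩
          rw [← hA]; exact hst

theorem top_of_all_Dp (hn : 3 ≤ n) (M : Subgroup (Matrix.SpecialLinearGroup (Fin n) F))
    (hall : ∀ x ψ : Fin n → F, ψ ⬝ᵥ x = 0 → Dp M x ψ) : M = ⊤ := by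
  obtain ⟨n', rfl⟩ : ∃ n', n = n' + 3 := ⟨n - 3, by omega⟩
  rw [eq_top_iff]
  intro A _
  apply Cfsg.Agent.S0249.transvection_induction (P := fun A => A ∈ M)
  · intro i j hij c
    have h3 : Matrix.SpecialLinearGroup.transvection hij c
        = tv (Pi.single i 1) (Pi.single j 1) c := by
      apply Subtype.ext
      rw [tv_single i j hij]
      rfl
    rw [h3]
    exact hall _ _ (single_dot j i hij.symm) c
  · intro A B hA hB
    exact M.mul_mem hA hB

section form

variable {f : (Fin n → F) → (Fin n → F) → F}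

theorem f_zero_left (hf : Cfsg.Geo.IsSymplecticForm f) (v : Fin n → F) : f 0 v = 0 := by
  have h := hf.bilinear.smul_left 0 0 v
  rwa [zero_smul, zero_mul] at h

theorem f_zero_right (hf : Cfsg.Geo.IsSymplecticForm f) (v : Fin n → F) : f v 0 = 0 := by
  have h := hf.bilinear.smul_right 0 v 0
  rwa [zero_smul, zero_mul] at h

theorem f_sub_left (hf : Cfsg.Geo.IsSymplecticForm f) (x y v : Fin n → F) :
    f (x - y) v = f x v - f y v := by
  have h := hf.bilinear.add_left (x - y) y v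
  rw [sub_add_cancel] at h
  exact eq_sub_of_add_eq h.symm

theorem f_sub_right (hf : Cfsg.Geo.IsSymplecticForm f) (v x y : Fin n → F) :
    f v (x - y) = f v x - f v y := by
  have h := hf.bilinear.add_right v (x - y) y
  rw [sub_add_cancel] at h
  exact eq_sub_of_add_eq h.symm

theorem f_neg_right (hf : Cfsg.Geo.IsSymplecticForm f) (v x : Fin n → F) :
    f v (-x) = -f v x := by
  have h := hf.bilinear.smul_right (-1) v x
  rwa [neg_one_smul, neg_one_mul] at h

/-- the vector representing `x ↦ f x z` -/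
def fv (f : (Fin n → F) → (Fin n → F) → F) (z : Fin n → F) : Fin n → F :=
  fun i => f (Pi.single i 1) z

theorem fv_dot (hf : Cfsg.Geo.IsSymplecticForm f) (z x : Fin n → F) : fv f z ⬝ᵥ x = f x z := by
  classical
  obtain ⟨L, hL⟩ : ∃ L : (Fin n → F) →ₗ[F] F, ∀ x, L x = f x z :=
    ⟨{ toFun := fun x => f x z
       map_add' := fun x y => hf.bilinear.add_left x y z
       map_smul' := fun c x => by simpa using hf.bilinear.smul_left c x z }, fun x => rfl⟩
  rw [← hL x, LinearMap.pi_apply_eq_sum_univ L x, dotProduct]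
  apply Finset.sum_congr rfl
  intro i _
  rw [smul_eq_mul, mul_comm, hL]
  congr 1
  show f (Pi.single i 1) z = f (fun j => if i = j then 1 else 0) z
  congr 1
  ext j
  rw [Pi.single_apply]
  simp [eq_comm]

theorem fv_add (hf : Cfsg.Geo.IsSymplecticForm f) (z z' : Fin n → F) :
    fv f (z + z') = fv f z + fv f z' := by
  ext i
  exact hf.bilinear.add_right _ z z'

theorem fv_smul (hf : Cfsg.Geo.IsSymplecticForm f) (c : F) (z : Fin n → F) :
    fv f (c • z) = c • fv f z := by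
  ext i
  exact hf.bilinear.smul_right c _ z

theorem riesz (hf : Cfsg.Geo.IsSymplecticForm f) (φ : Fin n → F) : ∃ z, fv f z = φ := by
  obtain ⟨Φ, hΦ⟩ : ∃ Φ : (Fin n → F) →ₗ[F] (Fin n → F), ∀ z, Φ z = fv f z :=
    ⟨{ toFun := fun z => fv f z
       map_add' := fun z z' => fv_add hf z z'
       map_smul' := fun c z => by simpa using fv_smul hf c z }, fun z => rfl⟩
  have hinj : Function.Injective Φ := by
    rw [← LinearMap.ker_eq_bot, LinearMap.ker_eq_bot']
    intro z hz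
    by_contra h0
    obtain ⟨x, hx⟩ := (hf.nondegenerate z h0).1
    apply hx
    rw [← fv_dot hf, ← hΦ, hz, zero_dotProduct]
  obtain ⟨z, hz⟩ := (LinearMap.injective_iff_surjective.mp hinj) φ
  exact ⟨z, by rw [← hΦ, hz]⟩

theorem fv_self (hf : Cfsg.Geo.IsSymplecticForm f) (w : Fin n → F) : fv f w ⬝ᵥ w = 0 := by
  rw [fv_dot hf]
  exact hf.alternating w

/-- symplectic transvection for the form `f` -/
noncomputable def st (f : (Fin n → F) → (Fin n → F) → F) (w : Fin n → F) (c : F) :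
    Matrix.SpecialLinearGroup (Fin n) F :=
  tv w (fv f w) c

theorem st_mulVec (hf : Cfsg.Geo.IsSymplecticForm f) (w : Fin n → F) (c : F) (x : Fin n → F) :
    (st f w c : Matrix (Fin n) (Fin n) F) *ᵥ x = x + (c * f x w) • w := by
  unfold st
  rw [tv_mulVec w _ (fv_self hf w), fv_dot hf]

theorem st_isom (hf : Cfsg.Geo.IsSymplecticForm f) (w : Fin n → F) (c : F) (x y : Fin n → F) :
    f ((st f w c : Matrix (Fin n) (Fin n) F) *ᵥ x) ((st f w c : Matrix (Fin n) (Fin n) F) *ᵥ y)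
      = f x y := by
  rw [st_mulVec hf, st_mulVec hf]
  simp only [hf.bilinear.add_left, hf.bilinear.add_right, hf.bilinear.smul_left,
    hf.bilinear.smul_right, hf.alternating]
  rw [hf.skew w y]
  ring

theorem st_mem (hf : Cfsg.Geo.IsSymplecticForm f) (w : Fin n → F) (c : F) :
    Matrix.SpecialLinearGroup.toGL (st f w c) ∈ Cfsg.Geo.similarityGroup f :=
  ⟨1, fun u v => by
    rw [Units.val_one, one_mul]
    exact st_isom hf w c u v⟩

theorem exists_bad (hf : Cfsg.Geo.IsSymplecticForm f) (g : Matrix.SpecialLinearGroup (Fin n) F)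
    (hg : Matrix.SpecialLinearGroup.toGL g ∉ Cfsg.Geo.similarityGroup f)
    (w₀ : Fin n → F) (hw₀ : w₀ ≠ 0) :
    ∃ w, ∀ l : F, ∃ x, f x w ≠ l * f ((g : Matrix (Fin n) (Fin n) F) *ᵥ x)
      ((g : Matrix (Fin n) (Fin n) F) *ᵥ w) := by
  by_contra hcon
  push Not at hcon
  choose lam hlam using hcon
  have hne : ∀ w, w ≠ 0 → lam w ≠ 0 := by
    intro w hw h0
    obtain ⟨x, hx⟩ := (hf.nondegenerate w hw).1
    apply hx
    rw [hlam w x, h0, zero_mul]
  have hsame : ∀ x w, f x w ≠ 0 → lam w = lam x := by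
    intro x w hxw
    have h1 := hlam w x
    have h2 := hlam x w
    rw [hf.skew w x, hf.skew ((g : Matrix (Fin n) (Fin n) F) *ᵥ w)
      ((g : Matrix (Fin n) (Fin n) F) *ᵥ x)] at h2
    have h3 : f ((g : Matrix (Fin n) (Fin n) F) *ᵥ x) ((g : Matrix (Fin n) (Fin n) F) *ᵥ w)
        ≠ 0 := by
      intro h
      apply hxw
      rw [h1, h, mul_zero]
    have h4 : (lam w - lam x) * f ((g : Matrix (Fin n) (Fin n) F) *ᵥ x)
        ((g : Matrix (Fin n) (Fin n) F) *ᵥ w) = 0 := by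
      linear_combination -h1 - h2
    rcases mul_eq_zero.mp h4 with h | h
    · exact sub_eq_zero.mp h
    · exact absurd h h3
  have hc : ∀ x w, f x w = lam w₀ * f ((g : Matrix (Fin n) (Fin n) F) *ᵥ x)
      ((g : Matrix (Fin n) (Fin n) F) *ᵥ w) := by
    intro x w
    by_cases hxw : f x w = 0
    · by_cases hw : w = 0
      · rw [hw, Matrix.mulVec_zero, f_zero_right hf, f_zero_right hf, mul_zero]
      · have h1 := hlam w x
        rw [hxw] at h1
        rcases mul_eq_zero.mp h1.symm with h | h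
        · exact absurd h (hne w hw)
        · rw [hxw, h, mul_zero]
    · obtain ⟨z, hz1, hz2⟩ : ∃ z, f z w ≠ 0 ∧ f z w₀ ≠ 0 := by
        obtain ⟨z₂, hz₂⟩ := (hf.nondegenerate w₀ hw₀).1
        by_cases h1 : f x w₀ = 0
        · by_cases h2 : f z₂ w = 0
          · refine ⟨x + z₂, ?_, ?_⟩
            · rw [hf.bilinear.add_left, h2, add_zero]
              exact hxw
            · rw [hf.bilinear.add_left, h1, zero_add]
              exact hz₂
          · exact ⟨z₂, h2, hz₂⟩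
        · exact ⟨x, hxw, h1⟩
      rw [hlam w x, hsame z w hz1, ← hsame z w₀ hz2]
  apply hg
  have hl0 := hne w₀ hw₀
  refine ⟨Units.mk0 (lam w₀)⁻¹ (inv_ne_zero hl0), fun u v => ?_⟩
  rw [Units.val_mk0, hc u v, ← mul_assoc, inv_mul_cancel₀ hl0, one_mul]
  rfl

theorem sepf (hf : Cfsg.Geo.IsSymplecticForm f) (u z : Fin n → F) (hu : u ≠ 0)
    (hz : ∀ c : F, z ≠ c • u) : ∃ y, f u y = 0 ∧ f z y ≠ 0 := by
  obtain ⟨x₁, hx₁⟩ := (hf.nondegenerate u hu).2
  have hz' : z - (f z x₁ / f u x₁) • u ≠ 0 := fun h => hz _ (sub_eq_zero.mp h)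
  obtain ⟨x₂, hx₂⟩ := (hf.nondegenerate _ hz').2
  refine ⟨x₂ - (f u x₂ / f u x₁) • x₁, ?_, ?_⟩
  · have e : f u x₂ / f u x₁ * f u x₁ = f u x₂ := by field_simp
    rw [f_sub_right hf, hf.bilinear.smul_right, e, sub_self]
  · rw [f_sub_left hf, hf.bilinear.smul_left] at hx₂
    rw [f_sub_right hf, hf.bilinear.smul_right]
    have e : f z x₂ - f u x₂ / f u x₁ * f z x₁ = f z x₂ - f z x₁ / f u x₁ * f u x₂ := by ring
    rw [e]
    exact hx₂

theorem all_center (hf : Cfsg.Geo.IsSymplecticForm f)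
    (M : Subgroup (Matrix.SpecialLinearGroup (Fin n) F)) (hS : ∀ w c, st f w c ∈ M)
    (u z₀ : Fin n → F) (hu : u ≠ 0) (hz₀u : f u z₀ = 0) (hz₀ : ∀ c : F, z₀ ≠ c • u)
    (hD : Dp M u (fv f z₀)) : ∀ φ : Fin n → F, φ ⬝ᵥ u = 0 → Dp M u φ := by
  have hperp : ∀ z, f u z = 0 → fv f z ⬝ᵥ u = 0 := fun z hz => by
    rw [fv_dot hf]
    exact hz
  have hconj : ∀ (z y : Fin n → F) (c : F), f u z = 0 → f u y = 0 → Dp M u (fv f z) →
      Dp M u (fv f (z + (c * f z y) • y)) := by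
    intro z y c hz hy hDz
    have h1 := Dp_conj M (st f y c) (hS y c) u (fv f z) (hperp z hz) hDz
    have e1 : (st f y c : Matrix (Fin n) (Fin n) F) *ᵥ u = u := by
      rw [st_mulVec hf, hy, mul_zero, zero_smul, add_zero]
    have e2 : fv f z ᵥ* (((st f y c)⁻¹ : Matrix.SpecialLinearGroup (Fin n) F) :
        Matrix (Fin n) (Fin n) F) = fv f (z + (c * f z y) • y) := by
      unfold st
      rw [tv_inv y _ (fv_self hf y), tv_vecMul y _ (fv_self hf y), fv_dot hf, fv_add hf,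
        fv_smul hf, hf.skew y z, neg_mul_neg]
    rw [e1, e2] at h1
    exact h1
  have hneg : ∀ z, f u z = 0 → Dp M u (fv f z) → Dp M u (fv f (-z)) := by
    intro z hz hDz
    have h1 := Dp_smul_right M u (fv f z) (hperp z hz) (-1) hDz
    rw [← fv_smul hf, neg_one_smul] at h1
    exact h1
  have hadd : ∀ z z', f u z = 0 → f u z' = 0 → Dp M u (fv f z) → Dp M u (fv f z') →
      Dp M u (fv f (z + z')) := by
    intro z z' hz hz' h1 h2
    rw [fv_add hf]
    exact Dp_add_right M u _ _ (hperp z hz) (hperp z' hz') h1 h2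
  have hd : ∀ y, f u y = 0 → f z₀ y ≠ 0 → Dp M u (fv f y) := by
    intro y hy hne
    have h1 := hconj z₀ y (f z₀ y)⁻¹ hz₀u hy hD
    rw [inv_mul_cancel₀ hne, one_smul] at h1
    have h2 := hadd (z₀ + y) (-z₀) (by rw [hf.bilinear.add_right, hz₀u, hy, add_zero])
      (by rw [f_neg_right hf, hz₀u, neg_zero]) h1 (hneg z₀ hz₀u hD)
    have e : z₀ + y + -z₀ = y := by abel
    rwa [e] at h2
  obtain ⟨y₁, hy₁u, hy₁z⟩ := sepf hf u z₀ hu hz₀
  have hall : ∀ y, f u y = 0 → Dp M u (fv f y) := by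
    intro y hy
    by_cases h : f z₀ y = 0
    · have h1 := hd (y + y₁) (by rw [hf.bilinear.add_right, hy, hy₁u, add_zero])
        (by rw [hf.bilinear.add_right, h, zero_add]; exact hy₁z)
      have h2 := hadd (y + y₁) (-y₁) (by rw [hf.bilinear.add_right, hy, hy₁u, add_zero])
        (by rw [f_neg_right hf, hy₁u, neg_zero]) h1 (hneg y₁ hy₁u (hd y₁ hy₁u hy₁z))
      have e : y + y₁ + -y₁ = y := by abel
      rwa [e] at h2
    · exact hd y hy h
  intro φ hφ
  obtain ⟨z, rfl⟩ := riesz hf φ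
  exact hall z (by rw [← fv_dot hf]; exact hφ)

theorem st_trans (hf : Cfsg.Geo.IsSymplecticForm f)
    (M : Subgroup (Matrix.SpecialLinearGroup (Fin n) F)) (hS : ∀ w c, st f w c ∈ M)
    (u u' : Fin n → F) (hu : u ≠ 0) (hu' : u' ≠ 0) :
    ∃ A ∈ M, (A : Matrix (Fin n) (Fin n) F) *ᵥ u = u' := by
  have step : ∀ a b : Fin n → F, f a b ≠ 0 →
      ∃ A ∈ M, (A : Matrix (Fin n) (Fin n) F) *ᵥ a = b := by
    intro a b hab
    refine ⟨st f (a - b) (f a b)⁻¹, hS _ _, ?_⟩
    rw [st_mulVec hf, f_sub_right hf, hf.alternating, zero_sub, mul_neg, inv_mul_cancel₀ hab,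
      neg_smul, one_smul]
    abel
  by_cases h : f u u' = 0
  · obtain ⟨z, hz1, hz2⟩ : ∃ z, f u z ≠ 0 ∧ f z u' ≠ 0 := by
      obtain ⟨z₁, hz₁⟩ := (hf.nondegenerate u hu).2
      obtain ⟨z₂, hz₂⟩ := (hf.nondegenerate u' hu').1
      by_cases h1 : f z₁ u' = 0
      · by_cases h2 : f u z₂ = 0
        · refine ⟨z₁ + z₂, ?_, ?_⟩
          · rw [hf.bilinear.add_right, h2, add_zero]
            exact hz₁
          · rw [hf.bilinear.add_left, h1, zero_add]
            exact hz₂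
        · exact ⟨z₂, h2, hz₂⟩
      · exact ⟨z₁, hz₁, h1⟩
    obtain ⟨A₁, hA₁, e₁⟩ := step u z hz1
    obtain ⟨A₂, hA₂, e₂⟩ := step z u' hz2
    refine ⟨A₂ * A₁, M.mul_mem hA₂ hA₁, ?_⟩
    rw [Matrix.SpecialLinearGroup.coe_mul, ← Matrix.mulVec_mulVec, e₁, e₂]
  · exact step u u' h

theorem core_simil (hn : 3 ≤ n) (hf : Cfsg.Geo.IsSymplecticForm f)
    (M : Subgroup (Matrix.SpecialLinearGroup (Fin n) F))
    (hP : ∀ A : Matrix.SpecialLinearGroup (Fin n) F,
      Matrix.SpecialLinearGroup.toGL A ∈ Cfsg.Geo.similarityGroup f → A ∈ M)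
    (hex : ∃ A ∈ M, Matrix.SpecialLinearGroup.toGL A ∉ Cfsg.Geo.similarityGroup f) : M = ⊤ := by
  have hS : ∀ w c, st f w c ∈ M := fun w c => hP _ (st_mem hf w c)
  obtain ⟨g, hgM, hg⟩ := hex
  obtain ⟨w₀, hw₀⟩ : ∃ w₀ : Fin n → F, w₀ ≠ 0 :=
    ⟨Pi.single ⟨0, by omega⟩ 1, fun h => by
      have h1 := congrFun h ⟨0, by omega⟩
      simp at h1⟩
  obtain ⟨w, hw⟩ := exists_bad hf g hg w₀ hw₀
  have hw0 : w ≠ 0 := by
    rintro rfl
    obtain ⟨x, hx⟩ := hw 0
    apply hx
    rw [f_zero_right hf, zero_mul]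
  obtain ⟨u, hu⟩ : ∃ u, u = (g : Matrix (Fin n) (Fin n) F) *ᵥ w := ⟨_, rfl⟩
  have hu0 : u ≠ 0 := by
    rw [hu]
    exact sl_mulVec_ne_zero g w hw0
  obtain ⟨ψ, hψ⟩ : ∃ ψ, ψ = fv f w ᵥ* ((g⁻¹ : Matrix.SpecialLinearGroup (Fin n) F) :
      Matrix (Fin n) (Fin n) F) := ⟨_, rfl⟩
  have hDψ : Dp M u ψ := by
    rw [hu, hψ]
    exact Dp_conj M g hgM w (fv f w) (fv_self hf w) (hS w)
  have hψdot : ∀ y, ψ ⬝ᵥ y = f (((g⁻¹ : Matrix.SpecialLinearGroup (Fin n) F) :
      Matrix (Fin n) (Fin n) F) *ᵥ y) w := by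
    intro y
    rw [hψ, ← Matrix.dotProduct_mulVec, fv_dot hf]
  obtain ⟨z₀, hz₀⟩ := riesz hf ψ
  have hz₀u : f u z₀ = 0 := by
    rw [← fv_dot hf, hz₀, hψdot, hu, sl_inv_mulVec]
    exact hf.alternating w
  have hz₀ne : ∀ c : F, z₀ ≠ c • u := by
    intro c hc
    obtain ⟨x, hx⟩ := hw c
    apply hx
    have h1 := hψdot ((g : Matrix (Fin n) (Fin n) F) *ᵥ x)
    rw [sl_inv_mulVec, ← hz₀, hc, fv_smul hf, smul_dotProduct, fv_dot hf, smul_eq_mul, hu] at h1
    exact h1.symm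
  have hcen := all_center hf M hS u z₀ hu0 hz₀u hz₀ne (by rw [hz₀]; exact hDψ)
  have hall : ∀ x φ : Fin n → F, φ ⬝ᵥ x = 0 → Dp M x φ := by
    intro x φ hφ
    by_cases hx : x = 0
    · intro c
      have e : tv x φ c = 1 := by
        apply sl_ext
        intro v
        rw [tv_mulVec x φ hφ, hx, smul_zero, add_zero, Matrix.SpecialLinearGroup.coe_one,
          Matrix.one_mulVec]
      rw [e]
      exact M.one_mem
    · obtain ⟨A, hA, hAu⟩ := st_trans hf M hS u x hu0 hx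
      have h0 : (φ ᵥ* (A : Matrix (Fin n) (Fin n) F)) ⬝ᵥ u = 0 := by
        rw [← Matrix.dotProduct_mulVec, hAu]
        exact hφ
      have h1 := Dp_conj M A hA u (φ ᵥ* (A : Matrix (Fin n) (Fin n) F)) h0 (hcen _ h0)
      rw [hAu, Matrix.vecMul_vecMul, ← Matrix.SpecialLinearGroup.coe_mul, mul_inv_cancel,
        Matrix.SpecialLinearGroup.coe_one, Matrix.vecMul_one] at h1
      exact h1
  exact top_of_all_Dp hn M hall

theorem exists_nonsimil (hn : 3 ≤ n) (hf : Cfsg.Geo.IsSymplecticForm f) :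
    ∃ A : Matrix.SpecialLinearGroup (Fin n) F,
      Matrix.SpecialLinearGroup.toGL A ∉ Cfsg.Geo.similarityGroup f := by
  obtain ⟨u, hu⟩ : ∃ u : Fin n → F, u ≠ 0 :=
    ⟨Pi.single ⟨0, by omega⟩ 1, fun h => by
      have h1 := congrFun h ⟨0, by omega⟩
      simp at h1⟩
  obtain ⟨x₁, hx₁⟩ := (hf.nondegenerate u hu).2
  obtain ⟨v, hv⟩ : ∃ v : Fin n → F, v ∉ Submodule.span F ({u, x₁} : Set (Fin n → F)) := by
    by_contra hcon
    push Not at hcon
    have htop : Submodule.span F ({u, x₁} : Set (Fin n → F)) = ⊤ := by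
      rw [eq_top_iff]
      intro v _
      exact hcon v
    have h1 : Module.finrank F (Submodule.span F ({u, x₁} : Set (Fin n → F))) ≤ 2 := by
      classical
      have h2 := finrank_span_finset_le_card (R := F) ({u, x₁} : Finset (Fin n → F))
      rw [Finset.coe_insert, Finset.coe_singleton] at h2
      exact h2.trans Finset.card_le_two
    rw [htop, finrank_top, Module.finrank_fin_fun] at h1
    omega
  obtain ⟨z₀, hz₀def⟩ : ∃ z₀, z₀ = v - (f u v / f u x₁) • x₁ := ⟨_, rfl⟩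
  have hz₀u : f u z₀ = 0 := by
    have e : f u v / f u x₁ * f u x₁ = f u v := by field_simp
    rw [hz₀def, f_sub_right hf, hf.bilinear.smul_right, e, sub_self]
  have hz₀ne : ∀ c : F, z₀ ≠ c • u := by
    intro c hc
    apply hv
    rw [Submodule.mem_span_pair]
    refine ⟨c, f u v / f u x₁, ?_⟩
    rw [← hc, hz₀def]
    abel
  obtain ⟨y₁, hy₁u, hy₁z⟩ := sepf hf u z₀ hu hz₀ne
  have hφu : fv f z₀ ⬝ᵥ u = 0 := by
    rw [fv_dot hf]
    exact hz₀u
  refine ⟨tv u (fv f z₀) 1, fun hmem => ?_⟩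
  obtain ⟨c, hc⟩ := hmem
  have hA : ∀ x, (tv u (fv f z₀) (1 : F) : Matrix (Fin n) (Fin n) F) *ᵥ x
      = x + (f x z₀) • u := by
    intro x
    rw [tv_mulVec u _ hφu, fv_dot hf, one_mul]
  have h1 : f ((tv u (fv f z₀) (1 : F) : Matrix (Fin n) (Fin n) F) *ᵥ u)
      ((tv u (fv f z₀) (1 : F) : Matrix (Fin n) (Fin n) F) *ᵥ x₁) = (c : F) * f u x₁ := hc u x₁
  rw [hA, hA, hz₀u, zero_smul, add_zero, hf.bilinear.add_right, hf.bilinear.smul_right,
    hf.alternating, mul_zero, add_zero] at h1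
  have hc1 : (c : F) = 1 := by
    have h3 : ((c : F) - 1) * f u x₁ = 0 := by linear_combination -h1
    rcases mul_eq_zero.mp h3 with h | h
    · exact sub_eq_zero.mp h
    · exact absurd h hx₁
  have h2 : f ((tv u (fv f z₀) (1 : F) : Matrix (Fin n) (Fin n) F) *ᵥ x₁)
      ((tv u (fv f z₀) (1 : F) : Matrix (Fin n) (Fin n) F) *ᵥ y₁) = (c : F) * f x₁ y₁ := hc x₁ y₁
  rw [hA, hA, hc1, one_mul] at h2
  simp only [hf.bilinear.add_left, hf.bilinear.add_right, hf.bilinear.smul_left,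
    hf.bilinear.smul_right, hf.alternating, hy₁u, mul_zero, add_zero] at h2
  have h3 : f y₁ z₀ * f x₁ u = 0 := by linear_combination h2
  rw [hf.skew y₁ z₀, hf.skew x₁ u] at h3
  rcases mul_eq_zero.mp h3 with h | h
  · exact hy₁z (neg_eq_zero.mp h)
  · exact hx₁ (neg_eq_zero.mp h)

end form

/-- For a finite field F and n ≥ 13, let f be a non-degenerate symplectic form on F^n (so n is even). Then the elements of SL_n(F) that are similarities of f (f(gu, gv) = c f(u, v) for a non-zero scalar c depending on g) form a maximal subgroup of SL_n(F). -/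
theorem result {F : Type*} [Field F] [Fintype F] (n : ℕ) (hn : 13 ≤ n) (f : (Fin n → F) → (Fin n → F) → F) (hf : Cfsg.Geo.IsSymplecticForm f) : Cfsg.Geo.IsMaximalIn (Cfsg.Geo.specialLinear (Fin n) F) (Cfsg.Geo.similarityGroup f ⊓ Cfsg.Geo.specialLinear (Fin n) F) := by
  classical
  apply maximal_of_core_sl'
  · exact exists_nonsimil (by omega) hf
  · intro M hP hex
    exact core_simil (by omega) hf M hP hex

end Cfsg.Agent.S5642
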