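import Mathlib
import Cfsg.Statements.S5644
import Cfsg.Agent.Helper6.UnitMax
import Cfsg.Agent.S5642

set_option autoImplicit false
open Cfsg

namespace Cfsg.Agent.S5644

open Matrix Cfsg.Agent.S5043 Cfsg.Agent.S5631 Cfsg.Agent.Helper6

section qgeo

variable {F : Type*} [Field F] [Fintype F] {n : ℕ} {Q : (Fin n → F) → F}

/-- the polar form of `Q` -/
def bq (Q : (Fin n → F) → F) (x y : Fin n → F) : F := QuadraticMap.polar Q x y

omit [Fintype F] in
theorem bq_add_left (hQ : Cfsg.Geo.IsNondegenerateQuadraticForm Q) (x y v : Fin n → F) :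
    bq Q (x + y) v = bq Q x v + bq Q y v := hQ.polar_bilinear.add_left x y v

omit [Fintype F] in
theorem bq_smul_left (hQ : Cfsg.Geo.IsNondegenerateQuadraticForm Q) (c : F) (x v : Fin n → F) :
    bq Q (c • x) v = c * bq Q x v := hQ.polar_bilinear.smul_left c x v

omit [Fintype F] in
theorem bq_add_right (hQ : Cfsg.Geo.IsNondegenerateQuadraticForm Q) (v x y : Fin n → F) :
    bq Q v (x + y) = bq Q v x + bq Q v y := hQ.polar_bilinear.add_right v x y

omit [Fintype F] in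
theorem bq_smul_right (hQ : Cfsg.Geo.IsNondegenerateQuadraticForm Q) (c : F) (v x : Fin n → F) :
    bq Q v (c • x) = c * bq Q v x := hQ.polar_bilinear.smul_right c v x

omit [Fintype F] in
theorem bq_comm (x y : Fin n → F) : bq Q x y = bq Q y x := by
  unfold bq QuadraticMap.polar
  rw [add_comm x y]
  ring

omit [Fintype F] in
theorem q_add (Q : (Fin n → F) → F) (x y : Fin n → F) : Q (x + y) = Q x + Q y + bq Q x y := by
  unfold bq QuadraticMap.polar
  ring

omit [Fintype F] in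
theorem q_zero (hQ : Cfsg.Geo.IsNondegenerateQuadraticForm Q) : Q 0 = 0 := by
  have h := hQ.smul 0 0
  rw [zero_smul] at h
  rw [h]
  ring

omit [Fintype F] in
theorem bq_zero_left (hQ : Cfsg.Geo.IsNondegenerateQuadraticForm Q) (v : Fin n → F) :
    bq Q 0 v = 0 := by
  have h := bq_smul_left hQ 0 0 v
  rw [zero_smul, zero_mul] at h
  exact h

omit [Fintype F] in
theorem bq_zero_right (hQ : Cfsg.Geo.IsNondegenerateQuadraticForm Q) (v : Fin n → F) :
    bq Q v 0 = 0 := by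
  rw [bq_comm, bq_zero_left hQ]

omit [Fintype F] in
theorem bq_neg_left (hQ : Cfsg.Geo.IsNondegenerateQuadraticForm Q) (x v : Fin n → F) :
    bq Q (-x) v = -bq Q x v := by
  have h := bq_smul_left hQ (-1) x v
  rw [neg_one_smul, neg_one_mul] at h
  exact h

omit [Fintype F] in
theorem bq_neg_right (hQ : Cfsg.Geo.IsNondegenerateQuadraticForm Q) (v x : Fin n → F) :
    bq Q v (-x) = -bq Q v x := by
  rw [bq_comm, bq_neg_left hQ, bq_comm]

omit [Fintype F] in
theorem bq_sub_left (hQ : Cfsg.Geo.IsNondegenerateQuadraticForm Q) (x y v : Fin n → F) :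
    bq Q (x - y) v = bq Q x v - bq Q y v := by
  rw [sub_eq_add_neg, bq_add_left hQ, bq_neg_left hQ, sub_eq_add_neg]

omit [Fintype F] in
theorem bq_sub_right (hQ : Cfsg.Geo.IsNondegenerateQuadraticForm Q) (v x y : Fin n → F) :
    bq Q v (x - y) = bq Q v x - bq Q v y := by
  rw [sub_eq_add_neg, bq_add_right hQ, bq_neg_right hQ, sub_eq_add_neg]

omit [Fintype F] in
theorem bq_self (hQ : Cfsg.Geo.IsNondegenerateQuadraticForm Q) (x : Fin n → F) :
    bq Q x x = 2 * Q x := by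
  have h1 : x + x = (2 : F) • x := by rw [two_smul]
  have h2 := q_add Q x x
  rw [h1, hQ.smul] at h2
  linear_combination -h2

omit [Fintype F] in
theorem q_neg (hQ : Cfsg.Geo.IsNondegenerateQuadraticForm Q) (x : Fin n → F) : Q (-x) = Q x := by
  have h := hQ.smul (-1) x
  rw [neg_one_smul] at h
  rw [h]
  ring

omit [Fintype F] in
theorem q_sub (hQ : Cfsg.Geo.IsNondegenerateQuadraticForm Q) (x y : Fin n → F) :
    Q (x - y) = Q x + Q y - bq Q x y := by
  rw [sub_eq_add_neg, q_add Q, q_neg hQ, bq_neg_right hQ]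
  ring

omit [Fintype F] in
theorem bq_nondeg (hQ : Cfsg.Geo.IsNondegenerateQuadraticForm Q) (y : Fin n → F)
    (h : ∀ v, bq Q v y = 0) : y = 0 := by
  by_contra hy
  obtain ⟨x, hx⟩ := (hQ.nondegenerate y hy).1
  exact hx (h x)

/-- the linear functional `x ↦ B(x, v)` -/
def bL (hQ : Cfsg.Geo.IsNondegenerateQuadraticForm Q) (v : Fin n → F) : (Fin n → F) →ₗ[F] F where
  toFun x := bq Q x v
  map_add' x y := bq_add_left hQ x y v
  map_smul' c x := by
    rw [bq_smul_left hQ]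
    rfl

omit [Fintype F] in
theorem bL_apply (hQ : Cfsg.Geo.IsNondegenerateQuadraticForm Q) (v x : Fin n → F) :
    bL hQ v x = bq Q x v := rfl

/-- the part of `K` orthogonal to `v` -/
def qcut (hQ : Cfsg.Geo.IsNondegenerateQuadraticForm Q) (K : Submodule F (Fin n → F))
    (v : Fin n → F) : Submodule F (Fin n → F) := K ⊓ LinearMap.ker (bL hQ v)

omit [Fintype F] in
theorem mem_qcut (hQ : Cfsg.Geo.IsNondegenerateQuadraticForm Q) (K : Submodule F (Fin n → F))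
    (v a : Fin n → F) : a ∈ qcut hQ K v ↔ a ∈ K ∧ bq Q a v = 0 := by
  unfold qcut
  rw [Submodule.mem_inf, LinearMap.mem_ker]
  exact Iff.rfl

theorem qcut_finrank (hQ : Cfsg.Geo.IsNondegenerateQuadraticForm Q)
    (K : Submodule F (Fin n → F)) (v : Fin n → F) :
    Module.finrank F K ≤ Module.finrank F (qcut hQ K v) + 1 :=
  cutf_finrank K (bL hQ v)

omit [Fintype F] in
theorem exists_pair1 (hQ : Cfsg.Geo.IsNondegenerateQuadraticForm Q) (x : Fin n → F)
    (hx : x ≠ 0) : ∃ y, bq Q y x = 1 := by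
  obtain ⟨y, hy⟩ := (hQ.nondegenerate x hx).1
  have hy' : bq Q y x ≠ 0 := hy
  exact ⟨(bq Q y x)⁻¹ • y, by rw [bq_smul_left hQ, inv_mul_cancel₀ hy']⟩

omit [Fintype F] in
theorem two_vals (hQ : Cfsg.Geo.IsNondegenerateQuadraticForm Q) (x s : Fin n → F)
    (hx0 : x ≠ 0) (hind : ∀ c : F, s ≠ c • x) (p r : F) :
    ∃ y, bq Q y x = p ∧ bq Q y s = r := by
  obtain ⟨y₀, hy₀⟩ := exists_pair1 hQ x hx0
  obtain ⟨y₁, hy₁x, hy₁s⟩ : ∃ y₁, bq Q y₁ x = 0 ∧ bq Q y₁ s = 1 := by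
    by_contra hcon
    push Not at hcon
    have hall : ∀ y, bq Q y x = 0 → bq Q y s = 0 := by
      intro y hy
      by_contra hne
      apply hcon ((bq Q y s)⁻¹ • y)
      · rw [bq_smul_left hQ, hy, mul_zero]
      · rw [bq_smul_left hQ, inv_mul_cancel₀ hne]
    apply hind (bq Q y₀ s)
    have h0 : ∀ v, bq Q v (s - bq Q y₀ s • x) = 0 := by
      intro v
      have h1 := hall (v - bq Q v x • y₀) (by
        rw [bq_sub_left hQ, bq_smul_left hQ, hy₀, mul_one, sub_self])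
      rw [bq_sub_left hQ, bq_smul_left hQ] at h1
      rw [bq_sub_right hQ, bq_smul_right hQ]
      linear_combination h1
    exact sub_eq_zero.mp (bq_nondeg hQ _ h0)
  refine ⟨p • (y₀ - bq Q y₀ s • y₁) + r • y₁, ?_, ?_⟩
  · simp only [bq_add_left hQ, bq_smul_left hQ, bq_sub_left hQ, hy₀, hy₁x]
    ring
  · simp only [bq_add_left hQ, bq_smul_left hQ, bq_sub_left hQ, hy₁s]
    ring

omit [Fintype F] in
theorem three_vals (hQ : Cfsg.Geo.IsNondegenerateQuadraticForm Q) (x₁ x₂ x₃ : Fin n → F)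
    (h1 : x₁ ≠ 0) (h2 : ∀ c : F, x₂ ≠ c • x₁) (h3 : ∀ α β : F, x₃ ≠ α • x₁ + β • x₂) :
    ∃ y, bq Q y x₁ = 0 ∧ bq Q y x₂ = 0 ∧ bq Q y x₃ = 1 := by
  obtain ⟨y₁, h11, h12⟩ := two_vals hQ x₁ x₂ h1 h2 1 0
  obtain ⟨y₂, h21, h22⟩ := two_vals hQ x₁ x₂ h1 h2 0 1
  by_contra hcon
  push Not at hcon
  have hall : ∀ y, bq Q y x₁ = 0 → bq Q y x₂ = 0 → bq Q y x₃ = 0 := by
    intro y hy1 hy2
    by_contra hne
    apply hcon ((bq Q y x₃)⁻¹ • y)
    · rw [bq_smul_left hQ, hy1, mul_zero]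
    · rw [bq_smul_left hQ, hy2, mul_zero]
    · rw [bq_smul_left hQ, inv_mul_cancel₀ hne]
  apply h3 (bq Q y₁ x₃) (bq Q y₂ x₃)
  have h0 : ∀ v, bq Q v (x₃ - (bq Q y₁ x₃ • x₁ + bq Q y₂ x₃ • x₂)) = 0 := by
    intro v
    have e := hall (v - bq Q v x₁ • y₁ - bq Q v x₂ • y₂)
      (by simp only [bq_sub_left hQ, bq_smul_left hQ, h11, h21]; ring)
      (by simp only [bq_sub_left hQ, bq_smul_left hQ, h12, h22]; ring)
    simp only [bq_sub_left hQ, bq_smul_left hQ] at e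
    simp only [bq_sub_right hQ, bq_add_right hQ, bq_smul_right hQ]
    linear_combination e
  exact sub_eq_zero.mp (bq_nondeg hQ _ h0)

/-- a subspace of more than half the dimension contains a non-singular vector -/
theorem exists_nonsing (hQ : Cfsg.Geo.IsNondegenerateQuadraticForm Q)
    (K : Submodule F (Fin n → F)) (hK : n < 2 * Module.finrank F K) :
    ∃ t ∈ K, Q t ≠ 0 := by
  classical
  by_contra hcon
  push Not at hcon
  have hti : ∀ x ∈ K, ∀ y ∈ K, bq Q x y = 0 := by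
    intro x hx y hy
    have h1 := hcon (x + y) (K.add_mem hx hy)
    rw [q_add Q, hcon x hx, hcon y hy, zero_add, zero_add] at h1
    exact h1
  obtain ⟨m, hm⟩ : ∃ m, m = Module.finrank F K := ⟨_, rfl⟩
  have b : Module.Basis (Fin m) F K := Module.finBasisOfFinrankEq F K hm.symm
  obtain ⟨T, hT⟩ : ∃ T : (Fin n → F) →ₗ[F] (Fin m → F),
      ∀ x j, T x j = bq Q x (b j : Fin n → F) :=
    ⟨LinearMap.pi (fun j => bL hQ (b j : Fin n → F)), fun x j => rfl⟩
  have hker : K ≤ LinearMap.ker T := by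
    intro x hx
    rw [LinearMap.mem_ker]
    funext j
    rw [hT]
    exact hti x hx _ (b j).2
  have hsurj : LinearMap.range T = ⊤ := by
    by_contra hne
    obtain ⟨f, hf0, hfle⟩ := Submodule.exists_le_ker_of_lt_top _ (lt_top_iff_ne_top.mpr hne)
    have h1 : ∀ x, f (T x) = 0 := fun x =>
      LinearMap.mem_ker.mp (hfle (LinearMap.mem_range_self T x))
    obtain ⟨cf, hcf⟩ : ∃ cf : Fin m → F, ∀ j, cf j = f (fun k => if j = k then 1 else 0) :=
      ⟨_, fun j => rfl⟩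
    have h2 : ∀ v : Fin m → F, f v = ∑ j, v j * cf j := by
      intro v
      rw [LinearMap.pi_apply_eq_sum_univ f v]
      refine Finset.sum_congr rfl (fun j _ => ?_)
      rw [smul_eq_mul, hcf]
    obtain ⟨w, hw⟩ : ∃ w : K, w = ∑ j, cf j • b j := ⟨_, rfl⟩
    have h3 : ∀ x, bq Q (w : Fin n → F) x = 0 := by
      intro x
      have e0 : (w : Fin n → F) = ∑ j, cf j • (b j : Fin n → F) := by
        rw [hw]
        simp
      have e1 : bq Q (w : Fin n → F) x = ∑ j, cf j * bq Q (b j : Fin n → F) x := by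
        rw [e0, ← bL_apply hQ, map_sum]
        simp only [map_smul, bL_apply, smul_eq_mul]
      rw [e1]
      have e2 : ∑ j, cf j * bq Q (b j : Fin n → F) x = f (T x) := by
        rw [h2]
        refine Finset.sum_congr rfl (fun j _ => ?_)
        rw [hT, bq_comm, mul_comm]
      rw [e2, h1]
    have hw0 : (w : Fin n → F) = 0 := bq_nondeg hQ _ (fun v => by rw [bq_comm]; exact h3 v)
    have hw0' : w = 0 := Subtype.ext hw0
    rw [hw] at hw0'
    have h4 := Fintype.linearIndependent_iff.mp b.linearIndependent _ hw0'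
    apply hf0
    apply LinearMap.ext
    intro v
    rw [h2, LinearMap.zero_apply]
    apply Finset.sum_eq_zero
    intro j _
    rw [h4 j, mul_zero]
  have h5 := LinearMap.finrank_range_add_finrank_ker T
  rw [hsurj, finrank_top, Module.finrank_fin_fun, Module.finrank_fin_fun] at h5
  have h6 := Submodule.finrank_mono hker
  omega

theorem exists_sq_sum (hodd : Odd (Fintype.card F)) (a b r : F) (ha : a ≠ 0) (hb : b ≠ 0) :
    ∃ x y : F, a * x ^ 2 + b * y ^ 2 = r := by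
  classical
  have hf : (Polynomial.C a * Polynomial.X ^ 2 : Polynomial F).degree = 2 := by
    rw [Polynomial.degree_C_mul_X_pow 2 ha]
    rfl
  have hg : (Polynomial.C b * Polynomial.X ^ 2 - Polynomial.C r : Polynomial F).degree = 2 := by
    have hb2 : (Polynomial.C b * Polynomial.X ^ 2 : Polynomial F).degree = 2 := by
      rw [Polynomial.degree_C_mul_X_pow 2 hb]
      rfl
    rw [Polynomial.degree_sub_eq_left_of_degree_lt, hb2]
    rw [hb2]
    exact lt_of_le_of_lt Polynomial.degree_C_le (by norm_num)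
  obtain ⟨x, y, hxy⟩ := FiniteField.exists_root_sum_quadratic hf hg (Nat.odd_iff.mp hodd)
  refine ⟨x, y, ?_⟩
  simp only [Polynomial.eval_mul, Polynomial.eval_C, Polynomial.eval_pow, Polynomial.eval_X,
    Polynomial.eval_sub] at hxy
  linear_combination hxy

/-- every value of `Q` is taken on a large subspace -/
theorem exists_val (hodd : Odd (Fintype.card F)) (hQ : Cfsg.Geo.IsNondegenerateQuadraticForm Q)
    (K : Submodule F (Fin n → F)) (hK : n + 2 < 2 * Module.finrank F K) (r : F) :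
    ∃ t ∈ K, Q t = r := by
  obtain ⟨t₁, ht₁, hN₁⟩ := exists_nonsing hQ K (by omega)
  have hc := qcut_finrank hQ K t₁
  obtain ⟨t₂, ht₂, hN₂⟩ := exists_nonsing hQ (qcut hQ K t₁) (by omega)
  rw [mem_qcut] at ht₂
  obtain ⟨x, y, hxy⟩ := exists_sq_sum hodd (Q t₁) (Q t₂) r hN₁ hN₂
  refine ⟨x • t₁ + y • t₂, K.add_mem (K.smul_mem _ ht₁) (K.smul_mem _ ht₂.1), ?_⟩
  rw [q_add Q, hQ.smul, hQ.smul, bq_smul_left hQ, bq_smul_right hQ, bq_comm t₁ t₂, ht₂.2]
  linear_combination hxy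

/-- a subspace of dimension at least three contains a non-zero singular vector -/
theorem exists_sing (hodd : Odd (Fintype.card F)) (h2 : (2 : F) ≠ 0)
    (hQ : Cfsg.Geo.IsNondegenerateQuadraticForm Q)
    (K : Submodule F (Fin n → F)) (hK : 3 ≤ Module.finrank F K) :
    ∃ t ∈ K, t ≠ 0 ∧ Q t = 0 := by
  by_cases h1 : ∀ t ∈ K, Q t = 0
  · obtain ⟨a, ha, ha0⟩ := exists_ne_zero' K (by omega)
    exact ⟨a, ha, ha0, h1 a ha⟩
  · push Not at h1
    obtain ⟨t₁, ht₁, hN₁⟩ := h1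
    have hc1 := qcut_finrank hQ K t₁
    by_cases h2' : ∀ t ∈ qcut hQ K t₁, Q t = 0
    · obtain ⟨a, ha, ha0⟩ := exists_ne_zero' (qcut hQ K t₁) (by omega)
      exact ⟨a, ((mem_qcut hQ K t₁ a).mp ha).1, ha0, h2' a ha⟩
    · push Not at h2'
      obtain ⟨t₂, ht₂, hN₂⟩ := h2'
      have hc2 := qcut_finrank hQ (qcut hQ K t₁) t₂
      obtain ⟨t₃, ht₃, ht₃0⟩ := exists_ne_zero' (qcut hQ (qcut hQ K t₁) t₂) (by omega)
      rw [mem_qcut, mem_qcut] at ht₃
      rw [mem_qcut] at ht₂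
      obtain ⟨⟨ht₃K, h31⟩, h32⟩ := ht₃
      obtain ⟨ht₂K, h21⟩ := ht₂
      by_cases h3 : Q t₃ = 0
      · exact ⟨t₃, ht₃K, ht₃0, h3⟩
      · obtain ⟨x, y, hxy⟩ := exists_sq_sum hodd (Q t₁) (Q t₂) (-(Q t₃)) hN₁ hN₂
        refine ⟨x • t₁ + y • t₂ + t₃,
          K.add_mem (K.add_mem (K.smul_mem _ ht₁) (K.smul_mem _ ht₂K)) ht₃K, ?_, ?_⟩
        · intro h0
          have e : bq Q (x • t₁ + y • t₂ + t₃) t₃ = 0 := by rw [h0, bq_zero_left hQ]
          rw [bq_add_left hQ, bq_add_left hQ, bq_smul_left hQ, bq_smul_left hQ, bq_comm t₁ t₃,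
            bq_comm t₂ t₃, h31, h32, bq_self hQ, mul_zero, mul_zero, zero_add, zero_add] at e
          rcases mul_eq_zero.mp e with h | h
          · exact h2 h
          · exact h3 h
        · rw [q_add Q, q_add Q, hQ.smul, hQ.smul, bq_add_left hQ, bq_smul_left hQ, bq_smul_left hQ,
            bq_smul_left hQ, bq_smul_right hQ, bq_comm t₁ t₂, h21, bq_comm t₁ t₃, h31,
            bq_comm t₂ t₃, h32]
          linear_combination hxy

omit [Fintype F] in
theorem exists_partner_q (hQ : Cfsg.Geo.IsNondegenerateQuadraticForm Q) (y : Fin n → F)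
    (hy0 : y ≠ 0) (hy : Q y = 0) : ∃ p, Q p = 0 ∧ bq Q p y = 1 := by
  obtain ⟨p₀, hp₀⟩ := exists_pair1 hQ y hy0
  refine ⟨p₀ - Q p₀ • y, ?_, ?_⟩
  · rw [q_sub hQ, hQ.smul, hy, bq_smul_right hQ, hp₀]
    ring
  · rw [bq_sub_left hQ, bq_smul_left hQ, bq_self hQ, hy, hp₀]
    ring

/-- a singular vector orthogonal to `z` pairing to `1` with an independent vector `u` -/
theorem exists_sing_perp (hodd : Odd (Fintype.card F))
    (hQ : Cfsg.Geo.IsNondegenerateQuadraticForm Q) (hn : 9 ≤ n)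
    (z u : Fin n → F) (hz : z ≠ 0) (hind : ∀ c : F, u ≠ c • z) :
    ∃ y, Q y = 0 ∧ bq Q y z = 0 ∧ bq Q y u = 1 := by
  obtain ⟨y₀, h1, h2⟩ := two_vals hQ z u hz hind 0 1
  have c1 := qcut_finrank hQ (⊤ : Submodule F (Fin n → F)) z
  have c2 := qcut_finrank hQ (qcut hQ ⊤ z) u
  have c3 := qcut_finrank hQ (qcut hQ (qcut hQ ⊤ z) u) y₀
  rw [finrank_top, Module.finrank_fin_fun] at c1
  obtain ⟨t, ht, hQt⟩ := exists_val hodd hQ (qcut hQ (qcut hQ (qcut hQ ⊤ z) u) y₀) (by omega)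
    (-(Q y₀))
  rw [mem_qcut, mem_qcut, mem_qcut] at ht
  obtain ⟨⟨⟨-, k1⟩, k2⟩, k3⟩ := ht
  refine ⟨y₀ + t, ?_, ?_, ?_⟩
  · rw [q_add Q, hQt, bq_comm, k3]
    ring
  · rw [bq_add_left hQ, h1, k1, add_zero]
  · rw [bq_add_left hQ, h2, k2, add_zero]

/-- a vector of prescribed value of `Q` orthogonal to two given vectors -/
theorem exists_perp2 (hodd : Odd (Fintype.card F))
    (hQ : Cfsg.Geo.IsNondegenerateQuadraticForm Q) (hn : 9 ≤ n)
    (a₁ a₂ : Fin n → F) (r : F) :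
    ∃ t, bq Q t a₁ = 0 ∧ bq Q t a₂ = 0 ∧ Q t = r := by
  have c1 := qcut_finrank hQ (⊤ : Submodule F (Fin n → F)) a₁
  have c2 := qcut_finrank hQ (qcut hQ ⊤ a₁) a₂
  rw [finrank_top, Module.finrank_fin_fun] at c1
  obtain ⟨t, ht, hQt⟩ := exists_val hodd hQ (qcut hQ (qcut hQ ⊤ a₁) a₂) (by omega) r
  rw [mem_qcut, mem_qcut] at ht
  exact ⟨t, ht.1.2, ht.2, hQt⟩

/-- the coordinate vector of the functional `x ↦ B(x, z)` -/
def bv (Q : (Fin n → F) → F) (z : Fin n → F) : Fin n → F :=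
  fun i => bq Q (fun j => if i = j then 1 else 0) z

omit [Fintype F] in
theorem bv_dot (hQ : Cfsg.Geo.IsNondegenerateQuadraticForm Q) (z x : Fin n → F) :
    bv Q z ⬝ᵥ x = bq Q x z := by
  have h := LinearMap.pi_apply_eq_sum_univ (bL hQ z) x
  rw [bL_apply] at h
  rw [h]
  unfold bv dotProduct
  refine Finset.sum_congr rfl (fun i _ => ?_)
  rw [smul_eq_mul, bL_apply, mul_comm]

/-- every linear functional is `B(·, z)` -/
theorem riesz_q (hQ : Cfsg.Geo.IsNondegenerateQuadraticForm Q) (ψ : Fin n → F) :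
    ∃ z, ∀ x, ψ ⬝ᵥ x = bq Q x z := by
  obtain ⟨R, hR⟩ : ∃ R : (Fin n → F) →ₗ[F] (Fin n → F), ∀ z, R z = bv Q z :=
    ⟨{ toFun := fun z => bv Q z
       map_add' := fun z z' => by
         funext i
         unfold bv
         rw [Pi.add_apply, bq_add_right hQ]
       map_smul' := fun c z => by
         funext i
         unfold bv
         rw [Pi.smul_apply, bq_smul_right hQ]
         rfl }, fun z => rfl⟩
  have hinj : Function.Injective R := by
    rw [← LinearMap.ker_eq_bot, LinearMap.ker_eq_bot']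
    intro z hz
    apply bq_nondeg hQ
    intro v
    rw [← bv_dot hQ, ← hR, hz, zero_dotProduct]
  obtain ⟨z, hz⟩ := (LinearMap.injective_iff_surjective.mp hinj) ψ
  exact ⟨z, fun x => by rw [← hz, hR, bv_dot hQ]⟩

theorem exists_adj_q (hQ : Cfsg.Geo.IsNondegenerateQuadraticForm Q)
    (A : Matrix (Fin n) (Fin n) F) (w : Fin n → F) :
    ∃ z, ∀ x, bq Q x z = bq Q (A *ᵥ x) w := by
  obtain ⟨z, hz⟩ := riesz_q hQ (bv Q w ᵥ* A)
  exact ⟨z, fun x => by rw [← hz, ← Matrix.dotProduct_mulVec, bv_dot hQ]⟩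

end qgeo

section qcore

variable {F : Type*} [Field F] [Fintype F] {n : ℕ} {Q : (Fin n → F) → F}

/-- `A` acts as `x ↦ x + c B(x,z) u` -/
def IsTb (Q : (Fin n → F) → F) (A : Matrix.SpecialLinearGroup (Fin n) F) (u z : Fin n → F)
    (c : F) : Prop :=
  ∀ x, (A : Matrix (Fin n) (Fin n) F) *ᵥ x = x + (c * bq Q x z) • u

omit [Fintype F] in
theorem exists_tb (hQ : Cfsg.Geo.IsNondegenerateQuadraticForm Q) (u z : Fin n → F) (c : F)
    (huz : bq Q u z = 0) : ∃ A, IsTb Q A u z c :=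
  ⟨tv u (bv Q z) c, fun x => by rw [tv_mulVec u _ (by rw [bv_dot hQ]; exact huz), bv_dot hQ]⟩

omit [Fintype F] in
theorem isTb_zero (A : Matrix.SpecialLinearGroup (Fin n) F) (z : Fin n → F) (c : F)
    (hA : IsTb Q A 0 z c) : A = 1 := by
  apply sl_ext
  intro x
  rw [hA x, smul_zero, add_zero, Matrix.SpecialLinearGroup.coe_one, Matrix.one_mulVec]

def DQ (Q : (Fin n → F) → F) (M : Subgroup (Matrix.SpecialLinearGroup (Fin n) F))
    (u z : Fin n → F) : Prop :=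
  ∀ c A, IsTb Q A u z c → A ∈ M

omit [Fintype F] in
theorem dq_add_left (hQ : Cfsg.Geo.IsNondegenerateQuadraticForm Q)
    (M : Subgroup (Matrix.SpecialLinearGroup (Fin n) F))
    (x₁ x₂ z : Fin n → F) (h1 : bq Q x₁ z = 0) (h2 : bq Q x₂ z = 0)
    (d1 : DQ Q M x₁ z) (d2 : DQ Q M x₂ z) : DQ Q M (x₁ + x₂) z := by
  intro c C hC
  obtain ⟨A, hA⟩ := exists_tb hQ x₁ z c h1
  obtain ⟨B, hB⟩ := exists_tb hQ x₂ z c h2
  have e : C = A * B := by
    apply sl_ext
    intro x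
    rw [hC x, Matrix.SpecialLinearGroup.coe_mul, ← Matrix.mulVec_mulVec, hB x, hA]
    simp only [bq_add_left hQ, bq_smul_left hQ, h2]
    module
  rw [e]
  exact M.mul_mem (d1 c A hA) (d2 c B hB)

omit [Fintype F] in
theorem dq_add_right (hQ : Cfsg.Geo.IsNondegenerateQuadraticForm Q)
    (M : Subgroup (Matrix.SpecialLinearGroup (Fin n) F))
    (y z₁ z₂ : Fin n → F) (h1 : bq Q y z₁ = 0) (h2 : bq Q y z₂ = 0)
    (d1 : DQ Q M y z₁) (d2 : DQ Q M y z₂) : DQ Q M y (z₁ + z₂) := by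
  intro c C hC
  obtain ⟨A, hA⟩ := exists_tb hQ y z₁ c h1
  obtain ⟨B, hB⟩ := exists_tb hQ y z₂ c h2
  have e : C = A * B := by
    apply sl_ext
    intro x
    rw [hC x, Matrix.SpecialLinearGroup.coe_mul, ← Matrix.mulVec_mulVec, hB x, hA]
    simp only [bq_add_left hQ, bq_add_right hQ, bq_smul_left hQ, h1]
    module
  rw [e]
  exact M.mul_mem (d1 c A hA) (d2 c B hB)

omit [Fintype F] in
theorem dq_smul_left (M : Subgroup (Matrix.SpecialLinearGroup (Fin n) F))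
    (x z : Fin n → F) (a : F) (d1 : DQ Q M x z) : DQ Q M (a • x) z := by
  intro c C hC
  apply d1 (c * a) C
  intro v
  rw [hC v, smul_smul]
  congr 2
  ring

/-- the commutator of two transvections -/
theorem comm_tb (hQ : Cfsg.Geo.IsNondegenerateQuadraticForm Q)
    (X T X' T' A : Matrix.SpecialLinearGroup (Fin n) F) (u z y y' : Fin n → F)
    (e d : F) (huz : bq Q u z = 0) (hyy' : bq Q y y' = 0) (hyz : bq Q y z = 0)
    (hX : IsTb Q X u z e) (hX' : IsTb Q X' u z (-e)) (hT : IsTb Q T y y' d)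
    (hT' : IsTb Q T' y y' (-d))
    (hA : IsTb Q A y z (-(d * e * bq Q u y'))) : A = X * T * X' * T' := by
  apply sl_ext
  intro x
  rw [hA x, Matrix.SpecialLinearGroup.coe_mul, Matrix.SpecialLinearGroup.coe_mul,
    Matrix.SpecialLinearGroup.coe_mul, ← Matrix.mulVec_mulVec, ← Matrix.mulVec_mulVec,
    ← Matrix.mulVec_mulVec, hT' x, hX', hT, hX]
  simp only [bq_add_left hQ, bq_smul_left hQ, huz, hyy', hyz]
  module

/-- transvections in the `SL₂` of a hyperbolic pair -/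
theorem sl2_tb (hQ : Cfsg.Geo.IsNondegenerateQuadraticForm Q)
    (X T X' A : Matrix.SpecialLinearGroup (Fin n) F)
    (y p : Fin n → F) (c e : F) (hp : bq Q p p = 0)
    (hyp : bq Q y p = 1) (hpy : bq Q p y = 1)
    (hX : IsTb Q X p p c) (hX' : IsTb Q X' p p (-c)) (hT : IsTb Q T y y e)
    (hA : IsTb Q A (y + c • p) (y - c • p) e) : A = X * T * X' := by
  apply sl_ext
  intro x
  rw [hA x, Matrix.SpecialLinearGroup.coe_mul, Matrix.SpecialLinearGroup.coe_mul,
    ← Matrix.mulVec_mulVec, ← Matrix.mulVec_mulVec, hX' x, hT, hX]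
  simp only [bq_add_left hQ, bq_sub_right hQ, bq_smul_left hQ, bq_smul_right hQ, hp, hyp, hpy]
  module

/-- `E` acts as the Siegel element `x ↦ x + μ (B(x,b) a - B(x,a) b)` -/
def IsSq (Q : (Fin n → F) → F) (E : Matrix.SpecialLinearGroup (Fin n) F) (a b : Fin n → F)
    (μ : F) : Prop :=
  ∀ x, (E : Matrix (Fin n) (Fin n) F) *ᵥ x = x + (μ * bq Q x b) • a - (μ * bq Q x a) • b

/-- Siegel elements exist and are isometries -/
theorem exists_sq (hQ : Cfsg.Geo.IsNondegenerateQuadraticForm Q) (a b : Fin n → F) (μ : F)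
    (ha : Q a = 0) (hb : Q b = 0) (hab : bq Q a b = 0) :
    ∃ E, IsSq Q E a b μ ∧
      Matrix.SpecialLinearGroup.toGL E ∈ Cfsg.Geo.quadSimilarityGroup Q := by
  have hba : bq Q b a = 0 := by rw [bq_comm]; exact hab
  have haa : bq Q a a = 0 := by rw [bq_self hQ, ha, mul_zero]
  have hbb : bq Q b b = 0 := by rw [bq_self hQ, hb, mul_zero]
  obtain ⟨A₁, h1⟩ := exists_tb hQ a b μ hab
  obtain ⟨A₂, h2⟩ := exists_tb hQ b a (-μ) hba
  have hE : IsSq Q (A₁ * A₂) a b μ := by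
    intro x
    rw [Matrix.SpecialLinearGroup.coe_mul, ← Matrix.mulVec_mulVec, h2 x, h1]
    simp only [bq_add_left hQ, bq_smul_left hQ, hbb]
    module
  refine ⟨A₁ * A₂, hE, 1, fun v => ?_⟩
  have e : ((Matrix.SpecialLinearGroup.toGL (A₁ * A₂) : GL (Fin n) F) :
      Matrix (Fin n) (Fin n) F) *ᵥ v = v + (μ * bq Q v b) • a - (μ * bq Q v a) • b := hE v
  rw [e, Units.val_one, one_mul, q_sub hQ, q_add Q, hQ.smul, hQ.smul, ha, hb]
  simp only [bq_add_left hQ, bq_smul_left hQ, bq_smul_right hQ, bq_add_right hQ, hab, hba, haa,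
    hbb]
  ring

/-- a non-similarity has a singular vector at which it is not "locally a similarity" -/
theorem exists_bad_q (hodd : Odd (Fintype.card F)) (h2 : (2 : F) ≠ 0)
    (hQ : Cfsg.Geo.IsNondegenerateQuadraticForm Q) (hn : 9 ≤ n)
    (g : Matrix.SpecialLinearGroup (Fin n) F)
    (hg : Matrix.SpecialLinearGroup.toGL g ∉ Cfsg.Geo.quadSimilarityGroup Q) :
    ∃ w, w ≠ 0 ∧ Q w = 0 ∧ ∀ κ : F,
      ∃ x, bq Q x w ≠ κ * bq Q ((g : Matrix (Fin n) (Fin n) F) *ᵥ x)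
          ((g : Matrix (Fin n) (Fin n) F) *ᵥ w) := by
  by_contra hcon
  push Not at hcon
  obtain ⟨w₁, -, hw₁0, hw₁⟩ := exists_sing hodd h2 hQ (⊤ : Submodule F (Fin n → F))
    (by rw [finrank_top, Module.finrank_fin_fun]; omega)
  obtain ⟨κ₁, hk₁⟩ := hcon w₁ hw₁0 hw₁
  have same : ∀ (w w' : Fin n → F) (κ κ' : F), bq Q w' w ≠ 0 →
      (∀ x, bq Q x w = κ * bq Q ((g : Matrix (Fin n) (Fin n) F) *ᵥ x)
        ((g : Matrix (Fin n) (Fin n) F) *ᵥ w)) →
      (∀ x, bq Q x w' = κ' * bq Q ((g : Matrix (Fin n) (Fin n) F) *ᵥ x)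
        ((g : Matrix (Fin n) (Fin n) F) *ᵥ w')) →
      κ = κ' := by
    intro w w' κ κ' hne h1 h2
    have e1 := h1 w'
    have e2 := h2 w
    rw [bq_comm w w', bq_comm ((g : Matrix (Fin n) (Fin n) F) *ᵥ w)] at e2
    have e4 : (κ - κ') * bq Q ((g : Matrix (Fin n) (Fin n) F) *ᵥ w')
        ((g : Matrix (Fin n) (Fin n) F) *ᵥ w) = 0 := by linear_combination e2 - e1
    rcases mul_eq_zero.mp e4 with h | h
    · exact sub_eq_zero.mp h
    · exfalso
      apply hne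
      rw [e1, h, mul_zero]
  have hsing : ∀ w, Q w = 0 → ∀ x, bq Q x w
      = κ₁ * bq Q ((g : Matrix (Fin n) (Fin n) F) *ᵥ x)
        ((g : Matrix (Fin n) (Fin n) F) *ᵥ w) := by
    intro w hw x
    by_cases hw0 : w = 0
    · rw [hw0, Matrix.mulVec_zero, bq_zero_right hQ, bq_zero_right hQ, mul_zero]
    · obtain ⟨κ, hk⟩ := hcon w hw0 hw
      by_cases hne : bq Q w w₁ = 0
      · -- a singular vector non-orthogonal to both
        obtain ⟨s, hss, hsw₁, hsw⟩ : ∃ s, Q s = 0 ∧ bq Q s w₁ ≠ 0 ∧ bq Q s w ≠ 0 := by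
          by_cases hdep : ∃ c : F, w = c • w₁
          · obtain ⟨c, hc⟩ := hdep
            have hc0 : c ≠ 0 := by
              rintro rfl
              rw [zero_smul] at hc
              exact hw0 hc
            obtain ⟨p, hpp, hpw⟩ := exists_partner_q hQ w₁ hw₁0 hw₁
            refine ⟨p, hpp, ?_, ?_⟩
            · rw [hpw]; exact one_ne_zero
            · rw [hc, bq_smul_right hQ, hpw, mul_one]; exact hc0
          · push Not at hdep
            obtain ⟨s₀, h1, h2'⟩ := two_vals hQ w₁ w hw₁0 hdep 1 1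
            have hw₁w₁ : bq Q w₁ w₁ = 0 := by rw [bq_self hQ, hw₁, mul_zero]
            have hw₁w : bq Q w₁ w = 0 := by rw [bq_comm]; exact hne
            refine ⟨s₀ - Q s₀ • w₁, ?_, ?_, ?_⟩
            · rw [q_sub hQ, hQ.smul, hw₁, bq_smul_right hQ, h1]
              ring
            · rw [bq_sub_left hQ, bq_smul_left hQ, hw₁w₁, h1, mul_zero, sub_zero]
              exact one_ne_zero
            · rw [bq_sub_left hQ, bq_smul_left hQ, hw₁w, h2', mul_zero, sub_zero]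
              exact one_ne_zero
        have hs0 : s ≠ 0 := by
          rintro rfl
          exact hsw (bq_zero_left hQ _)
        obtain ⟨κs, hks⟩ := hcon s hs0 hss
        have e1 : κ₁ = κs := same w₁ s κ₁ κs hsw₁ hk₁ hks
        have e2 : κ = κs := same w s κ κs hsw hk hks
        rw [e1, ← e2]
        exact hk x
      · have e2 : κ₁ = κ := same w₁ w κ₁ κ hne hk₁ hk
        rw [e2]
        exact hk x
  have hall : ∀ w x, bq Q x w
      = κ₁ * bq Q ((g : Matrix (Fin n) (Fin n) F) *ᵥ x)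
        ((g : Matrix (Fin n) (Fin n) F) *ᵥ w) := by
    intro w x
    by_cases hw : Q w = 0
    · exact hsing w hw x
    · obtain ⟨t, k1, -, k4⟩ := exists_perp2 hodd hQ hn w w (-(Q w))
      obtain ⟨s₁, hs₁⟩ : ∃ s₁, s₁ = w + t := ⟨_, rfl⟩
      obtain ⟨s₂, hs₂⟩ : ∃ s₂, s₂ = w - t := ⟨_, rfl⟩
      have i1 : Q s₁ = 0 := by
        rw [hs₁, q_add Q, k4, bq_comm, k1]
        ring
      have i2 : Q s₂ = 0 := by
        rw [hs₂, q_sub hQ, k4, bq_comm, k1]
        ring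
      have h2' : (2 : F)⁻¹ * 2 = 1 := inv_mul_cancel₀ h2
      have e : w = (2 : F)⁻¹ • (s₁ + s₂) := by
        have : s₁ + s₂ = (2 : F) • w := by
          rw [hs₁, hs₂, two_smul]
          abel
        rw [this, smul_smul, h2', one_smul]
      have e1 := hsing _ i1 x
      have e2 := hsing _ i2 x
      rw [e, Matrix.mulVec_smul, Matrix.mulVec_add, bq_smul_right hQ, bq_smul_right hQ,
        bq_add_right hQ, bq_add_right hQ, e1, e2]
      ring
  have hκ0 : κ₁ ≠ 0 := by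
    rintro rfl
    apply hw₁0
    apply bq_nondeg hQ
    intro v
    rw [hall w₁ v, zero_mul]
  apply hg
  refine ⟨Units.mk0 κ₁⁻¹ (inv_ne_zero hκ0), fun v => ?_⟩
  have h1 := hall v v
  rw [bq_self hQ, bq_self hQ] at h1
  rw [Units.val_mk0]
  have h3 : (2 : F) * (Q v - κ₁ * Q ((g : Matrix (Fin n) (Fin n) F) *ᵥ v)) = 0 := by
    linear_combination h1
  rcases mul_eq_zero.mp h3 with h | h
  · exact absurd h h2
  · have h4 : Q v = κ₁ * Q ((g : Matrix (Fin n) (Fin n) F) *ᵥ v) := sub_eq_zero.mp h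
    show Q ((g : Matrix (Fin n) (Fin n) F) *ᵥ v) = κ₁⁻¹ * Q v
    rw [h4, ← mul_assoc, inv_mul_cancel₀ hκ0, one_mul]

end qcore

section qcore2

variable {F : Type*} [Field F] [Fintype F] {n : ℕ} {Q : (Fin n → F) → F}

omit [Fintype F] in
theorem dq_smul_right (hQ : Cfsg.Geo.IsNondegenerateQuadraticForm Q)
    (M : Subgroup (Matrix.SpecialLinearGroup (Fin n) F))
    (x z : Fin n → F) (a : F) (d1 : DQ Q M x z) : DQ Q M x (a • z) := by
  intro c C hC
  apply d1 (c * a) C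
  intro v
  rw [hC v, bq_smul_right hQ]
  congr 2
  ring

/-- conjugation of transvections by a Siegel element -/
theorem dq_conj_sq (hQ : Cfsg.Geo.IsNondegenerateQuadraticForm Q)
    (M : Subgroup (Matrix.SpecialLinearGroup (Fin n) F))
    (hP : ∀ A : Matrix.SpecialLinearGroup (Fin n) F,
      Matrix.SpecialLinearGroup.toGL A ∈ Cfsg.Geo.quadSimilarityGroup Q → A ∈ M)
    (a b : Fin n → F) (μ : F) (ha : Q a = 0) (hb : Q b = 0) (hab : bq Q a b = 0)
    (u z : Fin n → F) (huz : bq Q u z = 0) (d : DQ Q M u z) :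
    DQ Q M (u + (μ * bq Q u b) • a - (μ * bq Q u a) • b)
      (z + (μ * bq Q z b) • a - (μ * bq Q z a) • b) := by
  have hba : bq Q b a = 0 := by rw [bq_comm]; exact hab
  have haa : bq Q a a = 0 := by rw [bq_self hQ, ha, mul_zero]
  have hbb : bq Q b b = 0 := by rw [bq_self hQ, hb, mul_zero]
  obtain ⟨E, hE, hEm⟩ := exists_sq hQ a b μ ha hb hab
  obtain ⟨E', hE', hEm'⟩ := exists_sq hQ a b (-μ) ha hb hab
  intro c A hA
  obtain ⟨A₀, hA₀⟩ := exists_tb hQ u z c huz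
  have e : A = E * A₀ * E' := by
    apply sl_ext
    intro x
    rw [hA x, Matrix.SpecialLinearGroup.coe_mul, Matrix.SpecialLinearGroup.coe_mul,
      ← Matrix.mulVec_mulVec, ← Matrix.mulVec_mulVec, hE' x, hA₀, hE]
    simp only [bq_add_left hQ, bq_sub_left hQ, bq_smul_left hQ, bq_add_right hQ,
      bq_sub_right hQ, bq_smul_right hQ, hab, hba, haa, hbb, bq_comm a z, bq_comm b z,
      bq_comm a u, bq_comm b u]
    module
  rw [e]
  exact M.mul_mem (M.mul_mem (hP E hEm) (d c A₀ hA₀)) (hP E' hEm')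

/-- Stage A: a first transvection in `M` -/
theorem stageA_q (hodd : Odd (Fintype.card F)) (h2 : (2 : F) ≠ 0)
    (hQ : Cfsg.Geo.IsNondegenerateQuadraticForm Q) (hn : 13 ≤ n)
    (M : Subgroup (Matrix.SpecialLinearGroup (Fin n) F))
    (hP : ∀ A : Matrix.SpecialLinearGroup (Fin n) F,
      Matrix.SpecialLinearGroup.toGL A ∈ Cfsg.Geo.quadSimilarityGroup Q → A ∈ M)
    (g : Matrix.SpecialLinearGroup (Fin n) F) (hgM : g ∈ M)
    (hg : Matrix.SpecialLinearGroup.toGL g ∉ Cfsg.Geo.quadSimilarityGroup Q) :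
    ∃ p c : Fin n → F, p ≠ 0 ∧ c ≠ 0 ∧ Q c = 0 ∧ bq Q p c = 0 ∧ DQ Q M p c := by
  obtain ⟨a, ha0, ha, hbad⟩ := exists_bad_q hodd h2 hQ (by omega) g hg
  obtain ⟨a', ha'⟩ : ∃ a', a' = (g : Matrix (Fin n) (Fin n) F) *ᵥ a := ⟨_, rfl⟩
  have ha'0 : a' ≠ 0 := by
    rw [ha']
    exact sl_mulVec_ne_zero g a ha0
  obtain ⟨as, has⟩ := exists_adj_q hQ ((g⁻¹ : Matrix.SpecialLinearGroup (Fin n) F) :
    Matrix (Fin n) (Fin n) F) a
  have hbada : ∀ κ : F, as ≠ κ • a' := by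
    intro κ heq
    obtain ⟨x, hx⟩ := hbad κ
    apply hx
    have h1 := has ((g : Matrix (Fin n) (Fin n) F) *ᵥ x)
    rw [sl_inv_mulVec, heq, bq_smul_right hQ, ha'] at h1
    exact h1.symm
  obtain ⟨v, hv⟩ : ∃ v, v = ((g⁻¹ : Matrix.SpecialLinearGroup (Fin n) F) :
    Matrix (Fin n) (Fin n) F) *ᵥ as := ⟨_, rfl⟩
  have hgv : (g : Matrix (Fin n) (Fin n) F) *ᵥ v = as := by rw [hv, sl_mulVec_inv]
  have hvind : ∀ c : F, v ≠ c • a := by
    intro c hc
    apply hbada c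
    rw [← hgv, hc, Matrix.mulVec_smul, ha']
  obtain ⟨y₁, hy₁⟩ := exists_pair1 hQ a ha0
  obtain ⟨y₂, hy₂a, hy₂v⟩ := two_vals hQ a v ha0 hvind 0 1
  have c1 := qcut_finrank hQ (⊤ : Submodule F (Fin n → F)) a
  have c2 := qcut_finrank hQ (qcut hQ ⊤ a) y₁
  have c3 := qcut_finrank hQ (qcut hQ (qcut hQ ⊤ a) y₁) y₂
  rw [finrank_top, Module.finrank_fin_fun] at c1
  obtain ⟨b, hbK, hb0, hb⟩ := exists_sing hodd h2 hQ (qcut hQ (qcut hQ (qcut hQ ⊤ a) y₁) y₂)
    (by omega)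
  rw [mem_qcut, mem_qcut, mem_qcut] at hbK
  obtain ⟨⟨⟨-, hba⟩, hby₁⟩, hby₂⟩ := hbK
  have hab : bq Q a b = 0 := by rw [bq_comm]; exact hba
  have haa : bq Q a a = 0 := by rw [bq_self hQ, ha, mul_zero]
  have hbb : bq Q b b = 0 := by rw [bq_self hQ, hb, mul_zero]
  obtain ⟨b', hb'⟩ : ∃ b', b' = (g : Matrix (Fin n) (Fin n) F) *ᵥ b := ⟨_, rfl⟩
  obtain ⟨bs, hbs⟩ := exists_adj_q hQ ((g⁻¹ : Matrix.SpecialLinearGroup (Fin n) F) :
    Matrix (Fin n) (Fin n) F) b
  have hb'ind : ∀ c : F, b' ≠ c • a' := by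
    intro c hc
    have h1 : b = c • a := by
      have h3 := congrArg (fun w => ((g⁻¹ : Matrix.SpecialLinearGroup (Fin n) F) :
        Matrix (Fin n) (Fin n) F) *ᵥ w) hc
      rw [hb', ha', Matrix.mulVec_smul, sl_inv_mulVec, sl_inv_mulVec] at h3
      exact h3
    have h4 : bq Q b y₁ = c := by
      rw [h1, bq_smul_left hQ, bq_comm, hy₁, mul_one]
    rw [hby₁] at h4
    apply hb0
    rw [h1, ← h4, zero_smul]
  have hasind : ∀ α β : F, as ≠ α • a' + β • b' := by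
    intro α β hc
    have h1 : v = α • a + β • b := by
      rw [hv, hc, ha', hb', Matrix.mulVec_add, Matrix.mulVec_smul, Matrix.mulVec_smul,
        sl_inv_mulVec, sl_inv_mulVec]
    rw [h1, bq_add_right hQ, bq_smul_right hQ, bq_smul_right hQ, hy₂a, bq_comm y₂ b, hby₂,
      mul_zero, mul_zero, add_zero] at hy₂v
    exact zero_ne_one hy₂v
  obtain ⟨d₀, hd₀a, hd₀b, hd₀s⟩ := three_vals hQ a' b' as ha'0 hb'ind hasind
  have e1 := qcut_finrank hQ (⊤ : Submodule F (Fin n → F)) a'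
  have e2 := qcut_finrank hQ (qcut hQ ⊤ a') b'
  have e3 := qcut_finrank hQ (qcut hQ (qcut hQ ⊤ a') b') as
  have e4 := qcut_finrank hQ (qcut hQ (qcut hQ (qcut hQ ⊤ a') b') as) d₀
  rw [finrank_top, Module.finrank_fin_fun] at e1
  obtain ⟨t, ht, hQt⟩ := exists_val hodd hQ
    (qcut hQ (qcut hQ (qcut hQ (qcut hQ ⊤ a') b') as) d₀) (by omega) (-(Q d₀))
  rw [mem_qcut, mem_qcut, mem_qcut, mem_qcut] at ht
  obtain ⟨⟨⟨⟨-, k1⟩, k2⟩, k3⟩, k4⟩ := ht
  obtain ⟨d, hd⟩ : ∃ d, d = d₀ + t := ⟨_, rfl⟩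
  have hQd : Q d = 0 := by
    rw [hd, q_add Q, hQt, bq_comm, k4]
    ring
  have hda : bq Q d a' = 0 := by rw [hd, bq_add_left hQ, hd₀a, k1, add_zero]
  have hdb : bq Q d b' = 0 := by rw [hd, bq_add_left hQ, hd₀b, k2, add_zero]
  have hds : bq Q d as = 1 := by rw [hd, bq_add_left hQ, hd₀s, k3, add_zero]
  have hdd : bq Q d d = 0 := by rw [bq_self hQ, hQd, mul_zero]
  have f1 := qcut_finrank hQ (qcut hQ (qcut hQ (qcut hQ ⊤ a') b') as) bs
  have f2 := qcut_finrank hQ (qcut hQ (qcut hQ (qcut hQ (qcut hQ ⊤ a') b') as) bs) d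
  obtain ⟨c, hcK, hc0, hc⟩ := exists_sing hodd h2 hQ
    (qcut hQ (qcut hQ (qcut hQ (qcut hQ (qcut hQ ⊤ a') b') as) bs) d) (by omega)
  rw [mem_qcut, mem_qcut, mem_qcut, mem_qcut, mem_qcut] at hcK
  obtain ⟨⟨⟨⟨⟨-, hca⟩, hcb⟩, hcas⟩, hcbs⟩, hcd⟩ := hcK
  have hcc : bq Q c c = 0 := by rw [bq_self hQ, hc, mul_zero]
  have hdc : bq Q d c = 0 := by rw [bq_comm]; exact hcd
  have hac : bq Q a' c = 0 := by rw [bq_comm]; exact hca
  have hbc : bq Q b' c = 0 := by rw [bq_comm]; exact hcb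
  have had : bq Q a' d = 0 := by rw [bq_comm]; exact hda
  have hbd : bq Q b' d = 0 := by rw [bq_comm]; exact hdb
  have haas : bq Q a' as = 0 := by rw [has, ha', sl_inv_mulVec]; exact haa
  have habs : bq Q a' bs = 0 := by rw [hbs, ha', sl_inv_mulVec]; exact hab
  have hbas : bq Q b' as = 0 := by rw [has, hb', sl_inv_mulVec]; exact hba
  have hbbs : bq Q b' bs = 0 := by rw [hbs, hb', sl_inv_mulVec]; exact hbb
  refine ⟨bq Q d bs • a' - b', c, ?_, hc0, hc, ?_, ?_⟩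
  · intro h0
    apply hb'ind (bq Q d bs)
    exact (sub_eq_zero.mp h0).symm
  · rw [bq_sub_left hQ, bq_smul_left hQ, hac, hbc, mul_zero, sub_zero]
  · -- the commutator
    obtain ⟨S, hS, hSm⟩ := exists_sq hQ a b 1 ha hb hab
    obtain ⟨S', hS', hSm'⟩ := exists_sq hQ a b (-1) ha hb hab
    have hE₁ : ∀ x, ((g * S * g⁻¹ : Matrix.SpecialLinearGroup (Fin n) F) :
        Matrix (Fin n) (Fin n) F) *ᵥ x = x + bq Q x bs • a' - bq Q x as • b' := by
      intro x
      rw [Matrix.SpecialLinearGroup.coe_mul, Matrix.SpecialLinearGroup.coe_mul,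
        ← Matrix.mulVec_mulVec, ← Matrix.mulVec_mulVec, hS, Matrix.mulVec_sub,
        Matrix.mulVec_add, Matrix.mulVec_smul, Matrix.mulVec_smul, sl_mulVec_inv, ← hbs, ← has,
        ← ha', ← hb', one_mul, one_mul]
    have hE₁' : ∀ x, ((g * S' * g⁻¹ : Matrix.SpecialLinearGroup (Fin n) F) :
        Matrix (Fin n) (Fin n) F) *ᵥ x = x + (-bq Q x bs) • a' - (-bq Q x as) • b' := by
      intro x
      rw [Matrix.SpecialLinearGroup.coe_mul, Matrix.SpecialLinearGroup.coe_mul,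
        ← Matrix.mulVec_mulVec, ← Matrix.mulVec_mulVec, hS', Matrix.mulVec_sub,
        Matrix.mulVec_add, Matrix.mulVec_smul, Matrix.mulVec_smul, sl_mulVec_inv, ← hbs, ← has,
        ← ha', ← hb', neg_one_mul, neg_one_mul]
    have hE₁M : g * S * g⁻¹ ∈ M := M.mul_mem (M.mul_mem hgM (hP S hSm)) (M.inv_mem hgM)
    have hE₁M' : g * S' * g⁻¹ ∈ M := M.mul_mem (M.mul_mem hgM (hP S' hSm')) (M.inv_mem hgM)
    intro lam A hA
    obtain ⟨μ, rfl⟩ : ∃ μ, lam = -μ := ⟨-lam, by ring⟩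
    obtain ⟨E₂, hE₂, hE₂m⟩ := exists_sq hQ c d μ hc hQd (by rw [bq_comm]; exact hdc)
    obtain ⟨E₂', hE₂', hE₂m'⟩ := exists_sq hQ c d (-μ) hc hQd (by rw [bq_comm]; exact hdc)
    have e : A = (g * S * g⁻¹) * E₂ * (g * S' * g⁻¹) * E₂' := by
      apply sl_ext
      intro x
      rw [hA x, Matrix.SpecialLinearGroup.coe_mul (g * S * g⁻¹ * E₂ * (g * S' * g⁻¹)),
        Matrix.SpecialLinearGroup.coe_mul (g * S * g⁻¹ * E₂),
        Matrix.SpecialLinearGroup.coe_mul (g * S * g⁻¹), ← Matrix.mulVec_mulVec,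
        ← Matrix.mulVec_mulVec, ← Matrix.mulVec_mulVec, hE₂' x, hE₁', hE₂, hE₁]
      simp only [bq_add_left hQ, bq_sub_left hQ, bq_smul_left hQ, hcc, hdd, hcd, hdc, hac, hbc,
        had, hbd, haas, habs, hbas, hbbs, hcas, hcbs, hds]
      module
    rw [e]
    exact M.mul_mem (M.mul_mem (M.mul_mem hE₁M (hP E₂ hE₂m)) hE₁M') (hP E₂' hE₂m')

/-- Step B1: the transvection with centre and axis given by one singular vector -/
theorem stageB1_q (hodd : Odd (Fintype.card F))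
    (hQ : Cfsg.Geo.IsNondegenerateQuadraticForm Q) (hn : 13 ≤ n)
    (M : Subgroup (Matrix.SpecialLinearGroup (Fin n) F))
    (hP : ∀ A : Matrix.SpecialLinearGroup (Fin n) F,
      Matrix.SpecialLinearGroup.toGL A ∈ Cfsg.Geo.quadSimilarityGroup Q → A ∈ M)
    (p c : Fin n → F) (hc0 : c ≠ 0) (hc : Q c = 0) (hpc : bq Q p c = 0)
    (hp0 : p ≠ 0) (hD : DQ Q M p c) : DQ Q M c c := by
  have hcc : bq Q c c = 0 := by rw [bq_self hQ, hc, mul_zero]
  by_cases hdep : ∃ κ : F, p = κ • c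
  · obtain ⟨κ, hκ⟩ := hdep
    have hκ0 : κ ≠ 0 := by
      rintro rfl
      rw [zero_smul] at hκ
      exact hp0 hκ
    have e : c = κ⁻¹ • p := by rw [hκ, smul_smul, inv_mul_cancel₀ hκ0, one_smul]
    have h1 := dq_smul_left M p c κ⁻¹ hD
    rw [← e] at h1
    exact h1
  · push Not at hdep
    obtain ⟨b, hb, hbc, hbp⟩ := exists_sing_perp hodd hQ (by omega) c p hc0 hdep
    have hcb : bq Q c b = 0 := by rw [bq_comm]; exact hbc
    have hpb : bq Q p b = 1 := by rw [bq_comm]; exact hbp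
    have h1 := dq_conj_sq hQ M hP c b 1 hc hb hcb p c hpc hD
    rw [hpb, hpc, hcb, hcc, mul_zero, mul_one, zero_smul, zero_smul, sub_zero, sub_zero,
      add_zero, one_smul] at h1
    have h2 := dq_smul_left M p c (-1) hD
    have h3 := dq_add_left hQ M (p + c) ((-1 : F) • p) c
      (by rw [bq_add_left hQ, hpc, hcc, add_zero])
      (by rw [bq_smul_left hQ, hpc, mul_zero]) h1 h2
    have e : p + c + (-1 : F) • p = c := by module
    rw [e] at h3
    exact h3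

/-- Step B2: all singular vectors -/
theorem stageB2_q (hodd : Odd (Fintype.card F)) (h2 : (2 : F) ≠ 0)
    (hQ : Cfsg.Geo.IsNondegenerateQuadraticForm Q) (hn : 13 ≤ n)
    (M : Subgroup (Matrix.SpecialLinearGroup (Fin n) F))
    (hP : ∀ A : Matrix.SpecialLinearGroup (Fin n) F,
      Matrix.SpecialLinearGroup.toGL A ∈ Cfsg.Geo.quadSimilarityGroup Q → A ∈ M)
    (c : Fin n → F) (hc0 : c ≠ 0) (hc : Q c = 0) (hD : DQ Q M c c)
    (c' : Fin n → F) (hc' : Q c' = 0) : DQ Q M c' c' := by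
  -- moving between orthogonal independent singular vectors
  have move : ∀ c₁ c₂ : Fin n → F, c₁ ≠ 0 → Q c₁ = 0 → Q c₂ = 0 → bq Q c₁ c₂ = 0 →
      (∀ κ : F, c₂ ≠ κ • c₁) → DQ Q M c₁ c₁ → DQ Q M c₂ c₂ := by
    intro c₁ c₂ h10 h1 h2' h12 hind hD1
    have h11 : bq Q c₁ c₁ = 0 := by rw [bq_self hQ, h1, mul_zero]
    have h21 : bq Q c₂ c₁ = 0 := by rw [bq_comm]; exact h12
    obtain ⟨e, he⟩ : ∃ e, e = c₂ - c₁ := ⟨_, rfl⟩
    have hQe : Q e = 0 := by
      rw [he, q_sub hQ, h1, h2', h21]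
      ring
    have he0 : e ≠ 0 := by
      rw [he]
      intro h0
      apply hind 1
      rw [one_smul]
      exact sub_eq_zero.mp h0
    have hind' : ∀ κ : F, c₁ ≠ κ • e := by
      intro κ hκ
      rw [he, smul_sub] at hκ
      by_cases hκ0 : κ = 0
      · rw [hκ0, zero_smul, zero_smul, sub_zero] at hκ
        exact h10 hκ
      · apply hind (κ⁻¹ * (1 + κ))
        have h3 : κ • c₂ = (1 + κ) • c₁ := by
          rw [add_smul, one_smul]
          have h4 : κ • c₂ = c₁ + κ • c₁ := by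
            rw [eq_sub_iff_add_eq] at hκ
            exact hκ.symm
          exact h4
        rw [← smul_smul, ← h3, smul_smul, inv_mul_cancel₀ hκ0, one_smul]
    obtain ⟨b, hb, hbe, hbc⟩ := exists_sing_perp hodd hQ (by omega) e c₁ he0 hind'
    have heb : bq Q e b = 0 := by rw [bq_comm]; exact hbe
    have hcb : bq Q c₁ b = 1 := by rw [bq_comm]; exact hbc
    have hce : bq Q c₁ e = 0 := by rw [he, bq_sub_right hQ, h12, h11, sub_zero]
    have h3 := dq_conj_sq hQ M hP e b 1 hQe hb heb c₁ c₁ h11 hD1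
    rw [hcb, hce, mul_zero, mul_one, zero_smul, sub_zero, one_smul] at h3
    have e2 : c₁ + e = c₂ := by rw [he]; abel
    rw [e2] at h3
    exact h3
  by_cases hc'0 : c' = 0
  · intro t A hA
    rw [hc'0] at hA
    rw [isTb_zero A 0 t hA]
    exact M.one_mem
  · by_cases hort : bq Q c c' = 0
    · by_cases hdep : ∃ κ : F, c' = κ • c
      · obtain ⟨κ, hκ⟩ := hdep
        rw [hκ]
        exact dq_smul_right hQ M _ c κ (dq_smul_left M c c κ hD)
      · push Not at hdep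
        exact move c c' hc0 hc hc' hort hdep hD
    · have c1 := qcut_finrank hQ (⊤ : Submodule F (Fin n → F)) c
      have c2 := qcut_finrank hQ (qcut hQ ⊤ c) c'
      rw [finrank_top, Module.finrank_fin_fun] at c1
      obtain ⟨c'', hK, h0, hs⟩ := exists_sing hodd h2 hQ (qcut hQ (qcut hQ ⊤ c) c') (by omega)
      rw [mem_qcut, mem_qcut] at hK
      obtain ⟨⟨-, k1⟩, k2⟩ := hK
      have k1' : bq Q c c'' = 0 := by rw [bq_comm]; exact k1
      have hD2 : DQ Q M c'' c'' := by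
        apply move c c'' hc0 hc hs k1' _ hD
        intro κ hκ
        rw [hκ, bq_smul_left hQ] at k2
        rcases mul_eq_zero.mp k2 with h | h
        · apply h0
          rw [hκ, h, zero_smul]
        · exact hort h
      apply move c'' c' h0 hs hc' k2 _ hD2
      intro κ hκ
      rw [hκ, bq_smul_right hQ, k1', mul_zero] at hort
      exact hort rfl

end qcore2

section qcore3

variable {F : Type*} [Field F] [Fintype F] {n : ℕ} {Q : (Fin n → F) → F}

/-- Stage B: all transvections -/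
theorem stageB3_q (hodd : Odd (Fintype.card F)) (h2 : (2 : F) ≠ 0)
    (hQ : Cfsg.Geo.IsNondegenerateQuadraticForm Q) (hn : 13 ≤ n)
    (M : Subgroup (Matrix.SpecialLinearGroup (Fin n) F))
    (hsing : ∀ y : Fin n → F, Q y = 0 → DQ Q M y y)
    (x z : Fin n → F) (hxz : bq Q x z = 0) : DQ Q M x z := by
  have s1 : ∀ y z : Fin n → F, Q z ≠ 0 → y ≠ 0 → Q y = 0 → bq Q y z = 0 → DQ Q M y z := by
    intro y z hz hy0 hy hyz
    have hzy : bq Q z y = 0 := by rw [bq_comm]; exact hyz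
    have hyy : bq Q y y = 0 := by rw [bq_self hQ, hy, mul_zero]
    obtain ⟨p, hp, hpy⟩ := exists_partner_q hQ y hy0 hy
    have h2z : (2 : F) * Q z ≠ 0 := mul_ne_zero h2 hz
    obtain ⟨s, hs⟩ : ∃ s, s = (Q z - bq Q p z) / (2 * Q z) := ⟨_, rfl⟩
    have hs' : s * (2 * Q z) = Q z - bq Q p z := by rw [hs, div_mul_cancel₀ _ h2z]
    obtain ⟨a, ha⟩ : ∃ a, a = -(s ^ 2 * Q z + s * bq Q p z) := ⟨_, rfl⟩
    obtain ⟨y₁, hy₁⟩ : ∃ y₁, y₁ = p + s • z + a • y := ⟨_, rfl⟩
    have h11 : Q y₁ = 0 := by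
      rw [hy₁, q_add Q, q_add Q, hQ.smul, hQ.smul, hp, hy]
      simp only [bq_add_left hQ, bq_smul_left hQ, bq_smul_right hQ, hpy, hzy]
      rw [ha]
      ring
    have h1z : bq Q y₁ z = Q z := by
      rw [hy₁, bq_add_left hQ, bq_add_left hQ, bq_smul_left hQ, bq_smul_left hQ, bq_self hQ, hyz]
      linear_combination hs'
    have h1y : bq Q y₁ y = 1 := by
      rw [hy₁, bq_add_left hQ, bq_add_left hQ, bq_smul_left hQ, bq_smul_left hQ, hpy, hzy, hyy]
      ring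
    have hb11 : bq Q y₁ y₁ = 0 := by rw [bq_self hQ, h11, mul_zero]
    obtain ⟨c, hc⟩ : ∃ c, c = -Q z := ⟨_, rfl⟩
    have hc0 : c ≠ 0 := by rw [hc]; exact neg_ne_zero.mpr hz
    have hcc : c⁻¹ * c = 1 := inv_mul_cancel₀ hc0
    obtain ⟨p₁, hp₁⟩ : ∃ p₁, p₁ = c⁻¹ • (y₁ - z) := ⟨_, rfl⟩
    have hzz : z = y₁ - c • p₁ := by
      rw [hp₁, smul_smul, mul_inv_cancel₀ hc0, one_smul, sub_sub_cancel]
    have hQp₁ : Q p₁ = 0 := by
      rw [hp₁, hQ.smul, q_sub hQ, h11, h1z]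
      ring
    have hbp₁ : bq Q p₁ p₁ = 0 := by rw [bq_self hQ, hQp₁, mul_zero]
    have h1p : bq Q y₁ p₁ = 1 := by
      rw [hp₁, bq_smul_right hQ, bq_sub_right hQ, hb11, h1z]
      rw [hc] at hcc ⊢
      linear_combination hcc
    have hp1 : bq Q p₁ y₁ = 1 := by rw [bq_comm]; exact h1p
    have hD1 : DQ Q M (y₁ + c • p₁) z := by
      intro e A hA
      obtain ⟨X, hX⟩ := exists_tb hQ p₁ p₁ c hbp₁
      obtain ⟨X', hX'⟩ := exists_tb hQ p₁ p₁ (-c) hbp₁
      obtain ⟨T, hT⟩ := exists_tb hQ y₁ y₁ e hb11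
      have e1 := sl2_tb hQ X T X' A y₁ p₁ c e hbp₁ h1p hp1 hX hX' hT (by rw [← hzz]; exact hA)
      rw [e1]
      exact M.mul_mem (M.mul_mem (hsing p₁ hQp₁ c X hX) (hsing y₁ h11 e T hT))
        (hsing p₁ hQp₁ (-c) X' hX')
    have hp₁z : bq Q p₁ z = c⁻¹ * (Q z - 2 * Q z) := by
      rw [hp₁, bq_smul_left hQ, bq_sub_left hQ, h1z, bq_self hQ]
    have hp₁y : bq Q p₁ y = c⁻¹ := by
      rw [hp₁, bq_smul_left hQ, bq_sub_left hQ, h1y, hzy, sub_zero, mul_one]
    have huz : bq Q (y₁ + c • p₁) z = 0 := by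
      rw [bq_add_left hQ, bq_smul_left hQ, h1z, hp₁z, ← mul_assoc, mul_inv_cancel₀ hc0]
      ring
    have huy : bq Q (y₁ + c • p₁) y = 2 := by
      rw [bq_add_left hQ, bq_smul_left hQ, h1y, hp₁y, mul_inv_cancel₀ hc0]
      ring
    intro t A hA
    obtain ⟨d, rfl⟩ : ∃ d, t = -(d * 1 * bq Q (y₁ + c • p₁) y) := by
      rw [huy]
      exact ⟨-t / 2, by field_simp⟩
    obtain ⟨X, hX⟩ := exists_tb hQ (y₁ + c • p₁) z 1 huz
    obtain ⟨X', hX'⟩ := exists_tb hQ (y₁ + c • p₁) z (-1) huz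
    obtain ⟨T, hT⟩ := exists_tb hQ y y d hyy
    obtain ⟨T', hT'⟩ := exists_tb hQ y y (-d) hyy
    have e1 := comm_tb hQ X T X' T' A (y₁ + c • p₁) z y y 1 d huz hyy hyz hX hX' hT hT' hA
    rw [e1]
    exact M.mul_mem (M.mul_mem (M.mul_mem (hD1 1 X hX) (hsing y hy d T hT)) (hD1 (-1) X' hX'))
      (hsing y hy (-d) T' hT')
  have s2 : ∀ y z : Fin n → F, Q y = 0 → bq Q y z = 0 → DQ Q M y z := by
    intro y z hy hyz
    by_cases hy0 : y = 0
    · intro c A hA
      rw [hy0] at hA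
      rw [isTb_zero A z c hA]
      exact M.one_mem
    · by_cases hz : Q z = 0
      · obtain ⟨t, k1, k2, k4⟩ := exists_perp2 hodd hQ (by omega) y z 1
        have k1' : bq Q y t = 0 := by rw [bq_comm]; exact k1
        have k2' : bq Q z t = 0 := by rw [bq_comm]; exact k2
        have e : z = (z - t) + t := by rw [sub_add_cancel]
        rw [e]
        apply dq_add_right hQ M y (z - t) t
        · rw [bq_sub_right hQ, hyz, k1', sub_zero]
        · exact k1'
        · apply s1 y (z - t) _ hy0 hy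
          · rw [bq_sub_right hQ, hyz, k1', sub_zero]
          · rw [q_sub hQ, hz, k4, k2']
            simp
        · apply s1 y t _ hy0 hy k1'
          rw [k4]
          exact one_ne_zero
      · exact s1 y z hz hy0 hy hyz
  by_cases hx : Q x = 0
  · exact s2 x z hx hxz
  · obtain ⟨t, k1, k2, k4⟩ := exists_perp2 hodd hQ (by omega) x z (-(Q x))
    have k1' : bq Q x t = 0 := by rw [bq_comm]; exact k1
    have h2' : (2 : F)⁻¹ * 2 = 1 := inv_mul_cancel₀ h2
    have i1 : Q ((2 : F)⁻¹ • (x + t)) = 0 := by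
      rw [hQ.smul, q_add Q, k4, k1']
      ring
    have i2 : Q ((2 : F)⁻¹ • (x - t)) = 0 := by
      rw [hQ.smul, q_sub hQ, k4, k1']
      ring
    have j1 : bq Q ((2 : F)⁻¹ • (x + t)) z = 0 := by
      rw [bq_smul_left hQ, bq_add_left hQ, hxz, k2, add_zero, mul_zero]
    have j2 : bq Q ((2 : F)⁻¹ • (x - t)) z = 0 := by
      rw [bq_smul_left hQ, bq_sub_left hQ, hxz, k2, sub_zero, mul_zero]
    have e : x = (2 : F)⁻¹ • (x + t) + (2 : F)⁻¹ • (x - t) := by
      have : (2 : F)⁻¹ • (x + t) + (2 : F)⁻¹ • (x - t) = ((2 : F)⁻¹ * 2) • x := by module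
      rw [this, h2', one_smul]
    rw [e]
    exact dq_add_left hQ M _ _ z j1 j2 (s2 _ z i1 j1) (s2 _ z i2 j2)

theorem core_q (hodd : Odd (Fintype.card F)) (h2 : (2 : F) ≠ 0)
    (hQ : Cfsg.Geo.IsNondegenerateQuadraticForm Q) (hn : 13 ≤ n)
    (M : Subgroup (Matrix.SpecialLinearGroup (Fin n) F))
    (hP : ∀ A : Matrix.SpecialLinearGroup (Fin n) F,
      Matrix.SpecialLinearGroup.toGL A ∈ Cfsg.Geo.quadSimilarityGroup Q → A ∈ M)
    (hex : ∃ A ∈ M, Matrix.SpecialLinearGroup.toGL A ∉ Cfsg.Geo.quadSimilarityGroup Q) :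
    M = ⊤ := by
  obtain ⟨g, hgM, hg⟩ := hex
  obtain ⟨p, c, hp0, hc0, hc, hpc, hD⟩ := stageA_q hodd h2 hQ hn M hP g hgM hg
  have hD1 := stageB1_q hodd hQ hn M hP p c hc0 hc hpc hp0 hD
  have hsing := stageB2_q hodd h2 hQ hn M hP c hc0 hc hD1
  apply Cfsg.Agent.S5642.top_of_all_Dp (by omega) M
  intro x ψ hψ c
  obtain ⟨z, hz⟩ := riesz_q hQ ψ
  apply stageB3_q hodd h2 hQ hn M hsing x z (by rw [← hz]; exact hψ) c
  intro v
  rw [tv_mulVec x ψ hψ, hz]

theorem exists_nonsimil_q (hodd : Odd (Fintype.card F)) (h2 : (2 : F) ≠ 0)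
    (hQ : Cfsg.Geo.IsNondegenerateQuadraticForm Q) (hn : 3 ≤ n) :
    ∃ A : Matrix.SpecialLinearGroup (Fin n) F,
      Matrix.SpecialLinearGroup.toGL A ∉ Cfsg.Geo.quadSimilarityGroup Q := by
  obtain ⟨c, -, hc0, hc⟩ := exists_sing hodd h2 hQ (⊤ : Submodule F (Fin n → F))
    (by rw [finrank_top, Module.finrank_fin_fun]; omega)
  obtain ⟨p, hp, hpc⟩ := exists_partner_q hQ c hc0 hc
  have hcc : bq Q c c = 0 := by rw [bq_self hQ, hc, mul_zero]
  obtain ⟨A, hA⟩ := exists_tb hQ c c 1 hcc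
  refine ⟨A, fun hmem => ?_⟩
  obtain ⟨κ, hκ⟩ := hmem
  have e0 : Q ((A : Matrix (Fin n) (Fin n) F) *ᵥ p) = (κ : F) * Q p := hκ p
  rw [hA, hpc, mul_one, one_smul, q_add Q, hp, hc, hpc, mul_zero] at e0
  have : (1 : F) = 0 := by linear_combination e0
  exact one_ne_zero this

end qcore3

/-- For a finite field F of odd order and n ≥ 13, let Q be a non-degenerate quadratic form on F^n (its polar form is non-degenerate). Then the elements of SL_n(F) that are similarities of Q (Q(gv) = c Q(v) for a non-zero scalar c depending on g) form a maximal subgroup of SL_n(F). -/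
theorem result {F : Type*} [Field F] [Fintype F] (n : ℕ) (hn : 13 ≤ n) (hodd : Odd (Fintype.card F)) (Q : (Fin n → F) → F) (hQ : Cfsg.Geo.IsNondegenerateQuadraticForm Q) : Cfsg.Geo.IsMaximalIn (Cfsg.Geo.specialLinear (Fin n) F) (Cfsg.Geo.quadSimilarityGroup Q ⊓ Cfsg.Geo.specialLinear (Fin n) F) := by
  classical
  have h2 : (2 : F) ≠ 0 := by
    intro h
    have hch : ringChar F = 2 := CharP.ringChar_of_prime_eq_zero Nat.prime_two (by simpa using h)
    have := (FiniteField.even_card_iff_char_two (F := F)).mp hch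
    have h3 := Nat.odd_iff.mp hodd
    omega
  apply Cfsg.Agent.S5642.maximal_of_core_sl'
  · exact exists_nonsimil_q hodd h2 hQ (by omega)
  · intro M hP hex
    exact core_q hodd h2 hQ hn M hP hex

end Cfsg.Agent.S5644
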