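import Mathlib
import Cfsg.Statements.S5646
import Cfsg.Agent.Helper6.PSpSimple
import Cfsg.Agent.Helper6.SpFrames

set_option autoImplicit false
open Cfsg

namespace Cfsg.Agent.S5646

open Matrix Cfsg.Agent.Helper6

variable {F : Type*} [Field F] {m : ℕ}

/-- the set of transvection directions available in `M` -/
def dirs (M : Subgroup (Matrix.symplecticGroup (Fin m) F)) : Set (Fin m ⊕ Fin m → F) :=
  {y | ∀ c : F, tvS y c ∈ M}

theorem dirs_move (M : Subgroup (Matrix.symplecticGroup (Fin m) F)) (x y : Fin m ⊕ Fin m → F)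
    (hx : x ∈ dirs M) (hy : y ∈ dirs M) (c : F) :
    y + (c * Cfsg.sympForm m F y x) • x ∈ dirs M := by
  intro d
  have h := M.mul_mem (M.mul_mem (hx c) (hy d)) (M.inv_mem (hx c))
  rw [tvS_conj, tvS_mulVec] at h
  exact h

theorem dirs_conj (M : Subgroup (Matrix.symplecticGroup (Fin m) F))
    (A : Matrix.symplecticGroup (Fin m) F) (hA : A ∈ M) (y : Fin m ⊕ Fin m → F)
    (hy : y ∈ dirs M) :
    (A : Matrix (Fin m ⊕ Fin m) (Fin m ⊕ Fin m) F) *ᵥ y ∈ dirs M := by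
  intro c
  have h := M.mul_mem (M.mul_mem hA (hy c)) (M.inv_mem hA)
  rwa [tvS_conj] at h

theorem top_of_dirs (M : Subgroup (Matrix.symplecticGroup (Fin m) F))
    (h : ∀ y, y ∈ dirs M) : M = ⊤ := by
  rw [eq_top_iff, ← Cfsg.Agent.S0765.result m, Subgroup.closure_le]
  rintro A ⟨w, c, hA⟩
  have h1 : A = tvS w c := Subtype.ext hA
  rw [h1]
  exact h w c

theorem stab_of (W : Submodule F (Fin m ⊕ Fin m → F)) (A : Matrix.symplecticGroup (Fin m) F)
    (h1 : ∀ v ∈ W, (A : Matrix (Fin m ⊕ Fin m) (Fin m ⊕ Fin m) F) *ᵥ v ∈ W)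
    (h2 : ∀ v ∈ W, ((A⁻¹ : Matrix.symplecticGroup (Fin m) F) :
      Matrix (Fin m ⊕ Fin m) (Fin m ⊕ Fin m) F) *ᵥ v ∈ W) :
    ∀ v, v ∈ W ↔ (A : Matrix (Fin m ⊕ Fin m) (Fin m ⊕ Fin m) F) *ᵥ v ∈ W := by
  intro v
  refine ⟨h1 v, fun hv => ?_⟩
  have := h2 _ hv
  rwa [sp_inv_mulVec] at this

/-- transfer of maximality from `Matrix.symplecticGroup` to `spGL` -/
theorem maximal_of_core (W : Submodule F (Fin m ⊕ Fin m → F))
    (hlt : ∃ A : Matrix.symplecticGroup (Fin m) F,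
      ¬ (∀ v, v ∈ W ↔ (A : Matrix (Fin m ⊕ Fin m) (Fin m ⊕ Fin m) F) *ᵥ v ∈ W))
    (hcore : ∀ M : Subgroup (Matrix.symplecticGroup (Fin m) F),
      (∀ A : Matrix.symplecticGroup (Fin m) F,
        (∀ v, v ∈ W ↔ (A : Matrix (Fin m ⊕ Fin m) (Fin m ⊕ Fin m) F) *ᵥ v ∈ W) → A ∈ M) →
      (∃ A ∈ M, ¬ (∀ v, v ∈ W ↔ (A : Matrix (Fin m ⊕ Fin m) (Fin m ⊕ Fin m) F) *ᵥ v ∈ W)) →
      M = ⊤) :
    Cfsg.Geo.IsMaximalIn (Cfsg.spGL m F) (Cfsg.Geo.subspaceStabilizer W ⊓ Cfsg.spGL m F) := by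
  constructor
  · refine lt_of_le_of_ne inf_le_right ?_
    intro heq
    obtain ⟨A, hA⟩ := hlt
    have h1 : ((toGHom m F A : ↥(Cfsg.spGL m F)) : GL (Fin m ⊕ Fin m) F) ∈
        Cfsg.Geo.subspaceStabilizer W ⊓ Cfsg.spGL m F := by
      rw [heq]; exact (toGHom m F A).2
    exact hA h1.1
  · intro M hPM hMK
    by_cases hMP : M ≤ Cfsg.Geo.subspaceStabilizer W ⊓ Cfsg.spGL m F
    · left; exact le_antisymm hMP hPM
    · right
      obtain ⟨h, hhM, hhP⟩ := SetLike.not_le_iff_exists.mp hMP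
      obtain ⟨A, hA⟩ := toGHom_surjective (⟨h, hMK hhM⟩ : ↥(Cfsg.spGL m F))
      have hAh : ((toGHom m F A : ↥(Cfsg.spGL m F)) : GL (Fin m ⊕ Fin m) F) = h := by
        rw [hA]
      have key := hcore (M.comap ((Cfsg.spGL m F).subtype.comp (toGHom m F))) ?_ ?_
      · apply le_antisymm hMK
        intro g hg
        obtain ⟨B, hB⟩ := toGHom_surjective (⟨g, hg⟩ : ↥(Cfsg.spGL m F))
        have hBg : ((toGHom m F B : ↥(Cfsg.spGL m F)) : GL (Fin m ⊕ Fin m) F) = g := by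
          rw [hB]
        have h2 : B ∈ M.comap ((Cfsg.spGL m F).subtype.comp (toGHom m F)) := by
          rw [key]; trivial
        rw [Subgroup.mem_comap] at h2
        rw [← hBg]
        exact h2
      · intro B hB
        rw [Subgroup.mem_comap]
        apply hPM
        exact ⟨hB, (toGHom m F B).2⟩
      · refine ⟨A, ?_, ?_⟩
        · rw [Subgroup.mem_comap]
          show ((toGHom m F A : ↥(Cfsg.spGL m F)) : GL (Fin m ⊕ Fin m) F) ∈ M
          rw [hAh]; exact hhM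
        · intro hst
          apply hhP
          refine ⟨?_, hMK hhM⟩
          rw [← hAh]
          exact hst

theorem sub_union {V : Type*} [AddCommGroup V] [Module F V] (U A B : Submodule F V)
    (h : ∀ x ∈ U, x ∈ A ∨ x ∈ B) : U ≤ A ∨ U ≤ B := by
  by_contra hcon
  rw [not_or] at hcon
  obtain ⟨x, hxU, hxA⟩ := SetLike.not_le_iff_exists.mp hcon.1
  obtain ⟨y, hyU, hyB⟩ := SetLike.not_le_iff_exists.mp hcon.2
  have hxB : x ∈ B := (h x hxU).resolve_left hxA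
  have hyA : y ∈ A := (h y hyU).resolve_right hyB
  rcases h (x + y) (U.add_mem hxU hyU) with h1 | h1
  · exact hxA ((Submodule.add_mem_iff_left A hyA).mp h1)
  · exact hyB ((Submodule.add_mem_iff_right B hxB).mp h1)

theorem move_aux (M : Subgroup (Matrix.symplecticGroup (Fin m) F))
    (A B : Submodule F (Fin m ⊕ Fin m → F))
    (hAB : ∀ a ∈ A, ∀ b ∈ B, Cfsg.sympForm m F a b = 0)
    (hA : ∀ a ∈ A, a ∈ dirs M)
    (a₁ a₂ b : Fin m ⊕ Fin m → F) (h1 : a₁ ∈ A) (h2 : a₂ ∈ A) (hb : b ∈ B)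
    (hne : Cfsg.sympForm m F a₁ a₂ ≠ 0) (hin : a₁ + b ∈ dirs M) : a₂ + b ∈ dirs M := by
  have hx : a₂ - a₁ ∈ dirs M := hA _ (A.sub_mem h2 h1)
  have h := dirs_move M (a₂ - a₁) (a₁ + b) hx hin (Cfsg.sympForm m F a₁ a₂)⁻¹
  have e : Cfsg.sympForm m F (a₁ + b) (a₂ - a₁) = Cfsg.sympForm m F a₁ a₂ := by
    have e1 : Cfsg.sympForm m F b a₂ = 0 := by rw [sf_swap, hAB a₂ h2 b hb, neg_zero]
    have e2 : Cfsg.sympForm m F b a₁ = 0 := by rw [sf_swap, hAB a₁ h1 b hb, neg_zero]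
    rw [sf_add_left, sf_sub_right, sf_sub_right, sf_self, e1, e2]; ring
  rw [e, inv_mul_cancel₀ hne, one_smul] at h
  have e3 : a₁ + b + (a₂ - a₁) = a₂ + b := by abel
  rwa [e3] at h

theorem move (M : Subgroup (Matrix.symplecticGroup (Fin m) F))
    (A B : Submodule F (Fin m ⊕ Fin m → F))
    (hAB : ∀ a ∈ A, ∀ b ∈ B, Cfsg.sympForm m F a b = 0)
    (hA : ∀ a ∈ A, a ∈ dirs M)
    (ndA : ∀ a ∈ A, a ≠ 0 → ∃ x ∈ A, Cfsg.sympForm m F a x ≠ 0)
    (a₁ a₂ b : Fin m ⊕ Fin m → F) (h1 : a₁ ∈ A) (h2 : a₂ ∈ A) (hb : b ∈ B)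
    (h10 : a₁ ≠ 0) (h20 : a₂ ≠ 0) (hin : a₁ + b ∈ dirs M) : a₂ + b ∈ dirs M := by
  by_cases hne : Cfsg.sympForm m F a₁ a₂ = 0
  · obtain ⟨x₁, hx₁, hx₁n⟩ := ndA a₁ h1 h10
    obtain ⟨x₂, hx₂, hx₂n⟩ := ndA a₂ h2 h20
    have hx₂n' : Cfsg.sympForm m F x₂ a₂ ≠ 0 := by
      rw [sf_swap]; exact neg_ne_zero.mpr hx₂n
    have hz : ∃ z ∈ A, Cfsg.sympForm m F a₁ z ≠ 0 ∧ Cfsg.sympForm m F z a₂ ≠ 0 := by
      by_cases c1 : Cfsg.sympForm m F x₁ a₂ = 0
      · by_cases c2 : Cfsg.sympForm m F a₁ x₂ = 0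
        · refine ⟨x₁ + x₂, A.add_mem hx₁ hx₂, ?_, ?_⟩
          · rw [sf_add_right, c2, add_zero]; exact hx₁n
          · rw [sf_add_left, c1, zero_add]; exact hx₂n'
        · exact ⟨x₂, hx₂, c2, hx₂n'⟩
      · exact ⟨x₁, hx₁, hx₁n, c1⟩
    obtain ⟨z, hz, hz1, hz2⟩ := hz
    exact move_aux M A B hAB hA z a₂ b hz h2 hb hz2
      (move_aux M A B hAB hA a₁ z b h1 hz hb hz1 hin)
  · exact move_aux M A B hAB hA a₁ a₂ b h1 h2 hb hne hin

theorem nd_setup (W : Submodule F (Fin m ⊕ Fin m → F))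
    (hW : Cfsg.Geo.IsNondegenerateOn (Cfsg.sympForm m F) W) :
    ∃ Wp : Submodule F (Fin m ⊕ Fin m → F),
      (∀ a ∈ W, ∀ b ∈ Wp, Cfsg.sympForm m F a b = 0) ∧
      (∀ v, ∃ a ∈ W, ∃ b ∈ Wp, a + b = v) ∧
      (∀ a, a ∈ W → a ∈ Wp → a = 0) ∧
      Module.finrank F W + Module.finrank F Wp = 2 * m := by
  classical
  have hres : ((sfB m F).restrict W).Nondegenerate := by
    constructor
    · intro x hx
      by_contra hne
      obtain ⟨-, y, hy, hxy⟩ := hW x x.2 (fun h => hne (Subtype.ext h))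
      exact hxy (hx ⟨y, hy⟩)
    · intro y hy
      by_contra hne
      obtain ⟨⟨x, hx, hxy⟩, -⟩ := hW y y.2 (fun h => hne (Subtype.ext h))
      exact hxy (hy ⟨x, hx⟩)
  have hcompl : IsCompl W ((sfB m F).orthogonal W) :=
    LinearMap.BilinForm.isCompl_orthogonal_of_restrict_nondegenerate (sfB_alt m).isRefl hres
  refine ⟨(sfB m F).orthogonal W, ?_, ?_, ?_, ?_⟩
  · intro a ha b hb
    exact (LinearMap.BilinForm.mem_orthogonal_iff.mp hb) a ha
  · intro v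
    have : v ∈ W ⊔ (sfB m F).orthogonal W := by rw [hcompl.sup_eq_top]; trivial
    exact Submodule.mem_sup.mp this
  · intro a h1 h2
    exact Submodule.disjoint_def.mp hcompl.disjoint a h1 h2
  · rw [Submodule.finrank_add_eq_of_isCompl hcompl, Module.finrank_fintype_fun_eq_card,
      Fintype.card_sum, Fintype.card_fin]
    ring

theorem core_nd (W : Submodule F (Fin m ⊕ Fin m → F)) (hW0 : W ≠ ⊥)
    (hW : Cfsg.Geo.IsNondegenerateOn (Cfsg.sympForm m F) W) (hdim : Module.finrank F W < m)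
    (M : Subgroup (Matrix.symplecticGroup (Fin m) F))
    (hP : ∀ A : Matrix.symplecticGroup (Fin m) F,
      (∀ v, v ∈ W ↔ (A : Matrix (Fin m ⊕ Fin m) (Fin m ⊕ Fin m) F) *ᵥ v ∈ W) → A ∈ M)
    (hex : ∃ A ∈ M, ¬ (∀ v, v ∈ W ↔ (A : Matrix (Fin m ⊕ Fin m) (Fin m ⊕ Fin m) F) *ᵥ v ∈ W)) :
    M = ⊤ := by
  classical
  obtain ⟨Wp, hWWp, hdec, hdisj, hfr⟩ := nd_setup W hW
  have hWpW : ∀ b ∈ Wp, ∀ a ∈ W, Cfsg.sympForm m F b a = 0 := by
    intro b hb a ha; rw [sf_swap, hWWp a ha b hb, neg_zero]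
  have ndW : ∀ a ∈ W, a ≠ 0 → ∃ x ∈ W, Cfsg.sympForm m F a x ≠ 0 :=
    fun a ha h0 => (hW a ha h0).2
  have ndWp : ∀ b ∈ Wp, b ≠ 0 → ∃ x ∈ Wp, Cfsg.sympForm m F b x ≠ 0 := by
    intro b hb h0
    obtain ⟨v, hv⟩ := S0768.nondeg b h0
    obtain ⟨a, ha, x, hx, rfl⟩ := hdec v
    refine ⟨x, hx, ?_⟩
    rw [sf_add_right, hWpW b hb a ha, zero_add] at hv
    exact hv
  have hS1 : ∀ x ∈ W, x ∈ dirs M := by
    intro x hx c
    apply hP
    intro v
    rw [tvS_mulVec]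
    exact (Submodule.add_mem_iff_left W (W.smul_mem _ hx)).symm
  have hS2 : ∀ x ∈ Wp, x ∈ dirs M := by
    intro x hx c
    apply hP
    apply stab_of
    · intro v hv
      rw [tvS_mulVec, hWWp v hv x hx, mul_zero, zero_smul, add_zero]
      exact hv
    · intro v hv
      rw [tvS_inv, tvS_mulVec, hWWp v hv x hx, mul_zero, zero_smul, add_zero]
      exact hv
  obtain ⟨h, hhM, hhP⟩ := hex
  have hinj : ∀ v, (h : Matrix (Fin m ⊕ Fin m) (Fin m ⊕ Fin m) F) *ᵥ v = 0 → v = 0 := by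
    intro v hv
    have := sp_inv_mulVec h v
    rw [hv, Matrix.mulVec_zero] at this
    exact this.symm
  have key1 : ∃ x, (x ∈ W ∨ x ∈ Wp) ∧
      (h : Matrix (Fin m ⊕ Fin m) (Fin m ⊕ Fin m) F) *ᵥ x ∉ W ∧
      (h : Matrix (Fin m ⊕ Fin m) (Fin m ⊕ Fin m) F) *ᵥ x ∉ Wp := by
    by_contra hcon
    push Not at hcon
    obtain ⟨f, hf⟩ : ∃ f : (Fin m ⊕ Fin m → F) →ₗ[F] (Fin m ⊕ Fin m → F),
      f = Matrix.mulVecLin (h : Matrix (Fin m ⊕ Fin m) (Fin m ⊕ Fin m) F) := ⟨_, rfl⟩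
    have hfa : ∀ v, f v = (h : Matrix (Fin m ⊕ Fin m) (Fin m ⊕ Fin m) F) *ᵥ v := by
      intro v; rw [hf]; rfl
    have c1 : Wp ≤ W.comap f ∨ Wp ≤ Wp.comap f := by
      apply sub_union
      intro x hx
      by_cases h1 : f x ∈ W
      · left; exact h1
      · right
        rw [Submodule.mem_comap]
        rw [hfa] at h1 ⊢
        exact hcon x (Or.inr hx) h1
    have c2 : W ≤ W.comap f ∨ W ≤ Wp.comap f := by
      apply sub_union
      intro x hx
      by_cases h1 : f x ∈ W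
      · left; exact h1
      · right
        rw [Submodule.mem_comap]
        rw [hfa] at h1 ⊢
        exact hcon x (Or.inl hx) h1
    rcases c1 with c1 | c1
    · have hle : Module.finrank F Wp ≤ Module.finrank F W := by
        have hinj' : Function.Injective (f.restrict (p := Wp) (q := W) (fun x hx => c1 hx)) := by
          intro x y hxy
          have h3 : f (x : Fin m ⊕ Fin m → F) = f (y : Fin m ⊕ Fin m → F) :=
            congrArg Subtype.val hxy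
          have h4 : f ((x : Fin m ⊕ Fin m → F) - y) = 0 := by rw [map_sub, h3, sub_self]
          rw [hfa] at h4
          exact Subtype.ext (sub_eq_zero.mp (hinj _ h4))
        exact LinearMap.finrank_le_finrank_of_injective hinj'
      omega
    · rcases c2 with c2 | c2
      · apply hhP
        intro v
        constructor
        · intro hv
          have := c2 hv
          rwa [Submodule.mem_comap, hfa] at this
        · intro hv
          obtain ⟨a, ha, b, hb, rfl⟩ := hdec v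
          have h1 : f a ∈ W := c2 ha
          have h2 : f b ∈ Wp := c1 hb
          have h3 : f b ∈ W := by
            have h5 : f (a + b) ∈ W := by rw [hfa]; exact hv
            rw [map_add] at h5
            exact (Submodule.add_mem_iff_right W h1).mp h5
          have h4 : f b = 0 := hdisj _ h3 h2
          have h5 : b = 0 := hinj b (by rw [← hfa]; exact h4)
          rw [h5, add_zero]; exact ha
      · have hall : ∀ v, v ∈ Wp := by
          intro v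
          have hv' := sp_mulVec_inv h v
          obtain ⟨a, ha, b, hb, hab⟩ := hdec
            (((h⁻¹ : Matrix.symplecticGroup (Fin m) F) :
              Matrix (Fin m ⊕ Fin m) (Fin m ⊕ Fin m) F) *ᵥ v)
          have h6 : f (a + b) = v := by rw [hab, hfa]; exact hv'
          rw [map_add] at h6
          rw [← h6]
          exact Wp.add_mem (c2 ha) (c1 hb)
        obtain ⟨a, ha, ha0⟩ := (Submodule.ne_bot_iff W).mp hW0
        exact ha0 (hdisj a ha (hall a))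
  obtain ⟨x₀, hx₀, hy₀W, hy₀Wp⟩ := key1
  have hx₀S : x₀ ∈ dirs M := hx₀.elim (hS1 x₀) (hS2 x₀)
  have hy₀S := dirs_conj M h hhM x₀ hx₀S
  apply top_of_dirs
  intro v
  obtain ⟨a₀, ha₀, b₀, hb₀, hab₀⟩ := hdec ((h : Matrix (Fin m ⊕ Fin m) (Fin m ⊕ Fin m) F) *ᵥ x₀)
  have ha₀0 : a₀ ≠ 0 := by
    rintro rfl
    rw [zero_add] at hab₀
    exact hy₀Wp (hab₀ ▸ hb₀)
  have hb₀0 : b₀ ≠ 0 := by
    rintro rfl
    rw [add_zero] at hab₀
    exact hy₀W (hab₀ ▸ ha₀)
  rw [← hab₀] at hy₀S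
  obtain ⟨a, ha, b, hb, rfl⟩ := hdec v
  by_cases ha0 : a = 0
  · rw [ha0, zero_add]; exact hS2 b hb
  by_cases hb0 : b = 0
  · rw [hb0, add_zero]; exact hS1 a ha
  have s1 : a + b₀ ∈ dirs M := move M W Wp hWWp hS1 ndW a₀ a b₀ ha₀ ha hb₀ ha₀0 ha0 hy₀S
  have s2 : b + a ∈ dirs M :=
    move M Wp W hWpW hS2 ndWp b₀ b a hb₀ hb ha hb₀0 hb0 (by rw [add_comm]; exact s1)
  rw [add_comm]; exact s2

/-- For a finite field F and m ≥ 7, in the symplectic group Sp_2m(F) of the standard alternating form on F^(2m), the stabiliser of any non-zero subspace W on which the form is non-degenerate and with dim W < m is a maximal subgroup. -/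
theorem result {F : Type*} [Field F] [Fintype F] (m : ℕ) (hm : 7 ≤ m) (W : Submodule F (Fin m ⊕ Fin m → F)) (hW0 : W ≠ ⊥) (hW : Cfsg.Geo.IsNondegenerateOn (Cfsg.sympForm m F) W) (hdim : Module.finrank F W < m) : Cfsg.Geo.IsMaximalIn (Cfsg.spGL m F) (Cfsg.Geo.subspaceStabilizer W ⊓ Cfsg.spGL m F) := by
  classical
  apply maximal_of_core
  · obtain ⟨Wp, hWWp, hdec, hdisj, hfr⟩ := nd_setup W hW
    obtain ⟨a, ha, ha0⟩ := (Submodule.ne_bot_iff W).mp hW0
    have hpos : 0 < Module.finrank F Wp := by omega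
    obtain ⟨⟨b, hb⟩, hb0⟩ := Module.finrank_pos_iff_exists_ne_zero.mp hpos
    have hb0' : b ≠ 0 := fun h => hb0 (Subtype.ext h)
    obtain ⟨x, hx, hax⟩ := (hW a ha ha0).2
    have hxa : Cfsg.sympForm m F x a ≠ 0 := by
      rw [Cfsg.Agent.Helper6.sf_swap]; exact neg_ne_zero.mpr hax
    refine ⟨Cfsg.Agent.Helper6.tvS (a + b) 1, fun hst => ?_⟩
    have h1 := (hst x).1 hx
    rw [Cfsg.Agent.Helper6.tvS_mulVec, Cfsg.Agent.Helper6.sf_add_right, hWWp x hx b hb, add_zero,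
      one_mul, smul_add, ← add_assoc] at h1
    have h2 : Cfsg.sympForm m F x a • b ∈ W :=
      (Submodule.add_mem_iff_right W (W.add_mem hx (W.smul_mem _ ha))).mp h1
    have h3 : b ∈ W := by
      have := W.smul_mem (Cfsg.sympForm m F x a)⁻¹ h2
      rwa [smul_smul, inv_mul_cancel₀ hxa, one_smul] at this
    exact hb0' (hdisj b h3 hb)
  · intro M hP hex
    exact core_nd W hW0 hW hdim M hP hex

end Cfsg.Agent.S5646
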