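import Mathlib
import Cfsg.Statements.S5647
import Cfsg.Agent.Helper6.PSpSimple
import Cfsg.Agent.Helper6.SpFrames
import Cfsg.Agent.S5646

set_option autoImplicit false
open Cfsg

namespace Cfsg.Agent.S5647

open Matrix Cfsg.Agent.Helper6 Cfsg.Agent.S5646

variable {F : Type*} [Field F] {m : ℕ}

/-- transfer of maximality from `Matrix.symplecticGroup` to `spGL`, for any subgroup `K₀` -/
theorem maximal_of_core' (K₀ : Subgroup (GL (Fin m ⊕ Fin m) F))
    (hlt : ∃ A : Matrix.symplecticGroup (Fin m) F,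
      ((toGHom m F A : ↥(Cfsg.spGL m F)) : GL (Fin m ⊕ Fin m) F) ∉ K₀)
    (hcore : ∀ M : Subgroup (Matrix.symplecticGroup (Fin m) F),
      (∀ A : Matrix.symplecticGroup (Fin m) F,
        ((toGHom m F A : ↥(Cfsg.spGL m F)) : GL (Fin m ⊕ Fin m) F) ∈ K₀ → A ∈ M) →
      (∃ A ∈ M, ((toGHom m F A : ↥(Cfsg.spGL m F)) : GL (Fin m ⊕ Fin m) F) ∉ K₀) →
      M = ⊤) :
    Cfsg.Geo.IsMaximalIn (Cfsg.spGL m F) (K₀ ⊓ Cfsg.spGL m F) := by
  constructor
  · refine lt_of_le_of_ne inf_le_right ?_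
    intro heq
    obtain ⟨A, hA⟩ := hlt
    have h1 : ((toGHom m F A : ↥(Cfsg.spGL m F)) : GL (Fin m ⊕ Fin m) F) ∈
        K₀ ⊓ Cfsg.spGL m F := by
      rw [heq]; exact (toGHom m F A).2
    exact hA h1.1
  · intro M hPM hMK
    by_cases hMP : M ≤ K₀ ⊓ Cfsg.spGL m F
    · left; exact le_antisymm hMP hPM
    · right
      obtain ⟨h, hhM, hhP⟩ := SetLike.not_le_iff_exists.mp hMP
      obtain ⟨A, hA⟩ := toGHom_surjective (⟨h, hMK hhM⟩ : ↥(Cfsg.spGL m F))
      have hAh : ((toGHom m F A : ↥(Cfsg.spGL m F)) : GL (Fin m ⊕ Fin m) F) = h := by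
        rw [hA]
      have key := hcore (M.comap ((Cfsg.spGL m F).subtype.comp (toGHom m F))) ?_ ?_
      · apply le_antisymm hMK
        intro g hg
        obtain ⟨B, hB⟩ := toGHom_surjective (⟨g, hg⟩ : ↥(Cfsg.spGL m F))
        have hBg : ((toGHom m F B : ↥(Cfsg.spGL m F)) : GL (Fin m ⊕ Fin m) F) = g := by
          rw [hB]
        have h2 : B ∈ M.comap ((Cfsg.spGL m F).subtype.comp (toGHom m F)) := by
          rw [key]; trivial
        rw [Subgroup.mem_comap] at h2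
        rw [← hBg]
        exact h2
      · intro B hB
        rw [Subgroup.mem_comap]
        apply hPM
        exact ⟨hB, (toGHom m F B).2⟩
      · refine ⟨A, ?_, ?_⟩
        · rw [Subgroup.mem_comap]
          show ((toGHom m F A : ↥(Cfsg.spGL m F)) : GL (Fin m ⊕ Fin m) F) ∈ M
          rw [hAh]; exact hhM
        · intro hst
          apply hhP
          refine ⟨?_, hMK hhM⟩
          rw [← hAh]
          exact hst

/-- elements generated by transvections from `U` preserve `U` -/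
theorem closure_sgens_pres (U : Submodule F (Fin m ⊕ Fin m → F))
    (A : Matrix.symplecticGroup (Fin m) F) (hA : A ∈ Subgroup.closure (sgens U)) :
    ∀ z, z ∈ U ↔ (A : Matrix (Fin m ⊕ Fin m) (Fin m ⊕ Fin m) F) *ᵥ z ∈ U := by
  induction hA using Subgroup.closure_induction with
  | mem B hB =>
    obtain ⟨w, hw, c, hB⟩ := hB
    intro z
    rw [hB, tv_mulVec]
    exact (Submodule.add_mem_iff_left U (U.smul_mem _ hw)).symm
  | one => intro z; rw [sp_coe_one, Matrix.one_mulVec]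
  | mul B C _ _ hB hC =>
    intro z
    rw [sp_coe_mul, ← Matrix.mulVec_mulVec]
    exact (hC z).trans (hB _)
  | inv B _ hB =>
    intro z
    have h1 := hB (((B⁻¹ : Matrix.symplecticGroup (Fin m) F) :
      Matrix (Fin m ⊕ Fin m) (Fin m ⊕ Fin m) F) *ᵥ z)
    rw [sp_mulVec_inv] at h1
    exact h1.symm

theorem sgens_mono {U U' : Submodule F (Fin m ⊕ Fin m → F)} (h : U ≤ U') :
    Subgroup.closure (sgens U) ≤ Subgroup.closure (sgens U') := by
  apply Subgroup.closure_mono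
  rintro A ⟨w, hw, c, hA⟩
  exact ⟨w, h hw, c, hA⟩

/-- the group generated by the transvections from a nondegenerate subspace `U` is transitive on
the nondegenerate subspaces of `U` of a given dimension -/
theorem rel_trans : ∀ n : ℕ, ∀ (U W W' : Submodule F (Fin m ⊕ Fin m → F)),
    W ≤ U → W' ≤ U →
    (∀ u ∈ U, (∀ v ∈ U, Cfsg.sympForm m F u v = 0) → u = 0) →
    (∀ u ∈ W, (∀ v ∈ W, Cfsg.sympForm m F u v = 0) → u = 0) →
    (∀ u ∈ W', (∀ v ∈ W', Cfsg.sympForm m F u v = 0) → u = 0) →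
    Module.finrank F W = n → Module.finrank F W' = n →
    ∃ A ∈ Subgroup.closure (sgens U),
      ∀ x ∈ W, (A : Matrix (Fin m ⊕ Fin m) (Fin m ⊕ Fin m) F) *ᵥ x ∈ W' := by
  classical
  intro n
  induction n using Nat.strong_induction_on with
  | _ n ih =>
    intro U W W' hWU hW'U hU hW hW' hfin hfin'
    by_cases hbot : W = ⊥
    · refine ⟨1, Subgroup.one_mem _, fun x hx => ?_⟩
      rw [hbot, Submodule.mem_bot] at hx
      rw [hx, Matrix.mulVec_zero]
      exact W'.zero_mem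
    have hbot' : W' ≠ ⊥ := by
      intro h
      rw [h, finrank_bot] at hfin'
      rw [← hfin'] at hfin
      exact hbot (Submodule.finrank_eq_zero.1 hfin)
    have hpair : ∀ X : Submodule F (Fin m ⊕ Fin m → F), X ≠ ⊥ →
        (∀ u ∈ X, (∀ v ∈ X, Cfsg.sympForm m F u v = 0) → u = 0) →
        ∃ u ∈ X, ∃ v ∈ X, Cfsg.sympForm m F u v = 1 := by
      intro X hX hXnd
      obtain ⟨u, huX, hu0⟩ := Submodule.exists_mem_ne_zero_of_ne_bot hX
      obtain ⟨v0, hv0X, hv0⟩ : ∃ v0 ∈ X, Cfsg.sympForm m F u v0 ≠ 0 := by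
        by_contra hcon
        push Not at hcon
        exact hu0 (hXnd u huX hcon)
      exact ⟨u, huX, (Cfsg.sympForm m F u v0)⁻¹ • v0, X.smul_mem _ hv0X, by
        rw [sf_smul_right, inv_mul_cancel₀ hv0]⟩
    obtain ⟨u, hu, v, hv, huv⟩ := hpair W hbot hW
    obtain ⟨u', hu', v', hv', huv'⟩ := hpair W' hbot' hW'
    have hU' : ∀ x ∈ U, x ≠ 0 → ∃ y ∈ U, Cfsg.sympForm m F x y ≠ 0 := by
      intro x hx hx0
      by_contra hcon
      push Not at hcon
      exact hx0 (hU x hx hcon)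
    obtain ⟨A₁, hA₁, hA₁u, hA₁v⟩ := strans U hU' u v u' v' (hWU hu) (hWU hv) (hW'U hu')
      (hW'U hv') huv huv'
    have hinj : Function.Injective (Matrix.toLin' (A₁ : Matrix (Fin m ⊕ Fin m) (Fin m ⊕ Fin m) F)) := by
      intro x y hxy
      rw [Matrix.toLin'_apply, Matrix.toLin'_apply] at hxy
      have h5 : ((A₁⁻¹ : Matrix.symplecticGroup (Fin m) F) :
          Matrix (Fin m ⊕ Fin m) (Fin m ⊕ Fin m) F) *ᵥ
            ((A₁ : Matrix (Fin m ⊕ Fin m) (Fin m ⊕ Fin m) F) *ᵥ x)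
          = ((A₁⁻¹ : Matrix.symplecticGroup (Fin m) F) :
          Matrix (Fin m ⊕ Fin m) (Fin m ⊕ Fin m) F) *ᵥ
            ((A₁ : Matrix (Fin m ⊕ Fin m) (Fin m ⊕ Fin m) F) *ᵥ y) := by rw [hxy]
      rwa [sp_inv_mulVec, sp_inv_mulVec] at h5
    obtain ⟨W₂, hW₂⟩ : ∃ W₂, W₂ = (sW' W u v).map
      (Matrix.toLin' (A₁ : Matrix (Fin m ⊕ Fin m) (Fin m ⊕ Fin m) F)) := ⟨_, rfl⟩
    have memW₂ : ∀ x, x ∈ W₂ ↔ ∃ y ∈ sW' W u v,
        (A₁ : Matrix (Fin m ⊕ Fin m) (Fin m ⊕ Fin m) F) *ᵥ y = x := by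
      intro x
      rw [hW₂, Submodule.mem_map]
      simp only [Matrix.toLin'_apply]
    have h1 : W₂ ≤ sW' U u' v' := by
      intro x hx
      obtain ⟨y, hy, rfl⟩ := (memW₂ x).1 hx
      refine ⟨(closure_sgens_pres U A₁ hA₁ y).1 (hWU hy.1), ?_, ?_⟩
      · rw [← hA₁u, sp_preserves]; exact hy.2.1
      · rw [← hA₁v, sp_preserves]; exact hy.2.2
    have h2 : sW' W' u' v' ≤ sW' U u' v' := fun x hx => ⟨hW'U hx.1, hx.2.1, hx.2.2⟩
    have h3 : ∀ x ∈ W₂, (∀ y ∈ W₂, Cfsg.sympForm m F x y = 0) → x = 0 := by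
      intro x hx hperp
      obtain ⟨y, hy, rfl⟩ := (memW₂ x).1 hx
      have : y = 0 := by
        apply sW'_nondeg W u v hu hv huv hW y hy
        intro z hz
        have := hperp _ ((memW₂ _).2 ⟨z, hz, rfl⟩)
        rwa [sp_preserves] at this
      rw [this, Matrix.mulVec_zero]
    have hf1 := sW'_finrank W u v hu hv huv
    have hf2 := sW'_finrank W' u' v' hu' hv' huv'
    have hf3 : Module.finrank F W₂ = Module.finrank F (sW' W u v) := by
      rw [hW₂]
      exact (LinearEquiv.finrank_eq (Submodule.equivMapOfInjective _ hinj (sW' W u v))).symm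
    obtain ⟨A₂, hA₂, hA₂W⟩ := ih (n - 2) (by omega) (sW' U u' v') W₂ (sW' W' u' v') h1 h2
      (sW'_nondeg U u' v' (hW'U hu') (hW'U hv') huv' hU) h3
      (sW'_nondeg W' u' v' hu' hv' huv' hW') (by omega) (by omega)
    have hfixu : (A₂ : Matrix (Fin m ⊕ Fin m) (Fin m ⊕ Fin m) F) *ᵥ u' = u' :=
      sfix_perp _ A₂ hA₂ u' (fun w hw => by rw [sf_swap, hw.2.1, neg_zero])
    have hfixv : (A₂ : Matrix (Fin m ⊕ Fin m) (Fin m ⊕ Fin m) F) *ᵥ v' = v' :=
      sfix_perp _ A₂ hA₂ v' (fun w hw => by rw [sf_swap, hw.2.2, neg_zero])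
    refine ⟨A₂ * A₁, Subgroup.mul_mem _ (sgens_mono (U := sW' U u' v') (U' := U) (fun x hx => hx.1) hA₂) hA₁, fun x hx => ?_⟩
    have hdec := sW'_decomp W u v hu hv huv x hx
    obtain ⟨x₀, hx₀⟩ : ∃ x₀, x₀ = x - Cfsg.sympForm m F x v • u + Cfsg.sympForm m F x u • v :=
      ⟨_, rfl⟩
    rw [← hx₀] at hdec
    have hx_eq : x = x₀ + Cfsg.sympForm m F x v • u - Cfsg.sympForm m F x u • v := by
      rw [hx₀]; abel
    have himg := hA₂W _ ((memW₂ _).2 ⟨x₀, hdec, rfl⟩)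
    rw [sp_coe_mul, ← Matrix.mulVec_mulVec, hx_eq]
    simp only [Matrix.mulVec_add, Matrix.mulVec_sub, Matrix.mulVec_smul, hA₁u, hA₁v, hfixu, hfixv]
    exact W'.sub_mem (W'.add_mem himg.1 (W'.smul_mem _ hu')) (W'.smul_mem _ hv')

section decomp

variable {t k : ℕ} {D : Fin t → Submodule F (Fin m ⊕ Fin m → F)}

theorem D_nd (hD : Cfsg.Geo.IsNondegenerateMDecomposition (Cfsg.sympForm m F) k D) (i : Fin t)
    (a : Fin m ⊕ Fin m → F) (ha : a ∈ D i) (ha0 : a ≠ 0) :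
    ∃ x ∈ D i, Cfsg.sympForm m F a x ≠ 0 := (hD.nondegenerate i a ha ha0).2

theorem D_nd' (hD : Cfsg.Geo.IsNondegenerateMDecomposition (Cfsg.sympForm m F) k D) (i : Fin t) :
    ∀ u ∈ D i, (∀ v ∈ D i, Cfsg.sympForm m F u v = 0) → u = 0 := by
  intro u hu h
  by_contra h0
  obtain ⟨x, hx, hne⟩ := D_nd hD i u hu h0
  exact hne (h x hx)

theorem D_disj (hD : Cfsg.Geo.IsNondegenerateMDecomposition (Cfsg.sympForm m F) k D) (i j : Fin t)
    (hij : i ≠ j) (v : Fin m ⊕ Fin m → F) (h1 : v ∈ D i) (h2 : v ∈ D j) : v = 0 := by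
  by_contra h0
  obtain ⟨x, hx, hne⟩ := D_nd hD i v h1 h0
  exact hne (hD.orthogonal j i hij.symm v h2 x hx)

theorem two_comp (hD : Cfsg.Geo.IsNondegenerateMDecomposition (Cfsg.sympForm m F) k D)
    (i j : Fin t) (hij : i ≠ j) (p q : Fin m ⊕ Fin m → F) (hp : p ∈ D i) (hq : q ∈ D j)
    (hp0 : p ≠ 0) (hq0 : q ≠ 0) (l : Fin t) : p + q ∉ D l := by
  intro hmem
  by_cases hli : l = i
  · obtain ⟨y, hy, hne⟩ := D_nd hD j q hq hq0
    have h1 := hD.orthogonal l j (by rw [hli]; exact hij) (p + q) hmem y hy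
    rw [sf_add_left, hD.orthogonal i j hij p hp y hy, zero_add] at h1
    exact hne h1
  · obtain ⟨x, hx, hne⟩ := D_nd hD i p hp hp0
    have h1 := hD.orthogonal l i hli (p + q) hmem x hx
    rw [sf_add_left, hD.orthogonal j i hij.symm q hq x hx, add_zero] at h1
    exact hne h1

/-- the sum of the blocks indexed by `s` -/
def Us (D : Fin t → Submodule F (Fin m ⊕ Fin m → F)) (s : Finset (Fin t)) :
    Submodule F (Fin m ⊕ Fin m → F) := ⨆ j ∈ s, D j

theorem mem_Us_insert (D : Fin t → Submodule F (Fin m ⊕ Fin m → F)) (l : Fin t)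
    (s : Finset (Fin t)) (x : Fin m ⊕ Fin m → F) :
    x ∈ Us D (insert l s) ↔ ∃ a ∈ D l, ∃ z ∈ Us D s, a + z = x := by
  classical
  unfold Us
  rw [Finset.iSup_insert, Submodule.mem_sup]

theorem Us_mono (D : Fin t → Submodule F (Fin m ⊕ Fin m → F)) {s s' : Finset (Fin t)}
    (h : s ⊆ s') : Us D s ≤ Us D s' := by
  unfold Us
  exact biSup_mono (fun i hi => h hi)

theorem D_le_Us (D : Fin t → Submodule F (Fin m ⊕ Fin m → F)) (j : Fin t) (s : Finset (Fin t))
    (hj : j ∈ s) : D j ≤ Us D s := by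
  unfold Us
  exact le_iSup₂ (f := fun j (_ : j ∈ s) => D j) j hj

theorem Us_orth (hD : Cfsg.Geo.IsNondegenerateMDecomposition (Cfsg.sympForm m F) k D) (l : Fin t)
    (s : Finset (Fin t)) (hl : l ∉ s) :
    ∀ z ∈ Us D s, ∀ a ∈ D l, Cfsg.sympForm m F z a = 0 := by
  have h : Us D s ≤ (sfB m F).orthogonal (D l) := by
    unfold Us
    apply iSup₂_le
    intro j hj x hx
    rw [LinearMap.BilinForm.mem_orthogonal_iff]
    intro a ha
    exact hD.orthogonal l j (by rintro rfl; exact hl hj) a ha x hx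
  intro z hz a ha
  have h1 : Cfsg.sympForm m F a z = 0 := LinearMap.BilinForm.mem_orthogonal_iff.mp (h hz) a ha
  rw [sf_swap, h1, neg_zero]

theorem Us_univ (hD : Cfsg.Geo.IsNondegenerateMDecomposition (Cfsg.sympForm m F) k D) :
    Us D Finset.univ = ⊤ := by
  unfold Us
  simp only [Finset.mem_univ, iSup_pos]
  exact hD.decomp.iSup_eq_top

theorem extract (D : Fin t → Submodule F (Fin m ⊕ Fin m → F)) :
    ∀ s : Finset (Fin t), ∀ z ∈ Us D s, z ≠ 0 →
      ∃ j ∈ s, ∃ a ∈ D j, a ≠ 0 ∧ z - a ∈ Us D (s.erase j) := by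
  classical
  intro s
  induction s using Finset.induction_on with
  | empty =>
    intro z hz hz0
    unfold Us at hz
    simp at hz
    exact absurd hz hz0
  | insert l s hl ih =>
    intro z hz hz0
    obtain ⟨a, ha, z', hz', rfl⟩ := (mem_Us_insert D l s z).1 hz
    by_cases ha0 : a = 0
    · rw [ha0, zero_add] at hz0 ⊢
      obtain ⟨j, hj, b, hb, hb0, hsub⟩ := ih z' hz' hz0
      exact ⟨j, Finset.mem_insert_of_mem hj, b, hb, hb0,
        Us_mono D (Finset.erase_subset_erase j (Finset.subset_insert l s)) hsub⟩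
    · refine ⟨l, Finset.mem_insert_self l s, a, ha, ha0, ?_⟩
      rw [add_sub_cancel_left, Finset.erase_insert hl]
      exact hz'

theorem toLin_inj (A : Matrix.symplecticGroup (Fin m) F) :
    Function.Injective (Matrix.toLin' (A : Matrix (Fin m ⊕ Fin m) (Fin m ⊕ Fin m) F)) := by
  intro x y hxy
  rw [Matrix.toLin'_apply, Matrix.toLin'_apply] at hxy
  have h5 : ((A⁻¹ : Matrix.symplecticGroup (Fin m) F) :
      Matrix (Fin m ⊕ Fin m) (Fin m ⊕ Fin m) F) *ᵥ
        ((A : Matrix (Fin m ⊕ Fin m) (Fin m ⊕ Fin m) F) *ᵥ x)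
      = ((A⁻¹ : Matrix.symplecticGroup (Fin m) F) :
      Matrix (Fin m ⊕ Fin m) (Fin m ⊕ Fin m) F) *ᵥ
        ((A : Matrix (Fin m ⊕ Fin m) (Fin m ⊕ Fin m) F) *ᵥ y) := by rw [hxy]
  rwa [sp_inv_mulVec, sp_inv_mulVec] at h5

theorem map_eq_of_le (hD : Cfsg.Geo.IsNondegenerateMDecomposition (Cfsg.sympForm m F) k D)
    (A : Matrix.symplecticGroup (Fin m) F) (i j : Fin t)
    (h : ∀ x ∈ D i, (A : Matrix (Fin m ⊕ Fin m) (Fin m ⊕ Fin m) F) *ᵥ x ∈ D j) :
    (D i).map (Matrix.toLin' (A : Matrix (Fin m ⊕ Fin m) (Fin m ⊕ Fin m) F)) = D j := by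
  apply Submodule.eq_of_le_of_finrank_eq
  · rintro _ ⟨x, hx, rfl⟩
    rw [Matrix.toLin'_apply]
    exact h x hx
  · rw [← LinearEquiv.finrank_eq (Submodule.equivMapOfInjective _ (toLin_inj A) (D i)),
      hD.decomp.finrank_eq, hD.decomp.finrank_eq]

theorem mem_H_of_perm (hD : Cfsg.Geo.IsNondegenerateMDecomposition (Cfsg.sympForm m F) k D)
    (A : Matrix.symplecticGroup (Fin m) F) (σ : Equiv.Perm (Fin t))
    (h : ∀ i, ∀ x ∈ D i, (A : Matrix (Fin m ⊕ Fin m) (Fin m ⊕ Fin m) F) *ᵥ x ∈ D (σ i)) :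
    ((toGHom m F A : ↥(Cfsg.spGL m F)) : GL (Fin m ⊕ Fin m) F) ∈
      Cfsg.Geo.decompositionStabilizer D :=
  ⟨σ, fun i => map_eq_of_le hD A i (σ i) (h i)⟩

theorem swap_elt (hD : Cfsg.Geo.IsNondegenerateMDecomposition (Cfsg.sympForm m F) k D)
    (a b : Fin t) (hab : a ≠ b) :
    ∃ A : Matrix.symplecticGroup (Fin m) F,
      (∀ x ∈ D a, (A : Matrix (Fin m ⊕ Fin m) (Fin m ⊕ Fin m) F) *ᵥ x ∈ D b) ∧
      (∀ x ∈ D b, (A : Matrix (Fin m ⊕ Fin m) (Fin m ⊕ Fin m) F) *ᵥ x ∈ D a) ∧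
      ∀ i, i ≠ a → i ≠ b → ∀ x ∈ D i,
        (A : Matrix (Fin m ⊕ Fin m) (Fin m ⊕ Fin m) F) *ᵥ x = x := by
  classical
  obtain ⟨U, hU⟩ : ∃ U, U = D a ⊔ D b := ⟨_, rfl⟩
  have hDaU : D a ≤ U := by rw [hU]; exact le_sup_left
  have hDbU : D b ≤ U := by rw [hU]; exact le_sup_right
  have hdecU : ∀ x ∈ U, ∃ p ∈ D a, ∃ q ∈ D b, p + q = x := by
    intro x hx
    rw [hU] at hx
    exact Submodule.mem_sup.mp hx
  have hUnd : ∀ u ∈ U, (∀ v ∈ U, Cfsg.sympForm m F u v = 0) → u = 0 := by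
    intro u hu hperp
    obtain ⟨p, hp, q, hq, rfl⟩ := hdecU u hu
    have hp0 : p = 0 := by
      apply D_nd' hD a p hp
      intro y hy
      have := hperp y (hDaU hy)
      rwa [sf_add_left, hD.orthogonal b a hab.symm q hq y hy, add_zero] at this
    have hq0 : q = 0 := by
      apply D_nd' hD b q hq
      intro y hy
      have := hperp y (hDbU hy)
      rwa [sf_add_left, hD.orthogonal a b hab p hp y hy, zero_add] at this
    rw [hp0, hq0, add_zero]
  obtain ⟨A, hA, hAab⟩ := rel_trans k U (D a) (D b) hDaU hDbU hUnd (D_nd' hD a) (D_nd' hD b)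
    (hD.decomp.finrank_eq a) (hD.decomp.finrank_eq b)
  refine ⟨A, hAab, ?_, ?_⟩
  · intro x hx
    have hsurj : ∀ y ∈ D b, ∃ y' ∈ D a,
        (A : Matrix (Fin m ⊕ Fin m) (Fin m ⊕ Fin m) F) *ᵥ y' = y := by
      intro y hy
      have hmap := map_eq_of_le hD A a b hAab
      rw [← hmap] at hy
      obtain ⟨y', hy', rfl⟩ := hy
      exact ⟨y', hy', (Matrix.toLin'_apply _ _).symm⟩
    have hAxU : (A : Matrix (Fin m ⊕ Fin m) (Fin m ⊕ Fin m) F) *ᵥ x ∈ U :=
      (closure_sgens_pres U A hA x).1 (hDbU hx)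
    obtain ⟨p, hp, q, hq, hpq⟩ := hdecU _ hAxU
    have hq0 : q = 0 := by
      apply D_nd' hD b q hq
      intro y hy
      obtain ⟨y', hy', rfl⟩ := hsurj y hy
      have e : q = (A : Matrix (Fin m ⊕ Fin m) (Fin m ⊕ Fin m) F) *ᵥ x - p := by
        rw [← hpq]; abel
      rw [e, sf_sub_left, sp_preserves, hD.orthogonal b a hab.symm x hx y' hy',
        hD.orthogonal a b hab p hp _ (hAab y' hy'), sub_zero]
    rw [← hpq, hq0, add_zero]
    exact hp
  · intro i hia hib x hx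
    apply sfix_perp U A hA x
    intro w hw
    obtain ⟨p, hp, q, hq, rfl⟩ := hdecU w hw
    rw [sf_add_right, hD.orthogonal i a hia x hx p hp, hD.orthogonal i b hib x hx q hq, add_zero]

end decomp

section core

variable {t k : ℕ} {D : Fin t → Submodule F (Fin m ⊕ Fin m → F)}

theorem D_exists_ne (hD : Cfsg.Geo.IsNondegenerateMDecomposition (Cfsg.sympForm m F) k D)
    (i : Fin t) : ∃ x ∈ D i, x ≠ 0 := by
  have h1 : D i ≠ ⊥ := by
    intro h
    have h2 := hD.decomp.finrank_eq i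
    rw [h, finrank_bot] at h2
    have h3 := hD.decomp.pos
    omega
  exact Submodule.exists_mem_ne_zero_of_ne_bot h1

theorem moveD (hD : Cfsg.Geo.IsNondegenerateMDecomposition (Cfsg.sympForm m F) k D)
    (M : Subgroup (Matrix.symplecticGroup (Fin m) F))
    (hS : ∀ j, ∀ x ∈ D j, x ∈ dirs M) (j : Fin t) (a₁ a₂ b : Fin m ⊕ Fin m → F)
    (h1 : a₁ ∈ D j) (h2 : a₂ ∈ D j) (hb : ∀ x ∈ D j, Cfsg.sympForm m F x b = 0)
    (h10 : a₁ ≠ 0) (h20 : a₂ ≠ 0) (hin : a₁ + b ∈ dirs M) : a₂ + b ∈ dirs M :=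
  move M (D j) ((sfB m F).orthogonal (D j))
    (fun a ha b hb => LinearMap.BilinForm.mem_orthogonal_iff.mp hb a ha) (hS j) (D_nd hD j)
    a₁ a₂ b h1 h2 (LinearMap.BilinForm.mem_orthogonal_iff.mpr hb) h10 h20 hin

theorem k_ge_three [Fintype F] (hD : Cfsg.Geo.IsNondegenerateMDecomposition (Cfsg.sympForm m F) k D)
    (hk2 : k ≠ 2) (j : Fin t) : 3 ≤ k := by
  have hpos := hD.decomp.pos
  have hk1 : k ≠ 1 := by
    intro h1
    have hf := hD.decomp.finrank_eq j
    rw [h1] at hf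
    obtain ⟨⟨v, hv⟩, hv0, hall⟩ := finrank_eq_one_iff'.mp hf
    obtain ⟨b, hb, hb0⟩ := D_exists_ne hD j
    obtain ⟨c, hc, hbc⟩ := D_nd hD j b hb hb0
    obtain ⟨c₁, h1'⟩ := hall ⟨b, hb⟩
    obtain ⟨c₂, h2'⟩ := hall ⟨c, hc⟩
    have e1 : c₁ • v = b := congrArg Subtype.val h1'
    have e2 : c₂ • v = c := congrArg Subtype.val h2'
    apply hbc
    rw [← e1, ← e2, sf_smul_left, sf_smul_right, sf_self, mul_zero, mul_zero]
  omega

theorem core_dec [Fintype F]
    (hD : Cfsg.Geo.IsNondegenerateMDecomposition (Cfsg.sympForm m F) k D)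
    (hex : ¬ (k = 2 ∧ Fintype.card F = 2))
    (M : Subgroup (Matrix.symplecticGroup (Fin m) F))
    (hP : ∀ A : Matrix.symplecticGroup (Fin m) F,
      ((toGHom m F A : ↥(Cfsg.spGL m F)) : GL (Fin m ⊕ Fin m) F) ∈
        Cfsg.Geo.decompositionStabilizer D → A ∈ M)
    (hbad : ∃ A ∈ M, ((toGHom m F A : ↥(Cfsg.spGL m F)) : GL (Fin m ⊕ Fin m) F) ∉
        Cfsg.Geo.decompositionStabilizer D) : M = ⊤ := by
  classical
  have hS : ∀ j, ∀ x ∈ D j, x ∈ dirs M := by
    intro j x hx c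
    apply hP
    apply mem_H_of_perm hD _ 1
    intro i y hy
    rw [Equiv.Perm.one_apply, tvS_mulVec]
    by_cases hij : i = j
    · subst hij
      exact (D i).add_mem hy ((D i).smul_mem _ hx)
    · rw [hD.orthogonal i j hij y hy x hx, mul_zero, zero_smul, add_zero]
      exact hy
  obtain ⟨g, hgM, hgH⟩ := hbad
  have ginj : ∀ v, (g : Matrix (Fin m ⊕ Fin m) (Fin m ⊕ Fin m) F) *ᵥ v = 0 → v = 0 := by
    intro v hv
    have := sp_inv_mulVec g v
    rw [hv, Matrix.mulVec_zero] at this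
    exact this.symm
  have hbadv : ∃ i, ∃ x ∈ D i, ∀ j,
      (g : Matrix (Fin m ⊕ Fin m) (Fin m ⊕ Fin m) F) *ᵥ x ∉ D j := by
    by_contra hcon
    push Not at hcon
    apply hgH
    choose x hx hx0 using D_exists_ne hD
    choose σ hσ using fun i => hcon i (x i) (hx i)
    have claim1 : ∀ i, ∀ y ∈ D i,
        (g : Matrix (Fin m ⊕ Fin m) (Fin m ⊕ Fin m) F) *ᵥ y ∈ D (σ i) := by
      intro i y hy
      by_cases hy0 : y = 0
      · rw [hy0, Matrix.mulVec_zero]; exact (D (σ i)).zero_mem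
      obtain ⟨j, hj⟩ := hcon i y hy
      by_cases hjσ : j = σ i
      · rw [← hjσ]; exact hj
      · exfalso
        obtain ⟨l, hl⟩ := hcon i (y + x i) ((D i).add_mem hy (hx i))
        rw [Matrix.mulVec_add] at hl
        exact two_comp hD j (σ i) hjσ _ _ hj (hσ i) (fun h => hy0 (ginj y h))
          (fun h => hx0 i (ginj _ h)) l hl
    have σinj : Function.Injective σ := by
      intro i i' hii'
      by_contra hne
      have hmap := map_eq_of_le hD g i (σ i) (claim1 i)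
      have h1 : (g : Matrix (Fin m ⊕ Fin m) (Fin m ⊕ Fin m) F) *ᵥ x i' ∈ D (σ i) := by
        rw [hii']; exact hσ i'
      rw [← hmap] at h1
      obtain ⟨y, hy, hy2⟩ := h1
      rw [Matrix.toLin'_apply] at hy2
      have h3 : y = x i' := by
        have h2 : (g : Matrix (Fin m ⊕ Fin m) (Fin m ⊕ Fin m) F) *ᵥ (y - x i') = 0 := by
          rw [Matrix.mulVec_sub, hy2, sub_self]
        exact sub_eq_zero.mp (ginj _ h2)
      rw [h3] at hy
      exact hx0 i' (D_disj hD i i' hne (x i') hy (hx i'))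
    exact mem_H_of_perm hD g (Equiv.ofBijective σ (Finite.injective_iff_bijective.mp σinj))
      (fun i y hy => by rw [Equiv.ofBijective_apply]; exact claim1 i y hy)
  obtain ⟨i₀, x₀, hx₀, hy₀⟩ := hbadv
  have hy₀S := dirs_conj M g hgM x₀ (hS i₀ x₀ hx₀)
  obtain ⟨y₀, hy₀def⟩ : ∃ y₀, y₀ = (g : Matrix (Fin m ⊕ Fin m) (Fin m ⊕ Fin m) F) *ᵥ x₀ :=
    ⟨_, rfl⟩
  rw [← hy₀def] at hy₀S hy₀
  have hy₀0 : y₀ ≠ 0 := by
    intro h
    apply hy₀ i₀
    rw [h]; exact (D i₀).zero_mem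
  obtain ⟨j₁, -, a, ha, ha0, hr⟩ := extract D Finset.univ y₀ (by rw [Us_univ hD]; trivial) hy₀0
  have hr0 : y₀ - a ≠ 0 := by
    intro h
    apply hy₀ j₁
    rw [sub_eq_zero.mp h]; exact ha
  obtain ⟨j₂, hj₂, b, hb, hb0, hr'⟩ := extract D _ (y₀ - a) hr hr0
  have hj₁₂ : j₂ ≠ j₁ := Finset.ne_of_mem_erase hj₂
  obtain ⟨r', hr'def⟩ : ∃ r', r' = y₀ - a - b := ⟨_, rfl⟩
  rw [← hr'def] at hr'
  have hy₀eq : y₀ = a + b + r' := by rw [hr'def]; abel
  have hra : ∀ x ∈ D j₁, Cfsg.sympForm m F r' x = 0 :=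
    Us_orth hD j₁ _ (by simp) r' hr'
  have hrb : ∀ x ∈ D j₂, Cfsg.sympForm m F r' x = 0 :=
    Us_orth hD j₂ _ (by simp) r' hr'
  have har : ∀ x ∈ D j₁, Cfsg.sympForm m F x r' = 0 := by
    intro x hx; rw [sf_swap, hra x hx, neg_zero]
  have hbr : ∀ x ∈ D j₂, Cfsg.sympForm m F x r' = 0 := by
    intro x hx; rw [sf_swap, hrb x hx, neg_zero]
  have hgen : ∀ a' ∈ D j₁, a' ≠ 0 → ∀ b' ∈ D j₂, b' ≠ 0 → a' + b' + r' ∈ dirs M := by
    intro a' ha' ha'0 b' hb' hb'0
    have e1 : y₀ = a + (b + r') := by rw [hy₀eq]; abel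
    have s1 : a' + (b + r') ∈ dirs M := moveD hD M hS j₁ a a' (b + r') ha ha'
      (fun x hx => by rw [sf_add_right, hD.orthogonal j₁ j₂ hj₁₂.symm x hx b hb, har x hx, add_zero])
      ha0 ha'0 (by rw [← e1]; exact hy₀S)
    have e2 : a' + (b + r') = b + (a' + r') := by abel
    rw [e2] at s1
    have s2 : b' + (a' + r') ∈ dirs M := moveD hD M hS j₂ b b' (a' + r') hb hb'
      (fun x hx => by rw [sf_add_right, hD.orthogonal j₂ j₁ hj₁₂ x hx a' ha', hbr x hx, add_zero])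
      hb0 hb'0 s1
    have e3 : b' + (a' + r') = a' + b' + r' := by abel
    rwa [e3] at s2
  obtain ⟨a', ha', hα⟩ := D_nd hD j₁ a ha ha0
  have ha'0 : a' ≠ 0 := by
    rintro rfl
    exact hα (S0768.sf_zero_right a)
  have hb'ex : ∃ b' ∈ D j₂, b' ≠ 0 ∧ b' ≠ b ∧ Cfsg.sympForm m F b b' = 0 := by
    by_cases hq : Fintype.card F = 2
    · have hk3 : 3 ≤ k := k_ge_three hD (fun h => hex ⟨h, hq⟩) j₂
      obtain ⟨c, hc, hbc⟩ := D_nd hD j₂ b hb hb0
      have hnot : ¬ D j₂ ≤ Submodule.span F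
          ((({b, c} : Finset (Fin m ⊕ Fin m → F))) : Set (Fin m ⊕ Fin m → F)) := by
        intro hle
        have h1 : Module.finrank F (D j₂) ≤ 2 :=
          le_trans (Submodule.finrank_mono hle)
            (le_trans (finrank_span_finset_le_card _) Finset.card_le_two)
        rw [hD.decomp.finrank_eq] at h1
        omega
      obtain ⟨d, hd, hdnot⟩ := SetLike.not_le_iff_exists.mp hnot
      have hbmem : b ∈ Submodule.span F
          ((({b, c} : Finset (Fin m ⊕ Fin m → F))) : Set (Fin m ⊕ Fin m → F)) :=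
        Submodule.subset_span (by simp)
      have hcmem : c ∈ Submodule.span F
          ((({b, c} : Finset (Fin m ⊕ Fin m → F))) : Set (Fin m ⊕ Fin m → F)) :=
        Submodule.subset_span (by simp)
      refine ⟨d - (Cfsg.sympForm m F b d / Cfsg.sympForm m F b c) • c,
        (D j₂).sub_mem hd ((D j₂).smul_mem _ hc), ?_, ?_, ?_⟩
      · intro h0
        apply hdnot
        rw [sub_eq_zero.mp h0]
        exact Submodule.smul_mem _ _ hcmem
      · intro hb'
        apply hdnot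
        have h5 : d = b + (Cfsg.sympForm m F b d / Cfsg.sympForm m F b c) • c :=
          sub_eq_iff_eq_add.mp hb'
        rw [h5]
        exact Submodule.add_mem _ hbmem (Submodule.smul_mem _ _ hcmem)
      · rw [sf_sub_right, sf_smul_right, div_mul_cancel₀ _ hbc, sub_self]
    · obtain ⟨lam, hl0, hl1⟩ : ∃ lam : F, lam ≠ 0 ∧ lam ≠ 1 := by
        by_contra hcon
        push Not at hcon
        have hsub : (Finset.univ : Finset F) ⊆ {0, 1} := by
          intro x _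
          by_cases hx : x = 0
          · simp [hx]
          · simp [hcon x hx]
        have h1 := Finset.card_le_card hsub
        have h2 : ({0, 1} : Finset F).card ≤ 2 := Finset.card_le_two
        rw [Finset.card_univ] at h1
        have h3 : 1 < Fintype.card F := Fintype.one_lt_card
        omega
      refine ⟨lam • b, (D j₂).smul_mem _ hb, smul_ne_zero hl0 hb0, ?_, ?_⟩
      · intro h
        apply hl1
        have h5 : (lam - 1) • b = 0 := by rw [sub_smul, one_smul, h, sub_self]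
        rcases smul_eq_zero.mp h5 with h6 | h6
        · exact sub_eq_zero.mp h6
        · exact absurd h6 hb0
      · rw [sf_smul_right, sf_self, mul_zero]
  obtain ⟨b', hb', hb'0, hb'b, hβ⟩ := hb'ex
  have hy' := hgen a' ha' ha'0 b' hb' hb'0
  have hform : Cfsg.sympForm m F y₀ (a' + b' + r') = Cfsg.sympForm m F a a' := by
    rw [hy₀eq]
    simp only [sf_add_left, sf_add_right]
    rw [hD.orthogonal j₁ j₂ hj₁₂.symm a ha b' hb', har a ha,
      hD.orthogonal j₂ j₁ hj₁₂ b hb a' ha', hβ, hbr b hb, hra a' ha', hrb b' hb', sf_self]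
    ring
  have hz := dirs_move M (a' + b' + r') y₀ hy' hy₀S (-(Cfsg.sympForm m F a a')⁻¹)
  rw [hform, neg_mul, inv_mul_cancel₀ hα, neg_one_smul] at hz
  have hzeq : y₀ + -(a' + b' + r') = (a - a') + (b - b') := by rw [hy₀eq]; abel
  rw [hzeq] at hz
  have hz₁ : a - a' ∈ D j₁ := (D j₁).sub_mem ha ha'
  have hz₂ : b - b' ∈ D j₂ := (D j₂).sub_mem hb hb'
  have hz₁0 : a - a' ≠ 0 := by
    intro h
    apply hα
    rw [← sub_eq_zero.mp h, sf_self]
  have hz₂0 : b - b' ≠ 0 := fun h => hb'b (sub_eq_zero.mp h).symm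
  have edge₀ : ∀ p ∈ D j₁, ∀ q ∈ D j₂, p + q ∈ dirs M := by
    intro p hp q hq
    by_cases hp0 : p = 0
    · rw [hp0, zero_add]; exact hS j₂ q hq
    by_cases hq0 : q = 0
    · rw [hq0, add_zero]; exact hS j₁ p hp
    have s1 : p + (b - b') ∈ dirs M := moveD hD M hS j₁ (a - a') p (b - b') hz₁ hp
      (fun x hx => hD.orthogonal j₁ j₂ hj₁₂.symm x hx _ hz₂) hz₁0 hp0 hz
    have s2 : q + p ∈ dirs M := moveD hD M hS j₂ (b - b') q p hz₂ hq
      (fun x hx => hD.orthogonal j₂ j₁ hj₁₂ x hx p hp) hz₂0 hq0 (by rw [add_comm]; exact s1)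
    rw [add_comm]; exact s2
  have hsym : ∀ i j, (∀ p ∈ D i, ∀ q ∈ D j, p + q ∈ dirs M) →
      ∀ p ∈ D j, ∀ q ∈ D i, p + q ∈ dirs M := by
    intro i j h p hp q hq
    rw [add_comm]; exact h q hq p hp
  have hswap : ∀ i j l, i ≠ j → l ≠ i → l ≠ j → (∀ p ∈ D i, ∀ q ∈ D j, p + q ∈ dirs M) →
      ∀ p ∈ D i, ∀ q ∈ D l, p + q ∈ dirs M := by
    intro i j l hij hli hlj hE p hp q hq
    obtain ⟨A, hA1, hA2, hA3⟩ := swap_elt hD j l (Ne.symm hlj)
    have hAM : A ∈ M := by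
      apply hP
      apply mem_H_of_perm hD A (Equiv.swap j l)
      intro i' y hy
      by_cases h1 : i' = j
      · subst h1
        rw [Equiv.swap_apply_left]; exact hA1 y hy
      · by_cases h2 : i' = l
        · subst h2
          rw [Equiv.swap_apply_right]; exact hA2 y hy
        · rw [Equiv.swap_apply_of_ne_of_ne h1 h2, hA3 i' h1 h2 y hy]; exact hy
    have h1 : p + (A : Matrix (Fin m ⊕ Fin m) (Fin m ⊕ Fin m) F) *ᵥ q ∈ dirs M :=
      hE p hp _ (hA2 q hq)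
    have h2 := dirs_conj M A⁻¹ (M.inv_mem hAM) _ h1
    rw [Matrix.mulVec_add, sp_inv_mulVec] at h2
    have h3 := sp_inv_mulVec A p
    rw [hA3 i hij (Ne.symm hli) p hp] at h3
    rw [h3] at h2
    exact h2
  have e1 : ∀ l, l ≠ j₁ → ∀ p ∈ D j₁, ∀ q ∈ D l, p + q ∈ dirs M := by
    intro l hl
    by_cases hl2 : l = j₂
    · rw [hl2]; exact edge₀
    · exact hswap j₁ j₂ l (Ne.symm hj₁₂) hl hl2 edge₀
  have hall : ∀ i l, i ≠ l → ∀ p ∈ D i, ∀ q ∈ D l, p + q ∈ dirs M := by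
    intro i l hil
    by_cases hi : i = j₁
    · rw [hi]; exact e1 l (by rw [← hi]; exact Ne.symm hil)
    · by_cases hl : l = j₁
      · rw [hl]; exact hsym _ _ (e1 i hi)
      · exact hsym _ _ (hswap l j₁ i hl hil hi (hsym _ _ (e1 l hl)))
  have hfin : ∀ s : Finset (Fin t), ∀ y ∈ Us D s, y ∈ dirs M := by
    intro s
    induction s using Finset.induction_on with
    | empty =>
      intro y hy
      unfold Us at hy
      simp at hy
      rw [hy]
      intro c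
      rw [tvS_zero_vec]
      exact M.one_mem
    | insert l s hl ih =>
      intro y hy
      obtain ⟨p, hp, z, hz, rfl⟩ := (mem_Us_insert D l s y).1 hy
      by_cases hz0 : z = 0
      · rw [hz0, add_zero]; exact hS l p hp
      by_cases hp0 : p = 0
      · rw [hp0, zero_add]; exact ih z hz
      obtain ⟨j₀, hj₀, a₀, ha₀, ha₀0, hsub⟩ := extract D s z hz hz0
      have hj₀l : j₀ ≠ l := by
        rintro rfl
        exact hl hj₀
      obtain ⟨c, hcD, hcne⟩ := D_nd hD j₀ a₀ ha₀ ha₀0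
      have hz' : (z - a₀) + c ∈ dirs M :=
        ih _ (Submodule.add_mem _ (Us_mono D (Finset.erase_subset j₀ s) hsub)
          (D_le_Us D j₀ s hj₀ hcD))
      have hx : (a₀ - c) + p ∈ dirs M := hall j₀ l hj₀l _ ((D j₀).sub_mem ha₀ hcD) p hp
      have e : Cfsg.sympForm m F ((z - a₀) + c) ((a₀ - c) + p) = Cfsg.sympForm m F c a₀ := by
        rw [sf_add_left, sf_add_right, sf_add_right,
          Us_orth hD j₀ (s.erase j₀) (Finset.notMem_erase j₀ s) _ hsub _ ((D j₀).sub_mem ha₀ hcD),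
          Us_orth hD l (s.erase j₀) (fun h => hl (Finset.mem_of_mem_erase h)) _ hsub p hp,
          sf_sub_right, sf_self, hD.orthogonal j₀ l hj₀l c hcD p hp]
        ring
      have hne' : Cfsg.sympForm m F c a₀ ≠ 0 := by
        rw [sf_swap]; exact neg_ne_zero.mpr hcne
      have h5 := dirs_move M _ _ hx hz' (Cfsg.sympForm m F c a₀)⁻¹
      rw [e, inv_mul_cancel₀ hne', one_smul] at h5
      have e2 : z - a₀ + c + (a₀ - c + p) = p + z := by abel
      rwa [e2] at h5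
  apply top_of_dirs
  intro y
  exact hfin Finset.univ y (by rw [Us_univ hD]; trivial)

end core
/-- For a finite field F with q elements and m ≥ 7, let D be a decomposition of F^(2m) into t ≥ 2 pairwise orthogonal subspaces of equal dimension k on each of which the standard alternating form is non-degenerate, spanning F^(2m). Unless k = 2 and q = 2, the elements of Sp_2m(F) permuting the members of D form a maximal subgroup of Sp_2m(F). -/
theorem result {F : Type*} [Field F] [Fintype F] (m : ℕ) (hm : 7 ≤ m) {t : ℕ} (k : ℕ) (D : Fin t → Submodule F (Fin m ⊕ Fin m → F)) (hD : Cfsg.Geo.IsNondegenerateMDecomposition (Cfsg.sympForm m F) k D) (hex : ¬ (k = 2 ∧ Fintype.card F = 2)) : Cfsg.Geo.IsMaximalIn (Cfsg.spGL m F) (Cfsg.Geo.decompositionStabilizer D ⊓ Cfsg.spGL m F) := by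
  classical
  apply maximal_of_core'
  · have ht := hD.decomp.two_le
    obtain ⟨i₁, i₂, h12⟩ : ∃ i₁ i₂ : Fin t, i₁ ≠ i₂ :=
      ⟨⟨0, by omega⟩, ⟨1, by omega⟩, by simp [Fin.ext_iff]⟩
    obtain ⟨a, ha, ha0⟩ := D_exists_ne hD i₁
    obtain ⟨b, hb, hb0⟩ := D_exists_ne hD i₂
    obtain ⟨x, hx, hax⟩ := D_nd hD i₁ a ha ha0
    have hxa : Cfsg.sympForm m F x a ≠ 0 := by
      rw [Cfsg.Agent.Helper6.sf_swap]; exact neg_ne_zero.mpr hax
    refine ⟨Cfsg.Agent.Helper6.tvS (a + b) 1, fun hmem => ?_⟩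
    obtain ⟨σ, hσ⟩ := hmem
    have h1 : (Cfsg.Agent.Helper6.tvS (a + b) (1 : F) :
        Matrix (Fin m ⊕ Fin m) (Fin m ⊕ Fin m) F) *ᵥ x ∈ D (σ i₁) := by
      rw [← hσ i₁]
      exact ⟨x, hx, Matrix.toLin'_apply _ _⟩
    rw [Cfsg.Agent.Helper6.tvS_mulVec, Cfsg.Agent.Helper6.sf_add_right,
      hD.orthogonal i₁ i₂ h12 x hx b hb, add_zero, one_mul, smul_add, ← add_assoc] at h1
    refine two_comp hD i₁ i₂ h12 _ _ ((D i₁).add_mem hx ((D i₁).smul_mem _ ha))
      ((D i₂).smul_mem _ hb) ?_ (smul_ne_zero hxa hb0) (σ i₁) h1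
    intro h0
    apply hxa
    have h6 : Cfsg.sympForm m F (x + Cfsg.sympForm m F x a • a) a = Cfsg.sympForm m F x a := by
      rw [Cfsg.Agent.Helper6.sf_add_left, Cfsg.Agent.Helper6.sf_smul_left,
        Cfsg.Agent.Helper6.sf_self, mul_zero, add_zero]
    rw [h0, Cfsg.Agent.Helper6.sf_zero_left] at h6
    exact h6.symm
  · intro M hP hbad
    exact core_dec hD hex M hP hbad

end Cfsg.Agent.S5647
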