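import Mathlib
import Cfsg.Statements.S5649
import Cfsg.Agent.Helper6.PSpSimple
import Cfsg.Agent.Helper6.SpFrames
import Cfsg.Agent.S5646
import Cfsg.Agent.S5647

set_option autoImplicit false
open Cfsg

namespace Cfsg.Agent.S5649

open Matrix Cfsg.Agent.Helper6 Cfsg.Agent.S5646 Cfsg.Agent.S5647

variable {F : Type*} [Field F] {m : ℕ}

/-- short root element attached to an orthogonal pair -/
def hh (a b : Fin m ⊕ Fin m → F) (c : F) : Matrix.symplecticGroup (Fin m) F :=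
  tvS (a + b) c * tvS a (-c) * tvS b (-c)

theorem hh_mulVec (a b : Fin m ⊕ Fin m → F) (hab : Cfsg.sympForm m F a b = 0) (c : F)
    (x : Fin m ⊕ Fin m → F) :
    (hh a b c : Matrix (Fin m ⊕ Fin m) (Fin m ⊕ Fin m) F) *ᵥ x
      = x + (c * Cfsg.sympForm m F x a) • b + (c * Cfsg.sympForm m F x b) • a := by
  unfold hh
  rw [sg_mulVec a b hab c x]
  module

theorem hh_conj (A : Matrix.symplecticGroup (Fin m) F) (a b : Fin m ⊕ Fin m → F) (c : F) :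
    A * hh a b c * A⁻¹ = hh ((A : Matrix (Fin m ⊕ Fin m) (Fin m ⊕ Fin m) F) *ᵥ a)
      ((A : Matrix (Fin m ⊕ Fin m) (Fin m ⊕ Fin m) F) *ᵥ b) c := by
  unfold hh
  have e : A * (tvS (a + b) c * tvS a (-c) * tvS b (-c)) * A⁻¹
      = (A * tvS (a + b) c * A⁻¹) * (A * tvS a (-c) * A⁻¹) * (A * tvS b (-c) * A⁻¹) := by group
  rw [e, tvS_conj, tvS_conj, tvS_conj, Matrix.mulVec_add]

theorem hh_symm (a b : Fin m ⊕ Fin m → F) (hab : Cfsg.sympForm m F a b = 0) (c : F) :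
    hh a b c = hh b a c := by
  have hba : Cfsg.sympForm m F b a = 0 := by rw [sf_swap, hab, neg_zero]
  apply sp_ext
  intro x
  rw [hh_mulVec a b hab, hh_mulVec b a hba]
  abel

/-- all short root elements of a pair lie in `M` -/
def Pp (M : Subgroup (Matrix.symplecticGroup (Fin m) F)) (a b : Fin m ⊕ Fin m → F) : Prop :=
  ∀ c : F, hh a b c ∈ M

theorem Pp_symm (M : Subgroup (Matrix.symplecticGroup (Fin m) F)) (a b : Fin m ⊕ Fin m → F)
    (hab : Cfsg.sympForm m F a b = 0) (h : Pp M a b) : Pp M b a := by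
  intro c
  rw [← hh_symm a b hab c]
  exact h c

theorem Pp_conj (M : Subgroup (Matrix.symplecticGroup (Fin m) F))
    (A : Matrix.symplecticGroup (Fin m) F) (hA : A ∈ M) (a b : Fin m ⊕ Fin m → F)
    (h : Pp M a b) :
    Pp M ((A : Matrix (Fin m ⊕ Fin m) (Fin m ⊕ Fin m) F) *ᵥ a)
      ((A : Matrix (Fin m ⊕ Fin m) (Fin m ⊕ Fin m) F) *ᵥ b) := by
  intro c
  rw [← hh_conj]
  exact M.mul_mem (M.mul_mem hA (h c)) (M.inv_mem hA)

theorem rel1 (a b b' : Fin m ⊕ Fin m → F) (hab : Cfsg.sympForm m F a b = 0)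
    (hab' : Cfsg.sympForm m F a b' = 0) (c d : F) :
    hh a b c * hh a b' d
      = tvS a (-2 * c * d * Cfsg.sympForm m F b b') * hh a b' d * hh a b c := by
  have hba : Cfsg.sympForm m F b a = 0 := by rw [sf_swap, hab, neg_zero]
  have hb'a : Cfsg.sympForm m F b' a = 0 := by rw [sf_swap, hab', neg_zero]
  have hb'b : Cfsg.sympForm m F b' b = -Cfsg.sympForm m F b b' := sf_swap b' b
  apply sp_ext
  intro x
  simp only [sp_coe_mul, ← Matrix.mulVec_mulVec, hh_mulVec a b hab, hh_mulVec a b' hab',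
    tvS_mulVec]
  simp only [sf_add_left, sf_smul_left, sf_self, hab, hab', hba, hb'a, hb'b, mul_zero, add_zero,
    zero_add]
  module

theorem dir_of_rel1 (h2 : (2 : F) ≠ 0) (M : Subgroup (Matrix.symplecticGroup (Fin m) F))
    (a b b' : Fin m ⊕ Fin m → F) (hab : Cfsg.sympForm m F a b = 0)
    (hab' : Cfsg.sympForm m F a b' = 0) (hβ : Cfsg.sympForm m F b b' ≠ 0)
    (h1 : Pp M a b) (h1' : Pp M a b') : a ∈ dirs M := by
  intro e
  obtain ⟨d, hd⟩ : ∃ d : F, -2 * 1 * d * Cfsg.sympForm m F b b' = e :=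
    ⟨-e / (2 * Cfsg.sympForm m F b b'), by field_simp⟩
  have key := rel1 a b b' hab hab' 1 d
  rw [hd] at key
  have e2 : tvS a e = (hh a b 1 * hh a b' d) * (hh a b' d * hh a b 1)⁻¹ := by
    rw [key, mul_assoc (tvS a e), mul_inv_cancel_right]
  rw [e2]
  exact M.mul_mem (M.mul_mem (h1 1) (h1' d)) (M.inv_mem (M.mul_mem (h1' d) (h1 1)))

theorem rel2 (a b a' b' : Fin m ⊕ Fin m → F) (hab : Cfsg.sympForm m F a b = 0)
    (ha'b' : Cfsg.sympForm m F a' b' = 0) (haa' : Cfsg.sympForm m F a a' = 0)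
    (hab' : Cfsg.sympForm m F a b' = 0) (hba' : Cfsg.sympForm m F b a' = 0) (c d : F) :
    hh a b c * hh a' b' d
      = hh a a' (-c * d * Cfsg.sympForm m F b b') * hh a' b' d * hh a b c := by
  have hba : Cfsg.sympForm m F b a = 0 := by rw [sf_swap, hab, neg_zero]
  have hb'a' : Cfsg.sympForm m F b' a' = 0 := by rw [sf_swap, ha'b', neg_zero]
  have ha'a : Cfsg.sympForm m F a' a = 0 := by rw [sf_swap, haa', neg_zero]
  have hb'a : Cfsg.sympForm m F b' a = 0 := by rw [sf_swap, hab', neg_zero]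
  have ha'b : Cfsg.sympForm m F a' b = 0 := by rw [sf_swap, hba', neg_zero]
  have hb'b : Cfsg.sympForm m F b' b = -Cfsg.sympForm m F b b' := sf_swap b' b
  apply sp_ext
  intro x
  simp only [sp_coe_mul, ← Matrix.mulVec_mulVec, hh_mulVec a b hab, hh_mulVec a' b' ha'b',
    hh_mulVec a a' haa']
  simp only [sf_add_left, sf_smul_left, sf_self, hab, ha'b', haa', hab', hba', hba, hb'a', ha'a,
    hb'a, ha'b, hb'b, mul_zero, add_zero, zero_add]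
  module

theorem Pp_of_rel2 (M : Subgroup (Matrix.symplecticGroup (Fin m) F))
    (a b a' b' : Fin m ⊕ Fin m → F) (hab : Cfsg.sympForm m F a b = 0)
    (ha'b' : Cfsg.sympForm m F a' b' = 0) (haa' : Cfsg.sympForm m F a a' = 0)
    (hab' : Cfsg.sympForm m F a b' = 0) (hba' : Cfsg.sympForm m F b a' = 0)
    (hβ : Cfsg.sympForm m F b b' ≠ 0) (h1 : Pp M a b) (h1' : Pp M a' b') : Pp M a a' := by
  intro e
  obtain ⟨d, hd⟩ : ∃ d : F, -1 * d * Cfsg.sympForm m F b b' = e :=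
    ⟨-e / Cfsg.sympForm m F b b', by field_simp⟩
  have key := rel2 a b a' b' hab ha'b' haa' hab' hba' 1 d
  rw [hd] at key
  have e2 : hh a a' e = (hh a b 1 * hh a' b' d) * (hh a' b' d * hh a b 1)⁻¹ := by
    rw [key, mul_assoc (hh a a' e), mul_inv_cancel_right]
  rw [e2]
  exact M.mul_mem (M.mul_mem (h1 1) (h1' d)) (M.inv_mem (M.mul_mem (h1' d) (h1 1)))

theorem hh_prod (x₁ y₁ : Fin m ⊕ Fin m → F) (hxy : Cfsg.sympForm m F x₁ y₁ = 0)
    (α β γ δ c : F) :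
    hh (α • x₁ + β • y₁) (γ • x₁ + δ • y₁) c
      = hh x₁ y₁ (c * (α * δ + β * γ)) * tvS x₁ (2 * c * α * γ) * tvS y₁ (2 * c * β * δ) := by
  have hyx : Cfsg.sympForm m F y₁ x₁ = 0 := by rw [sf_swap, hxy, neg_zero]
  have h0 : Cfsg.sympForm m F (α • x₁ + β • y₁) (γ • x₁ + δ • y₁) = 0 := by
    simp only [sf_add_left, sf_add_right, sf_smul_left, sf_smul_right, sf_self, hxy, hyx,
      mul_zero, add_zero]
  apply sp_ext
  intro x
  simp only [sp_coe_mul, ← Matrix.mulVec_mulVec, hh_mulVec _ _ h0, hh_mulVec x₁ y₁ hxy,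
    tvS_mulVec]
  simp only [sf_add_left, sf_add_right, sf_smul_left, sf_smul_right, sf_self, hxy, hyx,
    mul_zero, add_zero, zero_add]
  module

theorem tv_pair (y₁ y : Fin m ⊕ Fin m → F) (hyy : Cfsg.sympForm m F y y₁ = 0) (k : F) :
    tvS y₁ (-(2 * k)) * tvS (y₁ + y) (2 * k) = hh y ((2 : F) • y₁ + y) k := by
  have hy1 : Cfsg.sympForm m F y₁ y = 0 := by rw [sf_swap, hyy, neg_zero]
  have h0 : Cfsg.sympForm m F y ((2 : F) • y₁ + y) = 0 := by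
    rw [sf_add_right, sf_smul_right, hyy, sf_self, mul_zero, add_zero]
  apply sp_ext
  intro x
  simp only [sp_coe_mul, ← Matrix.mulVec_mulVec, hh_mulVec _ _ h0, tvS_mulVec]
  simp only [sf_add_left, sf_add_right, sf_smul_left, sf_smul_right, sf_self, hyy, hy1,
    mul_zero, add_zero, zero_add]
  module

/-- a pair of complementary Lagrangian subspaces -/
structure LagPair (X Y : Submodule F (Fin m ⊕ Fin m → F)) : Prop where
  tiX : ∀ u ∈ X, ∀ v ∈ X, Cfsg.sympForm m F u v = 0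
  tiY : ∀ u ∈ Y, ∀ v ∈ Y, Cfsg.sympForm m F u v = 0
  dec : ∀ v, ∃ x ∈ X, ∃ y ∈ Y, x + y = v
  frX : Module.finrank F X = m
  frY : Module.finrank F Y = m

theorem LagPair.symm {X Y : Submodule F (Fin m ⊕ Fin m → F)} (L : LagPair X Y) : LagPair Y X :=
  ⟨L.tiY, L.tiX, fun v => by
    obtain ⟨x, hx, y, hy, h⟩ := L.dec v
    exact ⟨y, hy, x, hx, by rw [add_comm]; exact h⟩, L.frY, L.frX⟩

theorem LagPair.pair {X Y : Submodule F (Fin m ⊕ Fin m → F)} (L : LagPair X Y)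
    (x : Fin m ⊕ Fin m → F) (hx : x ∈ X) (hx0 : x ≠ 0) :
    ∃ y ∈ Y, Cfsg.sympForm m F x y ≠ 0 := by
  obtain ⟨w, hw⟩ := S0768.nondeg x hx0
  obtain ⟨x', hx', y', hy', rfl⟩ := L.dec w
  rw [sf_add_right, L.tiX x hx x' hx', zero_add] at hw
  exact ⟨y', hy', hw⟩

theorem LagPair.disj {X Y : Submodule F (Fin m ⊕ Fin m → F)} (L : LagPair X Y)
    (v : Fin m ⊕ Fin m → F) (h1 : v ∈ X) (h2 : v ∈ Y) : v = 0 := by
  by_contra h0
  obtain ⟨y, hy, hne⟩ := L.pair v h1 h0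
  exact hne (L.tiY v h2 y hy)

theorem LagPair.sep {X Y : Submodule F (Fin m ⊕ Fin m → F)} (L : LagPair X Y)
    (u w : Fin m ⊕ Fin m → F) (hu : u ∈ X) (hw : w ∈ X) (hne : ∀ c : F, w ≠ c • u) :
    ∃ b ∈ Y, Cfsg.sympForm m F b u = 0 ∧ Cfsg.sympForm m F b w ≠ 0 := by
  by_cases hu0 : u = 0
  · have hw0 : w ≠ 0 := by
      intro h
      apply hne 0
      rw [h, zero_smul]
    obtain ⟨y, hy, hne'⟩ := L.pair w hw hw0
    refine ⟨y, hy, by rw [hu0, S0768.sf_zero_right], ?_⟩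
    rw [sf_swap]
    exact neg_ne_zero.mpr hne'
  · obtain ⟨y₁, hy₁, h1⟩ := L.pair u hu hu0
    have hw' : w - (Cfsg.sympForm m F w y₁ / Cfsg.sympForm m F u y₁) • u ≠ 0 := by
      intro h
      exact hne _ (sub_eq_zero.mp h)
    obtain ⟨y₂, hy₂, h2⟩ := L.pair _ (X.sub_mem hw (X.smul_mem _ hu)) hw'
    refine ⟨y₂ - (Cfsg.sympForm m F u y₂ / Cfsg.sympForm m F u y₁) • y₁,
      Y.sub_mem hy₂ (Y.smul_mem _ hy₁), ?_, ?_⟩
    · rw [sf_sub_left, sf_smul_left, sf_swap y₂ u, sf_swap y₁ u]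
      field_simp
      ring
    · rw [sf_sub_left, sf_smul_left] at h2
      rw [sf_sub_left, sf_smul_left, sf_swap y₂ w, sf_swap y₁ w]
      intro h
      apply h2
      field_simp
      field_simp at h
      linear_combination -h

theorem LagPair.e3 {X Y : Submodule F (Fin m ⊕ Fin m → F)} (L : LagPair X Y)
    (v x' : Fin m ⊕ Fin m → F) (hv : v ∈ X) (hx' : x' ∈ X) (hv0 : v ≠ 0)
    (hne : ∀ c : F, x' ≠ c • v) :
    ∃ y ∈ Y, Cfsg.sympForm m F v y = 1 ∧ Cfsg.sympForm m F x' y = 1 := by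
  have hne' : ∀ c : F, v ≠ c • x' := by
    intro c h
    have hc : c ≠ 0 := by
      rintro rfl
      rw [zero_smul] at h
      exact hv0 h
    apply hne c⁻¹
    rw [h, smul_smul, inv_mul_cancel₀ hc, one_smul]
  obtain ⟨b₁, hb₁, h11, h12⟩ := L.sep v x' hv hx' hne
  obtain ⟨b₂, hb₂, h21, h22⟩ := L.sep x' v hx' hv hne'
  have h11' : Cfsg.sympForm m F v b₁ = 0 := by rw [sf_swap, h11, neg_zero]
  have h21' : Cfsg.sympForm m F x' b₂ = 0 := by rw [sf_swap, h21, neg_zero]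
  have h12' : Cfsg.sympForm m F x' b₁ ≠ 0 := by rw [sf_swap]; exact neg_ne_zero.mpr h12
  have h22' : Cfsg.sympForm m F v b₂ ≠ 0 := by rw [sf_swap]; exact neg_ne_zero.mpr h22
  refine ⟨(Cfsg.sympForm m F x' b₁)⁻¹ • b₁ + (Cfsg.sympForm m F v b₂)⁻¹ • b₂,
    Y.add_mem (Y.smul_mem _ hb₁) (Y.smul_mem _ hb₂), ?_, ?_⟩
  · rw [sf_add_right, sf_smul_right, sf_smul_right, h11', mul_zero, zero_add,
      inv_mul_cancel₀ h22']
  · rw [sf_add_right, sf_smul_right, sf_smul_right, h21', mul_zero, add_zero,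
      inv_mul_cancel₀ h12']

/-- the part of `K` orthogonal to `v` -/
noncomputable def cut (K : Submodule F (Fin m ⊕ Fin m → F)) (v : Fin m ⊕ Fin m → F) :
    Submodule F (Fin m ⊕ Fin m → F) :=
  K ⊓ LinearMap.ker ((sfB m F).flip v)

theorem mem_cut (K : Submodule F (Fin m ⊕ Fin m → F)) (v a : Fin m ⊕ Fin m → F) :
    a ∈ cut K v ↔ a ∈ K ∧ Cfsg.sympForm m F a v = 0 := by
  unfold cut
  rw [Submodule.mem_inf, LinearMap.mem_ker]
  exact Iff.rfl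

theorem cut_finrank (K : Submodule F (Fin m ⊕ Fin m → F)) (v : Fin m ⊕ Fin m → F) :
    Module.finrank F K ≤ Module.finrank F (cut K v) + 1 := by
  have h1 := LinearMap.finrank_range_add_finrank_ker (((sfB m F).flip v).domRestrict K)
  have h2 : Module.finrank F (LinearMap.range (((sfB m F).flip v).domRestrict K)) ≤ 1 := by
    have := Submodule.finrank_le (LinearMap.range (((sfB m F).flip v).domRestrict K))
    rwa [Module.finrank_self] at this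
  have h3 : Module.finrank F (LinearMap.ker (((sfB m F).flip v).domRestrict K))
      = Module.finrank F (cut K v) := by
    have e : (LinearMap.ker (((sfB m F).flip v).domRestrict K)).map K.subtype = cut K v := by
      ext a
      rw [mem_cut, Submodule.mem_map]
      constructor
      · rintro ⟨⟨b, hb⟩, hker, rfl⟩
        refine ⟨hb, ?_⟩
        rw [LinearMap.mem_ker, LinearMap.domRestrict_apply] at hker
        exact hker
      · rintro ⟨ha, h0⟩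
        refine ⟨⟨a, ha⟩, ?_, rfl⟩
        rw [LinearMap.mem_ker, LinearMap.domRestrict_apply]
        exact h0
    rw [← e]
    exact LinearEquiv.finrank_eq
      (Submodule.equivMapOfInjective K.subtype K.injective_subtype _)
  omega

theorem exists_not_smul (K : Submodule F (Fin m ⊕ Fin m → F)) (hK : 2 ≤ Module.finrank F K)
    (w : Fin m ⊕ Fin m → F) : ∃ a ∈ K, ∀ c : F, a ≠ c • w := by
  by_contra hcon
  push Not at hcon
  have hle : K ≤ Submodule.span F {w} := by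
    intro a ha
    obtain ⟨c, hc⟩ := hcon a ha
    rw [Submodule.mem_span_singleton]
    exact ⟨c, hc.symm⟩
  have h1 := Submodule.finrank_mono hle
  by_cases hw : w = 0
  · rw [hw, Submodule.span_zero_singleton, finrank_bot] at h1
    omega
  · rw [finrank_span_singleton hw] at h1
    omega

/-- the hypothesis that `M` contains the short root elements of the pair `(X, Y)` -/
def HP (M : Subgroup (Matrix.symplecticGroup (Fin m) F))
    (X Y : Submodule F (Fin m ⊕ Fin m → F)) : Prop :=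
  ∀ a ∈ X, ∀ b ∈ Y, Cfsg.sympForm m F a b = 0 → Pp M a b

theorem HP.symm {M : Subgroup (Matrix.symplecticGroup (Fin m) F)}
    {X Y : Submodule F (Fin m ⊕ Fin m → F)} (h : HP M X Y) : HP M Y X := by
  intro a ha b hb hab
  have hba : Cfsg.sympForm m F b a = 0 := by rw [sf_swap, hab, neg_zero]
  exact Pp_symm M b a hba (h b hb a ha hba)

theorem caseA (h2 : (2 : F) ≠ 0) (hm : 5 ≤ m) {X Y : Submodule F (Fin m ⊕ Fin m → F)}
    (L : LagPair X Y) (M : Subgroup (Matrix.symplecticGroup (Fin m) F)) (hHP : HP M X Y)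
    (a₁ b₁ a₂ b₂ : Fin m ⊕ Fin m → F) (ha₁ : a₁ ∈ X) (hb₁ : b₁ ∈ X) (ha₂ : a₂ ∈ Y)
    (hb₂ : b₂ ∈ Y) (hP : Pp M (a₁ + a₂) (b₁ + b₂))
    (hperp : Cfsg.sympForm m F (a₁ + a₂) (b₁ + b₂) = 0)
    (ha₁0 : a₁ ≠ 0) (hne : ∀ c : F, b₁ ≠ c • a₁) :
    ∃ a ∈ X, a ≠ 0 ∧ a ∈ dirs M := by
  obtain ⟨b, hbY, hba₁, hbb₁⟩ := L.sep a₁ b₁ ha₁ hb₁ hne
  have hfr : 2 ≤ Module.finrank F (cut (cut (cut X a₂) b₂) b) := by
    have h1 := cut_finrank X a₂
    have h2 := cut_finrank (cut X a₂) b₂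
    have h3 := cut_finrank (cut (cut X a₂) b₂) b
    have h4 := L.frX
    omega
  obtain ⟨a, haK, hane⟩ := exists_not_smul _ hfr a₁
  rw [mem_cut, mem_cut, mem_cut] at haK
  obtain ⟨⟨⟨haX, haa₂⟩, hab₂⟩, hab⟩ := haK
  have ha0 : a ≠ 0 := by
    intro h
    apply hane 0
    rw [h, zero_smul]
  have haa' : Cfsg.sympForm m F a (a₁ + a₂) = 0 := by
    rw [sf_add_right, L.tiX a haX a₁ ha₁, haa₂, add_zero]
  have hab' : Cfsg.sympForm m F a (b₁ + b₂) = 0 := by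
    rw [sf_add_right, L.tiX a haX b₁ hb₁, hab₂, add_zero]
  have hba' : Cfsg.sympForm m F b (a₁ + a₂) = 0 := by
    rw [sf_add_right, hba₁, L.tiY b hbY a₂ ha₂, add_zero]
  have hβ : Cfsg.sympForm m F b (b₁ + b₂) ≠ 0 := by
    rw [sf_add_right, L.tiY b hbY b₂ hb₂, add_zero]
    exact hbb₁
  have hPaa' : Pp M a (a₁ + a₂) :=
    Pp_of_rel2 M a b (a₁ + a₂) (b₁ + b₂) hab hperp haa' hab' hba' hβ (hHP a haX b hbY hab) hP
  have hne2 : ∀ c : F, a₁ ≠ c • a := by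
    intro c h
    have hc : c ≠ 0 := by
      rintro rfl
      rw [zero_smul] at h
      exact ha₁0 h
    apply hane c⁻¹
    rw [h, smul_smul, inv_mul_cancel₀ hc, one_smul]
  obtain ⟨b₃, hb₃Y, hb₃a, hb₃a₁⟩ := L.sep a a₁ haX ha₁ hne2
  have hab₃ : Cfsg.sympForm m F a b₃ = 0 := by rw [sf_swap, hb₃a, neg_zero]
  have hβ' : Cfsg.sympForm m F (a₁ + a₂) b₃ ≠ 0 := by
    rw [sf_add_left, L.tiY a₂ ha₂ b₃ hb₃Y, add_zero, sf_swap]
    exact neg_ne_zero.mpr hb₃a₁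
  exact ⟨a, haX, ha0, dir_of_rel1 h2 M a (a₁ + a₂) b₃ haa' hab₃ hβ' hPaa'
    (hHP a haX b₃ hb₃Y hab₃)⟩

theorem caseC (h2 : (2 : F) ≠ 0) (hm : 5 ≤ m) {X Y : Submodule F (Fin m ⊕ Fin m → F)}
    (L : LagPair X Y) (M : Subgroup (Matrix.symplecticGroup (Fin m) F)) (hHP : HP M X Y)
    (x₁ y₁ : Fin m ⊕ Fin m → F) (hx₁ : x₁ ∈ X) (hy₁ : y₁ ∈ Y) (hx₁0 : x₁ ≠ 0) (hy₁0 : y₁ ≠ 0)
    (hxy : Cfsg.sympForm m F x₁ y₁ = 0) (α β γ δ : F)
    (hP : Pp M (α • x₁ + β • y₁) (γ • x₁ + δ • y₁)) (hnz : α * γ ≠ 0 ∨ β * δ ≠ 0) :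
    ∃ v, v ≠ 0 ∧ (v ∈ X ∨ v ∈ Y) ∧ v ∈ dirs M := by
  have hQ : ∀ c : F, tvS x₁ (2 * c * α * γ) * tvS y₁ (2 * c * β * δ) ∈ M := by
    intro c
    have h := M.mul_mem (M.inv_mem (hHP x₁ hx₁ y₁ hy₁ hxy (c * (α * δ + β * γ)))) (hP c)
    rw [hh_prod x₁ y₁ hxy, mul_assoc, inv_mul_cancel_left] at h
    exact h
  by_cases hβδ : β * δ = 0
  · have hαγ : α * γ ≠ 0 := hnz.resolve_right (not_not.mpr hβδ)
    refine ⟨x₁, hx₁0, Or.inl hx₁, fun e => ?_⟩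
    have h := hQ (e / (2 * (α * γ)))
    have hα0 : α ≠ 0 := left_ne_zero_of_mul hαγ
    have hγ0 : γ ≠ 0 := right_ne_zero_of_mul hαγ
    have e1 : 2 * (e / (2 * (α * γ))) * α * γ = e := by field_simp
    have e2 : 2 * (e / (2 * (α * γ))) * β * δ = 0 := by rw [mul_assoc, hβδ, mul_zero]
    rw [e1, e2, tvS_zero, mul_one] at h
    exact h
  by_cases hαγ : α * γ = 0
  · refine ⟨y₁, hy₁0, Or.inr hy₁, fun e => ?_⟩
    have h := hQ (e / (2 * (β * δ)))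
    have hβ0 : β ≠ 0 := left_ne_zero_of_mul hβδ
    have hδ0 : δ ≠ 0 := right_ne_zero_of_mul hβδ
    have e1 : 2 * (e / (2 * (β * δ))) * β * δ = e := by field_simp
    have e2 : 2 * (e / (2 * (β * δ))) * α * γ = 0 := by rw [mul_assoc, hαγ, mul_zero]
    rw [e1, e2, tvS_zero, one_mul] at h
    exact h
  have hQ' : ∀ k : F, ∃ s : F, tvS x₁ s * tvS y₁ (2 * k) ∈ M := by
    intro k
    refine ⟨2 * (k / (β * δ)) * α * γ, ?_⟩
    have h := hQ (k / (β * δ))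
    have hβ0 : β ≠ 0 := left_ne_zero_of_mul hβδ
    have hδ0 : δ ≠ 0 := right_ne_zero_of_mul hβδ
    have e6 : 2 * (k / (β * δ)) * β * δ = 2 * k := by field_simp
    rw [e6] at h
    exact h
  obtain ⟨x₀, hx₀X, hx₀⟩ := L.symm.pair y₁ hy₁ hy₁0
  obtain ⟨x, hxdef⟩ : ∃ x, x = (Cfsg.sympForm m F y₁ x₀)⁻¹ • x₀ := ⟨_, rfl⟩
  have hxX : x ∈ X := by rw [hxdef]; exact X.smul_mem _ hx₀X
  have hy₁x : Cfsg.sympForm m F y₁ x = 1 := by
    rw [hxdef, sf_smul_right, inv_mul_cancel₀ hx₀]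
  have hfr : 2 ≤ Module.finrank F (cut (cut Y x) x₁) := by
    have h1 := cut_finrank Y x
    have h3 := cut_finrank (cut Y x) x₁
    have h4 := L.frY
    omega
  obtain ⟨y, hyK, hyne⟩ := exists_not_smul _ hfr y₁
  rw [mem_cut, mem_cut] at hyK
  obtain ⟨⟨hyY, hyx⟩, hyx₁⟩ := hyK
  have hy0 : y ≠ 0 := by
    intro h
    apply hyne 0
    rw [h, zero_smul]
  have hxy' : Cfsg.sympForm m F x y = 0 := by rw [sf_swap, hyx, neg_zero]
  have hx₁y : Cfsg.sympForm m F x₁ y = 0 := by rw [sf_swap, hyx₁, neg_zero]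
  have hhM : hh x y 1 ∈ M := hHP x hxX y hyY hxy' 1
  have e1 : (hh x y (1 : F) : Matrix (Fin m ⊕ Fin m) (Fin m ⊕ Fin m) F) *ᵥ x₁ = x₁ := by
    rw [hh_mulVec x y hxy', L.tiX x₁ hx₁ x hxX, hx₁y, mul_zero, zero_smul, zero_smul, add_zero,
      add_zero]
  have e2 : (hh x y (1 : F) : Matrix (Fin m ⊕ Fin m) (Fin m ⊕ Fin m) F) *ᵥ y₁ = y₁ + y := by
    rw [hh_mulVec x y hxy', hy₁x, L.tiY y₁ hy₁ y hyY, mul_zero, zero_smul, add_zero, mul_one,
      one_smul]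
  have hyy₁ : Cfsg.sympForm m F y y₁ = 0 := L.tiY y hyY y₁ hy₁
  have hPy : Pp M y ((2 : F) • y₁ + y) := by
    intro k
    obtain ⟨s, h⟩ := hQ' k
    have h' := M.mul_mem (M.mul_mem hhM h) (M.inv_mem hhM)
    have e3 : hh x y 1 * (tvS x₁ s * tvS y₁ (2 * k)) * (hh x y 1)⁻¹
        = tvS x₁ s * tvS (y₁ + y) (2 * k) := by
      have e4 : hh x y 1 * (tvS x₁ s * tvS y₁ (2 * k)) * (hh x y 1)⁻¹
          = (hh x y 1 * tvS x₁ s * (hh x y 1)⁻¹) * (hh x y 1 * tvS y₁ (2 * k) * (hh x y 1)⁻¹) := by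
        group
      rw [e4, tvS_conj, tvS_conj, e1, e2]
    rw [e3] at h'
    have h'' := M.mul_mem (M.inv_mem h) h'
    have e5 : (tvS x₁ s * tvS y₁ (2 * k))⁻¹ * (tvS x₁ s * tvS (y₁ + y) (2 * k))
        = tvS y₁ (-(2 * k)) * tvS (y₁ + y) (2 * k) := by
      rw [_root_.mul_inv_rev, tvS_inv, mul_assoc, inv_mul_cancel_left]
    rw [e5, tv_pair y₁ y hyy₁] at h''
    exact h''
  have hne2 : ∀ c : F, y₁ ≠ c • y := by
    intro c h
    have hc : c ≠ 0 := by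
      rintro rfl
      rw [zero_smul] at h
      exact hy₁0 h
    apply hyne c⁻¹
    rw [h, smul_smul, inv_mul_cancel₀ hc, one_smul]
  obtain ⟨x₂, hx₂X, hx₂y, hx₂y₁⟩ := L.symm.sep y y₁ hyY hy₁ hne2
  have hyx₂ : Cfsg.sympForm m F y x₂ = 0 := by rw [sf_swap, hx₂y, neg_zero]
  have h0 : Cfsg.sympForm m F y ((2 : F) • y₁ + y) = 0 := by
    rw [sf_add_right, sf_smul_right, hyy₁, sf_self, mul_zero, add_zero]
  have hβ' : Cfsg.sympForm m F ((2 : F) • y₁ + y) x₂ ≠ 0 := by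
    rw [sf_add_left, sf_smul_left, hyx₂, add_zero, sf_swap]
    exact mul_ne_zero h2 (neg_ne_zero.mpr hx₂y₁)
  exact ⟨y, hy0, Or.inr hyY, dir_of_rel1 h2 M y ((2 : F) • y₁ + y) x₂ h0 hyx₂ hβ' hPy
    (hHP.symm y hyY x₂ hx₂X hyx₂)⟩

theorem map_eq_of_le' (A : Matrix.symplecticGroup (Fin m) F)
    (U W : Submodule F (Fin m ⊕ Fin m → F))
    (hfr : Module.finrank F U = Module.finrank F W)
    (h : ∀ x ∈ U, (A : Matrix (Fin m ⊕ Fin m) (Fin m ⊕ Fin m) F) *ᵥ x ∈ W) :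
    U.map (Matrix.toLin' (A : Matrix (Fin m ⊕ Fin m) (Fin m ⊕ Fin m) F)) = W := by
  apply Submodule.eq_of_le_of_finrank_eq
  · rintro _ ⟨x, hx, rfl⟩
    rw [Matrix.toLin'_apply]
    exact h x hx
  · rw [← LinearEquiv.finrank_eq (Submodule.equivMapOfInjective _ (toLin_inj A) U), hfr]

theorem bad_pair (hm : 3 ≤ m) {X Y : Submodule F (Fin m ⊕ Fin m → F)} (L : LagPair X Y)
    (g : Matrix.symplecticGroup (Fin m) F)
    (hgn : ¬ (((∀ x ∈ X, (g : Matrix (Fin m ⊕ Fin m) (Fin m ⊕ Fin m) F) *ᵥ x ∈ X) ∧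
        (∀ y ∈ Y, (g : Matrix (Fin m ⊕ Fin m) (Fin m ⊕ Fin m) F) *ᵥ y ∈ Y)) ∨
      ((∀ x ∈ X, (g : Matrix (Fin m ⊕ Fin m) (Fin m ⊕ Fin m) F) *ᵥ x ∈ Y) ∧
        (∀ y ∈ Y, (g : Matrix (Fin m ⊕ Fin m) (Fin m ⊕ Fin m) F) *ᵥ y ∈ X)))) :
    ∃ x ∈ X, ∃ y ∈ Y, x ≠ 0 ∧ y ≠ 0 ∧ Cfsg.sympForm m F x y = 0 ∧
      ¬ ((g : Matrix (Fin m ⊕ Fin m) (Fin m ⊕ Fin m) F) *ᵥ x ∈ X ∧
        (g : Matrix (Fin m ⊕ Fin m) (Fin m ⊕ Fin m) F) *ᵥ y ∈ Y) ∧
      ¬ ((g : Matrix (Fin m ⊕ Fin m) (Fin m ⊕ Fin m) F) *ᵥ x ∈ Y ∧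
        (g : Matrix (Fin m ⊕ Fin m) (Fin m ⊕ Fin m) F) *ᵥ y ∈ X) := by
  by_contra hcon
  have hall : ∀ x ∈ X, ∀ y ∈ Y, x ≠ 0 → y ≠ 0 → Cfsg.sympForm m F x y = 0 →
      ((g : Matrix (Fin m ⊕ Fin m) (Fin m ⊕ Fin m) F) *ᵥ x ∈ X ∧
        (g : Matrix (Fin m ⊕ Fin m) (Fin m ⊕ Fin m) F) *ᵥ y ∈ Y) ∨
      ((g : Matrix (Fin m ⊕ Fin m) (Fin m ⊕ Fin m) F) *ᵥ x ∈ Y ∧
        (g : Matrix (Fin m ⊕ Fin m) (Fin m ⊕ Fin m) F) *ᵥ y ∈ X) := by
    intro x hx y hy hx0 hy0 hxy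
    by_contra h
    rw [not_or] at h
    exact hcon ⟨x, hx, y, hy, hx0, hy0, hxy, h.1, h.2⟩
  have hexY : ∀ x ∈ X, ∃ y ∈ Y, y ≠ 0 ∧ Cfsg.sympForm m F x y = 0 := by
    intro x hx
    have hfr : 2 ≤ Module.finrank F (cut Y x) := by
      have h1 := cut_finrank Y x
      have h4 := L.frY
      omega
    obtain ⟨y, hyK, hyne⟩ := exists_not_smul _ hfr 0
    rw [mem_cut] at hyK
    refine ⟨y, hyK.1, ?_, by rw [sf_swap, hyK.2, neg_zero]⟩
    intro h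
    apply hyne 0
    rw [h, smul_zero]
  have hexX : ∀ y ∈ Y, ∃ x ∈ X, x ≠ 0 ∧ Cfsg.sympForm m F x y = 0 := by
    intro y hy
    have hfr : 2 ≤ Module.finrank F (cut X y) := by
      have h1 := cut_finrank X y
      have h4 := L.frX
      omega
    obtain ⟨x, hxK, hxne⟩ := exists_not_smul _ hfr 0
    rw [mem_cut] at hxK
    refine ⟨x, hxK.1, ?_, hxK.2⟩
    intro h
    apply hxne 0
    rw [h, smul_zero]
  have hX : ∀ x ∈ X, (g : Matrix (Fin m ⊕ Fin m) (Fin m ⊕ Fin m) F) *ᵥ x ∈ X ∨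
      (g : Matrix (Fin m ⊕ Fin m) (Fin m ⊕ Fin m) F) *ᵥ x ∈ Y := by
    intro x hx
    by_cases hx0 : x = 0
    · left
      rw [hx0, Matrix.mulVec_zero]
      exact X.zero_mem
    · obtain ⟨y, hy, hy0, hxy⟩ := hexY x hx
      rcases hall x hx y hy hx0 hy0 hxy with h | h
      · exact Or.inl h.1
      · exact Or.inr h.1
  have hY : ∀ y ∈ Y, (g : Matrix (Fin m ⊕ Fin m) (Fin m ⊕ Fin m) F) *ᵥ y ∈ X ∨
      (g : Matrix (Fin m ⊕ Fin m) (Fin m ⊕ Fin m) F) *ᵥ y ∈ Y := by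
    intro y hy
    by_cases hy0 : y = 0
    · left
      rw [hy0, Matrix.mulVec_zero]
      exact X.zero_mem
    · obtain ⟨x, hx, hx0, hxy⟩ := hexX y hy
      rcases hall x hx y hy hx0 hy0 hxy with h | h
      · exact Or.inr h.2
      · exact Or.inl h.2
  have hX' : X ≤ X.comap (Matrix.toLin' (g : Matrix (Fin m ⊕ Fin m) (Fin m ⊕ Fin m) F)) ∨
      X ≤ Y.comap (Matrix.toLin' (g : Matrix (Fin m ⊕ Fin m) (Fin m ⊕ Fin m) F)) := by
    apply sub_union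
    intro x hx
    rw [Submodule.mem_comap, Submodule.mem_comap, Matrix.toLin'_apply]
    exact hX x hx
  have hY' : Y ≤ X.comap (Matrix.toLin' (g : Matrix (Fin m ⊕ Fin m) (Fin m ⊕ Fin m) F)) ∨
      Y ≤ Y.comap (Matrix.toLin' (g : Matrix (Fin m ⊕ Fin m) (Fin m ⊕ Fin m) F)) := by
    apply sub_union
    intro y hy
    rw [Submodule.mem_comap, Submodule.mem_comap, Matrix.toLin'_apply]
    exact hY y hy
  have hmem : ∀ U W : Submodule F (Fin m ⊕ Fin m → F),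
      U ≤ W.comap (Matrix.toLin' (g : Matrix (Fin m ⊕ Fin m) (Fin m ⊕ Fin m) F)) →
      ∀ x ∈ U, (g : Matrix (Fin m ⊕ Fin m) (Fin m ⊕ Fin m) F) *ᵥ x ∈ W := by
    intro U W h x hx
    have h1 := h hx
    rwa [Submodule.mem_comap, Matrix.toLin'_apply] at h1
  obtain ⟨x₀, hx₀, hx₀0⟩ : ∃ x ∈ X, x ≠ 0 := by
    obtain ⟨a, ha, hne⟩ := exists_not_smul X (by rw [L.frX]; omega) 0
    exact ⟨a, ha, fun h => hne 0 (by rw [h, smul_zero])⟩
  obtain ⟨y₀, hy₀, hy₀0⟩ : ∃ y ∈ Y, y ≠ 0 := by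
    obtain ⟨a, ha, hne⟩ := exists_not_smul Y (by rw [L.frY]; omega) 0
    exact ⟨a, ha, fun h => hne 0 (by rw [h, smul_zero])⟩
  rcases hX' with hXX | hXY
  · rcases hY' with hYX | hYY
    · have hmap := map_eq_of_le' g X X rfl (hmem X X hXX)
      have h1 : (g : Matrix (Fin m ⊕ Fin m) (Fin m ⊕ Fin m) F) *ᵥ y₀ ∈
          X.map (Matrix.toLin' (g : Matrix (Fin m ⊕ Fin m) (Fin m ⊕ Fin m) F)) := by
        rw [hmap]
        exact hmem Y X hYX y₀ hy₀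
      obtain ⟨x, hx, hxe⟩ := h1
      have hxy : x = y₀ := toLin_inj g (by rw [hxe, Matrix.toLin'_apply])
      rw [hxy] at hx
      exact hy₀0 (L.disj y₀ hx hy₀)
    · exact hgn (Or.inl ⟨hmem X X hXX, hmem Y Y hYY⟩)
  · rcases hY' with hYX | hYY
    · exact hgn (Or.inr ⟨hmem X Y hXY, hmem Y X hYX⟩)
    · have hmap := map_eq_of_le' g Y Y rfl (hmem Y Y hYY)
      have h1 : (g : Matrix (Fin m ⊕ Fin m) (Fin m ⊕ Fin m) F) *ᵥ x₀ ∈
          Y.map (Matrix.toLin' (g : Matrix (Fin m ⊕ Fin m) (Fin m ⊕ Fin m) F)) := by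
        rw [hmap]
        exact hmem X Y hXY x₀ hx₀
      obtain ⟨y, hy, hye⟩ := h1
      have hxy : y = x₀ := toLin_inj g (by rw [hye, Matrix.toLin'_apply])
      rw [hxy] at hy
      exact hx₀0 (L.disj x₀ hx₀ hy)

theorem find_dir (h2 : (2 : F) ≠ 0) (hm : 5 ≤ m) {X Y : Submodule F (Fin m ⊕ Fin m → F)}
    (L : LagPair X Y) (M : Subgroup (Matrix.symplecticGroup (Fin m) F)) (hHP : HP M X Y)
    (g : Matrix.symplecticGroup (Fin m) F) (hg : g ∈ M)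
    (hgn : ¬ (((∀ x ∈ X, (g : Matrix (Fin m ⊕ Fin m) (Fin m ⊕ Fin m) F) *ᵥ x ∈ X) ∧
        (∀ y ∈ Y, (g : Matrix (Fin m ⊕ Fin m) (Fin m ⊕ Fin m) F) *ᵥ y ∈ Y)) ∨
      ((∀ x ∈ X, (g : Matrix (Fin m ⊕ Fin m) (Fin m ⊕ Fin m) F) *ᵥ x ∈ Y) ∧
        (∀ y ∈ Y, (g : Matrix (Fin m ⊕ Fin m) (Fin m ⊕ Fin m) F) *ᵥ y ∈ X)))) :
    ∃ v, v ≠ 0 ∧ (v ∈ X ∨ v ∈ Y) ∧ v ∈ dirs M := by
  obtain ⟨x, hx, y, hy, hx0, hy0, hxy, hn1, hn2⟩ := bad_pair (by omega) L g hgn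
  obtain ⟨a', ha'⟩ : ∃ a', a' = (g : Matrix (Fin m ⊕ Fin m) (Fin m ⊕ Fin m) F) *ᵥ x := ⟨_, rfl⟩
  obtain ⟨b', hb'⟩ : ∃ b', b' = (g : Matrix (Fin m ⊕ Fin m) (Fin m ⊕ Fin m) F) *ᵥ y := ⟨_, rfl⟩
  rw [← ha', ← hb'] at hn1 hn2
  have hP : Pp M a' b' := by
    rw [ha', hb']
    exact Pp_conj M g hg x y (hHP x hx y hy hxy)
  have hperp : Cfsg.sympForm m F a' b' = 0 := by
    rw [ha', hb', sp_preserves]
    exact hxy
  have hind : ∀ s t : F, s • a' + t • b' = 0 → s = 0 ∧ t = 0 := by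
    intro s t h
    have h1 : (g : Matrix (Fin m ⊕ Fin m) (Fin m ⊕ Fin m) F) *ᵥ (s • x + t • y) = 0 := by
      rw [Matrix.mulVec_add, Matrix.mulVec_smul, Matrix.mulVec_smul, ← ha', ← hb']
      exact h
    have h3 : s • x + t • y = 0 := by
      have h4 := sp_inv_mulVec g (s • x + t • y)
      rw [h1, Matrix.mulVec_zero] at h4
      exact h4.symm
    have h4 : s • x ∈ Y := by
      have h5 : s • x = -(t • y) := eq_neg_of_add_eq_zero_left h3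
      rw [h5]
      exact Y.neg_mem (Y.smul_mem _ hy)
    have h5 := L.disj _ (X.smul_mem s hx) h4
    have hs : s = 0 := by
      rcases smul_eq_zero.mp h5 with h | h
      · exact h
      · exact absurd h hx0
    rw [hs, zero_smul, zero_add] at h3
    rcases smul_eq_zero.mp h3 with h | h
    · exact ⟨hs, h⟩
    · exact absurd h hy0
  obtain ⟨a₁, ha₁, a₂, ha₂, hae⟩ := L.dec a'
  obtain ⟨b₁, hb₁, b₂, hb₂, hbe⟩ := L.dec b'
  by_cases c1 : a₁ ≠ 0 ∧ ∀ c : F, b₁ ≠ c • a₁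
  · obtain ⟨a, haX, ha0, had⟩ := caseA h2 hm L M hHP a₁ b₁ a₂ b₂ ha₁ hb₁ ha₂ hb₂
      (by rw [hae, hbe]; exact hP) (by rw [hae, hbe]; exact hperp) c1.1 c1.2
    exact ⟨a, ha0, Or.inl haX, had⟩
  by_cases c3 : a₂ ≠ 0 ∧ ∀ c : F, b₂ ≠ c • a₂
  · obtain ⟨a, haY, ha0, had⟩ := caseA h2 hm L.symm M hHP.symm a₂ b₂ a₁ b₁ ha₂ hb₂ ha₁ hb₁
      (by rw [add_comm a₂ a₁, add_comm b₂ b₁, hae, hbe]; exact hP)
      (by rw [add_comm a₂ a₁, add_comm b₂ b₁, hae, hbe]; exact hperp) c3.1 c3.2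
    exact ⟨a, ha0, Or.inr haY, had⟩
  obtain ⟨x₁, hx₁, α, γ, hα, hγ⟩ : ∃ x₁ ∈ X, ∃ α γ : F, a₁ = α • x₁ ∧ b₁ = γ • x₁ := by
    by_cases h : a₁ = 0
    · exact ⟨b₁, hb₁, 0, 1, by rw [h, zero_smul], by rw [one_smul]⟩
    · have h' : ¬ ∀ c : F, b₁ ≠ c • a₁ := fun h' => c1 ⟨h, h'⟩
      push Not at h'
      obtain ⟨c, hc⟩ := h'
      exact ⟨a₁, ha₁, 1, c, by rw [one_smul], hc⟩
  obtain ⟨y₁, hy₁, β, δ, hβ, hδ⟩ : ∃ y₁ ∈ Y, ∃ β δ : F, a₂ = β • y₁ ∧ b₂ = δ • y₁ := by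
    by_cases h : a₂ = 0
    · exact ⟨b₂, hb₂, 0, 1, by rw [h, zero_smul], by rw [one_smul]⟩
    · have h' : ¬ ∀ c : F, b₂ ≠ c • a₂ := fun h' => c3 ⟨h, h'⟩
      push Not at h'
      obtain ⟨c, hc⟩ := h'
      exact ⟨a₂, ha₂, 1, c, by rw [one_smul], hc⟩
  have hae' : a' = α • x₁ + β • y₁ := by rw [← hae, hα, hβ]
  have hbe' : b' = γ • x₁ + δ • y₁ := by rw [← hbe, hγ, hδ]
  have ha'0 : a' ≠ 0 := by
    intro h
    have h3 := hind 1 0 (by rw [h, smul_zero, zero_smul, add_zero])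
    exact one_ne_zero h3.1
  have hdet : α * δ - β * γ ≠ 0 := by
    intro h
    have e1 : δ • a' + (-β) • b' = 0 := by
      rw [hae', hbe']
      have e : δ • (α • x₁ + β • y₁) + (-β) • (γ • x₁ + δ • y₁) = (α * δ - β * γ) • x₁ := by
        module
      rw [e, h, zero_smul]
    have e2 : γ • a' + (-α) • b' = 0 := by
      rw [hae', hbe']
      have e : γ • (α • x₁ + β • y₁) + (-α) • (γ • x₁ + δ • y₁)
          = (-(α * δ - β * γ)) • y₁ := by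
        module
      rw [e, h, neg_zero, zero_smul]
    have h3 := hind _ _ e1
    have h4 := hind _ _ e2
    apply ha'0
    rw [hae', (neg_eq_zero.mp h4.2 : α = 0), (neg_eq_zero.mp h3.2 : β = 0), zero_smul,
      zero_smul, add_zero]
  have hx₁0 : x₁ ≠ 0 := by
    intro h
    have e1 : δ • a' + (-β) • b' = 0 := by
      rw [hae', hbe', h]
      module
    have h3 := hind _ _ e1
    apply hdet
    rw [h3.1, (neg_eq_zero.mp h3.2 : β = 0)]
    ring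
  have hy₁0 : y₁ ≠ 0 := by
    intro h
    have e2 : γ • a' + (-α) • b' = 0 := by
      rw [hae', hbe', h]
      module
    have h4 := hind _ _ e2
    apply hdet
    rw [h4.1, (neg_eq_zero.mp h4.2 : α = 0)]
    ring
  have hxy₁ : Cfsg.sympForm m F x₁ y₁ = 0 := by
    have h := hperp
    rw [hae', hbe'] at h
    simp only [sf_add_left, sf_add_right, sf_smul_left, sf_smul_right, sf_self, mul_zero,
      add_zero, zero_add] at h
    rw [sf_swap y₁ x₁] at h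
    have h' : (α * δ - β * γ) * Cfsg.sympForm m F x₁ y₁ = 0 := by linear_combination h
    rcases mul_eq_zero.mp h' with h'' | h''
    · exact absurd h'' hdet
    · exact h''
  have hnz : α * γ ≠ 0 ∨ β * δ ≠ 0 := by
    by_contra hcon
    rw [not_or, not_not, not_not] at hcon
    obtain ⟨h1, h2'⟩ := hcon
    rcases mul_eq_zero.mp h1 with hα0 | hγ0
    · rcases mul_eq_zero.mp h2' with hβ0 | hδ0
      · apply hdet
        rw [hα0, hβ0]
        ring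
      · apply hn2
        rw [hae', hbe', hα0, hδ0, zero_smul, zero_smul, zero_add, add_zero]
        exact ⟨Y.smul_mem _ hy₁, X.smul_mem _ hx₁⟩
    · rcases mul_eq_zero.mp h2' with hβ0 | hδ0
      · apply hn1
        rw [hae', hbe', hγ0, hβ0, zero_smul, zero_smul, zero_add, add_zero]
        exact ⟨X.smul_mem _ hx₁, Y.smul_mem _ hy₁⟩
      · apply hdet
        rw [hγ0, hδ0]
        ring
  exact caseC h2 hm L M hHP x₁ y₁ hx₁ hy₁ hx₁0 hy₁0 hxy₁ α β γ δ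
    (by rw [← hae', ← hbe']; exact hP) hnz

theorem fill {X Y : Submodule F (Fin m ⊕ Fin m → F)} (L : LagPair X Y)
    (M : Subgroup (Matrix.symplecticGroup (Fin m) F)) (hHP : HP M X Y)
    (v : Fin m ⊕ Fin m → F) (hv : v ∈ X) (hv0 : v ≠ 0) (hvd : v ∈ dirs M) :
    ∀ x ∈ X, x ∈ dirs M := by
  intro x' hx'
  by_cases h : ∃ c : F, x' = c • v
  · obtain ⟨c, rfl⟩ := h
    intro d
    rw [tvS_smul]
    exact hvd _
  · push Not at h
    obtain ⟨y, hyY, h1, h2⟩ := L.e3 v x' hv hx' hv0 h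
    have hperp : Cfsg.sympForm m F (x' - v) y = 0 := by rw [sf_sub_left, h1, h2, sub_self]
    have hmem : hh (x' - v) y 1 ∈ M := hHP _ (X.sub_mem hx' hv) y hyY hperp 1
    have h3 := dirs_conj M _ hmem v hvd
    rw [hh_mulVec _ _ hperp, L.tiX v hv _ (X.sub_mem hx' hv), h1] at h3
    have e : v + ((1 : F) * 0) • y + ((1 : F) * 1) • (x' - v) = x' := by module
    rwa [e] at h3

theorem swap_lag {X Y : Submodule F (Fin m ⊕ Fin m → F)} (L : LagPair X Y) :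
    ∃ A : Matrix.symplecticGroup (Fin m) F,
      (∀ x ∈ X, (A : Matrix (Fin m ⊕ Fin m) (Fin m ⊕ Fin m) F) *ᵥ x ∈ Y) ∧
      (∀ y ∈ Y, (A : Matrix (Fin m ⊕ Fin m) (Fin m ⊕ Fin m) F) *ᵥ y ∈ X) := by
  classical
  have hc : IsCompl X Y := by
    constructor
    · rw [Submodule.disjoint_def]
      intro v h1 h2
      exact L.disj v h1 h2
    · rw [codisjoint_iff, eq_top_iff]
      intro v _
      obtain ⟨x, hx, y, hy, rfl⟩ := L.dec v
      exact Submodule.add_mem_sup hx hy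
  have hfr : Module.finrank F X = Module.finrank F Y := by rw [L.frX, L.frY]
  have hφ : ∀ x x' : X,
      sfB m F ((LinearEquiv.ofFinrankEq X Y hfr x : Y) : Fin m ⊕ Fin m → F)
        ((LinearEquiv.ofFinrankEq X Y hfr x' : Y) : Fin m ⊕ Fin m → F)
      = sfB m F (x : Fin m ⊕ Fin m → F) (x' : Fin m ⊕ Fin m → F) := by
    intro x x'
    rw [sfB_apply, sfB_apply, L.tiX _ x.2 _ x'.2,
      L.tiY _ (Subtype.property _) _ (Subtype.property _)]
  obtain ⟨s₁, hs1, hs2⟩ := Cfsg.Agent.S0749.result (sfB m F) (sfB_nondeg m) (sfB_alt m) X Y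
    (LinearEquiv.ofFinrankEq X Y hfr) hφ
  have hs1' : ∀ u v, Cfsg.sympForm m F (s₁ u) (s₁ v) = Cfsg.sympForm m F u v := hs1
  have hsX : ∀ x ∈ X, s₁ x ∈ Y := by
    intro x hx
    have h : s₁ x = ((LinearEquiv.ofFinrankEq X Y hfr ⟨x, hx⟩ : Y) : Fin m ⊕ Fin m → F) :=
      hs2 ⟨x, hx⟩
    rw [h]
    exact Subtype.property _
  obtain ⟨PX, hPX⟩ : ∃ P : (Fin m ⊕ Fin m → F) →ₗ[F] (Fin m ⊕ Fin m → F),
      P = X.projection Y hc := ⟨_, rfl⟩
  obtain ⟨PY, hPY⟩ : ∃ P : (Fin m ⊕ Fin m → F) →ₗ[F] (Fin m ⊕ Fin m → F),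
      P = Y.projection X hc.symm := ⟨_, rfl⟩
  have hP1 : ∀ v, PX v ∈ X := by
    intro v
    rw [hPX]
    exact Submodule.projection_apply_mem hc v
  have hP2 : ∀ v, PY v ∈ Y := by
    intro v
    rw [hPY]
    exact Submodule.projection_apply_mem hc.symm v
  have hP3 : ∀ v, PX v + PY v = v := by
    intro v
    rw [hPX, hPY]
    exact Submodule.projection_add_projection_eq_self hc v
  have hP4 : ∀ x ∈ X, PX x = x := by
    intro x hx
    rw [hPX]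
    exact Submodule.projection_apply_of_mem_left hc hx
  have hP5 : ∀ y ∈ Y, PX y = 0 := by
    intro y hy
    rw [hPX]
    exact Submodule.projection_apply_of_mem_right hc hy
  have hP6 : ∀ x ∈ X, PY x = 0 := by
    intro x hx
    rw [hPY]
    exact Submodule.projection_apply_of_mem_right hc.symm hx
  obtain ⟨sL, hsL⟩ : ∃ f : (Fin m ⊕ Fin m → F) →ₗ[F] (Fin m ⊕ Fin m → F),
      f = (s₁ : (Fin m ⊕ Fin m → F) →ₗ[F] (Fin m ⊕ Fin m → F)) ∘ₗ PX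
        + PX ∘ₗ (s₁ : (Fin m ⊕ Fin m → F) →ₗ[F] (Fin m ⊕ Fin m → F)) ∘ₗ PY := ⟨_, rfl⟩
  have happ : ∀ v, sL v = s₁ (PX v) + PX (s₁ (PY v)) := by
    intro v
    rw [hsL]
    rfl
  have key : ∀ x ∈ X, ∀ z, Cfsg.sympForm m F (s₁ x) (PX z) = Cfsg.sympForm m F (s₁ x) z := by
    intro x hx z
    have h := sf_add_right (s₁ x) (PX z) (PY z)
    rw [hP3, L.tiY _ (hsX x hx) _ (hP2 z), add_zero] at h
    exact h.symm
  have hiso : ∀ u v, Cfsg.sympForm m F (sL u) (sL v) = Cfsg.sympForm m F u v := by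
    intro u v
    rw [happ, happ]
    have e1 : Cfsg.sympForm m F (s₁ (PX u)) (s₁ (PX v)) = 0 := by
      rw [hs1']
      exact L.tiX _ (hP1 u) _ (hP1 v)
    have e4 : Cfsg.sympForm m F (PX (s₁ (PY u))) (PX (s₁ (PY v))) = 0 :=
      L.tiX _ (hP1 _) _ (hP1 _)
    have e2 : Cfsg.sympForm m F (s₁ (PX u)) (PX (s₁ (PY v)))
        = Cfsg.sympForm m F (PX u) (PY v) := by
      rw [key _ (hP1 u), hs1']
    have e3 : Cfsg.sympForm m F (PX (s₁ (PY u))) (s₁ (PX v))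
        = Cfsg.sympForm m F (PY u) (PX v) := by
      rw [sf_swap, key _ (hP1 v), hs1', ← sf_swap]
    have e5 : Cfsg.sympForm m F (PX u + PY u) (PX v + PY v)
        = Cfsg.sympForm m F (PX u) (PY v) + Cfsg.sympForm m F (PY u) (PX v) := by
      rw [sf_add_left, sf_add_right, sf_add_right, L.tiX _ (hP1 u) _ (hP1 v),
        L.tiY _ (hP2 u) _ (hP2 v)]
      ring
    rw [hP3, hP3] at e5
    rw [sf_add_left, sf_add_right, sf_add_right, e1, e2, e3, e4, e5]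
    ring
  have hinj : Function.Injective sL := by
    rw [← LinearMap.ker_eq_bot, LinearMap.ker_eq_bot']
    intro v hv
    by_contra h0
    obtain ⟨w, hw⟩ := S0768.nondeg v h0
    apply hw
    rw [← hiso, hv, sf_zero_left]
  obtain ⟨A, hA⟩ := sp_of_isometry m (LinearEquiv.ofInjectiveEndo sL hinj) (by
    intro u v
    rw [LinearEquiv.coe_ofInjectiveEndo]
    exact hiso u v)
  refine ⟨A, ?_, ?_⟩
  · intro x hx
    rw [hA, LinearEquiv.coe_ofInjectiveEndo, happ, hP4 x hx, hP6 x hx, map_zero, map_zero,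
      add_zero]
    exact hsX x hx
  · intro y hy
    rw [hA, LinearEquiv.coe_ofInjectiveEndo, happ, hP5 y hy, map_zero, zero_add]
    exact hP1 _

theorem finish {X Y : Submodule F (Fin m ⊕ Fin m → F)} (L : LagPair X Y)
    (M : Subgroup (Matrix.symplecticGroup (Fin m) F)) (hHP : HP M X Y)
    (s : Matrix.symplecticGroup (Fin m) F) (hs : s ∈ M)
    (hsX : ∀ x ∈ X, (s : Matrix (Fin m ⊕ Fin m) (Fin m ⊕ Fin m) F) *ᵥ x ∈ Y)
    (hsY : ∀ y ∈ Y, (s : Matrix (Fin m ⊕ Fin m) (Fin m ⊕ Fin m) F) *ᵥ y ∈ X)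
    (v : Fin m ⊕ Fin m → F) (hv0 : v ≠ 0) (hv : v ∈ X ∨ v ∈ Y) (hvd : v ∈ dirs M) : M = ⊤ := by
  have hsv0 : (s : Matrix (Fin m ⊕ Fin m) (Fin m ⊕ Fin m) F) *ᵥ v ≠ 0 := by
    intro h
    apply hv0
    have h1 := sp_inv_mulVec s v
    rw [h, Matrix.mulVec_zero] at h1
    exact h1.symm
  have hsvd : (s : Matrix (Fin m ⊕ Fin m) (Fin m ⊕ Fin m) F) *ᵥ v ∈ dirs M :=
    dirs_conj M s hs v hvd
  have hXY : (∀ x ∈ X, x ∈ dirs M) ∧ (∀ y ∈ Y, y ∈ dirs M) := by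
    rcases hv with hvX | hvY
    · exact ⟨fill L M hHP v hvX hv0 hvd, fill L.symm M hHP.symm _ (hsX v hvX) hsv0 hsvd⟩
    · exact ⟨fill L M hHP _ (hsY v hvY) hsv0 hsvd, fill L.symm M hHP.symm v hvY hv0 hvd⟩
  obtain ⟨hX, hY⟩ := hXY
  have claim1 : ∀ x ∈ X, ∀ y ∈ Y, Cfsg.sympForm m F x y ≠ 0 → x + y ∈ dirs M := by
    intro x hx y hy hne
    have hne' : Cfsg.sympForm m F y x ≠ 0 := by
      rw [sf_swap]
      exact neg_ne_zero.mpr hne
    have h := dirs_move M x y (hX x hx) (hY y hy) (Cfsg.sympForm m F y x)⁻¹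
    rw [inv_mul_cancel₀ hne', one_smul, add_comm] at h
    exact h
  apply top_of_dirs
  intro w
  obtain ⟨x, hx, y, hy, rfl⟩ := L.dec w
  by_cases hx0 : x = 0
  · rw [hx0, zero_add]
    exact hY y hy
  obtain ⟨y', hy', hne⟩ := L.pair x hx hx0
  have h1 := claim1 x hx y' hy' hne
  by_cases hxy : Cfsg.sympForm m F x y = 0
  · have h3 : Cfsg.sympForm m F (x + y') (y - y') ≠ 0 := by
      rw [sf_add_left, sf_sub_right, sf_sub_right, hxy, L.tiY y' hy' y hy, sf_self, sub_zero,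
        zero_sub, add_zero]
      exact neg_ne_zero.mpr hne
    have h := dirs_move M (y - y') (x + y') (hY _ (Y.sub_mem hy hy')) h1
      (Cfsg.sympForm m F (x + y') (y - y'))⁻¹
    rw [inv_mul_cancel₀ h3, one_smul] at h
    have e : x + y' + (y - y') = x + y := by abel
    rwa [e] at h
  · exact claim1 x hx y hy hxy

theorem core_lag (h2 : (2 : F) ≠ 0) (hm : 7 ≤ m) {X Y : Submodule F (Fin m ⊕ Fin m → F)}
    (L : LagPair X Y) (M : Subgroup (Matrix.symplecticGroup (Fin m) F))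
    (hH : ∀ A : Matrix.symplecticGroup (Fin m) F,
      (((∀ x ∈ X, (A : Matrix (Fin m ⊕ Fin m) (Fin m ⊕ Fin m) F) *ᵥ x ∈ X) ∧
        (∀ y ∈ Y, (A : Matrix (Fin m ⊕ Fin m) (Fin m ⊕ Fin m) F) *ᵥ y ∈ Y)) ∨
      ((∀ x ∈ X, (A : Matrix (Fin m ⊕ Fin m) (Fin m ⊕ Fin m) F) *ᵥ x ∈ Y) ∧
        (∀ y ∈ Y, (A : Matrix (Fin m ⊕ Fin m) (Fin m ⊕ Fin m) F) *ᵥ y ∈ X))) → A ∈ M)
    (hbad : ∃ g ∈ M,
      ¬ (((∀ x ∈ X, (g : Matrix (Fin m ⊕ Fin m) (Fin m ⊕ Fin m) F) *ᵥ x ∈ X) ∧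
        (∀ y ∈ Y, (g : Matrix (Fin m ⊕ Fin m) (Fin m ⊕ Fin m) F) *ᵥ y ∈ Y)) ∨
      ((∀ x ∈ X, (g : Matrix (Fin m ⊕ Fin m) (Fin m ⊕ Fin m) F) *ᵥ x ∈ Y) ∧
        (∀ y ∈ Y, (g : Matrix (Fin m ⊕ Fin m) (Fin m ⊕ Fin m) F) *ᵥ y ∈ X)))) : M = ⊤ := by
  have hHP : HP M X Y := by
    intro a ha b hb hab c
    apply hH
    left
    constructor
    · intro x hx
      rw [hh_mulVec a b hab, L.tiX x hx a ha, mul_zero, zero_smul, add_zero]
      exact X.add_mem hx (X.smul_mem _ ha)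
    · intro y hy
      rw [hh_mulVec a b hab, L.tiY y hy b hb, mul_zero, zero_smul, add_zero]
      exact Y.add_mem hy (Y.smul_mem _ hb)
  obtain ⟨g, hg, hgn⟩ := hbad
  obtain ⟨v, hv0, hv, hvd⟩ := find_dir h2 (by omega) L M hHP g hg hgn
  obtain ⟨s, hsX, hsY⟩ := swap_lag L
  exact finish L M hHP s (hH s (Or.inr ⟨hsX, hsY⟩)) hsX hsY v hv0 hv hvd

theorem mem_H2 {D : Fin 2 → Submodule F (Fin m ⊕ Fin m → F)} {k : ℕ}
    (hD : Cfsg.Geo.IsMDecomposition k D) (A : Matrix.symplecticGroup (Fin m) F)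
    (h : ((∀ x ∈ D 0, (A : Matrix (Fin m ⊕ Fin m) (Fin m ⊕ Fin m) F) *ᵥ x ∈ D 0) ∧
        (∀ y ∈ D 1, (A : Matrix (Fin m ⊕ Fin m) (Fin m ⊕ Fin m) F) *ᵥ y ∈ D 1)) ∨
      ((∀ x ∈ D 0, (A : Matrix (Fin m ⊕ Fin m) (Fin m ⊕ Fin m) F) *ᵥ x ∈ D 1) ∧
        (∀ y ∈ D 1, (A : Matrix (Fin m ⊕ Fin m) (Fin m ⊕ Fin m) F) *ᵥ y ∈ D 0))) :
    ((toGHom m F A : ↥(Cfsg.spGL m F)) : GL (Fin m ⊕ Fin m) F) ∈
      Cfsg.Geo.decompositionStabilizer D := by
  rcases h with h | h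
  · refine ⟨1, ?_⟩
    rw [Fin.forall_fin_two]
    exact ⟨map_eq_of_le' A _ _ rfl h.1, map_eq_of_le' A _ _ rfl h.2⟩
  · refine ⟨Equiv.swap 0 1, ?_⟩
    rw [Fin.forall_fin_two, Equiv.swap_apply_left, Equiv.swap_apply_right]
    exact ⟨map_eq_of_le' A _ _ (by rw [hD.finrank_eq, hD.finrank_eq]) h.1,
      map_eq_of_le' A _ _ (by rw [hD.finrank_eq, hD.finrank_eq]) h.2⟩

/-- For a finite field F of odd order and m ≥ 7, let D be a decomposition of F^(2m) into two complementary subspaces of dimension m on each of which the standard alternating form vanishes identically. Then the elements of Sp_2m(F) preserving or interchanging the two subspaces form a maximal subgroup of Sp_2m(F). -/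
theorem result {F : Type*} [Field F] [Fintype F] (m : ℕ) (hm : 7 ≤ m) (hodd : Odd (Fintype.card F)) (D : Fin 2 → Submodule F (Fin m ⊕ Fin m → F)) (hD : Cfsg.Geo.IsMDecomposition m D) (hts : ∀ i, Cfsg.Geo.IsTotallySingularFor (Cfsg.sympForm m F) (D i)) : Cfsg.Geo.IsMaximalIn (Cfsg.spGL m F) (Cfsg.Geo.decompositionStabilizer D ⊓ Cfsg.spGL m F) := by
  classical
  have h2 : (2 : F) ≠ 0 := by
    intro h
    have hch : ringChar F = 2 := CharP.ringChar_of_prime_eq_zero Nat.prime_two (by simpa using h)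
    have h3 := FiniteField.even_card_of_char_two hch
    rcases hodd with ⟨k, hk⟩
    omega
  have hsup : D 0 ⊔ D 1 = ⊤ := by
    rw [eq_top_iff, ← hD.iSup_eq_top]
    apply iSup_le
    intro i
    rcases (Fin.forall_fin_two.mpr ⟨Or.inl rfl, Or.inr rfl⟩ : ∀ i : Fin 2, i = 0 ∨ i = 1) i
      with rfl | rfl
    · exact le_sup_left
    · exact le_sup_right
  have L : LagPair (D 0) (D 1) :=
    ⟨hts 0, hts 1, fun v => by
      have hv : v ∈ D 0 ⊔ D 1 := by rw [hsup]; trivial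
      exact Submodule.mem_sup.mp hv, hD.finrank_eq 0, hD.finrank_eq 1⟩
  apply maximal_of_core'
  · obtain ⟨x, hx, hx0⟩ : ∃ x ∈ D 0, x ≠ 0 := by
      obtain ⟨a, ha, hne⟩ := exists_not_smul (D 0) (by rw [hD.finrank_eq]; omega) 0
      exact ⟨a, ha, fun h => hne 0 (by rw [h, smul_zero])⟩
    obtain ⟨y, hy, hxy⟩ := L.pair x hx hx0
    have hyx : Cfsg.sympForm m F y x ≠ 0 := by
      rw [Cfsg.Agent.Helper6.sf_swap]
      exact neg_ne_zero.mpr hxy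
    refine ⟨Cfsg.Agent.Helper6.tvS x 1, fun hmem => ?_⟩
    obtain ⟨σ, hσ⟩ := hmem
    have h1 : (Cfsg.Agent.Helper6.tvS x (1 : F) :
        Matrix (Fin m ⊕ Fin m) (Fin m ⊕ Fin m) F) *ᵥ y ∈ D (σ 1) := by
      rw [← hσ 1]
      exact ⟨y, hy, Matrix.toLin'_apply _ _⟩
    rw [Cfsg.Agent.Helper6.tvS_mulVec, one_mul] at h1
    rcases (Fin.forall_fin_two.mpr ⟨Or.inl rfl, Or.inr rfl⟩ : ∀ i : Fin 2, i = 0 ∨ i = 1) (σ 1)
      with h | h
    · rw [h] at h1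
      have hy0' : y ∈ D 0 := (Submodule.add_mem_iff_left (D 0) ((D 0).smul_mem _ hx)).mp h1
      have hy0 := L.disj y hy0' hy
      rw [hy0, Cfsg.Agent.Helper6.sf_zero_left] at hyx
      exact hyx rfl
    · rw [h] at h1
      have h3 : Cfsg.sympForm m F y x • x ∈ D 1 := (Submodule.add_mem_iff_right (D 1) hy).mp h1
      have hx1 : x ∈ D 1 := by
        have h4 := (D 1).smul_mem (Cfsg.sympForm m F y x)⁻¹ h3
        rwa [smul_smul, inv_mul_cancel₀ hyx, one_smul] at h4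
      exact hx0 (L.disj x hx hx1)
  · intro M hP hbad
    apply core_lag h2 hm L M
    · intro A hA
      exact hP A (mem_H2 hD A hA)
    · obtain ⟨A, hAM, hAn⟩ := hbad
      exact ⟨A, hAM, fun h => hAn (mem_H2 hD A h)⟩

end Cfsg.Agent.S5649
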