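import Mathlib
import Cfsg.Statements.S5643
import Cfsg.Agent.Helper6.UnitMax
import Cfsg.Agent.S5642

set_option autoImplicit false
open Cfsg

namespace Cfsg.Agent.S5643

open Matrix Cfsg.Agent.Helper3 Cfsg.Agent.Helper16 Cfsg.Agent.Helper6 Cfsg.Agent.S5043
  Cfsg.Agent.S5631

section geo

variable {F : Type*} [Field F] [Fintype F] {n q : ℕ}

theorem exists_phi_ne (hF : Fintype.card F = q ^ 2) (Φ : Frob F q) : ∃ a : F, Φ.φ a ≠ a := by
  obtain ⟨b, hb⟩ := exists_tr_one hF Φ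
  obtain ⟨d, hd0, hd⟩ := exists_skew hF Φ
  by_cases h : Φ.φ b = b
  · refine ⟨d, fun h' => ?_⟩
    rw [h] at hb
    rw [h'] at hd
    have h1 : d * (b + b) = 0 := by linear_combination b * hd
    rw [hb, mul_one] at h1
    exact hd0 h1
  · exact ⟨b, h⟩

theorem ti_of_all_iso (hF : Fintype.card F = q ^ 2) (Φ : Frob F q)
    (K : Submodule F (Fin n → F)) (hK : ∀ t ∈ K, Cfsg.hermForm n F q t t = 0) :
    ∀ x ∈ K, ∀ y ∈ K, Cfsg.hermForm n F q x y = 0 := by
  intro x hx y hy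
  obtain ⟨a, ha⟩ := exists_phi_ne hF Φ
  have h1 := hK (x + y) (K.add_mem hx hy)
  have h2 := hK (x + a • y) (K.add_mem hx (K.smul_mem a hy))
  simp only [uherm_add_left, uherm_add_right Φ, uherm_smul_left, uherm_smul_right Φ, hK x hx,
    hK y hy] at h1 h2
  have h3 : (Φ.φ a - a) * Cfsg.hermForm n F q x y = 0 := by linear_combination h2 - a * h1
  rcases mul_eq_zero.mp h3 with h | h
  · exact absurd (sub_eq_zero.mp h) ha
  · exact h

/-- a subspace of more than half the dimension contains a non-isotropic vector -/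
theorem exists_noniso (hF : Fintype.card F = q ^ 2) (Φ : Frob F q)
    (K : Submodule F (Fin n → F)) (hK : n < 2 * Module.finrank F K) :
    ∃ t ∈ K, Cfsg.hermForm n F q t t ≠ 0 := by
  classical
  by_contra hcon
  push Not at hcon
  have hti := ti_of_all_iso hF Φ K hcon
  obtain ⟨m, hm⟩ : ∃ m, m = Module.finrank F K := ⟨_, rfl⟩
  have b : Module.Basis (Fin m) F K := Module.finBasisOfFinrankEq F K hm.symm
  obtain ⟨T, hT⟩ : ∃ T : (Fin n → F) →ₗ[F] (Fin m → F),
      ∀ x j, T x j = Cfsg.hermForm n F q x (b j : Fin n → F) :=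
    ⟨LinearMap.pi (fun j => hL n q (b j : Fin n → F)), fun x j => rfl⟩
  have hker : K ≤ LinearMap.ker T := by
    intro x hx
    rw [LinearMap.mem_ker]
    funext j
    rw [hT]
    exact hti x hx _ (b j).2
  have hsurj : LinearMap.range T = ⊤ := by
    by_contra hne
    obtain ⟨f, hf0, hfle⟩ := Submodule.exists_le_ker_of_lt_top _ (lt_top_iff_ne_top.mpr hne)
    have h1 : ∀ x, f (T x) = 0 := fun x =>
      LinearMap.mem_ker.mp (hfle (LinearMap.mem_range_self T x))
    obtain ⟨cf, hcf⟩ : ∃ cf : Fin m → F, ∀ j, cf j = f (fun k => if j = k then 1 else 0) :=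
      ⟨_, fun j => rfl⟩
    have h2 : ∀ v : Fin m → F, f v = ∑ j, v j * cf j := by
      intro v
      rw [LinearMap.pi_apply_eq_sum_univ f v]
      refine Finset.sum_congr rfl (fun j _ => ?_)
      rw [smul_eq_mul, hcf]
    obtain ⟨w, hw⟩ : ∃ w : K, w = ∑ j, Φ.φ (cf j) • b j := ⟨_, rfl⟩
    have h3 : ∀ x, Cfsg.hermForm n F q (w : Fin n → F) x = 0 := by
      intro x
      have e0 : (w : Fin n → F) = ∑ j, Φ.φ (cf j) • (b j : Fin n → F) := by
        rw [hw]
        simp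
      have e1 : Cfsg.hermForm n F q (w : Fin n → F) x
          = ∑ j, Φ.φ (cf j) * Cfsg.hermForm n F q (b j : Fin n → F) x := by
        rw [e0, ← hL_apply, map_sum]
        simp only [map_smul, hL_apply, smul_eq_mul]
      rw [e1]
      have e2 : ∑ j, Φ.φ (cf j) * Cfsg.hermForm n F q (b j : Fin n → F) x = Φ.φ (f (T x)) := by
        rw [h2, map_sum]
        refine Finset.sum_congr rfl (fun j _ => ?_)
        rw [map_mul, hT, uherm_conj Φ, mul_comm]
      rw [e2, h1, map_zero]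
    have hw0 : (w : Fin n → F) = 0 := um_nondeg Φ _ (fun v => um_symm Φ _ _ (h3 v))
    have hw0' : w = 0 := Subtype.ext hw0
    rw [hw] at hw0'
    have h4 := Fintype.linearIndependent_iff.mp b.linearIndependent _ hw0'
    apply hf0
    apply LinearMap.ext
    intro v
    rw [h2, LinearMap.zero_apply]
    apply Finset.sum_eq_zero
    intro j _
    have h5 := h4 j
    rw [map_eq_zero] at h5
    rw [h5, mul_zero]
  have h5 := LinearMap.finrank_range_add_finrank_ker T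
  rw [hsurj, finrank_top, Module.finrank_fin_fun, Module.finrank_fin_fun] at h5
  have h6 := Submodule.finrank_mono hker
  omega

/-- a vector of prescribed norm orthogonal to three given vectors -/
theorem exists_perp3 (hF : Fintype.card F = q ^ 2) (Φ : Frob F q) (hn : 7 ≤ n)
    (a₁ a₂ a₃ : Fin n → F) (r : F) (hr : Φ.φ r = r) :
    ∃ t, Cfsg.hermForm n F q t a₁ = 0 ∧ Cfsg.hermForm n F q t a₂ = 0 ∧
      Cfsg.hermForm n F q t a₃ = 0 ∧ Cfsg.hermForm n F q t t = r := by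
  by_cases hr0 : r = 0
  · exact ⟨0, uherm_zero_left _, uherm_zero_left _, uherm_zero_left _, by
      rw [uherm_zero_left, hr0]⟩
  · have h1 := ucut_finrank (q := q) (⊤ : Submodule F (Fin n → F)) a₁
    have h2 := ucut_finrank (q := q) (ucut q ⊤ a₁) a₂
    have h3 := ucut_finrank (q := q) (ucut q (ucut q ⊤ a₁) a₂) a₃
    rw [finrank_top, Module.finrank_fin_fun] at h1
    obtain ⟨t₀, ht₀, hN⟩ := exists_noniso hF Φ (ucut q (ucut q (ucut q ⊤ a₁) a₂) a₃) (by omega)
    rw [mem_ucut, mem_ucut, mem_ucut] at ht₀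
    obtain ⟨⟨⟨-, k1⟩, k2⟩, k3⟩ := ht₀
    have hν : Φ.φ (Cfsg.hermForm n F q t₀ t₀) = Cfsg.hermForm n F q t₀ t₀ := uherm_conj Φ t₀ t₀
    obtain ⟨μ, hμ⟩ := exists_unorm hF Φ (r / Cfsg.hermForm n F q t₀ t₀) (div_ne_zero hr0 hN)
      (by rw [map_div₀, hr, hν])
    refine ⟨μ • t₀, ?_, ?_, ?_, ?_⟩
    · rw [uherm_smul_left, k1, mul_zero]
    · rw [uherm_smul_left, k2, mul_zero]
    · rw [uherm_smul_left, k3, mul_zero]
    · rw [uherm_smul_left, uherm_smul_right Φ, ← mul_assoc, hμ, div_mul_cancel₀ _ hN]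

/-- an isotropic vector orthogonal to `z` pairing to `1` with an independent vector `u` -/
theorem exists_iso_perp (hF : Fintype.card F = q ^ 2) (Φ : Frob F q) (hn : 7 ≤ n)
    (z u : Fin n → F) (hz : z ≠ 0) (hind : ∀ c : F, u ≠ c • z) :
    ∃ y, Cfsg.hermForm n F q y y = 0 ∧ Cfsg.hermForm n F q y z = 0 ∧
      Cfsg.hermForm n F q y u = 1 := by
  obtain ⟨y₀, h1, h2⟩ := exists_two_vals Φ z u hz hind 0 1
  have hN : Φ.φ (Cfsg.hermForm n F q y₀ y₀) = Cfsg.hermForm n F q y₀ y₀ := uherm_conj Φ y₀ y₀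
  obtain ⟨t, k1, k2, k3, k4⟩ := exists_perp3 hF Φ hn z u y₀ (-(Cfsg.hermForm n F q y₀ y₀))
    (by rw [map_neg, hN])
  refine ⟨y₀ + t, ?_, ?_, ?_⟩
  · rw [uherm_add_left, uherm_add_right Φ, uherm_add_right Φ, k4, k3, um_symm Φ _ _ k3]
    ring
  · rw [uherm_add_left, h1, k1, add_zero]
  · rw [uherm_add_left, h2, k2, add_zero]

/-- an isotropic vector non-orthogonal to the isotropic `y ⊥ z` with prescribed trace against
the non-isotropic `z` -/
theorem exists_iso_tr (hF : Fintype.card F = q ^ 2) (Φ : Frob F q)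
    (z y : Fin n → F) (hz : Cfsg.hermForm n F q z z ≠ 0) (hy0 : y ≠ 0)
    (hy : Cfsg.hermForm n F q y y = 0) (hyz : Cfsg.hermForm n F q y z = 0) :
    ∃ y₁, Cfsg.hermForm n F q y₁ y₁ = 0 ∧ Cfsg.hermForm n F q y₁ y = 1 ∧
      Cfsg.hermForm n F q z y₁ + Cfsg.hermForm n F q y₁ z = Cfsg.hermForm n F q z z := by
  obtain ⟨p, hpp, hyp⟩ := exists_partner hF Φ y hy0 hy
  have hpy : Cfsg.hermForm n F q p y = 1 := by rw [← uherm_conj Φ y p, hyp, map_one]
  have hzy : Cfsg.hermForm n F q z y = 0 := um_symm Φ _ _ hyz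
  obtain ⟨b, hb⟩ := exists_tr_one hF Φ
  obtain ⟨P, hP⟩ : ∃ P, P = Cfsg.hermForm n F q p z := ⟨_, rfl⟩
  obtain ⟨N, hN⟩ : ∃ N, N = Cfsg.hermForm n F q z z := ⟨_, rfl⟩
  have hP' : Cfsg.hermForm n F q z p = Φ.φ P := by rw [hP, uherm_conj Φ]
  have hφN : Φ.φ N = N := by rw [hN, uherm_conj Φ]
  have hφφP : Φ.φ (Φ.φ P) = P := Φ.hφ2 P
  have hN0 : N ≠ 0 := by rw [hN]; exact hz
  obtain ⟨ρ, hρ⟩ : ∃ ρ, ρ = 1 - (P + Φ.φ P) / N := ⟨_, rfl⟩
  have hφρ : Φ.φ ρ = ρ := by
    rw [hρ, map_sub, map_one, map_div₀, map_add, hφφP, hφN, add_comm]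
  obtain ⟨s, hs⟩ : ∃ s, s = b * ρ := ⟨_, rfl⟩
  have hφs : Φ.φ s = Φ.φ b * ρ := by rw [hs, map_mul, hφρ]
  have hstr : s + Φ.φ s = ρ := by rw [hφs, hs]; linear_combination ρ * hb
  obtain ⟨τ, hτ⟩ : ∃ τ, τ = -(Φ.φ s * P + s * Φ.φ P + s * Φ.φ s * N) := ⟨_, rfl⟩
  have hφτ : Φ.φ τ = τ := by
    rw [hτ]
    simp only [map_neg, map_add, map_mul, Φ.hφ2, hφN]
    ring
  obtain ⟨a, ha⟩ : ∃ a, a = b * τ := ⟨_, rfl⟩
  have hφa : Φ.φ a = Φ.φ b * τ := by rw [ha, map_mul, hφτ]
  have hatr : a + Φ.φ a = τ := by rw [hφa, ha]; linear_combination τ * hb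
  refine ⟨p + s • z + a • y, ?_, ?_, ?_⟩
  · simp only [uherm_add_left, uherm_add_right Φ, uherm_smul_left, uherm_smul_right Φ, hpp, hy,
      hyz, hzy, hyp, hpy, ← hP, hP', ← hN]
    linear_combination hatr + hτ
  · simp only [uherm_add_left, uherm_smul_left, hpy, hzy, hy]
    ring
  · simp only [uherm_add_left, uherm_add_right Φ, uherm_smul_left, uherm_smul_right Φ, hzy, hyz,
      ← hP, hP', ← hN]
    have e : (P + Φ.φ P) / N * N = P + Φ.φ P := div_mul_cancel₀ _ hN0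
    linear_combination N * hstr + N * hρ - e

end geo

section core

variable {F : Type*} [Field F] [Fintype F] {n q : ℕ}

/-- `A` acts as `x ↦ x + c h(x,z) u` -/
def IsTv (q : ℕ) (A : Matrix.SpecialLinearGroup (Fin n) F) (u z : Fin n → F) (c : F) : Prop :=
  ∀ x, (A : Matrix (Fin n) (Fin n) F) *ᵥ x = x + (c * Cfsg.hermForm n F q x z) • u

def cj (Φ : Frob F q) (z : Fin n → F) : Fin n → F := fun i => Φ.φ (z i)

theorem cj_dot (Φ : Frob F q) (z x : Fin n → F) : cj Φ z ⬝ᵥ x = Cfsg.hermForm n F q x z := by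
  rw [uherm_eq Φ]
  unfold cj dotProduct
  exact Finset.sum_congr rfl (fun i _ => mul_comm _ _)

theorem cj_cj (Φ : Frob F q) (z : Fin n → F) : cj Φ (cj Φ z) = z :=
  funext (fun i => Φ.hφ2 _)

theorem exists_tv (Φ : Frob F q) (u z : Fin n → F) (c : F)
    (huz : Cfsg.hermForm n F q u z = 0) : ∃ A, IsTv q A u z c :=
  ⟨tv u (cj Φ z) c, fun x => by rw [tv_mulVec u _ (by rw [cj_dot]; exact huz), cj_dot]⟩

theorem isTv_eq (A B : Matrix.SpecialLinearGroup (Fin n) F) (u z : Fin n → F) (c : F)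
    (hA : IsTv q A u z c) (hB : IsTv q B u z c) : A = B :=
  sl_ext _ _ (fun x => by rw [hA x, hB x])

/-- parameters of the transvections `x ↦ x + c h(x,z) u` lying in `M` -/
def RR (q : ℕ) (M : Subgroup (Matrix.SpecialLinearGroup (Fin n) F)) (u z : Fin n → F) : Set F :=
  {c | ∀ A, IsTv q A u z c → A ∈ M}

def DD (q : ℕ) (M : Subgroup (Matrix.SpecialLinearGroup (Fin n) F)) (u z : Fin n → F) : Prop :=
  ∀ c, c ∈ RR q M u z

theorem rr_add (Φ : Frob F q) (M : Subgroup (Matrix.SpecialLinearGroup (Fin n) F))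
    (u z : Fin n → F) (huz : Cfsg.hermForm n F q u z = 0) (c d : F)
    (hc : c ∈ RR q M u z) (hd : d ∈ RR q M u z) : c + d ∈ RR q M u z := by
  intro C hC
  obtain ⟨A, hA⟩ := exists_tv Φ u z c huz
  obtain ⟨B, hB⟩ := exists_tv Φ u z d huz
  have e : C = A * B := by
    apply sl_ext
    intro x
    rw [hC x, Matrix.SpecialLinearGroup.coe_mul, ← Matrix.mulVec_mulVec, hB x, hA]
    simp only [uherm_add_left, uherm_smul_left, huz]
    module
  rw [e]
  exact M.mul_mem (hc A hA) (hd B hB)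

theorem dd_add_left (Φ : Frob F q) (M : Subgroup (Matrix.SpecialLinearGroup (Fin n) F))
    (x₁ x₂ z : Fin n → F) (h1 : Cfsg.hermForm n F q x₁ z = 0)
    (h2 : Cfsg.hermForm n F q x₂ z = 0) (d1 : DD q M x₁ z) (d2 : DD q M x₂ z) :
    DD q M (x₁ + x₂) z := by
  intro c C hC
  obtain ⟨A, hA⟩ := exists_tv Φ x₁ z c h1
  obtain ⟨B, hB⟩ := exists_tv Φ x₂ z c h2
  have e : C = A * B := by
    apply sl_ext
    intro x
    rw [hC x, Matrix.SpecialLinearGroup.coe_mul, ← Matrix.mulVec_mulVec, hB x, hA]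
    simp only [uherm_add_left, uherm_smul_left, h2]
    module
  rw [e]
  exact M.mul_mem (d1 c A hA) (d2 c B hB)

theorem dd_add_right (Φ : Frob F q) (M : Subgroup (Matrix.SpecialLinearGroup (Fin n) F))
    (y z₁ z₂ : Fin n → F) (h1 : Cfsg.hermForm n F q y z₁ = 0)
    (h2 : Cfsg.hermForm n F q y z₂ = 0) (d1 : DD q M y z₁) (d2 : DD q M y z₂) :
    DD q M y (z₁ + z₂) := by
  intro c C hC
  obtain ⟨A, hA⟩ := exists_tv Φ y z₁ c h1
  obtain ⟨B, hB⟩ := exists_tv Φ y z₂ c h2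
  have e : C = A * B := by
    apply sl_ext
    intro x
    rw [hC x, Matrix.SpecialLinearGroup.coe_mul, ← Matrix.mulVec_mulVec, hB x, hA]
    simp only [uherm_add_left, uherm_add_right Φ, uherm_smul_left, h1]
    module
  rw [e]
  exact M.mul_mem (d1 c A hA) (d2 c B hB)

/-- the commutator of two transvections -/
theorem comm_tv (X T X' T' A : Matrix.SpecialLinearGroup (Fin n) F) (u z y y' : Fin n → F)
    (e d : F) (huz : Cfsg.hermForm n F q u z = 0) (hyy' : Cfsg.hermForm n F q y y' = 0)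
    (hyz : Cfsg.hermForm n F q y z = 0)
    (hX : IsTv q X u z e) (hX' : IsTv q X' u z (-e)) (hT : IsTv q T y y' d)
    (hT' : IsTv q T' y y' (-d))
    (hA : IsTv q A y z (-(d * e * Cfsg.hermForm n F q u y'))) : A = X * T * X' * T' := by
  apply sl_ext
  intro x
  rw [hA x, Matrix.SpecialLinearGroup.coe_mul, Matrix.SpecialLinearGroup.coe_mul,
    Matrix.SpecialLinearGroup.coe_mul, ← Matrix.mulVec_mulVec, ← Matrix.mulVec_mulVec,
    ← Matrix.mulVec_mulVec, hT' x, hX', hT, hX]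
  simp only [uherm_add_left, uherm_smul_left, huz, hyy', hyz]
  module

/-- transvections in the `SL₂` of a hyperbolic pair -/
theorem sl2_tv (X T X' A : Matrix.SpecialLinearGroup (Fin n) F) (Φ : Frob F q)
    (y p : Fin n → F) (c e : F)
    (hy : Cfsg.hermForm n F q y y = 0) (hp : Cfsg.hermForm n F q p p = 0)
    (hyp : Cfsg.hermForm n F q y p = 1) (hpy : Cfsg.hermForm n F q p y = 1)
    (hX : IsTv q X p p c) (hX' : IsTv q X' p p (-c)) (hT : IsTv q T y y e)
    (hA : IsTv q A (y + c • p) (y - Φ.φ c • p) e) : A = X * T * X' := by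
  apply sl_ext
  intro x
  rw [hA x, Matrix.SpecialLinearGroup.coe_mul, Matrix.SpecialLinearGroup.coe_mul,
    ← Matrix.mulVec_mulVec, ← Matrix.mulVec_mulVec, hX' x, hT, hX]
  simp only [uherm_add_left, uherm_sub_right Φ, uherm_smul_left, uherm_smul_right Φ, hy, hp, hyp,
    hpy, Φ.hφ2]
  module

theorem isTv_zero (A : Matrix.SpecialLinearGroup (Fin n) F) (z : Fin n → F) (c : F)
    (hA : IsTv q A 0 z c) : A = 1 := by
  apply sl_ext
  intro x
  rw [hA x, smul_zero, add_zero, Matrix.SpecialLinearGroup.coe_one, Matrix.one_mulVec]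

theorem exists_adj (Φ : Frob F q) (B : Matrix (Fin n) (Fin n) F) (w : Fin n → F) :
    ∃ z, ∀ x, Cfsg.hermForm n F q x z = Cfsg.hermForm n F q (B *ᵥ x) w := by
  refine ⟨cj Φ (cj Φ w ᵥ* B), fun x => ?_⟩
  rw [← cj_dot Φ, cj_cj, ← Matrix.dotProduct_mulVec, cj_dot]

/-- a non-similarity has an isotropic vector at which it is not "locally a similarity" -/
theorem exists_bad (hF : Fintype.card F = q ^ 2) (Φ : Frob F q) (hn : 7 ≤ n)
    (g : Matrix.SpecialLinearGroup (Fin n) F)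
    (hg : Matrix.SpecialLinearGroup.toGL g ∉ Cfsg.Geo.similarityGroup (Cfsg.hermForm n F q)) :
    ∃ w, w ≠ 0 ∧ Cfsg.hermForm n F q w w = 0 ∧ ∀ κ : F, Φ.φ κ = κ →
      ∃ x, Cfsg.hermForm n F q x w
        ≠ κ * Cfsg.hermForm n F q ((g : Matrix (Fin n) (Fin n) F) *ᵥ x)
          ((g : Matrix (Fin n) (Fin n) F) *ᵥ w) := by
  by_contra hcon
  push Not at hcon
  obtain ⟨w₁, hw₁0, hw₁⟩ := exists_iso_vec hF Φ (n := n) (by omega)
  obtain ⟨κ₁, hκ₁, hk₁⟩ := hcon w₁ hw₁0 hw₁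
  -- two non-orthogonal isotropic vectors have the same constant
  have same : ∀ (w w' : Fin n → F) (κ κ' : F), Φ.φ κ = κ →
      Cfsg.hermForm n F q w' w ≠ 0 →
      (∀ x, Cfsg.hermForm n F q x w = κ * Cfsg.hermForm n F q
        ((g : Matrix (Fin n) (Fin n) F) *ᵥ x) ((g : Matrix (Fin n) (Fin n) F) *ᵥ w)) →
      (∀ x, Cfsg.hermForm n F q x w' = κ' * Cfsg.hermForm n F q
        ((g : Matrix (Fin n) (Fin n) F) *ᵥ x) ((g : Matrix (Fin n) (Fin n) F) *ᵥ w')) →
      κ = κ' := by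
    intro w w' κ κ' hκ hne h1 h2
    have e1 := h1 w'
    have e2 := h2 w
    have e3 := congrArg Φ.φ e1
    rw [map_mul, uherm_conj Φ, uherm_conj Φ, hκ] at e3
    have hne' : Cfsg.hermForm n F q w w' ≠ 0 := um_ne_symm Φ _ _ hne
    have e4 : (κ - κ') * Cfsg.hermForm n F q ((g : Matrix (Fin n) (Fin n) F) *ᵥ w)
        ((g : Matrix (Fin n) (Fin n) F) *ᵥ w') = 0 := by linear_combination e2 - e3
    rcases mul_eq_zero.mp e4 with h | h
    · exact sub_eq_zero.mp h
    · exfalso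
      apply hne'
      rw [e2, h, mul_zero]
  have hiso : ∀ w, Cfsg.hermForm n F q w w = 0 → ∀ x, Cfsg.hermForm n F q x w
      = κ₁ * Cfsg.hermForm n F q ((g : Matrix (Fin n) (Fin n) F) *ᵥ x)
        ((g : Matrix (Fin n) (Fin n) F) *ᵥ w) := by
    intro w hw x
    by_cases hw0 : w = 0
    · rw [hw0, Matrix.mulVec_zero, uherm_zero_right Φ, uherm_zero_right Φ, mul_zero]
    · obtain ⟨κ, hκ, hk⟩ := hcon w hw0 hw
      obtain ⟨s, hss, hsw₁, hsw⟩ := exists_iso_nonorth hF Φ w₁ w hw₁0 hw0 hw₁ hw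
      have hs0 : s ≠ 0 := by
        rintro rfl
        exact hsw (uherm_zero_left _)
      obtain ⟨κs, hκs, hks⟩ := hcon s hs0 hss
      have e1 : κ₁ = κs := same w₁ s κ₁ κs hκ₁ hsw₁ hk₁ hks
      have e2 : κ = κs := same w s κ κs hκ hsw hk hks
      rw [e1, ← e2]
      exact hk x
  have hall : ∀ w x, Cfsg.hermForm n F q x w
      = κ₁ * Cfsg.hermForm n F q ((g : Matrix (Fin n) (Fin n) F) *ᵥ x)
        ((g : Matrix (Fin n) (Fin n) F) *ᵥ w) := by
    intro w x
    by_cases hw : Cfsg.hermForm n F q w w = 0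
    · exact hiso w hw x
    · have hN : Φ.φ (Cfsg.hermForm n F q w w) = Cfsg.hermForm n F q w w := uherm_conj Φ w w
      obtain ⟨t, k1, -, -, k4⟩ := exists_perp3 hF Φ hn w w w (-(Cfsg.hermForm n F q w w))
        (by rw [map_neg, hN])
      have k1' := um_symm Φ _ _ k1
      obtain ⟨b, hb⟩ := exists_tr_one hF Φ
      have i1 : Cfsg.hermForm n F q (b • (w + t)) (b • (w + t)) = 0 := by
        simp only [uherm_add_left, uherm_add_right Φ, uherm_smul_left, uherm_smul_right Φ, k1,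
          k1', k4]
        ring
      have i2 : Cfsg.hermForm n F q ((1 - b) • w - b • t) ((1 - b) • w - b • t) = 0 := by
        simp only [uherm_sub_left, uherm_sub_right Φ, uherm_smul_left, uherm_smul_right Φ, k1,
          k1', k4, map_sub, map_one]
        linear_combination (-(Cfsg.hermForm n F q w w)) * hb
      have e : w = b • (w + t) + ((1 - b) • w - b • t) := by module
      have e1 := hiso _ i1 x
      have e2 := hiso _ i2 x
      rw [e, Matrix.mulVec_add, uherm_add_right Φ, uherm_add_right Φ, e1, e2]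
      ring
  have hκ0 : κ₁ ≠ 0 := by
    rintro rfl
    apply hw₁0
    apply um_nondeg Φ
    intro v
    rw [hall w₁ v, zero_mul]
  apply hg
  refine ⟨Units.mk0 κ₁⁻¹ (inv_ne_zero hκ0), fun u v => ?_⟩
  have h1 := hall v u
  rw [Units.val_mk0, h1]
  have h2 : ∀ a : F, κ₁⁻¹ * (κ₁ * a) = a := fun a => by field_simp
  exact (h2 _).symm

end core

section core2

variable {F : Type*} [Field F] [Fintype F] {n q : ℕ}

theorem ut_mem' (Φ : Frob F q) (M : Subgroup (Matrix.SpecialLinearGroup (Fin n) F))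
    (hSU : ∀ g : ↥(Cfsg.SU n F q), g.1 ∈ M) (y : Fin n → F)
    (hy : Cfsg.hermForm n F q y y = 0) (c : F) (hc : c + Φ.φ c = 0) : c ∈ RR q M y y := by
  intro A hA
  obtain ⟨g, hg⟩ := exists_ut Φ y c hy hc
  have e : A = g.1 := by
    apply sl_ext
    intro x
    rw [hA x]
    exact (hg x).symm
  rw [e]
  exact hSU g

/-- Stage A: some isotropic vector has all its transvections in `M` -/
theorem stageA (hF : Fintype.card F = q ^ 2) (Φ : Frob F q) (hn : 7 ≤ n)
    (M : Subgroup (Matrix.SpecialLinearGroup (Fin n) F))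
    (hSU : ∀ g : ↥(Cfsg.SU n F q), g.1 ∈ M)
    (g : Matrix.SpecialLinearGroup (Fin n) F) (hgM : g ∈ M)
    (hg : Matrix.SpecialLinearGroup.toGL g ∉ Cfsg.Geo.similarityGroup (Cfsg.hermForm n F q)) :
    ∃ y₀ : Fin n → F, y₀ ≠ 0 ∧ Cfsg.hermForm n F q y₀ y₀ = 0 ∧ DD q M y₀ y₀ := by
  obtain ⟨w, hw0, hw, hbad⟩ := exists_bad hF Φ hn g hg
  obtain ⟨u, hu⟩ : ∃ u, u = (g : Matrix (Fin n) (Fin n) F) *ᵥ w := ⟨_, rfl⟩
  have hu0 : u ≠ 0 := by
    rw [hu]
    exact sl_mulVec_ne_zero g w hw0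
  obtain ⟨z₀, hz₀⟩ := exists_adj Φ ((g⁻¹ : Matrix.SpecialLinearGroup (Fin n) F) :
    Matrix (Fin n) (Fin n) F) w
  have huz : Cfsg.hermForm n F q u z₀ = 0 := by
    rw [hz₀, hu, sl_inv_mulVec]
    exact hw
  have hbadz : ∀ κ : F, Φ.φ κ = κ → z₀ ≠ κ • u := by
    intro κ hκ heq
    obtain ⟨x, hx⟩ := hbad κ hκ
    apply hx
    have h1 := hz₀ ((g : Matrix (Fin n) (Fin n) F) *ᵥ x)
    rw [sl_inv_mulVec, heq, uherm_smul_right Φ, hκ, hu] at h1
    exact h1.symm
  have hE : ∀ e : F, e + Φ.φ e = 0 → e ∈ RR q M u z₀ := by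
    intro e he A hA
    obtain ⟨T, hT⟩ := exists_ut Φ w e hw he
    have e1 : A = g * T.1 * g⁻¹ := by
      apply sl_ext
      intro x
      rw [hA x, Matrix.SpecialLinearGroup.coe_mul, Matrix.SpecialLinearGroup.coe_mul,
        ← Matrix.mulVec_mulVec, ← Matrix.mulVec_mulVec]
      have h2 := hT (((g⁻¹ : Matrix.SpecialLinearGroup (Fin n) F) :
        Matrix (Fin n) (Fin n) F) *ᵥ x)
      have h3 : ((T.1 : Matrix.SpecialLinearGroup (Fin n) F) : Matrix (Fin n) (Fin n) F) *ᵥ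
          (((g⁻¹ : Matrix.SpecialLinearGroup (Fin n) F) : Matrix (Fin n) (Fin n) F) *ᵥ x)
          = ((g⁻¹ : Matrix.SpecialLinearGroup (Fin n) F) : Matrix (Fin n) (Fin n) F) *ᵥ x
            + (e * Cfsg.hermForm n F q (((g⁻¹ : Matrix.SpecialLinearGroup (Fin n) F) :
              Matrix (Fin n) (Fin n) F) *ᵥ x) w) • w := h2
      rw [h3, Matrix.mulVec_add, Matrix.mulVec_smul, sl_mulVec_inv, hz₀, hu]
    rw [e1]
    exact M.mul_mem (M.mul_mem hgM (hSU T)) (M.inv_mem hgM)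
  obtain ⟨d, hd0, hd⟩ := exists_skew hF Φ
  have hφd : Φ.φ d = -d := by linear_combination hd
  by_cases hcase : ∃ κ : F, z₀ = κ • u
  · -- `z₀` is a non-rational multiple of `u`
    obtain ⟨κ, hκ⟩ := hcase
    have hκne : Φ.φ κ ≠ κ := fun h => hbadz κ h hκ
    have hκ0 : κ ≠ 0 := by
      rintro rfl
      exact hκne (map_zero _)
    have hφκ0 : Φ.φ κ ≠ 0 := by rwa [Ne, map_eq_zero]
    have huu : Cfsg.hermForm n F q u u = 0 := by
      rw [hκ, uherm_smul_right Φ] at huz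
      rcases mul_eq_zero.mp huz with h | h
      · exact absurd h hφκ0
      · exact h
    refine ⟨u, hu0, huu, ?_⟩
    intro t
    obtain ⟨D, hD⟩ : ∃ D, D = Φ.φ κ - κ := ⟨_, rfl⟩
    have hD0 : D ≠ 0 := by rw [hD]; exact sub_ne_zero.mpr hκne
    have hφD : Φ.φ D = -D := by rw [hD, map_sub, Φ.hφ2]; ring
    obtain ⟨τ, hτ⟩ : ∃ τ, τ = t / d := ⟨_, rfl⟩
    obtain ⟨b, hb⟩ : ∃ b, b = (τ - Φ.φ τ) / D := ⟨_, rfl⟩
    have hbD : b * D = τ - Φ.φ τ := by rw [hb, div_mul_cancel₀ _ hD0]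
    have hφb : Φ.φ b = b := by
      rw [hb, map_div₀, map_sub, Φ.hφ2, hφD]
      field_simp
      ring
    obtain ⟨a, ha⟩ : ∃ a, a = τ - Φ.φ κ * b := ⟨_, rfl⟩
    have hφa : Φ.φ a = a := by
      rw [ha, map_sub, map_mul, Φ.hφ2, hφb]
      rw [hD] at hbD
      linear_combination hbD
    have ht : t = a * d + Φ.φ κ * (b * d) := by
      rw [ha, hτ]
      field_simp
      ring
    rw [ht]
    apply rr_add Φ M u u huu
    · apply ut_mem' Φ M hSU u huu
      rw [map_mul, hφa, hφd]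
      ring
    · intro A hA
      apply hE (b * d) (by rw [map_mul, hφb, hφd]; ring) A
      intro x
      rw [hA x, hκ, uherm_smul_right Φ]
      congr 2
      ring
  · push Not at hcase
    have hz₀0 : z₀ ≠ 0 := by
      intro h
      apply hcase 0
      rw [h, zero_smul]
    have hind : ∀ c : F, u ≠ c • z₀ := by
      intro c hc
      by_cases hc0 : c = 0
      · rw [hc0, zero_smul] at hc
        exact hu0 hc
      · apply hcase c⁻¹
        rw [hc, smul_smul, inv_mul_cancel₀ hc0, one_smul]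
    obtain ⟨y, hyy, hyz, hyu⟩ := exists_iso_perp hF Φ hn z₀ u hz₀0 hind
    have huy : Cfsg.hermForm n F q u y = 1 := by rw [← uherm_conj Φ y u, hyu, map_one]
    have hy0 : y ≠ 0 := by
      rintro rfl
      rw [uherm_zero_left] at hyu
      exact zero_ne_one hyu
    -- C1
    have hC1 : ∀ c e : F, c + Φ.φ c = 0 → e + Φ.φ e = 0 → -(c * e) ∈ RR q M y z₀ := by
      intro c e hc he A hA
      obtain ⟨X, hX⟩ := exists_tv Φ u z₀ e huz
      obtain ⟨X', hX'⟩ := exists_tv Φ u z₀ (-e) huz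
      obtain ⟨T, hT⟩ := exists_tv Φ y y c hyy
      obtain ⟨T', hT'⟩ := exists_tv Φ y y (-c) hyy
      have e1 := comm_tv X T X' T' A u z₀ y y e c huz hyy hyz hX hX' hT hT'
        (by rw [huy, mul_one]; exact hA)
      rw [e1]
      have he' : -e + Φ.φ (-e) = 0 := by rw [map_neg]; linear_combination -he
      have hc' : -c + Φ.φ (-c) = 0 := by rw [map_neg]; linear_combination -hc
      exact M.mul_mem (M.mul_mem (M.mul_mem (hE e he X hX) (ut_mem' Φ M hSU y hyy c hc T hT))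
        (hE (-e) he' X' hX')) (ut_mem' Φ M hSU y hyy (-c) hc' T' hT')
    obtain ⟨l, hl⟩ : ∃ l, l = -(d * d) := ⟨_, rfl⟩
    have hl0 : l ≠ 0 := by rw [hl]; exact neg_ne_zero.mpr (mul_ne_zero hd0 hd0)
    have hlR : l ∈ RR q M y z₀ := by rw [hl]; exact hC1 d d hd hd
    have hlR' : -l ∈ RR q M y z₀ := by
      have h1 := hC1 (-d) d (by rw [map_neg]; linear_combination -hd) hd
      have e : -l = -(-d * d) := by rw [hl]; ring
      rw [e]
      exact h1
    have hind2 : ∀ c : F, z₀ ≠ c • y := by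
      intro c hc
      rw [hc, uherm_smul_right Φ, huy, mul_one] at huz
      rw [map_eq_zero] at huz
      apply hz₀0
      rw [hc, huz, zero_smul]
    obtain ⟨b, hbb, hby, hbz⟩ := exists_iso_perp hF Φ hn y z₀ hy0 hind2
    have hyb : Cfsg.hermForm n F q y b = 0 := um_symm Φ _ _ hby
    have hzy : Cfsg.hermForm n F q z₀ y = 0 := um_symm Φ _ _ hyz
    refine ⟨y, hy0, hyy, ?_⟩
    intro t A hA
    obtain ⟨c, rfl⟩ : ∃ c, t = -(l * c) := ⟨-t / l, by field_simp⟩
    obtain ⟨S, hS⟩ := exists_sg hF Φ y b hyy hbb hyb c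
    obtain ⟨S', hS'⟩ := exists_sg hF Φ y b hyy hbb hyb (-c)
    obtain ⟨X, hX⟩ := exists_tv Φ y z₀ l hyz
    obtain ⟨X', hX'⟩ := exists_tv Φ y z₀ (-l) hyz
    have e1 : A = S.1 * X * S'.1 * X' := by
      apply sl_ext
      intro x
      rw [hA x, Matrix.SpecialLinearGroup.coe_mul, Matrix.SpecialLinearGroup.coe_mul,
        Matrix.SpecialLinearGroup.coe_mul, ← Matrix.mulVec_mulVec, ← Matrix.mulVec_mulVec,
        ← Matrix.mulVec_mulVec, hX' x]
      have h3 : ∀ v, ((S'.1 : Matrix.SpecialLinearGroup (Fin n) F) :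
          Matrix (Fin n) (Fin n) F) *ᵥ v = v + (-c * Cfsg.hermForm n F q v y) • b
            - (Φ.φ (-c) * Cfsg.hermForm n F q v b) • y := hS'
      have h4 : ∀ v, ((S.1 : Matrix.SpecialLinearGroup (Fin n) F) :
          Matrix (Fin n) (Fin n) F) *ᵥ v = v + (c * Cfsg.hermForm n F q v y) • b
            - (Φ.φ c * Cfsg.hermForm n F q v b) • y := hS
      rw [h3, hX, h4]
      simp only [uherm_add_left, uherm_sub_left, uherm_smul_left, hyy, hyz, hyb, hby, hbb, hbz,
        map_neg]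
      module
    rw [e1]
    exact M.mul_mem (M.mul_mem (M.mul_mem (hSU S) (hlR X hX)) (hSU S')) (hlR' X' hX')

/-- Step 3: all isotropic vectors have all their transvections in `M` -/
theorem stage3 (hF : Fintype.card F = q ^ 2) (Φ : Frob F q) (hn : 7 ≤ n)
    (M : Subgroup (Matrix.SpecialLinearGroup (Fin n) F))
    (hSU : ∀ g : ↥(Cfsg.SU n F q), g.1 ∈ M)
    (y₀ : Fin n → F) (hy₀0 : y₀ ≠ 0) (hy₀ : Cfsg.hermForm n F q y₀ y₀ = 0)
    (hD : DD q M y₀ y₀) (y : Fin n → F) (hy : Cfsg.hermForm n F q y y = 0) : DD q M y y := by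
  intro t A hA
  by_cases hy0 : y = 0
  · rw [hy0] at hA
    rw [isTv_zero A 0 t hA]
    exact M.one_mem
  · obtain ⟨B, hB⟩ := exists_su_move hF Φ (by omega) y₀ y hy₀0 hy0 hy₀ hy
    obtain ⟨A₀, hA₀⟩ := exists_tv Φ y₀ y₀ t hy₀
    have e1 : A = B.1 * A₀ * (B⁻¹).1 := by
      apply sl_ext
      intro x
      rw [hA x, Matrix.SpecialLinearGroup.coe_mul, Matrix.SpecialLinearGroup.coe_mul,
        ← Matrix.mulVec_mulVec, ← Matrix.mulVec_mulVec]
      have h3 : (((B⁻¹).1 : Matrix.SpecialLinearGroup (Fin n) F) :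
          Matrix (Fin n) (Fin n) F) *ᵥ x = sact B⁻¹ x := rfl
      rw [h3, hA₀]
      have h4 : ∀ v, ((B.1 : Matrix.SpecialLinearGroup (Fin n) F) :
          Matrix (Fin n) (Fin n) F) *ᵥ v = sact B v := fun v => rfl
      rw [h4, sact_add, sact_smul, sact_inv_right, hB, ← sact_herm B (sact B⁻¹ x) y₀,
        sact_inv_right, hB]
    rw [e1]
    exact M.mul_mem (M.mul_mem (hSU B) (hD t A₀ hA₀)) (hSU B⁻¹)

/-- Stage B -/
theorem stageB (hF : Fintype.card F = q ^ 2) (Φ : Frob F q) (hn : 7 ≤ n)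
    (M : Subgroup (Matrix.SpecialLinearGroup (Fin n) F))
    (hiso : ∀ y : Fin n → F, Cfsg.hermForm n F q y y = 0 → DD q M y y)
    (x z : Fin n → F) (hxz : Cfsg.hermForm n F q x z = 0) : DD q M x z := by
  -- non-isotropic `z`, isotropic `y ⊥ z`
  have s1 : ∀ y z : Fin n → F, Cfsg.hermForm n F q z z ≠ 0 → y ≠ 0 →
      Cfsg.hermForm n F q y y = 0 → Cfsg.hermForm n F q y z = 0 → DD q M y z := by
    intro y z hz hy0 hy hyz
    obtain ⟨y₁, h11, h1y, htr⟩ := exists_iso_tr hF Φ z y hz hy0 hy hyz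
    obtain ⟨c, hc⟩ : ∃ c, c = -Cfsg.hermForm n F q y₁ z := ⟨_, rfl⟩
    have hφc : Φ.φ c = -Cfsg.hermForm n F q z y₁ := by rw [hc, map_neg, uherm_conj Φ]
    have hc0 : c ≠ 0 := by
      intro h0
      have h1 : Cfsg.hermForm n F q y₁ z = 0 := by
        rw [h0] at hc
        exact neg_eq_zero.mp hc.symm
      have h2 : Cfsg.hermForm n F q z y₁ = 0 := um_symm Φ _ _ h1
      rw [h1, h2, add_zero] at htr
      exact hz htr.symm
    have hφc0 : Φ.φ c ≠ 0 := by rwa [Ne, map_eq_zero]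
    obtain ⟨p, hp⟩ : ∃ p, p = (Φ.φ c)⁻¹ • (y₁ - z) := ⟨_, rfl⟩
    have hzz : z = y₁ - Φ.φ c • p := by
      rw [hp, smul_smul, mul_inv_cancel₀ hφc0, one_smul, sub_sub_cancel]
    have hc0' : c⁻¹ * c = 1 := inv_mul_cancel₀ hc0
    have hφc0' : (Φ.φ c)⁻¹ * Φ.φ c = 1 := inv_mul_cancel₀ hφc0
    have hpp : Cfsg.hermForm n F q p p = 0 := by
      rw [hp]
      simp only [uherm_sub_left, uherm_sub_right Φ, uherm_smul_left, uherm_smul_right Φ, h11,
        map_inv₀, Φ.hφ2]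
      linear_combination (-((Φ.φ c)⁻¹ * c⁻¹)) * htr
    have h1p : Cfsg.hermForm n F q y₁ p = 1 := by
      rw [hp]
      simp only [uherm_sub_right Φ, uherm_smul_right Φ, h11, map_inv₀, Φ.hφ2]
      rw [hc] at hc0' ⊢
      linear_combination hc0'
    have hp1 : Cfsg.hermForm n F q p y₁ = 1 := by rw [← uherm_conj Φ y₁ p, h1p, map_one]
    -- the transvections with centre `y₁ + c p` and axis `z^⊥`
    have hD1 : DD q M (y₁ + c • p) z := by
      intro e A hA
      obtain ⟨X, hX⟩ := exists_tv Φ p p c hpp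
      obtain ⟨X', hX'⟩ := exists_tv Φ p p (-c) hpp
      obtain ⟨T, hT⟩ := exists_tv Φ y₁ y₁ e h11
      have e1 := sl2_tv X T X' A Φ y₁ p c e h11 hpp h1p hp1 hX hX' hT (by rw [← hzz]; exact hA)
      rw [e1]
      exact M.mul_mem (M.mul_mem (hiso p hpp c X hX) (hiso y₁ h11 e T hT)) (hiso p hpp (-c) X' hX')
    have hzy : Cfsg.hermForm n F q z y = 0 := um_symm Φ _ _ hyz
    have huz : Cfsg.hermForm n F q (y₁ + c • p) z = 0 := by
      have hpz : Cfsg.hermForm n F q p z = (Φ.φ c)⁻¹ * (Cfsg.hermForm n F q y₁ z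
          - Cfsg.hermForm n F q z z) := by
        rw [hp, uherm_smul_left, uherm_sub_left]
      rw [uherm_add_left, uherm_smul_left, hpz]
      have e2 : Cfsg.hermForm n F q y₁ z = -c := by rw [hc]; ring
      have e3 : Cfsg.hermForm n F q z y₁ = -Φ.φ c := by rw [hφc]; ring
      rw [e2, e3] at htr
      rw [e2, ← htr]
      field_simp
      ring
    have huy : Cfsg.hermForm n F q (y₁ + c • p) y ≠ 0 := by
      have hpy : Cfsg.hermForm n F q p y = (Φ.φ c)⁻¹ := by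
        rw [hp, uherm_smul_left, uherm_sub_left, h1y, hzy, sub_zero, mul_one]
      rw [uherm_add_left, uherm_smul_left, h1y, hpy]
      intro h0
      have e2 : Cfsg.hermForm n F q y₁ z = -c := by rw [hc]; ring
      have e3 : Cfsg.hermForm n F q z y₁ = -Φ.φ c := by rw [hφc]; ring
      rw [e2, e3] at htr
      apply hz
      rw [← htr]
      have h1 : (1 + c * (Φ.φ c)⁻¹) * Φ.φ c = 0 := by rw [h0, zero_mul]
      have h2 : (1 + c * (Φ.φ c)⁻¹) * Φ.φ c = Φ.φ c + c := by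
        field_simp
      rw [h2] at h1
      linear_combination -h1
    intro t A hA
    obtain ⟨d, rfl⟩ : ∃ d, t = -(d * 1 * Cfsg.hermForm n F q (y₁ + c • p) y) :=
      ⟨-t / Cfsg.hermForm n F q (y₁ + c • p) y, by field_simp⟩
    obtain ⟨X, hX⟩ := exists_tv Φ (y₁ + c • p) z 1 huz
    obtain ⟨X', hX'⟩ := exists_tv Φ (y₁ + c • p) z (-1) huz
    obtain ⟨T, hT⟩ := exists_tv Φ y y d hy
    obtain ⟨T', hT'⟩ := exists_tv Φ y y (-d) hy
    have e1 := comm_tv X T X' T' A (y₁ + c • p) z y y 1 d huz hy hyz hX hX' hT hT' hA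
    rw [e1]
    exact M.mul_mem (M.mul_mem (M.mul_mem (hD1 1 X hX) (hiso y hy d T hT)) (hD1 (-1) X' hX'))
      (hiso y hy (-d) T' hT')
  -- isotropic `y`, any `z ⊥ y`
  have s2 : ∀ y z : Fin n → F, Cfsg.hermForm n F q y y = 0 → Cfsg.hermForm n F q y z = 0 →
      DD q M y z := by
    intro y z hy hyz
    by_cases hy0 : y = 0
    · intro c A hA
      rw [hy0] at hA
      rw [isTv_zero A z c hA]
      exact M.one_mem
    · by_cases hz : Cfsg.hermForm n F q z z = 0
      · obtain ⟨t, k1, k2, -, k4⟩ := exists_perp3 hF Φ hn y z z 1 (map_one _)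
        have k1' := um_symm Φ _ _ k1
        have k2' := um_symm Φ _ _ k2
        have e : z = (z - t) + t := by rw [sub_add_cancel]
        rw [e]
        apply dd_add_right Φ M y (z - t) t
        · rw [uherm_sub_right Φ, hyz, k1', sub_zero]
        · exact k1'
        · apply s1 y (z - t) _ hy0 hy
          · rw [uherm_sub_right Φ, hyz, k1', sub_zero]
          · simp only [uherm_sub_left, uherm_sub_right Φ, hz, k2, k2', k4]
            simp
        · apply s1 y t _ hy0 hy k1'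
          rw [k4]
          exact one_ne_zero
      · exact s1 y z hz hy0 hy hyz
  by_cases hx : Cfsg.hermForm n F q x x = 0
  · exact s2 x z hx hxz
  · have hN : Φ.φ (Cfsg.hermForm n F q x x) = Cfsg.hermForm n F q x x := uherm_conj Φ x x
    obtain ⟨t, k1, k2, -, k4⟩ := exists_perp3 hF Φ hn x z z (-(Cfsg.hermForm n F q x x))
      (by rw [map_neg, hN])
    have k1' := um_symm Φ _ _ k1
    obtain ⟨b, hb⟩ := exists_tr_one hF Φ
    have i1 : Cfsg.hermForm n F q (b • (x + t)) (b • (x + t)) = 0 := by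
      simp only [uherm_add_left, uherm_add_right Φ, uherm_smul_left, uherm_smul_right Φ, k1,
        k1', k4]
      ring
    have i2 : Cfsg.hermForm n F q ((1 - b) • x - b • t) ((1 - b) • x - b • t) = 0 := by
      simp only [uherm_sub_left, uherm_sub_right Φ, uherm_smul_left, uherm_smul_right Φ, k1,
        k1', k4, map_sub, map_one]
      linear_combination (-(Cfsg.hermForm n F q x x)) * hb
    have j1 : Cfsg.hermForm n F q (b • (x + t)) z = 0 := by
      rw [uherm_smul_left, uherm_add_left, hxz, k2, add_zero, mul_zero]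
    have j2 : Cfsg.hermForm n F q ((1 - b) • x - b • t) z = 0 := by
      rw [uherm_sub_left, uherm_smul_left, uherm_smul_left, hxz, k2, mul_zero, mul_zero,
        sub_zero]
    have e : x = b • (x + t) + ((1 - b) • x - b • t) := by module
    rw [e]
    exact dd_add_left Φ M _ _ z j1 j2 (s2 _ z i1 j1) (s2 _ z i2 j2)

theorem core_std (hF : Fintype.card F = q ^ 2) (Φ : Frob F q) (hn : 7 ≤ n)
    (M : Subgroup (Matrix.SpecialLinearGroup (Fin n) F))
    (hP : ∀ A : Matrix.SpecialLinearGroup (Fin n) F,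
      Matrix.SpecialLinearGroup.toGL A ∈ Cfsg.Geo.similarityGroup (Cfsg.hermForm n F q) → A ∈ M)
    (hex : ∃ A ∈ M, Matrix.SpecialLinearGroup.toGL A
      ∉ Cfsg.Geo.similarityGroup (Cfsg.hermForm n F q)) : M = ⊤ := by
  have hSU : ∀ g : ↥(Cfsg.SU n F q), g.1 ∈ M := by
    intro g
    apply hP
    refine ⟨1, fun u v => ?_⟩
    rw [Units.val_one, one_mul]
    exact sact_herm g u v
  obtain ⟨g, hgM, hg⟩ := hex
  obtain ⟨y₀, hy₀0, hy₀, hD⟩ := stageA hF Φ hn M hSU g hgM hg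
  have hiso := stage3 hF Φ hn M hSU y₀ hy₀0 hy₀ hD
  apply Cfsg.Agent.S5642.top_of_all_Dp (by omega) M
  intro x ψ hψ c
  apply stageB hF Φ hn M hiso x (cj Φ ψ) (by rw [← cj_dot Φ, cj_cj]; exact hψ) c
  intro v
  rw [tv_mulVec x ψ hψ, ← cj_dot Φ (cj Φ ψ), cj_cj]

theorem exists_nonsimil_std (Φ : Frob F q) (hn : 2 ≤ n) :
    ∃ A : Matrix.SpecialLinearGroup (Fin n) F,
      Matrix.SpecialLinearGroup.toGL A ∉ Cfsg.Geo.similarityGroup (Cfsg.hermForm n F q) := by
  obtain ⟨i0, i1, hi⟩ : ∃ i0 i1 : Fin n, i0 ≠ i1 :=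
    ⟨⟨0, by omega⟩, ⟨1, by omega⟩, by simp [Fin.ext_iff]⟩
  have h01 : Cfsg.hermForm n F q (Pi.single i0 (1 : F)) (Pi.single i1 1) = 0 := by
    rw [uherm_single_single Φ, if_neg hi]
  have h10 : Cfsg.hermForm n F q (Pi.single i1 (1 : F)) (Pi.single i0 1) = 0 := by
    rw [uherm_single_single Φ, if_neg hi.symm]
  have h00 : Cfsg.hermForm n F q (Pi.single i0 (1 : F)) (Pi.single i0 1) = 1 := by
    rw [uherm_single_single Φ, if_pos rfl]
  have h11 : Cfsg.hermForm n F q (Pi.single i1 (1 : F)) (Pi.single i1 1) = 1 := by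
    rw [uherm_single_single Φ, if_pos rfl]
  obtain ⟨A, hA⟩ := exists_tv Φ (Pi.single i0 (1 : F)) (Pi.single i1 1) 1 h01
  refine ⟨A, fun hmem => ?_⟩
  obtain ⟨c, hc⟩ := hmem
  have e0 : Cfsg.hermForm n F q ((A : Matrix (Fin n) (Fin n) F) *ᵥ Pi.single i0 1)
      ((A : Matrix (Fin n) (Fin n) F) *ᵥ Pi.single i0 1)
      = (c : F) * Cfsg.hermForm n F q (Pi.single i0 (1 : F)) (Pi.single i0 1) := hc _ _
  have e1 : Cfsg.hermForm n F q ((A : Matrix (Fin n) (Fin n) F) *ᵥ Pi.single i1 1)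
      ((A : Matrix (Fin n) (Fin n) F) *ᵥ Pi.single i1 1)
      = (c : F) * Cfsg.hermForm n F q (Pi.single i1 (1 : F)) (Pi.single i1 1) := hc _ _
  rw [hA, h01, mul_zero, zero_smul, add_zero, h00, mul_one] at e0
  rw [hA, h11, mul_one, one_smul] at e1
  simp only [uherm_add_left, uherm_add_right Φ, h00, h11, h01, h10, mul_one] at e1
  rw [← e0] at e1
  have : (1 : F) = 0 := by linear_combination e1
  exact one_ne_zero this

theorem std_max (hF : Fintype.card F = q ^ 2) (Φ : Frob F q) (hn : 7 ≤ n) :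
    Cfsg.Geo.IsMaximalIn (Cfsg.Geo.specialLinear (Fin n) F)
      (Cfsg.Geo.similarityGroup (Cfsg.hermForm n F q) ⊓ Cfsg.Geo.specialLinear (Fin n) F) := by
  apply Cfsg.Agent.S5642.maximal_of_core_sl'
  · exact exists_nonsimil_std Φ (by omega)
  · intro M hP hex
    exact core_std hF Φ hn M hP hex

end core2

section absform

variable {F : Type*} [Field F] [Fintype F] {n q : ℕ}

theorem exists_q_of_aut (σ : F ≃+* F) (h1 : σ ≠ RingEquiv.refl F)
    (h2 : ∀ a, σ (σ a) = a) :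
    ∃ q : ℕ, Fintype.card F = q ^ 2 ∧ ∀ x, σ x = x ^ q := by
  classical
  obtain ⟨p, hp⟩ := CharP.exists F
  haveI : Fact p.Prime := ⟨CharP.char_is_prime F p⟩
  letI : Algebra (ZMod p) F := ZMod.algebra F p
  obtain ⟨σ', hσ'⟩ : ∃ σ' : F ≃ₐ[ZMod p] F, ∀ x, σ' x = σ x :=
    ⟨AlgEquiv.ofRingEquiv (f := σ) (fun x => by
      obtain ⟨k, rfl⟩ := ZMod.natCast_zmod_surjective x
      simp), fun x => rfl⟩
  obtain ⟨⟨i, hi⟩, hσ⟩ := (FiniteField.bijective_frobeniusAlgEquivOfAlgebraic_pow (ZMod p) F).2 σ'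
  simp only at hσ
  have hfro : ∀ x : F, σ x = x ^ (p ^ i) := by
    intro x
    rw [← hσ', ← hσ, AlgEquiv.coe_pow, FiniteField.coe_frobeniusAlgEquivOfAlgebraic_iterate,
      ZMod.card]
  have hord := FiniteField.orderOf_frobeniusAlgEquivOfAlgebraic (ZMod p) F
  have hsq : (FiniteField.frobeniusAlgEquivOfAlgebraic (ZMod p) F) ^ (2 * i) = 1 := by
    rw [pow_mul', hσ]
    ext x
    rw [pow_two, AlgEquiv.mul_apply, hσ', hσ', h2, AlgEquiv.one_apply]
  have hdvd := orderOf_dvd_of_pow_eq_one hsq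
  rw [hord] at hdvd
  have hi0 : i ≠ 0 := by
    rintro rfl
    apply h1
    ext x
    rw [hfro x, pow_zero, pow_one]
    rfl
  have hm : Module.finrank (ZMod p) F = 2 * i := by
    obtain ⟨c, hc⟩ := hdvd
    have hc1 : c = 1 := by
      rcases Nat.lt_or_ge c 2 with h | h
      · rcases Nat.lt_or_ge c 1 with h' | h'
        · have : c = 0 := by omega
          rw [this, mul_zero] at hc
          omega
        · omega
      · have : 2 * i ≥ Module.finrank (ZMod p) F * 2 := by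
          rw [hc]
          exact Nat.mul_le_mul_left _ h
        omega
    rw [hc, hc1, mul_one]
  refine ⟨p ^ i, ?_, hfro⟩
  rw [Module.card_eq_pow_finrank (K := ZMod p) (V := F), hm, ZMod.card, ← pow_mul, mul_comm]

variable {σ : F ≃+* F} {f : (Fin n → F) → (Fin n → F) → F}

theorem af_add_right (hf : Cfsg.Geo.IsUnitaryForm σ f) (v x y : Fin n → F) :
    f v (x + y) = f v x + f v y := by
  rw [hf.herm, hf.add_left, map_add, ← hf.herm, ← hf.herm]

theorem af_smul_right (hf : Cfsg.Geo.IsUnitaryForm σ f) (c : F) (v x : Fin n → F) :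
    f v (c • x) = σ c * f v x := by
  rw [hf.herm, hf.smul_left, map_mul, ← hf.herm]

/-- the linear functional `x ↦ f(x, v)` -/
def afL (hf : Cfsg.Geo.IsUnitaryForm σ f) (v : Fin n → F) : (Fin n → F) →ₗ[F] F where
  toFun x := f x v
  map_add' x y := hf.add_left x y v
  map_smul' c x := by
    rw [hf.smul_left]
    rfl

theorem afL_apply (hf : Cfsg.Geo.IsUnitaryForm σ f) (v x : Fin n → F) : afL hf v x = f x v := rfl

theorem af_sub_left (hf : Cfsg.Geo.IsUnitaryForm σ f) (x y v : Fin n → F) :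
    f (x - y) v = f x v - f y v := by
  rw [← afL_apply hf, map_sub]
  rfl

theorem af_sum_left (hf : Cfsg.Geo.IsUnitaryForm σ f) {d : ℕ} (c : Fin d → F)
    (v : Fin d → (Fin n → F)) (w : Fin n → F) :
    f (∑ i, c i • v i) w = ∑ i, c i * f (v i) w := by
  rw [← afL_apply hf, map_sum]
  simp only [map_smul, afL_apply, smul_eq_mul]

/-- Gram–Schmidt step -/
theorem af_extend (hF : Fintype.card F = q ^ 2) (Φ : Frob F q) (hσ : ∀ x, σ x = Φ.φ x)
    (hf : Cfsg.Geo.IsUnitaryForm σ f) (d : ℕ) (hd : d < n) (v : Fin d → (Fin n → F))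
    (hv : ∀ i j, f (v i) (v j) = if i = j then 1 else 0) :
    ∃ w : Fin n → F, (∀ j, f w (v j) = 0) ∧ f w w = 1 := by
  classical
  -- the projection
  obtain ⟨pr, hpr⟩ : ∃ pr : (Fin n → F) → (Fin n → F),
      ∀ x, pr x = x - ∑ i, f x (v i) • v i := ⟨_, fun x => rfl⟩
  have P1 : ∀ x j, f (pr x) (v j) = 0 := by
    intro x j
    rw [hpr, af_sub_left hf, af_sum_left hf]
    simp only [hv, mul_ite, mul_one, mul_zero, Finset.sum_ite_eq', Finset.mem_univ, if_true,
      sub_self]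
  have P3 : ∀ w, (∀ j, f w (v j) = 0) → ∀ x, f (pr x) w = f x w := by
    intro w hw x
    rw [hpr, af_sub_left hf, af_sum_left hf]
    have : ∀ i, f (v i) w = 0 := fun i => by rw [hf.herm, hw i, map_zero]
    simp only [this, mul_zero, Finset.sum_const_zero, sub_zero]
  -- a nonzero vector orthogonal to the family
  obtain ⟨x₀, hx₀⟩ : ∃ x₀ : Fin n → F, x₀ ∉ Submodule.span F (Set.range v) := by
    by_contra hcon
    push Not at hcon
    have htop : Submodule.span F (Set.range v) = ⊤ := by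
      rw [eq_top_iff]
      intro x _
      exact hcon x
    have h1 := finrank_range_le_card (R := F) v
    rw [Set.finrank, htop, finrank_top, Module.finrank_fin_fun, Fintype.card_fin] at h1
    omega
  have hw₀0 : pr x₀ ≠ 0 := by
    intro h0
    apply hx₀
    have e : x₀ = ∑ i, f x₀ (v i) • v i := by
      rw [hpr] at h0
      exact sub_eq_zero.mp h0
    rw [e]
    exact Submodule.sum_mem _ (fun i _ => Submodule.smul_mem _ _
      (Submodule.subset_span (Set.mem_range_self i)))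
  -- a non-isotropic vector orthogonal to the family
  obtain ⟨w₁, hw₁, hw₁N⟩ : ∃ w₁ : Fin n → F, (∀ j, f w₁ (v j) = 0) ∧ f w₁ w₁ ≠ 0 := by
    by_cases h0 : f (pr x₀) (pr x₀) = 0
    · obtain ⟨x, hx⟩ := (hf.nondegenerate _ hw₀0).1
      have hc : f (pr x) (pr x₀) = f x (pr x₀) := P3 _ (P1 x₀) x
      by_cases h1 : f (pr x) (pr x) = 0
      · obtain ⟨b, hb⟩ := exists_tr_one hF Φ
        obtain ⟨c, hcdef⟩ : ∃ c, c = f x (pr x₀) := ⟨_, rfl⟩
        have hc0 : c ≠ 0 := by rw [hcdef]; exact hx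
        have hc' : f (pr x₀) (pr x) = σ c := by rw [hf.herm, hc, hcdef]
        refine ⟨pr x₀ + (b / c) • pr x, ?_, ?_⟩
        · intro j
          rw [hf.add_left, hf.smul_left, P1, P1, mul_zero, add_zero]
        · rw [hf.add_left, af_add_right hf, af_add_right hf, hf.smul_left, hf.smul_left,
            af_smul_right hf, af_smul_right hf, h0, h1, hc, hc', ← hcdef, ← map_mul,
            div_mul_cancel₀ _ hc0, hσ]
          intro h2
          have h3 : b + Φ.φ b = 0 := by linear_combination h2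
          rw [hb] at h3
          exact one_ne_zero h3
      · exact ⟨pr x, P1 x, h1⟩
    · exact ⟨pr x₀, P1 x₀, h0⟩
  -- normalise
  have hr : Φ.φ (f w₁ w₁) = f w₁ w₁ := by rw [← hσ, ← hf.herm]
  obtain ⟨μ, hμ⟩ := exists_unorm hF Φ (f w₁ w₁)⁻¹ (inv_ne_zero hw₁N) (by rw [map_inv₀, hr])
  refine ⟨μ • w₁, ?_, ?_⟩
  · intro j
    rw [hf.smul_left, hw₁, mul_zero]
  · rw [hf.smul_left, af_smul_right hf, hσ, ← mul_assoc, hμ, inv_mul_cancel₀ hw₁N]

theorem af_exists_on (hF : Fintype.card F = q ^ 2) (Φ : Frob F q) (hσ : ∀ x, σ x = Φ.φ x)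
    (hf : Cfsg.Geo.IsUnitaryForm σ f) :
    ∀ d, d ≤ n → ∃ v : Fin d → (Fin n → F), ∀ i j, f (v i) (v j) = if i = j then 1 else 0 := by
  intro d
  induction d with
  | zero =>
    intro _
    exact ⟨fun i => i.elim0, fun i => i.elim0⟩
  | succ d ih =>
    intro hd
    obtain ⟨v, hv⟩ := ih (by omega)
    obtain ⟨w, hw, hww⟩ := af_extend hF Φ hσ hf d (by omega) v hv
    have hw' : ∀ j, f (v j) w = 0 := fun j => by rw [hf.herm, hw j, map_zero]
    refine ⟨Fin.cons w v, ?_⟩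
    intro i j
    refine Fin.cases ?_ (fun i' => ?_) i
    · refine Fin.cases ?_ (fun j' => ?_) j
      · rw [Fin.cons_zero, hww, if_pos rfl]
      · rw [Fin.cons_zero, Fin.cons_succ, hw, if_neg (Fin.succ_ne_zero j').symm]
    · refine Fin.cases ?_ (fun j' => ?_) j
      · rw [Fin.cons_zero, Fin.cons_succ, hw', if_neg (Fin.succ_ne_zero i')]
      · rw [Fin.cons_succ, Fin.cons_succ, hv]
        simp only [Fin.succ_inj]

/-- a unitary form is equivalent to the standard one -/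
theorem af_std (hF : Fintype.card F = q ^ 2) (Φ : Frob F q) (hσ : ∀ x, σ x = Φ.φ x)
    (hf : Cfsg.Geo.IsUnitaryForm σ f) :
    ∃ P : GL (Fin n) F, ∀ x y, f x y = Cfsg.hermForm n F q
      ((P : Matrix (Fin n) (Fin n) F) *ᵥ x) ((P : Matrix (Fin n) (Fin n) F) *ᵥ y) := by
  classical
  obtain ⟨v, hv⟩ := af_exists_on hF Φ hσ hf n le_rfl
  obtain ⟨T, hT⟩ : ∃ T : (Fin n → F) →ₗ[F] (Fin n → F), ∀ x j, T x j = f x (v j) :=
    ⟨LinearMap.pi (fun j => afL hf (v j)), fun x j => rfl⟩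
  obtain ⟨P, hP⟩ : ∃ P : Matrix (Fin n) (Fin n) F, ∀ x, P *ᵥ x = T x :=
    ⟨LinearMap.toMatrix' T, fun x => by rw [← Matrix.toLin'_apply, Matrix.toLin'_toMatrix']⟩
  obtain ⟨S, hS⟩ : ∃ S : Matrix (Fin n) (Fin n) F, ∀ i j, S i j = v j i :=
    ⟨Matrix.of (fun i j => v j i), fun i j => rfl⟩
  have hPS : P * S = 1 := by
    ext i k
    have h1 : (P * S) i k = (P *ᵥ v k) i := by
      rw [Matrix.mul_apply]
      unfold Matrix.mulVec dotProduct
      exact Finset.sum_congr rfl (fun j _ => by rw [hS])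
    rw [h1, hP, hT, hv, Matrix.one_apply]
    simp only [eq_comm]
  have hSP : S * P = 1 := mul_eq_one_comm.mp hPS
  have hSv : ∀ c : Fin n → F, S *ᵥ c = ∑ j, c j • v j := by
    intro c
    funext i
    unfold Matrix.mulVec dotProduct
    rw [Finset.sum_apply]
    refine Finset.sum_congr rfl (fun j _ => ?_)
    show S i j * c j = (c j • v j) i
    rw [hS, Pi.smul_apply, smul_eq_mul, mul_comm]
  refine ⟨⟨P, S, hPS, hSP⟩, fun x y => ?_⟩
  show f x y = Cfsg.hermForm n F q (P *ᵥ x) (P *ᵥ y)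
  have e : x = ∑ j, (P *ᵥ x) j • v j := by
    rw [← hSv, Matrix.mulVec_mulVec, hSP, Matrix.one_mulVec]
  conv_lhs => rw [e]
  rw [af_sum_left hf]
  unfold Cfsg.hermForm
  refine Finset.sum_congr rfl (fun j _ => ?_)
  rw [hf.herm (v j) y, hP y, hT, hσ, Φ.hφ]

theorem isMaximalIn_comap {G : Type*} [Group G] (θ : G ≃* G) (K H : Subgroup G)
    (h : Cfsg.Geo.IsMaximalIn K H) :
    Cfsg.Geo.IsMaximalIn (K.comap θ.toMonoidHom) (H.comap θ.toMonoidHom) := by
  obtain ⟨hlt, hmax⟩ := h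
  refine ⟨?_, ?_⟩
  · refine lt_of_le_of_ne (Subgroup.comap_mono hlt.le) ?_
    intro heq
    apply hlt.ne
    ext x
    have h1 : θ.symm x ∈ H.comap θ.toMonoidHom ↔ θ.symm x ∈ K.comap θ.toMonoidHom := by
      rw [heq]
    simpa [Subgroup.mem_comap] using h1
  · intro M hHM hMK
    have h1 := hmax (M.comap θ.symm.toMonoidHom) ?_ ?_
    · rcases h1 with h1 | h1
      · left
        ext x
        have h2 : θ x ∈ M.comap θ.symm.toMonoidHom ↔ θ x ∈ H := by rw [h1]
        simpa [Subgroup.mem_comap] using h2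
      · right
        ext x
        have h2 : θ x ∈ M.comap θ.symm.toMonoidHom ↔ θ x ∈ K := by rw [h1]
        simpa [Subgroup.mem_comap] using h2
    · intro x hx
      rw [Subgroup.mem_comap]
      apply hHM
      rw [Subgroup.mem_comap]
      simpa using hx
    · intro x hx
      rw [Subgroup.mem_comap] at hx
      have h2 := hMK hx
      rw [Subgroup.mem_comap] at h2
      simpa using h2

theorem gl_mulVec_mul (a b : GL (Fin n) F) (x : Fin n → F) :
    ((a * b : GL (Fin n) F) : Matrix (Fin n) (Fin n) F) *ᵥ x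
      = (a : Matrix (Fin n) (Fin n) F) *ᵥ ((b : Matrix (Fin n) (Fin n) F) *ᵥ x) := by
  rw [Units.val_mul, Matrix.mulVec_mulVec]

theorem gl_inv_mulVec (a : GL (Fin n) F) (x : Fin n → F) :
    ((a⁻¹ : GL (Fin n) F) : Matrix (Fin n) (Fin n) F) *ᵥ ((a : Matrix (Fin n) (Fin n) F) *ᵥ x)
      = x := by
  rw [← gl_mulVec_mul, inv_mul_cancel, Units.val_one, Matrix.one_mulVec]

theorem gl_mulVec_inv (a : GL (Fin n) F) (x : Fin n → F) :
    (a : Matrix (Fin n) (Fin n) F) *ᵥ (((a⁻¹ : GL (Fin n) F) : Matrix (Fin n) (Fin n) F) *ᵥ x)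
      = x := by
  rw [← gl_mulVec_mul, mul_inv_cancel, Units.val_one, Matrix.one_mulVec]

theorem sim_comap (P : GL (Fin n) F)
    (hP : ∀ x y, f x y = Cfsg.hermForm n F q
      ((P : Matrix (Fin n) (Fin n) F) *ᵥ x) ((P : Matrix (Fin n) (Fin n) F) *ᵥ y)) :
    (Cfsg.Geo.similarityGroup (Cfsg.hermForm n F q)).comap (MulAut.conj P).toMonoidHom
      = Cfsg.Geo.similarityGroup f := by
  ext g
  rw [Subgroup.mem_comap]
  have hθ : (MulAut.conj P).toMonoidHom g = P * g * P⁻¹ := rfl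
  rw [hθ]
  constructor
  · rintro ⟨c, hc⟩
    refine ⟨c, fun u v => ?_⟩
    have h1 := hc ((P : Matrix (Fin n) (Fin n) F) *ᵥ u) ((P : Matrix (Fin n) (Fin n) F) *ᵥ v)
    rw [gl_mulVec_mul, gl_mulVec_mul, gl_inv_mulVec, gl_mulVec_mul, gl_mulVec_mul,
      gl_inv_mulVec, ← hP, ← hP] at h1
    exact h1
  · rintro ⟨c, hc⟩
    refine ⟨c, fun u v => ?_⟩
    have h1 := hc (((P⁻¹ : GL (Fin n) F) : Matrix (Fin n) (Fin n) F) *ᵥ u)
      (((P⁻¹ : GL (Fin n) F) : Matrix (Fin n) (Fin n) F) *ᵥ v)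
    rw [hP, hP, gl_mulVec_inv, gl_mulVec_inv] at h1
    rw [gl_mulVec_mul, gl_mulVec_mul, gl_mulVec_mul, gl_mulVec_mul]
    exact h1

theorem sl_comap (P : GL (Fin n) F) :
    (Cfsg.Geo.specialLinear (Fin n) F).comap (MulAut.conj P).toMonoidHom
      = Cfsg.Geo.specialLinear (Fin n) F := by
  ext g
  rw [Subgroup.mem_comap]
  have hθ : (MulAut.conj P).toMonoidHom g = P * g * P⁻¹ := rfl
  rw [hθ]
  unfold Cfsg.Geo.specialLinear
  rw [MonoidHom.mem_ker, MonoidHom.mem_ker, map_mul, map_mul, map_inv, mul_comm, ← mul_assoc,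
    inv_mul_cancel, one_mul]

end absform

/-- For a finite field F and n ≥ 13, let σ be a field automorphism of F of order two and f a non-degenerate unitary form on F^n with respect to σ. Then the elements of SL_n(F) that are similarities of f form a maximal subgroup of SL_n(F). -/
theorem result {F : Type*} [Field F] [Fintype F] (n : ℕ) (hn : 13 ≤ n) (σ : F ≃+* F) (f : (Fin n → F) → (Fin n → F) → F) (hf : Cfsg.Geo.IsUnitaryForm σ f) : Cfsg.Geo.IsMaximalIn (Cfsg.Geo.specialLinear (Fin n) F) (Cfsg.Geo.similarityGroup f ⊓ Cfsg.Geo.specialLinear (Fin n) F) := by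
  classical
  obtain ⟨q, hF, hσq⟩ := exists_q_of_aut σ hf.ne_refl hf.involutive
  obtain ⟨Φ⟩ := Cfsg.Agent.Helper16.exists_Frob hF
  have hσ : ∀ x, σ x = Φ.φ x := fun x => by rw [hσq, Φ.hφ]
  obtain ⟨P, hP⟩ := af_std hF Φ hσ hf
  have hstd := std_max hF Φ (n := n) (by omega)
  have h1 := isMaximalIn_comap (MulAut.conj P) _ _ hstd
  rw [Subgroup.comap_inf, sl_comap, sim_comap P hP] at h1
  exact h1

end Cfsg.Agent.S5643
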