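import Mathlib
import Cfsg.Statements.S5653
import Cfsg.Agent.Helper6.UnitMax
import Cfsg.Agent.S5643

set_option autoImplicit false
open Cfsg

namespace Cfsg.Agent.S5653

open Matrix Cfsg.Agent.Helper3 Cfsg.Agent.Helper16 Cfsg.Agent.Helper6 Cfsg.Agent.S5643

section uts

variable {F : Type*} [Field F] [Fintype F] {n q : ℕ}

theorem h_three_vals (Φ : Frob F q) (x₁ x₂ x₃ : Fin n → F)
    (h1 : x₁ ≠ 0) (h2 : ∀ c : F, x₂ ≠ c • x₁) (h3 : ∀ α β : F, x₃ ≠ α • x₁ + β • x₂) :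
    ∃ y, Cfsg.hermForm n F q y x₁ = 0 ∧ Cfsg.hermForm n F q y x₂ = 0 ∧
      Cfsg.hermForm n F q y x₃ = 1 := by
  obtain ⟨y₁, h11, h12⟩ := exists_two_vals Φ x₁ x₂ h1 h2 1 0
  obtain ⟨y₂, h21, h22⟩ := exists_two_vals Φ x₁ x₂ h1 h2 0 1
  by_contra hcon
  push Not at hcon
  have hall : ∀ y, Cfsg.hermForm n F q y x₁ = 0 → Cfsg.hermForm n F q y x₂ = 0 →
      Cfsg.hermForm n F q y x₃ = 0 := by
    intro y hy1 hy2
    by_contra hne
    apply hcon ((Cfsg.hermForm n F q y x₃)⁻¹ • y)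
    · rw [uherm_smul_left, hy1, mul_zero]
    · rw [uherm_smul_left, hy2, mul_zero]
    · rw [uherm_smul_left, inv_mul_cancel₀ hne]
  apply h3 (Φ.φ (Cfsg.hermForm n F q y₁ x₃)) (Φ.φ (Cfsg.hermForm n F q y₂ x₃))
  have h0 : ∀ v, Cfsg.hermForm n F q v (x₃ - (Φ.φ (Cfsg.hermForm n F q y₁ x₃) • x₁
      + Φ.φ (Cfsg.hermForm n F q y₂ x₃) • x₂)) = 0 := by
    intro v
    have e := hall (v - Cfsg.hermForm n F q v x₁ • y₁ - Cfsg.hermForm n F q v x₂ • y₂)
      (by simp only [uherm_sub_left, uherm_smul_left, h11, h21]; ring)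
      (by simp only [uherm_sub_left, uherm_smul_left, h12, h22]; ring)
    simp only [uherm_sub_left, uherm_smul_left] at e
    simp only [uherm_sub_right Φ, uherm_add_right Φ, uherm_smul_right Φ, Φ.hφ2]
    linear_combination e
  exact sub_eq_zero.mp (um_nondeg Φ _ h0)

/-- a vector of prescribed norm orthogonal to four given vectors -/
theorem exists_perp4 (hF : Fintype.card F = q ^ 2) (Φ : Frob F q) (hn : 9 ≤ n)
    (a₁ a₂ a₃ a₄ : Fin n → F) (r : F) (hr : Φ.φ r = r) :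
    ∃ t, Cfsg.hermForm n F q t a₁ = 0 ∧ Cfsg.hermForm n F q t a₂ = 0 ∧
      Cfsg.hermForm n F q t a₃ = 0 ∧ Cfsg.hermForm n F q t a₄ = 0 ∧
      Cfsg.hermForm n F q t t = r := by
  by_cases hr0 : r = 0
  · exact ⟨0, uherm_zero_left _, uherm_zero_left _, uherm_zero_left _, uherm_zero_left _, by
      rw [uherm_zero_left, hr0]⟩
  · have h1 := ucut_finrank (q := q) (⊤ : Submodule F (Fin n → F)) a₁
    have h2 := ucut_finrank (q := q) (ucut q ⊤ a₁) a₂
    have h3 := ucut_finrank (q := q) (ucut q (ucut q ⊤ a₁) a₂) a₃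
    have h4 := ucut_finrank (q := q) (ucut q (ucut q (ucut q ⊤ a₁) a₂) a₃) a₄
    rw [finrank_top, Module.finrank_fin_fun] at h1
    obtain ⟨t₀, ht₀, hN⟩ := exists_noniso hF Φ
      (ucut q (ucut q (ucut q (ucut q ⊤ a₁) a₂) a₃) a₄) (by omega)
    rw [mem_ucut, mem_ucut, mem_ucut, mem_ucut] at ht₀
    obtain ⟨⟨⟨⟨-, k1⟩, k2⟩, k3⟩, k4⟩ := ht₀
    have hν : Φ.φ (Cfsg.hermForm n F q t₀ t₀) = Cfsg.hermForm n F q t₀ t₀ := uherm_conj Φ t₀ t₀
    obtain ⟨μ, hμ⟩ := exists_unorm hF Φ (r / Cfsg.hermForm n F q t₀ t₀) (div_ne_zero hr0 hN)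
      (by rw [map_div₀, hr, hν])
    refine ⟨μ • t₀, ?_, ?_, ?_, ?_, ?_⟩
    · rw [uherm_smul_left, k1, mul_zero]
    · rw [uherm_smul_left, k2, mul_zero]
    · rw [uherm_smul_left, k3, mul_zero]
    · rw [uherm_smul_left, k4, mul_zero]
    · rw [uherm_smul_left, uherm_smul_right Φ, ← mul_assoc, hμ, div_mul_cancel₀ _ hN]

theorem mem_stab_of_le (A : ↥(Cfsg.SU n F q)) (W : Submodule F (Fin n → F))
    (h : ∀ x ∈ W, sact A x ∈ W) :
    Matrix.SpecialLinearGroup.toGL (A : Matrix.SpecialLinearGroup (Fin n) F) ∈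
      Cfsg.Geo.subspaceStabilizer W := by
  intro v
  constructor
  · exact h v
  · intro hv
    have hv' : sact A v ∈ W := hv
    obtain ⟨x, hx, hxv⟩ := su_exists_preimage A W W rfl h _ hv'
    have e : x = v := by
      have h1 := congrArg (sact A⁻¹) hxv
      rwa [sact_inv_left, sact_inv_left] at h1
    rw [← e]
    exact hx

/-- separation by the hermitian form -/
theorem usep (Φ : Frob F q) (W : Submodule F (Fin n → F)) (w' : Fin n → F) (hw' : w' ∉ W) :
    ∃ u, (∀ a ∈ W, Cfsg.hermForm n F q u a = 0) ∧ Cfsg.hermForm n F q w' u ≠ 0 := by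
  obtain ⟨ψ, hψW, hψ⟩ := Cfsg.Agent.S5631.sep W w' hw'
  refine ⟨cj Φ ψ, ?_, ?_⟩
  · intro a ha
    apply um_symm Φ
    rw [← cj_dot Φ, cj_cj]
    exact hψW a ha
  · rw [← cj_dot Φ, cj_cj, hψ]
    exact one_ne_zero

theorem core_ts (hF : Fintype.card F = q ^ 2) (Φ : Frob F q) (hn : 13 ≤ n)
    (W : Submodule F (Fin n → F))
    (hW : Cfsg.Geo.IsTotallySingularFor (Cfsg.hermForm n F q) W)
    (M : Subgroup ↥(Cfsg.SU n F q))
    (hH : ∀ A : ↥(Cfsg.SU n F q),
      Matrix.SpecialLinearGroup.toGL (A : Matrix.SpecialLinearGroup (Fin n) F) ∈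
        Cfsg.Geo.subspaceStabilizer W → A ∈ M)
    (hex : ∃ A ∈ M, Matrix.SpecialLinearGroup.toGL (A : Matrix.SpecialLinearGroup (Fin n) F) ∉
        Cfsg.Geo.subspaceStabilizer W) : M = ⊤ := by
  have K1 : ∀ y : Fin n → F, Cfsg.hermForm n F q y y = 0 →
      (∀ a ∈ W, Cfsg.hermForm n F q y a = 0) → y ∈ udirs Φ M := by
    intro y hy hyW
    refine ⟨hy, fun c hc t ht => hH t (mem_stab_of_le t W (fun x hx => ?_))⟩
    rw [ht x, um_symm Φ y x (hyW x hx), mul_zero, zero_smul, add_zero]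
    exact hx
  obtain ⟨b₀, hb₀⟩ := exists_tr_one hF Φ
  obtain ⟨d, hd0, hd⟩ := exists_skew hF Φ
  -- (A) a direction of `M` outside the orthogonal complement of `W`
  obtain ⟨z, hz, a, ha, hza⟩ : ∃ z ∈ udirs Φ M, ∃ a ∈ W, Cfsg.hermForm n F q z a ≠ 0 := by
    by_contra hcon
    push Not at hcon
    obtain ⟨g, hgM, hg⟩ := hex
    apply hg
    apply mem_stab_of_le
    intro w₀ hw₀
    by_contra hw'
    have hw'u : sact g w₀ ∈ udirs Φ M :=
      udirs_conj Φ M g hgM w₀ (K1 w₀ (hW w₀ hw₀ w₀ hw₀) (fun a ha => hW w₀ hw₀ a ha))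
    obtain ⟨u, huW, hu⟩ := usep Φ W (sact g w₀) hw'
    have hN : Φ.φ (Cfsg.hermForm n F q u u) = Cfsg.hermForm n F q u u := uherm_conj Φ u u
    obtain ⟨lam, hlam⟩ : ∃ lam, lam = -(Cfsg.hermForm n F q u u) * b₀
        / Cfsg.hermForm n F q (sact g w₀) u := ⟨_, rfl⟩
    have hlam' : lam * Cfsg.hermForm n F q (sact g w₀) u = -(Cfsg.hermForm n F q u u) * b₀ := by
      rw [hlam, div_mul_cancel₀ _ hu]
    have huw : Cfsg.hermForm n F q u (sact g w₀) = Φ.φ (Cfsg.hermForm n F q (sact g w₀) u) :=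
      (uherm_conj Φ _ _).symm
    have hzN : Cfsg.hermForm n F q (u + lam • sact g w₀) (u + lam • sact g w₀) = 0 := by
      simp only [uherm_add_left, uherm_add_right Φ, uherm_smul_left, uherm_smul_right Φ, hw'u.1,
        huw]
      have e1 : Φ.φ lam * Φ.φ (Cfsg.hermForm n F q (sact g w₀) u)
          = -(Cfsg.hermForm n F q u u) * Φ.φ b₀ := by
        rw [← map_mul, hlam', map_mul, map_neg, hN]
      linear_combination e1 + hlam' - (Cfsg.hermForm n F q u u) * hb₀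
    have hzW : ∀ a ∈ W, Cfsg.hermForm n F q (u + lam • sact g w₀) a = 0 := by
      intro a ha
      rw [uherm_add_left, uherm_smul_left, huW a ha, hcon _ hw'u a ha, mul_zero, add_zero]
    have h1 := udirs_conj Φ M g⁻¹ (M.inv_mem hgM) _ (K1 _ hzN hzW)
    have h2 := hcon _ h1 w₀ hw₀
    rw [← sact_herm g, sact_inv_right, uherm_add_left, uherm_smul_left, hw'u.1, mul_zero,
      add_zero] at h2
    exact hu (um_symm Φ _ _ h2)
  -- normalise
  obtain ⟨a₁, ha₁, hza₁⟩ : ∃ a₁ ∈ W, Cfsg.hermForm n F q z a₁ = 1 := by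
    refine ⟨(Φ.φ (Cfsg.hermForm n F q z a))⁻¹ • a, W.smul_mem _ ha, ?_⟩
    rw [uherm_smul_right Φ, map_inv₀, Φ.hφ2, inv_mul_cancel₀ hza]
  have haa : Cfsg.hermForm n F q a₁ a₁ = 0 := hW a₁ ha₁ a₁ ha₁
  have ha₁0 : a₁ ≠ 0 := by
    rintro rfl
    rw [uherm_zero_right Φ] at hza₁
    exact zero_ne_one hza₁
  -- one step
  have OS : ∀ y₁ y₂ : Fin n → F, Cfsg.hermForm n F q y₁ y₁ = 0 → Cfsg.hermForm n F q y₂ y₂ = 0 →
      Cfsg.hermForm n F q y₁ a₁ = 1 → Cfsg.hermForm n F q y₂ a₁ = 1 →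
      Cfsg.hermForm n F q y₁ y₂ + Cfsg.hermForm n F q y₂ y₁ = 0 →
      y₁ ∈ udirs Φ M → y₂ ∈ udirs Φ M := by
    intro y₁ y₂ h11 h22 h1a h2a htr hy₁u
    have h21 : Cfsg.hermForm n F q y₂ y₁ = Φ.φ (Cfsg.hermForm n F q y₁ y₂) :=
      (uherm_conj Φ _ _).symm
    obtain ⟨μ, hμ⟩ := exists_skew_sub hF Φ (Cfsg.hermForm n F q y₁ y₂) (by rw [← h21]; exact htr)
    have ha1 : Cfsg.hermForm n F q a₁ y₁ = 1 := by rw [← uherm_conj Φ y₁ a₁, h1a, map_one]
    have ha2 : Cfsg.hermForm n F q a₁ y₂ = 1 := by rw [← uherm_conj Φ y₂ a₁, h2a, map_one]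
    obtain ⟨b, hb⟩ : ∃ b, b = y₂ - y₁ + μ • a₁ := ⟨_, rfl⟩
    have hab : Cfsg.hermForm n F q a₁ b = 0 := by
      rw [hb, uherm_add_right Φ, uherm_sub_right Φ, uherm_smul_right Φ, ha1, ha2, haa]
      ring
    have hbb : Cfsg.hermForm n F q b b = 0 := by
      rw [hb]
      simp only [uherm_add_left, uherm_sub_left, uherm_add_right Φ, uherm_sub_right Φ,
        uherm_smul_left, uherm_smul_right Φ, h11, h22, h1a, h2a, ha1, ha2, haa]
      linear_combination -htr
    have hy₁b : Cfsg.hermForm n F q y₁ b = μ := by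
      rw [hb, uherm_add_right Φ, uherm_sub_right Φ, uherm_smul_right Φ, h11, h1a]
      linear_combination -hμ
    obtain ⟨S, hS⟩ := exists_sg hF Φ a₁ b haa hbb hab 1
    have hSM : S ∈ M := by
      apply hH S (mem_stab_of_le S W (fun x hx => ?_))
      rw [hS x, hW x hx a₁ ha₁, mul_zero, zero_smul, add_zero]
      exact W.sub_mem hx (W.smul_mem _ ha₁)
    have h3 := udirs_conj Φ M S hSM y₁ hy₁u
    have e : sact S y₁ = y₂ := by
      rw [hS y₁, h1a, hy₁b, map_one, hb]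
      module
    rw [e] at h3
    exact h3
  -- all isotropic vectors pairing to one with `a₁`
  have St1 : ∀ y : Fin n → F, Cfsg.hermForm n F q y y = 0 → Cfsg.hermForm n F q y a₁ = 1 →
      y ∈ udirs Φ M := by
    intro y hy hya
    by_cases hτ : Cfsg.hermForm n F q z y + Cfsg.hermForm n F q y z = 0
    · exact OS z y hz.1 hy hza₁ hya hτ hz
    · have ha1z : Cfsg.hermForm n F q a₁ z = 1 := by rw [← uherm_conj Φ z a₁, hza₁, map_one]
      have hyz : Cfsg.hermForm n F q y z = Φ.φ (Cfsg.hermForm n F q z y) :=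
        (uherm_conj Φ _ _).symm
      have hind2 : ∀ c : F, z ≠ c • a₁ := by
        intro c hc
        rw [hc, uherm_smul_left, haa, mul_zero] at hza₁
        exact zero_ne_one hza₁
      have hind3 : ∀ α β : F, y ≠ α • a₁ + β • z := by
        intro α β hc
        apply hτ
        have hβ : β = 1 := by
          rw [hc, uherm_add_left, uherm_smul_left, uherm_smul_left, haa, hza₁] at hya
          linear_combination hya
        rw [hc, hβ] at hy ⊢
        simp only [uherm_add_left, uherm_add_right Φ, uherm_smul_left, uherm_smul_right Φ, haa,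
          hz.1, hza₁, ha1z, map_one] at hy ⊢
        linear_combination hy
      obtain ⟨t₀, k1, k2, k3⟩ := h_three_vals Φ a₁ z y ha₁0 hind2 hind3
      have hN : Φ.φ (Cfsg.hermForm n F q t₀ t₀) = Cfsg.hermForm n F q t₀ t₀ := uherm_conj Φ t₀ t₀
      obtain ⟨s, s1, s2, s3, s4, s5⟩ := exists_perp4 hF Φ (by omega) a₁ z y t₀
        (-(Cfsg.hermForm n F q t₀ t₀)) (by rw [map_neg, hN])
      obtain ⟨t₁, ht₁⟩ : ∃ t₁, t₁ = t₀ + s := ⟨_, rfl⟩
      have ht₁N : Cfsg.hermForm n F q t₁ t₁ = 0 := by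
        rw [ht₁, uherm_add_left, uherm_add_right Φ, uherm_add_right Φ, s5, s4,
          um_symm Φ _ _ s4]
        ring
      have ht₁a : Cfsg.hermForm n F q t₁ a₁ = 0 := by
        rw [ht₁, uherm_add_left, k1, s1, add_zero]
      have ht₁z : Cfsg.hermForm n F q t₁ z = 0 := by
        rw [ht₁, uherm_add_left, k2, s2, add_zero]
      have ht₁y : Cfsg.hermForm n F q t₁ y = 1 := by
        rw [ht₁, uherm_add_left, k3, s3, add_zero]
      obtain ⟨τ, hτdef⟩ : ∃ τ, τ = Cfsg.hermForm n F q z y + Cfsg.hermForm n F q y z := ⟨_, rfl⟩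
      have hφτ : Φ.φ τ = τ := by
        rw [hτdef, map_add, uherm_conj Φ, uherm_conj Φ, add_comm]
      obtain ⟨ν, hν⟩ : ∃ ν, ν = -τ * b₀ := ⟨_, rfl⟩
      have hνtr : ν + Φ.φ ν = -τ := by
        rw [hν, map_mul, map_neg, hφτ]
        linear_combination (-τ) * hb₀
      obtain ⟨y₂, hy₂⟩ : ∃ y₂, y₂ = z + ν • t₁ := ⟨_, rfl⟩
      have hzt : Cfsg.hermForm n F q z t₁ = 0 := um_symm Φ _ _ ht₁z
      have hyt : Cfsg.hermForm n F q y t₁ = 1 := by rw [← uherm_conj Φ t₁ y, ht₁y, map_one]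
      have h22 : Cfsg.hermForm n F q y₂ y₂ = 0 := by
        rw [hy₂]
        simp only [uherm_add_left, uherm_add_right Φ, uherm_smul_left, uherm_smul_right Φ, hz.1,
          ht₁N, ht₁z, hzt]
        ring
      have h2a : Cfsg.hermForm n F q y₂ a₁ = 1 := by
        rw [hy₂, uherm_add_left, uherm_smul_left, hza₁, ht₁a]
        ring
      have hy₂u : y₂ ∈ udirs Φ M := by
        apply OS z y₂ hz.1 h22 hza₁ h2a _ hz
        rw [hy₂]
        simp only [uherm_add_left, uherm_add_right Φ, uherm_smul_left, uherm_smul_right Φ, hz.1,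
          ht₁z, hzt]
        ring
      apply OS y₂ y h22 hy h2a hya _ hy₂u
      rw [hy₂]
      simp only [uherm_add_left, uherm_add_right Φ, uherm_smul_left, uherm_smul_right Φ, ht₁y,
        hyt]
      linear_combination hνtr - hτdef
  have St1' : ∀ y : Fin n → F, Cfsg.hermForm n F q y y = 0 → Cfsg.hermForm n F q y a₁ ≠ 0 →
      y ∈ udirs Φ M := by
    intro y hy hya
    have h1 := St1 ((Cfsg.hermForm n F q y a₁)⁻¹ • y)
      (by rw [uherm_smul_left, uherm_smul_right Φ, hy, mul_zero, mul_zero])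
      (by rw [uherm_smul_left, inv_mul_cancel₀ hya])
    have h2 := udirs_smul Φ M _ h1 (Cfsg.hermForm n F q y a₁)
    rwa [smul_smul, mul_inv_cancel₀ hya, one_smul] at h2
  apply top_of_udirs hF Φ (by omega) M
  intro y hy
  by_cases hy0 : y = 0
  · rw [hy0]
    exact K1 0 (uherm_zero_left _) (fun a _ => uherm_zero_left a)
  · by_cases hya : Cfsg.hermForm n F q y a₁ = 0
    · obtain ⟨x, hxx, hxa, hxy⟩ := exists_iso_nonorth hF Φ a₁ y ha₁0 hy0 haa hy
      have hxu : x ∈ udirs Φ M := St1' x hxx hxa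
      have hyx : Cfsg.hermForm n F q y x ≠ 0 := um_ne_symm Φ _ _ hxy
      have hxy' : Cfsg.hermForm n F q x y = Φ.φ (Cfsg.hermForm n F q y x) :=
        (uherm_conj Φ _ _).symm
      have hφd : Φ.φ d = -d := by linear_combination hd
      obtain ⟨z', hz'⟩ : ∃ z', z' = y + (-d * Cfsg.hermForm n F q y x) • x := ⟨_, rfl⟩
      have hz'N : Cfsg.hermForm n F q z' z' = 0 := by
        rw [hz']
        simp only [uherm_add_left, uherm_add_right Φ, uherm_smul_left, uherm_smul_right Φ, hy,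
          hxx, hxy', map_mul, map_neg, hφd]
        ring
      have hz'a : Cfsg.hermForm n F q z' a₁ ≠ 0 := by
        rw [hz', uherm_add_left, uherm_smul_left, hya, zero_add]
        exact mul_ne_zero (mul_ne_zero (neg_ne_zero.mpr hd0) hyx) hxa
      have hz'u := St1' z' hz'N hz'a
      have h3 := udirs_move Φ M x z' hxu hz'u d hd
      have e : z' + (d * Cfsg.hermForm n F q z' x) • x = y := by
        rw [hz', uherm_add_left, uherm_smul_left, hxx]
        module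
      rw [e] at h3
      exact h3
    · exact St1' y hy hya

theorem exists_not_stab (hF : Fintype.card F = q ^ 2) (Φ : Frob F q)
    (W : Submodule F (Fin n → F)) (hW0 : W ≠ ⊥)
    (hW : Cfsg.Geo.IsTotallySingularFor (Cfsg.hermForm n F q) W) :
    ∃ A : ↥(Cfsg.SU n F q),
      Matrix.SpecialLinearGroup.toGL (A : Matrix.SpecialLinearGroup (Fin n) F) ∉
        Cfsg.Geo.subspaceStabilizer W := by
  obtain ⟨w, hw, hw0⟩ := Submodule.exists_mem_ne_zero_of_ne_bot hW0
  obtain ⟨p, hp, hwp⟩ := exists_partner hF Φ w hw0 (hW w hw w hw)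
  obtain ⟨d, hd0, hd⟩ := exists_skew hF Φ
  obtain ⟨T, hT⟩ := exists_ut Φ p d hp hd
  refine ⟨T, fun hmem => ?_⟩
  have h1 : sact T w ∈ W := (hmem w).mp hw
  rw [hT w, hwp, mul_one] at h1
  have h2 : d • p ∈ W := (Submodule.add_mem_iff_right W hw).mp h1
  have h3 : p ∈ W := by
    have h4 := W.smul_mem d⁻¹ h2
    rwa [smul_smul, inv_mul_cancel₀ hd0, one_smul] at h4
  have h5 := hW w hw p h3
  rw [hwp] at h5
  exact one_ne_zero h5

end uts

/-- Let F be the field with q² elements and n ≥ 13, and let SU_n(q) be the group of matrices of determinant one preserving the standard unitary form Σ u_i v_i^q on F^n (the intersection of the unitary group GU_n with the kernel of the determinant). The elements of SU_n(q) stabilising a non-zero subspace on which the form vanishes identically form a maximal subgroup of SU_n(q). -/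
theorem result {F : Type*} [Field F] [Fintype F] (n q : ℕ) (hF : Fintype.card F = q ^ 2) (hn : 13 ≤ n) (W : Submodule F (Fin n → F)) (hW0 : W ≠ ⊥) (hW : Cfsg.Geo.IsTotallySingularFor (Cfsg.hermForm n F q) W) : Cfsg.Geo.IsMaximalIn (Cfsg.GU n F q ⊓ Cfsg.Geo.specialLinear (Fin n) F) (Cfsg.Geo.subspaceStabilizer W ⊓ (Cfsg.GU n F q ⊓ Cfsg.Geo.specialLinear (Fin n) F)) := by
  classical
  obtain ⟨Φ⟩ := Cfsg.Agent.Helper16.exists_Frob hF
  apply Cfsg.Agent.Helper6.maximal_of_core_su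
  · exact exists_not_stab hF Φ W hW0 hW
  · intro M hH hex
    exact core_ts hF Φ hn W hW M hH hex

end Cfsg.Agent.S5653
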