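import Mathlib
import Cfsg.Statements.S5654
import Cfsg.Agent.Helper6.UnitMax
import Cfsg.Agent.S5643
import Cfsg.Agent.S5653

set_option autoImplicit false
open Cfsg

namespace Cfsg.Agent.S5654

open Matrix Cfsg.Agent.Helper3 Cfsg.Agent.Helper16 Cfsg.Agent.Helper6 Cfsg.Agent.S5643
  Cfsg.Agent.S5653

section geo

variable {F : Type*} [Field F] [Fintype F] {n q : ℕ}

/-- the orthogonal complement of a subspace for the hermitian form, with its dimension -/
theorem exists_uperp (Φ : Frob F q) (X : Submodule F (Fin n → F)) :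
    ∃ U : Submodule F (Fin n → F),
      (∀ x, x ∈ U ↔ ∀ y ∈ X, Cfsg.hermForm n F q x y = 0) ∧
      Module.finrank F U + Module.finrank F X = n := by
  classical
  obtain ⟨m, hm⟩ : ∃ m, m = Module.finrank F X := ⟨_, rfl⟩
  have b : Module.Basis (Fin m) F X := Module.finBasisOfFinrankEq F X hm.symm
  obtain ⟨T, hT⟩ : ∃ T : (Fin n → F) →ₗ[F] (Fin m → F),
      ∀ x j, T x j = Cfsg.hermForm n F q x (b j : Fin n → F) :=
    ⟨LinearMap.pi (fun j => hL n q (b j : Fin n → F)), fun x j => rfl⟩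
  have hsurj : LinearMap.range T = ⊤ := by
    by_contra hne
    obtain ⟨f, hf0, hfle⟩ := Submodule.exists_le_ker_of_lt_top _ (lt_top_iff_ne_top.mpr hne)
    have h1 : ∀ x, f (T x) = 0 := fun x =>
      LinearMap.mem_ker.mp (hfle (LinearMap.mem_range_self T x))
    obtain ⟨cf, hcf⟩ : ∃ cf : Fin m → F, ∀ j, cf j = f (fun k => if j = k then 1 else 0) :=
      ⟨_, fun j => rfl⟩
    have h2 : ∀ v : Fin m → F, f v = ∑ j, v j * cf j := by
      intro v
      rw [LinearMap.pi_apply_eq_sum_univ f v]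
      refine Finset.sum_congr rfl (fun j _ => ?_)
      rw [smul_eq_mul, hcf]
    obtain ⟨w, hw⟩ : ∃ w : X, w = ∑ j, Φ.φ (cf j) • b j := ⟨_, rfl⟩
    have h3 : ∀ x, Cfsg.hermForm n F q (w : Fin n → F) x = 0 := by
      intro x
      have e0 : (w : Fin n → F) = ∑ j, Φ.φ (cf j) • (b j : Fin n → F) := by
        rw [hw]
        simp
      have e1 : Cfsg.hermForm n F q (w : Fin n → F) x
          = ∑ j, Φ.φ (cf j) * Cfsg.hermForm n F q (b j : Fin n → F) x := by
        rw [e0, ← hL_apply, map_sum]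
        simp only [map_smul, hL_apply, smul_eq_mul]
      rw [e1]
      have e2 : ∑ j, Φ.φ (cf j) * Cfsg.hermForm n F q (b j : Fin n → F) x = Φ.φ (f (T x)) := by
        rw [h2, map_sum]
        refine Finset.sum_congr rfl (fun j _ => ?_)
        rw [map_mul, hT, uherm_conj Φ, mul_comm]
      rw [e2, h1, map_zero]
    have hw0 : (w : Fin n → F) = 0 := um_nondeg Φ _ (fun v => um_symm Φ _ _ (h3 v))
    have hw0' : w = 0 := Subtype.ext hw0
    rw [hw] at hw0'
    have h4 := Fintype.linearIndependent_iff.mp b.linearIndependent _ hw0'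
    apply hf0
    apply LinearMap.ext
    intro v
    rw [h2, LinearMap.zero_apply]
    apply Finset.sum_eq_zero
    intro j _
    have h5 := h4 j
    rw [map_eq_zero] at h5
    rw [h5, mul_zero]
  refine ⟨LinearMap.ker T, ?_, ?_⟩
  · intro x
    rw [LinearMap.mem_ker]
    constructor
    · intro hx y hy
      have hx' : ∀ j, Cfsg.hermForm n F q x (b j : Fin n → F) = 0 := by
        intro j
        rw [← hT, hx]
        rfl
      apply um_symm Φ
      have e0 : y = ∑ j, b.repr ⟨y, hy⟩ j • (b j : Fin n → F) := by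
        have h1 : ((∑ j, b.repr ⟨y, hy⟩ j • b j : X) : Fin n → F) = y := by
          rw [b.sum_repr]
        exact h1.symm.trans (by simp only [Submodule.coe_sum, Submodule.coe_smul])
      rw [e0, ← hL_apply, map_sum]
      apply Finset.sum_eq_zero
      intro j _
      rw [map_smul, hL_apply, um_symm Φ _ _ (hx' j), smul_zero]
    · intro hx
      funext j
      rw [hT]
      exact hx _ (b j).2
  · have h5 := LinearMap.finrank_range_add_finrank_ker T
    rw [hsurj, finrank_top, Module.finrank_fin_fun, Module.finrank_fin_fun] at h5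
    omega

/-- an orthogonal splitting `F^n = W ⊕ U` with `U` large -/
structure USplit (q : ℕ) (W U : Submodule F (Fin n → F)) : Prop where
  perp : ∀ x, x ∈ U ↔ ∀ y ∈ W, Cfsg.hermForm n F q x y = 0
  fr : Module.finrank F U + Module.finrank F W = n
  disj : ∀ a, a ∈ W → a ∈ U → a = 0
  dec : ∀ v, ∃ a ∈ W, ∃ b ∈ U, a + b = v
  big : 7 ≤ Module.finrank F U

theorem nd_split (Φ : Frob F q) (W : Submodule F (Fin n → F))
    (hW : Cfsg.Geo.IsNondegenerateOn (Cfsg.hermForm n F q) W) :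
    ∃ U : Submodule F (Fin n → F),
      (∀ x, x ∈ U ↔ ∀ y ∈ W, Cfsg.hermForm n F q x y = 0) ∧
      Module.finrank F U + Module.finrank F W = n ∧
      (∀ a, a ∈ W → a ∈ U → a = 0) ∧ (∀ v, ∃ a ∈ W, ∃ b ∈ U, a + b = v) := by
  obtain ⟨U, hU, hfr⟩ := exists_uperp Φ W
  have hdisj : ∀ a, a ∈ W → a ∈ U → a = 0 := by
    intro a haW haU
    by_contra ha0
    obtain ⟨-, x, hx, hax⟩ := hW a haW ha0
    exact hax ((hU a).mp haU x hx)
  refine ⟨U, hU, hfr, hdisj, ?_⟩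
  have hinf : W ⊓ U = ⊥ := by
    rw [eq_bot_iff]
    intro a ha
    rw [Submodule.mem_bot]
    exact hdisj a ha.1 ha.2
  have h1 := Submodule.finrank_sup_add_finrank_inf_eq W U
  rw [hinf, finrank_bot, add_zero] at h1
  have htop : W ⊔ U = ⊤ := by
    apply Submodule.eq_top_of_finrank_eq
    rw [h1, Module.finrank_fin_fun]
    omega
  intro v
  have : v ∈ W ⊔ U := by rw [htop]; trivial
  exact Submodule.mem_sup.mp this

theorem usplit_noniso (hF : Fintype.card F = q ^ 2) (Φ : Frob F q)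
    {W U : Submodule F (Fin n → F)} (L : USplit q W U)
    (K : Submodule F (Fin n → F)) (hKU : K ≤ U)
    (hK : Module.finrank F U < 2 * Module.finrank F K) :
    ∃ t ∈ K, Cfsg.hermForm n F q t t ≠ 0 := by
  by_contra hcon
  push Not at hcon
  have hti := ti_of_all_iso hF Φ K hcon
  obtain ⟨P, hP, hPfr⟩ := exists_uperp Φ (K ⊔ W)
  have hKP : K ≤ P := by
    intro x hx
    rw [hP]
    intro y hy
    obtain ⟨y₁, hy₁, y₂, hy₂, rfl⟩ := Submodule.mem_sup.mp hy
    rw [uherm_add_right Φ, hti x hx y₁ hy₁, (L.perp x).mp (hKU hx) y₂ hy₂, add_zero]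
  have hinf : K ⊓ W = ⊥ := by
    rw [eq_bot_iff]
    intro a ha
    rw [Submodule.mem_bot]
    exact L.disj a ha.2 (hKU ha.1)
  have h1 := Submodule.finrank_sup_add_finrank_inf_eq K W
  rw [hinf, finrank_bot, add_zero] at h1
  have h2 := Submodule.finrank_mono hKP
  have h3 := L.fr
  omega

/-- a vector of `U` of prescribed norm orthogonal to three given vectors -/
theorem usplit_perp3 (hF : Fintype.card F = q ^ 2) (Φ : Frob F q)
    {W U : Submodule F (Fin n → F)} (L : USplit q W U)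
    (a₁ a₂ a₃ : Fin n → F) (r : F) (hr : Φ.φ r = r) :
    ∃ t ∈ U, Cfsg.hermForm n F q t a₁ = 0 ∧ Cfsg.hermForm n F q t a₂ = 0 ∧
      Cfsg.hermForm n F q t a₃ = 0 ∧ Cfsg.hermForm n F q t t = r := by
  by_cases hr0 : r = 0
  · exact ⟨0, U.zero_mem, uherm_zero_left _, uherm_zero_left _, uherm_zero_left _, by
      rw [uherm_zero_left, hr0]⟩
  · have h1 := ucut_finrank (q := q) U a₁
    have h2 := ucut_finrank (q := q) (ucut q U a₁) a₂
    have h3 := ucut_finrank (q := q) (ucut q (ucut q U a₁) a₂) a₃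
    have h7 := L.big
    obtain ⟨t₀, ht₀, hN⟩ := usplit_noniso hF Φ L (ucut q (ucut q (ucut q U a₁) a₂) a₃)
      (fun x hx => by
        rw [mem_ucut, mem_ucut, mem_ucut] at hx
        exact hx.1.1.1) (by omega)
    rw [mem_ucut, mem_ucut, mem_ucut] at ht₀
    obtain ⟨⟨⟨hU, k1⟩, k2⟩, k3⟩ := ht₀
    have hν : Φ.φ (Cfsg.hermForm n F q t₀ t₀) = Cfsg.hermForm n F q t₀ t₀ := uherm_conj Φ t₀ t₀
    obtain ⟨μ, hμ⟩ := exists_unorm hF Φ (r / Cfsg.hermForm n F q t₀ t₀) (div_ne_zero hr0 hN)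
      (by rw [map_div₀, hr, hν])
    refine ⟨μ • t₀, U.smul_mem μ hU, ?_, ?_, ?_, ?_⟩
    · rw [uherm_smul_left, k1, mul_zero]
    · rw [uherm_smul_left, k2, mul_zero]
    · rw [uherm_smul_left, k3, mul_zero]
    · rw [uherm_smul_left, uherm_smul_right Φ, ← mul_assoc, hμ, div_mul_cancel₀ _ hN]

/-- projection to `U` keeps the pairings with `U` -/
theorem usplit_proj (Φ : Frob F q) {W U : Submodule F (Fin n → F)} (L : USplit q W U)
    (y : Fin n → F) :
    ∃ x ∈ U, ∀ b ∈ U, Cfsg.hermForm n F q x b = Cfsg.hermForm n F q y b := by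
  obtain ⟨a, ha, x, hx, rfl⟩ := L.dec y
  refine ⟨x, hx, fun b hb => ?_⟩
  rw [uherm_add_left, um_symm Φ _ _ ((L.perp b).mp hb a ha), zero_add]

/-- an isotropic vector of `U` with the same pairings as `y₀` against two vectors of `U` -/
theorem usplit_iso_like (hF : Fintype.card F = q ^ 2) (Φ : Frob F q)
    {W U : Submodule F (Fin n → F)} (L : USplit q W U) (y₀ b₁ b₂ : Fin n → F)
    (hb₁ : b₁ ∈ U) (hb₂ : b₂ ∈ U) :
    ∃ x ∈ U, Cfsg.hermForm n F q x x = 0 ∧
      Cfsg.hermForm n F q x b₁ = Cfsg.hermForm n F q y₀ b₁ ∧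
      Cfsg.hermForm n F q x b₂ = Cfsg.hermForm n F q y₀ b₂ := by
  obtain ⟨x₀, hx₀U, hx₀⟩ := usplit_proj Φ L y₀
  have hNx₀ : Φ.φ (Cfsg.hermForm n F q x₀ x₀) = Cfsg.hermForm n F q x₀ x₀ := uherm_conj Φ x₀ x₀
  obtain ⟨s, hsU, hs1, hs2, hs3, hsN⟩ := usplit_perp3 hF Φ L b₁ b₂ x₀
    (-(Cfsg.hermForm n F q x₀ x₀)) (by rw [map_neg, hNx₀])
  refine ⟨x₀ + s, U.add_mem hx₀U hsU, ?_, ?_, ?_⟩
  · rw [uherm_add_left, uherm_add_right Φ, uherm_add_right Φ, hsN, hs3, um_symm Φ _ _ hs3]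
    ring
  · rw [uherm_add_left, hs1, add_zero, hx₀ b₁ hb₁]
  · rw [uherm_add_left, hs2, add_zero, hx₀ b₂ hb₂]

/-- a nonzero isotropic vector of `U` orthogonal to and independent of `b` -/
theorem usplit_iso (hF : Fintype.card F = q ^ 2) (Φ : Frob F q)
    {W U : Submodule F (Fin n → F)} (L : USplit q W U) (b : Fin n → F) :
    ∃ z ∈ U, Cfsg.hermForm n F q z z = 0 ∧ Cfsg.hermForm n F q z b = 0 ∧ ∀ c : F, z ≠ c • b := by
  obtain ⟨u₁, hu₁U, hu₁b, -, -, hu₁N⟩ := usplit_perp3 hF Φ L b 0 0 1 (map_one _)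
  obtain ⟨u₂, hu₂U, hu₂b, hu₂u₁, -, hu₂N⟩ := usplit_perp3 hF Φ L b u₁ 0 (-1)
    (by rw [map_neg, map_one])
  refine ⟨u₁ + u₂, U.add_mem hu₁U hu₂U, ?_, ?_, ?_⟩
  · rw [uherm_add_left, uherm_add_right Φ, uherm_add_right Φ, hu₁N, hu₂N, hu₂u₁,
      um_symm Φ _ _ hu₂u₁]
    ring
  · rw [uherm_add_left, hu₁b, hu₂b, add_zero]
  · intro c hc
    have h1 : Cfsg.hermForm n F q (u₁ + u₂) u₁ = 1 := by
      rw [uherm_add_left, hu₁N, hu₂u₁, add_zero]
    rw [hc, uherm_smul_left, um_symm Φ _ _ hu₁b, mul_zero] at h1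
    exact zero_ne_one h1

/-- a nonzero vector of `U` of prescribed norm -/
theorem usplit_norm (hF : Fintype.card F = q ^ 2) (Φ : Frob F q)
    {W U : Submodule F (Fin n → F)} (L : USplit q W U) (ν : F) (hν : Φ.φ ν = ν) :
    ∃ b ∈ U, b ≠ 0 ∧ Cfsg.hermForm n F q b b = ν := by
  by_cases hν0 : ν = 0
  · obtain ⟨z, hzU, hzN, -, hzind⟩ := usplit_iso hF Φ L (0 : Fin n → F)
    refine ⟨z, hzU, fun h0 => hzind 0 (by rw [smul_zero]; exact h0), ?_⟩
    rw [hzN, hν0]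
  · obtain ⟨t, htU, -, -, -, htN⟩ := usplit_perp3 hF Φ L 0 0 0 ν hν
    refine ⟨t, htU, ?_, htN⟩
    rintro rfl
    rw [uherm_zero_left] at htN
    exact hν0 htN.symm

theorem exists_val_u (Φ : Frob F q) (b : Fin n → F) (hb : b ≠ 0) (θ : F) :
    ∃ y, Cfsg.hermForm n F q y b = θ := by
  obtain ⟨v, hv⟩ := um_nondeg' Φ b hb
  have hv' : Cfsg.hermForm n F q v b ≠ 0 := um_ne_symm Φ _ _ hv
  refine ⟨(θ / Cfsg.hermForm n F q v b) • v, ?_⟩
  rw [uherm_smul_left, div_mul_cancel₀ _ hv']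

/-- shifting along an isotropic vector to an isotropic vector -/
theorem iso_shift (hF : Fintype.card F = q ^ 2) (Φ : Frob F q) (u x : Fin n → F)
    (hx : Cfsg.hermForm n F q x x = 0) (hux : Cfsg.hermForm n F q u x ≠ 0) :
    ∃ l : F, Cfsg.hermForm n F q (u - l • x) (u - l • x) = 0 := by
  obtain ⟨e₀, he₀⟩ := exists_tr_one hF Φ
  have hN : Φ.φ (Cfsg.hermForm n F q u u) = Cfsg.hermForm n F q u u := uherm_conj Φ u u
  have hxu : Cfsg.hermForm n F q x u = Φ.φ (Cfsg.hermForm n F q u x) := (uherm_conj Φ _ _).symm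
  refine ⟨Φ.φ (Cfsg.hermForm n F q u u * e₀ / Cfsg.hermForm n F q u x), ?_⟩
  simp only [uherm_sub_left, uherm_sub_right Φ, uherm_smul_left, uherm_smul_right Φ, hx, hxu,
    Φ.hφ2]
  have e1 : Cfsg.hermForm n F q u u * e₀ / Cfsg.hermForm n F q u x * Cfsg.hermForm n F q u x
      = Cfsg.hermForm n F q u u * e₀ := div_mul_cancel₀ _ hux
  have e2 : Φ.φ (Cfsg.hermForm n F q u u * e₀ / Cfsg.hermForm n F q u x)
      * Φ.φ (Cfsg.hermForm n F q u x) = Cfsg.hermForm n F q u u * Φ.φ e₀ := by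
    rw [← map_mul, e1, map_mul, hN]
  linear_combination -e1 - e2 - Cfsg.hermForm n F q u u * he₀

/-- every vector of `U` is a sum of two isotropic vectors of `U` -/
theorem usplit_span (hF : Fintype.card F = q ^ 2) (Φ : Frob F q)
    {W U : Submodule F (Fin n → F)} (L : USplit q W U) (u : Fin n → F) (hu : u ∈ U) :
    ∃ x₁ ∈ U, Cfsg.hermForm n F q x₁ x₁ = 0 ∧ ∃ x₂ ∈ U, Cfsg.hermForm n F q x₂ x₂ = 0 ∧
      x₁ + x₂ = u := by
  by_cases hu0 : u = 0
  · exact ⟨0, U.zero_mem, uherm_zero_left _, 0, U.zero_mem, uherm_zero_left _, by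
      rw [hu0, add_zero]⟩
  · obtain ⟨y₀, hy₀⟩ := exists_val_u Φ u hu0 1
    obtain ⟨x, hxU, hxN, hxu, -⟩ := usplit_iso_like hF Φ L y₀ u u hu hu
    rw [hy₀] at hxu
    have hux : Cfsg.hermForm n F q u x ≠ 0 := by
      rw [← uherm_conj Φ x u, hxu, map_one]
      exact one_ne_zero
    obtain ⟨l, hl⟩ := iso_shift hF Φ u x hxN hux
    refine ⟨u - l • x, U.sub_mem hu (U.smul_mem l hxU), hl, l • x, U.smul_mem l hxU, ?_, ?_⟩
    · rw [uherm_smul_left, uherm_smul_right Φ, hxN, mul_zero, mul_zero]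
    · abel

/-- an isotropic vector of `U` non-orthogonal to two given nonzero vectors of `U` -/
theorem usplit_iso_nonorth (hF : Fintype.card F = q ^ 2) (Φ : Frob F q)
    {W U : Submodule F (Fin n → F)} (L : USplit q W U) (y₁ y : Fin n → F)
    (hy₁U : y₁ ∈ U) (hyU : y ∈ U) (hy₁0 : y₁ ≠ 0) (hy0 : y ≠ 0) :
    ∃ y₃ ∈ U, Cfsg.hermForm n F q y₃ y₃ = 0 ∧ Cfsg.hermForm n F q y₃ y₁ ≠ 0 ∧
      Cfsg.hermForm n F q y₃ y ≠ 0 := by
  by_cases hind : ∀ c : F, y ≠ c • y₁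
  · obtain ⟨y₀, h1, h2⟩ := exists_two_vals Φ y₁ y hy₁0 hind 1 1
    obtain ⟨x, hxU, hxN, hx1, hx2⟩ := usplit_iso_like hF Φ L y₀ y₁ y hy₁U hyU
    refine ⟨x, hxU, hxN, ?_, ?_⟩
    · rw [hx1, h1]; exact one_ne_zero
    · rw [hx2, h2]; exact one_ne_zero
  · push Not at hind
    obtain ⟨c, hc⟩ := hind
    have hc0 : c ≠ 0 := by
      rintro rfl
      rw [zero_smul] at hc
      exact hy0 hc
    obtain ⟨y₀, h1⟩ := exists_val_u Φ y₁ hy₁0 1
    obtain ⟨x, hxU, hxN, hx1, -⟩ := usplit_iso_like hF Φ L y₀ y₁ y₁ hy₁U hy₁U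
    rw [h1] at hx1
    refine ⟨x, hxU, hxN, ?_, ?_⟩
    · rw [hx1]; exact one_ne_zero
    · rw [hc, uherm_smul_right Φ, hx1, mul_one]
      exact (map_ne_zero Φ.φ).mpr hc0

end geo

section core

variable {F : Type*} [Field F] [Fintype F] {n q : ℕ}

theorem skew_inv (Φ : Frob F q) (c : F) (hc : c + Φ.φ c = 0) : c⁻¹ + Φ.φ c⁻¹ = 0 := by
  have hφ : Φ.φ c = -c := by linear_combination hc
  rw [map_inv₀, hφ, inv_neg, add_neg_cancel]

theorem core_ndu (hF : Fintype.card F = q ^ 2) (Φ : Frob F q) (hn : 13 ≤ n)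
    (W : Submodule F (Fin n → F))
    (hW : Cfsg.Geo.IsNondegenerateOn (Cfsg.hermForm n F q) W)
    (hdim : 2 * Module.finrank F W < n)
    (M : Subgroup ↥(Cfsg.SU n F q))
    (hH : ∀ A : ↥(Cfsg.SU n F q),
      Matrix.SpecialLinearGroup.toGL (A : Matrix.SpecialLinearGroup (Fin n) F) ∈
        Cfsg.Geo.subspaceStabilizer W → A ∈ M)
    (hex : ∃ A ∈ M, Matrix.SpecialLinearGroup.toGL (A : Matrix.SpecialLinearGroup (Fin n) F) ∉
        Cfsg.Geo.subspaceStabilizer W) : M = ⊤ := by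
  classical
  obtain ⟨U, hUp, hfr, hdisj, hdec⟩ := nd_split Φ W hW
  have L : USplit q W U := ⟨hUp, hfr, hdisj, hdec, by omega⟩
  have hUW : ∀ b ∈ U, ∀ a ∈ W, Cfsg.hermForm n F q b a = 0 := fun b hb a ha =>
    (hUp b).mp hb a ha
  have hWU : ∀ a ∈ W, ∀ b ∈ U, Cfsg.hermForm n F q a b = 0 := fun a ha b hb =>
    um_symm Φ _ _ (hUW b hb a ha)
  -- isotropic vectors of `W` and of `U` are directions
  have SW : ∀ y ∈ W, Cfsg.hermForm n F q y y = 0 → y ∈ udirs Φ M := by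
    intro y hyW hy
    refine ⟨hy, fun c hc t ht => hH t (mem_stab_of_le t W (fun x hx => ?_))⟩
    rw [ht x]
    exact W.add_mem hx (W.smul_mem _ hyW)
  have SU' : ∀ y ∈ U, Cfsg.hermForm n F q y y = 0 → y ∈ udirs Φ M := by
    intro y hyU hy
    refine ⟨hy, fun c hc t ht => hH t (mem_stab_of_le t W (fun x hx => ?_))⟩
    rw [ht x, hWU x hx y hyU, mul_zero, zero_smul, add_zero]
    exact hx
  obtain ⟨d₀, hd₀0, hd₀⟩ := exists_skew hF Φ
  have hφd₀ : Φ.φ d₀ = -d₀ := by linear_combination hd₀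
  -- Claim 1a: moving the `U`-component to an independent vector of the same norm
  have U1 : ∀ a ∈ W, ∀ b₀ ∈ U, ∀ b ∈ U, a + b₀ ∈ udirs Φ M →
      Cfsg.hermForm n F q b b = Cfsg.hermForm n F q b₀ b₀ → b₀ ≠ 0 → (∀ c : F, b ≠ c • b₀) →
      a + b ∈ udirs Φ M := by
    intro a ha b₀ hb₀ b hb hin hN hb₀0 hind
    obtain ⟨d, hd⟩ : ∃ d, d = b - b₀ := ⟨_, rfl⟩
    have hdU : d ∈ U := by rw [hd]; exact U.sub_mem hb hb₀
    have hdind : ∀ c : F, d ≠ c • b₀ := by
      intro c hc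
      apply hind (c + 1)
      rw [add_smul, one_smul, ← hc, hd]
      abel
    obtain ⟨t, ht⟩ : ∃ t, t = Cfsg.hermForm n F q b₀ d := ⟨_, rfl⟩
    have hdb₀ : Cfsg.hermForm n F q d b₀ = Φ.φ t := by rw [ht, uherm_conj Φ]
    have htr : t + Φ.φ t = -(Cfsg.hermForm n F q d d) := by
      have e : b = b₀ + d := by rw [hd]; abel
      rw [e] at hN
      simp only [uherm_add_left, uherm_add_right Φ] at hN
      rw [← ht, hdb₀] at hN
      linear_combination hN
    obtain ⟨σ, hσ⟩ : ∃ σ, σ = if d₀ = t - Φ.φ t then d₀ else 0 := ⟨_, rfl⟩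
    have hσtr : σ + Φ.φ σ = 0 := by
      rw [hσ]
      split_ifs
      · exact hd₀
      · rw [map_zero, add_zero]
    have hσne : σ ≠ d₀ - (t - Φ.φ t) := by
      rw [hσ]
      split_ifs with hc
      · rw [← hc, sub_self]
        exact hd₀0
      · intro h0
        exact hc (by linear_combination -h0)
    obtain ⟨ξ, hξ⟩ : ∃ ξ, ξ = -Φ.φ t + σ := ⟨_, rfl⟩
    obtain ⟨y₀, hy1, hy2⟩ := exists_two_vals Φ b₀ d hb₀0 hdind (-d₀) ξ
    obtain ⟨x, hxU, hxN, hxb₀, hxd⟩ := usplit_iso_like hF Φ L y₀ b₀ d hb₀ hdU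
    rw [hy1] at hxb₀
    rw [hy2] at hxd
    have hb₀x : Cfsg.hermForm n F q b₀ x = d₀ := by
      rw [← uherm_conj Φ x b₀, hxb₀, map_neg, hφd₀, neg_neg]
    have hdx : Cfsg.hermForm n F q d x = Φ.φ ξ := by rw [← uherm_conj Φ x d, hxd]
    have hax : Cfsg.hermForm n F q a x = 0 := hWU a ha x hxU
    have h1 := udirs_move Φ M x (a + b₀) (SU' x hxU hxN) hin d₀⁻¹ (skew_inv Φ d₀ hd₀)
    have e1 : a + b₀ + (d₀⁻¹ * Cfsg.hermForm n F q (a + b₀) x) • x = a + (b₀ + x) := by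
      rw [uherm_add_left, hax, hb₀x, zero_add, inv_mul_cancel₀ hd₀0, one_smul]
      abel
    rw [e1] at h1
    obtain ⟨d', hd'⟩ : ∃ d', d' = d - x := ⟨_, rfl⟩
    have hd'U : d' ∈ U := by rw [hd']; exact U.sub_mem hdU hxU
    have hξtr : ξ + Φ.φ ξ = Cfsg.hermForm n F q d d := by
      rw [hξ, map_add, map_neg, Φ.hφ2]
      linear_combination -htr + hσtr
    have hd'N : Cfsg.hermForm n F q d' d' = 0 := by
      rw [hd']
      simp only [uherm_sub_left, uherm_sub_right Φ, hxN, hxd, hdx]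
      linear_combination -hξtr
    obtain ⟨t₂, ht₂⟩ : ∃ t₂, t₂ = t - d₀ + ξ := ⟨_, rfl⟩
    have ht₂0 : t₂ ≠ 0 := by
      rw [ht₂, hξ]
      intro h0
      apply hσne
      linear_combination h0
    have ht₂tr : t₂ + Φ.φ t₂ = 0 := by
      rw [ht₂, hξ]
      simp only [map_add, map_sub, map_neg, Φ.hφ2, hφd₀]
      linear_combination hσtr
    have hb1d' : Cfsg.hermForm n F q (a + (b₀ + x)) d' = t₂ := by
      rw [hd']
      simp only [uherm_add_left, uherm_sub_right Φ, hax, hb₀x, hxN, hxd, ← ht]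
      rw [hWU a ha d hdU, ht₂]
      ring
    have h2 := udirs_move Φ M d' (a + (b₀ + x)) (SU' d' hd'U hd'N) h1 t₂⁻¹
      (skew_inv Φ t₂ ht₂tr)
    have e2 : a + (b₀ + x) + (t₂⁻¹ * Cfsg.hermForm n F q (a + (b₀ + x)) d') • d' = a + b := by
      rw [hb1d', inv_mul_cancel₀ ht₂0, one_smul, hd', hd]
      abel
    rw [e2] at h2
    exact h2
  -- Claim 1: moving the `U`-component to any nonzero vector of the same norm
  have U2 : ∀ a ∈ W, ∀ b₀ ∈ U, ∀ b ∈ U, a + b₀ ∈ udirs Φ M →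
      Cfsg.hermForm n F q b b = Cfsg.hermForm n F q b₀ b₀ → b₀ ≠ 0 → b ≠ 0 →
      a + b ∈ udirs Φ M := by
    intro a ha b₀ hb₀ b hb hin hN hb₀0 hb0
    by_cases hind : ∀ c : F, b ≠ c • b₀
    · exact U1 a ha b₀ hb₀ b hb hin hN hb₀0 hind
    · push Not at hind
      obtain ⟨μ, hμ⟩ := hind
      obtain ⟨z, hzU, hzN, hzb, hzind⟩ := usplit_iso hF Φ L b₀
      have hb₀z : Cfsg.hermForm n F q b₀ z = 0 := um_symm Φ _ _ hzb
      have hNz : Cfsg.hermForm n F q (b₀ + z) (b₀ + z) = Cfsg.hermForm n F q b₀ b₀ := by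
        rw [uherm_add_left, uherm_add_right Φ, uherm_add_right Φ, hzN, hzb, hb₀z]
        ring
      have h1 : a + (b₀ + z) ∈ udirs Φ M := by
        apply U1 a ha b₀ hb₀ (b₀ + z) (U.add_mem hb₀ hzU) hin hNz hb₀0
        intro c hc
        apply hzind (c - 1)
        rw [sub_smul, one_smul, ← hc]
        abel
      apply U1 a ha (b₀ + z) (U.add_mem hb₀ hzU) b hb h1
      · rw [hN, hNz]
      · intro h0
        apply hzind (-1)
        rw [neg_smul, one_smul]
        exact eq_neg_of_add_eq_zero_right h0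
      · intro c hc
        by_cases hc0 : c = 0
        · rw [hc0, zero_smul] at hc
          exact hb0 hc
        · apply hzind ((μ - c) / c)
          have e : c • z = (μ - c) • b₀ := by
            rw [sub_smul, ← hμ, hc]
            module
          rw [div_eq_inv_mul, mul_smul, ← e, smul_smul, inv_mul_cancel₀ hc0, one_smul]
  -- the set `A` of good `W`-components is closed under addition
  have AddA : ∀ a ∈ W, ∀ a' ∈ W, (∃ b ∈ U, b ≠ 0 ∧ a + b ∈ udirs Φ M) →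
      (∃ b ∈ U, b ≠ 0 ∧ a' + b ∈ udirs Φ M) → ∃ b ∈ U, b ≠ 0 ∧ (a + a') + b ∈ udirs Φ M := by
    intro a ha a' ha' ⟨b₁, hb₁U, hb₁0, hab₁⟩ ⟨b₁', hb₁'U, hb₁'0, hab₁'⟩
    have hNa : Cfsg.hermForm n F q b₁ b₁ = -(Cfsg.hermForm n F q a a) := by
      have h0 := hab₁.1
      rw [uherm_add_left, uherm_add_right Φ, uherm_add_right Φ, hWU a ha b₁ hb₁U,
        hUW b₁ hb₁U a ha] at h0
      linear_combination h0
    have hNa' : Cfsg.hermForm n F q b₁' b₁' = -(Cfsg.hermForm n F q a' a') := by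
      have h0 := hab₁'.1
      rw [uherm_add_left, uherm_add_right Φ, uherm_add_right Φ, hWU a' ha' b₁' hb₁'U,
        hUW b₁' hb₁'U a' ha'] at h0
      linear_combination h0
    obtain ⟨θ, hθ⟩ : ∃ θ, θ = d₀ - Cfsg.hermForm n F q a' a := ⟨_, rfl⟩
    obtain ⟨y₀, hy₀⟩ := exists_val_u Φ b₁ hb₁0 θ
    obtain ⟨x₀, hx₀U, hx₀⟩ := usplit_proj Φ L y₀
    have hx₀b : Cfsg.hermForm n F q x₀ b₁ = θ := by rw [hx₀ b₁ hb₁U, hy₀]
    have hNx₀ : Φ.φ (Cfsg.hermForm n F q x₀ x₀) = Cfsg.hermForm n F q x₀ x₀ := uherm_conj Φ x₀ x₀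
    have hNa'' : Φ.φ (Cfsg.hermForm n F q a' a') = Cfsg.hermForm n F q a' a' := uherm_conj Φ a' a'
    obtain ⟨s, hsU, hs1, hs2, -, hsN⟩ := usplit_perp3 hF Φ L b₁ x₀ 0
      (-(Cfsg.hermForm n F q a' a') - Cfsg.hermForm n F q x₀ x₀)
      (by rw [map_sub, map_neg, hNx₀, hNa''])
    have e1 : Cfsg.hermForm n F q (x₀ + s) (x₀ + s) = -(Cfsg.hermForm n F q a' a') := by
      rw [uherm_add_left, uherm_add_right Φ, uherm_add_right Φ, hsN, hs2, um_symm Φ _ _ hs2]
      ring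
    have e1' : Cfsg.hermForm n F q (x₀ + s) b₁ = θ := by
      rw [uherm_add_left, hx₀b, hs1, add_zero]
    obtain ⟨z, hzU, hzN, hzb, hzind⟩ := usplit_iso hF Φ L b₁
    obtain ⟨b', hb'U, hb'N, hb'b, hb'ind⟩ : ∃ b' ∈ U,
        Cfsg.hermForm n F q b' b' = -(Cfsg.hermForm n F q a' a') ∧
        Cfsg.hermForm n F q b' b₁ = θ ∧ ∀ c : F, b' ≠ c • b₁ := by
      by_cases hdep : ∀ c : F, x₀ + s ≠ c • b₁
      · exact ⟨x₀ + s, U.add_mem hx₀U hsU, e1, e1', hdep⟩
      · push Not at hdep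
        obtain ⟨c₀, hc₀⟩ := hdep
        have e2 : Cfsg.hermForm n F q (x₀ + s) z = 0 := by
          rw [hc₀, uherm_smul_left, um_symm Φ _ _ hzb, mul_zero]
        have e3 : Cfsg.hermForm n F q z (x₀ + s) = 0 := um_symm Φ _ _ e2
        refine ⟨x₀ + s + z, U.add_mem (U.add_mem hx₀U hsU) hzU, ?_, ?_, ?_⟩
        · have e4 : Cfsg.hermForm n F q (x₀ + s + z) (x₀ + s + z)
              = Cfsg.hermForm n F q (x₀ + s) (x₀ + s) + Cfsg.hermForm n F q (x₀ + s) z
                + (Cfsg.hermForm n F q z (x₀ + s) + Cfsg.hermForm n F q z z) := by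
            rw [uherm_add_left, uherm_add_right Φ (x₀ + s) (x₀ + s) z,
              uherm_add_right Φ z (x₀ + s) z]
          rw [e4, e1, e2, e3, hzN]
          ring
        · rw [uherm_add_left, e1', hzb, add_zero]
        · intro c hc
          apply hzind (c - c₀)
          rw [sub_smul, ← hc, ← hc₀]
          abel
    have hb'0 : b' ≠ 0 := by
      intro h0
      apply hb'ind 0
      rw [zero_smul]
      exact h0
    have hab' : a' + b' ∈ udirs Φ M := by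
      apply U2 a' ha' b₁' hb₁'U b' hb'U hab₁' _ hb₁'0 hb'0
      rw [hb'N, hNa']
    have hη : Cfsg.hermForm n F q (a' + b') (a + b₁) = d₀ := by
      simp only [uherm_add_left, uherm_add_right Φ]
      rw [hWU a' ha' b₁ hb₁U, hUW b' hb'U a ha, hb'b, hθ]
      ring
    have h3 := udirs_move Φ M (a + b₁) (a' + b') hab₁ hab' d₀⁻¹ (skew_inv Φ d₀ hd₀)
    rw [hη, inv_mul_cancel₀ hd₀0, one_smul] at h3
    refine ⟨b₁ + b', U.add_mem hb₁U hb'U, ?_, ?_⟩
    · intro h0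
      apply hb'ind (-1)
      rw [neg_smul, one_smul]
      exact eq_neg_of_add_eq_zero_right h0
    · have e : a' + b' + (a + b₁) = a + a' + (b₁ + b') := by abel
      rw [← e]
      exact h3
  -- and under scalars
  have Asmul : ∀ a ∈ W, (∃ b ∈ U, b ≠ 0 ∧ a + b ∈ udirs Φ M) → ∀ l : F,
      ∃ b ∈ U, b ≠ 0 ∧ l • a + b ∈ udirs Φ M := by
    intro a ha ⟨b, hbU, hb0, hab⟩ l
    by_cases hl : l = 0
    · obtain ⟨z, hzU, hzN, -, hzind⟩ := usplit_iso hF Φ L (0 : Fin n → F)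
      refine ⟨z, hzU, fun h0 => hzind 0 (by rw [smul_zero]; exact h0), ?_⟩
      rw [hl, zero_smul, zero_add]
      exact SU' z hzU hzN
    · refine ⟨l • b, U.smul_mem l hbU, smul_ne_zero hl hb0, ?_⟩
      rw [← smul_add]
      exact udirs_smul Φ M _ hab l
  -- transvections of `W`
  have TA : ∀ a ∈ W, (∃ b ∈ U, b ≠ 0 ∧ a + b ∈ udirs Φ M) → ∀ x ∈ W,
      Cfsg.hermForm n F q x x = 0 → Cfsg.hermForm n F q a x ≠ 0 →
      ∃ b ∈ U, b ≠ 0 ∧ x + b ∈ udirs Φ M := by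
    intro a ha hPa x hxW hxN hax
    obtain ⟨b, hbU, hb0, hab⟩ := hPa
    have h1 := udirs_move Φ M x (a + b) (SW x hxW hxN) hab d₀ hd₀
    rw [uherm_add_left, hUW b hbU x hxW, add_zero] at h1
    have hP1 : ∃ b ∈ U, b ≠ 0 ∧ (a + (d₀ * Cfsg.hermForm n F q a x) • x) + b ∈ udirs Φ M := by
      refine ⟨b, hbU, hb0, ?_⟩
      have e : a + (d₀ * Cfsg.hermForm n F q a x) • x + b
          = a + b + (d₀ * Cfsg.hermForm n F q a x) • x := by abel
      rw [e]
      exact h1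
    have hP2 := AddA _ (W.add_mem ha (W.smul_mem _ hxW)) _ (W.smul_mem (-1 : F) ha) hP1
      (Asmul a ha ⟨b, hbU, hb0, hab⟩ (-1))
    have hP3 := Asmul _ (W.add_mem (W.add_mem ha (W.smul_mem _ hxW)) (W.smul_mem (-1 : F) ha))
      hP2 (d₀ * Cfsg.hermForm n F q a x)⁻¹
    have e : (d₀ * Cfsg.hermForm n F q a x)⁻¹ •
        (a + (d₀ * Cfsg.hermForm n F q a x) • x + (-1 : F) • a) = x := by
      have e' : a + (d₀ * Cfsg.hermForm n F q a x) • x + (-1 : F) • a
          = (d₀ * Cfsg.hermForm n F q a x) • x := by module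
      rw [e', smul_smul, inv_mul_cancel₀ (mul_ne_zero hd₀0 hax), one_smul]
    rw [e] at hP3
    exact hP3
  have TB : ∀ w ∈ W, ∀ x ∈ W, Cfsg.hermForm n F q x x = 0 →
      (∃ b ∈ U, b ≠ 0 ∧ x + b ∈ udirs Φ M) → Cfsg.hermForm n F q w x ≠ 0 →
      ∃ b ∈ U, b ≠ 0 ∧ w + b ∈ udirs Φ M := by
    intro w hw x hxW hxN hPx hwx
    obtain ⟨l, hl⟩ := iso_shift hF Φ w x hxN hwx
    have hw'W : w - l • x ∈ W := W.sub_mem hw (W.smul_mem l hxW)
    have hxw' : Cfsg.hermForm n F q x (w - l • x) ≠ 0 := by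
      rw [uherm_sub_right Φ, uherm_smul_right Φ, hxN, mul_zero, sub_zero]
      exact um_ne_symm Φ _ _ hwx
    have hP1 := TA x hxW hPx (w - l • x) hw'W hl hxw'
    have hP2 := AddA _ hw'W _ (W.smul_mem l hxW) hP1 (Asmul x hxW hPx l)
    have e : w - l • x + l • x = w := by abel
    rw [e] at hP2
    exact hP2
  have TC : ∀ x₁ ∈ W, x₁ ≠ 0 → Cfsg.hermForm n F q x₁ x₁ = 0 →
      (∃ b ∈ U, b ≠ 0 ∧ x₁ + b ∈ udirs Φ M) →
      ∀ w ∈ W, ∃ b ∈ U, b ≠ 0 ∧ w + b ∈ udirs Φ M := by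
    intro x₁ hx₁W hx₁0 hx₁N hPx₁ w hw
    obtain ⟨⟨w₁, hw₁W, hw₁x⟩, -⟩ := hW x₁ hx₁W hx₁0
    by_cases hwx : Cfsg.hermForm n F q w x₁ = 0
    · have hP1 := TB (w + w₁) (W.add_mem hw hw₁W) x₁ hx₁W hx₁N hPx₁
        (by rw [uherm_add_left, hwx, zero_add]; exact hw₁x)
      have hP2 := TB w₁ hw₁W x₁ hx₁W hx₁N hPx₁ hw₁x
      have hP3 := AddA _ (W.add_mem hw hw₁W) _ (W.smul_mem (-1 : F) hw₁W) hP1
        (Asmul w₁ hw₁W hP2 (-1))
      have e : w + w₁ + (-1 : F) • w₁ = w := by module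
      rw [e] at hP3
      exact hP3
    · exact TB w hw x₁ hx₁W hx₁N hPx₁ hwx
  -- a mixed direction
  obtain ⟨a₀, ha₀W, ha₀0, hPa₀⟩ : ∃ a₀ ∈ W, a₀ ≠ 0 ∧ ∃ b ∈ U, b ≠ 0 ∧ a₀ + b ∈ udirs Φ M := by
    obtain ⟨g, hgM, hg⟩ := hex
    by_contra hcon
    push Not at hcon
    have h1 : ∀ y ∈ U, Cfsg.hermForm n F q y y = 0 → sact g y ∈ W ∨ sact g y ∈ U := by
      intro y hyU hy
      have hu := udirs_conj Φ M g hgM y (SU' y hyU hy)
      obtain ⟨a, ha, b, hb, hab⟩ := hdec (sact g y)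
      by_cases ha0 : a = 0
      · right
        rw [← hab, ha0, zero_add]
        exact hb
      · by_cases hb0 : b = 0
        · left
          rw [← hab, hb0, add_zero]
          exact ha
        · exfalso
          apply hcon a ha ha0 b hb hb0
          rw [hab]
          exact hu
    have h2 : ∀ y₁ y₂ : Fin n → F, sact g y₁ ∈ W → sact g y₂ ∈ U →
        Cfsg.hermForm n F q y₁ y₂ = 0 := by
      intro y₁ y₂ k1 k2
      rw [← sact_herm g]
      exact hWU _ k1 _ k2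
    apply hg
    by_cases hall : ∀ y ∈ U, Cfsg.hermForm n F q y y = 0 → sact g y ∈ U
    · have hgU : ∀ u ∈ U, sact g u ∈ U := by
        intro u hu
        obtain ⟨x₁, hx₁U, hx₁N, x₂, hx₂U, hx₂N, rfl⟩ := usplit_span hF Φ L u hu
        rw [sact_add]
        exact U.add_mem (hall x₁ hx₁U hx₁N) (hall x₂ hx₂U hx₂N)
      apply mem_stab_of_le
      intro w hw
      obtain ⟨a, ha, b, hb, hab⟩ := hdec (sact g w)
      have hb0 : b = 0 := by
        apply um_nondeg Φ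
        intro v
        obtain ⟨a', ha', b', hb', rfl⟩ := hdec v
        rw [uherm_add_left, hWU a' ha' b hb, zero_add]
        obtain ⟨u', hu'U, hu'⟩ := su_exists_preimage g U U rfl hgU b' hb'
        have e : b = sact g w - a := by rw [← hab]; abel
        rw [e, uherm_sub_right Φ, hUW b' hb' a ha, sub_zero, ← hu', sact_herm,
          hUW u' hu'U w hw]
      rw [← hab, hb0, add_zero]
      exact ha
    · exfalso
      push Not at hall
      obtain ⟨y₁, hy₁U, hy₁N, hy₁⟩ := hall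
      have hy₁W : sact g y₁ ∈ W := (h1 y₁ hy₁U hy₁N).resolve_right hy₁
      have hy₁0 : y₁ ≠ 0 := by
        rintro rfl
        rw [sact_zero] at hy₁
        exact hy₁ U.zero_mem
      have hallW : ∀ y ∈ U, Cfsg.hermForm n F q y y = 0 → sact g y ∈ W := by
        intro y hyU hyN
        by_cases hy0 : y = 0
        · rw [hy0, sact_zero]
          exact W.zero_mem
        · obtain ⟨y₃, hy₃U, hy₃N, h31, h32⟩ := usplit_iso_nonorth hF Φ L y₁ y hy₁U hyU hy₁0 hy0
          have hy₃W : sact g y₃ ∈ W := by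
            by_contra hc
            have k := (h1 y₃ hy₃U hy₃N).resolve_left hc
            exact um_ne_symm Φ _ _ h31 (h2 y₁ y₃ hy₁W k)
          by_contra hc
          have k := (h1 y hyU hyN).resolve_left hc
          exact h32 (h2 y₃ y hy₃W k)
      have hgUW : ∀ u ∈ U, sact g u ∈ W := by
        intro u hu
        obtain ⟨x₁, hx₁U, hx₁N, x₂, hx₂U, hx₂N, rfl⟩ := usplit_span hF Φ L u hu
        rw [sact_add]
        exact W.add_mem (hallW x₁ hx₁U hx₁N) (hallW x₂ hx₂U hx₂N)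
      have hle : U.map (Matrix.toLin' (g.1.1 : Matrix (Fin n) (Fin n) F)) ≤ W := by
        rintro _ ⟨x, hx, rfl⟩
        rw [Matrix.toLin'_apply]
        exact hgUW x hx
      have h5 := Submodule.finrank_mono hle
      rw [← LinearEquiv.finrank_eq (Submodule.equivMapOfInjective _ (su_toLin_inj g) U)] at h5
      omega
  -- all of `W` is good
  have hA : ∀ w ∈ W, ∃ b ∈ U, b ≠ 0 ∧ w + b ∈ udirs Φ M := by
    by_cases hNa₀ : Cfsg.hermForm n F q a₀ a₀ = 0
    · exact TC a₀ ha₀W ha₀0 hNa₀ hPa₀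
    · by_cases hx : ∃ x ∈ W, Cfsg.hermForm n F q x x = 0 ∧ Cfsg.hermForm n F q a₀ x ≠ 0
      · obtain ⟨x, hxW, hxN, hax⟩ := hx
        have hx0 : x ≠ 0 := by
          rintro rfl
          exact hax (uherm_zero_right Φ _)
        exact TC x hxW hx0 hxN (TA a₀ ha₀W hPa₀ x hxW hxN hax)
      · push Not at hx
        have hK : ∀ v ∈ ucut q W a₀, Cfsg.hermForm n F q v v = 0 := by
          intro v hv
          rw [mem_ucut] at hv
          obtain ⟨hvW, hva⟩ := hv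
          by_contra hvN
          have hNv : Φ.φ (Cfsg.hermForm n F q v v) = Cfsg.hermForm n F q v v := uherm_conj Φ v v
          have hNa : Φ.φ (Cfsg.hermForm n F q a₀ a₀) = Cfsg.hermForm n F q a₀ a₀ :=
            uherm_conj Φ a₀ a₀
          obtain ⟨μ, hμ⟩ := exists_unorm hF Φ
            (-(Cfsg.hermForm n F q a₀ a₀) / Cfsg.hermForm n F q v v)
            (div_ne_zero (neg_ne_zero.mpr hNa₀) hvN) (by rw [map_div₀, map_neg, hNa, hNv])
          have hav : Cfsg.hermForm n F q a₀ v = 0 := um_symm Φ _ _ hva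
          have k1 : Cfsg.hermForm n F q (a₀ + μ • v) (a₀ + μ • v) = 0 := by
            rw [uherm_add_left, uherm_add_right Φ, uherm_add_right Φ, uherm_smul_left,
              uherm_smul_left, uherm_smul_right Φ, uherm_smul_right Φ, hav, hva]
            have e : μ * Φ.φ μ * Cfsg.hermForm n F q v v = -(Cfsg.hermForm n F q a₀ a₀) := by
              rw [hμ, div_mul_cancel₀ _ hvN]
            linear_combination e
          have k2 := hx (a₀ + μ • v) (W.add_mem ha₀W (W.smul_mem μ hvW)) k1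
          rw [uherm_add_right Φ, uherm_smul_right Φ, hav, mul_zero, add_zero] at k2
          exact hNa₀ k2
        have hti := ti_of_all_iso hF Φ (ucut q W a₀) hK
        have hcut : ∀ x ∈ W, x - (Cfsg.hermForm n F q x a₀ / Cfsg.hermForm n F q a₀ a₀) • a₀
            ∈ ucut q W a₀ := by
          intro x hxW
          rw [mem_ucut]
          refine ⟨W.sub_mem hxW (W.smul_mem _ ha₀W), ?_⟩
          rw [uherm_sub_left, uherm_smul_left, div_mul_cancel₀ _ hNa₀, sub_self]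
        intro w hw
        obtain ⟨c, hc⟩ : ∃ c, c = Cfsg.hermForm n F q w a₀ / Cfsg.hermForm n F q a₀ a₀ :=
          ⟨_, rfl⟩
        have hw' : w - c • a₀ ∈ ucut q W a₀ := by rw [hc]; exact hcut w hw
        have hw'0 : w - c • a₀ = 0 := by
          by_contra hne
          obtain ⟨-, x, hxW, hx'⟩ := hW _ ((mem_ucut _ _ _).mp hw').1 hne
          apply hx'
          obtain ⟨c', hc'⟩ : ∃ c', c' = Cfsg.hermForm n F q x a₀ / Cfsg.hermForm n F q a₀ a₀ :=
            ⟨_, rfl⟩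
          obtain ⟨x', hx'def⟩ : ∃ x', x' = x - c' • a₀ := ⟨_, rfl⟩
          have hx'' : x' ∈ ucut q W a₀ := by rw [hx'def, hc']; exact hcut x hxW
          have e : x = x' + c' • a₀ := by rw [hx'def]; abel
          rw [e, uherm_add_right Φ, hti _ hw' _ hx'', uherm_smul_right Φ,
            ((mem_ucut _ _ _).mp hw').2, mul_zero, add_zero]
        have e : w = c • a₀ := sub_eq_zero.mp hw'0
        rw [e]
        exact Asmul a₀ ha₀W hPa₀ c
  -- conclusion
  apply top_of_udirs hF Φ (by omega) M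
  intro y hy
  obtain ⟨a, ha, b, hb, rfl⟩ := hdec y
  by_cases hb0 : b = 0
  · rw [hb0, add_zero] at hy ⊢
    exact SW a ha hy
  · obtain ⟨b₁, hb₁U, hb₁0, hab₁⟩ := hA a ha
    apply U2 a ha b₁ hb₁U b hb hab₁ _ hb₁0 hb0
    have e1 := hab₁.1
    rw [uherm_add_left, uherm_add_right Φ, uherm_add_right Φ, hWU a ha b₁ hb₁U,
      hUW b₁ hb₁U a ha] at e1
    rw [uherm_add_left, uherm_add_right Φ, uherm_add_right Φ, hWU a ha b hb,
      hUW b hb a ha] at hy
    linear_combination hy - e1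

theorem exists_not_stab_nd (hF : Fintype.card F = q ^ 2) (Φ : Frob F q) (hn : 13 ≤ n)
    (W : Submodule F (Fin n → F)) (hW0 : W ≠ ⊥)
    (hW : Cfsg.Geo.IsNondegenerateOn (Cfsg.hermForm n F q) W)
    (hdim : 2 * Module.finrank F W < n) :
    ∃ A : ↥(Cfsg.SU n F q),
      Matrix.SpecialLinearGroup.toGL (A : Matrix.SpecialLinearGroup (Fin n) F) ∉
        Cfsg.Geo.subspaceStabilizer W := by
  obtain ⟨U, hUp, hfr, hdisj, hdec⟩ := nd_split Φ W hW
  have L : USplit q W U := ⟨hUp, hfr, hdisj, hdec, by omega⟩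
  obtain ⟨a, ha, ha0⟩ := Submodule.exists_mem_ne_zero_of_ne_bot hW0
  have hNa : Φ.φ (Cfsg.hermForm n F q a a) = Cfsg.hermForm n F q a a := uherm_conj Φ a a
  obtain ⟨b, hbU, hb0, hbN⟩ := usplit_norm hF Φ L (-(Cfsg.hermForm n F q a a))
    (by rw [map_neg, hNa])
  obtain ⟨⟨w, hw, hwa⟩, -⟩ := hW a ha ha0
  obtain ⟨d, hd0, hd⟩ := exists_skew hF Φ
  have hba : Cfsg.hermForm n F q b a = 0 := (hUp b).mp hbU a ha
  have hab : Cfsg.hermForm n F q a b = 0 := um_symm Φ _ _ hba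
  have hwb : Cfsg.hermForm n F q w b = 0 := um_symm Φ _ _ ((hUp b).mp hbU w hw)
  have hyN : Cfsg.hermForm n F q (a + b) (a + b) = 0 := by
    rw [uherm_add_left, uherm_add_right Φ, uherm_add_right Φ, hbN, hab, hba]
    ring
  obtain ⟨T, hT⟩ := exists_ut Φ (a + b) d hyN hd
  refine ⟨T, fun hmem => ?_⟩
  have h1 : sact T w ∈ W := (hmem w).mp hw
  rw [hT w, uherm_add_right Φ, hwb, add_zero] at h1
  have h2 : (d * Cfsg.hermForm n F q w a) • (a + b) ∈ W :=
    (Submodule.add_mem_iff_right W hw).mp h1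
  have h3 : a + b ∈ W := by
    have h4 := W.smul_mem (d * Cfsg.hermForm n F q w a)⁻¹ h2
    rwa [smul_smul, inv_mul_cancel₀ (mul_ne_zero hd0 hwa), one_smul] at h4
  have h5 : b ∈ W := (Submodule.add_mem_iff_right W ha).mp h3
  exact hb0 (hdisj b h5 hbU)

end core

/-- Let F be the field with q² elements and n ≥ 13. In SU_n(q) (determinant-one isometries of the standard unitary form on F^n) the stabiliser of a non-zero subspace W on which the form is non-degenerate and with 2 dim W < n is a maximal subgroup. -/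
theorem result {F : Type*} [Field F] [Fintype F] (n q : ℕ) (hF : Fintype.card F = q ^ 2) (hn : 13 ≤ n) (W : Submodule F (Fin n → F)) (hW0 : W ≠ ⊥) (hW : Cfsg.Geo.IsNondegenerateOn (Cfsg.hermForm n F q) W) (hdim : 2 * Module.finrank F W < n) : Cfsg.Geo.IsMaximalIn (Cfsg.GU n F q ⊓ Cfsg.Geo.specialLinear (Fin n) F) (Cfsg.Geo.subspaceStabilizer W ⊓ (Cfsg.GU n F q ⊓ Cfsg.Geo.specialLinear (Fin n) F)) := by
  classical
  obtain ⟨Φ⟩ := Cfsg.Agent.Helper16.exists_Frob hF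
  apply Cfsg.Agent.Helper6.maximal_of_core_su
  · exact exists_not_stab_nd hF Φ hn W hW0 hW hdim
  · intro M hH hex
    exact core_ndu hF Φ hn W hW hdim M hH hex

end Cfsg.Agent.S5654
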