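import Mathlib
import Cfsg.Statements.S5660
import Cfsg.Agent.Helper6.UnitMax
import Cfsg.Agent.S5643
import Cfsg.Agent.S5653
import Cfsg.Agent.S5654

set_option autoImplicit false
open Cfsg

namespace Cfsg.Agent.S5660

open Matrix Cfsg.Agent.Helper3 Cfsg.Agent.Helper16 Cfsg.Agent.Helper6 Cfsg.Agent.S5643
  Cfsg.Agent.S5653 Cfsg.Agent.S5654

section rat

variable {F : Type*} [Field F] [Fintype F] {n q : ℕ}

theorem card_sub_eq (hF : Fintype.card F = q ^ 2) (F₀ : Subfield F)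
    (hcard : Fintype.card F = Nat.card F₀ ^ 2) : Nat.card F₀ = q := by
  have h1 : Nat.card F₀ ^ 2 = q ^ 2 := by rw [← hcard, hF]
  exact Nat.pow_left_injective (by norm_num : (2 : ℕ) ≠ 0) h1

theorem mem_fix (hF : Fintype.card F = q ^ 2) (Φ : Frob F q) (F₀ : Subfield F)
    (hcard : Fintype.card F = Nat.card F₀ ^ 2) (x : F) (hx : x ∈ F₀) : Φ.φ x = x := by
  classical
  haveI : Fintype F₀ := Fintype.ofFinite F₀
  have hq' : Fintype.card F₀ = q := by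
    rw [← Nat.card_eq_fintype_card]
    exact card_sub_eq hF F₀ hcard
  have h1 : (⟨x, hx⟩ : F₀) ^ q = ⟨x, hx⟩ := by
    rw [← hq']
    exact FiniteField.pow_card _
  have h2 := congrArg (fun b : F₀ => (b : F)) h1
  rw [Φ.hφ]
  simpa using h2

theorem fix_mem (hF : Fintype.card F = q ^ 2) (Φ : Frob F q) (F₀ : Subfield F)
    (hcard : Fintype.card F = Nat.card F₀ ^ 2) (x : F) (hx : Φ.φ x = x) : x ∈ F₀ := by
  classical
  have hq2 : 2 ≤ q := two_le_q hF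
  haveI : Fintype F₀ := Fintype.ofFinite F₀
  have hq' : Fintype.card F₀ = q := by
    rw [← Nat.card_eq_fintype_card]
    exact card_sub_eq hF F₀ hcard
  obtain ⟨T, hT⟩ : ∃ T : Finset F, T = Finset.univ.filter (fun x : F => x ^ q = x) := ⟨_, rfl⟩
  obtain ⟨I, hI⟩ : ∃ I : Finset F, I = Finset.univ.image (fun a : F₀ => (a : F)) := ⟨_, rfl⟩
  have hIT : I ⊆ T := by
    intro y hy
    rw [hI, Finset.mem_image] at hy
    obtain ⟨a, -, rfl⟩ := hy
    rw [hT, Finset.mem_filter]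
    refine ⟨Finset.mem_univ _, ?_⟩
    rw [← Φ.hφ]
    exact mem_fix hF Φ F₀ hcard _ a.2
  have hIc : I.card = q := by
    rw [hI, Finset.card_image_of_injective _ Subtype.val_injective, Finset.card_univ, hq']
  have hTc : T.card ≤ q := by
    have hne : (Polynomial.X ^ q - Polynomial.X : Polynomial F) ≠ 0 :=
      FiniteField.X_pow_card_sub_X_ne_zero F (by omega)
    have hsub : T ⊆ (Polynomial.X ^ q - Polynomial.X : Polynomial F).roots.toFinset := by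
      intro y hy
      rw [hT, Finset.mem_filter] at hy
      rw [Multiset.mem_toFinset, Polynomial.mem_roots hne]
      simp [hy.2]
    calc T.card ≤ (Polynomial.X ^ q - Polynomial.X : Polynomial F).roots.toFinset.card :=
          Finset.card_le_card hsub
      _ ≤ Multiset.card (Polynomial.X ^ q - Polynomial.X : Polynomial F).roots :=
          Multiset.toFinset_card_le _
      _ ≤ (Polynomial.X ^ q - Polynomial.X : Polynomial F).natDegree := Polynomial.card_roots' _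
      _ = q := FiniteField.X_pow_card_sub_X_natDegree_eq F (by omega)
  have hEq : I = T := Finset.eq_of_subset_of_card_le hIT (by rw [hIc]; exact hTc)
  have hxT : x ∈ T := by
    rw [hT, Finset.mem_filter]
    exact ⟨Finset.mem_univ _, by rw [← Φ.hφ]; exact hx⟩
  rw [← hEq, hI, Finset.mem_image] at hxT
  obtain ⟨a, -, rfl⟩ := hxT
  exact a.2

/-- coordinates with respect to `1, ω` over the fixed field -/
theorem sdec (Φ : Frob F q) (F₀ : Subfield F) (hfix : ∀ x, Φ.φ x = x ↔ x ∈ F₀)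
    (ω : F) (hω : Φ.φ ω ≠ ω) (x : F) : ∃ a ∈ F₀, ∃ b ∈ F₀, x = a + ω * b := by
  have h2 : Φ.φ ω - ω ≠ 0 := sub_ne_zero.mpr hω
  have h1 : ω - Φ.φ ω ≠ 0 := sub_ne_zero.mpr (Ne.symm hω)
  obtain ⟨b, hb⟩ : ∃ b, b = (Φ.φ x - x) / (Φ.φ ω - ω) := ⟨_, rfl⟩
  have hb' : b * (Φ.φ ω - ω) = Φ.φ x - x := by rw [hb, div_mul_cancel₀ _ h2]
  have hφb : Φ.φ b = b := by
    rw [hb, map_div₀, map_sub, map_sub, Φ.hφ2, Φ.hφ2, div_eq_div_iff h1 h2]
    ring
  refine ⟨x - ω * b, (hfix _).mp ?_, b, (hfix _).mp hφb, by ring⟩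
  rw [map_sub, map_mul, hφb]
  linear_combination -hb'

theorem suniq (Φ : Frob F q) (F₀ : Subfield F) (hfix : ∀ x, Φ.φ x = x ↔ x ∈ F₀)
    (ω : F) (hω : Φ.φ ω ≠ ω) (a b : F) (ha : a ∈ F₀) (hb : b ∈ F₀) (h : a + ω * b = 0) :
    a = 0 ∧ b = 0 := by
  have h' := congrArg Φ.φ h
  rw [map_add, map_mul, map_zero, (hfix a).mpr ha, (hfix b).mpr hb] at h'
  have h3 : (ω - Φ.φ ω) * b = 0 := by linear_combination h - h'
  have hb0 : b = 0 := by
    rcases mul_eq_zero.mp h3 with h4 | h4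
    · exact absurd (sub_eq_zero.mp h4).symm hω
    · exact h4
  refine ⟨?_, hb0⟩
  rw [hb0, mul_zero, add_zero] at h
  exact h

/-- Möbius transitivity on the non-rational scalars -/
theorem mobius (hF : Fintype.card F = q ^ 2) (Φ : Frob F q) (F₀ : Subfield F)
    (hfix : ∀ x, Φ.φ x = x ↔ x ∈ F₀) (G : F → Prop) (ω : F) (hω : Φ.φ ω ≠ ω) (hG : G ω)
    (h1 : ∀ x c, c ∈ F₀ → G x → G (x + c))
    (h2 : ∀ x c, c ∈ F₀ → 1 + c * x ≠ 0 → G x → G (x / (1 + c * x)))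
    (ω' : F) (hω' : Φ.φ ω' ≠ ω') : G ω' := by
  obtain ⟨a, ha, b, hb, hab⟩ := sdec Φ F₀ hfix ω hω ω'
  have hb0 : b ≠ 0 := by
    rintro rfl
    rw [mul_zero, add_zero] at hab
    exact hω' (by rw [hab]; exact (hfix a).mpr ha)
  have hφb : Φ.φ b = b := (hfix b).mpr hb
  obtain ⟨μ₀, hμ₀⟩ := exists_unorm hF Φ b⁻¹ (inv_ne_zero hb0) (by rw [map_inv₀, hφb])
  obtain ⟨μ, hμ, hμφ⟩ : ∃ μ : F, μ * Φ.φ μ = b⁻¹ ∧ Φ.φ μ ≠ μ := by
    by_cases hc : Φ.φ μ₀ = μ₀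
    · obtain ⟨l, hl, hl1, hl2⟩ := exists_norm_one_ne hF
      have hl' : l * Φ.φ l = 1 := by rw [Φ.hφ]; exact hl
      have hμ₀0 : μ₀ ≠ 0 := by
        rintro rfl
        rw [zero_mul] at hμ₀
        exact inv_ne_zero hb0 hμ₀.symm
      refine ⟨μ₀ * l, ?_, ?_⟩
      · rw [map_mul]
        linear_combination (l * Φ.φ l) * hμ₀ + b⁻¹ * hl'
      · rw [map_mul, hc]
        intro h
        have h3 : Φ.φ l = l := mul_left_cancel₀ hμ₀0 h
        rw [h3] at hl'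
        exact hl2 hl'
    · exact ⟨μ₀, hμ₀, hc⟩
  obtain ⟨x, hx, y, hy, hxy⟩ := sdec Φ F₀ hfix ω hω μ
  have hy0 : y ≠ 0 := by
    rintro rfl
    rw [mul_zero, add_zero] at hxy
    exact hμφ (by rw [hxy]; exact (hfix x).mpr hx)
  obtain ⟨t, ht⟩ : ∃ t, t = (x - 1) / y := ⟨_, rfl⟩
  have htm : t ∈ F₀ := by rw [ht]; exact F₀.div_mem (F₀.sub_mem hx F₀.one_mem) hy
  obtain ⟨ω₁, hω₁⟩ : ∃ ω₁, ω₁ = ω + t := ⟨_, rfl⟩
  have hG1 : G ω₁ := by rw [hω₁]; exact h1 ω t htm hG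
  have hμeq : 1 + y * ω₁ = μ := by
    rw [hω₁, ht, hxy]
    field_simp
    ring
  have hμ0 : μ ≠ 0 := by
    rintro rfl
    rw [zero_mul] at hμ
    exact inv_ne_zero hb0 hμ.symm
  have hG2 : G (ω₁ / (1 + y * ω₁)) := h2 ω₁ y hy (by rw [hμeq]; exact hμ0) hG1
  obtain ⟨Nw, hNw⟩ : ∃ Nw, Nw = ω₁ * Φ.φ ω₁ := ⟨_, rfl⟩
  have hNwm : Nw ∈ F₀ := by
    apply (hfix _).mp
    rw [hNw, map_mul, Φ.hφ2, mul_comm]
  have hφμ : Φ.φ μ = 1 + y * Φ.φ ω₁ := by
    rw [← hμeq, map_add, map_one, map_mul, (hfix y).mpr hy]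
  have e : ω₁ / (1 + y * ω₁) = b * (ω₁ + y * Nw) := by
    rw [hμeq, div_eq_iff hμ0, hNw]
    have h5 : b * (μ * Φ.φ μ) = 1 := by rw [hμ, mul_inv_cancel₀ hb0]
    rw [hφμ] at h5
    linear_combination (-ω₁) * h5
  have hc' : a - b * t - b * y * Nw ∈ F₀ :=
    F₀.sub_mem (F₀.sub_mem ha (F₀.mul_mem hb htm)) (F₀.mul_mem (F₀.mul_mem hb hy) hNwm)
  have hG3 := h1 _ _ hc' hG2
  have e2 : ω₁ / (1 + y * ω₁) + (a - b * t - b * y * Nw) = ω' := by
    rw [e, hab, hω₁]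
    ring
  rw [e2] at hG3
  exact hG3

/-- `v` lies in the `F₀`-span of the columns of `P` -/
def IsRat (F₀ : Subfield F) (P : Matrix (Fin n) (Fin n) F) (v : Fin n → F) : Prop :=
  ∃ u : Fin n → F, (∀ i, u i ∈ F₀) ∧ v = P *ᵥ u

theorem isRat_zero (F₀ : Subfield F) (P : Matrix (Fin n) (Fin n) F) : IsRat F₀ P 0 :=
  ⟨0, fun _ => F₀.zero_mem, by rw [Matrix.mulVec_zero]⟩

theorem isRat_add {F₀ : Subfield F} {P : Matrix (Fin n) (Fin n) F} {x y : Fin n → F}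
    (hx : IsRat F₀ P x) (hy : IsRat F₀ P y) : IsRat F₀ P (x + y) := by
  obtain ⟨u, hu, rfl⟩ := hx
  obtain ⟨w, hw, rfl⟩ := hy
  exact ⟨u + w, fun i => F₀.add_mem (hu i) (hw i), by rw [Matrix.mulVec_add]⟩

theorem isRat_smul {F₀ : Subfield F} {P : Matrix (Fin n) (Fin n) F} {x : Fin n → F}
    (c : F) (hc : c ∈ F₀) (hx : IsRat F₀ P x) : IsRat F₀ P (c • x) := by
  obtain ⟨u, hu, rfl⟩ := hx
  exact ⟨c • u, fun i => F₀.mul_mem hc (hu i), by rw [Matrix.mulVec_smul]⟩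

theorem isRat_neg {F₀ : Subfield F} {P : Matrix (Fin n) (Fin n) F} {x : Fin n → F}
    (hx : IsRat F₀ P x) : IsRat F₀ P (-x) := by
  have h := isRat_smul (-1) (F₀.neg_mem F₀.one_mem) hx
  rwa [neg_smul, one_smul] at h

theorem isRat_sub {F₀ : Subfield F} {P : Matrix (Fin n) (Fin n) F} {x y : Fin n → F}
    (hx : IsRat F₀ P x) (hy : IsRat F₀ P y) : IsRat F₀ P (x - y) := by
  rw [sub_eq_add_neg]
  exact isRat_add hx (isRat_neg hy)

/-- the data of a symplectic rational structure for the hermitian form -/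
structure RatS (Φ : Frob F q) (F₀ : Subfield F) (ζ : F) (P Q : Matrix (Fin n) (Fin n) F) :
    Prop where
  fix : ∀ x, Φ.φ x = x ↔ x ∈ F₀
  z0 : ζ ≠ 0
  zs : ζ + Φ.φ ζ = 0
  inv1 : ∀ v, P *ᵥ (Q *ᵥ v) = v
  inv2 : ∀ v, Q *ᵥ (P *ᵥ v) = v
  frat : ∀ x y, IsRat F₀ P x → IsRat F₀ P y → ζ * Cfsg.hermForm n F q x y ∈ F₀
  alt : ∀ x, IsRat F₀ P x → Cfsg.hermForm n F q x x = 0

variable {Φ : Frob F q} {F₀ : Subfield F} {ζ : F} {P Q : Matrix (Fin n) (Fin n) F}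

theorem RatS.vdec (R : RatS Φ F₀ ζ P Q) (ω : F) (hω : Φ.φ ω ≠ ω) (v : Fin n → F) :
    ∃ a b, IsRat F₀ P a ∧ IsRat F₀ P b ∧ v = a + ω • b := by
  choose a ha b hb hab using fun i => sdec Φ F₀ R.fix ω hω ((Q *ᵥ v) i)
  refine ⟨P *ᵥ a, P *ᵥ b, ⟨a, ha, rfl⟩, ⟨b, hb, rfl⟩, ?_⟩
  rw [← Matrix.mulVec_smul, ← Matrix.mulVec_add]
  have e : a + ω • b = Q *ᵥ v := by
    funext i
    rw [Pi.add_apply, Pi.smul_apply, smul_eq_mul, ← hab i]
  rw [e, R.inv1]

theorem RatS.vuniq (R : RatS Φ F₀ ζ P Q) (ω : F) (hω : Φ.φ ω ≠ ω) (a b : Fin n → F)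
    (ha : IsRat F₀ P a) (hb : IsRat F₀ P b) (h : a + ω • b = 0) : a = 0 ∧ b = 0 := by
  obtain ⟨u, hu, rfl⟩ := ha
  obtain ⟨w, hw, rfl⟩ := hb
  rw [← Matrix.mulVec_smul, ← Matrix.mulVec_add] at h
  have h2 : u + ω • w = 0 := by
    have h3 := congrArg (fun x => Q *ᵥ x) h
    rw [R.inv2, Matrix.mulVec_zero] at h3
    exact h3
  have h4 : ∀ i, u i = 0 ∧ w i = 0 := fun i =>
    suniq Φ F₀ R.fix ω hω (u i) (w i) (hu i) (hw i) (by
      have h5 := congrFun h2 i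
      rwa [Pi.add_apply, Pi.smul_apply, smul_eq_mul, Pi.zero_apply] at h5)
  have hu0 : u = 0 := funext fun i => (h4 i).1
  have hw0 : w = 0 := funext fun i => (h4 i).2
  rw [hu0, hw0, Matrix.mulVec_zero]
  exact ⟨rfl, rfl⟩

theorem RatS.anti (R : RatS Φ F₀ ζ P Q) {x y : Fin n → F} (hx : IsRat F₀ P x)
    (hy : IsRat F₀ P y) : Cfsg.hermForm n F q y x = -Cfsg.hermForm n F q x y := by
  have h := R.alt (x + y) (isRat_add hx hy)
  rw [uherm_add_left, uherm_add_right Φ, uherm_add_right Φ, R.alt x hx, R.alt y hy] at h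
  linear_combination h

/-- rational parts of a vector, compatible with rational values of the form -/
theorem RatS.parts (R : RatS Φ F₀ ζ P Q) (ω : F) (hω : Φ.φ ω ≠ ω) (y : Fin n → F) :
    ∃ a b, IsRat F₀ P a ∧ IsRat F₀ P b ∧ y = a + ω • b ∧
      ∀ x, IsRat F₀ P x → ζ * Cfsg.hermForm n F q y x ∈ F₀ →
        Cfsg.hermForm n F q a x = Cfsg.hermForm n F q y x ∧ Cfsg.hermForm n F q b x = 0 := by
  obtain ⟨a, b, ha, hb, hab⟩ := R.vdec ω hω y
  refine ⟨a, b, ha, hb, hab, fun x hx hmem => ?_⟩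
  have e : ζ * Cfsg.hermForm n F q y x
      = ζ * Cfsg.hermForm n F q a x + ω * (ζ * Cfsg.hermForm n F q b x) := by
    rw [hab, uherm_add_left, uherm_smul_left]
    ring
  have h1 := suniq Φ F₀ R.fix ω hω (ζ * Cfsg.hermForm n F q a x - ζ * Cfsg.hermForm n F q y x)
    (ζ * Cfsg.hermForm n F q b x) (F₀.sub_mem (R.frat a x ha hx) hmem) (R.frat b x hb hx)
    (by rw [e]; ring)
  constructor
  · have h2 : ζ * (Cfsg.hermForm n F q a x - Cfsg.hermForm n F q y x) = 0 := by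
      linear_combination h1.1
    rcases mul_eq_zero.mp h2 with h3 | h3
    · exact absurd h3 R.z0
    · exact sub_eq_zero.mp h3
  · rcases mul_eq_zero.mp h1.2 with h3 | h3
    · exact absurd h3 R.z0
    · exact h3

theorem RatS.skew_of_mem (R : RatS Φ F₀ ζ P Q) (c : F) (hc : c ∈ F₀) :
    c * ζ + Φ.φ (c * ζ) = 0 := by
  rw [map_mul, (R.fix c).mpr hc]
  linear_combination c * R.zs

theorem RatS.mem_of_skew (R : RatS Φ F₀ ζ P Q) (s : F) (hs : s + Φ.φ s = 0) : s / ζ ∈ F₀ := by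
  apply (R.fix _).mp
  have h1 : Φ.φ s = -s := by linear_combination hs
  have h2 : Φ.φ ζ = -ζ := by linear_combination R.zs
  rw [map_div₀, h1, h2, neg_div_neg_eq]

/-- moving by a rational transvection -/
theorem RatS.rmove (R : RatS Φ F₀ ζ P Q) (M : Subgroup ↥(Cfsg.SU n F q))
    (hH : ∀ y : Fin n → F, IsRat F₀ P y → y ∈ udirs Φ M) (x : Fin n → F) (hx : IsRat F₀ P x)
    (y : Fin n → F) (hy : y ∈ udirs Φ M) (c : F) (hc : c ∈ F₀) :
    y + (c * (ζ * Cfsg.hermForm n F q y x)) • x ∈ udirs Φ M := by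
  have h := udirs_move Φ M x y (hH x hx) hy (c * ζ) (R.skew_of_mem c hc)
  have e : c * ζ * Cfsg.hermForm n F q y x = c * (ζ * Cfsg.hermForm n F q y x) := by ring
  rwa [e] at h

/-- the norm of `a + ω' b` for rational `a, b` -/
theorem RatS.normf (R : RatS Φ F₀ ζ P Q) (a b : Fin n → F) (ha : IsRat F₀ P a)
    (hb : IsRat F₀ P b) (ω' : F) :
    Cfsg.hermForm n F q (a + ω' • b) (a + ω' • b)
      = (Φ.φ ω' - ω') * Cfsg.hermForm n F q a b := by
  rw [uherm_add_left, uherm_add_right Φ, uherm_add_right Φ, uherm_smul_left, uherm_smul_left,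
    uherm_smul_right Φ, uherm_smul_right Φ, R.alt a ha, R.alt b hb, R.anti ha hb]
  ring

/-- a rational vector orthogonal to and independent of two rational vectors -/
theorem RatS.zex (hF : Fintype.card F = q ^ 2) (hn : 13 ≤ n) (R : RatS Φ F₀ ζ P Q) (ω : F)
    (hω : Φ.φ ω ≠ ω) (a b : Fin n → F) (ha : IsRat F₀ P a) (hb : IsRat F₀ P b) :
    ∃ z, IsRat F₀ P z ∧ Cfsg.hermForm n F q z a = 0 ∧ Cfsg.hermForm n F q z b = 0 ∧
      ∀ α β : F, z ≠ α • a + β • b := by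
  obtain ⟨t, t1, t2, -, tN⟩ := exists_perp3 hF Φ (by omega) a b 0 1 (map_one _)
  obtain ⟨p, p', hp, hp', hpp, hpar⟩ := R.parts ω hω t
  have j1 := hpar a ha (by rw [t1, mul_zero]; exact F₀.zero_mem)
  have j2 := hpar b hb (by rw [t2, mul_zero]; exact F₀.zero_mem)
  by_cases hc : ∀ α β : F, p ≠ α • a + β • b
  · exact ⟨p, hp, by rw [j1.1, t1], by rw [j2.1, t2], hc⟩
  · push Not at hc
    obtain ⟨α, β, hαβ⟩ := hc
    refine ⟨p', hp', j1.2, j2.2, ?_⟩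
    intro α' β' hαβ'
    have ht : (α + ω * α') • a + (β + ω * β') • b = t := by
      rw [hpp, hαβ, hαβ']
      module
    have h5 : Cfsg.hermForm n F q t ((α + ω * α') • a + (β + ω * β') • b) = 0 := by
      rw [uherm_add_right Φ, uherm_smul_right Φ, uherm_smul_right Φ, t1, t2]
      ring
    rw [ht, tN] at h5
    exact one_ne_zero h5

/-- `a + ω b` is not a scalar multiple of a rational vector when `a, b` are independent -/
theorem RatS.nonrat (R : RatS Φ F₀ ζ P Q) (ω : F) (hω : Φ.φ ω ≠ ω) (a b : Fin n → F)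
    (ha : IsRat F₀ P a) (hb : IsRat F₀ P b) (ha0 : a ≠ 0) (hind : ∀ c : F, b ≠ c • a) :
    ¬ ∃ μ : F, ∃ u', IsRat F₀ P u' ∧ a + ω • b = μ • u' := by
  rintro ⟨μ, u', hu', h⟩
  obtain ⟨m₁, hm₁, m₂, hm₂, hm⟩ := sdec Φ F₀ R.fix ω hω μ
  have h0 : (a - m₁ • u') + ω • (b - m₂ • u') = 0 := by
    have e : (a - m₁ • u') + ω • (b - m₂ • u') = a + ω • b - μ • u' := by
      rw [hm]
      module
    rw [e, h, sub_self]
  obtain ⟨k1, k2⟩ := R.vuniq ω hω _ _ (isRat_sub ha (isRat_smul m₁ hm₁ hu'))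
    (isRat_sub hb (isRat_smul m₂ hm₂ hu')) h0
  have ka : a = m₁ • u' := sub_eq_zero.mp k1
  have kb : b = m₂ • u' := sub_eq_zero.mp k2
  by_cases hm₁0 : m₁ = 0
  · rw [hm₁0, zero_smul] at ka
    exact ha0 ka
  · apply hind (m₂ / m₁)
    rw [kb, ka, smul_smul, div_mul_cancel₀ _ hm₁0]

end rat

section sfg

open scoped Pointwise

variable {F : Type*} [Field F] [Fintype F] {n q : ℕ}

theorem scalars_normal : (Cfsg.Geo.scalars (Fin n) F).Normal := by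
  constructor
  intro z hz g
  rw [Cfsg.Geo.mem_scalars_iff] at hz ⊢
  obtain ⟨c, hc⟩ := hz
  refine ⟨c, ?_⟩
  rw [Units.val_mul, Units.val_mul, hc, Matrix.mul_smul, Matrix.mul_one, Matrix.smul_mul,
    ← Units.val_mul, mul_inv_cancel, Units.val_one]

theorem mat_ext_cols (M N : Matrix (Fin n) (Fin n) F)
    (h : ∀ j, M *ᵥ Pi.single j 1 = N *ᵥ Pi.single j 1) : M = N := by
  ext i j
  have h1 := congrFun (h j) i
  rw [Matrix.mulVec_single_one, Matrix.mulVec_single_one] at h1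
  exact h1

theorem isRat_col (F₀ : Subfield F) (P : Matrix (Fin n) (Fin n) F) (j : Fin n) :
    IsRat F₀ P (P *ᵥ Pi.single j 1) :=
  ⟨Pi.single j 1, fun i => by
    by_cases hij : i = j
    · rw [hij, Pi.single_eq_same]
      exact F₀.one_mem
    · rw [Pi.single_eq_of_ne hij]
      exact F₀.zero_mem, rfl⟩

theorem RatS.col_ne_zero {Φ : Frob F q} {F₀ : Subfield F} {ζ : F}
    {P Q : Matrix (Fin n) (Fin n) F} (R : RatS Φ F₀ ζ P Q) (j : Fin n) :
    P *ᵥ Pi.single j 1 ≠ 0 := by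
  intro h0
  have h1 := congrArg (fun v => Q *ᵥ v) h0
  rw [R.inv2, Matrix.mulVec_zero] at h1
  have h2 := congrFun h1 j
  rw [Pi.single_eq_same, Pi.zero_apply] at h2
  exact one_ne_zero h2

/-- a criterion for membership in the subfield group -/
theorem mem_sfg (F₀ : Subfield F) (P A : GL (Fin n) F) (c : F) (hc : c ≠ 0)
    (X : Matrix (Fin n) (Fin n) F) (hX : ∀ i j, X i j ∈ F₀)
    (hA : (A : Matrix (Fin n) (Fin n) F) * (P : Matrix (Fin n) (Fin n) F)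
      = c • ((P : Matrix (Fin n) (Fin n) F) * X)) :
    A ∈ Cfsg.Geo.subfieldSubgroup F₀ P := by
  classical
  have hdA : (A : Matrix (Fin n) (Fin n) F).det
      * ((A⁻¹ : GL (Fin n) F) : Matrix (Fin n) (Fin n) F).det = 1 := by
    rw [← Matrix.det_mul, ← Units.val_mul, mul_inv_cancel, Units.val_one, Matrix.det_one]
  have hdP : (P : Matrix (Fin n) (Fin n) F).det
      * ((P⁻¹ : GL (Fin n) F) : Matrix (Fin n) (Fin n) F).det = 1 := by
    rw [← Matrix.det_mul, ← Units.val_mul, mul_inv_cancel, Units.val_one, Matrix.det_one]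
  have hdet : X.det ≠ 0 := by
    intro h0
    have h1 := congrArg Matrix.det hA
    rw [Matrix.det_mul, Matrix.det_smul, Matrix.det_mul, h0, mul_zero, mul_zero] at h1
    rcases mul_eq_zero.mp h1 with h2 | h2
    · rw [h2, zero_mul] at hdA
      exact zero_ne_one hdA
    · rw [h2, zero_mul] at hdP
      exact zero_ne_one hdP
  obtain ⟨X₀, hX₀⟩ : ∃ X₀ : Matrix (Fin n) (Fin n) F₀, ∀ i j, (X₀ i j : F) = X i j :=
    ⟨fun i j => ⟨X i j, hX i j⟩, fun i j => rfl⟩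
  have hmap : (F₀.subtype : F₀ →+* F).mapMatrix X₀ = X := by
    ext i j
    exact hX₀ i j
  have hdet₀ : X₀.det ≠ 0 := by
    intro h0
    apply hdet
    rw [← hmap, ← RingHom.map_det, h0, map_zero]
  obtain ⟨G₀, hG₀⟩ : ∃ G₀ : GL (Fin n) F₀, (G₀ : Matrix (Fin n) (Fin n) F₀) = X₀ :=
    ⟨Matrix.GeneralLinearGroup.mkOfDetNeZero X₀ hdet₀, rfl⟩
  obtain ⟨Z, hZ⟩ : ∃ Z : GL (Fin n) F, (Z : Matrix (Fin n) (Fin n) F) = c • 1 :=
    ⟨Matrix.GeneralLinearGroup.mkOfDetNeZero (c • (1 : Matrix (Fin n) (Fin n) F)) (by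
      rw [Matrix.det_smul, Matrix.det_one, mul_one]
      exact pow_ne_zero _ hc), rfl⟩
  have hG : ((Matrix.GeneralLinearGroup.map (F₀.subtype : F₀ →+* F) G₀ : GL (Fin n) F) :
      Matrix (Fin n) (Fin n) F) = X := by
    rw [← hmap, ← hG₀]
    rfl
  unfold Cfsg.Geo.subfieldSubgroup
  rw [Subgroup.mem_map]
  refine ⟨Matrix.GeneralLinearGroup.map (F₀.subtype : F₀ →+* F) G₀ * Z,
    Subgroup.mul_mem_sup (MonoidHom.mem_range.mpr ⟨G₀, rfl⟩) ?_, ?_⟩
  · rw [Cfsg.Geo.mem_scalars_iff]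
    exact ⟨Units.mk0 c hc, hZ⟩
  · have e : (MulAut.conj P).toMonoidHom
        (Matrix.GeneralLinearGroup.map (F₀.subtype : F₀ →+* F) G₀ * Z)
        = P * (Matrix.GeneralLinearGroup.map (F₀.subtype : F₀ →+* F) G₀ * Z) * P⁻¹ := rfl
    rw [e, mul_inv_eq_iff_eq_mul]
    apply Units.ext
    rw [Units.val_mul, Units.val_mul, Units.val_mul, hZ, hG, hA, Matrix.mul_smul,
      Matrix.mul_one, Matrix.mul_smul]

/-- elements of the subfield group map rational vectors to multiples of rational vectors -/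
theorem sfg_rat (F₀ : Subfield F) (P A : GL (Fin n) F)
    (hA : A ∈ Cfsg.Geo.subfieldSubgroup F₀ P) :
    ∃ c : F, ∀ u, IsRat F₀ (P : Matrix (Fin n) (Fin n) F) u →
      ∃ u', IsRat F₀ (P : Matrix (Fin n) (Fin n) F) u' ∧
        (A : Matrix (Fin n) (Fin n) F) *ᵥ u = c • u' := by
  classical
  unfold Cfsg.Geo.subfieldSubgroup at hA
  rw [Subgroup.mem_map] at hA
  obtain ⟨k, hk, rfl⟩ := hA
  haveI : (Cfsg.Geo.scalars (Fin n) F).Normal := scalars_normal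
  have hk' : k ∈ (((Matrix.GeneralLinearGroup.map (F₀.subtype : F₀ →+* F)).range :
      Subgroup (GL (Fin n) F)) : Set (GL (Fin n) F))
      * ((Cfsg.Geo.scalars (Fin n) F : Subgroup (GL (Fin n) F)) : Set (GL (Fin n) F)) := by
    rw [← Subgroup.mul_normal]
    exact hk
  obtain ⟨x, hx, z, hz, rfl⟩ := Set.mem_mul.mp hk'
  obtain ⟨G₀, rfl⟩ := MonoidHom.mem_range.mp hx
  obtain ⟨c, hc⟩ := (Cfsg.Geo.mem_scalars_iff z).mp hz
  refine ⟨(c : F), ?_⟩
  rintro u ⟨u₀, hu₀, rfl⟩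
  obtain ⟨X, hXdef⟩ : ∃ X : Matrix (Fin n) (Fin n) F,
      X = ((Matrix.GeneralLinearGroup.map (F₀.subtype : F₀ →+* F) G₀ : GL (Fin n) F) :
        Matrix (Fin n) (Fin n) F) := ⟨_, rfl⟩
  have hXe : ∀ i j, X i j ∈ F₀ := by
    intro i j
    rw [hXdef]
    exact ((G₀ : Matrix (Fin n) (Fin n) F₀) i j).2
  refine ⟨(P : Matrix (Fin n) (Fin n) F) *ᵥ (X *ᵥ u₀), ⟨X *ᵥ u₀, ?_, rfl⟩, ?_⟩
  · intro i
    show (∑ j, X i j * u₀ j) ∈ F₀
    exact F₀.sum_mem (fun j _ => F₀.mul_mem (hXe i j) (hu₀ j))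
  · have e : (MulAut.conj P).toMonoidHom
        (Matrix.GeneralLinearGroup.map (F₀.subtype : F₀ →+* F) G₀ * z)
        = P * (Matrix.GeneralLinearGroup.map (F₀.subtype : F₀ →+* F) G₀ * z) * P⁻¹ := rfl
    rw [e, Units.val_mul, Units.val_mul, Units.val_mul, hc, ← hXdef, ← Matrix.mulVec_mulVec,
      gl_inv_mulVec, Matrix.mul_smul, Matrix.mul_one, Matrix.mul_smul, Matrix.smul_mulVec,
      ← Matrix.mulVec_mulVec]

/-- rational unitary transvections lie in the subfield group -/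
theorem ut_mem_sfg (Φ : Frob F q) (F₀ : Subfield F) (ζ : F) (P : GL (Fin n) F)
    (R : RatS Φ F₀ ζ (P : Matrix (Fin n) (Fin n) F)
      ((P⁻¹ : GL (Fin n) F) : Matrix (Fin n) (Fin n) F))
    (y : Fin n → F) (hy : IsRat F₀ (P : Matrix (Fin n) (Fin n) F) y) (c : F)
    (hc : c + Φ.φ c = 0) (t : ↥(Cfsg.SU n F q)) (ht : IsUt t y c) :
    Matrix.SpecialLinearGroup.toGL (t : Matrix.SpecialLinearGroup (Fin n) F) ∈
      Cfsg.Geo.subfieldSubgroup F₀ P := by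
  classical
  obtain ⟨u₀, hu₀, hyu⟩ := hy
  obtain ⟨X, hX⟩ : ∃ X : Matrix (Fin n) (Fin n) F, ∀ i j, X i j = (if i = j then 1 else 0)
      + c * Cfsg.hermForm n F q ((P : Matrix (Fin n) (Fin n) F) *ᵥ Pi.single j 1) y * u₀ i :=
    ⟨Matrix.of fun i j => (if i = j then 1 else 0)
      + c * Cfsg.hermForm n F q ((P : Matrix (Fin n) (Fin n) F) *ᵥ Pi.single j 1) y * u₀ i,
      fun i j => rfl⟩
  apply mem_sfg F₀ P _ 1 one_ne_zero X
  · intro i j
    rw [hX]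
    have h1 : c * Cfsg.hermForm n F q ((P : Matrix (Fin n) (Fin n) F) *ᵥ Pi.single j 1) y
        ∈ F₀ := by
      have h2 := R.frat _ y (isRat_col F₀ _ j) ⟨u₀, hu₀, hyu⟩
      have h3 := F₀.mul_mem (R.mem_of_skew c hc) h2
      have e : c / ζ * (ζ * Cfsg.hermForm n F q
          ((P : Matrix (Fin n) (Fin n) F) *ᵥ Pi.single j 1) y)
          = c * Cfsg.hermForm n F q ((P : Matrix (Fin n) (Fin n) F) *ᵥ Pi.single j 1) y := by
        have hz := R.z0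
        field_simp
      rw [e] at h3
      exact h3
    refine F₀.add_mem ?_ (F₀.mul_mem h1 (hu₀ i))
    split_ifs
    · exact F₀.one_mem
    · exact F₀.zero_mem
  · rw [one_smul]
    apply mat_ext_cols
    intro j
    rw [← Matrix.mulVec_mulVec, ← Matrix.mulVec_mulVec]
    have h1 : ((Matrix.SpecialLinearGroup.toGL (t : Matrix.SpecialLinearGroup (Fin n) F) :
        GL (Fin n) F) : Matrix (Fin n) (Fin n) F)
        *ᵥ ((P : Matrix (Fin n) (Fin n) F) *ᵥ Pi.single j 1)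
        = sact t ((P : Matrix (Fin n) (Fin n) F) *ᵥ Pi.single j 1) := rfl
    have h2 : X *ᵥ Pi.single j 1 = Pi.single j 1 + (c * Cfsg.hermForm n F q
        ((P : Matrix (Fin n) (Fin n) F) *ᵥ Pi.single j 1) y) • u₀ := by
      funext i
      rw [Matrix.mulVec_single_one]
      show X i j = _
      rw [hX, Pi.add_apply, Pi.smul_apply, smul_eq_mul, Pi.single_apply]
    rw [h1, ht, h2, Matrix.mulVec_add, Matrix.mulVec_smul, ← hyu]

/-- an element outside the subfield group moves some rational point to a non-rational one -/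
theorem nonrat_of_not_mem (hF : Fintype.card F = q ^ 2) (Φ : Frob F q) (hn : 13 ≤ n)
    (F₀ : Subfield F) (ζ : F) (P : GL (Fin n) F)
    (R : RatS Φ F₀ ζ (P : Matrix (Fin n) (Fin n) F)
      ((P⁻¹ : GL (Fin n) F) : Matrix (Fin n) (Fin n) F))
    (A : ↥(Cfsg.SU n F q))
    (hA : Matrix.SpecialLinearGroup.toGL (A : Matrix.SpecialLinearGroup (Fin n) F) ∉
      Cfsg.Geo.subfieldSubgroup F₀ P) :
    ∃ u, IsRat F₀ (P : Matrix (Fin n) (Fin n) F) u ∧
      ¬ ∃ μ : F, ∃ u', IsRat F₀ (P : Matrix (Fin n) (Fin n) F) u' ∧ sact A u = μ • u' := by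
  classical
  by_contra hcon
  push Not at hcon
  apply hA
  obtain ⟨ω, hω⟩ := exists_phi_ne hF Φ
  have NS : ∀ u₁ u₂ u₁' u₂' : Fin n → F, ∀ m₁ m₂ : F,
      IsRat F₀ (P : Matrix (Fin n) (Fin n) F) u₁ → IsRat F₀ (P : Matrix (Fin n) (Fin n) F) u₂ →
      IsRat F₀ (P : Matrix (Fin n) (Fin n) F) u₁' →
      IsRat F₀ (P : Matrix (Fin n) (Fin n) F) u₂' →
      sact A u₁ = m₁ • u₁' → sact A u₂ = m₂ • u₂' → Cfsg.hermForm n F q u₁ u₂ ≠ 0 →
      ∃ r ∈ F₀, m₂ = r * m₁ := by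
    intro u₁ u₂ u₁' u₂' m₁ m₂ h1 h2 h1' h2' e1 e2 hne
    have k := sact_herm A u₁ u₂
    rw [e1, e2, uherm_smul_left, uherm_smul_right Φ] at k
    obtain ⟨f, hf⟩ : ∃ f, f = ζ * Cfsg.hermForm n F q u₁ u₂ := ⟨_, rfl⟩
    obtain ⟨f', hf'⟩ : ∃ f', f' = ζ * Cfsg.hermForm n F q u₁' u₂' := ⟨_, rfl⟩
    have hfm : f ∈ F₀ := by rw [hf]; exact R.frat _ _ h1 h2
    have hf'm : f' ∈ F₀ := by rw [hf']; exact R.frat _ _ h1' h2'
    have hf0 : f ≠ 0 := by rw [hf]; exact mul_ne_zero R.z0 hne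
    have k2 : m₁ * Φ.φ m₂ * f' = f := by
      rw [hf, hf', ← k]
      ring
    have hf'0 : f' ≠ 0 := by
      intro h0
      rw [h0, mul_zero] at k2
      exact hf0 k2.symm
    have hm₁0 : m₁ ≠ 0 := by
      rintro rfl
      rw [zero_mul, zero_mul] at k2
      exact hf0 k2.symm
    have hρ : m₁ * Φ.φ m₂ = f / f' := by
      rw [eq_div_iff hf'0]
      exact k2
    have hρm : m₁ * Φ.φ m₂ ∈ F₀ := by
      rw [hρ]
      exact F₀.div_mem hfm hf'm
    have hρφ : Φ.φ m₁ * m₂ = m₁ * Φ.φ m₂ := by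
      have h3 := (R.fix _).mpr hρm
      rw [map_mul, Φ.hφ2] at h3
      exact h3
    have hN : m₁ * Φ.φ m₁ ∈ F₀ := (R.fix _).mp (by rw [map_mul, Φ.hφ2, mul_comm])
    have hφm₁0 : Φ.φ m₁ ≠ 0 := (map_ne_zero Φ.φ).mpr hm₁0
    refine ⟨m₁ * Φ.φ m₂ / (m₁ * Φ.φ m₁), F₀.div_mem hρm hN, ?_⟩
    rw [div_mul_eq_mul_div, eq_div_iff (mul_ne_zero hm₁0 hφm₁0)]
    linear_combination m₁ * hρφ
  choose μ x hx hμx using fun j => hcon _ (isRat_col F₀ (P : Matrix (Fin n) (Fin n) F) j)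
  obtain ⟨j₀, hj₀⟩ : ∃ j₀ : Fin n, j₀ = ⟨0, by omega⟩ := ⟨_, rfl⟩
  have hr : ∀ j : Fin n, ∃ r ∈ F₀, μ j = r * μ j₀ := by
    intro j
    by_cases hj : j = j₀
    · exact ⟨1, F₀.one_mem, by rw [hj, one_mul]⟩
    · have hindc : ∀ c : F, (P : Matrix (Fin n) (Fin n) F) *ᵥ Pi.single j 1
          ≠ c • ((P : Matrix (Fin n) (Fin n) F) *ᵥ Pi.single j₀ 1) := by
        intro c hc
        have h1 := congrArg
          (fun v => ((P⁻¹ : GL (Fin n) F) : Matrix (Fin n) (Fin n) F) *ᵥ v) hc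
        rw [Matrix.mulVec_smul, R.inv2, R.inv2] at h1
        have h2 := congrFun h1 j
        rw [Pi.single_eq_same, Pi.smul_apply, Pi.single_eq_of_ne hj, smul_zero] at h2
        exact one_ne_zero h2
      obtain ⟨y, k1, k2⟩ := exists_two_vals Φ _ _ (R.col_ne_zero j₀) hindc ζ⁻¹ ζ⁻¹
      obtain ⟨w, w', hw, -, -, hpar⟩ := R.parts ω hω y
      have j1 := hpar _ (isRat_col F₀ _ j₀) (by
        rw [k1, mul_inv_cancel₀ R.z0]
        exact F₀.one_mem)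
      have j2 := hpar _ (isRat_col F₀ _ j) (by
        rw [k2, mul_inv_cancel₀ R.z0]
        exact F₀.one_mem)
      obtain ⟨m, w'', hw'', hm⟩ := hcon w hw
      have n1 : Cfsg.hermForm n F q ((P : Matrix (Fin n) (Fin n) F) *ᵥ Pi.single j₀ 1) w
          ≠ 0 := by
        rw [R.anti hw (isRat_col F₀ _ j₀), j1.1, k1]
        exact neg_ne_zero.mpr (inv_ne_zero R.z0)
      have n2 : Cfsg.hermForm n F q w ((P : Matrix (Fin n) (Fin n) F) *ᵥ Pi.single j 1)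
          ≠ 0 := by
        rw [j2.1, k2]
        exact inv_ne_zero R.z0
      obtain ⟨r₁, hr₁, e1⟩ := NS _ _ _ _ _ _ (isRat_col F₀ _ j₀) hw (hx j₀) hw'' (hμx j₀) hm n1
      obtain ⟨r₂, hr₂, e2⟩ := NS _ _ _ _ _ _ hw (isRat_col F₀ _ j) hw'' (hx j) hm (hμx j) n2
      exact ⟨r₂ * r₁, F₀.mul_mem hr₂ hr₁, by rw [e2, e1, mul_assoc]⟩
  choose r hr hμr using hr
  have hx' : ∀ j, ∃ u : Fin n → F, (∀ i, u i ∈ F₀) ∧
      x j = (P : Matrix (Fin n) (Fin n) F) *ᵥ u := hx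
  choose crd hcrd hxc using hx'
  have hc0 : μ j₀ ≠ 0 := by
    intro h0
    have h1 := hμx j₀
    rw [h0, zero_smul] at h1
    exact sact_ne_zero A _ (R.col_ne_zero j₀) h1
  obtain ⟨X, hX⟩ : ∃ X : Matrix (Fin n) (Fin n) F, ∀ i j, X i j = r j * crd j i :=
    ⟨Matrix.of fun i j => r j * crd j i, fun i j => rfl⟩
  apply mem_sfg F₀ P _ (μ j₀) hc0 X
  · intro i j
    rw [hX]
    exact F₀.mul_mem (hr j) (hcrd j i)
  · apply mat_ext_cols
    intro j
    rw [← Matrix.mulVec_mulVec, Matrix.smul_mulVec, ← Matrix.mulVec_mulVec]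
    have h1 : ((Matrix.SpecialLinearGroup.toGL (A : Matrix.SpecialLinearGroup (Fin n) F) :
        GL (Fin n) F) : Matrix (Fin n) (Fin n) F)
        *ᵥ ((P : Matrix (Fin n) (Fin n) F) *ᵥ Pi.single j 1)
        = sact A ((P : Matrix (Fin n) (Fin n) F) *ᵥ Pi.single j 1) := rfl
    have h2 : X *ᵥ Pi.single j 1 = r j • crd j := by
      funext i
      rw [Matrix.mulVec_single_one]
      show X i j = _
      rw [hX, Pi.smul_apply, smul_eq_mul]
    rw [h1, hμx j, hxc j, hμr j, h2, Matrix.mulVec_smul, smul_smul, mul_comm]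

theorem exists_not_sfg (hF : Fintype.card F = q ^ 2) (Φ : Frob F q) (hn : 13 ≤ n)
    (F₀ : Subfield F) (ζ : F) (P : GL (Fin n) F)
    (R : RatS Φ F₀ ζ (P : Matrix (Fin n) (Fin n) F)
      ((P⁻¹ : GL (Fin n) F) : Matrix (Fin n) (Fin n) F)) :
    ∃ A : ↥(Cfsg.SU n F q),
      Matrix.SpecialLinearGroup.toGL (A : Matrix.SpecialLinearGroup (Fin n) F) ∉
        Cfsg.Geo.subfieldSubgroup F₀ P := by
  classical
  obtain ⟨ω, hω⟩ := exists_phi_ne hF Φ
  obtain ⟨j₀, hj₀⟩ : ∃ j₀ : Fin n, j₀ = ⟨0, by omega⟩ := ⟨_, rfl⟩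
  obtain ⟨u₁, hu₁def⟩ : ∃ u₁, u₁ = (P : Matrix (Fin n) (Fin n) F) *ᵥ Pi.single j₀ 1 :=
    ⟨_, rfl⟩
  have hu₁ : IsRat F₀ (P : Matrix (Fin n) (Fin n) F) u₁ := by
    rw [hu₁def]
    exact isRat_col F₀ _ j₀
  have hu₁0 : u₁ ≠ 0 := by
    rw [hu₁def]
    exact R.col_ne_zero j₀
  obtain ⟨z, hz, hz1, -, hzi⟩ := R.zex hF hn ω hω u₁ u₁ hu₁ hu₁
  have hzind : ∀ c : F, z ≠ c • u₁ := fun c hc =>
    hzi c 0 (by rw [zero_smul, add_zero]; exact hc)
  have hu₁z : Cfsg.hermForm n F q u₁ z = 0 := by rw [R.anti hz hu₁, hz1, neg_zero]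
  have hyN : Cfsg.hermForm n F q (u₁ + ω • z) (u₁ + ω • z) = 0 := by
    rw [R.normf u₁ z hu₁ hz ω, hu₁z, mul_zero]
  have hnr := R.nonrat ω hω u₁ z hu₁ hz hu₁0 hzind
  have hy0 : u₁ + ω • z ≠ 0 := by
    intro h0
    apply hnr
    exact ⟨0, 0, isRat_zero F₀ _, by rw [h0, smul_zero]⟩
  obtain ⟨g, hg⟩ := exists_su_move hF Φ (by omega) u₁ (u₁ + ω • z) hu₁0 hy0 (R.alt u₁ hu₁) hyN
  refine ⟨g, fun hmem => ?_⟩
  obtain ⟨c, hc⟩ := sfg_rat F₀ P _ hmem
  obtain ⟨u', hu', he⟩ := hc u₁ hu₁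
  apply hnr
  refine ⟨c, u', hu', ?_⟩
  rw [← hg]
  exact he

end sfg

section core

variable {F : Type*} [Field F] [Fintype F] {n q : ℕ}

theorem core_sf (hF : Fintype.card F = q ^ 2) (Φ : Frob F q) (hn : 13 ≤ n)
    (F₀ : Subfield F) (ζ : F) (P Q : Matrix (Fin n) (Fin n) F) (R : RatS Φ F₀ ζ P Q)
    (M : Subgroup ↥(Cfsg.SU n F q))
    (hH : ∀ y : Fin n → F, IsRat F₀ P y → y ∈ udirs Φ M)
    (hex : ∃ A ∈ M, ∃ u, IsRat F₀ P u ∧
      ¬ ∃ μ : F, ∃ u', IsRat F₀ P u' ∧ sact A u = μ • u') : M = ⊤ := by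
  obtain ⟨ω, hω⟩ := exists_phi_ne hF Φ
  -- a non-rational direction
  obtain ⟨g, hgM, u, hu, hnr⟩ := hex
  have hy₀ : sact g u ∈ udirs Φ M := udirs_conj Φ M g hgM u (hH u hu)
  obtain ⟨y₁, y₂, hy₁, hy₂, hy₀eq⟩ := R.vdec ω hω (sact g u)
  have hy₁0 : y₁ ≠ 0 := by
    rintro rfl
    apply hnr
    exact ⟨ω, y₂, hy₂, by rw [hy₀eq, zero_add]⟩
  have hind : ∀ c : F, y₂ ≠ c • y₁ := by
    intro c hc
    apply hnr
    refine ⟨1 + ω * c, y₁, hy₁, ?_⟩
    rw [hy₀eq, hc, smul_smul, add_smul, one_smul]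
  have hy₁₂ : Cfsg.hermForm n F q y₁ y₂ = 0 := by
    have h1 := hy₀.1
    rw [hy₀eq, R.normf y₁ y₂ hy₁ hy₂ ω] at h1
    rcases mul_eq_zero.mp h1 with h2 | h2
    · exact absurd (sub_eq_zero.mp h2) hω
    · exact h2
  have hy₂₁ : Cfsg.hermForm n F q y₂ y₁ = 0 := by rw [R.anti hy₁ hy₂, hy₁₂, neg_zero]
  -- partners
  obtain ⟨v₂, hv₂, hv₂1, hv₂2⟩ : ∃ v₂, IsRat F₀ P v₂ ∧ Cfsg.hermForm n F q y₁ v₂ = 0 ∧
      ζ * Cfsg.hermForm n F q y₂ v₂ = 1 := by
    obtain ⟨y, h1, h2⟩ := exists_two_vals Φ y₁ y₂ hy₁0 hind 0 (-ζ⁻¹)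
    obtain ⟨a, b, ha, hb, -, hpar⟩ := R.parts ω hω y
    have k1 := hpar y₁ hy₁ (by rw [h1, mul_zero]; exact F₀.zero_mem)
    have k2 := hpar y₂ hy₂ (by
      rw [h2, mul_neg, mul_inv_cancel₀ R.z0]
      exact F₀.neg_mem F₀.one_mem)
    refine ⟨a, ha, ?_, ?_⟩
    · rw [R.anti ha hy₁, k1.1, h1, neg_zero]
    · rw [R.anti ha hy₂, k2.1, h2, neg_neg, mul_inv_cancel₀ R.z0]
  have hy₂0 : y₂ ≠ 0 := by
    rintro rfl
    exact hind 0 (by rw [zero_smul])
  have hind' : ∀ c : F, y₁ ≠ c • y₂ := by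
    intro c hc
    by_cases hc0 : c = 0
    · rw [hc0, zero_smul] at hc
      exact hy₁0 hc
    · apply hind c⁻¹
      rw [hc, smul_smul, inv_mul_cancel₀ hc0, one_smul]
  obtain ⟨v₁, hv₁, hv₁1, hv₁2⟩ : ∃ v₁, IsRat F₀ P v₁ ∧ ζ * Cfsg.hermForm n F q y₁ v₁ = 1 ∧
      Cfsg.hermForm n F q y₂ v₁ = 0 := by
    obtain ⟨y, h2, h1⟩ := exists_two_vals Φ y₂ y₁ hy₂0 hind' 0 (-ζ⁻¹)
    obtain ⟨a, b, ha, hb, -, hpar⟩ := R.parts ω hω y
    have k1 := hpar y₁ hy₁ (by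
      rw [h1, mul_neg, mul_inv_cancel₀ R.z0]
      exact F₀.neg_mem F₀.one_mem)
    have k2 := hpar y₂ hy₂ (by rw [h2, mul_zero]; exact F₀.zero_mem)
    refine ⟨a, ha, ?_, ?_⟩
    · rw [R.anti ha hy₁, k1.1, h1, neg_neg, mul_inv_cancel₀ R.z0]
    · rw [R.anti ha hy₂, k2.1, h2, neg_zero]
  have hv₂y₁ : Cfsg.hermForm n F q v₂ y₁ = 0 := by rw [R.anti hy₁ hv₂, hv₂1, neg_zero]
  have hv₁y₂ : Cfsg.hermForm n F q v₁ y₂ = 0 := by rw [R.anti hy₂ hv₁, hv₁2, neg_zero]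
  -- elementary moves on the line of `y₁, y₂`
  have E1 : ∀ ω' c : F, c ∈ F₀ → y₁ + ω' • y₂ ∈ udirs Φ M →
      (1 + c * ω') • y₁ + ω' • y₂ ∈ udirs Φ M := by
    intro ω' c hc hin
    have m1 := R.rmove M hH v₂ hv₂ _ hin (-c) (F₀.neg_mem hc)
    have e1 : ζ * Cfsg.hermForm n F q (y₁ + ω' • y₂) v₂ = ω' := by
      rw [uherm_add_left, uherm_smul_left, hv₂1, zero_add]
      linear_combination ω' * hv₂2
    rw [e1] at m1
    have m2 := R.rmove M hH (y₁ + v₂) (isRat_add hy₁ hv₂) _ m1 c hc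
    have e2 : ζ * Cfsg.hermForm n F q (y₁ + ω' • y₂ + (-c * ω') • v₂) (y₁ + v₂) = ω' := by
      simp only [uherm_add_left, uherm_add_right Φ, uherm_smul_left, R.alt y₁ hy₁,
        R.alt v₂ hv₂, hv₂1, hy₂₁, hv₂y₁]
      linear_combination ω' * hv₂2
    rw [e2] at m2
    have e3 : y₁ + ω' • y₂ + (-c * ω') • v₂ + (c * ω') • (y₁ + v₂)
        = (1 + c * ω') • y₁ + ω' • y₂ := by module
    rw [e3] at m2
    exact m2
  have E2 : ∀ ω' c : F, c ∈ F₀ → y₁ + ω' • y₂ ∈ udirs Φ M →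
      y₁ + (ω' + c) • y₂ ∈ udirs Φ M := by
    intro ω' c hc hin
    have m1 := R.rmove M hH v₁ hv₁ _ hin (-c) (F₀.neg_mem hc)
    have e1 : ζ * Cfsg.hermForm n F q (y₁ + ω' • y₂) v₁ = 1 := by
      rw [uherm_add_left, uherm_smul_left, hv₁2, mul_zero, add_zero]
      exact hv₁1
    rw [e1] at m1
    have m2 := R.rmove M hH (y₂ + v₁) (isRat_add hy₂ hv₁) _ m1 c hc
    have e2 : ζ * Cfsg.hermForm n F q (y₁ + ω' • y₂ + (-c * 1) • v₁) (y₂ + v₁) = 1 := by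
      simp only [uherm_add_left, uherm_add_right Φ, uherm_smul_left, R.alt y₂ hy₂,
        R.alt v₁ hv₁, hv₁2, hy₁₂, hv₁y₂]
      linear_combination hv₁1
    rw [e2] at m2
    have e3 : y₁ + ω' • y₂ + (-c * 1) • v₁ + (c * 1) • (y₂ + v₁) = y₁ + (ω' + c) • y₂ := by
      module
    rw [e3] at m2
    exact m2
  -- the line of `y₁, y₂` is full
  have Fy : ∀ ω' : F, y₁ + ω' • y₂ ∈ udirs Φ M := by
    intro ω'
    by_cases hω'f : Φ.φ ω' = ω'
    · exact hH _ (isRat_add hy₁ (isRat_smul ω' ((R.fix ω').mp hω'f) hy₂))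
    · apply mobius hF Φ F₀ R.fix (fun x => y₁ + x • y₂ ∈ udirs Φ M) ω hω
      · show y₁ + ω • y₂ ∈ udirs Φ M
        rw [← hy₀eq]
        exact hy₀
      · intro x c hc hG
        exact E2 x c hc hG
      · intro x c hc hne hG
        have h3 := udirs_smul Φ M _ (E1 x c hc hG) (1 + c * x)⁻¹
        have e : (1 + c * x)⁻¹ • ((1 + c * x) • y₁ + x • y₂)
            = y₁ + (x / (1 + c * x)) • y₂ := by
          rw [smul_add, smul_smul, smul_smul, inv_mul_cancel₀ hne, one_smul, div_eq_inv_mul]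
        rw [e] at h3
        exact h3
      · exact hω'f
  -- symmetry
  have T0 : ∀ a b : Fin n → F, IsRat F₀ P a → IsRat F₀ P b →
      (∀ ω' : F, a + ω' • b ∈ udirs Φ M) → ∀ ω' : F, b + ω' • a ∈ udirs Φ M := by
    intro a b ha hb hF' ω'
    by_cases h0 : ω' = 0
    · rw [h0, zero_smul, add_zero]
      exact hH b hb
    · have h3 := udirs_smul Φ M _ (hF' ω'⁻¹) ω'
      have e : ω' • (a + ω'⁻¹ • b) = b + ω' • a := by
        rw [smul_add, smul_smul, mul_inv_cancel₀ h0, one_smul, add_comm]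
      rw [e] at h3
      exact h3
  -- one step along a rational transvection
  have T1 : ∀ a b w : Fin n → F, IsRat F₀ P a → IsRat F₀ P b → IsRat F₀ P w →
      Cfsg.hermForm n F q a b = 0 → Cfsg.hermForm n F q a w = 0 →
      Cfsg.hermForm n F q b w ≠ 0 → (∀ ω' : F, a + ω' • b ∈ udirs Φ M) →
      ∀ ω' : F, a + ω' • w ∈ udirs Φ M := by
    intro a b w ha hb hw hab haw hbw hF' ω'
    obtain ⟨f, hf⟩ : ∃ f, f = ζ * Cfsg.hermForm n F q b w := ⟨_, rfl⟩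
    have hfm : f ∈ F₀ := by rw [hf]; exact R.frat b w hb hw
    have hf0 : f ≠ 0 := by rw [hf]; exact mul_ne_zero R.z0 hbw
    have m := R.rmove M hH (w - b) (isRat_sub hw hb) _ (hF' ω') f⁻¹ (F₀.inv_mem hfm)
    have e1 : ζ * Cfsg.hermForm n F q (a + ω' • b) (w - b) = ω' * f := by
      rw [uherm_add_left, uherm_smul_left, uherm_sub_right Φ, uherm_sub_right Φ, haw, hab,
        R.alt b hb, hf]
      ring
    rw [e1] at m
    have e2 : a + ω' • b + (f⁻¹ * (ω' * f)) • (w - b) = a + ω' • w := by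
      have e3 : f⁻¹ * (ω' * f) = ω' := by field_simp
      rw [e3]
      module
    rw [e2] at m
    exact m
  -- moving the second vector inside the perp of the first
  have T2 : ∀ a b w : Fin n → F, IsRat F₀ P a → IsRat F₀ P b → IsRat F₀ P w →
      Cfsg.hermForm n F q a b = 0 → Cfsg.hermForm n F q a w = 0 → a ≠ 0 →
      (∀ c : F, b ≠ c • a) → (∀ c : F, w ≠ c • a) → (∀ ω' : F, a + ω' • b ∈ udirs Φ M) →
      ∀ ω' : F, a + ω' • w ∈ udirs Φ M := by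
    intro a b w ha hb hw hab haw ha0 hbi hwi hF'
    by_cases hbw : Cfsg.hermForm n F q b w = 0
    · obtain ⟨w', hw', h1, h2, h3⟩ : ∃ w', IsRat F₀ P w' ∧ Cfsg.hermForm n F q a w' = 0 ∧
          Cfsg.hermForm n F q b w' ≠ 0 ∧ Cfsg.hermForm n F q w' w ≠ 0 := by
        by_cases hdep : ∃ α β : F, w = α • a + β • b
        · obtain ⟨α, β, hαβ⟩ := hdep
          have hβ0 : β ≠ 0 := by
            rintro rfl
            rw [zero_smul, add_zero] at hαβ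
            exact hwi α hαβ
          obtain ⟨y, k1, k2⟩ := exists_two_vals Φ a b ha0 hbi 0 ζ⁻¹
          obtain ⟨p, p', hp, -, -, hpar⟩ := R.parts ω hω y
          have j1 := hpar a ha (by rw [k1, mul_zero]; exact F₀.zero_mem)
          have j2 := hpar b hb (by rw [k2, mul_inv_cancel₀ R.z0]; exact F₀.one_mem)
          refine ⟨p, hp, ?_, ?_, ?_⟩
          · rw [R.anti hp ha, j1.1, k1, neg_zero]
          · rw [R.anti hp hb, j2.1, k2]
            exact neg_ne_zero.mpr (inv_ne_zero R.z0)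
          · rw [hαβ, uherm_add_right Φ, uherm_smul_right Φ, uherm_smul_right Φ, j1.1, k1, j2.1,
              k2, mul_zero, zero_add]
            exact mul_ne_zero ((map_ne_zero Φ.φ).mpr hβ0) (inv_ne_zero R.z0)
        · push Not at hdep
          have hdep' : ∀ α β : F, b ≠ α • a + β • w := by
            intro α β hc
            by_cases hβ0 : β = 0
            · rw [hβ0, zero_smul, add_zero] at hc
              exact hbi α hc
            · apply hdep (-(β⁻¹ * α)) β⁻¹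
              rw [hc, smul_add, smul_smul, smul_smul, inv_mul_cancel₀ hβ0]
              module
          obtain ⟨yA, a1, a2, a3⟩ := h_three_vals Φ a w b ha0 hwi hdep'
          obtain ⟨yB, b1, b2, b3⟩ := h_three_vals Φ a b w ha0 hbi hdep
          obtain ⟨p, p', hp, -, -, hpar⟩ := R.parts ω hω (ζ⁻¹ • (yA + yB))
          have q1 : Cfsg.hermForm n F q (ζ⁻¹ • (yA + yB)) a = 0 := by
            rw [uherm_smul_left, uherm_add_left, a1, b1, add_zero, mul_zero]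
          have q2 : Cfsg.hermForm n F q (ζ⁻¹ • (yA + yB)) b = ζ⁻¹ := by
            rw [uherm_smul_left, uherm_add_left, a3, b2, add_zero, mul_one]
          have q3 : Cfsg.hermForm n F q (ζ⁻¹ • (yA + yB)) w = ζ⁻¹ := by
            rw [uherm_smul_left, uherm_add_left, a2, b3, zero_add, mul_one]
          have j1 := hpar a ha (by rw [q1, mul_zero]; exact F₀.zero_mem)
          have j2 := hpar b hb (by rw [q2, mul_inv_cancel₀ R.z0]; exact F₀.one_mem)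
          have j3 := hpar w hw (by rw [q3, mul_inv_cancel₀ R.z0]; exact F₀.one_mem)
          refine ⟨p, hp, ?_, ?_, ?_⟩
          · rw [R.anti hp ha, j1.1, q1, neg_zero]
          · rw [R.anti hp hb, j2.1, q2]
            exact neg_ne_zero.mpr (inv_ne_zero R.z0)
          · rw [j3.1, q3]
            exact inv_ne_zero R.z0
      have s1 := T1 a b w' ha hb hw' hab h1 h2 hF'
      exact T1 a w' w ha hw' hw h1 haw h3 s1
    · exact T1 a b w ha hb hw hab haw hbw hF'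
  -- all orthogonal rational pairs are full
  have Fall : ∀ w₁ w₂ : Fin n → F, IsRat F₀ P w₁ → IsRat F₀ P w₂ →
      Cfsg.hermForm n F q w₁ w₂ = 0 → ∀ ω' : F, w₁ + ω' • w₂ ∈ udirs Φ M := by
    intro w₁ w₂ hw₁ hw₂ hw₁₂ ω'
    by_cases hw₁0 : w₁ = 0
    · rw [hw₁0, zero_add]
      exact udirs_smul Φ M _ (hH w₂ hw₂) ω'
    by_cases hdep : ∃ c : F, w₂ = c • w₁
    · obtain ⟨c, hc⟩ := hdep
      have e : w₁ + ω' • w₂ = (1 + ω' * c) • w₁ := by
        rw [hc, smul_smul, add_smul, one_smul]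
      rw [e]
      exact udirs_smul Φ M _ (hH w₁ hw₁) _
    push Not at hdep
    obtain ⟨z, hz, hz1, hz2, hzi⟩ := R.zex hF hn ω hω y₁ w₁ hy₁ hw₁
    have hz0 : z ≠ 0 := by
      rintro rfl
      exact hzi 0 0 (by rw [zero_smul, zero_smul, add_zero])
    have hzy : ∀ c : F, z ≠ c • y₁ := fun c hc =>
      hzi c 0 (by rw [zero_smul, add_zero]; exact hc)
    have hzw : ∀ c : F, z ≠ c • w₁ := fun c hc =>
      hzi 0 c (by rw [zero_smul, zero_add]; exact hc)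
    have hy₁z : Cfsg.hermForm n F q y₁ z = 0 := by rw [R.anti hz hy₁, hz1, neg_zero]
    have hw₁z : Cfsg.hermForm n F q w₁ z = 0 := by rw [R.anti hz hw₁, hz2, neg_zero]
    have s1 := T2 y₁ y₂ z hy₁ hy₂ hz hy₁₂ hy₁z hy₁0 hind hzy Fy
    have s2 := T0 y₁ z hy₁ hz s1
    have hy₁z' : ∀ c : F, y₁ ≠ c • z := by
      intro c hc
      by_cases hc0 : c = 0
      · rw [hc0, zero_smul] at hc
        exact hy₁0 hc
      · apply hzy c⁻¹
        rw [hc, smul_smul, inv_mul_cancel₀ hc0, one_smul]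
    have hw₁z' : ∀ c : F, w₁ ≠ c • z := by
      intro c hc
      by_cases hc0 : c = 0
      · rw [hc0, zero_smul] at hc
        exact hw₁0 hc
      · apply hzw c⁻¹
        rw [hc, smul_smul, inv_mul_cancel₀ hc0, one_smul]
    have s3 := T2 z y₁ w₁ hz hy₁ hw₁ hz1 hz2 hz0 hy₁z' hw₁z' s2
    have s4 := T0 z w₁ hz hw₁ s3
    exact T2 w₁ z w₂ hw₁ hz hw₂ hw₁z hw₁₂ hw₁0 hzw hdep s4 ω'
  -- conclusion
  apply top_of_udirs hF Φ (by omega) M
  intro v hv
  obtain ⟨w₁, w₂, hw₁, hw₂, hveq⟩ := R.vdec ω hω v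
  have h12 : Cfsg.hermForm n F q w₁ w₂ = 0 := by
    rw [hveq, R.normf w₁ w₂ hw₁ hw₂ ω] at hv
    rcases mul_eq_zero.mp hv with h2 | h2
    · exact absurd (sub_eq_zero.mp h2) hω
    · exact h2
  rw [hveq]
  exact Fall w₁ w₂ hw₁ hw₂ h12 ω

end core

/-- Let F be the field with q² elements, n ≥ 13 even, and F₀ the subfield with q elements. Let ζ be a non-zero element with ζ + ζ^q = 0 and P an invertible matrix such that ζ times the standard unitary form takes values in F₀ on the F₀-span of the columns of P and the form vanishes on every pair (u, u) of that span (so ζ times the form restricts to a non-degenerate alternating form there). Then the elements of SU_n(q) lying in the subfield group of P form a maximal subgroup of SU_n(q). -/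
theorem result {F : Type*} [Field F] [Fintype F] (n q : ℕ) (hF : Fintype.card F = q ^ 2) (hn : 13 ≤ n) (heven : Even n) (F₀ : Subfield F) (hcard : Fintype.card F = Nat.card F₀ ^ 2) (ζ : F) (hζ0 : ζ ≠ 0) (hζ : ζ + ζ ^ q = 0) (P : Matrix.GeneralLinearGroup (Fin n) F) (hP : Cfsg.Geo.IsFormRationalStructure (Cfsg.hermForm n F q) F₀ ζ P) (halt : ∀ u : Fin n → F, (∀ i, u i ∈ F₀) → Cfsg.hermForm n F q (Matrix.mulVec (P : Matrix (Fin n) (Fin n) F) u) (Matrix.mulVec (P : Matrix (Fin n) (Fin n) F) u) = 0) : Cfsg.Geo.IsMaximalIn (Cfsg.GU n F q ⊓ Cfsg.Geo.specialLinear (Fin n) F) (Cfsg.Geo.subfieldSubgroup F₀ P ⊓ (Cfsg.GU n F q ⊓ Cfsg.Geo.specialLinear (Fin n) F)) := by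
  classical
  obtain ⟨Φ⟩ := Cfsg.Agent.Helper16.exists_Frob hF
  have hζ' : ζ + Φ.φ ζ = 0 := by rw [Φ.hφ]; exact hζ
  have R : RatS Φ F₀ ζ (P : Matrix (Fin n) (Fin n) F)
      ((P⁻¹ : GL (Fin n) F) : Matrix (Fin n) (Fin n) F) :=
    { fix := fun x => ⟨fix_mem hF Φ F₀ hcard x, mem_fix hF Φ F₀ hcard x⟩
      z0 := hζ0
      zs := hζ'
      inv1 := fun v => gl_mulVec_inv P v
      inv2 := fun v => gl_inv_mulVec P v
      frat := by
        rintro x y ⟨u, hu, rfl⟩ ⟨v, hv, rfl⟩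
        exact hP u v hu hv
      alt := by
        rintro x ⟨u, hu, rfl⟩
        exact halt u hu }
  apply Cfsg.Agent.Helper6.maximal_of_core_su
  · exact exists_not_sfg hF Φ hn F₀ ζ P R
  · intro M hH hex
    obtain ⟨A, hAM, hA⟩ := hex
    apply core_sf hF Φ hn F₀ ζ _ _ R M
    · intro y hy
      exact ⟨R.alt y hy, fun c hc t ht => hH t (ut_mem_sfg Φ F₀ ζ P R y hy c hc t ht)⟩
    · exact ⟨A, hAM, nonrat_of_not_mem hF Φ hn F₀ ζ P R A hA⟩

end Cfsg.Agent.S5660
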