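import Mathlib
import Cfsg.Statements.S5659
import Cfsg.Agent.Helper6.UnitMax
import Cfsg.Agent.S5643
import Cfsg.Agent.S5644
import Cfsg.Agent.S5653
import Cfsg.Agent.S5654
import Cfsg.Agent.S5660

set_option autoImplicit false
open Cfsg

namespace Cfsg.Agent.S5659

open Matrix Cfsg.Agent.Helper3 Cfsg.Agent.Helper16 Cfsg.Agent.Helper6 Cfsg.Agent.S5643
  Cfsg.Agent.S5653 Cfsg.Agent.S5654 Cfsg.Agent.S5660

section rato

variable {F : Type*} [Field F] [Fintype F] {n q : ℕ}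

/-- the data of an orthogonal rational structure for the hermitian form -/
structure RatO (Φ : Frob F q) (F₀ : Subfield F) (δ : F) (P Q : Matrix (Fin n) (Fin n) F) :
    Prop where
  fix : ∀ x, Φ.φ x = x ↔ x ∈ F₀
  d0 : δ ≠ 0
  ds : δ + Φ.φ δ = 0
  two : (2 : F) ≠ 0
  inv1 : ∀ v, P *ᵥ (Q *ᵥ v) = v
  inv2 : ∀ v, Q *ᵥ (P *ᵥ v) = v
  frat : ∀ x y, IsRat F₀ P x → IsRat F₀ P y → Cfsg.hermForm n F q x y ∈ F₀
  univ : ∀ a b r : F, a ∈ F₀ → b ∈ F₀ → r ∈ F₀ → a ≠ 0 → b ≠ 0 →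
    ∃ x ∈ F₀, ∃ y ∈ F₀, a * x ^ 2 + b * y ^ 2 = r

variable {Φ : Frob F q} {F₀ : Subfield F} {δ : F} {P Q : Matrix (Fin n) (Fin n) F}

theorem RatO.dne (R : RatO Φ F₀ δ P Q) : Φ.φ δ ≠ δ := by
  intro h
  have h1 := R.ds
  rw [h] at h1
  have h2 : (2 : F) * δ = 0 := by linear_combination h1
  rcases mul_eq_zero.mp h2 with h3 | h3
  · exact R.two h3
  · exact R.d0 h3

theorem RatO.phid (R : RatO Φ F₀ δ P Q) : Φ.φ δ = -δ := by linear_combination R.ds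

theorem RatO.two_mem (R : RatO Φ F₀ δ P Q) : (2 : F) ∈ F₀ := by
  have h := F₀.add_mem F₀.one_mem F₀.one_mem
  rwa [one_add_one_eq_two] at h

theorem RatO.symm (R : RatO Φ F₀ δ P Q) {x y : Fin n → F} (hx : IsRat F₀ P x)
    (hy : IsRat F₀ P y) : Cfsg.hermForm n F q y x = Cfsg.hermForm n F q x y := by
  rw [← uherm_conj Φ x y]
  exact (R.fix _).mpr (R.frat x y hx hy)

theorem RatO.vdec (R : RatO Φ F₀ δ P Q) (v : Fin n → F) :
    ∃ a b, IsRat F₀ P a ∧ IsRat F₀ P b ∧ v = a + δ • b := by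
  choose a ha b hb hab using fun i => sdec Φ F₀ R.fix δ R.dne ((Q *ᵥ v) i)
  refine ⟨P *ᵥ a, P *ᵥ b, ⟨a, ha, rfl⟩, ⟨b, hb, rfl⟩, ?_⟩
  rw [← Matrix.mulVec_smul, ← Matrix.mulVec_add]
  have e : a + δ • b = Q *ᵥ v := by
    funext i
    rw [Pi.add_apply, Pi.smul_apply, smul_eq_mul, ← hab i]
  rw [e, R.inv1]

theorem RatO.vuniq (R : RatO Φ F₀ δ P Q) (a b : Fin n → F)
    (ha : IsRat F₀ P a) (hb : IsRat F₀ P b) (h : a + δ • b = 0) : a = 0 ∧ b = 0 := by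
  obtain ⟨u, hu, rfl⟩ := ha
  obtain ⟨w, hw, rfl⟩ := hb
  rw [← Matrix.mulVec_smul, ← Matrix.mulVec_add] at h
  have h2 : u + δ • w = 0 := by
    have h3 := congrArg (fun x => Q *ᵥ x) h
    rw [R.inv2, Matrix.mulVec_zero] at h3
    exact h3
  have h4 : ∀ i, u i = 0 ∧ w i = 0 := fun i =>
    suniq Φ F₀ R.fix δ R.dne (u i) (w i) (hu i) (hw i) (by
      have h5 := congrFun h2 i
      rwa [Pi.add_apply, Pi.smul_apply, smul_eq_mul, Pi.zero_apply] at h5)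
  have hu0 : u = 0 := funext fun i => (h4 i).1
  have hw0 : w = 0 := funext fun i => (h4 i).2
  rw [hu0, hw0, Matrix.mulVec_zero]
  exact ⟨rfl, rfl⟩

theorem RatO.split (R : RatO Φ F₀ δ P Q) {a b x : Fin n → F} (ha : IsRat F₀ P a)
    (hb : IsRat F₀ P b) (hx : IsRat F₀ P x)
    (hmem : Cfsg.hermForm n F q (a + δ • b) x ∈ F₀) :
    Cfsg.hermForm n F q a x = Cfsg.hermForm n F q (a + δ • b) x ∧
      Cfsg.hermForm n F q b x = 0 := by
  have e : Cfsg.hermForm n F q (a + δ • b) x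
      = Cfsg.hermForm n F q a x + δ * Cfsg.hermForm n F q b x := by
    rw [uherm_add_left, uherm_smul_left]
  have h1 := suniq Φ F₀ R.fix δ R.dne
    (Cfsg.hermForm n F q a x - Cfsg.hermForm n F q (a + δ • b) x)
    (Cfsg.hermForm n F q b x) (F₀.sub_mem (R.frat a x ha hx) hmem) (R.frat b x hb hx)
    (by rw [e]; ring)
  exact ⟨sub_eq_zero.mp h1.1, h1.2⟩

theorem RatO.split0 (R : RatO Φ F₀ δ P Q) {a b x : Fin n → F} (ha : IsRat F₀ P a)
    (hb : IsRat F₀ P b) (hx : IsRat F₀ P x)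
    (h0 : Cfsg.hermForm n F q (a + δ • b) x = 0) :
    Cfsg.hermForm n F q a x = 0 ∧ Cfsg.hermForm n F q b x = 0 := by
  have h := R.split ha hb hx (by rw [h0]; exact F₀.zero_mem)
  exact ⟨by rw [h.1, h0], h.2⟩

/-- the norm of `a + δ b` for rational `a, b` -/
theorem RatO.normf (R : RatO Φ F₀ δ P Q) (a b : Fin n → F) (ha : IsRat F₀ P a)
    (hb : IsRat F₀ P b) :
    Cfsg.hermForm n F q (a + δ • b) (a + δ • b)
      = Cfsg.hermForm n F q a a - δ ^ 2 * Cfsg.hermForm n F q b b := by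
  simp only [uherm_add_left, uherm_add_right Φ, uherm_smul_left, uherm_smul_right Φ, R.phid,
    R.symm ha hb]
  ring

/-- `a + δ b` is not a scalar multiple of a rational vector when `a, b` are independent -/
theorem RatO.nonrat (R : RatO Φ F₀ δ P Q) (a b : Fin n → F)
    (ha : IsRat F₀ P a) (hb : IsRat F₀ P b) (ha0 : a ≠ 0) (hind : ∀ c : F, b ≠ c • a) :
    ¬ ∃ μ : F, ∃ u', IsRat F₀ P u' ∧ a + δ • b = μ • u' := by
  rintro ⟨μ, u', hu', h⟩
  obtain ⟨m₁, hm₁, m₂, hm₂, hm⟩ := sdec Φ F₀ R.fix δ R.dne μ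
  have h0 : (a - m₁ • u') + δ • (b - m₂ • u') = 0 := by
    have e : (a - m₁ • u') + δ • (b - m₂ • u') = a + δ • b - μ • u' := by
      rw [hm]
      module
    rw [e, h, sub_self]
  obtain ⟨k1, k2⟩ := R.vuniq _ _ (isRat_sub ha (isRat_smul m₁ hm₁ hu'))
    (isRat_sub hb (isRat_smul m₂ hm₂ hu')) h0
  have ka : a = m₁ • u' := sub_eq_zero.mp k1
  have kb : b = m₂ • u' := sub_eq_zero.mp k2
  by_cases hm₁0 : m₁ = 0
  · rw [hm₁0, zero_smul] at ka
    exact ha0 ka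
  · apply hind (m₂ / m₁)
    rw [kb, ka, smul_smul, div_mul_cancel₀ _ hm₁0]

/-- iterated cuts by the hermitian form -/
theorem ucutL (l : List (Fin n → F)) : ∃ K : Submodule F (Fin n → F),
    (∀ t ∈ K, ∀ a ∈ l, Cfsg.hermForm n F q t a = 0) ∧ n ≤ Module.finrank F K + l.length := by
  induction l with
  | nil =>
    refine ⟨⊤, fun t _ a ha => absurd ha List.not_mem_nil, ?_⟩
    rw [finrank_top, Module.finrank_fin_fun]
    exact Nat.le_add_right _ _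
  | cons a l ih =>
    obtain ⟨K, hK, hfr⟩ := ih
    refine ⟨ucut q K a, ?_, ?_⟩
    · intro t ht b hb
      rw [mem_ucut] at ht
      rcases List.mem_cons.mp hb with rfl | hb'
      · exact ht.2
      · exact hK t ht.1 b hb'
    · have h1 := ucut_finrank (q := q) K a
      rw [List.length_cons]
      omega

theorem perpL (l : List (Fin n → F)) (hlen : l.length < n) :
    ∃ t : Fin n → F, t ≠ 0 ∧ ∀ a ∈ l, Cfsg.hermForm n F q t a = 0 := by
  obtain ⟨K, hK, hfr⟩ := ucutL (q := q) l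
  obtain ⟨t, ht, ht0⟩ := exists_ne_zero' K (by omega)
  exact ⟨t, ht0, hK t ht⟩

theorem perpN (hF : Fintype.card F = q ^ 2) (Φ : Frob F q) (l : List (Fin n → F))
    (hlen : 2 * l.length < n) :
    ∃ t : Fin n → F, Cfsg.hermForm n F q t t ≠ 0 ∧ ∀ a ∈ l, Cfsg.hermForm n F q t a = 0 := by
  obtain ⟨K, hK, hfr⟩ := ucutL (q := q) l
  obtain ⟨t, ht, htN⟩ := exists_noniso hF Φ K (by omega)
  exact ⟨t, htN, hK t ht⟩

/-- a non-zero rational vector orthogonal to a list of rational vectors -/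
theorem RatO.perp (R : RatO Φ F₀ δ P Q) (l : List (Fin n → F))
    (hl : ∀ a ∈ l, IsRat F₀ P a) (hlen : l.length < n) :
    ∃ z, IsRat F₀ P z ∧ z ≠ 0 ∧ ∀ a ∈ l, Cfsg.hermForm n F q z a = 0 := by
  obtain ⟨t, ht0, ht⟩ := perpL (q := q) l hlen
  obtain ⟨a, b, ha, hb, hab⟩ := R.vdec t
  have key : ∀ x ∈ l, Cfsg.hermForm n F q a x = 0 ∧ Cfsg.hermForm n F q b x = 0 :=
    fun x hx => R.split0 ha hb (hl x hx) (by rw [← hab]; exact ht x hx)
  by_cases ha0 : a = 0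
  · refine ⟨b, hb, ?_, fun x hx => (key x hx).2⟩
    rintro rfl
    apply ht0
    rw [hab, ha0, smul_zero, add_zero]
  · exact ⟨a, ha, ha0, fun x hx => (key x hx).1⟩

/-- a non-singular rational vector orthogonal to a list of rational vectors -/
theorem RatO.nons (hF : Fintype.card F = q ^ 2) (R : RatO Φ F₀ δ P Q) (l : List (Fin n → F))
    (hl : ∀ a ∈ l, IsRat F₀ P a) (hlen : 2 * l.length < n) :
    ∃ s, IsRat F₀ P s ∧ Cfsg.hermForm n F q s s ≠ 0 ∧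
      ∀ a ∈ l, Cfsg.hermForm n F q s a = 0 := by
  obtain ⟨t, htN, ht⟩ := perpN hF Φ l hlen
  obtain ⟨a, b, ha, hb, hab⟩ := R.vdec t
  have key : ∀ x ∈ l, Cfsg.hermForm n F q a x = 0 ∧ Cfsg.hermForm n F q b x = 0 :=
    fun x hx => R.split0 ha hb (hl x hx) (by rw [← hab]; exact ht x hx)
  by_cases haN : Cfsg.hermForm n F q a a = 0
  · refine ⟨b, hb, ?_, fun x hx => (key x hx).2⟩
    intro hbN
    apply htN
    rw [hab, R.normf a b ha hb, haN, hbN]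
    ring
  · exact ⟨a, ha, haN, fun x hx => (key x hx).1⟩

/-- a rational vector of prescribed norm orthogonal to a list of rational vectors -/
theorem RatO.norm (hF : Fintype.card F = q ^ 2) (R : RatO Φ F₀ δ P Q) (l : List (Fin n → F))
    (hl : ∀ a ∈ l, IsRat F₀ P a) (hlen : 2 * (l.length + 1) < n) (r : F) (hr : r ∈ F₀) :
    ∃ s, IsRat F₀ P s ∧ Cfsg.hermForm n F q s s = r ∧
      ∀ a ∈ l, Cfsg.hermForm n F q s a = 0 := by
  obtain ⟨s₁, hs₁, hN₁, hp₁⟩ := R.nons hF l hl (by omega)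
  have hl' : ∀ a ∈ s₁ :: l, IsRat F₀ P a := by
    intro a ha
    rcases List.mem_cons.mp ha with rfl | h
    · exact hs₁
    · exact hl a h
  obtain ⟨s₂, hs₂, hN₂, hp₂⟩ := R.nons hF (s₁ :: l) hl' (by rw [List.length_cons]; omega)
  have h21 : Cfsg.hermForm n F q s₂ s₁ = 0 := hp₂ s₁ (by simp)
  have h12 : Cfsg.hermForm n F q s₁ s₂ = 0 := by rw [R.symm hs₂ hs₁]; exact h21
  obtain ⟨x, hx, y, hy, hxy⟩ := R.univ _ _ r (R.frat s₁ s₁ hs₁ hs₁) (R.frat s₂ s₂ hs₂ hs₂) hr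
    hN₁ hN₂
  refine ⟨x • s₁ + y • s₂, isRat_add (isRat_smul x hx hs₁) (isRat_smul y hy hs₂), ?_, ?_⟩
  · simp only [uherm_add_left, uherm_add_right Φ, uherm_smul_left, uherm_smul_right Φ,
      (R.fix x).mpr hx, (R.fix y).mpr hy, h12, h21]
    linear_combination hxy
  · intro a ha
    rw [uherm_add_left, uherm_smul_left, uherm_smul_left, hp₁ a ha,
      hp₂ a (List.mem_cons_of_mem _ ha)]
    ring

/-- a non-zero singular rational vector orthogonal to a list of rational vectors -/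
theorem RatO.sing (R : RatO Φ F₀ δ P Q) (l : List (Fin n → F))
    (hl : ∀ a ∈ l, IsRat F₀ P a) (hlen : l.length + 2 < n) :
    ∃ z, IsRat F₀ P z ∧ z ≠ 0 ∧ Cfsg.hermForm n F q z z = 0 ∧
      ∀ a ∈ l, Cfsg.hermForm n F q z a = 0 := by
  obtain ⟨z₁, hz₁, hz₁0, hp₁⟩ := R.perp l hl (by omega)
  by_cases hN₁ : Cfsg.hermForm n F q z₁ z₁ = 0
  · exact ⟨z₁, hz₁, hz₁0, hN₁, hp₁⟩
  have hl₁ : ∀ a ∈ z₁ :: l, IsRat F₀ P a := by
    intro a ha
    rcases List.mem_cons.mp ha with rfl | h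
    · exact hz₁
    · exact hl a h
  obtain ⟨z₂, hz₂, hz₂0, hp₂⟩ := R.perp (z₁ :: l) hl₁ (by rw [List.length_cons]; omega)
  by_cases hN₂ : Cfsg.hermForm n F q z₂ z₂ = 0
  · exact ⟨z₂, hz₂, hz₂0, hN₂, fun a ha => hp₂ a (List.mem_cons_of_mem _ ha)⟩
  have hl₂ : ∀ a ∈ z₂ :: z₁ :: l, IsRat F₀ P a := by
    intro a ha
    rcases List.mem_cons.mp ha with rfl | h
    · exact hz₂
    · exact hl₁ a h
  obtain ⟨z₃, hz₃, hz₃0, hp₃⟩ := R.perp (z₂ :: z₁ :: l) hl₂ (by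
    rw [List.length_cons, List.length_cons]; omega)
  by_cases hN₃ : Cfsg.hermForm n F q z₃ z₃ = 0
  · exact ⟨z₃, hz₃, hz₃0, hN₃, fun a ha =>
      hp₃ a (List.mem_cons_of_mem _ (List.mem_cons_of_mem _ ha))⟩
  obtain ⟨x, hx, y, hy, hxy⟩ := R.univ _ _ (-(Cfsg.hermForm n F q z₃ z₃))
    (R.frat z₁ z₁ hz₁ hz₁) (R.frat z₂ z₂ hz₂ hz₂) (F₀.neg_mem (R.frat z₃ z₃ hz₃ hz₃)) hN₁ hN₂
  have h21 : Cfsg.hermForm n F q z₂ z₁ = 0 := hp₂ z₁ (by simp)
  have h31 : Cfsg.hermForm n F q z₃ z₁ = 0 := hp₃ z₁ (by simp)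
  have h32 : Cfsg.hermForm n F q z₃ z₂ = 0 := hp₃ z₂ (by simp)
  have h12 : Cfsg.hermForm n F q z₁ z₂ = 0 := by rw [R.symm hz₂ hz₁]; exact h21
  have h13 : Cfsg.hermForm n F q z₁ z₃ = 0 := by rw [R.symm hz₃ hz₁]; exact h31
  have h23 : Cfsg.hermForm n F q z₂ z₃ = 0 := by rw [R.symm hz₃ hz₂]; exact h32
  refine ⟨x • z₁ + y • z₂ + z₃,
    isRat_add (isRat_add (isRat_smul x hx hz₁) (isRat_smul y hy hz₂)) hz₃, ?_, ?_, ?_⟩
  · intro h0
    have h1 : Cfsg.hermForm n F q (x • z₁ + y • z₂ + z₃) z₃ = Cfsg.hermForm n F q z₃ z₃ := by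
      rw [uherm_add_left, uherm_add_left, uherm_smul_left, uherm_smul_left, h13, h23]
      ring
    rw [h0, uherm_zero_left] at h1
    exact hN₃ h1.symm
  · simp only [uherm_add_left, uherm_add_right Φ, uherm_smul_left, uherm_smul_right Φ,
      (R.fix x).mpr hx, (R.fix y).mpr hy, h12, h21, h13, h31, h23, h32]
    linear_combination hxy
  · intro a ha
    rw [uherm_add_left, uherm_add_left, uherm_smul_left, uherm_smul_left, hp₁ a ha,
      hp₂ a (List.mem_cons_of_mem _ ha),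
      hp₃ a (List.mem_cons_of_mem _ (List.mem_cons_of_mem _ ha))]
    ring

/-- a singular rational vector with the same values as a given rational vector -/
theorem RatO.mks (hF : Fintype.card F = q ^ 2) (R : RatO Φ F₀ δ P Q) (l : List (Fin n → F))
    (hl : ∀ a ∈ l, IsRat F₀ P a) (hlen : 2 * (l.length + 2) < n) (x₀ : Fin n → F)
    (hx₀ : IsRat F₀ P x₀) :
    ∃ x, IsRat F₀ P x ∧ Cfsg.hermForm n F q x x = 0 ∧
      ∀ a ∈ l, Cfsg.hermForm n F q x a = Cfsg.hermForm n F q x₀ a := by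
  have hl' : ∀ a ∈ x₀ :: l, IsRat F₀ P a := by
    intro a ha
    rcases List.mem_cons.mp ha with rfl | h
    · exact hx₀
    · exact hl a h
  obtain ⟨s, hs, hsN, hsp⟩ := R.norm hF (x₀ :: l) hl' (by rw [List.length_cons]; omega)
    (-(Cfsg.hermForm n F q x₀ x₀)) (F₀.neg_mem (R.frat x₀ x₀ hx₀ hx₀))
  have s0 : Cfsg.hermForm n F q s x₀ = 0 := hsp x₀ (by simp)
  have s0' : Cfsg.hermForm n F q x₀ s = 0 := by rw [R.symm hs hx₀]; exact s0
  refine ⟨x₀ + s, isRat_add hx₀ hs, ?_, ?_⟩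
  · rw [uherm_add_left, uherm_add_right Φ, uherm_add_right Φ, s0, s0', hsN]
    ring
  · intro a ha
    rw [uherm_add_left, hsp a (List.mem_cons_of_mem _ ha), add_zero]

theorem RatO.two_vals (hF : Fintype.card F = q ^ 2) (hn : 13 ≤ n) (R : RatO Φ F₀ δ P Q)
    (y₁ y₂ : Fin n → F) (hy₁ : IsRat F₀ P y₁) (hy₂ : IsRat F₀ P y₂) (h0 : y₁ ≠ 0)
    (hind : ∀ c : F, y₂ ≠ c • y₁) (r₁ r₂ : F) (hr₁ : r₁ ∈ F₀) (hr₂ : r₂ ∈ F₀) :
    ∃ x, IsRat F₀ P x ∧ Cfsg.hermForm n F q x x = 0 ∧ Cfsg.hermForm n F q x y₁ = r₁ ∧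
      Cfsg.hermForm n F q x y₂ = r₂ := by
  obtain ⟨t, k1, k2⟩ := exists_two_vals Φ y₁ y₂ h0 hind r₁ r₂
  obtain ⟨a, b, ha, hb, hab⟩ := R.vdec t
  have j1 := R.split ha hb hy₁ (by rw [← hab, k1]; exact hr₁)
  have j2 := R.split ha hb hy₂ (by rw [← hab, k2]; exact hr₂)
  obtain ⟨x, hx, hxN, hxp⟩ := R.mks hF [y₁, y₂] (by
    intro c hc
    simp only [List.mem_cons, List.not_mem_nil, or_false] at hc
    rcases hc with rfl | rfl
    · exact hy₁
    · exact hy₂) (by simp only [List.length_cons, List.length_nil]; omega) a ha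
  refine ⟨x, hx, hxN, ?_, ?_⟩
  · rw [hxp y₁ (by simp), j1.1, ← hab, k1]
  · rw [hxp y₂ (by simp), j2.1, ← hab, k2]

theorem RatO.one_val (hF : Fintype.card F = q ^ 2) (hn : 13 ≤ n) (R : RatO Φ F₀ δ P Q)
    (y : Fin n → F) (hy : IsRat F₀ P y) (h0 : y ≠ 0) (r : F) (hr : r ∈ F₀) :
    ∃ x, IsRat F₀ P x ∧ Cfsg.hermForm n F q x x = 0 ∧ Cfsg.hermForm n F q x y = r := by
  obtain ⟨t, k1⟩ := exists_val_u Φ y h0 r
  obtain ⟨a, b, ha, hb, hab⟩ := R.vdec t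
  have j1 := R.split ha hb hy (by rw [← hab, k1]; exact hr)
  obtain ⟨x, hx, hxN, hxp⟩ := R.mks hF [y] (by
    intro c hc
    simp only [List.mem_cons, List.not_mem_nil, or_false] at hc
    rw [hc]
    exact hy) (by simp only [List.length_cons, List.length_nil]; omega) a ha
  exact ⟨x, hx, hxN, by rw [hxp y (by simp), j1.1, ← hab, k1]⟩

/-- a vector orthogonal to `x` is independent of `u` when `h(x, u) = 1` -/
theorem RatO.indep (R : RatO Φ F₀ δ P Q) {x u w : Fin n → F} (hx : IsRat F₀ P x)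
    (hu : IsRat F₀ P u) (hxu : Cfsg.hermForm n F q x u = 1)
    (hwx : Cfsg.hermForm n F q w x = 0) (hw0 : w ≠ 0) : ∀ c : F, w ≠ c • u := by
  intro c hc
  have h1 : Cfsg.hermForm n F q w x = c := by
    rw [hc, uherm_smul_left, R.symm hx hu, hxu, mul_one]
  rw [hwx] at h1
  rw [← h1, zero_smul] at hc
  exact hw0 hc

end rato

section sfgo

open scoped Pointwise

variable {F : Type*} [Field F] [Fintype F] {n q : ℕ}

/-- binary quadratic forms over the subfield are universal -/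
theorem sub_sq_sum (F₀' : Subfield F) (hq : Nat.card F₀' = q) (hodd : Odd q) (a b r : F) (ha : a ∈ F₀')
    (hb : b ∈ F₀') (hr : r ∈ F₀') (ha0 : a ≠ 0) (hb0 : b ≠ 0) :
    ∃ x ∈ F₀', ∃ y ∈ F₀', a * x ^ 2 + b * y ^ 2 = r := by
  classical
  haveI : Fintype F₀' := Fintype.ofFinite F₀'
  have hq' : Fintype.card F₀' = q := by
    rw [← Nat.card_eq_fintype_card]
    exact hq
  obtain ⟨x, y, hxy⟩ := Cfsg.Agent.S5644.exists_sq_sum (F := F₀') (by rw [hq']; exact hodd)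
    ⟨a, ha⟩ ⟨b, hb⟩ ⟨r, hr⟩ (fun h => ha0 (congrArg Subtype.val h))
    (fun h => hb0 (congrArg Subtype.val h))
  refine ⟨x, x.2, y, y.2, ?_⟩
  have h3 := congrArg (fun z : F₀' => (z : F)) hxy
  simpa using h3

/-- rational Siegel elements lie in the subfield group -/
theorem sg_mem_sfg (Φ : Frob F q) (F₀ : Subfield F) (δ : F) (P : GL (Fin n) F)
    (R : RatO Φ F₀ δ (P : Matrix (Fin n) (Fin n) F)
      ((P⁻¹ : GL (Fin n) F) : Matrix (Fin n) (Fin n) F))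
    (a b : Fin n → F) (ha : IsRat F₀ (P : Matrix (Fin n) (Fin n) F) a)
    (hb : IsRat F₀ (P : Matrix (Fin n) (Fin n) F) b) (c : F) (hc : c ∈ F₀)
    (t : ↥(Cfsg.SU n F q)) (ht : IsSg Φ t a b c) :
    Matrix.SpecialLinearGroup.toGL (t : Matrix.SpecialLinearGroup (Fin n) F) ∈
      Cfsg.Geo.subfieldSubgroup F₀ P := by
  classical
  obtain ⟨a₀, ha₀, hae⟩ := ha
  obtain ⟨b₀, hb₀, hbe⟩ := hb
  obtain ⟨X, hX⟩ : ∃ X : Matrix (Fin n) (Fin n) F, ∀ i j, X i j = (if i = j then 1 else 0)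
      + c * Cfsg.hermForm n F q ((P : Matrix (Fin n) (Fin n) F) *ᵥ Pi.single j 1) a * b₀ i
      - c * Cfsg.hermForm n F q ((P : Matrix (Fin n) (Fin n) F) *ᵥ Pi.single j 1) b * a₀ i :=
    ⟨Matrix.of fun i j => (if i = j then 1 else 0)
      + c * Cfsg.hermForm n F q ((P : Matrix (Fin n) (Fin n) F) *ᵥ Pi.single j 1) a * b₀ i
      - c * Cfsg.hermForm n F q ((P : Matrix (Fin n) (Fin n) F) *ᵥ Pi.single j 1) b * a₀ i,
      fun i j => rfl⟩
  apply mem_sfg F₀ P _ 1 one_ne_zero X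
  · intro i j
    rw [hX]
    refine F₀.sub_mem (F₀.add_mem ?_ (F₀.mul_mem (F₀.mul_mem hc
      (R.frat _ a (isRat_col F₀ _ j) ⟨a₀, ha₀, hae⟩)) (hb₀ i)))
      (F₀.mul_mem (F₀.mul_mem hc (R.frat _ b (isRat_col F₀ _ j) ⟨b₀, hb₀, hbe⟩)) (ha₀ i))
    split_ifs
    · exact F₀.one_mem
    · exact F₀.zero_mem
  · rw [one_smul]
    apply mat_ext_cols
    intro j
    rw [← Matrix.mulVec_mulVec, ← Matrix.mulVec_mulVec]
    have h1 : ((Matrix.SpecialLinearGroup.toGL (t : Matrix.SpecialLinearGroup (Fin n) F) :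
        GL (Fin n) F) : Matrix (Fin n) (Fin n) F)
        *ᵥ ((P : Matrix (Fin n) (Fin n) F) *ᵥ Pi.single j 1)
        = sact t ((P : Matrix (Fin n) (Fin n) F) *ᵥ Pi.single j 1) := rfl
    have h2 : X *ᵥ Pi.single j 1 = Pi.single j 1 + (c * Cfsg.hermForm n F q
        ((P : Matrix (Fin n) (Fin n) F) *ᵥ Pi.single j 1) a) • b₀
        - (c * Cfsg.hermForm n F q
        ((P : Matrix (Fin n) (Fin n) F) *ᵥ Pi.single j 1) b) • a₀ := by
      funext i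
      rw [Matrix.mulVec_single_one]
      show X i j = _
      rw [hX, Pi.sub_apply, Pi.add_apply, Pi.smul_apply, Pi.smul_apply, smul_eq_mul,
        smul_eq_mul, Pi.single_apply]
    rw [h1, ht, h2, Matrix.mulVec_sub, Matrix.mulVec_add, Matrix.mulVec_smul,
      Matrix.mulVec_smul, ← hae, ← hbe, (R.fix c).mpr hc]

variable {Φ : Frob F q} {F₀ : Subfield F} {δ : F} {P Q : Matrix (Fin n) (Fin n) F}

theorem RatO.ns (R : RatO Φ F₀ δ P Q) (A : ↥(Cfsg.SU n F q)) (u₁ u₂ u₁' u₂' : Fin n → F)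
    (m₁ m₂ : F) (h1 : IsRat F₀ P u₁) (h2 : IsRat F₀ P u₂) (h1' : IsRat F₀ P u₁')
    (h2' : IsRat F₀ P u₂') (e1 : sact A u₁ = m₁ • u₁') (e2 : sact A u₂ = m₂ • u₂')
    (hne : Cfsg.hermForm n F q u₁ u₂ ≠ 0) : ∃ r ∈ F₀, m₂ = r * m₁ := by
  have k := sact_herm A u₁ u₂
  rw [e1, e2, uherm_smul_left, uherm_smul_right Φ] at k
  obtain ⟨f, hf⟩ : ∃ f, f = Cfsg.hermForm n F q u₁ u₂ := ⟨_, rfl⟩
  obtain ⟨f', hf'⟩ : ∃ f', f' = Cfsg.hermForm n F q u₁' u₂' := ⟨_, rfl⟩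
  have hfm : f ∈ F₀ := by rw [hf]; exact R.frat _ _ h1 h2
  have hf'm : f' ∈ F₀ := by rw [hf']; exact R.frat _ _ h1' h2'
  have hf0 : f ≠ 0 := by rw [hf]; exact hne
  have k2 : m₁ * Φ.φ m₂ * f' = f := by
    rw [hf, hf', ← k]
    ring
  have hf'0 : f' ≠ 0 := by
    intro h0
    rw [h0, mul_zero] at k2
    exact hf0 k2.symm
  have hm₁0 : m₁ ≠ 0 := by
    rintro rfl
    rw [zero_mul, zero_mul] at k2
    exact hf0 k2.symm
  have hρ : m₁ * Φ.φ m₂ = f / f' := by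
    rw [eq_div_iff hf'0]
    exact k2
  have hρm : m₁ * Φ.φ m₂ ∈ F₀ := by
    rw [hρ]
    exact F₀.div_mem hfm hf'm
  have hρφ : Φ.φ m₁ * m₂ = m₁ * Φ.φ m₂ := by
    have h3 := (R.fix _).mpr hρm
    rw [map_mul, Φ.hφ2] at h3
    exact h3
  have hN : m₁ * Φ.φ m₁ ∈ F₀ := (R.fix _).mp (by rw [map_mul, Φ.hφ2, mul_comm])
  have hφm₁0 : Φ.φ m₁ ≠ 0 := (map_ne_zero Φ.φ).mpr hm₁0
  refine ⟨m₁ * Φ.φ m₂ / (m₁ * Φ.φ m₁), F₀.div_mem hρm hN, ?_⟩
  rw [div_mul_eq_mul_div, eq_div_iff (mul_ne_zero hm₁0 hφm₁0)]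
  linear_combination m₁ * hρφ

theorem RatO.col_ne_zero (R : RatO Φ F₀ δ P Q) (j : Fin n) :
    P *ᵥ Pi.single j 1 ≠ 0 := by
  intro h0
  have h1 := congrArg (fun v => Q *ᵥ v) h0
  rw [R.inv2, Matrix.mulVec_zero] at h1
  have h2 := congrFun h1 j
  rw [Pi.single_eq_same, Pi.zero_apply] at h2
  exact one_ne_zero h2

/-- an element outside the subfield group moves some rational point to a non-rational one -/
theorem nonrat_of_not_mem_o (hn : 13 ≤ n) (Φ : Frob F q)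
    (F₀ : Subfield F) (δ : F) (P : GL (Fin n) F)
    (R : RatO Φ F₀ δ (P : Matrix (Fin n) (Fin n) F)
      ((P⁻¹ : GL (Fin n) F) : Matrix (Fin n) (Fin n) F))
    (A : ↥(Cfsg.SU n F q))
    (hA : Matrix.SpecialLinearGroup.toGL (A : Matrix.SpecialLinearGroup (Fin n) F) ∉
      Cfsg.Geo.subfieldSubgroup F₀ P) :
    ∃ u, IsRat F₀ (P : Matrix (Fin n) (Fin n) F) u ∧
      ¬ ∃ μ : F, ∃ u', IsRat F₀ (P : Matrix (Fin n) (Fin n) F) u' ∧ sact A u = μ • u' := by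
  classical
  by_contra hcon
  push Not at hcon
  apply hA
  choose μ x hx hμx using fun j => hcon _ (isRat_col F₀ (P : Matrix (Fin n) (Fin n) F) j)
  obtain ⟨j₀, hj₀⟩ : ∃ j₀ : Fin n, j₀ = ⟨0, by omega⟩ := ⟨_, rfl⟩
  have hr : ∀ j : Fin n, ∃ r ∈ F₀, μ j = r * μ j₀ := by
    intro j
    by_cases hj : j = j₀
    · exact ⟨1, F₀.one_mem, by rw [hj, one_mul]⟩
    · have hindc : ∀ c : F, (P : Matrix (Fin n) (Fin n) F) *ᵥ Pi.single j 1
          ≠ c • ((P : Matrix (Fin n) (Fin n) F) *ᵥ Pi.single j₀ 1) := by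
        intro c hc
        have h1 := congrArg
          (fun v => ((P⁻¹ : GL (Fin n) F) : Matrix (Fin n) (Fin n) F) *ᵥ v) hc
        rw [Matrix.mulVec_smul, R.inv2, R.inv2] at h1
        have h2 := congrFun h1 j
        rw [Pi.single_eq_same, Pi.smul_apply, Pi.single_eq_of_ne hj, smul_zero] at h2
        exact one_ne_zero h2
      obtain ⟨y, k1, k2⟩ := exists_two_vals Φ _ _ (R.col_ne_zero j₀) hindc 1 1
      obtain ⟨w, w', hw, hw', hwe⟩ := R.vdec y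
      have j1 := R.split hw hw' (isRat_col F₀ _ j₀) (by
        rw [← hwe, k1]
        exact F₀.one_mem)
      have j2 := R.split hw hw' (isRat_col F₀ _ j) (by
        rw [← hwe, k2]
        exact F₀.one_mem)
      obtain ⟨m, w'', hw'', hm⟩ := hcon w hw
      have n1 : Cfsg.hermForm n F q ((P : Matrix (Fin n) (Fin n) F) *ᵥ Pi.single j₀ 1) w
          ≠ 0 := by
        rw [R.symm hw (isRat_col F₀ _ j₀), j1.1, ← hwe, k1]
        exact one_ne_zero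
      have n2 : Cfsg.hermForm n F q w ((P : Matrix (Fin n) (Fin n) F) *ᵥ Pi.single j 1)
          ≠ 0 := by
        rw [j2.1, ← hwe, k2]
        exact one_ne_zero
      obtain ⟨r₁, hr₁, e1⟩ := R.ns A _ _ _ _ _ _ (isRat_col F₀ _ j₀) hw (hx j₀) hw'' (hμx j₀)
        hm n1
      obtain ⟨r₂, hr₂, e2⟩ := R.ns A _ _ _ _ _ _ hw (isRat_col F₀ _ j) hw'' (hx j) hm (hμx j)
        n2
      exact ⟨r₂ * r₁, F₀.mul_mem hr₂ hr₁, by rw [e2, e1, mul_assoc]⟩
  choose r hr hμr using hr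
  have hx' : ∀ j, ∃ u : Fin n → F, (∀ i, u i ∈ F₀) ∧
      x j = (P : Matrix (Fin n) (Fin n) F) *ᵥ u := hx
  choose crd hcrd hxc using hx'
  have hc0 : μ j₀ ≠ 0 := by
    intro h0
    have h1 := hμx j₀
    rw [h0, zero_smul] at h1
    exact sact_ne_zero A _ (R.col_ne_zero j₀) h1
  obtain ⟨X, hX⟩ : ∃ X : Matrix (Fin n) (Fin n) F, ∀ i j, X i j = r j * crd j i :=
    ⟨Matrix.of fun i j => r j * crd j i, fun i j => rfl⟩
  apply mem_sfg F₀ P _ (μ j₀) hc0 X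
  · intro i j
    rw [hX]
    exact F₀.mul_mem (hr j) (hcrd j i)
  · apply mat_ext_cols
    intro j
    rw [← Matrix.mulVec_mulVec, Matrix.smul_mulVec, ← Matrix.mulVec_mulVec]
    have h1 : ((Matrix.SpecialLinearGroup.toGL (A : Matrix.SpecialLinearGroup (Fin n) F) :
        GL (Fin n) F) : Matrix (Fin n) (Fin n) F)
        *ᵥ ((P : Matrix (Fin n) (Fin n) F) *ᵥ Pi.single j 1)
        = sact A ((P : Matrix (Fin n) (Fin n) F) *ᵥ Pi.single j 1) := rfl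
    have h2 : X *ᵥ Pi.single j 1 = r j • crd j := by
      funext i
      rw [Matrix.mulVec_single_one]
      show X i j = _
      rw [hX, Pi.smul_apply, smul_eq_mul]
    rw [h1, hμx j, hxc j, hμr j, h2, Matrix.mulVec_smul, smul_smul, mul_comm]

/-- an element outside the subfield group moves some singular rational point to a
non-rational one -/
theorem sing_nonrat (hF : Fintype.card F = q ^ 2) (hn : 13 ≤ n) (Φ : Frob F q)
    (F₀ : Subfield F) (δ : F) (P : GL (Fin n) F)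
    (R : RatO Φ F₀ δ (P : Matrix (Fin n) (Fin n) F)
      ((P⁻¹ : GL (Fin n) F) : Matrix (Fin n) (Fin n) F))
    (A : ↥(Cfsg.SU n F q))
    (hA : Matrix.SpecialLinearGroup.toGL (A : Matrix.SpecialLinearGroup (Fin n) F) ∉
      Cfsg.Geo.subfieldSubgroup F₀ P) :
    ∃ u, IsRat F₀ (P : Matrix (Fin n) (Fin n) F) u ∧ Cfsg.hermForm n F q u u = 0 ∧
      ¬ ∃ μ : F, ∃ u', IsRat F₀ (P : Matrix (Fin n) (Fin n) F) u' ∧ sact A u = μ • u' := by
  by_contra hcon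
  push Not at hcon
  obtain ⟨x, hx, hnr⟩ := nonrat_of_not_mem_o hn Φ F₀ δ P R A hA
  apply hnr
  by_cases hN : Cfsg.hermForm n F q x x = 0
  · exact hcon x hx hN
  have hx0 : x ≠ 0 := by
    rintro rfl
    exact hN (uherm_zero_left _)
  obtain ⟨z₁, hz₁, hz₁N, hz₁x⟩ := R.one_val hF hn x hx hx0 (Cfsg.hermForm n F q x x / 2)
    (F₀.div_mem (R.frat x x hx hx) R.two_mem)
  have hz₂ : IsRat F₀ (P : Matrix (Fin n) (Fin n) F) (x - z₁) := isRat_sub hx hz₁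
  have hxz₁ : Cfsg.hermForm n F q x z₁ = Cfsg.hermForm n F q x x / 2 := by
    rw [R.symm hz₁ hx]
    exact hz₁x
  have h2 := R.two
  have hz₂N : Cfsg.hermForm n F q (x - z₁) (x - z₁) = 0 := by
    rw [uherm_sub_left, uherm_sub_right Φ, uherm_sub_right Φ, hz₁N, hz₁x, hxz₁]
    field_simp
    ring
  obtain ⟨μ₁, w₁, hw₁, e₁⟩ := hcon z₁ hz₁ hz₁N
  obtain ⟨μ₂, w₂, hw₂, e₂⟩ := hcon (x - z₁) hz₂ hz₂N
  have hne : Cfsg.hermForm n F q z₁ (x - z₁) ≠ 0 := by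
    rw [uherm_sub_right Φ, hz₁N, hz₁x, sub_zero]
    exact div_ne_zero hN R.two
  obtain ⟨r, hr, e⟩ := R.ns A _ _ _ _ _ _ hz₁ hz₂ hw₁ hw₂ e₁ e₂ hne
  refine ⟨μ₁, w₁ + r • w₂, isRat_add hw₁ (isRat_smul r hr hw₂), ?_⟩
  have e3 : sact A x = sact A z₁ + sact A (x - z₁) := by
    rw [← sact_add]
    congr 1
    abel
  rw [e3, e₁, e₂, e]
  module

theorem exists_not_sfg_o (hF : Fintype.card F = q ^ 2) (hn : 13 ≤ n) (Φ : Frob F q)
    (F₀ : Subfield F) (δ : F) (P : GL (Fin n) F)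
    (R : RatO Φ F₀ δ (P : Matrix (Fin n) (Fin n) F)
      ((P⁻¹ : GL (Fin n) F) : Matrix (Fin n) (Fin n) F)) :
    ∃ A : ↥(Cfsg.SU n F q),
      Matrix.SpecialLinearGroup.toGL (A : Matrix.SpecialLinearGroup (Fin n) F) ∉
        Cfsg.Geo.subfieldSubgroup F₀ P := by
  classical
  obtain ⟨u₁, hu₁, hu₁0, hu₁N, -⟩ := R.sing [] (by
    intro a ha
    exact absurd ha List.not_mem_nil) (by simp only [List.length_nil]; omega)
  obtain ⟨x₁, hx₁, -, hx₁u⟩ := R.one_val hF hn u₁ hu₁ hu₁0 1 F₀.one_mem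
  obtain ⟨z, hz, hz0, hzN, hzp⟩ := R.sing [u₁, x₁] (by
    intro c hc
    simp only [List.mem_cons, List.not_mem_nil, or_false] at hc
    rcases hc with rfl | rfl
    · exact hu₁
    · exact hx₁) (by simp only [List.length_cons, List.length_nil]; omega)
  have hzu : Cfsg.hermForm n F q z u₁ = 0 := hzp _ (by simp)
  have hzx : Cfsg.hermForm n F q z x₁ = 0 := hzp _ (by simp)
  have hzind : ∀ c : F, z ≠ c • u₁ := R.indep hx₁ hu₁ hx₁u hzx hz0
  have hyN : Cfsg.hermForm n F q (u₁ + δ • z) (u₁ + δ • z) = 0 := by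
    rw [R.normf u₁ z hu₁ hz, hu₁N, hzN]
    ring
  have hnr := R.nonrat u₁ z hu₁ hz hu₁0 hzind
  have hy0 : u₁ + δ • z ≠ 0 := by
    intro h0
    apply hnr
    exact ⟨0, 0, isRat_zero F₀ _, by rw [h0, smul_zero]⟩
  obtain ⟨g, hg⟩ := exists_su_move hF Φ (by omega) u₁ (u₁ + δ • z) hu₁0 hy0 hu₁N hyN
  refine ⟨g, fun hmem => ?_⟩
  obtain ⟨c, hc⟩ := sfg_rat F₀ P _ hmem
  obtain ⟨u', hu', he⟩ := hc u₁ hu₁
  apply hnr
  refine ⟨c, u', hu', ?_⟩
  rw [← hg]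
  exact he

end sfgo

section stages

variable {F : Type*} [Field F] [Fintype F] {n q : ℕ}

/-- stage A: a non-trivial unitary transvection with rational centre -/
theorem so_stageA (hF : Fintype.card F = q ^ 2) (hn : 13 ≤ n) (Φ : Frob F q)
    (F₀ : Subfield F) (δ : F) (P Q : Matrix (Fin n) (Fin n) F) (R : RatO Φ F₀ δ P Q)
    (M : Subgroup ↥(Cfsg.SU n F q))
    (hSg : ∀ a b : Fin n → F, IsRat F₀ P a → IsRat F₀ P b → Cfsg.hermForm n F q a a = 0 →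
      Cfsg.hermForm n F q b b = 0 → Cfsg.hermForm n F q a b = 0 →
      ∀ g : ↥(Cfsg.SU n F q), IsSg Φ g a b 1 → g ∈ M)
    (g : ↥(Cfsg.SU n F q)) (hg : g ∈ M) (u₀ : Fin n → F) (hu₀ : IsRat F₀ P u₀)
    (hu₀N : Cfsg.hermForm n F q u₀ u₀ = 0)
    (hnr : ¬ ∃ μ : F, ∃ u', IsRat F₀ P u' ∧ sact g u₀ = μ • u') :
    ∃ u, IsRat F₀ P u ∧ u ≠ 0 ∧ Cfsg.hermForm n F q u u = 0 ∧
      ∃ κ : F, κ ≠ 0 ∧ κ + Φ.φ κ = 0 ∧ ∃ t ∈ M, IsUt t u κ := by
  have hδ := R.dne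
  have hφδ := R.phid
  -- the non-rational image
  obtain ⟨a₁, a₂, ha₁, ha₂, hae⟩ := R.vdec (sact g u₀)
  have ha₁0 : a₁ ≠ 0 := by
    rintro rfl
    apply hnr
    exact ⟨δ, a₂, ha₂, by rw [hae, zero_add]⟩
  have hind : ∀ c : F, a₂ ≠ c • a₁ := by
    intro c hc
    apply hnr
    refine ⟨1 + δ * c, a₁, ha₁, ?_⟩
    rw [hae, hc, smul_smul, add_smul, one_smul]
  have hu₀0 : u₀ ≠ 0 := by
    rintro rfl
    apply hnr
    exact ⟨0, 0, isRat_zero F₀ P, by rw [sact_zero, smul_zero]⟩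
  obtain ⟨x₀, hx₀, -, hx₀u⟩ := R.one_val hF hn u₀ hu₀ hu₀0 1 F₀.one_mem
  obtain ⟨f, hf0, hfp⟩ := perpL (q := q) [sact g⁻¹ a₁, sact g⁻¹ a₂, x₀] (by
    simp only [List.length_cons, List.length_nil]; omega)
  have f1 : Cfsg.hermForm n F q f (sact g⁻¹ a₁) = 0 := hfp _ (by simp)
  have f2 : Cfsg.hermForm n F q f (sact g⁻¹ a₂) = 0 := hfp _ (by simp)
  have f3 : Cfsg.hermForm n F q f x₀ = 0 := hfp _ (by simp)
  obtain ⟨f₁, f₂, hf₁, hf₂, hfe⟩ := R.vdec f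
  have f3' := R.split0 hf₁ hf₂ hx₀ (by rw [← hfe]; exact f3)
  obtain ⟨v₀, hv₀, hv₀N, hv₀u, hv₀f⟩ : ∃ v₀, IsRat F₀ P v₀ ∧ Cfsg.hermForm n F q v₀ v₀ = 0 ∧
      Cfsg.hermForm n F q v₀ u₀ = 0 ∧ Cfsg.hermForm n F q v₀ f ≠ 0 := by
    have gen : ∀ f' : Fin n → F, IsRat F₀ P f' → f' ≠ 0 → Cfsg.hermForm n F q f' x₀ = 0 →
        ∃ v₀, IsRat F₀ P v₀ ∧ Cfsg.hermForm n F q v₀ v₀ = 0 ∧
          Cfsg.hermForm n F q v₀ u₀ = 0 ∧ Cfsg.hermForm n F q v₀ f' = 1 := by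
      intro f' hf' hf'0 hf'x
      have hi : ∀ c : F, f' ≠ c • u₀ := R.indep hx₀ hu₀ hx₀u hf'x hf'0
      exact R.two_vals hF hn u₀ f' hu₀ hf' hu₀0 hi 0 1 F₀.zero_mem F₀.one_mem
    have expand : ∀ v₀ : Fin n → F, Cfsg.hermForm n F q v₀ f
        = Cfsg.hermForm n F q v₀ f₁ - δ * Cfsg.hermForm n F q v₀ f₂ := by
      intro v₀
      rw [hfe, uherm_add_right Φ, uherm_smul_right Φ, hφδ]
      ring
    by_cases hf₁0 : f₁ = 0
    · have hf₂0 : f₂ ≠ 0 := by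
        rintro rfl
        apply hf0
        rw [hfe, hf₁0, smul_zero, add_zero]
      obtain ⟨v₀, hv₀, hv₀N, k1, k2⟩ := gen f₂ hf₂ hf₂0 f3'.2
      refine ⟨v₀, hv₀, hv₀N, k1, ?_⟩
      rw [expand, hf₁0, uherm_zero_right Φ, k2]
      intro h0
      apply R.d0
      linear_combination -h0
    · obtain ⟨v₀, hv₀, hv₀N, k1, k2⟩ := gen f₁ hf₁ hf₁0 f3'.1
      refine ⟨v₀, hv₀, hv₀N, k1, ?_⟩
      rw [expand, k2]
      intro h0
      have h1 := suniq Φ F₀ R.fix δ hδ 1 (-(Cfsg.hermForm n F q v₀ f₂)) F₀.one_mem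
        (F₀.neg_mem (R.frat v₀ f₂ hv₀ hf₂)) (by linear_combination h0)
      exact one_ne_zero h1.1
  have hb_ind : ∀ x y : F, sact g v₀ ≠ x • a₁ + y • a₂ := by
    intro x y hxy
    apply hv₀f
    have h1 : v₀ = x • sact g⁻¹ a₁ + y • sact g⁻¹ a₂ := by
      have h2 := congrArg (sact g⁻¹) hxy
      rw [sact_inv_left, sact_add, sact_smul, sact_smul] at h2
      exact h2
    rw [h1, uherm_add_left, uherm_smul_left, uherm_smul_left, um_symm Φ _ _ f1,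
      um_symm Φ _ _ f2]
    ring
  -- the conjugated Siegel element
  have hu₀v₀ : Cfsg.hermForm n F q u₀ v₀ = 0 := um_symm Φ _ _ hv₀u
  obtain ⟨ρ₀, hρ₀⟩ := exists_sg hF Φ u₀ v₀ hu₀N hv₀N hu₀v₀ 1
  have hρ₀M : ρ₀ ∈ M := hSg u₀ v₀ hu₀ hv₀ hu₀N hv₀N hu₀v₀ ρ₀ hρ₀
  obtain ⟨m, hm⟩ : ∃ m, m = g * ρ₀ * g⁻¹ := ⟨_, rfl⟩
  have hmM : m ∈ M := by
    rw [hm]
    exact M.mul_mem (M.mul_mem hg hρ₀M) (M.inv_mem hg)
  obtain ⟨a, hadef⟩ : ∃ a, a = sact g u₀ := ⟨_, rfl⟩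
  obtain ⟨b, hbdef⟩ : ∃ b, b = sact g v₀ := ⟨_, rfl⟩
  rw [← hadef] at hae
  have hmact : ∀ x, sact m x = x + Cfsg.hermForm n F q x a • b
      - Cfsg.hermForm n F q x b • a := by
    intro x
    have e1 : Cfsg.hermForm n F q (sact g⁻¹ x) u₀ = Cfsg.hermForm n F q x a := by
      rw [hadef, ← sact_herm g (sact g⁻¹ x) u₀, sact_inv_right]
    have e2 : Cfsg.hermForm n F q (sact g⁻¹ x) v₀ = Cfsg.hermForm n F q x b := by
      rw [hbdef, ← sact_herm g (sact g⁻¹ x) v₀, sact_inv_right]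
    rw [hm, sact_mul, sact_mul, hρ₀ (sact g⁻¹ x), sact_sub, sact_add, sact_smul, sact_smul,
      sact_inv_right, e1, e2, ← hadef, ← hbdef, map_one, one_mul, one_mul]
  -- the vector `v`
  obtain ⟨y, y1, y2, y3⟩ := h_three_vals Φ a₁ a₂ b ha₁0 hind (by rw [hbdef]; exact hb_ind)
  obtain ⟨p₁, p₂, hp₁, hp₂, hye⟩ := R.vdec y
  have q1 := R.split0 hp₁ hp₂ ha₁ (by rw [← hye]; exact y1)
  have q2 := R.split0 hp₁ hp₂ ha₂ (by rw [← hye]; exact y2)
  obtain ⟨b₁, b₂, hb₁, hb₂, hbe⟩ := R.vdec b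
  obtain ⟨v₁, hv₁, hv₁a₁, hv₁a₂, hv₁b⟩ : ∃ v₁, IsRat F₀ P v₁ ∧
      Cfsg.hermForm n F q v₁ a₁ = 0 ∧ Cfsg.hermForm n F q v₁ a₂ = 0 ∧
      Cfsg.hermForm n F q v₁ b ≠ 0 := by
    by_cases hc : Cfsg.hermForm n F q p₁ b = 0
    · refine ⟨p₂, hp₂, q1.2, q2.2, ?_⟩
      intro h0
      have h1 : Cfsg.hermForm n F q y b = 0 := by
        rw [hye, uherm_add_left, uherm_smul_left, hc, h0]
        ring
      rw [y3] at h1
      exact one_ne_zero h1
    · exact ⟨p₁, hp₁, q1.1, q2.1, hc⟩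
  obtain ⟨s, hs, hsN, hsp⟩ := R.norm hF [a₁, a₂, b₁, b₂, v₁] (by
    intro c hc
    simp only [List.mem_cons, List.not_mem_nil, or_false] at hc
    rcases hc with rfl | rfl | rfl | rfl | rfl <;> assumption) (by
    simp only [List.length_cons, List.length_nil]; omega)
    (-(Cfsg.hermForm n F q v₁ v₁)) (F₀.neg_mem (R.frat v₁ v₁ hv₁ hv₁))
  have s1 : Cfsg.hermForm n F q s a₁ = 0 := hsp _ (by simp)
  have s2 : Cfsg.hermForm n F q s a₂ = 0 := hsp _ (by simp)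
  have s3 : Cfsg.hermForm n F q s b₁ = 0 := hsp _ (by simp)
  have s4 : Cfsg.hermForm n F q s b₂ = 0 := hsp _ (by simp)
  have s5 : Cfsg.hermForm n F q s v₁ = 0 := hsp _ (by simp)
  obtain ⟨v, hvdef⟩ : ∃ v, v = v₁ + s := ⟨_, rfl⟩
  have hv : IsRat F₀ P v := by
    rw [hvdef]
    exact isRat_add hv₁ hs
  have hvN : Cfsg.hermForm n F q v v = 0 := by
    rw [hvdef, uherm_add_left, uherm_add_right Φ, uherm_add_right Φ, s5, R.symm hs hv₁, s5,
      hsN]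
    ring
  have hva₁ : Cfsg.hermForm n F q v a₁ = 0 := by
    rw [hvdef, uherm_add_left, hv₁a₁, s1, add_zero]
  have hva₂ : Cfsg.hermForm n F q v a₂ = 0 := by
    rw [hvdef, uherm_add_left, hv₁a₂, s2, add_zero]
  have hva : Cfsg.hermForm n F q v a = 0 := by
    rw [hae, uherm_add_right Φ, uherm_smul_right Φ, hva₁, hva₂]
    ring
  have hsb : Cfsg.hermForm n F q s b = 0 := by
    rw [hbe, uherm_add_right Φ, uherm_smul_right Φ, s3, s4]
    ring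
  obtain ⟨β, hβ⟩ : ∃ β, β = Cfsg.hermForm n F q v b := ⟨_, rfl⟩
  have hβ0 : β ≠ 0 := by
    rw [hβ, hvdef, uherm_add_left, hsb, add_zero]
    exact hv₁b
  -- the vector `w`
  obtain ⟨c₁, hc₁, c₂, hc₂, hγ⟩ := sdec Φ F₀ R.fix δ hδ (δ / β)
  obtain ⟨w, hw, hwN, hwa₁, hwa₂⟩ := R.two_vals hF hn a₁ a₂ ha₁ ha₂ ha₁0 hind c₁ c₂ hc₁ hc₂
  have haw : Cfsg.hermForm n F q a w = δ / β := by
    rw [hae, uherm_add_left, uherm_smul_left, R.symm hw ha₁, R.symm hw ha₂, hwa₁, hwa₂, hγ]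
  -- the centre `u`
  obtain ⟨u, hu, hu0, huN, hup⟩ := R.sing [a₁, a₂, b₁, b₂, v, w] (by
    intro c hc
    simp only [List.mem_cons, List.not_mem_nil, or_false] at hc
    rcases hc with rfl | rfl | rfl | rfl | rfl | rfl <;> assumption) (by
    simp only [List.length_cons, List.length_nil]; omega)
  have u1 : Cfsg.hermForm n F q u a₁ = 0 := hup _ (by simp)
  have u2 : Cfsg.hermForm n F q u a₂ = 0 := hup _ (by simp)
  have u3 : Cfsg.hermForm n F q u b₁ = 0 := hup _ (by simp)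
  have u4 : Cfsg.hermForm n F q u b₂ = 0 := hup _ (by simp)
  have huv : Cfsg.hermForm n F q u v = 0 := hup _ (by simp)
  have huw : Cfsg.hermForm n F q u w = 0 := hup _ (by simp)
  have hua : Cfsg.hermForm n F q u a = 0 := by
    rw [hae, uherm_add_right Φ, uherm_smul_right Φ, u1, u2]
    ring
  have hub : Cfsg.hermForm n F q u b = 0 := by
    rw [hbe, uherm_add_right Φ, uherm_smul_right Φ, u3, u4]
    ring
  have hmu : sact m u = u := by
    rw [hmact, hua, hub, zero_smul, zero_smul, add_zero, sub_zero]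
  have hwu : Cfsg.hermForm n F q w u = 0 := um_symm Φ _ _ huw
  -- the two Siegel elements with centre `u`
  obtain ⟨ρv, hρv⟩ := exists_sg hF Φ u v huN hvN huv 1
  obtain ⟨ρw, hρw⟩ := exists_sg hF Φ u w huN hwN huw 1
  have hρvM : ρv ∈ M := hSg u v hu hv huN hvN huv ρv hρv
  have hρwM : ρw ∈ M := hSg u w hu hw huN hwN huw ρw hρw
  obtain ⟨g₁, hg₁⟩ : ∃ g₁, g₁ = m * ρv * m⁻¹ := ⟨_, rfl⟩
  have hg₁M : g₁ ∈ M := by
    rw [hg₁]
    exact M.mul_mem (M.mul_mem hmM hρvM) (M.inv_mem hmM)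
  obtain ⟨v', hv'⟩ : ∃ v', v' = v - β • a := ⟨_, rfl⟩
  have hmv : sact m v = v' := by
    rw [hmact, hva, zero_smul, add_zero, ← hβ, hv']
  have hg₁act : ∀ x, sact g₁ x = x + Cfsg.hermForm n F q x u • v'
      - Cfsg.hermForm n F q x v' • u := by
    intro x
    have e1 : Cfsg.hermForm n F q (sact m⁻¹ x) u = Cfsg.hermForm n F q x u := by
      rw [← sact_herm m (sact m⁻¹ x) u, sact_inv_right, hmu]
    have e2 : Cfsg.hermForm n F q (sact m⁻¹ x) v = Cfsg.hermForm n F q x v' := by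
      rw [← sact_herm m (sact m⁻¹ x) v, sact_inv_right, hmv]
    rw [hg₁, sact_mul, sact_mul, hρv (sact m⁻¹ x), sact_sub, sact_add, sact_smul, sact_smul,
      sact_inv_right, e1, e2, hmu, hmv, map_one, one_mul, one_mul]
  have huv' : Cfsg.hermForm n F q u v' = 0 := by
    rw [hv', uherm_sub_right Φ, uherm_smul_right Φ, huv, hua]
    ring
  have hv'u : Cfsg.hermForm n F q v' u = 0 := um_symm Φ _ _ huv'
  have hv'w : Cfsg.hermForm n F q v' w = Cfsg.hermForm n F q v w - δ := by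
    rw [hv', uherm_sub_left, uherm_smul_left, haw]
    field_simp
  have hwv' : Cfsg.hermForm n F q w v' = Cfsg.hermForm n F q v w + δ := by
    rw [← uherm_conj Φ v' w, hv'w, map_sub, hφδ, (R.fix _).mpr (R.frat v w hv hw)]
    ring
  obtain ⟨κ, hκ⟩ : ∃ κ, κ = -2 * δ := ⟨_, rfl⟩
  have hκ0 : κ ≠ 0 := by
    rw [hκ]
    exact mul_ne_zero (neg_ne_zero.mpr R.two) R.d0
  have hκs : κ + Φ.φ κ = 0 := by
    rw [hκ, map_mul, map_neg, map_ofNat, hφδ]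
    ring
  obtain ⟨t, ht⟩ := exists_ut Φ u κ huN hκs
  refine ⟨u, hu, hu0, huN, κ, hκ0, hκs, t, ?_, ht⟩
  have e : t * (ρw * g₁) = g₁ * ρw := by
    apply su_ext
    intro x
    simp only [sact_mul, ht _, hρw _, hg₁act _, uherm_add_left, uherm_sub_left,
      uherm_smul_left, map_one, one_mul, huN, hwu, huw, hv'u, huv', hv'w, hwv', mul_zero,
      add_zero, sub_zero]
    rw [hκ]
    module
  have e2 : t = g₁ * ρw * (ρw * g₁)⁻¹ := eq_mul_inv_of_mul_eq e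
  rw [e2]
  exact M.mul_mem (M.mul_mem hg₁M hρwM) (M.inv_mem (M.mul_mem hρwM hg₁M))

end stages

section stagesBC

variable {F : Type*} [Field F] [Fintype F] {n q : ℕ}

/-- stage B: all singular rational vectors are transvection centres -/
theorem so_stageB (hF : Fintype.card F = q ^ 2) (hn : 13 ≤ n) (Φ : Frob F q)
    (F₀ : Subfield F) (δ : F) (P Q : Matrix (Fin n) (Fin n) F) (R : RatO Φ F₀ δ P Q)
    (M : Subgroup ↥(Cfsg.SU n F q))
    (hSg : ∀ a b : Fin n → F, IsRat F₀ P a → IsRat F₀ P b → Cfsg.hermForm n F q a a = 0 →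
      Cfsg.hermForm n F q b b = 0 → Cfsg.hermForm n F q a b = 0 →
      ∀ g : ↥(Cfsg.SU n F q), IsSg Φ g a b 1 → g ∈ M)
    (u : Fin n → F) (hu : IsRat F₀ P u) (hu0 : u ≠ 0) (huN : Cfsg.hermForm n F q u u = 0)
    (κ₀ : F) (hκ₀0 : κ₀ ≠ 0) (hκ₀s : κ₀ + Φ.φ κ₀ = 0) (t₀ : ↥(Cfsg.SU n F q)) (ht₀M : t₀ ∈ M)
    (ht₀ : IsUt t₀ u κ₀) :
    ∀ y, IsRat F₀ P y → Cfsg.hermForm n F q y y = 0 → y ∈ udirs Φ M := by
  -- moving between orthogonal singular rational vectors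
  have mv : ∀ y₁ y₂ : Fin n → F, IsRat F₀ P y₁ → IsRat F₀ P y₂ →
      Cfsg.hermForm n F q y₁ y₁ = 0 → Cfsg.hermForm n F q y₂ y₂ = 0 →
      Cfsg.hermForm n F q y₁ y₂ = 0 → y₁ ≠ 0 → (∀ c : F, y₂ ≠ c • y₁) →
      ∃ A ∈ M, sact A y₁ = y₂ := by
    intro y₁ y₂ hy₁ hy₂ hN₁ hN₂ h12 hy₁0 hind
    obtain ⟨z, hz, hzN, hz1, hz2⟩ := R.two_vals hF hn y₁ y₂ hy₁ hy₂ hy₁0 hind 1 1 F₀.one_mem
      F₀.one_mem
    have h21 : Cfsg.hermForm n F q y₂ y₁ = 0 := um_symm Φ _ _ h12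
    have hbN : Cfsg.hermForm n F q (y₂ - y₁) (y₂ - y₁) = 0 := by
      rw [uherm_sub_left, uherm_sub_right Φ, uherm_sub_right Φ, hN₁, hN₂, h12, h21]
      ring
    have hzb : Cfsg.hermForm n F q z (y₂ - y₁) = 0 := by
      rw [uherm_sub_right Φ, hz1, hz2, sub_self]
    obtain ⟨A, hA⟩ := exists_sg hF Φ z (y₂ - y₁) hzN hbN hzb 1
    refine ⟨A, hSg z (y₂ - y₁) hz (isRat_sub hy₂ hy₁) hzN hbN hzb A hA, ?_⟩
    rw [hA y₁, R.symm hz hy₁, hz1, uherm_sub_right Φ, h12, hN₁, sub_self, mul_zero, zero_smul,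
      sub_zero, mul_one, one_smul]
    abel
  -- transvection parameters
  have cconj : ∀ (A : ↥(Cfsg.SU n F q)) (y : Fin n → F) (κ : F), A ∈ M →
      (∀ t : ↥(Cfsg.SU n F q), IsUt t y κ → t ∈ M) →
      ∀ t : ↥(Cfsg.SU n F q), IsUt t (sact A y) κ → t ∈ M := by
    intro A y κ hA hC t ht
    have h1 := isUt_conj A⁻¹ t (sact A y) κ ht
    rw [sact_inv_left, inv_inv] at h1
    have h2 := hC _ h1
    have e : t = A * (A⁻¹ * t * A) * A⁻¹ := by group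
    rw [e]
    exact M.mul_mem (M.mul_mem hA h2) (M.inv_mem hA)
  have cscal : ∀ (y : Fin n → F) (l κ : F),
      (∀ t : ↥(Cfsg.SU n F q), IsUt t (l • y) κ → t ∈ M) →
      ∀ t : ↥(Cfsg.SU n F q), IsUt t y (l * Φ.φ l * κ) → t ∈ M := by
    intro y l κ hC t ht
    apply hC t
    intro x
    rw [ht x, uherm_smul_right Φ, smul_smul]
    congr 2
    ring
  have cadd : ∀ (y : Fin n → F) (κ₁ κ₂ : F), Cfsg.hermForm n F q y y = 0 →
      κ₁ + Φ.φ κ₁ = 0 → κ₂ + Φ.φ κ₂ = 0 →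
      (∀ t : ↥(Cfsg.SU n F q), IsUt t y κ₁ → t ∈ M) →
      (∀ t : ↥(Cfsg.SU n F q), IsUt t y κ₂ → t ∈ M) →
      ∀ t : ↥(Cfsg.SU n F q), IsUt t y (κ₁ + κ₂) → t ∈ M := by
    intro y κ₁ κ₂ hyN hκ₁ hκ₂ hC₁ hC₂ t ht
    obtain ⟨t₁, ht₁⟩ := exists_ut Φ y κ₁ hyN hκ₁
    obtain ⟨t₂, ht₂⟩ := exists_ut Φ y κ₂ hyN hκ₂
    have e : t = t₁ * t₂ := by
      apply su_ext
      intro x
      rw [sact_mul, ht x, ht₂ x, ht₁, uherm_add_left, uherm_smul_left, hyN]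
      module
    rw [e]
    exact M.mul_mem (hC₁ t₁ ht₁) (hC₂ t₂ ht₂)
  have hC0 : ∀ t : ↥(Cfsg.SU n F q), IsUt t u κ₀ → t ∈ M := by
    intro t ht
    rw [isUt_unique t t₀ u κ₀ ht ht₀]
    exact ht₀M
  -- an auxiliary orthogonal singular vector
  obtain ⟨xu, hxu, -, hxuu⟩ := R.one_val hF hn u hu hu0 1 F₀.one_mem
  obtain ⟨w, hw, hw0, hwN, hwp⟩ := R.sing [u, xu] (by
    intro c hc
    simp only [List.mem_cons, List.not_mem_nil, or_false] at hc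
    rcases hc with rfl | rfl
    · exact hu
    · exact hxu) (by simp only [List.length_cons, List.length_nil]; omega)
  have hwu : Cfsg.hermForm n F q w u = 0 := hwp _ (by simp)
  have hwx : Cfsg.hermForm n F q w xu = 0 := hwp _ (by simp)
  have huw : Cfsg.hermForm n F q u w = 0 := um_symm Φ _ _ hwu
  have hwind : ∀ c : F, w ≠ c • u := R.indep hxu hu hxuu hwx hw0
  obtain ⟨A₁, hA₁M, hA₁⟩ := mv u w hu hw huN hwN huw hu0 hwind
  -- squares
  have S1 : ∀ l : F, l ∈ F₀ → ∀ t : ↥(Cfsg.SU n F q), IsUt t u (l ^ 2 * κ₀) → t ∈ M := by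
    intro l hl t ht
    by_cases hl0 : l = 0
    · rw [hl0] at ht
      have h0 : (0 : F) ^ 2 * κ₀ = 0 := by ring
      rw [h0] at ht
      rw [isUt_unique t 1 u 0 ht (isUt_one u)]
      exact M.one_mem
    · have hlu : IsRat F₀ P (l • u) := isRat_smul l hl hu
      have hluN : Cfsg.hermForm n F q (l • u) (l • u) = 0 := by
        rw [uherm_smul_left, uherm_smul_right Φ, huN, mul_zero, mul_zero]
      have hwlu : Cfsg.hermForm n F q w (l • u) = 0 := by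
        rw [uherm_smul_right Φ, hwu, mul_zero]
      have hind2 : ∀ c : F, l • u ≠ c • w := by
        intro c hc
        apply hwind (c⁻¹ * l)
        have hc0 : c ≠ 0 := by
          rintro rfl
          rw [zero_smul] at hc
          exact hu0 ((smul_eq_zero.mp hc).resolve_left hl0)
        rw [← smul_smul, hc, smul_smul, inv_mul_cancel₀ hc0, one_smul]
      obtain ⟨A₂, hA₂M, hA₂⟩ := mv w (l • u) hw hlu hwN hluN hwlu hw0 hind2
      have h1 := cconj A₁ u κ₀ hA₁M hC0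
      rw [hA₁] at h1
      have h2 := cconj A₂ w κ₀ hA₂M h1
      rw [hA₂] at h2
      have h3 := cscal u l κ₀ h2
      have e : l * Φ.φ l * κ₀ = l ^ 2 * κ₀ := by
        rw [(R.fix l).mpr hl]
        ring
      rw [e] at h3
      exact h3 t ht
  have hφκ₀ : Φ.φ κ₀ = -κ₀ := by linear_combination hκ₀s
  have huD : u ∈ udirs Φ M := by
    refine ⟨huN, ?_⟩
    intro c hc t ht
    have hφc : Φ.φ c = -c := by linear_combination hc
    have hr : c / κ₀ ∈ F₀ := by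
      apply (R.fix _).mp
      rw [map_div₀, hφc, hφκ₀, neg_div_neg_eq]
    obtain ⟨x, hx, y, hy, hxy⟩ := R.univ 1 1 (c / κ₀) F₀.one_mem F₀.one_mem hr one_ne_zero
      one_ne_zero
    have e : c = x ^ 2 * κ₀ + y ^ 2 * κ₀ := by
      have h1 : c = c / κ₀ * κ₀ := by field_simp
      rw [h1, ← hxy]
      ring
    rw [e] at ht
    have sk : ∀ l : F, l ∈ F₀ → l ^ 2 * κ₀ + Φ.φ (l ^ 2 * κ₀) = 0 := by
      intro l hl
      rw [map_mul, map_pow, (R.fix l).mpr hl, hφκ₀]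
      ring
    exact cadd u _ _ huN (sk x hx) (sk y hy) (S1 x hx) (S1 y hy) t ht
  have hwD : w ∈ udirs Φ M := by
    have h := udirs_conj Φ M A₁ hA₁M u huD
    rwa [hA₁] at h
  -- all singular rational vectors
  intro y hy hyN
  by_cases hy0 : y = 0
  · refine ⟨hyN, ?_⟩
    intro c hc t ht
    have e : t = 1 := by
      apply su_ext
      intro x
      rw [ht x, hy0, smul_zero, add_zero, sact_one]
    rw [e]
    exact M.one_mem
  obtain ⟨xy, hxy, -, hxyy⟩ := R.one_val hF hn y hy hy0 1 F₀.one_mem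
  obtain ⟨z, hz, hz0, hzN, hzp⟩ := R.sing [u, y, xu, xy] (by
    intro c hc
    simp only [List.mem_cons, List.not_mem_nil, or_false] at hc
    rcases hc with rfl | rfl | rfl | rfl <;> assumption) (by
    simp only [List.length_cons, List.length_nil]; omega)
  have hzu : Cfsg.hermForm n F q z u = 0 := hzp _ (by simp)
  have hzy : Cfsg.hermForm n F q z y = 0 := hzp _ (by simp)
  have hzxu : Cfsg.hermForm n F q z xu = 0 := hzp _ (by simp)
  have hzxy : Cfsg.hermForm n F q z xy = 0 := hzp _ (by simp)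
  have hzindu : ∀ c : F, z ≠ c • u := R.indep hxu hu hxuu hzxu hz0
  have hzindy : ∀ c : F, z ≠ c • y := R.indep hxy hy hxyy hzxy hz0
  have hyindz : ∀ c : F, y ≠ c • z := by
    intro c hc
    have hc0 : c ≠ 0 := by
      rintro rfl
      rw [zero_smul] at hc
      exact hy0 hc
    apply hzindy c⁻¹
    rw [hc, smul_smul, inv_mul_cancel₀ hc0, one_smul]
  obtain ⟨B₁, hB₁M, hB₁⟩ := mv u z hu hz huN hzN (um_symm Φ _ _ hzu) hu0 hzindu
  obtain ⟨B₂, hB₂M, hB₂⟩ := mv z y hz hy hzN hyN hzy hz0 hyindz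
  have h1 := udirs_conj Φ M B₁ hB₁M u huD
  rw [hB₁] at h1
  have h2 := udirs_conj Φ M B₂ hB₂M z h1
  rwa [hB₂] at h2

/-- stage C: all isotropic vectors are transvection centres -/
theorem so_stageC (hF : Fintype.card F = q ^ 2) (hn : 13 ≤ n) (Φ : Frob F q)
    (F₀ : Subfield F) (δ : F) (P Q : Matrix (Fin n) (Fin n) F) (R : RatO Φ F₀ δ P Q)
    (M : Subgroup ↥(Cfsg.SU n F q))
    (hS : ∀ y, IsRat F₀ P y → Cfsg.hermForm n F q y y = 0 → y ∈ udirs Φ M) :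
    ∀ y : Fin n → F, Cfsg.hermForm n F q y y = 0 → y ∈ udirs Φ M := by
  have hδ := R.dne
  have hφδ := R.phid
  have h2 := R.two
  have hd : δ ^ 2 ∈ F₀ := (R.fix _).mp (by rw [map_pow, hφδ]; ring)
  have rmv : ∀ x : Fin n → F, IsRat F₀ P x → Cfsg.hermForm n F q x x = 0 →
      ∀ y ∈ udirs Φ M, ∀ s ∈ F₀, y + (s * δ * Cfsg.hermForm n F q y x) • x ∈ udirs Φ M := by
    intro x hx hxN y hy s hs
    exact udirs_move Φ M x y (hS x hx hxN) hy (s * δ) (by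
      rw [map_mul, (R.fix s).mpr hs, hφδ]
      ring)
  have Ia : ∀ y₁ y₂ : Fin n → F, IsRat F₀ P y₁ → IsRat F₀ P y₂ →
      Cfsg.hermForm n F q y₁ y₁ = 0 → Cfsg.hermForm n F q y₂ y₂ = 0 →
      Cfsg.hermForm n F q y₁ y₂ ≠ 0 → y₁ + δ • y₂ ∈ udirs Φ M := by
    intro y₁ y₂ hy₁ hy₂ hN₁ hN₂ hne
    have m := rmv y₂ hy₂ hN₂ y₁ (hS y₁ hy₁ hN₁) (Cfsg.hermForm n F q y₁ y₂)⁻¹
      (F₀.inv_mem (R.frat y₁ y₂ hy₁ hy₂))
    have e : (Cfsg.hermForm n F q y₁ y₂)⁻¹ * δ * Cfsg.hermForm n F q y₁ y₂ = δ := by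
      field_simp
    rwa [e] at m
  have I : ∀ y₁ y₂ : Fin n → F, IsRat F₀ P y₁ → IsRat F₀ P y₂ →
      Cfsg.hermForm n F q y₁ y₁ = 0 → Cfsg.hermForm n F q y₂ y₂ = 0 →
      y₁ + δ • y₂ ∈ udirs Φ M := by
    intro y₁ y₂ hy₁ hy₂ hN₁ hN₂
    by_cases hne : Cfsg.hermForm n F q y₁ y₂ = 0
    swap
    · exact Ia y₁ y₂ hy₁ hy₂ hN₁ hN₂ hne
    by_cases hy₁0 : y₁ = 0
    · rw [hy₁0, zero_add]
      exact udirs_smul Φ M _ (hS y₂ hy₂ hN₂) δ
    by_cases hdep : ∃ c : F, y₂ = c • y₁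
    · obtain ⟨c, hc⟩ := hdep
      have e : y₁ + δ • y₂ = (1 + δ * c) • y₁ := by
        rw [hc, smul_smul, add_smul, one_smul]
      rw [e]
      exact udirs_smul Φ M _ (hS y₁ hy₁ hN₁) _
    push Not at hdep
    obtain ⟨x, hx, hxN, hx1, hx2⟩ := R.two_vals hF hn y₁ y₂ hy₁ hy₂ hy₁0 hdep 1 0 F₀.one_mem
      F₀.zero_mem
    have hy₂x : Cfsg.hermForm n F q y₂ x = 0 := by rw [R.symm hx hy₂]; exact hx2
    have hy₁x : Cfsg.hermForm n F q y₁ x = 1 := by rw [R.symm hx hy₁]; exact hx1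
    have hw₂N : Cfsg.hermForm n F q (y₂ - x) (y₂ - x) = 0 := by
      rw [uherm_sub_left, uherm_sub_right Φ, uherm_sub_right Φ, hN₂, hxN, hy₂x, hx2]
      ring
    have hne' : Cfsg.hermForm n F q y₁ (y₂ - x) ≠ 0 := by
      rw [uherm_sub_right Φ, hne, hy₁x, zero_sub]
      exact neg_ne_zero.mpr one_ne_zero
    have hw := Ia y₁ (y₂ - x) hy₁ (isRat_sub hy₂ hx) hN₁ hw₂N hne'
    have m := rmv x hx hxN _ hw 1 F₀.one_mem
    have e1 : Cfsg.hermForm n F q (y₁ + δ • (y₂ - x)) x = 1 := by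
      rw [uherm_add_left, uherm_smul_left, uherm_sub_left, hy₁x, hy₂x, hxN]
      ring
    rw [e1] at m
    have e2 : y₁ + δ • (y₂ - x) + (1 * δ * 1) • x = y₁ + δ • y₂ := by module
    rwa [e2] at m
  intro y hy
  obtain ⟨y₁, y₂, hy₁, hy₂, hye⟩ := R.vdec y
  have hNe : Cfsg.hermForm n F q y₁ y₁ = δ ^ 2 * Cfsg.hermForm n F q y₂ y₂ := by
    have h1 := hy
    rw [hye, R.normf y₁ y₂ hy₁ hy₂] at h1
    linear_combination h1
  by_cases hN₂ : Cfsg.hermForm n F q y₂ y₂ = 0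
  · rw [hye]
    exact I y₁ y₂ hy₁ hy₂ (by rw [hNe, hN₂, mul_zero]) hN₂
  have hN₁ : Cfsg.hermForm n F q y₁ y₁ ≠ 0 := by
    rw [hNe]
    exact mul_ne_zero (pow_ne_zero 2 R.d0) hN₂
  have hy₁0 : y₁ ≠ 0 := by
    rintro rfl
    exact hN₁ (uherm_zero_left _)
  have hind : ∀ c : F, y₂ ≠ c • y₁ := by
    intro c hc
    have e : y = (1 + δ * c) • y₁ := by
      rw [hye, hc, smul_smul, add_smul, one_smul]
    have h1 : (1 + δ * c) * Φ.φ (1 + δ * c) * Cfsg.hermForm n F q y₁ y₁ = 0 := by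
      have h3 := hy
      rw [e, uherm_smul_left, uherm_smul_right Φ] at h3
      linear_combination h3
    have h4 : 1 + δ * c = 0 := by
      rcases mul_eq_zero.mp h1 with h3 | h3
      · rcases mul_eq_zero.mp h3 with h5 | h5
        · exact h5
        · exact (map_eq_zero Φ.φ).mp h5
      · exact absurd h3 hN₁
    rw [h4, zero_smul] at e
    rw [e] at hye
    exact hy₁0 (R.vuniq y₁ y₂ hy₁ hy₂ hye.symm).1
  obtain ⟨x, hx, hxN, hx1, hx2⟩ := R.two_vals hF hn y₁ y₂ hy₁ hy₂ hy₁0 hind 1 1 F₀.one_mem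
    F₀.one_mem
  obtain ⟨s, hsdef⟩ : ∃ s, s = -(Cfsg.hermForm n F q y₂ y₂) / 2 := ⟨_, rfl⟩
  have hs : s ∈ F₀ := by
    rw [hsdef]
    exact F₀.div_mem (F₀.neg_mem (R.frat y₂ y₂ hy₂ hy₂)) R.two_mem
  have hy₁x : Cfsg.hermForm n F q y₁ x = 1 := by rw [R.symm hx hy₁]; exact hx1
  have hy₂x : Cfsg.hermForm n F q y₂ x = 1 := by rw [R.symm hx hy₂]; exact hx2
  have hA : IsRat F₀ P (y₁ + (s * δ ^ 2) • x) :=
    isRat_add hy₁ (isRat_smul _ (F₀.mul_mem hs hd) hx)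
  have hB : IsRat F₀ P (y₂ + s • x) := isRat_add hy₂ (isRat_smul _ hs hx)
  have hBN : Cfsg.hermForm n F q (y₂ + s • x) (y₂ + s • x) = 0 := by
    simp only [uherm_add_left, uherm_add_right Φ, uherm_smul_left, uherm_smul_right Φ,
      (R.fix s).mpr hs, hxN, hy₂x, hx2]
    rw [hsdef]
    field_simp
    ring
  have hAN : Cfsg.hermForm n F q (y₁ + (s * δ ^ 2) • x) (y₁ + (s * δ ^ 2) • x) = 0 := by
    simp only [uherm_add_left, uherm_add_right Φ, uherm_smul_left, uherm_smul_right Φ,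
      map_mul, map_pow, (R.fix s).mpr hs, hφδ, hxN, hy₁x, hx1]
    rw [hNe, hsdef]
    field_simp
    ring
  have hy' := I _ _ hA hB hAN hBN
  have m := rmv x hx hxN _ hy' (-s) (F₀.neg_mem hs)
  have e1 : Cfsg.hermForm n F q (y₁ + (s * δ ^ 2) • x + δ • (y₂ + s • x)) x = 1 + δ := by
    simp only [uherm_add_left, uherm_smul_left, hy₁x, hy₂x, hxN]
    ring
  rw [e1] at m
  have e2 : y₁ + (s * δ ^ 2) • x + δ • (y₂ + s • x) + (-s * δ * (1 + δ)) • x = y := by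
    rw [hye]
    module
  rwa [e2] at m

end stagesBC

/-- Let F be the field with q² elements, q odd, n ≥ 13, and F₀ the subfield with q elements. Let P be an invertible matrix such that the standard unitary form takes values in F₀ on the F₀-span of the columns of P (so it restricts to a non-degenerate symmetric bilinear form there). Then the elements of SU_n(q) lying in the subfield group of P form a maximal subgroup of SU_n(q). -/
theorem result {F : Type*} [Field F] [Fintype F] (n q : ℕ) (hF : Fintype.card F = q ^ 2) (hn : 13 ≤ n) (hodd : Odd q) (F₀ : Subfield F) (hcard : Fintype.card F = Nat.card F₀ ^ 2) (P : Matrix.GeneralLinearGroup (Fin n) F) (hP : Cfsg.Geo.IsFormRationalStructure (Cfsg.hermForm n F q) F₀ 1 P) : Cfsg.Geo.IsMaximalIn (Cfsg.GU n F q ⊓ Cfsg.Geo.specialLinear (Fin n) F) (Cfsg.Geo.subfieldSubgroup F₀ P ⊓ (Cfsg.GU n F q ⊓ Cfsg.Geo.specialLinear (Fin n) F)) :=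 by
  classical
  obtain ⟨Φ⟩ := Cfsg.Agent.Helper16.exists_Frob hF
  obtain ⟨δ, hδ0, hδs⟩ := exists_skew hF Φ
  have h2 : (2 : F) ≠ 0 := by
    intro h
    have hch : ringChar F = 2 := CharP.ringChar_of_prime_eq_zero Nat.prime_two (by simpa using h)
    have h3 := (FiniteField.even_card_iff_char_two (F := F)).mp hch
    have h4 := Nat.odd_iff.mp (hodd.pow (n := 2))
    rw [hF] at h3
    omega
  have hq : Nat.card F₀ = q := card_sub_eq hF F₀ hcard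
  have R : RatO Φ F₀ δ (P : Matrix (Fin n) (Fin n) F)
      ((P⁻¹ : GL (Fin n) F) : Matrix (Fin n) (Fin n) F) :=
    { fix := fun x => ⟨fix_mem hF Φ F₀ hcard x, mem_fix hF Φ F₀ hcard x⟩
      d0 := hδ0
      ds := hδs
      two := h2
      inv1 := fun v => gl_mulVec_inv P v
      inv2 := fun v => gl_inv_mulVec P v
      frat := by
        rintro x y ⟨u, hu, rfl⟩ ⟨v, hv, rfl⟩
        have h := hP u v hu hv
        rwa [one_mul] at h
      univ := fun a b r ha hb hr ha0 hb0 => sub_sq_sum F₀ hq hodd a b r ha hb hr ha0 hb0 }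
  apply Cfsg.Agent.Helper6.maximal_of_core_su
  · exact exists_not_sfg_o hF hn Φ F₀ δ P R
  · intro M hH hex
    obtain ⟨A, hAM, hA⟩ := hex
    have hSg : ∀ a b : Fin n → F, IsRat F₀ (P : Matrix (Fin n) (Fin n) F) a →
        IsRat F₀ (P : Matrix (Fin n) (Fin n) F) b → Cfsg.hermForm n F q a a = 0 →
        Cfsg.hermForm n F q b b = 0 → Cfsg.hermForm n F q a b = 0 →
        ∀ g : ↥(Cfsg.SU n F q), IsSg Φ g a b 1 → g ∈ M :=
      fun a b ha hb _ _ _ g hg => hH g (sg_mem_sfg Φ F₀ δ P R a b ha hb 1 F₀.one_mem g hg)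
    obtain ⟨u₀, hu₀, hu₀N, hnr⟩ := sing_nonrat hF hn Φ F₀ δ P R A hA
    obtain ⟨u, hu, hu0, huN, κ, hκ0, hκs, t, htM, ht⟩ :=
      so_stageA hF hn Φ F₀ δ _ _ R M hSg A hAM u₀ hu₀ hu₀N hnr
    have hB := so_stageB hF hn Φ F₀ δ _ _ R M hSg u hu hu0 huN κ hκ0 hκs t htM ht
    exact top_of_udirs hF Φ (by omega) M (so_stageC hF hn Φ F₀ δ _ _ R M hB)

end Cfsg.Agent.S5659
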