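import Cfsg.Statements.S0007
import Mathlib

set_option autoImplicit false
open Pointwise
open Cfsg

namespace Cfsg.Agent.S0007

/-- if `K.relIndex H = K.index` in a finite group then `G = H K`. -/
lemma exists_mul_of_relIndex_eq_index {G : Type*} [Group G] [Finite G] (H K : Subgroup G)
    (hrel : K.relIndex H = K.index) : ∀ g : G, ∃ x ∈ H, ∃ y ∈ K, g = x * y := by
  let φ : H ⧸ K.subgroupOf H → G ⧸ K :=
    Quotient.lift (fun h : H => (QuotientGroup.mk (h : G) : G ⧸ K)) (by
      intro a b hab
      have hab' : a⁻¹ * b ∈ K.subgroupOf H := QuotientGroup.leftRel_apply.mp hab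
      rw [Subgroup.mem_subgroupOf] at hab'
      exact QuotientGroup.eq.mpr (by simpa using hab'))
  have hinj : Function.Injective φ := by
    intro a b
    induction a using Quotient.inductionOn with
    | _ a =>
    induction b using Quotient.inductionOn with
    | _ b =>
    intro hab
    have h1 : (QuotientGroup.mk (a : G) : G ⧸ K) = QuotientGroup.mk (b : G) := hab
    have h2 := QuotientGroup.eq.mp h1
    apply Quotient.sound
    apply QuotientGroup.leftRel_apply.mpr
    rw [Subgroup.mem_subgroupOf]
    simpa using h2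
  have hcard : Nat.card (G ⧸ K) ≤ Nat.card (H ⧸ K.subgroupOf H) := by
    rw [← Subgroup.index_eq_card, ← Subgroup.index_eq_card]
    exact le_of_eq hrel.symm
  have hbij := Function.Injective.bijective_of_nat_card_le hinj hcard
  intro g
  obtain ⟨q, hq⟩ := hbij.2 (QuotientGroup.mk g)
  induction q using Quotient.inductionOn with
  | _ a =>
  have h1 : (QuotientGroup.mk (a : G) : G ⧸ K) = QuotientGroup.mk g := hq
  have h2 := QuotientGroup.eq.mp h1
  exact ⟨a, a.2, _, h2, by group⟩

/-- If two subgroups H and K of a finite group G have coprime indices, then the index of H ∩ K is the product of the indices, and G = HK. -/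
theorem result {G : Type*} [Group G] [Finite G] (H K : Subgroup G)
    (h : H.index.Coprime K.index) :
    (H ⊓ K).index = H.index * K.index ∧ ∀ g : G, ∃ x ∈ H, ∃ y ∈ K, g = x * y := by
  have hdvd1 : H.index ∣ (H ⊓ K).index := Subgroup.index_dvd_of_le inf_le_left
  have hdvd2 : K.index ∣ (H ⊓ K).index := Subgroup.index_dvd_of_le inf_le_right
  have hmul : H.index * K.index ∣ (H ⊓ K).index := Nat.Coprime.mul_dvd_of_dvd_of_dvd h hdvd1 hdvd2
  have hle : (H ⊓ K).index ≤ H.index * K.index := Subgroup.index_inf_le
  have hne : (H ⊓ K).index ≠ 0 := Subgroup.index_ne_zero_of_finite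
  have heq : (H ⊓ K).index = H.index * K.index :=
    le_antisymm hle (Nat.le_of_dvd (Nat.pos_of_ne_zero hne) hmul)
  refine ⟨heq, ?_⟩
  have hrel : K.relIndex H = K.index := by
    have h1 := Subgroup.relIndex_mul_index (inf_le_left : H ⊓ K ≤ H)
    rw [Subgroup.inf_relIndex_left, heq] at h1
    have hH : 0 < H.index := Nat.pos_of_ne_zero Subgroup.index_ne_zero_of_finite
    nlinarith
  exact exists_mul_of_relIndex_eq_index H K hrel

end Cfsg.Agent.S0007
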