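import Cfsg.Statements.S0011
import Mathlib

set_option autoImplicit false
open Cfsg

namespace Cfsg.Agent.S0011

/-- If the Frattini quotient of a finite group is nilpotent then the group is nilpotent. -/
theorem result {G : Type*} [Group G] [Finite G]
    (h : Group.IsNilpotent (G ⧸ frattini G)) : Group.IsNilpotent G := by
  have q := (Group.isNilpotent_of_finite_tfae (G := G)).out 0 3
  rw [q]; clear q
  intro p hp P
  let f := QuotientGroup.mk' (frattini G)
  have hf : Function.Surjective f := QuotientGroup.mk'_surjective _
  let Q : Sylow p (G ⧸ frattini G) := P.mapSurjective hf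
  have hQn : (Q : Subgroup (G ⧸ frattini G)).Normal := inferInstance
  have hN : ((P : Subgroup G) ⊔ frattini G).Normal := by
    have h1 : (P : Subgroup G) ⊔ frattini G = ((P : Subgroup G).map f).comap f := by
      rw [Subgroup.comap_map_eq, QuotientGroup.ker_mk']
    rw [h1]
    exact hQn.comap f
  have hle : (P : Subgroup G) ≤ (P : Subgroup G) ⊔ frattini G := le_sup_left
  have h2 := Sylow.normalizer_sup_eq_top' (N := (P : Subgroup G) ⊔ frattini G) P hle
  have h3 : Subgroup.normalizer ((P : Subgroup G) : Set G) ⊔ frattini G = ⊤ := by
    rw [← sup_assoc] at h2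
    rw [← h2]
    congr 1
    exact (sup_eq_left.mpr Subgroup.le_normalizer).symm
  have h4 := frattini_nongenerating h3
  exact Subgroup.normalizer_eq_top_iff.mp h4

end Cfsg.Agent.S0011
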