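import Cfsg.Statements.S0018
import Cfsg.Agent.S0017
import Cfsg.Agent.S0010
import Cfsg.Agent.Helper10.PComp
import Mathlib

set_option autoImplicit false
open Cfsg

namespace Cfsg.Agent.S0018

/-- A finite solvable group whose Sylow p-subgroups are abelian has p-length one: a Sylow p-subgroup together with the largest normal subgroup of order prime to p generates a normal subgroup. -/
theorem result {G : Type*} [Group G] [Finite G] [Group.IsSolvable G]
    (p : ℕ) [Fact p.Prime] (P : Sylow p G) (hP : IsMulCommutative P) :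
    ((P : Subgroup G) ⊔ Cfsg.pPrimeCore p G).Normal := by
  haveI hN : (Cfsg.pPrimeCore p G).Normal := Cfsg.pPrimeCore_normal p G
  have hsurj := QuotientGroup.mk'_surjective (Cfsg.pPrimeCore p G)
  have hbot := Helper10.pPrimeCore_quotient p G
  have h17 := S0017.result (G := G ⧸ Cfsg.pPrimeCore p G) p hbot
  haveI hn : (Cfsg.pCore p (G ⧸ Cfsg.pPrimeCore p G)).Normal := S0010.pCore_normal p
  have h1 : Cfsg.pCore p (G ⧸ Cfsg.pPrimeCore p G) ≤
      (P : Subgroup G).map (QuotientGroup.mk' (Cfsg.pPrimeCore p G)) :=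
    (S0010.pCore_isPGroup p).le_sylow_of_normal (P.mapSurjective hsurj)
  have h2 : (P : Subgroup G).map (QuotientGroup.mk' (Cfsg.pPrimeCore p G)) ≤
      Subgroup.centralizer ((P : Subgroup G).map (QuotientGroup.mk' (Cfsg.pPrimeCore p G)) : Set _) := by
    rintro x ⟨a, ha, rfl⟩
    rw [Subgroup.mem_centralizer_iff]
    rintro y ⟨b, hb, rfl⟩
    rw [← map_mul, ← map_mul]
    congr 1
    exact setLike_mul_comm hb ha
  have h3 : (P : Subgroup G).map (QuotientGroup.mk' (Cfsg.pPrimeCore p G)) ≤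
      Cfsg.pCore p (G ⧸ Cfsg.pPrimeCore p G) :=
    (h2.trans (Subgroup.centralizer_le h1)).trans h17
  have h4 : (P : Subgroup G).map (QuotientGroup.mk' (Cfsg.pPrimeCore p G)) =
      Cfsg.pCore p (G ⧸ Cfsg.pPrimeCore p G) := le_antisymm h3 h1
  have h5 : (P : Subgroup G) ⊔ Cfsg.pPrimeCore p G =
      (Cfsg.pCore p (G ⧸ Cfsg.pPrimeCore p G)).comap (QuotientGroup.mk' (Cfsg.pPrimeCore p G)) := by
    rw [← h4, Subgroup.comap_map_eq, QuotientGroup.ker_mk']
  rw [h5]
  exact Subgroup.Normal.comap hn _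

end Cfsg.Agent.S0018
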