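import Cfsg.Statements.S0031
import Mathlib

set_option autoImplicit false
open Cfsg

namespace Cfsg.Agent.S0031

open Pointwise

/-- A fixed-point-free automorphism of a finite group maps some Sylow p-subgroup to itself. -/
theorem result {G : Type*} [Group G] [Finite G] (φ : G ≃* G)
    (hφ : MonoidHom.FixedPointFree (φ : G →* G)) (p : ℕ) [Fact p.Prime] :
    ∃ P : Sylow p G, (P : Subgroup G).map (φ : G →* G) = P := by
  obtain ⟨P⟩ := (inferInstance : Nonempty (Sylow p G))
  let φ' : MulAut G := φ
  obtain ⟨g, hg⟩ := MulAction.exists_smul_eq G P (φ' • P)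
  obtain ⟨y, hy⟩ := MonoidHom.FixedPointFree.commutatorMap_surjective hφ g⁻¹
  have hy' : y / φ y = g⁻¹ := hy
  set x := y⁻¹ with hx
  have hxg : φ x * g = x := by
    have : g = φ y / y := by
      have := congrArg (·⁻¹) hy'
      simp only [inv_inv, inv_div] at this
      exact this.symm
    rw [this, hx, map_inv, div_eq_mul_inv]; group
  have hcomm : φ' * MulAut.conj x = MulAut.conj (φ x) * φ' := by
    ext z
    simp [φ', MulAut.conj_apply]
  have key : φ' • (x • P) = x • P := by
    calc φ' • (x • P) = φ' • (MulAut.conj x • P) := by rw [Sylow.smul_def]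
      _ = (φ' * MulAut.conj x) • P := by rw [mul_smul]
      _ = (MulAut.conj (φ x) * φ') • P := by rw [hcomm]
      _ = MulAut.conj (φ x) • (φ' • P) := by rw [mul_smul]
      _ = MulAut.conj (φ x) • (g • P) := by rw [hg]
      _ = MulAut.conj (φ x) • (MulAut.conj g • P) := by rw [Sylow.smul_def]
      _ = MulAut.conj (φ x * g) • P := by rw [map_mul, mul_smul]
      _ = x • P := by rw [hxg, Sylow.smul_def]
  refine ⟨x • P, ?_⟩
  have h1 := congrArg (fun Q : Sylow p G => (Q : Subgroup G)) key
  simp only [Sylow.pointwise_smul_def] at h1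
  rw [Subgroup.pointwise_smul_def] at h1
  exact h1

end Cfsg.Agent.S0031
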