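import Cfsg.Statements.S0032
import Mathlib

set_option autoImplicit false
open Cfsg

namespace Cfsg.Agent.S0032

/-- If an automorphism of a finite group fixes only the identity and maps a normal subgroup N into itself, then the only cosets of N it fixes are those in N: a fixed coset xN forces x ∈ N. -/
theorem result {G : Type*} [Group G] [Finite G] (φ : G ≃* G)
    (hφ : MonoidHom.FixedPointFree (φ : G →* G)) (N : Subgroup G) [N.Normal] (hN : ∀ n ∈ N, φ n ∈ N)
    (x : G) (hx : (φ x)⁻¹ * x ∈ N) : x ∈ N := by
  let ψ : N →* N := ((φ : G →* G).comp N.subtype).codRestrict N (fun n => hN n n.2)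
  have hψ : MonoidHom.FixedPointFree ψ := by
    intro n hn
    have h1 : φ (n : G) = n := congrArg Subtype.val hn
    exact Subtype.ext (hφ n h1)
  have hsurj := MonoidHom.FixedPointFree.commutatorMap_surjective hψ
  have hxN : x / φ x ∈ N := by
    have : x / φ x = φ x * ((φ x)⁻¹ * x) * (φ x)⁻¹ := by rw [div_eq_mul_inv]; group
    rw [this]
    exact (inferInstance : N.Normal).conj_mem _ hx _
  obtain ⟨n, hn⟩ := hsurj ⟨x / φ x, hxN⟩
  have h2 : (n : G) / φ (n : G) = x / φ x := congrArg Subtype.val hn
  have h3 : MonoidHom.commutatorMap (φ : G →* G) (n : G) = MonoidHom.commutatorMap (φ : G →* G) x := h2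
  have h4 := MonoidHom.FixedPointFree.commutatorMap_injective hφ h3
  rw [← h4]
  exact n.2

end Cfsg.Agent.S0032
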