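import Cfsg.Statements.S0047
import Mathlib

set_option autoImplicit false
open Cfsg

namespace Cfsg.Agent.S0047

open scoped commutatorElement

section
variable {G : Type*} [Group G] (A B : Subgroup G)

variable {A B}

lemma comm_A [IsMulCommutative A] {x y : G} (hx : x ∈ A) (hy : y ∈ A) : x * y = y * x :=
  setLike_mul_comm hx hy

/-- Conjugating a generator by `α ∈ A`. -/
lemma conj_A [IsMulCommutative A] [IsMulCommutative B]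
    (hBA : ∀ g : G, ∃ b ∈ B, ∃ a ∈ A, g = b * a) {a b α : G} (ha : a ∈ A) (hb : b ∈ B) (hα : α ∈ A) :
    ∃ b₃ ∈ B, α * (a * b * a⁻¹ * b⁻¹) * α⁻¹ = a * b₃ * a⁻¹ * b₃⁻¹ ∧ ∃ a₃ ∈ A, α * b * α⁻¹ = b₃ * a₃ := by
  obtain ⟨b₃, hb₃, a₃, ha₃, h⟩ := hBA (α * b * α⁻¹)
  refine ⟨b₃, hb₃, ?_, a₃, ha₃, h⟩
  have h1 : α * a = a * α := setLike_mul_comm hα ha
  have h2 : a₃ * a⁻¹ = a⁻¹ * a₃ := setLike_mul_comm ha₃ (A.inv_mem ha)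
  have h3 : α * a⁻¹ = a⁻¹ * α := setLike_mul_comm hα (A.inv_mem ha)
  calc α * (a * b * a⁻¹ * b⁻¹) * α⁻¹
      = (α * a) * α⁻¹ * (α * b * α⁻¹) * (α * a⁻¹) * α⁻¹ * (α * b * α⁻¹)⁻¹ := by group
    _ = a * (b₃ * a₃) * a⁻¹ * (b₃ * a₃)⁻¹ := by rw [h1, h3, h]; group
    _ = a * b₃ * (a₃ * a⁻¹) * a₃⁻¹ * b₃⁻¹ := by group
    _ = a * b₃ * a⁻¹ * b₃⁻¹ := by rw [h2]; group

/-- Conjugating a generator by `β ∈ B`. -/
lemma conj_B [IsMulCommutative A] [IsMulCommutative B]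
    (hAB : ∀ g : G, ∃ a ∈ A, ∃ b ∈ B, g = a * b) {a b β : G} (ha : a ∈ A) (hb : b ∈ B) (hβ : β ∈ B) :
    ∃ a₄ ∈ A, β * (a * b * a⁻¹ * b⁻¹) * β⁻¹ = a₄ * b * a₄⁻¹ * b⁻¹ ∧ ∃ b₄ ∈ B, β * a * β⁻¹ = a₄ * b₄ := by
  obtain ⟨a₄, ha₄, b₄, hb₄, h⟩ := hAB (β * a * β⁻¹)
  refine ⟨a₄, ha₄, ?_, b₄, hb₄, h⟩
  have h1 : β * b = b * β := setLike_mul_comm hβ hb
  have h2 : b₄ * b = b * b₄ := setLike_mul_comm hb₄ hb
  have h3 : β * b⁻¹ = b⁻¹ * β := setLike_mul_comm hβ (B.inv_mem hb)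
  calc β * (a * b * a⁻¹ * b⁻¹) * β⁻¹
      = (β * a * β⁻¹) * (β * b) * β⁻¹ * (β * a * β⁻¹)⁻¹ * (β * b⁻¹) * β⁻¹ := by group
    _ = (a₄ * b₄) * b * (a₄ * b₄)⁻¹ * b⁻¹ := by rw [h1, h3, h]; group
    _ = a₄ * (b₄ * b) * b₄⁻¹ * a₄⁻¹ * b⁻¹ := by group
    _ = a₄ * b * a₄⁻¹ * b⁻¹ := by rw [h2]; group

end

/-- A finite group which is the product AB of two abelian subgroups A and B is solvable. -/
theorem result {G : Type*} [Group G] [Finite G] (A B : Subgroup G)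
    [IsMulCommutative A] [IsMulCommutative B] (hAB : ∀ g : G, ∃ a ∈ A, ∃ b ∈ B, g = a * b) :
    Group.IsSolvable G := by
  have hBA : ∀ g : G, ∃ b ∈ B, ∃ a ∈ A, g = b * a := by
    intro g
    obtain ⟨a, ha, b, hb, h⟩ := hAB g⁻¹
    refine ⟨b⁻¹, B.inv_mem hb, a⁻¹, A.inv_mem ha, ?_⟩
    rw [← mul_inv_rev, ← h, inv_inv]
  -- the key identity: αβ and βα conjugate generators in the same way
  have key : ∀ a ∈ A, ∀ b ∈ B, ∀ α ∈ A, ∀ β ∈ B,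
      (β * α) * (a * b * a⁻¹ * b⁻¹) * (β * α)⁻¹ = (α * β) * (a * b * a⁻¹ * b⁻¹) * (α * β)⁻¹ := by
    intro a ha b hb α hα β hβ
    obtain ⟨b₃, hb₃, e1, a₃, ha₃, e1'⟩ := conj_A hBA ha hb hα
    obtain ⟨a₄, ha₄, e2, b₄, hb₄, e2'⟩ := conj_B hAB ha hb hβ
    -- β (α c α⁻¹) β⁻¹ = β [a, b₃] β⁻¹ = [a₄', b₃]
    obtain ⟨a₅, ha₅, e3, b₅, hb₅, e3'⟩ := conj_B hAB ha hb₃ hβ
    obtain ⟨b₆, hb₆, e4, a₆, ha₆, e4'⟩ := conj_A hBA ha₄ hb hα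
    -- a₅ b₅ = β a β⁻¹ = a₄ b₄ and b₆ a₆ = α b α⁻¹ = b₃ a₃
    have hL : (β * α) * (a * b * a⁻¹ * b⁻¹) * (β * α)⁻¹ = a₅ * b₃ * a₅⁻¹ * b₃⁻¹ := by
      calc (β * α) * (a * b * a⁻¹ * b⁻¹) * (β * α)⁻¹
          = β * (α * (a * b * a⁻¹ * b⁻¹) * α⁻¹) * β⁻¹ := by group
        _ = a₅ * b₃ * a₅⁻¹ * b₃⁻¹ := by rw [e1, e3]
    have hR : (α * β) * (a * b * a⁻¹ * b⁻¹) * (α * β)⁻¹ = a₄ * b₆ * a₄⁻¹ * b₆⁻¹ := by
      calc (α * β) * (a * b * a⁻¹ * b⁻¹) * (α * β)⁻¹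
          = α * (β * (a * b * a⁻¹ * b⁻¹) * β⁻¹) * α⁻¹ := by group
        _ = a₄ * b₆ * a₄⁻¹ * b₆⁻¹ := by rw [e2, e4]
    rw [hL, hR]
    -- a₅ = a₄ c with c ∈ A ∩ B-ish: a₅ b₅ = a₄ b₄, so a₄⁻¹ a₅ = b₄ b₅⁻¹ =: z lies in A and in B
    have hz : a₄⁻¹ * a₅ = b₄ * b₅⁻¹ := by
      have : a₅ * b₅ = a₄ * b₄ := e3'.symm.trans e2'
      calc a₄⁻¹ * a₅ = a₄⁻¹ * (a₅ * b₅) * b₅⁻¹ := by group
        _ = b₄ * b₅⁻¹ := by rw [this]; group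
    have hw : b₃⁻¹ * b₆ = a₃ * a₆⁻¹ := by
      have : b₆ * a₆ = b₃ * a₃ := e4'.symm.trans e1'
      calc b₃⁻¹ * b₆ = b₃⁻¹ * (b₆ * a₆) * a₆⁻¹ := by group
        _ = a₃ * a₆⁻¹ := by rw [this]; group
    obtain ⟨z, hzdef⟩ : ∃ z, z = a₄⁻¹ * a₅ := ⟨_, rfl⟩
    obtain ⟨w, hwdef⟩ : ∃ w, w = b₃⁻¹ * b₆ := ⟨_, rfl⟩
    have hzA : z ∈ A := by rw [hzdef]; exact A.mul_mem (A.inv_mem ha₄) ha₅
    have hzB : z ∈ B := by rw [hzdef, hz]; exact B.mul_mem hb₄ (B.inv_mem hb₅)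
    have hwB : w ∈ B := by rw [hwdef]; exact B.mul_mem (B.inv_mem hb₃) hb₆
    have hwA : w ∈ A := by rw [hwdef, hw]; exact A.mul_mem ha₃ (A.inv_mem ha₆)
    have ea₅ : a₅ = a₄ * z := by rw [hzdef]; group
    have eb₆ : b₆ = b₃ * w := by rw [hwdef]; group
    have c1 : z * b₃ = b₃ * z := setLike_mul_comm hzB hb₃
    have c2 : w * a₄⁻¹ = a₄⁻¹ * w := setLike_mul_comm hwA (A.inv_mem ha₄)
    have c3 : z * w = w * z := setLike_mul_comm hzA hwA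
    rw [ea₅, eb₆]
    calc a₄ * z * b₃ * (a₄ * z)⁻¹ * b₃⁻¹ = a₄ * (z * b₃) * z⁻¹ * a₄⁻¹ * b₃⁻¹ := by group
      _ = a₄ * b₃ * a₄⁻¹ * b₃⁻¹ := by rw [c1]; group
      _ = a₄ * b₃ * (w * a₄⁻¹) * w⁻¹ * b₃⁻¹ := by rw [c2]; group
      _ = a₄ * (b₃ * w) * a₄⁻¹ * (b₃ * w)⁻¹ := by group
  -- generators commute
  obtain ⟨S, hSdef⟩ : ∃ S : Set G, S = {g | ∃ a ∈ A, ∃ b ∈ B, a * b * a⁻¹ * b⁻¹ = g} := ⟨_, rfl⟩
  have hSmem : ∀ a ∈ A, ∀ b ∈ B, a * b * a⁻¹ * b⁻¹ ∈ S := by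
    intro a ha b hb
    rw [hSdef]
    exact ⟨a, ha, b, hb, rfl⟩
  have hSelim : ∀ x ∈ S, ∃ a ∈ A, ∃ b ∈ B, a * b * a⁻¹ * b⁻¹ = x := by
    intro x hx
    rw [hSdef] at hx
    exact hx
  have hcomm : ∀ x ∈ S, ∀ y ∈ S, x * y = y * x := by
    intro x hx y hy
    obtain ⟨a, ha, b, hb, rfl⟩ := hSelim x hx
    obtain ⟨α, hα, β, hβ, rfl⟩ := hSelim y hy
    have h := key a ha b hb α⁻¹ (A.inv_mem hα) β⁻¹ (B.inv_mem hβ)
    generalize a * b * a⁻¹ * b⁻¹ = c at h ⊢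
    calc c * (α * β * α⁻¹ * β⁻¹)
        = (α * β) * ((β⁻¹ * α⁻¹) * c * (β⁻¹ * α⁻¹)⁻¹) * (α⁻¹ * β⁻¹) := by group
      _ = (α * β) * ((α⁻¹ * β⁻¹) * c * (α⁻¹ * β⁻¹)⁻¹) * (α⁻¹ * β⁻¹) := by rw [h]
      _ = α * β * α⁻¹ * β⁻¹ * c := by group
  have hNcomm : IsMulCommutative (Subgroup.closure S) := Subgroup.isMulCommutative_closure hcomm
  have hconjS : ∀ g : G, ∀ x ∈ S, g * x * g⁻¹ ∈ S := by
    intro g x hx
    obtain ⟨α, hα, β, hβ, rfl⟩ := hAB g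
    obtain ⟨a, ha, b, hb, rfl⟩ := hSelim x hx
    obtain ⟨a₄, ha₄, e2, -⟩ := conj_B hAB ha hb hβ
    obtain ⟨b₆, hb₆, e4, -⟩ := conj_A hBA ha₄ hb hα
    have : α * β * (a * b * a⁻¹ * b⁻¹) * (α * β)⁻¹ = a₄ * b₆ * a₄⁻¹ * b₆⁻¹ := by
      rw [← e4, ← e2]; group
    rw [this]
    exact hSmem a₄ ha₄ b₆ hb₆
  have hNn : (Subgroup.closure S).Normal := by
    constructor
    intro n hn g
    have hle : (Subgroup.closure S).map (MulAut.conj g).toMonoidHom ≤ Subgroup.closure S := by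
      rw [MonoidHom.map_closure, Subgroup.closure_le]
      rintro _ ⟨x, hx, rfl⟩
      exact Subgroup.subset_closure (hconjS g x hx)
    exact hle (Subgroup.mem_map_of_mem _ hn)
  have cab : ∀ a ∈ A, ∀ b ∈ B,
      Commute (QuotientGroup.mk a : G ⧸ Subgroup.closure S) (QuotientGroup.mk b) := by
    intro a ha b hb
    change (QuotientGroup.mk a : G ⧸ Subgroup.closure S) * QuotientGroup.mk b
      = QuotientGroup.mk b * QuotientGroup.mk a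
    rw [← QuotientGroup.mk_mul, ← QuotientGroup.mk_mul]
    apply QuotientGroup.eq.mpr
    have : (a * b)⁻¹ * (b * a) = (a⁻¹ * b⁻¹ * a⁻¹⁻¹ * b⁻¹⁻¹)⁻¹ := by group
    rw [this]
    exact Subgroup.inv_mem _ (Subgroup.subset_closure (hSmem a⁻¹ (A.inv_mem ha) b⁻¹ (B.inv_mem hb)))
  have hQ : ∀ x y : G ⧸ Subgroup.closure S, x * y = y * x := by
    intro x y
    obtain ⟨g, rfl⟩ := QuotientGroup.mk_surjective x
    obtain ⟨h, rfl⟩ := QuotientGroup.mk_surjective y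
    obtain ⟨a, ha, b, hb, rfl⟩ := hAB g
    obtain ⟨a', ha', b', hb', rfl⟩ := hAB h
    have caa : Commute (QuotientGroup.mk a : G ⧸ Subgroup.closure S) (QuotientGroup.mk a') := by
      change (QuotientGroup.mk a : G ⧸ Subgroup.closure S) * QuotientGroup.mk a'
        = QuotientGroup.mk a' * QuotientGroup.mk a
      rw [← QuotientGroup.mk_mul, ← QuotientGroup.mk_mul, setLike_mul_comm ha ha']
    have cbb : Commute (QuotientGroup.mk b : G ⧸ Subgroup.closure S) (QuotientGroup.mk b') := by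
      change (QuotientGroup.mk b : G ⧸ Subgroup.closure S) * QuotientGroup.mk b'
        = QuotientGroup.mk b' * QuotientGroup.mk b
      rw [← QuotientGroup.mk_mul, ← QuotientGroup.mk_mul, setLike_mul_comm hb hb']
    rw [QuotientGroup.mk_mul, QuotientGroup.mk_mul]
    exact ((caa.mul_right (cab a ha b' hb')).mul_left ((cab a' ha' b hb).symm.mul_right cbb)).eq
  have hsolN : Group.IsSolvable (Subgroup.closure S) :=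
    Group.isSolvable_of_comm (fun x y => mul_comm' x y)
  have hsolQ : Group.IsSolvable (G ⧸ Subgroup.closure S) := Group.isSolvable_of_comm hQ
  exact Group.isSolvable_of_ker_le_range (Subgroup.closure S).subtype
    (QuotientGroup.mk' (Subgroup.closure S)) (by rw [QuotientGroup.ker_mk', Subgroup.range_subtype])

end Cfsg.Agent.S0047
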