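import Cfsg.Statements.S0049
import Mathlib

set_option autoImplicit false
open Cfsg

namespace Cfsg.Agent.S0049

theorem result {G : Type*} [Group G] [Finite G] (p : ℕ) (hp : p.Prime) (hdvd : p ∣ Nat.card G) :
    p ∣ (frattini G).index := by
  by_contra hnd
  have hfp : Fact p.Prime := ⟨hp⟩
  obtain ⟨P₀⟩ := (inferInstance : Nonempty (Sylow p (frattini G)))
  have hnil : Group.IsNilpotent (frattini G) := frattini_nilpotent
  have hP₀n : (P₀ : Subgroup (frattini G)).Normal := inferInstance
  have hchar : (P₀ : Subgroup (frattini G)).Characteristic := Sylow.characteristic_of_normal P₀ hP₀n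
  have hPn : ((P₀ : Subgroup (frattini G)).map (frattini G).subtype).Normal :=
    ConjAct.normal_of_characteristic_of_normal
  set P : Subgroup G := (P₀ : Subgroup (frattini G)).map (frattini G).subtype with hPdef
  have hidx : P.index = (P₀ : Subgroup (frattini G)).index * (frattini G).index :=
    Subgroup.index_map_subtype _
  have hPidx : ¬ p ∣ P.index := by
    rw [hidx]
    exact Nat.Prime.not_dvd_mul hp P₀.not_dvd_index hnd
  have hPp : IsPGroup p P := P₀.isPGroup'.map _
  obtain ⟨k, hk⟩ := IsPGroup.iff_card.mp hPp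
  have hcop : (Nat.card P).Coprime P.index := by
    rw [hk]
    exact Nat.Coprime.pow_left k ((Nat.Prime.coprime_iff_not_dvd hp).mpr hPidx)
  obtain ⟨K, hK⟩ := Subgroup.exists_right_complement'_of_coprime hcop
  have hsup : P ⊔ K = ⊤ := hK.sup_eq_top
  have hPle : P ≤ frattini G := by
    rw [hPdef]
    exact Subgroup.map_subtype_le _
  have hK2 : K ⊔ frattini G = ⊤ := by
    rw [eq_top_iff, ← hsup, sup_comm]
    exact sup_le_sup_left hPle K
  have hKtop : K = ⊤ := frattini_nongenerating hK2
  have hcard := hK.card_mul_card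
  rw [hKtop, Subgroup.card_top] at hcard
  have hG0 : 0 < Nat.card G := Nat.card_pos
  have hP1 : Nat.card P = 1 := by nlinarith
  have hPbot : P = ⊥ := Subgroup.card_eq_one.mp hP1
  rw [hPbot, Subgroup.index_bot] at hPidx
  exact hPidx hdvd

end Cfsg.Agent.S0049
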