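import Cfsg.Statements.S0050
import Cfsg.Agent.S0003

set_option autoImplicit false
open Pointwise
open Cfsg

namespace Cfsg.Agent.S0050

open Cfsg.Agent.S0001

lemma mem_normalizer_of_conj_smul_eq {G : Type*} [Group G] (H : Subgroup G) (x : G)
    (h : MulAut.conj x • H = H) : x ∈ Subgroup.normalizer (H : Set G) := by
  rw [Subgroup.mem_normalizer_iff]
  intro y
  constructor
  · intro hy
    rw [← h]
    exact Subgroup.mem_smul_pointwise_iff_exists _ _ _ |>.mpr ⟨y, hy, by simp [MulAut.smul_def]⟩
  · intro hy
    rw [← h, Subgroup.mem_pointwise_smul_iff_inv_smul_mem] at hy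
    simpa [MulAut.smul_def, mul_assoc] using hy

/-- A Frattini argument for Hall subgroups: if L is a solvable normal subgroup of a finite group G and H is a Hall subgroup of L, then G = L N_G(H). -/
theorem result {G : Type*} [Group G] [Finite G] (L : Subgroup G) [L.Normal] (hL : Group.IsSolvable L)
    (H : Subgroup G) (hHL : H ≤ L) (hHall : (Nat.card H).Coprime (H.relIndex L)) :
    L ⊔ Subgroup.normalizer (H : Set G) = ⊤ := by
  rw [eq_top_iff]
  intro g _
  have hgL : MulAut.conj g • H ≤ L := by
    rw [← Subgroup.Normal.conj_smul_eq_self g L]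
    exact Subgroup.pointwise_smul_le_pointwise_smul_iff.mpr hHL
  have hcardL : Nat.card L = Nat.card H * H.relIndex L := by
    have h1 := Subgroup.card_mul_index (H.subgroupOf L)
    rw [card_subgroupOf_of_le hHL] at h1
    exact h1.symm
  obtain ⟨l, hl⟩ := Cfsg.Agent.S0003.hall_conj (G := L) (Nat.card H) (H.relIndex L) hcardL hHall
    ((MulAut.conj g • H).subgroupOf L) (H.subgroupOf L)
    (by rw [card_subgroupOf_of_le hgL, card_conj_smul])
    (by rw [card_subgroupOf_of_le hHL])
  have hfin := conj_of_subgroupOf hgL hHL l hl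
  rw [← conj_mul_smul] at hfin
  have hmem := mem_normalizer_of_conj_smul_eq H _ hfin
  have e : g = (l : G)⁻¹ * ((l : G) * g) := by group
  rw [e]
  exact Subgroup.mul_mem_sup (L.inv_mem l.2) hmem

end Cfsg.Agent.S0050
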