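import Cfsg.Statements.S0053
import Mathlib

set_option autoImplicit false
open Cfsg

namespace Cfsg.Agent.S0053

open Pointwise

/-- An abelian minimal normal subgroup N of a finite group is complemented exactly when N is not inside the Frattini subgroup. -/
theorem result {G : Type*} [Group G] [Finite G]
    (N : Subgroup G) [N.Normal] [IsMulCommutative N] (hN : N ≠ ⊥)
    (hmin : ∀ M : Subgroup G, M.Normal → M ≤ N → M = ⊥ ∨ M = N) :
    (∃ H : Subgroup G, Subgroup.IsComplement' N H) ↔ ¬ N ≤ frattini G := by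
  constructor
  · rintro ⟨H, hH⟩ hle
    have hsup : N ⊔ H = ⊤ := hH.sup_eq_top
    have h1 : H ⊔ frattini G = ⊤ := by
      rw [eq_top_iff, ← hsup, sup_comm]
      exact sup_le_sup_left hle H
    have hHtop : H = ⊤ := frattini_nongenerating h1
    have hdisj : N ⊓ H = ⊥ := hH.disjoint.eq_bot
    rw [hHtop, inf_top_eq] at hdisj
    exact hN hdisj
  · intro hnot
    obtain ⟨M, hM, hNM⟩ : ∃ M : Subgroup G, IsCoatom M ∧ ¬ N ≤ M := by
      by_contra h
      push Not at h
      apply hnot
      unfold frattini Order.radical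
      exact le_iInf₂ h
    have hsup : N ⊔ M = ⊤ := by
      apply hM.2
      apply lt_of_le_of_ne le_sup_right
      intro h
      apply hNM
      rw [h]
      exact le_sup_left
    have hmul : ∀ g : G, ∃ n ∈ N, ∃ m ∈ M, n * m = g := by
      intro g
      have : g ∈ N ⊔ M := by rw [hsup]; trivial
      rw [← SetLike.mem_coe, Subgroup.normal_mul] at this
      exact Set.mem_mul.mp this
    have hnormal : (N ⊓ M).Normal := by
      constructor
      intro x hx g
      obtain ⟨hxN, hxM⟩ := Subgroup.mem_inf.mp hx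
      obtain ⟨n, hn, m, hm, rfl⟩ := hmul g
      have hyN : m * x * m⁻¹ ∈ N := (inferInstance : N.Normal).conj_mem x hxN m
      have hyM : m * x * m⁻¹ ∈ M := M.mul_mem (M.mul_mem hm hxM) (M.inv_mem hm)
      have hcomm : n * (m * x * m⁻¹) = (m * x * m⁻¹) * n := setLike_mul_comm hn hyN
      have e : n * m * x * (n * m)⁻¹ = m * x * m⁻¹ := by
        calc n * m * x * (n * m)⁻¹ = n * (m * x * m⁻¹) * n⁻¹ := by group
          _ = (m * x * m⁻¹) * n * n⁻¹ := by rw [hcomm]
          _ = m * x * m⁻¹ := by group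
      rw [e]
      exact Subgroup.mem_inf.mpr ⟨hyN, hyM⟩
    have hinf : N ⊓ M = ⊥ := by
      rcases hmin (N ⊓ M) hnormal inf_le_left with h | h
      · exact h
      · exact absurd (h ▸ inf_le_right : N ≤ M) hNM
    refine ⟨M, Subgroup.isComplement'_of_disjoint_and_mul_eq_univ (disjoint_iff.mpr hinf) ?_⟩
    rw [← Subgroup.normal_mul, hsup, Subgroup.coe_top]

end Cfsg.Agent.S0053
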