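import Cfsg.Statements.S0054
import Mathlib

set_option autoImplicit false
open Cfsg

namespace Cfsg.Agent.S0054

/-- A regular normal subgroup of a finite 2-transitive group is elementary abelian: it is commutative and all its elements have order dividing one prime. -/
theorem result {G : Type*} [Group G] [Finite G]
    {X : Type*} [Nonempty X] [MulAction G X] (h2 : MulAction.IsMultiplyPretransitive G X 2)
    (N : Subgroup G) [N.Normal] (htrans : MulAction.IsPretransitive N X) (hreg : ∀ x : X, MulAction.stabilizer N x = ⊥) :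
    IsMulCommutative N ∧ ∃ p : ℕ, p.Prime ∧ ∀ n ∈ N, n ^ p = 1 := by
  obtain ⟨x₀⟩ := (inferInstance : Nonempty X)
  have h2' : ∀ a b c d : X, a ≠ b → c ≠ d → ∃ g : G, g • a = c ∧ g • b = d :=
    fun a b c d hab hcd => MulAction.is_two_pretransitive_iff.mp h2 hab hcd
  have hmove : ∀ n ∈ N, n ≠ 1 → x₀ ≠ n • x₀ := by
    intro n hn hn1 h
    have hs : (⟨n, hn⟩ : N) ∈ MulAction.stabilizer N x₀ := by
      rw [MulAction.mem_stabilizer_iff]; exact h.symm
    rw [hreg x₀, Subgroup.mem_bot] at hs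
    exact hn1 (congrArg Subtype.val hs)
  have hconj : ∀ n ∈ N, n ≠ 1 → ∀ n' ∈ N, n' ≠ 1 → ∃ g : G, g * n * g⁻¹ = n' := by
    intro n hn hn1 n' hn' hn'1
    obtain ⟨g, hg1, hg2⟩ := h2' _ _ _ _ (hmove n hn hn1) (hmove n' hn' hn'1)
    refine ⟨g, ?_⟩
    have hmem : g * n * g⁻¹ ∈ N := (inferInstance : N.Normal).conj_mem n hn g
    have hs : (⟨n'⁻¹ * (g * n * g⁻¹), N.mul_mem (N.inv_mem hn') hmem⟩ : N) ∈ MulAction.stabilizer N x₀ := by
      rw [MulAction.mem_stabilizer_iff]
      change (n'⁻¹ * (g * n * g⁻¹)) • x₀ = x₀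
      have hg3 : g⁻¹ • x₀ = x₀ := by rw [inv_smul_eq_iff, hg1]
      rw [mul_smul, mul_smul, mul_smul, hg3, hg2, inv_smul_smul]
    rw [hreg x₀, Subgroup.mem_bot] at hs
    have h3 : n'⁻¹ * (g * n * g⁻¹) = 1 := congrArg Subtype.val hs
    exact (inv_mul_eq_one.mp h3).symm
  by_cases hNbot : N = ⊥
  · subst hNbot
    refine ⟨⟨⟨fun a b => ?_⟩⟩, 2, Nat.prime_two, fun n hn => ?_⟩
    · have ha : a = 1 := Subtype.ext (Subgroup.mem_bot.mp a.2)
      rw [ha, one_mul, mul_one]
    · rw [Subgroup.mem_bot] at hn; rw [hn, one_pow]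
  · obtain ⟨n₀, hn₀, hn₀1⟩ : ∃ n₀ ∈ N, n₀ ≠ 1 := by
      by_contra h
      push Not at h
      exact hNbot (eq_bot_iff.mpr (fun n hn => by rw [Subgroup.mem_bot]; exact h n hn))
    have hord : orderOf n₀ ≠ 1 := by rwa [Ne, orderOf_eq_one_iff]
    obtain ⟨p, hp⟩ : ∃ p, p = (orderOf n₀).minFac := ⟨_, rfl⟩
    have hpp : p.Prime := by rw [hp]; exact Nat.minFac_prime hord
    have hpd : p ∣ orderOf n₀ := by rw [hp]; exact Nat.minFac_dvd _
    obtain ⟨m, hm⟩ : ∃ m, m = n₀ ^ (orderOf n₀ / p) := ⟨_, rfl⟩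
    have hmord : orderOf m = p := by
      rw [hm]; exact orderOf_pow_orderOf_div (orderOf_pos n₀).ne' hpd
    have hmN : m ∈ N := by rw [hm]; exact N.pow_mem hn₀ _
    have hm1 : m ≠ 1 := by
      intro h; rw [h, orderOf_one] at hmord; exact hpp.one_lt.ne hmord
    have hexp : ∀ n ∈ N, n ^ p = 1 := by
      intro n hn
      by_cases hn1 : n = 1
      · rw [hn1, one_pow]
      · obtain ⟨g, hg⟩ := hconj m hmN hm1 n hn hn1
        rw [← hg, conj_pow, ← hmord, pow_orderOf_eq_one, mul_one, mul_inv_cancel]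
    refine ⟨?_, p, hpp, hexp⟩
    have hfp : Fact p.Prime := ⟨hpp⟩
    have hNp : IsPGroup p N := fun x => ⟨1, by rw [pow_one]; exact Subtype.ext (hexp x x.2)⟩
    have hnt : Nontrivial N := (Subgroup.nontrivial_iff_ne_bot _).mpr hNbot
    have hcnt : Nontrivial (Subgroup.center N) := hNp.center_nontrivial
    obtain ⟨z, hz⟩ := exists_ne (1 : Subgroup.center N)
    have hz0N : ((z : N) : G) ∈ N := (z : N).2
    have hz01 : ((z : N) : G) ≠ 1 := fun h => hz (Subtype.ext (Subtype.ext h))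
    have hzc : ∀ y ∈ N, y * ((z : N) : G) = ((z : N) : G) * y := by
      intro y hy
      have := Subgroup.mem_center_iff.mp z.2 ⟨y, hy⟩
      exact congrArg Subtype.val this
    have hall : ∀ a ∈ N, ∀ b ∈ N, a * b = b * a := by
      intro a ha b hb
      by_cases ha1 : a = 1
      · rw [ha1, one_mul, mul_one]
      · obtain ⟨g, hg⟩ := hconj _ hz0N hz01 a ha ha1
        have hb' : g⁻¹ * b * g ∈ N := by
          have := (inferInstance : N.Normal).conj_mem b hb g⁻¹
          simpa using this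
        have hc := hzc _ hb'
        rw [← hg]
        calc g * ((z : N) : G) * g⁻¹ * b = g * (((z : N) : G) * (g⁻¹ * b * g)) * g⁻¹ := by group
          _ = g * ((g⁻¹ * b * g) * ((z : N) : G)) * g⁻¹ := by rw [hc]
          _ = b * (g * ((z : N) : G) * g⁻¹) := by group
    exact ⟨⟨fun a b => Subtype.ext (hall a a.2 b b.2)⟩⟩

end Cfsg.Agent.S0054
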