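import Mathlib
import Cfsg.Statements.S0057
import Cfsg.Agent.Helper1.Cop2
import Cfsg.Agent.S0023
import Cfsg.Agent.S0026
import Cfsg.Agent.S0027

set_option autoImplicit false
open Cfsg

namespace Cfsg.Agent.S0057

open scoped commutatorElement

/-- Under coprime action, if the centraliser of A in K has prime index p in K then the commutator subgroup [K, A] has order exactly p. -/
theorem result {G : Type*} [Group G] [Finite G] (A K : Subgroup G) (hAK : A ≤ Subgroup.normalizer (K : Set G))
    (hcop : (Nat.card A).Coprime (Nat.card K)) (hsolv : Group.IsSolvable A ∨ Group.IsSolvable K)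
    (p : ℕ) (hp : p.Prime) (hidx : (K ⊓ Subgroup.centralizer (A : Set G)).relIndex K = p) :
    Nat.card (⁅K, A⁆ : Subgroup G) = p := by
  have : Fact p.Prime := ⟨hp⟩
  obtain ⟨P₀, hP₀A⟩ := Cfsg.Agent.S0023.result A K hAK hcop hsolv p
  set Z := Subgroup.centralizer (A : Set G) with hZ
  set P : Subgroup G := (P₀ : Subgroup K).map K.subtype with hPdef
  have hPK : P ≤ K := Subgroup.map_subtype_le _
  have hPp : IsPGroup p P := P₀.2.map K.subtype
  have hPsub : P.subgroupOf K = (P₀ : Subgroup K) := by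
    rw [hPdef]
    exact Subgroup.comap_map_eq_self_of_injective (Subgroup.subtype_injective K) _
  -- the relative index of C in P is p
  have hle : (K ⊓ Z).relIndex P ≤ p := by
    have := Subgroup.relIndex_le_of_le_right (H := K ⊓ Z) hPK (by rw [hidx]; exact hp.ne_zero)
    rwa [hidx] at this
  obtain ⟨n, hn⟩ := IsPGroup.iff_card.mp hPp
  have hdvd : (K ⊓ Z).relIndex P ∣ p ^ n := hn ▸ Subgroup.relIndex_dvd_card (K ⊓ Z) P
  obtain ⟨j, hj, hj'⟩ := (Nat.dvd_prime_pow hp).mp hdvd
  have hb : (K ⊓ Z).relIndex P = p := by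
    rcases Nat.eq_zero_or_pos j with rfl | hjpos
    · exfalso
      rw [pow_zero, Subgroup.relIndex_eq_one] at hj'
      have h1 := Subgroup.relIndex_mul_relIndex P (K ⊓ Z) K hj' inf_le_left
      rw [hidx] at h1
      have h2 : p ∣ P.relIndex K := ⟨_, by rw [← h1, mul_comm]⟩
      have h3 : P.relIndex K = (P₀ : Subgroup K).index := by
        rw [Subgroup.relIndex, hPsub]
      rw [h3] at h2
      exact P₀.not_dvd_index h2
    · apply le_antisymm hle
      rw [hj']
      exact Nat.le_of_dvd (pow_pos hp.pos j) (dvd_pow_self p hjpos.ne')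
  have hprod := Cfsg.Agent.Helper1.exists_mul_of_relIndex_eq hPK (hb.trans hidx.symm)
  have hAP : A ≤ Subgroup.normalizer (P : Set G) := hP₀A
  have hRP : (⁅K, A⁆ : Subgroup G) = ⁅P, A⁆ := by
    apply le_antisymm
    · rw [Subgroup.commutator_le]
      intro k hk a ha
      obtain ⟨x, hx, c, hc, rfl⟩ := hprod k hk
      have hca : a * c = c * a := Subgroup.mem_centralizer_iff.mp hc.2 a ha
      have h1 : c * a * c⁻¹ = a := by rw [← hca, mul_inv_cancel_right]
      have h2 : ⁅x * c, a⁆ = ⁅x, a⁆ := by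
        rw [commutatorElement_def, commutatorElement_def]
        calc x * c * a * (x * c)⁻¹ * a⁻¹ = x * (c * a * c⁻¹) * x⁻¹ * a⁻¹ := by group
          _ = x * a * x⁻¹ * a⁻¹ := by rw [h1]
      rw [h2]
      exact Subgroup.commutator_mem_commutator hx ha
    · exact Subgroup.commutator_mono hPK le_rfl
  rw [hRP]
  have hcopP : (Nat.card A).Coprime (Nat.card P) :=
    hcop.coprime_dvd_right (Subgroup.card_dvd_of_le hPK)
  have : Group.IsNilpotent P := hPp.isNilpotent
  have hsolvP : Group.IsSolvable A ∨ Group.IsSolvable P := Or.inr inferInstance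
  have hidxP : (P ⊓ Z).relIndex P = p := by
    rw [← hb, ← Subgroup.inf_relIndex_right (K ⊓ Z) P]
    congr 1
    rw [inf_comm (K ⊓ Z) P, ← inf_assoc, inf_eq_left.mpr hPK]
  exact Cfsg.Agent.Helper1.card_commutator_of_relIndex_eq_prime A P hAP hcopP hPp hidxP
    (Cfsg.Agent.S0026.result A P hAP hcopP hsolvP) (Cfsg.Agent.S0027.result A P hAP hcopP hsolvP)

end Cfsg.Agent.S0057
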