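import Cfsg.Statements.S0060
import Cfsg.Agent.Helper1.Grp
import Cfsg.Agent.S0010

set_option autoImplicit false
open Pointwise
open Cfsg

namespace Cfsg.Agent.S0060

open Cfsg.Agent.Helper1

/-- Brodkey's Theorem: in a finite group with abelian Sylow p-subgroups and no nontrivial normal p-subgroup, some conjugate of a Sylow p-subgroup meets it trivially. -/
theorem result {G : Type*} [Group G] [Finite G] (p : ℕ) [Fact p.Prime]
    (S : Sylow p G) (hS : IsMulCommutative S) (hOp : Cfsg.pCore p G = ⊥) :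
    ∃ g : G, (S : Subgroup G) ⊓ MulAut.conj g • (S : Subgroup G) = ⊥ := by
  classical
  have hab : ∀ P : Sylow p G, ∀ x ∈ P, ∀ y ∈ P, x * y = y * x := by
    intro P x hx y hy
    obtain ⟨g, hg⟩ := exists_sylow_conj S P
    have hx' := (hg x).mp hx
    have hy' := (hg y).mp hy
    have h1 : (⟨_, hx'⟩ : S) * ⟨_, hy'⟩ = ⟨_, hy'⟩ * ⟨_, hx'⟩ := mul_comm' _ _
    have h2 : g⁻¹ * x * g * (g⁻¹ * y * g) = g⁻¹ * y * g * (g⁻¹ * x * g) :=
      congrArg Subtype.val h1
    have h3 : g * (g⁻¹ * x * g * (g⁻¹ * y * g)) * g⁻¹ = g * (g⁻¹ * y * g * (g⁻¹ * x * g)) * g⁻¹ := by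
      rw [h2]
    simpa [mul_assoc] using h3
  obtain ⟨⟨S', T'⟩, hmin⟩ := Finite.exists_min
    (fun x : Sylow p G × Sylow p G => Nat.card ↥((x.1 : Subgroup G) ⊓ (x.2 : Subgroup G)))
  set D := (S' : Subgroup G) ⊓ (T' : Subgroup G) with hD
  have hSN : (S' : Subgroup G) ≤ Subgroup.normalizer (D : Set G) := by
    rw [Subgroup.le_normalizer_iff]
    intro s hs d hd
    have : s * d * s⁻¹ = d := by rw [hab S' s hs d hd.1]; group
    rw [this]; exact hd
  have hTN : (T' : Subgroup G) ≤ Subgroup.normalizer (D : Set G) := by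
    rw [Subgroup.le_normalizer_iff]
    intro s hs d hd
    have : s * d * s⁻¹ = d := by rw [hab T' s hs d hd.2]; group
    rw [this]; exact hd
  have hDP : ∀ P : Sylow p G, D ≤ (P : Subgroup G) := by
    intro P
    obtain ⟨n, hnN, hn⟩ := exists_conj_mem_sylow_of_le S' (Subgroup.normalizer (D : Set G))
      ((P : Subgroup G) ⊓ Subgroup.normalizer (D : Set G)) hSN inf_le_right
      (P.2.to_le inf_le_left)
    have hP' : ∀ y, y ∈ (n⁻¹ • P : Sylow p G) ↔ n * y * n⁻¹ ∈ P := by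
      intro y; rw [mem_sylow_smul_iff]; simp
    have hle : ((n⁻¹ • P : Sylow p G) : Subgroup G) ⊓ (T' : Subgroup G) ≤ D := by
      intro y hy
      obtain ⟨hy1, hy2⟩ := Subgroup.mem_inf.mp hy
      have hyN : y ∈ Subgroup.normalizer (D : Set G) := hTN hy2
      have hx : n * y * n⁻¹ ∈ (P : Subgroup G) ⊓ Subgroup.normalizer (D : Set G) :=
        ⟨(hP' y).mp hy1, Subgroup.mul_mem _ (Subgroup.mul_mem _ hnN hyN) (Subgroup.inv_mem _ hnN)⟩
      have h1 := hn _ hx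
      have hyS : y ∈ S' := by simpa [mul_assoc] using h1
      exact ⟨hyS, hy2⟩
    have hcard : Nat.card D ≤
        Nat.card ↥(((n⁻¹ • P : Sylow p G) : Subgroup G) ⊓ (T' : Subgroup G)) :=
      hmin (n⁻¹ • P, T')
    have heq : ((n⁻¹ • P : Sylow p G) : Subgroup G) ⊓ (T' : Subgroup G) = D :=
      Subgroup.eq_of_le_of_card_ge hle hcard
    intro d hd
    have h1 : n⁻¹ * d * n ∈ D := (Subgroup.mem_normalizer_iff''.mp hnN d).mp hd
    rw [← heq] at h1
    have h2 := (hP' _).mp h1.1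
    have h3 : d ∈ P := by simpa [mul_assoc] using h2
    exact h3
  have hDbot : D = ⊥ := by
    rw [eq_bot_iff, ← hOp, Cfsg.Agent.S0010.result p]
    exact le_iInf hDP
  obtain ⟨a, ha⟩ := exists_sylow_conj S S'
  obtain ⟨b, hb⟩ := exists_sylow_conj S T'
  refine ⟨a⁻¹ * b, ?_⟩
  rw [eq_bot_iff]
  intro x hx
  obtain ⟨hx1, hx2⟩ := Subgroup.mem_inf.mp hx
  rw [mem_conj_smul_iff] at hx2
  have h1 : a * x * a⁻¹ ∈ S' := by
    have e1 : a⁻¹ * (a * x * a⁻¹) * a = x := by group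
    rw [ha, e1]; exact hx1
  have h2 : a * x * a⁻¹ ∈ T' := by
    have e2 : b⁻¹ * (a * x * a⁻¹) * b = (a⁻¹ * b)⁻¹ * x * (a⁻¹ * b) := by group
    rw [hb, e2]; exact hx2
  have h3 : a * x * a⁻¹ ∈ D := ⟨h1, h2⟩
  rw [hDbot, Subgroup.mem_bot] at h3
  rw [Subgroup.mem_bot]
  have h4 : x = a⁻¹ * (a * x * a⁻¹) * a := by group
  rw [h4, h3]; group

end Cfsg.Agent.S0060
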