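import Cfsg.Statements.S0063

set_option autoImplicit false
open Cfsg

namespace Cfsg.Agent.S0063

universe u

theorem aux (p : ℕ) [Fact p.Prime] : ∀ (m : ℕ) (G : Type u) [Group G] [Finite G],
    Nat.card G = p ^ m → Group.nilpotencyClass G ≤ max (m - 1) 1 := by
  have hp : p.Prime := Fact.out
  intro m
  induction m using Nat.strong_induction_on with
  | _ m ih =>
    intro G _ _ hG
    have hpG : IsPGroup p G := IsPGroup.of_card hG
    haveI : Group.IsNilpotent G := hpG.isNilpotent
    by_cases hcomm : ∀ a b : G, a * b = b * a
    · have : Group.nilpotencyClass G ≤ 1 :=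
        Group.IsNilpotent.nilpotencyClass_le_one_iff.mpr ⟨⟨hcomm⟩⟩
      exact this.trans (le_max_right _ _)
    · haveI : Nontrivial G := by
        by_contra hnt
        rw [not_nontrivial_iff_subsingleton] at hnt
        exact hcomm (fun a b => Subsingleton.elim _ _)
      have hZ : Nontrivial (Subgroup.center G) := hpG.center_nontrivial
      have hcard : Nat.card (G ⧸ Subgroup.center G) * Nat.card (Subgroup.center G) = p ^ m := by
        rw [← hG]; exact (Subgroup.card_eq_card_quotient_mul_card_subgroup _).symm
      have hZdvd : Nat.card (Subgroup.center G) ∣ p ^ m := Dvd.intro_left _ hcard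
      obtain ⟨k, hkm, hk⟩ := (Nat.dvd_prime_pow hp).mp hZdvd
      have hk1 : 1 ≤ k := by
        rcases Nat.eq_zero_or_pos k with h0 | h0
        · exfalso
          rw [h0, pow_zero] at hk
          have : Subsingleton (Subgroup.center G) := (Nat.card_eq_one_iff_unique.mp hk).1
          exact not_subsingleton _ this
        · exact h0
      have hq : Nat.card (G ⧸ Subgroup.center G) = p ^ (m - k) := by
        rw [hk] at hcard
        have h2 : p ^ m = p ^ (m - k) * p ^ k := by rw [← pow_add, Nat.sub_add_cancel hkm]
        rw [h2] at hcard
        exact Nat.eq_of_mul_eq_mul_right (pow_pos hp.pos k) hcard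
      have hlt : m - k < m := by omega
      have ih' := ih (m - k) hlt (G ⧸ Subgroup.center G) hq
      have hcl := Group.nilpotencyClass_eq_quotient_center_plus_one (G := G)
      by_cases h2 : 2 ≤ m - k
      · have : max (m - k - 1) 1 = m - k - 1 := max_eq_left (by omega)
        rw [this] at ih'
        rw [hcl]
        have : Group.nilpotencyClass (G ⧸ Subgroup.center G) + 1 ≤ m - 1 := by omega
        exact this.trans (le_max_left _ _)
      · exfalso
        have hcyc : IsCyclic (G ⧸ Subgroup.center G) := by
          have hmk : m - k = 0 ∨ m - k = 1 := by omega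
          rcases hmk with h0 | h1
          · rw [h0, pow_zero] at hq
            haveI : Subsingleton (G ⧸ Subgroup.center G) := (Nat.card_eq_one_iff_unique.mp hq).1
            infer_instance
          · rw [h1, pow_one] at hq
            exact isCyclic_of_prime_card hq
        exact hcomm (commutative_of_cyclic_center_quotient (QuotientGroup.mk' (Subgroup.center G))
          (by rw [QuotientGroup.ker_mk']))

/-- A finite group of prime-power order p ^ m with m > 1 is nilpotent of class at most m - 1. -/
theorem result {G : Type*} [Group G] [Finite G] (p m : ℕ) [Fact p.Prime]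
    (hG : Nat.card G = p ^ m) (hm : 1 < m) : Group.nilpotencyClass G ≤ m - 1 := by
  have h := aux p m G hG
  have : max (m - 1) 1 = m - 1 := max_eq_left (by omega)
  rw [this] at h
  exact h

end Cfsg.Agent.S0063
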