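import Cfsg.Statements.S0068
import Mathlib

set_option autoImplicit false
open Cfsg

namespace Cfsg.Agent.S0068

theorem inverts {G : Type*} [Group G] [Finite G] (K : Subgroup G) [K.Normal] (s : G)
    (hs : s * s = 1) (hfix : K ⊓ Subgroup.centralizer {s} = ⊥) :
    ∀ k ∈ K, s * k * s⁻¹ = k⁻¹ := by
  have hsinv : s⁻¹ = s := inv_eq_of_mul_eq_one_left hs
  have hmem : ∀ k : K, (k : G)⁻¹ * s * k * s⁻¹ ∈ K := by
    intro k
    have h1 : s * (k : G) * s⁻¹ ∈ K := Subgroup.Normal.conj_mem inferInstance _ k.2 s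
    have h2 : (k : G)⁻¹ * s * k * s⁻¹ = (k : G)⁻¹ * (s * k * s⁻¹) := by group
    rw [h2]
    exact K.mul_mem (K.inv_mem k.2) h1
  let f : K → K := fun k => ⟨(k : G)⁻¹ * s * k * s⁻¹, hmem k⟩
  have hinj : Function.Injective f := by
    intro k l hkl
    have h1 : (k : G)⁻¹ * s * k * s⁻¹ = (l : G)⁻¹ * s * l * s⁻¹ := congrArg Subtype.val hkl
    have h2 : (k : G)⁻¹ * s * k = (l : G)⁻¹ * s * l := mul_right_cancel h1
    have h3 : s * ((l : G) * (k : G)⁻¹) = (l : G) * (k : G)⁻¹ * s := by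
      calc s * ((l : G) * (k : G)⁻¹) = (l : G) * ((l : G)⁻¹ * s * l) * (k : G)⁻¹ := by group
        _ = (l : G) * ((k : G)⁻¹ * s * k) * (k : G)⁻¹ := by rw [h2]
        _ = (l : G) * (k : G)⁻¹ * s := by group
    have h4 : (l : G) * (k : G)⁻¹ ∈ K ⊓ Subgroup.centralizer {s} := by
      refine Subgroup.mem_inf.mpr ⟨K.mul_mem l.2 (K.inv_mem k.2), ?_⟩
      rw [Subgroup.mem_centralizer_iff]
      intro h hh
      rw [Set.mem_singleton_iff] at hh
      rw [hh]; exact h3
    rw [hfix, Subgroup.mem_bot] at h4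
    have h5 : (l : G) = k := by
      have := mul_inv_eq_one.mp h4
      exact this
    exact Subtype.ext h5.symm
  have hsurj : Function.Surjective f := Finite.injective_iff_surjective.mp hinj
  intro k hk
  obtain ⟨l, hl⟩ := hsurj ⟨k, hk⟩
  have hk' : (l : G)⁻¹ * s * l * s⁻¹ = k := congrArg Subtype.val hl
  rw [← hk']
  rw [hsinv]
  have e1 : s * ((l : G)⁻¹ * s * l * s) * s = s * (l : G)⁻¹ * s * l * (s * s) := by group
  have e2 : ((l : G)⁻¹ * s * l * s)⁻¹ = s⁻¹ * (l : G)⁻¹ * s⁻¹ * l := by group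
  rw [e1, e2, hs, hsinv, mul_one]

/-- Frobenius complements of even order: if H complements a nontrivial normal subgroup K, each nonidentity element of H has trivial centraliser in K, and H has even order, then H contains a unique involution s, K is abelian, and s inverts every element of K. -/
theorem result {G : Type*} [Group G] [Finite G] (K H : Subgroup G) [K.Normal]
    (hc : Subgroup.IsComplement' K H) (hK : K ≠ ⊥) (hfpf : ∀ h ∈ H, h ≠ 1 → K ⊓ Subgroup.centralizer {h} = ⊥)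
    (heven : 2 ∣ Nat.card H) :
    (∃ s ∈ H, orderOf s = 2 ∧ (∀ t ∈ H, orderOf t = 2 → t = s) ∧ ∀ k ∈ K, s * k * s⁻¹ = k⁻¹) ∧ IsMulCommutative K := by
  haveI : Fact (Nat.Prime 2) := ⟨Nat.prime_two⟩
  obtain ⟨s0, hs0⟩ := exists_prime_orderOf_dvd_card' (G := H) 2 heven
  set s : G := (s0 : G) with hsdef
  have hsH : s ∈ H := s0.2
  have hso : orderOf s = 2 := by rw [hsdef, Subgroup.orderOf_coe]; exact hs0
  have key : ∀ t ∈ H, orderOf t = 2 → ∀ k ∈ K, t * k * t⁻¹ = k⁻¹ := by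
    intro t htH hto
    have ht2 : t * t = 1 := by
      have := pow_orderOf_eq_one t
      rw [hto, pow_two] at this
      exact this
    have ht1 : t ≠ 1 := by
      intro h
      rw [h, orderOf_one] at hto
      omega
    exact inverts K t ht2 (hfpf t htH ht1)
  have hsinv := key s hsH hso
  refine ⟨⟨s, hsH, hso, ?_, hsinv⟩, ?_⟩
  · intro t htH hto
    have htinv := key t htH hto
    by_contra hts
    have hne : t * s⁻¹ ≠ 1 := fun h => hts (mul_inv_eq_one.mp h)
    have hfix := hfpf (t * s⁻¹) (H.mul_mem htH (H.inv_mem hsH)) hne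
    apply hK
    rw [eq_bot_iff, ← hfix]
    intro k hk
    refine Subgroup.mem_inf.mpr ⟨hk, ?_⟩
    rw [Subgroup.mem_centralizer_iff]
    intro h hh
    rw [Set.mem_singleton_iff] at hh
    rw [hh]
    -- t * s⁻¹ * k = k * (t * s⁻¹)
    have h1 : s⁻¹ * k * s = k⁻¹ := by
      have := hsinv k⁻¹ (K.inv_mem hk)
      rw [inv_inv] at this
      calc s⁻¹ * k * s = s⁻¹ * (s * k⁻¹ * s⁻¹) * s := by rw [this]
        _ = k⁻¹ := by group
    have h3 : t * k⁻¹ * t⁻¹ = k := by
      have := htinv k⁻¹ (K.inv_mem hk)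
      rwa [inv_inv] at this
    calc t * s⁻¹ * k = t * (s⁻¹ * k * s) * t⁻¹ * (t * s⁻¹) := by group
      _ = t * k⁻¹ * t⁻¹ * (t * s⁻¹) := by rw [h1]
      _ = k * (t * s⁻¹) := by rw [h3]
  · refine ⟨⟨?_⟩⟩
    intro x y
    apply Subtype.ext
    rw [Subgroup.coe_mul, Subgroup.coe_mul]
    have hx := hsinv x x.2
    have hy := hsinv y y.2
    have hxy := hsinv ((x : G) * y) (K.mul_mem x.2 y.2)
    have h1 : s * ((x : G) * y) * s⁻¹ = (s * x * s⁻¹) * (s * y * s⁻¹) := by group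
    rw [h1, hx, hy, mul_inv_rev] at hxy
    -- x⁻¹ * y⁻¹ = y⁻¹ * x⁻¹
    have h2 : ((x : G) * y)⁻¹ = ((y : G) * x)⁻¹ := by
      rw [mul_inv_rev, mul_inv_rev]; exact hxy.symm
    exact inv_injective h2

end Cfsg.Agent.S0068
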