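import Mathlib
import Cfsg.Statements.S0070
import Cfsg.Agent.S0008
import Cfsg.Agent.S0009
import Cfsg.Agent.S0010

set_option autoImplicit false
open Cfsg

namespace Cfsg.Agent.S0070

/-- The Fitting subgroup commutes with passing to the Frattini quotient: the Fitting subgroup of G modulo its Frattini subgroup is the image of the Fitting subgroup of G. -/
theorem result {G : Type*} [Group G] [Finite G] :
    Cfsg.fittingSubgroup (G ⧸ frattini G) = (Cfsg.fittingSubgroup G).map (QuotientGroup.mk' (frattini G)) := by
  set Φ := frattini G with hΦ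
  set π := QuotientGroup.mk' Φ with hπ
  have hπs : Function.Surjective π := QuotientGroup.mk'_surjective Φ
  have hker : π.ker = Φ := QuotientGroup.ker_mk' Φ
  apply le_antisymm
  · rw [Cfsg.Agent.S0009.result, iSup_le_iff]
    intro p
    have : Fact (p : ℕ).Prime := ⟨p.2⟩
    set O := Cfsg.pCore (p : ℕ) (G ⧸ Φ) with hO
    have hOn : O.Normal := Cfsg.Agent.S0010.pCore_normal _
    have hOp : IsPGroup p O := Cfsg.Agent.S0010.pCore_isPGroup _
    set K := O.comap π with hK
    have hKn : K.Normal := hOn.comap π
    have hΦK : Φ ≤ K := by rw [← hker]; exact MonoidHom.ker_le_comap π O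
    have hmapK : K.map π = O := Subgroup.map_comap_eq_self_of_surjective hπs O
    obtain ⟨P⟩ : Nonempty (Sylow p K) := inferInstance
    set P' := (P : Subgroup K).map K.subtype with hP'
    have hP'K : P' ≤ K := Subgroup.map_subtype_le _
    have hfr : Subgroup.normalizer (P' : Set G) ⊔ K = ⊤ := Sylow.normalizer_sup_eq_top P
    have hidx : (P' ⊔ Φ).relIndex K = 1 := by
      have h1 : (P' ⊔ Φ).relIndex K ∣ P'.relIndex K :=
        Subgroup.relIndex_dvd_of_le_left K le_sup_left
      have h2 : (P' ⊔ Φ).relIndex K ∣ Φ.relIndex K :=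
        Subgroup.relIndex_dvd_of_le_left K le_sup_right
      have h3 : P'.relIndex K = (P : Subgroup K).index := by
        rw [Subgroup.relIndex, hP', Subgroup.subgroupOf,
          Subgroup.comap_map_eq_self_of_injective (Subgroup.subtype_injective K)]
      have h4 : Φ.relIndex K = Nat.card O := by
        have h4' : ((⊥ : Subgroup (G ⧸ Φ)).comap π).relIndex K = Nat.card O := by
          rw [Subgroup.relIndex_comap, hmapK, Subgroup.relIndex_bot_left]
        have h : (⊥ : Subgroup (G ⧸ Φ)).comap π = Φ := by rw [MonoidHom.comap_bot, hker]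
        rw [h] at h4'
        exact h4'
      obtain ⟨m, hm⟩ := IsPGroup.iff_card.mp hOp
      rw [h3] at h1
      rw [h4, hm] at h2
      have h5 : Nat.Coprime (P : Subgroup K).index ((p : ℕ) ^ m) :=
        Nat.Coprime.pow_right m
          ((Nat.coprime_comm).mp ((Nat.Prime.coprime_iff_not_dvd p.2).mpr P.not_dvd_index))
      have h6 := Nat.dvd_gcd h1 h2
      rw [h5] at h6
      exact Nat.dvd_one.mp h6
    have hKle : K ≤ P' ⊔ Φ := Subgroup.relIndex_eq_one.mp hidx
    have hKeq : K = P' ⊔ Φ := le_antisymm hKle (sup_le hP'K hΦK)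
    have hnorm : Subgroup.normalizer (P' : Set G) = ⊤ := by
      apply frattini_nongenerating
      rw [← hfr, hKeq, ← sup_assoc, sup_eq_left.mpr Subgroup.le_normalizer]
    have hP'n : P'.Normal := Subgroup.normalizer_eq_top_iff.mp hnorm
    have hP'p : IsPGroup p P' := P.2.map K.subtype
    have hP'F : P' ≤ Cfsg.fittingSubgroup G := by
      have : Group.IsNilpotent P' := hP'p.isNilpotent
      exact le_sSup ⟨hP'n, inferInstance⟩
    have hΦbot : Φ.map π = ⊥ := by
      rw [Subgroup.map_eq_bot_iff, hker]
    calc O = K.map π := hmapK.symm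
      _ = (P' ⊔ Φ).map π := by rw [← hKeq]
      _ = P'.map π := by rw [Subgroup.map_sup, hΦbot, sup_bot_eq]
      _ ≤ _ := Subgroup.map_mono hP'F
  · apply le_sSup
    have hFn : (Cfsg.fittingSubgroup G).Normal := Subgroup.sSup_normal _ (fun _ h => h.1)
    constructor
    · exact hFn.map π hπs
    · have := Cfsg.Agent.S0008.result (G := G)
      exact Group.nilpotent_of_surjective (π.subgroupMap (Cfsg.fittingSubgroup G))
        (MonoidHom.subgroupMap_surjective π _)

end Cfsg.Agent.S0070
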