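import Cfsg.Statements.S0073
import Cfsg.Agent.Helper1.NC

set_option autoImplicit false
open Cfsg

namespace Cfsg.Agent.S0073

/-- For a finite non-abelian simple group, either the cube of the least prime divisor of the order divides the order, or 12 does. -/
theorem result {G : Type*} [Group G] [Finite G] [IsSimpleGroup G] (hG : ∃ x y : G, x * y ≠ y * x) : (Nat.card G).minFac ^ 3 ∣ Nat.card G ∨ 12 ∣ Nat.card G := by
  by_contra hcon
  obtain ⟨h3, h12⟩ := not_or.mp hcon
  have hcard1 : Nat.card G ≠ 1 := by
    intro h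
    haveI := (Nat.card_eq_one_iff_unique.mp h).1
    obtain ⟨x, y, hxy⟩ := hG
    exact hxy (Subsingleton.elim _ _)
  set p := (Nat.card G).minFac with hpdef
  have hp : p.Prime := Nat.minFac_prime hcard1
  haveI : Fact p.Prime := ⟨hp⟩
  have hpG : p ∣ Nat.card G := Nat.minFac_dvd _
  obtain ⟨P⟩ : Nonempty (Sylow p G) := inferInstance
  obtain ⟨k, hk⟩ := P.2.exists_card_eq
  have hPdvd : p ^ k ∣ Nat.card G := hk ▸ Subgroup.card_subgroup_dvd_card _
  have hk2 : k ≤ 2 := by
    by_contra hk3
    exact h3 ((pow_dvd_pow p (by omega : 3 ≤ k)).trans hPdvd)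
  have hk1 : 1 ≤ k := by
    by_contra hk0
    have h0 : k = 0 := by omega
    rw [h0, pow_zero] at hk
    exact P.ne_bot_of_dvd_card hpG (Subgroup.eq_bot_of_card_eq _ hk)
  haveI hcomm : IsMulCommutative P := by
    rcases (by omega : k = 1 ∨ k = 2) with h1 | h2
    · rw [h1, pow_one] at hk
      haveI := isCyclic_of_prime_card hk
      exact IsCyclic.isMulCommutative
    · rw [h2] at hk
      exact IsPGroup.isMulCommutative_of_card_eq_prime_sq hk
  have hNC : ¬ Subgroup.normalizer ((P : Subgroup G) : Set G) ≤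
      Subgroup.centralizer (P : Set G) := by
    intro hle
    have hcompl := MonoidHom.ker_transferSylow_isComplement' P hle
    have hmul := hcompl.card_mul_card
    rcases (MonoidHom.transferSylow P hle).normal_ker.eq_bot_or_eq_top with hb | ht
    · rw [hb, Subgroup.card_bot, one_mul] at hmul
      have hPtop : (P : Subgroup G) = ⊤ := Subgroup.eq_top_of_card_eq _ hmul
      obtain ⟨x, y, hxy⟩ := hG
      apply hxy
      have hx : x ∈ (P : Subgroup G) := by rw [hPtop]; trivial
      have hy : y ∈ (P : Subgroup G) := by rw [hPtop]; trivial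
      exact setLike_mul_comm hx hy
    · rw [ht, Subgroup.card_top] at hmul
      have h1 : Nat.card P = 1 := by
        have hpos : 0 < Nat.card G := Nat.card_pos
        exact Nat.eq_of_mul_eq_mul_left hpos (by rw [hmul, mul_one])
      rw [hk] at h1
      exact absurd h1 (Nat.one_lt_pow (by omega) hp.one_lt).ne'
  obtain ⟨q, hq, hqp, hqG, d, hd, hdlt, hqd⟩ :=
    Cfsg.Agent.Helper1.exists_prime_dvd_card_sub P hNC
  rw [hk] at hd hdlt hqd
  have hp2le := hp.two_le
  have hpq : p < q := by
    have : p ≤ q := Nat.minFac_le_of_dvd hq.two_le hqG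
    omega
  have hnd : ∀ m, 0 < m → m < q → ¬ q ∣ m := fun m h0 h1 hdvd =>
    absurd (Nat.le_of_dvd h0 hdvd) (by omega)
  obtain ⟨j, hjk, rfl⟩ := (Nat.dvd_prime_pow hp).mp hd
  have hjk' : j < k := by
    by_contra hge
    have hjk2 : j = k := by omega
    rw [hjk2] at hdlt
    exact lt_irrefl _ hdlt
  rcases (by omega : k = 1 ∨ k = 2) with h1 | h2
  · have hj0 : j = 0 := by omega
    rw [h1, hj0, pow_one, pow_zero] at hqd
    exact hnd (p - 1) (by omega) (by omega) hqd
  · rcases (by omega : j = 0 ∨ j = 1) with hj | hj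
    · rw [h2, hj, pow_zero] at hqd
      have e : p ^ 2 - 1 = (p - 1) * (p + 1) := by
        obtain ⟨m, hm⟩ : ∃ m, p = m + 1 := ⟨p - 1, by omega⟩
        rw [hm, Nat.add_sub_cancel]
        have : (m + 1) ^ 2 = m * (m + 1 + 1) + 1 := by ring
        rw [this, Nat.add_sub_cancel]
      rw [e] at hqd
      rcases (Nat.Prime.dvd_mul hq).mp hqd with h | h
      · exact hnd (p - 1) (by omega) (by omega) h
      · have hq1 : q = p + 1 := by
          have := Nat.le_of_dvd (by omega) h
          omega
        have hp2 : p = 2 := by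
          rcases hp.eq_two_or_odd with h2' | hodd
          · exact h2'
          · have h2q : 2 ∣ q := by rw [hq1]; omega
            have hq2 : q = 2 := ((Nat.prime_dvd_prime_iff_eq Nat.prime_two hq).mp h2q).symm
            omega
        apply h12
        have h4 : 4 ∣ Nat.card G := by
          rw [h2, hp2] at hPdvd
          exact hPdvd
        have h3' : 3 ∣ Nat.card G := by
          rw [hq1, hp2] at hqG
          exact hqG
        exact Nat.Coprime.mul_dvd_of_dvd_of_dvd (by norm_num : Nat.Coprime 4 3) h4 h3'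
    · rw [h2, hj, pow_one] at hqd
      have e : p ^ 2 - p = p * (p - 1) := by rw [Nat.mul_sub_one, pow_two]
      rw [e] at hqd
      rcases (Nat.Prime.dvd_mul hq).mp hqd with h | h
      · exact hqp ((Nat.prime_dvd_prime_iff_eq hq hp).mp h)
      · exact hnd (p - 1) (by omega) (by omega) h

end Cfsg.Agent.S0073
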