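import Cfsg.Statements.S0084
import Cfsg.Agent.Helper1.NC

set_option autoImplicit false
open Cfsg

namespace Cfsg.Agent.S0084

/-- A group whose Sylow 2-subgroups are Klein four-groups and whose order is prime to 3 has a normal 2-complement. -/
theorem result {G : Type*} [Group G] [Finite G] (T : Sylow 2 G) (hT : IsKleinFour T) (h3 : ¬ 3 ∣ Nat.card G) : Cfsg.HasNormalPComplement 2 G := by
  haveI : IsMulCommutative T := IsKleinFour.isMulCommutative
  have hcard : Nat.card T = 4 := IsKleinFour.card_four
  apply Cfsg.Agent.Helper1.hasNormalPComplement_of_normalizer_le_centralizer T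
  by_contra hne
  obtain ⟨q, hq, hq2, hqG, d, hd, hdlt, hqd⟩ :=
    Cfsg.Agent.Helper1.exists_prime_dvd_card_sub T hne
  rw [hcard] at hd hdlt hqd
  interval_cases d
  · norm_num at hd
  · have : q = 3 := (Nat.prime_dvd_prime_iff_eq hq Nat.prime_three).mp hqd
    exact h3 (this ▸ hqG)
  · have : q = 2 := (Nat.prime_dvd_prime_iff_eq hq Nat.prime_two).mp hqd
    exact hq2 this
  · norm_num at hd

end Cfsg.Agent.S0084
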