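import Cfsg.Statements.S0085
import Cfsg.Agent.Helper1.NC

set_option autoImplicit false
open Cfsg

namespace Cfsg.Agent.S0085

/-- A group whose Sylow 2-subgroups are elementary abelian of order 8 and whose order is prime to 3 and to 7 has a normal 2-complement. -/
theorem result {G : Type*} [Group G] [Finite G] (T : Sylow 2 G) (h8 : Nat.card T = 8) (he : ∀ x : T, x * x = 1) (h3 : ¬ 3 ∣ Nat.card G) (h7 : ¬ 7 ∣ Nat.card G) : Cfsg.HasNormalPComplement 2 G := by
  have hinv : ∀ x : T, x⁻¹ = x := fun x => inv_eq_of_mul_eq_one_left (he x)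
  haveI : IsMulCommutative T := ⟨⟨fun a b => by
    calc a * b = (a * b)⁻¹ := (hinv _).symm
      _ = b⁻¹ * a⁻¹ := mul_inv_rev _ _
      _ = b * a := by rw [hinv, hinv]⟩⟩
  apply Cfsg.Agent.Helper1.hasNormalPComplement_of_normalizer_le_centralizer T
  by_contra hne
  obtain ⟨q, hq, hq2, hqG, d, hd, hdlt, hqd⟩ :=
    Cfsg.Agent.Helper1.exists_prime_dvd_card_sub T hne
  rw [h8] at hd hdlt hqd
  interval_cases d
  · norm_num at hd
  · have : q = 7 := (Nat.prime_dvd_prime_iff_eq hq (by norm_num : Nat.Prime 7)).mp hqd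
    exact h7 (this ▸ hqG)
  · have h6 : q ∣ 2 * 3 := hqd
    rcases (Nat.Prime.dvd_mul hq).mp h6 with h | h
    · exact hq2 ((Nat.prime_dvd_prime_iff_eq hq Nat.prime_two).mp h)
    · have : q = 3 := (Nat.prime_dvd_prime_iff_eq hq Nat.prime_three).mp h
      exact h3 (this ▸ hqG)
  · norm_num at hd
  · have h4 : q ∣ 2 ^ 2 := hqd
    exact hq2 ((Nat.prime_dvd_prime_iff_eq hq Nat.prime_two).mp (hq.dvd_of_dvd_pow h4))
  · norm_num at hd
  · norm_num at hd
  · norm_num at hd

end Cfsg.Agent.S0085
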