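import Cfsg.Statements.S0086
import Mathlib

set_option autoImplicit false
open Cfsg

namespace Cfsg.Agent.S0086

/-- A normal complement to a Sylow p-subgroup is exactly the set of elements of order prime to p. -/
theorem result {G : Type*} [Group G] [Finite G] {p : ℕ} [Fact p.Prime] (P : Sylow p G) (N : Subgroup G) [N.Normal] (hN : N.IsComplement' (P : Subgroup G)) (x : G) : x ∈ N ↔ Nat.Coprime (orderOf x) p := by
  have hp : p.Prime := Fact.out
  constructor
  · intro hx
    have h1 : orderOf x ∣ Nat.card N := Subgroup.orderOf_dvd_natCard N hx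
    have h2 : Nat.card N = (P : Subgroup G).index := hN.index_eq_card.symm
    have h3 : Nat.Coprime (Nat.card N) p := by
      rw [h2, Nat.coprime_comm]
      exact (Nat.Prime.coprime_iff_not_dvd hp).mpr P.not_dvd_index
    exact Nat.Coprime.coprime_dvd_left h1 h3
  · intro hx
    have h1 : orderOf (QuotientGroup.mk' N x) ∣ orderOf x := orderOf_map_dvd _ x
    have h2 : orderOf (QuotientGroup.mk' N x) ∣ Nat.card (G ⧸ N) := orderOf_dvd_natCard _
    have h3 : Nat.card (G ⧸ N) = Nat.card (P : Subgroup G) := by
      rw [← Subgroup.index_eq_card]; exact hN.symm.index_eq_card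
    obtain ⟨k, hk⟩ := P.2.exists_card_eq
    rw [h3, hk] at h2
    have h4 : Nat.Coprime (orderOf x) (p ^ k) := Nat.Coprime.pow_right k hx
    have h5 : orderOf (QuotientGroup.mk' N x) ∣ 1 := by
      have := Nat.dvd_gcd h1 h2
      rwa [Nat.Coprime.gcd_eq_one h4] at this
    have h6 : QuotientGroup.mk' N x = 1 := orderOf_eq_one_iff.mp (Nat.dvd_one.mp h5)
    exact (QuotientGroup.eq_one_iff x).mp h6

end Cfsg.Agent.S0086
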