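import Cfsg.Statements.S0104
import Cfsg.Agent.Helper1.Transfer2

set_option autoImplicit false
open Cfsg

namespace Cfsg.Agent.S0104

/-- A subgroup Z of a Sylow p-subgroup P that is normalized by N_G(P) is weakly closed in P exactly when it is normal in every Sylow p-subgroup containing it. -/
theorem result {G : Type*} [Group G] [Finite G] {p : ℕ} [Fact p.Prime] (P : Sylow p G) (Z : Subgroup G) (hZP : Z ≤ (P : Subgroup G)) (hZN : Subgroup.normalizer (P : Set G) ≤ Subgroup.normalizer (Z : Set G)) : Cfsg.IsWeaklyClosed Z P ↔ ∀ R : Sylow p G, Z ≤ (R : Subgroup G) → (R : Subgroup G) ≤ Subgroup.normalizer (Z : Set G) := by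
  constructor
  · rintro ⟨_, hwc⟩ R hZR
    obtain ⟨g, hg⟩ := Cfsg.Agent.Helper1.exists_sylow_conj P R
    have h1 : Z.map (MulAut.conj g⁻¹).toMonoidHom ≤ (P : Subgroup G) := by
      intro x hx
      rw [Cfsg.Agent.Helper1.mem_map_conj_iff, inv_inv] at hx
      have h2 := (hg _).mp (hZR hx)
      have h3 : g⁻¹ * (g * x * g⁻¹) * g = x := by group
      rwa [h3] at h2
    have h4 : g⁻¹ ∈ Subgroup.normalizer (Z : Set G) :=
      Cfsg.Agent.Helper1.mem_normalizer_of_map_conj_eq _ _ (hwc _ h1)
    intro r hr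
    have h5 : g⁻¹ * r * g ∈ Subgroup.normalizer (Z : Set G) :=
      hZN (Subgroup.le_normalizer ((hg r).mp hr))
    have h6 : r = (g⁻¹)⁻¹ * (g⁻¹ * r * g) * g⁻¹ := by group
    rw [h6]
    exact mul_mem (mul_mem (inv_mem h4) h5) h4
  · intro hR
    refine ⟨hZP, ?_⟩
    intro g hg
    set R : Sylow p G := g⁻¹ • P with hRdef
    have hRmem : ∀ x, x ∈ R ↔ g * x * g⁻¹ ∈ P := by
      intro x
      rw [hRdef, Cfsg.Agent.Helper1.mem_sylow_smul_iff, inv_inv]
    have hZR : Z ≤ (R : Subgroup G) := by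
      intro z hz
      apply (hRmem z).mpr
      apply hg
      rw [Cfsg.Agent.Helper1.mem_map_conj_iff]
      have : g⁻¹ * (g * z * g⁻¹) * g = z := by group
      rw [this]; exact hz
    have hRN := hR R hZR
    have hPN : (P : Subgroup G) ≤ Subgroup.normalizer (Z : Set G) :=
      le_trans Subgroup.le_normalizer hZN
    obtain ⟨c, hc, hcR⟩ := Cfsg.Agent.Helper1.exists_conj_mem_sylow_of_le P
      (Subgroup.normalizer (Z : Set G)) (R : Subgroup G) hPN hRN R.2
    have hgc : g * c ∈ Subgroup.normalizer ((P : Subgroup G) : Set G) := by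
      apply Cfsg.Agent.Helper1.mem_normalizer_of_conj_mem
      intro y hy
      have h1 : g⁻¹ * y * g ∈ R := by
        apply (hRmem _).mpr
        have : g * (g⁻¹ * y * g) * g⁻¹ = y := by group
        rw [this]; exact hy
      have h2 := hcR _ h1
      have h3 : (g * c)⁻¹ * y * (g * c) = c⁻¹ * (g⁻¹ * y * g) * c := by group
      rw [h3]; exact h2
    have hgN : g ∈ Subgroup.normalizer (Z : Set G) := by
      have h1 := hZN hgc
      have h2 : g = (g * c) * c⁻¹ := by group
      rw [h2]
      exact mul_mem h1 (inv_mem hc)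
    exact Cfsg.Agent.Helper1.map_conj_eq_of_mem_normalizer Z g hgN

end Cfsg.Agent.S0104
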