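import Mathlib
import Cfsg.Statements.S0116
import Cfsg.Agent.Helper13.AG

set_option autoImplicit false
open Cfsg

open Cfsg.Agent.Helper13 Cfsg.Agent.Helper17
namespace Cfsg.Agent.S0116

/-- The Alperin fusion Theorem states that conjugation between subsets of a Sylow p-subgroup P factors through normalizers of tame intersections P ∩ Q_i with other Sylow p-subgroups, carrying the subset along step by step. -/
theorem result {G : Type*} [Group G] [Finite G] {p : ℕ} [Fact p.Prime] (P : Sylow p G) (A : Set G) (g : G) (hA : A ⊆ (P : Set G)) (hAg : (fun a => g⁻¹ * a * g) '' A ⊆ (P : Set G)) : ∃ (n : ℕ) (Q : Fin n → Sylow p G) (x : Fin n → G), (List.ofFn x).prod = g ∧ (∀ i : Fin n, x i ∈ Subgroup.normalizer ((((P : Subgroup G) ⊓ (Q i : Subgroup G)) : Subgroup G) : Set G) ∧ ¬ p ∣ ((P : Subgroup G) ⊓ Subgroup.normalizer ((((P : Subgroup G) ⊓ (Q i : Subgroup G)) : Subgroup G) : Set G)).relIndex (Subgroup.normalizer ((((P : Subgroup G) ⊓ (Q i : Subgroup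 G)) : Subgroup G) : Set G)) ∧ ¬ p ∣ ((Q i : Subgroup G) ⊓ Subgroup.normalizer ((((P : Subgroup G) ⊓ (Q i : Subgroup G)) : Subgroup G) : Set G)).relIndex (Subgroup.normalizer ((((P : Subgroup G) ⊓ (Q i : Subgroup G)) : Subgroup G) : Set G))) ∧ (∀ h : 0 < n, A ⊆ (((P : Subgroup G) ⊓ (Q ⟨0, h⟩ : Subgroup G) : Subgroup G) : Set G)) ∧ ∀ i : Fin n, ∀ h : i.val + 1 < n, (fun a => (((List.ofFn x).take (i.val + 1)).prod)⁻¹ * a * ((List.ofFn x).take (i.val + 1)).prod) '' A ⊆ (((P : Subgroup G) ⊓ (Q ⟨i.val + 1, h⟩ : Subgroup G) : Subgroup G) : Set G) := by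
  classical
  have hP : Subgroup.closure A ≤ (P : Subgroup G) := (Subgroup.closure_le _).mpr hA
  have hPg : rc g (Subgroup.closure A) ≤ (P : Subgroup G) := by
    have h1 : Subgroup.closure A ≤ rc g⁻¹ (P : Subgroup G) := by
      rw [Subgroup.closure_le]
      intro a ha
      rw [SetLike.mem_coe, mem_rc, inv_inv]
      exact hAg ⟨a, ha, rfl⟩
    have h2 := rc_mono (x := g) h1
    rwa [rc_rc_inv] at h2
  obtain ⟨Q', hQ'⟩ := exists_sylow_rc g⁻¹ P
  have hgQ : rc g (Q' : Subgroup G) = P := by rw [hQ']; exact rc_rc_inv g _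
  have hQQ' : Subgroup.closure A ≤ (Q' : Subgroup G) := by
    rw [hQ']
    have := rc_mono (x := g⁻¹) hPg
    rwa [rc_inv_rc] at this
  have hc : Nat.card ((P : Subgroup G) ⊓ (Q' : Subgroup G) : Subgroup G) ≤
      Nat.card (P : Subgroup G) := Subgroup.card_le_of_le inf_le_left
  obtain ⟨x, hx1, hx2⟩ := alperin_main P
    (Nat.card (P : Subgroup G) - Nat.card ((P : Subgroup G) ⊓ (Q' : Subgroup G) : Subgroup G)) Q'
    (by omega)
  have hy : x⁻¹ * g ∈ Subgroup.normalizer ((P : Subgroup G) : Set G) := by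
    have h1 : rc (x⁻¹ * g) (P : Subgroup G) = P := by
      rw [rc_mul]
      have e : rc x⁻¹ (P : Subgroup G) = Q' := by rw [← hx2, rc_inv_rc]
      rw [e]; exact hgQ
    rw [rc_eq_cj] at h1
    have h2 := mem_normalizer_of_cj_eq_self h1
    simpa using Subgroup.inv_mem _ h2
  have hstepP : astp P (P : Subgroup G) (x⁻¹ * g) :=
    ⟨P, (inf_idem _).symm, hy, tame_self P, tame_self P, Or.inl rfl⟩
  have hfull : SDec (astp P) ((P : Subgroup G) ⊓ (Q' : Subgroup G)) (x * (x⁻¹ * g)) := by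
    refine hx1.trans (SDec.single hstepP) ?_
    rw [← hx2]; exact rc_mono inf_le_right
  have hxg : x * (x⁻¹ * g) = g := by group
  rw [hxg] at hfull
  have hQdec : SDec (astp P) (Subgroup.closure A) g := hfull.mono (le_inf hP hQQ')
  obtain ⟨n, D, xs, hprod, hstp, h0, hstep⟩ := hQdec.target A Subgroup.subset_closure
  choose Q hQD hQN hQt1 hQt2 _ using hstp
  refine ⟨n, Q, xs, hprod, fun i => ?_, fun h => ?_, fun i h => ?_⟩
  · have h1 := hQN i
    have h2 := hQt1 i
    have h3 := hQt2 i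
    rw [hQD i] at h1 h2 h3
    exact ⟨h1, h2, h3⟩
  · rw [← hQD]; exact h0 h
  · rw [← hQD]; exact hstep i h

end Cfsg.Agent.S0116
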