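import Mathlib
import Cfsg.Statements.S0121

set_option autoImplicit false
open Cfsg

namespace Cfsg.Agent.S0121

/-- A p'-automorphism of a p-group acting trivially on a critical subgroup is trivial. -/
theorem result {G : Type*} [Group G] [Finite G] {p : ℕ} [Fact p.Prime] (hG : IsPGroup p G) (H : Subgroup G) (hH : H.Characteristic) (h1 : (frattini H).map H.subtype ≤ Subgroup.centralizer (H : Set G)) (h2 : ⁅H, (⊤ : Subgroup G)⁆ ≤ H ⊓ Subgroup.centralizer (H : Set G)) (h3 : Subgroup.centralizer (H : Set G) ≤ H) (a : MulAut G) (ha : Nat.Coprime (orderOf a) p) (h : ∀ x ∈ H, a x = x) : a = 1 := by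
  have hn : H.Normal := Subgroup.normal_of_characteristic H
  ext x
  have hc : x⁻¹ * a x ∈ Subgroup.centralizer (H : Set G) := by
    rw [Subgroup.mem_centralizer_iff]
    intro y hy
    have h1' : x * y * x⁻¹ ∈ H := hn.conj_mem y hy x
    have h2' := h _ h1'
    simp only [map_mul, map_inv] at h2'
    rw [h y hy] at h2'
    symm
    calc x⁻¹ * a x * y = x⁻¹ * (a x * y * (a x)⁻¹) * a x := by group
      _ = x⁻¹ * (x * y * x⁻¹) * a x := by rw [h2']
      _ = y * (x⁻¹ * a x) := by group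
  have hfix : a (x⁻¹ * a x) = x⁻¹ * a x := h _ (h3 hc)
  have hpow : ∀ n : ℕ, (a ^ n) x = x * (x⁻¹ * a x) ^ n := by
    intro n
    induction n with
    | zero => simp
    | succ n ih =>
      rw [pow_succ', MulAut.mul_apply, ih, map_mul, map_pow, hfix, pow_succ', ← mul_assoc,
        ← mul_assoc, mul_inv_cancel, one_mul]
  have h4 := hpow (orderOf a)
  rw [pow_orderOf_eq_one, MulAut.one_apply] at h4
  have h5 : (x⁻¹ * a x) ^ orderOf a = 1 := by
    have := congrArg (fun t => x⁻¹ * t) h4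
    simpa using this.symm
  obtain ⟨k, hk⟩ := hG (x⁻¹ * a x)
  have h6 : orderOf (x⁻¹ * a x) ∣ Nat.gcd (orderOf a) (p ^ k) :=
    Nat.dvd_gcd (orderOf_dvd_of_pow_eq_one h5) (orderOf_dvd_of_pow_eq_one hk)
  have h7 : Nat.gcd (orderOf a) (p ^ k) = 1 := Nat.Coprime.pow_right k ha
  rw [h7, Nat.dvd_one, orderOf_eq_one_iff] at h6
  rw [MulAut.one_apply]
  have := congrArg (fun t => x * t) h6
  simpa using this
end Cfsg.Agent.S0121
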