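import Cfsg.Statements.S0131
import Cfsg.Agent.Helper1.Transfer2

set_option autoImplicit false
open Cfsg

namespace Cfsg.Agent.S0131

/-- P/P' has a normal complement in G exactly when the focal subgroup G' ∩ P is as small as possible, namely P'. -/
theorem result {G : Type*} [Group G] [Finite G] {p : ℕ} [Fact p.Prime] (P : Sylow p G) : (∃ N : Subgroup G, N.Normal ∧ N ⊓ (P : Subgroup G) = ⁅(P : Subgroup G), (P : Subgroup G)⁆ ∧ N ⊔ (P : Subgroup G) = ⊤) ↔ commutator G ⊓ (P : Subgroup G) = ⁅(P : Subgroup G), (P : Subgroup G)⁆ := by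
  open scoped commutatorElement in
  constructor
  · rintro ⟨N, hN, hNP, hsup⟩
    apply le_antisymm
    · rw [← hNP]
      refine inf_le_inf_right _ ?_
      rw [commutator_def, Subgroup.commutator_le]
      intro a _ b _
      have ha : a ∈ N ⊔ (P : Subgroup G) := by rw [hsup]; trivial
      have hb : b ∈ N ⊔ (P : Subgroup G) := by rw [hsup]; trivial
      rw [← SetLike.mem_coe, Subgroup.normal_mul] at ha hb
      obtain ⟨n₁, hn₁, x₁, hx₁, rfl⟩ := ha
      obtain ⟨n₂, hn₂, x₂, hx₂, rfl⟩ := hb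
      apply (QuotientGroup.eq_one_iff _).mp
      have e1 : ((n₁ * x₁ : G) : G ⧸ N) = (x₁ : G ⧸ N) := by
        rw [QuotientGroup.mk_mul, (QuotientGroup.eq_one_iff n₁).mpr hn₁, one_mul]
      have e2 : ((n₂ * x₂ : G) : G ⧸ N) = (x₂ : G ⧸ N) := by
        rw [QuotientGroup.mk_mul, (QuotientGroup.eq_one_iff n₂).mpr hn₂, one_mul]
      have e3 : ((⁅n₁ * x₁, n₂ * x₂⁆ : G) : G ⧸ N) = ((⁅x₁, x₂⁆ : G) : G ⧸ N) := by
        simp only [commutatorElement_def, QuotientGroup.mk_mul, QuotientGroup.mk_inv, e1, e2]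
      rw [e3]
      apply (QuotientGroup.eq_one_iff _).mpr
      have : ⁅x₁, x₂⁆ ∈ ⁅(P : Subgroup G), (P : Subgroup G)⁆ :=
        Subgroup.commutator_mem_commutator hx₁ hx₂
      rw [← hNP] at this
      exact (Subgroup.mem_inf.mp this).1
    · refine le_inf (Subgroup.commutator_mono le_top le_top) ?_
      rw [Subgroup.commutator_le]
      intro a ha b hb
      rw [commutatorElement_def]
      exact mul_mem (mul_mem (mul_mem ha hb) (inv_mem ha)) (inv_mem hb)
  · intro hfoc
    have hcop : Nat.Coprime (P : Subgroup G).index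
        (⁅(P : Subgroup G), (P : Subgroup G)⁆.relIndex (P : Subgroup G)) := by
      obtain ⟨k, hk⟩ := P.2.exists_card_eq
      have h1 : ⁅(P : Subgroup G), (P : Subgroup G)⁆.relIndex (P : Subgroup G) ∣ p ^ k := by
        rw [← hk]; exact Subgroup.relIndex_dvd_card _ _
      have h2 : Nat.Coprime (P : Subgroup G).index (p ^ k) :=
        Nat.Coprime.pow_right k
          ((Nat.Prime.coprime_iff_not_dvd Fact.out).mpr P.not_dvd_index).symm
      exact Nat.Coprime.coprime_dvd_right h1 h2
    obtain ⟨h1, h2, h3⟩ := Cfsg.Agent.Helper1.focal_of_coprime (P : Subgroup G) hcop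
    exact ⟨(P : Subgroup G).transferFocal.ker, inferInstance, by rw [h1, h3, hfoc], h2⟩

end Cfsg.Agent.S0131
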