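import Cfsg.Statements.S0134
import Cfsg.Agent.Helper1.CharClass

set_option autoImplicit false
open Cfsg

namespace Cfsg.Agent.S0134

/-- The sum of the squares of the degrees of the irreducible complex characters of a finite group is the order of the group. -/
theorem result {G : Type*} [Group G] [Finite G] : ∑ᶠ χ : Cfsg.IrrCharacter G, (χ : G → ℂ) 1 ^ 2 = (Nat.card G : ℂ) := by
  classical
  have : Fintype G := Fintype.ofFinite G
  have : Fintype (Cfsg.IrrCharacter G) := Fintype.ofFinite _
  rw [finsum_eq_sum_of_fintype]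
  have h1 := Cfsg.Agent.Helper1.col_orth (1 : G) 1
  rw [if_pos (IsConj.refl 1)] at h1
  have h2 : Subgroup.centralizer ({1} : Set G) = ⊤ := by
    ext x
    simp [Subgroup.mem_centralizer_iff]
  rw [h2, Nat.card_congr Subgroup.topEquiv.toEquiv] at h1
  rw [← h1]
  apply Finset.sum_congr rfl
  intro χ _
  obtain ⟨n, ρ, -, hχ⟩ := χ.2
  rw [← hχ, Representation.char_one, pow_two, Complex.conj_natCast]

end Cfsg.Agent.S0134
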