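import Cfsg.Statements.S0136
import Cfsg.Agent.Helper1.CharClass

set_option autoImplicit false
open Cfsg

namespace Cfsg.Agent.S0136

/-- Two elements of a finite group are conjugate if and only if no irreducible complex character separates them. -/
theorem result {G : Type*} [Group G] [Finite G] (g h : G) : IsConj g h ↔ ∀ χ : Cfsg.IrrCharacter G, (χ : G → ℂ) g = (χ : G → ℂ) h := by
  classical
  have : Fintype G := Fintype.ofFinite G
  have : Fintype (Cfsg.IrrCharacter G) := Fintype.ofFinite _
  constructor
  · intro hc χ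
    exact (Cfsg.Agent.Helper1.isClassFunction_iff_isConj _).mp
      (Cfsg.Agent.Helper1.isClassFunction_irr χ) g h hc
  · intro hall
    by_contra hc
    have h1 := Cfsg.Agent.Helper1.col_orth g h
    rw [if_neg hc] at h1
    have h2 := Cfsg.Agent.Helper1.col_orth h h
    rw [if_pos (IsConj.refl h)] at h2
    have h3 : ∑ χ : Cfsg.IrrCharacter G, (χ : G → ℂ) g * (starRingEnd ℂ) ((χ : G → ℂ) h) =
        ∑ χ : Cfsg.IrrCharacter G, (χ : G → ℂ) h * (starRingEnd ℂ) ((χ : G → ℂ) h) := by
      apply Finset.sum_congr rfl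
      intro χ _
      rw [hall χ]
    rw [h1, h2] at h3
    have h4 : (Nat.card (Subgroup.centralizer ({h} : Set G)) : ℂ) ≠ 0 := by
      exact_mod_cast Nat.card_pos.ne'
    exact h4 h3.symm

end Cfsg.Agent.S0136
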