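import Cfsg.Statements.S0139
import Cfsg.Agent.Helper1.CharBasic

set_option autoImplicit false
open Cfsg

namespace Cfsg.Agent.S0139

/-- The kernel of a complex representation of a finite group is the set of elements where the character equals the degree. -/
theorem result {G : Type*} [Group G] [Finite G] {V : Type*} [AddCommGroup V] [Module ℂ V] [FiniteDimensional ℂ V] (ρ : Representation ℂ G V) (g : G) : ρ.character g = (Module.finrank ℂ V : ℂ) ↔ ρ g = LinearMap.id := by
  constructor
  · intro h
    obtain ⟨b, μ, -, hn, hb, -, h1, -⟩ := Cfsg.Agent.Helper1.exists_eigenbasis ρ g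
    rw [h1] at h
    have hre : ∀ k, (μ k).re ≤ 1 := fun k =>
      (Complex.re_le_norm _).trans (hn k).le
    have hsum : ∑ k, (μ k).re = ∑ _k : Fin (Module.finrank ℂ V), (1 : ℝ) := by
      rw [← Complex.re_sum, h]
      simp
    have hall : ∀ k, (μ k).re = 1 := by
      by_contra hne
      obtain ⟨k, hk⟩ := not_forall.mp hne
      have hlt : (μ k).re < 1 := lt_of_le_of_ne (hre k) hk
      have : ∑ k, (μ k).re < ∑ _k : Fin (Module.finrank ℂ V), (1 : ℝ) :=
        Finset.sum_lt_sum (fun k _ => hre k) ⟨k, Finset.mem_univ _, hlt⟩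
      rw [hsum] at this
      exact lt_irrefl _ this
    apply b.ext
    intro i
    rw [hb i, Cfsg.Agent.Helper1.eq_one_of_norm_eq_one_of_re_eq_one _ (hn i) (hall i), one_smul]
    rfl
  · intro h
    have : ρ g = 1 := h
    rw [Representation.character, this]
    simp

end Cfsg.Agent.S0139
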