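import Cfsg.Statements.S0148
import Cfsg.Agent.Helper1.CharEquiv
import Cfsg.Agent.Helper2.Ind

set_option autoImplicit false
open Cfsg

namespace Cfsg.Agent.S0148

open Cfsg.Agent.Helper1

theorem isCharacter_zero (G : Type*) [Group G] : Cfsg.IsCharacter G 0 := by
  refine ⟨0, 1, ?_⟩
  funext g
  simp [Representation.character]

theorem isCharacter_add {G : Type*} [Group G] (χ ψ : G → ℂ) (hχ : Cfsg.IsCharacter G χ)
    (hψ : Cfsg.IsCharacter G ψ) : Cfsg.IsCharacter G (χ + ψ) := by
  obtain ⟨n, ρ, rfl⟩ := hχ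
  obtain ⟨m, σ, rfl⟩ := hψ
  rw [← character_prod]
  exact isCharacter_character (ρ.prod σ)

theorem isCharacter_nsmul {G : Type*} [Group G] (k : ℕ) (χ : G → ℂ) (hχ : Cfsg.IsCharacter G χ) :
    Cfsg.IsCharacter G (k • χ) := by
  induction k with
  | zero => rw [zero_smul]; exact isCharacter_zero G
  | succ k ih => rw [succ_nsmul]; exact isCharacter_add _ _ ih hχ

theorem isCharacter_sum {G : Type*} [Group G] {ι : Type*} (s : Finset ι) (F : ι → G → ℂ)
    (hF : ∀ i ∈ s, Cfsg.IsCharacter G (F i)) : Cfsg.IsCharacter G (∑ i ∈ s, F i) := by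
  classical
  induction s using Finset.induction_on with
  | empty => rw [Finset.sum_empty]; exact isCharacter_zero G
  | insert a s ha ih =>
    rw [Finset.sum_insert ha]
    exact isCharacter_add _ _ (hF a (Finset.mem_insert_self a s))
      (ih (fun i hi => hF i (Finset.mem_insert_of_mem hi)))

/-- Inducing a character of a subgroup yields a character of the whole group. -/
theorem result {G : Type*} [Group G] [Fintype G] (H : Subgroup G) (θ : H → ℂ) (hθ : Cfsg.IsCharacter H θ) : Cfsg.IsCharacter G (Cfsg.indFun H θ) := by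
  classical
  have : Fintype H := Fintype.ofFinite H
  have : Fintype (Cfsg.IrrCharacter G) := Fintype.ofFinite _
  rw [classFunction_eq_sum _ (Cfsg.Agent.Helper2.indFun_isClassFunction H θ)]
  apply isCharacter_sum
  intro χ _
  rw [Cfsg.Agent.Helper2.frobenius_reciprocity H θ _ (isClassFunction_irr χ)]
  obtain ⟨n, ρ, rfl⟩ := hθ
  obtain ⟨m, τ, hτ, hτχ⟩ := χ.2
  let τH : Representation ℂ H (Fin m → ℂ) := τ.comp H.subtype
  have h1 : (fun h : H => (χ : G → ℂ) h) = τH.character := by
    funext h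
    rw [← hτχ]
    rfl
  rw [h1, classInner_char_eq_finrank τH ρ, Nat.cast_smul_eq_nsmul]
  exact isCharacter_nsmul _ _ ⟨m, τ, hτχ⟩

end Cfsg.Agent.S0148
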