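import Cfsg.Statements.S0154
import Cfsg.Agent.Helper1.Burnside

set_option autoImplicit false
open Cfsg

namespace Cfsg.Agent.S0154

open Cfsg.Agent.Helper1

theorem trace_mul_of_finrank_eq_one {V : Type*} [AddCommGroup V] [Module ℂ V]
    (h : Module.finrank ℂ V = 1) (f g : Module.End ℂ V) :
    LinearMap.trace ℂ V (f * g) = LinearMap.trace ℂ V f * LinearMap.trace ℂ V g := by
  classical
  let b : Module.Basis (Fin 1) ℂ V := Module.basisUnique (Fin 1) h
  have key : ∀ f : Module.End ℂ V, f (b 0) = (b.repr (f (b 0)) 0) • b 0 := by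
    intro f
    have := b.sum_repr (f (b 0))
    simpa using this.symm
  have tr : ∀ f : Module.End ℂ V, LinearMap.trace ℂ V f = b.repr (f (b 0)) 0 := by
    intro f
    rw [trace_eq_sum_of_eigenbasis b f (fun _ => b.repr (f (b 0)) 0)
      (by intro i; fin_cases i; exact key f)]
    simp
  rw [tr (f * g), tr f, tr g, Module.End.mul_apply]
  conv_lhs => rw [key g, map_smul, map_smul]
  simp [mul_comm]

/-- The one-dimensional representation attached to a linear character. -/
noncomputable def linRep {G : Type*} [Group G] (φ : G →* ℂˣ) : Representation ℂ G ℂ :=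
  (algebraMap ℂ (Module.End ℂ ℂ)).toMonoidHom.comp ((Units.coeHom ℂ).comp φ)

theorem linRep_character {G : Type*} [Group G] (φ : G →* ℂˣ) :
    (linRep φ).character = fun g => (φ g : ℂ) := by
  funext g
  simp [Representation.character, linRep, Algebra.algebraMap_eq_smul_one]

theorem isIrrCharacter_lin {G : Type*} [Group G] (φ : G →* ℂˣ) :
    Cfsg.IsIrrCharacter G (fun g => (φ g : ℂ)) := by
  have := isIrreducible_of_finrank_eq_one (linRep φ) (Module.finrank_self ℂ)
  rw [← linRep_character]
  exact isIrrCharacter_character (linRep φ)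

/-- A finite group has exactly as many irreducible complex characters of degree 1 as the index of its commutator subgroup. -/
theorem result {G : Type*} [Group G] [Finite G] : Nat.card {χ : Cfsg.IrrCharacter G // (χ : G → ℂ) 1 = 1} = (commutator G).index := by
  have hcard : Nat.card (G →* ℂˣ) = (commutator G).index := by
    rw [Nat.card_congr (Abelianization.lift (G := G) (A := ℂˣ))]
    have hne : Monoid.exponent (Abelianization G) ≠ 0 := Monoid.exponent_ne_zero_of_finite
    have : NeZero ((Monoid.exponent (Abelianization G) : ℕ) : ℂ) := ⟨by exact_mod_cast hne⟩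
    rw [CommGroup.card_monoidHom_of_hasEnoughRootsOfUnity (Abelianization G) ℂ]
    rfl
  rw [← hcard]
  let F : (G →* ℂˣ) → {χ : Cfsg.IrrCharacter G // (χ : G → ℂ) 1 = 1} := fun φ =>
    ⟨⟨fun g => (φ g : ℂ), isIrrCharacter_lin φ⟩, by simp⟩
  have hF : Function.Bijective F := by
    constructor
    · intro φ ψ h
      have h1 : (fun g => (φ g : ℂ)) = fun g => (ψ g : ℂ) := by
        have := congrArg (fun x : {χ : Cfsg.IrrCharacter G // (χ : G → ℂ) 1 = 1} =>
          ((x : Cfsg.IrrCharacter G) : G → ℂ)) h
        exact this
      ext g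
      exact congrFun h1 g
    · rintro ⟨⟨χ, hχirr⟩, hχ1⟩
      obtain ⟨n, ρ, hρ, hχ⟩ := hχirr
      have hn : Module.finrank ℂ (Fin n → ℂ) = 1 := by
        have h1 : (χ 1 : ℂ) = 1 := hχ1
        rw [← hχ, Representation.char_one] at h1
        exact_mod_cast h1
      have hmul : ∀ g h : G, χ (g * h) = χ g * χ h := by
        intro g h
        rw [← hχ]
        simp only [Representation.character, map_mul]
        exact trace_mul_of_finrank_eq_one hn _ _
      let f : G →* ℂ := { toFun := χ, map_one' := hχ1, map_mul' := hmul }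
      refine ⟨f.toHomUnits, ?_⟩
      apply Subtype.ext
      apply Subtype.ext
      funext g
      simp [F, f]
  exact (Nat.card_congr (Equiv.ofBijective F hF)).symm

end Cfsg.Agent.S0154
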