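import Cfsg.Statements.S0155
import Mathlib

set_option autoImplicit false
open Cfsg

namespace Cfsg.Agent.S0155

/-- The character of the left regular representation of a finite group takes the value |G| at the identity and 0 at every other element. -/
theorem result {G : Type*} [Group G] [Fintype G] [DecidableEq G] (g : G) : (Representation.leftRegular ℂ G).character g = if g = 1 then (Nat.card G : ℂ) else 0 := by
  unfold Representation.character
  rw [LinearMap.trace_eq_matrix_trace ℂ (MonoidAlgebra.basis G ℂ), Matrix.trace]
  simp only [Matrix.diag_apply, LinearMap.toMatrix_apply, MonoidAlgebra.basis_apply,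
    Representation.ofMulAction_single]
  have h1 : ∀ i : G, ((MonoidAlgebra.basis G ℂ).repr (MonoidAlgebra.single (g • i) 1)) i =
      if g = 1 then (1 : ℂ) else 0 := by
    intro i
    show (Finsupp.single (g • i) (1 : ℂ)) i = _
    rw [Finsupp.single_apply]
    by_cases hg : g = 1
    · simp [hg]
    · rw [if_neg hg, if_neg]
      intro h
      apply hg
      have : g * i = 1 * i := by rw [one_mul]; exact h
      exact mul_right_cancel this
  rw [Finset.sum_congr rfl (fun i _ => h1 i)]
  by_cases hg : g = 1
  · simp [hg, Nat.card_eq_fintype_card]
  · simp [hg]

end Cfsg.Agent.S0155
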