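import Cfsg.Statements.S0158
import Mathlib
import Cfsg.Agent.Helper24.FS
import Cfsg.Agent.Helper25.CharComplete

set_option autoImplicit false
open Cfsg

namespace Cfsg.Agent.S0158

/-- The Frobenius–Schur indicator of an irreducible complex representation of a finite group — the average over s of the character at s * s — is 0, 1 or −1, and it vanishes exactly when some character value is not real. -/
theorem result {G : Type*} [Group G] [Fintype G] {V : Type*} [AddCommGroup V] [Module ℂ V] [FiniteDimensional ℂ V] (ρ : Representation ℂ G V) [ρ.IsIrreducible] : ((Nat.card G : ℂ)⁻¹ * ∑ s : G, ρ.character (s * s) = 0 ∨ (Nat.card G : ℂ)⁻¹ * ∑ s : G, ρ.character (s * s) = 1 ∨ (Nat.card G : ℂ)⁻¹ * ∑ s : G, ρ.character (s * s) = -1) ∧ ((Nat.card G : ℂ)⁻¹ * ∑ s : G, ρ.character (s * s) = 0 ↔ ∃ s : G, (ρ.character s).im ≠ 0) := by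
  have hirr : IsIrrCharacter G ρ.character :=
    Cfsg.Agent.Helper25.isIrrCharacter_of_irreducible ρ inferInstance
  have key := Cfsg.Agent.Helper24.fsInd_cases (⟨ρ.character, hirr⟩ : IrrCharacter G)
  simp only [Cfsg.Agent.Helper24.fsInd] at key
  rcases key with ⟨h0, hnr⟩ | ⟨h1, hr⟩
  · refine ⟨Or.inl h0, ⟨fun _ => ?_, fun _ => h0⟩⟩
    by_contra hcon
    apply hnr
    intro g
    by_contra hg
    exact hcon ⟨g, hg⟩
  · have hne : (Nat.card G : ℂ)⁻¹ * ∑ s : G, ρ.character (s * s) ≠ 0 := by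
      rcases h1 with h | h <;> rw [h] <;> norm_num
    refine ⟨Or.inr h1, ⟨fun h => absurd h hne, fun ⟨s, hs⟩ => absurd (hr s) hs⟩⟩

end Cfsg.Agent.S0158
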