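import Cfsg.Statements.S0159
import Mathlib
import Cfsg.Agent.Helper25.CharOrth

set_option autoImplicit false
open Cfsg

namespace Cfsg.Agent.S0159

/-- The number of solutions of s * s = 1 in a finite group equals the sum, over the irreducible characters χ, of (the average over s of χ (s * s)) times χ 1. -/
theorem result {G : Type*} [Group G] [Fintype G] : (Nat.card {s : G // s * s = 1} : ℂ) = ∑ᶠ χ : Cfsg.IrrCharacter G, ((Nat.card G : ℂ)⁻¹ * ∑ s : G, (χ : G → ℂ) (s * s)) * (χ : G → ℂ) 1 := by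
  classical
  rw [finsum_eq_sum_of_fintype]
  have h1 : ∀ χ : IrrCharacter G, ((Nat.card G : ℂ)⁻¹ * ∑ s : G, (χ : G → ℂ) (s * s)) * (χ : G → ℂ) 1 =
      (Nat.card G : ℂ)⁻¹ * ∑ s : G, (χ : G → ℂ) 1 * (χ : G → ℂ) (s * s) := by
    intro χ
    rw [mul_assoc, Finset.sum_mul]
    congr 1
    apply Finset.sum_congr rfl
    intro s _
    ring
  rw [Finset.sum_congr rfl (fun χ _ => h1 χ), ← Finset.mul_sum, Finset.sum_comm]
  rw [Finset.sum_congr rfl (fun s _ => Cfsg.Agent.Helper25.sum_irr_one_mul (s * s))]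
  rw [Finset.sum_ite, Finset.sum_const_zero, add_zero, Finset.sum_const, nsmul_eq_mul]
  have h2 : Nat.card {s : G // s * s = 1} = (Finset.univ.filter (fun s : G => s * s = 1)).card := by
    rw [Nat.card_eq_fintype_card, Fintype.card_subtype]
  rw [h2]
  have hG : (Nat.card G : ℂ) ≠ 0 := by
    exact_mod_cast (Nat.card_pos (α := G)).ne'
  field_simp

end Cfsg.Agent.S0159
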