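import Cfsg.Statements.S0162
import Mathlib
import Cfsg.Agent.Helper2.CharExtra
import Cfsg.Agent.Helper1.Burnside
import Cfsg.Agent.S0161

set_option autoImplicit false
open Cfsg

namespace Cfsg.Agent.S0162

open scoped ComplexConjugate

/-- If a finite group has odd order, its order is congruent to its number of conjugacy classes modulo 16. -/
theorem result {G : Type*} [Group G] [Finite G] (hodd : Odd (Nat.card G)) : Nat.card G ≡ Nat.card (ConjClasses G) [MOD 16] := by
  classical
  have : Fintype G := Fintype.ofFinite G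
  have hd : ∀ χ : IrrCharacter G, ∃ d : ℕ, (χ : G → ℂ) 1 = (d : ℂ) ∧ d ∣ Nat.card G := by
    intro χ
    obtain ⟨n, ρ, hρ, hχ⟩ := χ.2
    refine ⟨n, ?_, ?_⟩
    · rw [← hχ, Representation.char_one]; simp
    · have := Helper1.finrank_dvd_card ρ
      simpa using this
  choose d hd1 hd2 using hd
  let cj : IrrCharacter G → IrrCharacter G := fun χ =>
    ⟨fun g => conj ((χ : G → ℂ) g), Helper2.isIrrCharacter_conj χ.2⟩
  have hdcj : ∀ χ, d (cj χ) = d χ := by
    intro χ
    have h1 := hd1 (cj χ)
    have h2 : (cj χ : G → ℂ) 1 = conj ((χ : G → ℂ) 1) := rfl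
    rw [h2, hd1 χ, Complex.conj_natCast] at h1
    exact_mod_cast h1.symm
  have hsum : ∑ χ : IrrCharacter G, d χ ^ 2 = Nat.card G := by
    have := Helper25.sum_irr_degree_sq (G := G)
    have h2 : ((∑ χ : IrrCharacter G, d χ ^ 2 : ℕ) : ℂ) = (Nat.card G : ℂ) := by
      rw [← this]; push_cast
      apply Finset.sum_congr rfl; intro χ _; rw [hd1 χ]; ring
    exact_mod_cast h2
  have hk : Nat.card (ConjClasses G) = ∑ χ : IrrCharacter G, 1 := by
    rw [← Helper1.card_irr, Nat.card_eq_fintype_card]; simp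
  have hodd' : ∀ χ, Odd (d χ) := fun χ => Odd.of_dvd_nat hodd (hd2 χ)
  have hz : ∀ y : ZMod 16, 2 * ((2 * y + 1) ^ 2 - 1) = 0 := by decide
  have hinv : ∑ χ : IrrCharacter G, (((d χ : ℕ) : ZMod 16) ^ 2 - 1) = 0 := by
    apply Finset.sum_involution (fun χ _ => cj χ)
    · intro χ _
      rw [hdcj χ]
      obtain ⟨m, hm⟩ := hodd' χ
      rw [hm]; push_cast
      have := hz (m : ZMod 16)
      linear_combination this
    · intro χ _ hne hfix
      apply hne
      have hreal : ∀ g : G, ((χ : G → ℂ) g).im = 0 := by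
        intro g
        have := congrFun (congrArg Subtype.val hfix) g
        exact Complex.conj_eq_iff_im.mp this
      have h161 := Cfsg.Agent.S0161.result hodd χ hreal
      have h1 : (χ : G → ℂ) 1 = 1 := by rw [h161]
      rw [hd1 χ] at h1
      have : d χ = 1 := by exact_mod_cast h1
      rw [this]; simp
    · intro χ _; exact Finset.mem_univ _
    · intro χ _
      apply Subtype.ext; funext g; exact Complex.conj_conj _
  have e1 : ((Nat.card G : ℕ) : ZMod 16) = ∑ χ : IrrCharacter G, ((d χ : ℕ) : ZMod 16) ^ 2 := by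
    rw [← hsum]; push_cast; rfl
  have e2 : ((Nat.card (ConjClasses G) : ℕ) : ZMod 16) = ∑ χ : IrrCharacter G, (1 : ZMod 16) := by
    rw [hk]; push_cast; rfl
  rw [← ZMod.natCast_eq_natCast_iff, e1, e2]
  rw [Finset.sum_sub_distrib] at hinv
  exact sub_eq_zero.mp hinv

end Cfsg.Agent.S0162
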