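import Cfsg.Statements.S0176
import Mathlib
import Cfsg.Agent.Helper2.CenterDeg
import Cfsg.Agent.Helper2.Ind
import Cfsg.Agent.Helper7.Clifford
import Cfsg.Agent.Helper7.LinChar
import Cfsg.Agent.Helper7.Brauer
import Cfsg.Agent.S0854
import Cfsg.Agent.Helper25.CharKer

set_option autoImplicit false
open Cfsg

namespace Cfsg.Agent.S0176

open Cfsg.Agent
open scoped commutatorElement

universe u

lemma indFun_top {G : Type u} [Group G] [Fintype G] (θ : G → ℂ) (hθ : IsClassFunction G θ) :
    indFun (⊤ : Subgroup G) (fun h : (⊤ : Subgroup G) => θ h) = θ := by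
  funext g
  rw [Helper2.indFun_apply]
  have h1 : ∀ x : G, extendByZero (⊤ : Subgroup G) (fun h : (⊤ : Subgroup G) => θ h)
      (x⁻¹ * g * x) = θ g := by
    intro x
    rw [Helper2.extendByZero_of_mem _ _ (Subgroup.mem_top _)]
    have := hθ g x⁻¹
    simpa using this
  simp only [h1, Finset.sum_const, Finset.card_univ, nsmul_eq_mul]
  rw [Subgroup.card_top, Nat.card_eq_fintype_card]
  have : (Fintype.card G : ℂ) ≠ 0 := Nat.cast_ne_zero.mpr Fintype.card_ne_zero
  field_simp

lemma indFun_congr_subgroup {G : Type u} [Group G] [Fintype G] {A B : Subgroup G} (h : A = B)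
    (θ : A → ℂ) (θ' : B → ℂ) (hθ : ∀ a : A, θ a = θ' ⟨a, h ▸ a.2⟩) :
    indFun A θ = indFun B θ' := by
  subst h
  congr 1
  funext a
  exact hθ a

lemma indFun_nested {G : Type u} [Group G] [Fintype G] (T : Subgroup G) [Fintype T]
    (K : Subgroup T) (μ : K → ℂ) :
    ∃ (hmem : ∀ h : K.map T.subtype,
        (⟨(h : G), (Subgroup.map_subtype_le K) h.2⟩ : T) ∈ K),
      indFun T (indFun K μ) = indFun (K.map T.subtype)
        (fun h => μ ⟨⟨(h : G), (Subgroup.map_subtype_le K) h.2⟩, hmem h⟩) := by
  have hmem : ∀ h : K.map T.subtype,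
      (⟨(h : G), (Subgroup.map_subtype_le K) h.2⟩ : T) ∈ K := by
    intro h
    obtain ⟨y, hy, hyh⟩ := h.2
    have : y = ⟨(h : G), (Subgroup.map_subtype_le K) h.2⟩ := Subtype.ext hyh
    rw [← this]
    exact hy
  refine ⟨hmem, ?_⟩
  have hHT := Subgroup.map_subtype_le K
  rw [← Helper2.indFun_trans (K.map T.subtype) T hHT]
  congr 1
  have hK : (K.map T.subtype).subgroupOf T = K := by
    ext y
    rw [Subgroup.mem_subgroupOf]
    constructor
    · rintro ⟨z, hz, hzy⟩
      have : z = y := Subtype.ext hzy
      rw [← this]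
      exact hz
    · intro hy
      exact ⟨y, hy, rfl⟩
  symm
  apply indFun_congr_subgroup hK
  intro a
  rfl

lemma commute_inv {G : Type u} [Group G] {V : Type*} [AddCommGroup V] [Module ℂ V]
    (ρ : Representation ℂ G V) {a : G} {w : Module.End ℂ V} (h : Commute (ρ a) w) :
    Commute (ρ a⁻¹) w := by
  have h1 : ρ a⁻¹ * ρ a = 1 := by rw [← map_mul, inv_mul_cancel, map_one]
  have h2 : ρ a * ρ a⁻¹ = 1 := by rw [← map_mul, mul_inv_cancel, map_one]
  show ρ a⁻¹ * w = w * ρ a⁻¹
  calc ρ a⁻¹ * w = ρ a⁻¹ * w * (ρ a * ρ a⁻¹) := by rw [h2, mul_one]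
    _ = ρ a⁻¹ * (w * ρ a) * ρ a⁻¹ := by simp only [mul_assoc]
    _ = ρ a⁻¹ * (ρ a * w) * ρ a⁻¹ := by rw [h.eq]
    _ = (ρ a⁻¹ * ρ a) * w * ρ a⁻¹ := by simp only [mul_assoc]
    _ = w * ρ a⁻¹ := by rw [h1, one_mul]

theorem aux : ∀ (n : ℕ) (G : Type u) [Group G] [Fintype G] [Group.IsNilpotent G],
    Nat.card G ≤ n → ∀ χ : G → ℂ, IsIrrCharacter G χ →
    ∃ (H : Subgroup G) (lam : H →* ℂˣ), χ = indFun H (fun h => ((lam h : ℂˣ) : ℂ)) := by
  intro n
  induction n with
  | zero =>
    intro G _ _ _ hG
    have := Nat.card_pos (α := G)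
    omega
  | succ n ih =>
    intro G _ _ _ hG χ hχ
    classical
    obtain ⟨k, ρ, hρ, rfl⟩ := hχ
    haveI := hρ
    by_cases hk : k = 1
    · subst hk
      obtain ⟨f, hf⟩ := Helper7.exists_hom_of_linear ρ.character ⟨1, ρ, rfl⟩
        (by rw [Helper25.rep_char_one]; simp)
      refine ⟨⊤, f.comp (Subgroup.subtype ⊤), ?_⟩
      have h1 := indFun_top ρ.character (Helper2.isClassFunction_of_isCharacter ⟨1, ρ, rfl⟩)
      rw [← h1]
      congr 1
      funext h
      exact congrFun hf h
    · have hχirr : IsIrrCharacter G ρ.character := ⟨k, ρ, hρ, rfl⟩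
      let Z : Subgroup G :=
        { carrier := {g | ∀ h, Commute (ρ g) (ρ h)}
          one_mem' := fun h => by rw [map_one]; exact Commute.one_left _
          mul_mem' := fun {a b} ha hb h => by rw [map_mul]; exact (ha h).mul_left (hb h)
          inv_mem' := fun {a} ha h => commute_inv ρ (ha h) }
      have hZmem : ∀ g, g ∈ Z ↔ ∀ h, Commute (ρ g) (ρ h) := fun g => Iff.rfl
      have hZne : ¬ (∀ g : G, g ∈ Z) := by
        intro hall
        have hd := Helper2.finrank_dvd_index_of_central ρ ⊤
          (fun g _ h => by rw [map_mul, map_mul]; exact (hall g h).eq)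
        rw [Subgroup.index_top, Nat.dvd_one, Module.finrank_fin_fun] at hd
        exact hk hd
      obtain ⟨c, hc⟩ := Subgroup.nilpotent_iff_lowerCentralSeries.mp
        (inferInstance : Group.IsNilpotent G)
      have hex : ∃ i, Subgroup.lowerCentralSeries (⊤ : Subgroup G) i ≤ Z :=
        ⟨c, by rw [hc]; exact bot_le⟩
      obtain ⟨x, hxZ, hxc⟩ : ∃ x, x ∉ Z ∧ ∀ g, ⁅x, g⁆ ∈ Z := by
        have hi := Nat.find_spec hex
        rcases hfi : Nat.find hex with _ | i
        · exfalso
          rw [hfi] at hi
          exact hZne (fun g => hi (Subgroup.mem_top g))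
        · have hnot : ¬ Subgroup.lowerCentralSeries (⊤ : Subgroup G) i ≤ Z :=
            Nat.find_min hex (by rw [hfi]; exact Nat.lt_succ_self i)
          obtain ⟨x, hx, hxZ⟩ := SetLike.not_le_iff_exists.mp hnot
          refine ⟨x, hxZ, fun g => ?_⟩
          rw [hfi] at hi
          exact hi (Subgroup.commutator_mem_commutator hx (Subgroup.mem_top g))
      haveI hAn : (Subgroup.normalClosure ((Z : Set G) ∪ {x})).Normal :=
        Subgroup.normalClosure_normal
      have hxA : x ∈ Subgroup.normalClosure ((Z : Set G) ∪ {x}) :=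
        Subgroup.subset_normalClosure (Set.mem_union_right _ rfl)
      have hgen : ∀ a ∈ Group.conjugatesOfSet ((Z : Set G) ∪ {x}),
          ∃ z ∈ Z, ρ a = ρ z ∨ ρ a = ρ (z * x) := by
        intro a ha
        rw [Group.mem_conjugatesOfSet_iff] at ha
        obtain ⟨s, hs, hsa⟩ := ha
        obtain ⟨c, hc⟩ := isConj_iff.mp hsa
        rcases hs with hs | hs
        · refine ⟨s, hs, Or.inl ?_⟩
          have hs' : ∀ h, Commute (ρ s) (ρ h) := hs
          rw [← hc, map_mul, map_mul, ← (hs' c).eq, mul_assoc, ← map_mul, mul_inv_cancel,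
            map_one, mul_one]
        · have hs' : s = x := hs
          subst hs'
          refine ⟨⁅c, s⁆, ?_, Or.inr ?_⟩
          · have h1 := Z.inv_mem (hxc c)
            rwa [commutatorElement_inv] at h1
          · rw [← hc]
            congr 1
            simp [commutatorElement_def]
      have hAcomm : ∀ a ∈ Subgroup.normalClosure ((Z : Set G) ∪ {x}),
          ∀ b ∈ Subgroup.normalClosure ((Z : Set G) ∪ {x}), Commute (ρ a) (ρ b) := by
        intro a ha b hb
        have ha' : a ∈ Subgroup.closure (Group.conjugatesOfSet ((Z : Set G) ∪ {x})) := ha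
        have hb' : b ∈ Subgroup.closure (Group.conjugatesOfSet ((Z : Set G) ∪ {x})) := hb
        refine Subgroup.closure_induction₂ (p := fun a b _ _ => Commute (ρ a) (ρ b))
          ?_ ?_ ?_ ?_ ?_ ?_ ?_ ha' hb'
        · intro a b ha hb
          obtain ⟨z1, hz1, h1⟩ := hgen a ha
          obtain ⟨z2, hz2, h2⟩ := hgen b hb
          rcases h1 with h1 | h1
          · rw [h1]; exact hz1 b
          · rcases h2 with h2 | h2
            · rw [h2]; exact (hz2 a).symm
            · rw [h1, h2, map_mul, map_mul]
              exact Commute.mul_left (by rw [← map_mul]; exact hz1 (z2 * x))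
                (Commute.mul_right (hz2 x).symm (Commute.refl _))
        · intro y _; rw [map_one]; exact Commute.one_left _
        · intro y _; rw [map_one]; exact Commute.one_right _
        · intro a b c _ _ _ h1 h2; rw [map_mul]; exact h1.mul_left h2
        · intro b c a _ _ _ h1 h2; rw [map_mul]; exact h1.mul_right h2
        · intro a b _ _ h; exact commute_inv ρ h
        · intro a b _ _ h; exact (commute_inv ρ h.symm).symm
      have hres : IsCharacter (Subgroup.normalClosure ((Z : Set G) ∪ {x}))
          (fun m : Subgroup.normalClosure ((Z : Set G) ∪ {x}) => ρ.character m) :=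
        Helper2.isCharacter_restrict _ (Helper2.isCharacter_of_isIrrCharacter hχirr)
      obtain ⟨ϑ, hϑc⟩ : ∃ ϑ : IrrCharacter (Subgroup.normalClosure ((Z : Set G) ∪ {x})),
          classInner (fun m : Subgroup.normalClosure ((Z : Set G) ∪ {x}) => ρ.character m)
            (ϑ : Subgroup.normalClosure ((Z : Set G) ∪ {x}) → ℂ) ≠ 0 := by
        by_contra hcon
        push Not at hcon
        have h := Helper2.classFun_eq_sum_classInner
          (Helper2.isClassFunction_of_isCharacter hres)
        have h0 : (fun m : Subgroup.normalClosure ((Z : Set G) ∪ {x}) => ρ.character m) = 0 := by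
          rw [h]
          apply Finset.sum_eq_zero
          intro φ _
          rw [hcon φ, zero_smul]
        have h1 := congrFun h0 1
        simp only [OneMemClass.coe_one, Pi.zero_apply] at h1
        exact Helper25.irr_one_ne_zero ⟨ρ.character, hχirr⟩ h1
      obtain ⟨ϑ, hϑ⟩ := ϑ
      have hAT : Subgroup.normalClosure ((Z : Set G) ∪ {x})
          ≤ Helper7.inertia (Subgroup.normalClosure ((Z : Set G) ∪ {x})) ϑ := by
        intro a ha
        rw [Helper7.mem_inertia]
        intro m
        exact Helper25.irr_conj ⟨ϑ, hϑ⟩ m ⟨a, ha⟩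
      have hTne : Helper7.inertia (Subgroup.normalClosure ((Z : Set G) ∪ {x})) ϑ ≠ ⊤ := by
        intro hT
        have hinv : ∀ (g : G) (m : Subgroup.normalClosure ((Z : Set G) ∪ {x})),
            ϑ ⟨g * m * g⁻¹, hAn.conj_mem (m : G) m.2 g⟩ = ϑ m := fun g =>
          (Helper7.mem_inertia _ ϑ g).mp (hT ▸ Subgroup.mem_top g)
        obtain ⟨e, he0, he, -⟩ := Helper7.clifford_invariant _ ϑ hϑ hinv ρ.character hχirr hϑc
        have he' : ∀ a : Subgroup.normalClosure ((Z : Set G) ∪ {x}),
            ρ.character a = (e : ℂ) * ϑ a := fun a => by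
          have h1 := congrFun he a
          simpa using h1
        have hcomm1 : ∀ a b : Subgroup.normalClosure ((Z : Set G) ∪ {x}), ϑ ⁅a, b⁆ = ϑ 1 := by
          intro a b
          have h1 : ρ.character ((⁅a, b⁆ : Subgroup.normalClosure ((Z : Set G) ∪ {x})) : G)
              = ρ.character ((1 : Subgroup.normalClosure ((Z : Set G) ∪ {x})) : G) := by
            have h2 : ρ ((⁅a, b⁆ : Subgroup.normalClosure ((Z : Set G) ∪ {x})) : G) = 1 := by
              have h3 : ((⁅a, b⁆ : Subgroup.normalClosure ((Z : Set G) ∪ {x})) : G)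
                  = (a : G) * b * (a : G)⁻¹ * (b : G)⁻¹ := by
                simp [commutatorElement_def]
              rw [h3, map_mul, map_mul, map_mul, (hAcomm a a.2 b b.2).eq, mul_assoc (ρ b),
                ← map_mul ρ (a : G), mul_inv_cancel, map_one, mul_one, ← map_mul,
                mul_inv_cancel, map_one]
            show LinearMap.trace ℂ _ (ρ _) = LinearMap.trace ℂ _ (ρ _)
            rw [h2, OneMemClass.coe_one, map_one ρ]
          rw [he', he'] at h1
          exact mul_left_cancel₀ (Nat.cast_ne_zero.mpr he0) h1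
        obtain ⟨j, τ, hτ, hτχ, hker⟩ := Helper25.irr_rep_ker ⟨ϑ, hϑ⟩
        haveI := hτ
        have hj : j = 1 := by
          have hd := Helper2.finrank_dvd_index_of_central τ ⊤ (by
            intro a _ b
            have h1 : τ ⁅a, b⁆ = 1 := (hker _).mp (hcomm1 a b)
            have h2 : a * b = ⁅a, b⁆ * (b * a) := by simp [commutatorElement_def, mul_assoc]
            rw [h2, map_mul, h1, one_mul])
          rw [Subgroup.index_top, Nat.dvd_one, Module.finrank_fin_fun] at hd
          exact hd
        subst hj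
        have hϑ1 : ϑ 1 = 1 := by
          have h1 : ϑ = τ.character := hτχ.symm
          rw [h1, Helper25.rep_char_one]
          simp
        obtain ⟨lam, hlam⟩ := Helper7.exists_hom_of_linear ϑ
          (Helper2.isCharacter_of_isIrrCharacter hϑ) hϑ1
        have hek : (e : ℂ) = k := by
          have h1 := he' 1
          rw [hϑ1, mul_one, OneMemClass.coe_one, Helper25.rep_char_one] at h1
          exact h1.symm
        have hscal := Helper7.rep_scalar_of_char _ ρ lam (by
          intro m
          rw [he' m, hek]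
          exact congrArg (fun z => (k : ℂ) * z) (congrFun hlam m))
        apply hxZ
        intro h
        have hx' : ρ x = ((lam ⟨x, hxA⟩ : ℂˣ) : ℂ) • (1 : Module.End ℂ (Fin k → ℂ)) :=
          hscal ⟨x, hxA⟩
        rw [hx']
        exact (Commute.one_left (ρ h)).smul_left _
      obtain ⟨ψ, hψ, hind, -⟩ := S0854.result _ ϑ hϑ
        (Helper7.inertia (Subgroup.normalClosure ((Z : Set G) ∪ {x})) ϑ)
        (fun g => Helper7.mem_inertia _ ϑ g) hAT ρ.character hχirr hϑc
      have hcard : Nat.card (Helper7.inertia (Subgroup.normalClosure ((Z : Set G) ∪ {x})) ϑ)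
          ≤ n := by
        have h1 : Nat.card (Helper7.inertia (Subgroup.normalClosure ((Z : Set G) ∪ {x})) ϑ)
            ≠ Nat.card G := fun h => hTne (Subgroup.eq_top_of_card_eq _ h)
        have h2 := Subgroup.card_le_card_group
          (Helper7.inertia (Subgroup.normalClosure ((Z : Set G) ∪ {x})) ϑ)
        omega
      obtain ⟨K, μ, hψK⟩ := ih (Helper7.inertia (Subgroup.normalClosure ((Z : Set G) ∪ {x})) ϑ)
        hcard ψ hψ
      obtain ⟨hmem, hnest⟩ := indFun_nested
        (Helper7.inertia (Subgroup.normalClosure ((Z : Set G) ∪ {x})) ϑ) K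
        (fun h => ((μ h : ℂˣ) : ℂ))
      refine ⟨K.map (Helper7.inertia (Subgroup.normalClosure ((Z : Set G) ∪ {x})) ϑ).subtype,
        { toFun := fun h => μ ⟨⟨(h : G), (Subgroup.map_subtype_le K) h.2⟩, hmem h⟩
          map_one' := by
            have h1 : (⟨⟨((1 : K.map (Helper7.inertia
                (Subgroup.normalClosure ((Z : Set G) ∪ {x})) ϑ).subtype) : G),
                (Subgroup.map_subtype_le K) (1 : K.map (Helper7.inertia
                (Subgroup.normalClosure ((Z : Set G) ∪ {x})) ϑ).subtype).2⟩, hmem 1⟩ : K) = 1 :=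
              Subtype.ext (Subtype.ext rfl)
            rw [h1, map_one]
          map_mul' := fun a b => by
            have h1 : (⟨⟨((a * b : K.map (Helper7.inertia
                (Subgroup.normalClosure ((Z : Set G) ∪ {x})) ϑ).subtype) : G),
                (Subgroup.map_subtype_le K) (a * b).2⟩, hmem (a * b)⟩ : K)
                = ⟨⟨(a : G), (Subgroup.map_subtype_le K) a.2⟩, hmem a⟩
                  * ⟨⟨(b : G), (Subgroup.map_subtype_le K) b.2⟩, hmem b⟩ :=
              Subtype.ext (Subtype.ext rfl)
            rw [h1, map_mul] }, ?_⟩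
      rw [← hind, hψK, hnest]
      rfl

/-- A finite nilpotent group is an M-group: each irreducible complex character is induced from a homomorphism of some subgroup into ℂˣ. -/
theorem result {G : Type*} [Group G] [Fintype G] [Group.IsNilpotent G] (χ : G → ℂ) (hχ : Cfsg.IsIrrCharacter G χ) : ∃ (H : Subgroup G) (lam : H →* ℂˣ), χ = Cfsg.indFun H (fun h => (lam h : ℂ)) := by
  exact aux (Nat.card G) G le_rfl χ hχ

end Cfsg.Agent.S0176
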