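import Cfsg.Statements.S0163
import Mathlib
import Cfsg.Agent.Helper7.BrauerChar
import Cfsg.Agent.S0176
import Cfsg.Agent.Helper2.Artin

set_option autoImplicit false
open Cfsg

namespace Cfsg.Agent.S0163

universe u

lemma zp_normal {E : Type u} [Group E] {x : E} (hx : x ∈ Subgroup.center E) :
    (Subgroup.zpowers x).Normal := by
  constructor
  intro n hn g
  have hn' : n ∈ Subgroup.center E := (Subgroup.zpowers_le.mpr hx) hn
  rw [Subgroup.mem_center_iff] at hn'
  have : g * n * g⁻¹ = n := by rw [hn' g]; group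
  rw [this]; exact hn

lemma elem_nilpotent {E : Type u} [Group E] [Finite E] {p : ℕ} (hp : p.Prime)
    (h : IsElementary p E) : Group.IsNilpotent E := by
  obtain ⟨x, hx, -, k, hk⟩ := h
  haveI : (Subgroup.zpowers x).Normal := zp_normal hx
  haveI : Fact p.Prime := ⟨hp⟩
  have hq : IsPGroup p (E ⧸ Subgroup.zpowers x) :=
    IsPGroup.of_card (n := k) (by rw [← hk, Subgroup.index_eq_card])
  haveI hnil : Group.IsNilpotent (E ⧸ Subgroup.zpowers x) := hq.isNilpotent
  refine Subgroup.isNilpotent_of_ker_le_center (QuotientGroup.mk' (Subgroup.zpowers x)) ?_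
  rw [QuotientGroup.ker_mk']
  exact Subgroup.zpowers_le.mpr hx

lemma elem_of_injective {K T : Type u} [Group K] [Group T] [Finite T] {p : ℕ} (hp : p.Prime)
    (f : K →* T) (hf : Function.Injective f) (h : IsElementary p T) : IsElementary p K := by
  obtain ⟨x, hx, hcop, k, hk⟩ := h
  haveI hnorm : (Subgroup.zpowers x).Normal := zp_normal hx
  let C : Subgroup K := (Subgroup.zpowers x).comap f
  let g : C →* Subgroup.zpowers x :=
    (f.comp C.subtype).codRestrict (Subgroup.zpowers x) (fun c => c.2)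
  have hg : Function.Injective g := by
    intro a b hab
    apply Subtype.ext
    apply hf
    exact congrArg Subtype.val hab
  haveI : IsCyclic C := isCyclic_of_injective g hg
  obtain ⟨y, hy⟩ := IsCyclic.exists_generator (α := C)
  refine ⟨(y : K), ?_, ?_, ?_⟩
  · rw [Subgroup.mem_center_iff]
    intro a
    apply hf
    rw [map_mul, map_mul]
    have : f y ∈ Subgroup.center T := (Subgroup.zpowers_le.mpr hx) y.2
    exact (Subgroup.mem_center_iff.mp this (f a))
  · have h1 : orderOf (y : K) = orderOf (f y) := (orderOf_injective f hf _).symm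
    have h2 : orderOf (f (y:K)) ∣ orderOf x := orderOf_dvd_of_mem_zpowers y.2
    rw [h1]
    exact Nat.Coprime.coprime_dvd_left h2 hcop
  · have h3 : Subgroup.zpowers (y : K) = C := by
      apply le_antisymm
      · exact Subgroup.zpowers_le.mpr y.2
      · intro c hc
        obtain ⟨n, hn⟩ := Subgroup.mem_zpowers_iff.mp (hy ⟨c, hc⟩)
        refine Subgroup.mem_zpowers_iff.mpr ⟨n, ?_⟩
        have := congrArg Subtype.val hn
        simpa using this
    rw [h3]
    have h4 : C.index ∣ p ^ k := by
      rw [← hk]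
      show ((Subgroup.zpowers x).comap f).index ∣ _
      rw [Subgroup.index_comap]
      exact Subgroup.relIndex_dvd_index_of_normal _ _
    obtain ⟨j, -, hj⟩ := (Nat.dvd_prime_pow hp).mp h4
    exact ⟨j, hj⟩

def linInd (G : Type u) [Group G] [Fintype G] : Set (G → ℂ) :=
  {f | ∃ (p : ℕ) (E : Subgroup G) (lam : E →* ℂˣ), p.Prime ∧ IsElementary p E ∧
    f = indFun E (fun e => ((lam e : ℂˣ) : ℂ))}

lemma ind_char_mem {G : Type u} [Group G] [Fintype G] (p : ℕ) (hp : p.Prime) (E : Subgroup G)
    (hE : IsElementary p E) (φ : E → ℂ) (hφ : IsCharacter E φ) :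
    indFun E φ ∈ Submodule.span ℤ (linInd G) := by
  classical
  haveI : Fintype E := Fintype.ofFinite E
  haveI : Group.IsNilpotent E := elem_nilpotent hp hE
  have hcl := Helper2.isClassFunction_of_isCharacter hφ
  rw [Helper2.classFun_eq_sum_classInner hcl, Helper2.indFun_sum]
  apply Submodule.sum_mem
  intro χ _
  obtain ⟨m, hm⟩ := Helper2.classInner_char_nat hφ (Helper2.isCharacter_of_isIrrCharacter χ.2)
  rw [hm, Helper2.indFun_smul]
  have h1 : ((m : ℂ)) • indFun E (χ : E → ℂ) = ((m : ℤ)) • indFun E (χ : E → ℂ) := by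
    funext g; simp
  rw [h1]
  apply Submodule.smul_mem
  obtain ⟨H, lam, hlam⟩ := S0176.aux (Nat.card E) E le_rfl χ χ.2
  rw [hlam]
  obtain ⟨hmem, hnest⟩ := S0176.indFun_nested E H (fun h => ((lam h : ℂˣ) : ℂ))
  rw [hnest]
  apply Submodule.subset_span
  refine ⟨p, H.map E.subtype,
    { toFun := fun h => lam ⟨⟨(h : G), (Subgroup.map_subtype_le H) h.2⟩, hmem h⟩
      map_one' := by
        rw [show (⟨⟨((1 : H.map E.subtype) : G), (Subgroup.map_subtype_le H)
          (1 : H.map E.subtype).2⟩, hmem 1⟩ : H) = 1 from rfl]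
        exact map_one lam
      map_mul' := by
        intro a b
        rw [← map_mul]
        rfl }, hp, ?_, rfl⟩
  exact elem_of_injective hp (Subgroup.inclusion (Subgroup.map_subtype_le H))
    (Subgroup.inclusion_injective _) hE

lemma mul_mem {G : Type u} [Group G] [Fintype G] (χ : G → ℂ) (hχ : IsCharacter G χ) :
    ∀ f ∈ Helper7.VE G, f * χ ∈ Submodule.span ℤ (linInd G) := by
  intro f hf
  have hcl := Helper2.isClassFunction_of_isCharacter hχ
  unfold Helper7.VE at hf
  induction hf using Submodule.span_induction with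
  | mem f hf =>
    obtain ⟨p, E, φ, hp, hE, hφ, rfl⟩ := hf
    rw [← Helper7.indFun_mul_classFunction E φ χ hcl]
    exact ind_char_mem p hp E hE _
      (Helper2.isCharacter_mul hφ (Helper2.isCharacter_restrict E hχ))
  | zero => rw [zero_mul]; exact Submodule.zero_mem _
  | add f g _ _ hf hg => rw [add_mul]; exact Submodule.add_mem _ hf hg
  | smul c f _ hf => rw [smul_mul_assoc]; exact Submodule.smul_mem _ c hf

lemma span_list {G : Type u} [Group G] [Fintype G] :
    ∀ f ∈ Submodule.span ℤ (linInd G),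
    ∃ l : List ((E : Subgroup G) × ((E →* ℂˣ) × ℤ)),
      (∀ t ∈ l, ∃ p : ℕ, p.Prime ∧ IsElementary p t.1) ∧
      f = (l.map fun t => (t.2.2 : ℂ) • indFun t.1 (fun e => (t.2.1 e : ℂ))).sum := by
  intro f hf
  induction hf using Submodule.span_induction with
  | mem f hf =>
    obtain ⟨p, E, lam, hp, hE, rfl⟩ := hf
    refine ⟨[⟨E, lam, 1⟩], ?_, ?_⟩
    · intro t ht
      rw [List.mem_singleton] at ht
      subst ht
      exact ⟨p, hp, hE⟩
    · simp
  | zero => exact ⟨[], by simp, by simp⟩
  | add f g _ _ hf hg =>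
    obtain ⟨l1, h1, rfl⟩ := hf
    obtain ⟨l2, h2, rfl⟩ := hg
    refine ⟨l1 ++ l2, ?_, ?_⟩
    · intro t ht
      rcases List.mem_append.mp ht with h | h
      · exact h1 t h
      · exact h2 t h
    · rw [List.map_append, List.sum_append]
  | smul c f _ hf =>
    obtain ⟨l, h1, rfl⟩ := hf
    refine ⟨l.map (fun t => ⟨t.1, t.2.1, c * t.2.2⟩), ?_, ?_⟩
    · intro t ht
      obtain ⟨s, hs, rfl⟩ := List.mem_map.mp ht
      exact h1 s hs
    · rw [List.map_map, List.smul_sum, List.map_map]
      congr 1
      apply List.map_congr_left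
      intro t _
      funext g
      simp [mul_assoc]

/-- Brauer's induction Theorem: every character of a finite group is a ℤ-linear combination of functions induced from linear characters (homomorphisms to ℂˣ) of elementary subgroups. -/
theorem result {G : Type*} [Group G] [Fintype G] (χ : G → ℂ) (hχ : Cfsg.IsCharacter G χ) : ∃ l : List ((E : Subgroup G) × ((E →* ℂˣ) × ℤ)), (∀ t ∈ l, ∃ p : ℕ, p.Prime ∧ Cfsg.IsElementary p t.1) ∧ χ = (l.map fun t => (t.2.2 : ℂ) • Cfsg.indFun t.1 (fun e => (t.2.1 e : ℂ))).sum := by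
  have h1 := mul_mem χ hχ _ Helper7.one_mem_VE
  have e : (fun _ : G => (1 : ℂ)) * χ = χ := by funext g; simp
  rw [e] at h1
  exact span_list χ h1

end Cfsg.Agent.S0163
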