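import Cfsg.Statements.S0166
import Mathlib
import Cfsg.Agent.Helper2.Splitting
import Cfsg.Agent.S0163

set_option autoImplicit false
open Cfsg

namespace Cfsg.Agent.S0166

open Cfsg.Agent.Helper2

/-- Brauer's splitting field Theorem: a complex representation of a finite group of exponent m is equivalent to a representation by matrices with entries in ℚ adjoined exp(2πi/m). -/
theorem result {G : Type*} [Group G] [Finite G] (n : ℕ) (ρ : Representation ℂ G (Fin n → ℂ)) : ∃ σ : Representation ℂ G (Fin n → ℂ), Nonempty (ρ.Equiv σ) ∧ ∀ g : G, ∀ i j : Fin n, LinearMap.toMatrix' (σ g) i j ∈ Algebra.adjoin ℚ ({Complex.exp (2 * Real.pi * Complex.I / (Monoid.exponent G : ℂ))} : Set ℂ) := by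
  classical
  haveI : Fintype G := Fintype.ofFinite G
  have hm : Monoid.exponent G ≠ 0 := Monoid.exponent_ne_zero_of_finite
  haveI : NeZero (Monoid.exponent G) := ⟨hm⟩
  obtain ⟨ζ, hζdef⟩ : ∃ ζ : ℂ, ζ = Complex.exp (2 * Real.pi * Complex.I /
    (Monoid.exponent G : ℂ)) := ⟨_, rfl⟩
  rw [← hζdef]
  have hζ : IsPrimitiveRoot ζ (Monoid.exponent G) := by
    rw [hζdef]; exact Complex.isPrimitiveRoot_exp _ hm
  have hζint : IsIntegral ℚ ζ := by
    apply IsIntegral.of_pow (Nat.pos_of_ne_zero hm)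
    rw [hζ.pow_eq_one]
    exact isIntegral_one
  obtain ⟨K, hKdef⟩ : ∃ K : IntermediateField ℚ ℂ, K = IntermediateField.adjoin ℚ {ζ} :=
    ⟨_, rfl⟩
  have hζK : ζ ∈ K := by rw [hKdef]; exact IntermediateField.mem_adjoin_simple_self ℚ ζ
  have hKsub : ∀ x : K, (x : ℂ) ∈ Algebra.adjoin ℚ ({ζ} : Set ℂ) := by
    intro x
    have h1 : K.toSubalgebra = Algebra.adjoin ℚ ({ζ} : Set ℂ) := by
      rw [hKdef]
      exact IntermediateField.adjoin_toSubalgebra_of_isAlgebraic
        (fun y hy => by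
          rw [Set.mem_singleton_iff] at hy
          rw [hy]; exact hζint.isAlgebraic)
    rw [← h1]
    exact x.2
  obtain ⟨ι, hι⟩ : ∃ ι : K →+* ℂ, ∀ x : K, ι x = (x : ℂ) := ⟨algebraMap K ℂ, fun x => rfl⟩
  -- Brauer
  have hB : ∀ χ : IrrCharacter G, (χ : G → ℂ) ∈ Submodule.span ℤ (kcharSet ι G) := by
    intro χ
    obtain ⟨l, -, hl⟩ := Cfsg.Agent.S0163.result (χ : G → ℂ) (isCharacter_of_isIrrCharacter χ.2)
    rw [hl]
    apply list_sum_mem
    intro x hx
    obtain ⟨t, -, rfl⟩ := List.mem_map.mp hx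
    rw [Int.cast_smul_eq_zsmul]
    apply Submodule.smul_mem
    apply Submodule.subset_span
    apply ind_mem_kcharSet
    intro e
    have h1 : ((t.2.1 e : ℂˣ) : ℂ) ^ Monoid.exponent G = 1 := by
      have h2 : e ^ Monoid.exponent G = 1 := by
        apply Subtype.ext
        rw [Subgroup.coe_pow, Monoid.pow_exponent_eq_one]
        rfl
      rw [← Units.val_pow_eq_pow_val, ← map_pow, h2, map_one, Units.val_one]
    obtain ⟨i, -, hi⟩ := hζ.eq_pow_of_pow_eq_one h1
    refine ⟨(⟨ζ, hζK⟩ : K) ^ i, ?_⟩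
    rw [hι, ← hi]
    rfl
  have hθ : IsCharacter G ρ.character := ⟨n, ρ, rfl⟩
  obtain ⟨V, _, _, _, τ, hτ⟩ := char_mem_kcharSet ι hB hθ
  have hdim : Module.finrank K V = n := by
    have h1 := kchar_one ι τ
    rw [← hτ, Representation.char_one] at h1
    have h2 : Module.finrank ℂ (Fin n → ℂ) = n := by simp
    rw [h2] at h1
    exact_mod_cast h1.symm
  subst hdim
  refine ⟨cplx ι τ, ?_, ?_⟩
  · exact Cfsg.Agent.Helper1.nonempty_equiv_of_character_eq ρ (cplx ι τ)
      (by rw [cplx_character]; exact hτ)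
  · intro g i j
    rw [cplx_matrix, hι]
    exact hKsub _

end Cfsg.Agent.S0166
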