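import Cfsg.Statements.S0167
import Mathlib
import Cfsg.Agent.Helper25.CharOrth

set_option autoImplicit false
open Cfsg

namespace Cfsg.Agent.S0167

/-- An element g of a finite group is a commutator if and only if the sum over the irreducible characters χ of χ g / χ 1 is nonzero. -/
theorem result {G : Type*} [Group G] [Finite G] (g : G) : (∃ a b : G, g = a * b * a⁻¹ * b⁻¹) ↔ ∑ᶠ χ : Cfsg.IrrCharacter G, (χ : G → ℂ) g / (χ : G → ℂ) 1 ≠ 0 := by
  classical
  haveI : Fintype G := Fintype.ofFinite G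
  rw [finsum_eq_sum_of_fintype]
  have h := Cfsg.Agent.Helper25.card_commutator_eq g
  have hG : (Nat.card G : ℂ) ≠ 0 := by
    exact_mod_cast (Nat.card_pos (α := G)).ne'
  constructor
  · rintro ⟨a, b, hab⟩ hsum
    rw [hsum, mul_zero] at h
    have h0 : Nat.card {xy : G × G // xy.1 * xy.2 * xy.1⁻¹ * xy.2⁻¹ = g} = 0 := by
      exact_mod_cast h
    haveI hne : Nonempty {xy : G × G // xy.1 * xy.2 * xy.1⁻¹ * xy.2⁻¹ = g} :=
      ⟨⟨(a, b), hab.symm⟩⟩
    exact (Nat.card_pos (α := {xy : G × G // xy.1 * xy.2 * xy.1⁻¹ * xy.2⁻¹ = g})).ne' h0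
  · intro hsum
    by_contra hno
    haveI hempty : IsEmpty {xy : G × G // xy.1 * xy.2 * xy.1⁻¹ * xy.2⁻¹ = g} :=
      ⟨fun xy => hno ⟨xy.1.1, xy.1.2, xy.2.symm⟩⟩
    rw [Nat.card_of_isEmpty, Nat.cast_zero] at h
    rcases mul_eq_zero.mp h.symm with h' | h'
    · exact hG h'
    · exact hsum h'

end Cfsg.Agent.S0167
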