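import Cfsg.Statements.S0168
import Mathlib
import Cfsg.Agent.Helper2.CharExtra

set_option autoImplicit false
open Cfsg

namespace Cfsg.Agent.S0168

open scoped ComplexConjugate

theorem rho_eq_one_of_char_eq {G : Type*} [Group G] [Finite G] {V : Type*} [AddCommGroup V]
    [Module ℂ V] [FiniteDimensional ℂ V] (ρ : Representation ℂ G V) (g : G)
    (h : ρ.character g = ρ.character 1) : ρ g = 1 := by
  obtain ⟨b, μ, hμ1, hμ2, hμ3, -, hμ5, -⟩ := Helper1.exists_eigenbasis ρ g
  rw [Representation.char_one] at h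
  have hre : ∑ i, (μ i).re = (Module.finrank ℂ V : ℝ) := by
    have := congrArg Complex.re (hμ5.symm.trans h)
    simpa using this
  have hle : ∀ i, (μ i).re ≤ 1 := fun i => (Complex.re_le_norm (μ i)).trans (le_of_eq (hμ2 i))
  have heq : ∀ i, (μ i).re = 1 := by
    by_contra hcon
    push Not at hcon
    obtain ⟨j, hj⟩ := hcon
    have hlt : (μ j).re < 1 := lt_of_le_of_ne (hle j) hj
    have : ∑ i, (μ i).re < ∑ i : Fin (Module.finrank ℂ V), (1 : ℝ) :=
      Finset.sum_lt_sum (fun i _ => hle i) ⟨j, Finset.mem_univ j, hlt⟩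
    simp at this
    linarith
  have hμ : ∀ i, μ i = 1 := fun i =>
    Helper1.eq_one_of_norm_eq_one_of_re_eq_one (μ i) (hμ2 i) (heq i)
  apply b.ext
  intro i
  rw [hμ3 i, hμ i, one_smul]; rfl

/-- The Burnside–Brauer Theorem. Let χ be the character of a faithful complex representation of a finite group, taking m distinct values. Then every irreducible character has nonzero inner product with χ ^ i for some i < m. -/
theorem result {G : Type*} [Group G] [Fintype G] {V : Type*} [AddCommGroup V] [Module ℂ V] [FiniteDimensional ℂ V] (ρ : Representation ℂ G V) (hfaithful : Function.Injective ρ) (ψ : G → ℂ) (hψ : Cfsg.IsIrrCharacter G ψ) : ∃ i : ℕ, i < Nat.card (Set.range ρ.character) ∧ Cfsg.classInner (fun g => ρ.character g ^ i) ψ ≠ 0 := by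
  classical
  by_contra hcon
  push Not at hcon
  obtain ⟨χ, hχdef⟩ : ∃ χ : G → ℂ, χ = ρ.character := ⟨_, rfl⟩
  rw [← hχdef] at hcon
  set S : Finset ℂ := Finset.univ.image χ with hS
  have hcardS : Nat.card (Set.range χ) = S.card := by
    rw [Nat.card_eq_fintype_card, ← Set.toFinset_card, Set.toFinset_range]
  set d := χ 1 with hd
  have hdS : d ∈ S := Finset.mem_image.mpr ⟨1, Finset.mem_univ _, rfl⟩
  set P : Polynomial ℂ := ∏ a ∈ S.erase d, (Polynomial.X - Polynomial.C a) with hP
  have hdeg : P.natDegree + 1 = S.card := by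
    rw [hP, Polynomial.natDegree_finsetProd_X_sub_C_eq_card, Finset.card_erase_of_mem hdS]
    have : 0 < S.card := Finset.card_pos.mpr ⟨d, hdS⟩
    omega
  have hPd : P.eval d ≠ 0 := by
    rw [hP, Polynomial.eval_prod]
    apply Finset.prod_ne_zero_iff.mpr
    intro a ha
    simp only [Polynomial.eval_sub, Polynomial.eval_X, Polynomial.eval_C]
    exact sub_ne_zero.mpr (Finset.ne_of_mem_erase ha).symm
  have hPg : ∀ g : G, g ≠ 1 → P.eval (χ g) = 0 := by
    intro g hg
    rw [hP, Polynomial.eval_prod]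
    apply Finset.prod_eq_zero (i := χ g)
    · apply Finset.mem_erase.mpr
      refine ⟨?_, Finset.mem_image.mpr ⟨g, Finset.mem_univ _, rfl⟩⟩
      intro heq
      apply hg
      have h1 := rho_eq_one_of_char_eq ρ g (by rw [← hχdef]; exact heq)
      apply hfaithful
      rw [h1, map_one]
    · simp
  have hψ1 : ψ 1 ≠ 0 := Helper25.irr_one_ne_zero ⟨ψ, hψ⟩
  have hsum1 : ∑ g : G, P.eval (χ g) * conj (ψ g) = P.eval d * conj (ψ 1) := by
    rw [Finset.sum_eq_single 1]
    · intro g _ hg; rw [hPg g hg, zero_mul]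
    · intro h; exact absurd (Finset.mem_univ _) h
  have hsum2 : ∑ g : G, P.eval (χ g) * conj (ψ g) = 0 := by
    have : ∀ g : G, P.eval (χ g) * conj (ψ g) =
        ∑ i ∈ Finset.range (P.natDegree + 1), P.coeff i * (χ g ^ i * conj (ψ g)) := by
      intro g
      rw [Polynomial.eval_eq_sum_range, Finset.sum_mul]
      apply Finset.sum_congr rfl; intro i _; ring
    simp_rw [this]
    rw [Finset.sum_comm]
    apply Finset.sum_eq_zero
    intro i hi
    rw [← Finset.mul_sum]
    have hi' : i < Nat.card (Set.range χ) := by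
      rw [hcardS, ← hdeg]; exact Finset.mem_range.mp hi
    have h0 := hcon i hi'
    unfold classInner at h0
    have hG : (Nat.card G : ℂ)⁻¹ ≠ 0 := inv_ne_zero (by exact_mod_cast Nat.card_pos.ne')
    have h00 := (mul_eq_zero.mp h0).resolve_left hG
    rw [h00, mul_zero]
  rw [hsum1] at hsum2
  rcases mul_eq_zero.mp hsum2 with h | h
  · exact hPd h
  · exact hψ1 (by simpa using h)

end Cfsg.Agent.S0168
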