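import Cfsg.Statements.S0198
import Mathlib
import Cfsg.Agent.Helper2.CharExtra
import Cfsg.Agent.Helper1.Burnside

set_option autoImplicit false
open Cfsg

namespace Cfsg.Agent.S0198

open scoped ComplexConjugate

theorem exists_irr_sub {G : Type*} [Group G] [Fintype G] (θ : G → ℂ)
    (hθ : IsGeneralizedCharacter G θ) (h2 : classInner θ θ = 2) (h1 : θ 1 = 0) :
    ∃ α β : IrrCharacter G, α ≠ β ∧ θ = (α : G → ℂ) - (β : G → ℂ) := by
  classical
  obtain ⟨hcl, hm⟩ := Helper2.isGeneralizedCharacter_iff.mp hθ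
  choose a ha using hm
  have hpar := Helper2.classInner_eq_sum_mul hcl θ
  rw [h2] at hpar
  have hsum : ∑ χ : IrrCharacter G, a χ * a χ = 2 := by
    have : ((∑ χ : IrrCharacter G, a χ * a χ : ℤ) : ℂ) = 2 := by
      rw [hpar]; push_cast
      apply Finset.sum_congr rfl; intro χ _
      rw [ha χ, map_intCast (starRingEnd ℂ)]
    exact_mod_cast this
  have hbound : ∀ χ, a χ = 0 ∨ a χ = 1 ∨ a χ = -1 := by
    intro χ
    have hle : a χ * a χ ≤ 2 := by
      rw [← hsum]
      exact Finset.single_le_sum (f := fun χ => a χ * a χ) (fun i _ => mul_self_nonneg (a i))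
        (Finset.mem_univ χ)
    have h1 : a χ ≤ 1 := by nlinarith
    have h2 : -1 ≤ a χ := by nlinarith
    omega
  have hsq : ∀ χ, a χ * a χ = if a χ ≠ 0 then 1 else 0 := by
    intro χ
    rcases hbound χ with h | h | h <;> simp [h]
  have hcard : (Finset.univ.filter (fun χ : IrrCharacter G => a χ ≠ 0)).card = 2 := by
    have : ((Finset.univ.filter (fun χ : IrrCharacter G => a χ ≠ 0)).card : ℤ) = 2 := by
      rw [← hsum, Finset.sum_congr rfl (fun χ _ => hsq χ), Finset.sum_boole]
    exact_mod_cast this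
  obtain ⟨x, y, hxy, hS⟩ := Finset.card_eq_two.mp hcard
  have hx : a x ≠ 0 := by
    have : x ∈ Finset.univ.filter (fun χ : IrrCharacter G => a χ ≠ 0) := by rw [hS]; simp
    exact (Finset.mem_filter.mp this).2
  have hy : a y ≠ 0 := by
    have : y ∈ Finset.univ.filter (fun χ : IrrCharacter G => a χ ≠ 0) := by rw [hS]; simp
    exact (Finset.mem_filter.mp this).2
  have hθeq : θ = (a x : ℂ) • (x : G → ℂ) + (a y : ℂ) • (y : G → ℂ) := by
    conv_lhs => rw [Helper2.classFun_eq_sum_classInner hcl]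
    rw [← Finset.sum_subset (Finset.subset_univ ({x, y} : Finset (IrrCharacter G)))]
    · rw [Finset.sum_pair hxy, ha x, ha y]
    · intro χ _ hχ
      have h0 : a χ = 0 := by
        by_contra hne
        have : χ ∈ Finset.univ.filter (fun χ : IrrCharacter G => a χ ≠ 0) :=
          Finset.mem_filter.mpr ⟨Finset.mem_univ _, hne⟩
        rw [hS] at this
        exact hχ this
      rw [ha χ, h0]; simp
  have hdx : (x : G → ℂ) 1 = (charDegree (x : G → ℂ) : ℂ) := Helper25.irr_one_eq_degree x
  have hdy : (y : G → ℂ) 1 = (charDegree (y : G → ℂ) : ℂ) := Helper25.irr_one_eq_degree y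
  have hdx0 := Helper25.irr_degree_pos x
  have hdy0 := Helper25.irr_degree_pos y
  have hval : (a x : ℂ) * (charDegree (x : G → ℂ) : ℂ) +
      (a y : ℂ) * (charDegree (y : G → ℂ) : ℂ) = 0 := by
    have := congrFun hθeq 1
    rw [h1] at this
    simp only [Pi.add_apply, Pi.smul_apply, smul_eq_mul, hdx, hdy] at this
    exact this.symm
  have hvalZ : a x * (charDegree (x : G → ℂ) : ℤ) + a y * (charDegree (y : G → ℂ) : ℤ) = 0 := by
    exact_mod_cast hval
  have hdxZ : (0 : ℤ) < (charDegree (x : G → ℂ) : ℤ) := by exact_mod_cast hdx0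
  have hdyZ : (0 : ℤ) < (charDegree (y : G → ℂ) : ℤ) := by exact_mod_cast hdy0
  rcases hbound x with h | h | h
  · exact absurd h hx
  · rcases hbound y with h' | h' | h'
    · exact absurd h' hy
    · exfalso; rw [h, h'] at hvalZ; omega
    · refine ⟨x, y, hxy, ?_⟩
      rw [hθeq, h, h']
      funext g
      simp [sub_eq_add_neg]
  · rcases hbound y with h' | h' | h'
    · exact absurd h' hy
    · refine ⟨y, x, hxy.symm, ?_⟩
      rw [hθeq, h, h']
      funext g
      simp [sub_eq_add_neg, add_comm]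
    · exfalso; rw [h, h'] at hvalZ; omega

theorem inner_diff_key {G : Type*} [Group G] [Fintype G] (α β α' β' : IrrCharacter G)
    (hab : α ≠ β) (hab' : α' ≠ β')
    (h : classInner ((α : G → ℂ) - (β : G → ℂ)) ((α' : G → ℂ) - (β' : G → ℂ)) = 1) :
    (α = α' ∧ β ≠ β' ∧ α ≠ β' ∧ β ≠ α') ∨ (β = β' ∧ α ≠ α' ∧ α ≠ β' ∧ β ≠ α') := by
  classical
  rw [Helper2.classInner_sub_left, Helper2.classInner_sub_right, Helper2.classInner_sub_right,
    Helper2.classInner_irr_irr, Helper2.classInner_irr_irr, Helper2.classInner_irr_irr,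
    Helper2.classInner_irr_irr] at h
  by_cases h1 : α = α'
  · rw [if_pos h1] at h
    by_cases h2 : α = β'
    · exact absurd (h1.symm.trans h2) hab'
    · rw [if_neg h2] at h
      by_cases h3 : β = α'
      · exact absurd (h3.trans h1.symm) hab.symm
      · rw [if_neg h3] at h
        by_cases h4 : β = β'
        · rw [if_pos h4] at h; norm_num at h
        · exact Or.inl ⟨h1, h4, h2, h3⟩
  · rw [if_neg h1] at h
    by_cases h4 : β = β'
    · rw [if_pos h4] at h
      by_cases h2 : α = β'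
      · exact absurd (h2.trans h4.symm) hab
      · rw [if_neg h2] at h
        by_cases h3 : β = α'
        · exact absurd (h3.symm.trans h4) hab'
        · exact Or.inr ⟨h4, h1, h2, h3⟩
    · rw [if_neg h4] at h
      by_cases h2 : α = β' <;> by_cases h3 : β = α'
      · rw [if_pos h2, if_pos h3] at h; norm_num at h
      · rw [if_pos h2, if_neg h3] at h; norm_num at h
      · rw [if_neg h2, if_pos h3] at h; norm_num at h
      · rw [if_neg h2, if_neg h3] at h; norm_num at h

/-- The isometry lemma behind exceptional characters. Let τ be a family of generalized characters of a finite group G indexed by Fin n, with τ i₀ = 0, every τ i vanishing at the identity, and inner products ⟨τ i, τ j⟩ = 2 if i = j and 1 otherwise for i, j ≠ i₀. Then there are a sign ε and pairwise distinct irreducible characters μ i with τ i = ε (μ i − μ i₀) for all i. -/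
theorem result {G : Type*} [Group G] [Fintype G] (n : ℕ) (i₀ : Fin n) (τ : Fin n → (G → ℂ)) (h0 : τ i₀ = 0) (hgen : ∀ i, Cfsg.IsGeneralizedCharacter G (τ i)) (hone : ∀ i, τ i 1 = 0) (hgram : ∀ i j, i ≠ i₀ → j ≠ i₀ → Cfsg.classInner (τ i) (τ j) = if i = j then 2 else 1) : ∃ ε : ℂ, (ε = 1 ∨ ε = -1) ∧ ∃ μ : Fin n → (G → ℂ), (∀ i, Cfsg.IsIrrCharacter G (μ i)) ∧ Function.Injective μ ∧ ∀ i, τ i = ε • (μ i - μ i₀) := by
  classical
  obtain ⟨triv, -⟩ : ∃ t : IrrCharacter G, True :=
    ⟨⟨fun _ => 1, Helper1.isIrrCharacter_one G⟩, trivial⟩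
  have hdec : ∀ i, ∃ α β : IrrCharacter G, i ≠ i₀ →
      α ≠ β ∧ τ i = (α : G → ℂ) - (β : G → ℂ) := by
    intro i
    by_cases hi : i = i₀
    · exact ⟨triv, triv, fun h => absurd hi h⟩
    · obtain ⟨α, β, hne, heq⟩ := exists_irr_sub (τ i) (hgen i)
        (by rw [hgram i i hi hi, if_pos rfl]) (hone i)
      exact ⟨α, β, fun _ => ⟨hne, heq⟩⟩
  choose α β hαβ using hdec
  have hkey : ∀ i j, i ≠ i₀ → j ≠ i₀ → i ≠ j →
      (α i = α j ∧ β i ≠ β j ∧ α i ≠ β j ∧ β i ≠ α j) ∨
      (β i = β j ∧ α i ≠ α j ∧ α i ≠ β j ∧ β i ≠ α j) := by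
    intro i j hi hj hij
    apply inner_diff_key (α i) (β i) (α j) (β j) (hαβ i hi).1 (hαβ j hj).1
    rw [← (hαβ i hi).2, ← (hαβ j hj).2, hgram i j hi hj, if_neg hij]
  by_cases hshare : ∃ i₁ i₂, i₁ ≠ i₀ ∧ i₂ ≠ i₀ ∧ i₁ ≠ i₂ ∧ α i₁ = α i₂
  · obtain ⟨i₁, i₂, h1, h2, h12, hα12⟩ := hshare
    have hall : ∀ j, j ≠ i₀ → α j = α i₁ := by
      intro j hj
      by_cases hj1 : j = i₁
      · rw [hj1]
      by_cases hj2 : j = i₂
      · rw [hj2, hα12]
      rcases hkey j i₁ hj h1 hj1 with h | h
      · exact h.1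
      · exfalso
        rcases hkey j i₂ hj h2 hj2 with h' | h'
        · exact h.2.1 (h'.1.trans hα12.symm)
        · rcases hkey i₁ i₂ h1 h2 h12 with h'' | h''
          · exact h''.2.1 (h.1.symm.trans h'.1)
          · exact h''.2.1 hα12
    obtain ⟨μ, hμ⟩ : ∃ μ : Fin n → G → ℂ, ∀ i, μ i =
        if i = i₀ then (α i₁ : G → ℂ) else (β i : G → ℂ) := ⟨_, fun _ => rfl⟩
    have hμ0 : μ i₀ = (α i₁ : G → ℂ) := by rw [hμ, if_pos rfl]
    have hμi : ∀ i, i ≠ i₀ → μ i = (β i : G → ℂ) := fun i hi => by rw [hμ, if_neg hi]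
    refine ⟨-1, Or.inr rfl, μ, ?_, ?_, ?_⟩
    · intro i
      by_cases hi : i = i₀
      · rw [hi, hμ0]; exact (α i₁).2
      · rw [hμi i hi]; exact (β i).2
    · intro i j hij
      by_contra hne
      by_cases hi : i = i₀
      · by_cases hj : j = i₀
        · exact hne (hi.trans hj.symm)
        · rw [hi, hμ0, hμi j hj] at hij
          have := (hαβ j hj).1
          rw [hall j hj] at this
          exact this (Subtype.ext hij)
      · by_cases hj : j = i₀
        · rw [hj, hμ0, hμi i hi] at hij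
          have := (hαβ i hi).1
          rw [hall i hi] at this
          exact this (Subtype.ext hij.symm)
        · rw [hμi i hi, hμi j hj] at hij
          rcases hkey i j hi hj hne with h | h
          · exact h.2.1 (Subtype.ext hij)
          · exact h.2.1 ((hall i hi).trans (hall j hj).symm)
    · intro i
      by_cases hi : i = i₀
      · rw [hi, h0]; simp
      · rw [hμ0, hμi i hi, (hαβ i hi).2, hall i hi]
        funext g
        simp
  · push Not at hshare
    have hβ : ∀ i j, i ≠ i₀ → j ≠ i₀ → β i = β j := by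
      intro i j hi hj
      by_cases hij : i = j
      · rw [hij]
      rcases hkey i j hi hj hij with h | h
      · exact absurd h.1 (hshare i j hi hj hij)
      · exact h.1
    obtain ⟨B, hB⟩ : ∃ B : IrrCharacter G, ∀ i, i ≠ i₀ → β i = B := by
      by_cases hex : ∃ i, i ≠ i₀
      · obtain ⟨i₁, hi₁⟩ := hex
        exact ⟨β i₁, fun i hi => hβ i i₁ hi hi₁⟩
      · push Not at hex
        exact ⟨triv, fun i hi => absurd (hex i) hi⟩
    obtain ⟨μ, hμ⟩ : ∃ μ : Fin n → G → ℂ, ∀ i, μ i =
        if i = i₀ then (B : G → ℂ) else (α i : G → ℂ) := ⟨_, fun _ => rfl⟩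
    have hμ0 : μ i₀ = (B : G → ℂ) := by rw [hμ, if_pos rfl]
    have hμi : ∀ i, i ≠ i₀ → μ i = (α i : G → ℂ) := fun i hi => by rw [hμ, if_neg hi]
    refine ⟨1, Or.inl rfl, μ, ?_, ?_, ?_⟩
    · intro i
      by_cases hi : i = i₀
      · rw [hi, hμ0]; exact B.2
      · rw [hμi i hi]; exact (α i).2
    · intro i j hij
      by_contra hne
      by_cases hi : i = i₀
      · by_cases hj : j = i₀
        · exact hne (hi.trans hj.symm)
        · rw [hi, hμ0, hμi j hj] at hij
          have := (hαβ j hj).1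
          rw [hB j hj] at this
          exact this (Subtype.ext hij.symm)
      · by_cases hj : j = i₀
        · rw [hj, hμ0, hμi i hi] at hij
          have := (hαβ i hi).1
          rw [hB i hi] at this
          exact this (Subtype.ext hij)
        · rw [hμi i hi, hμi j hj] at hij
          exact hshare i j hi hj hne (Subtype.ext hij)
    · intro i
      by_cases hi : i = i₀
      · rw [hi, h0]; simp
      · rw [hμ0, hμi i hi, (hαβ i hi).2, hB i hi, one_smul]

end Cfsg.Agent.S0198
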