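import Cfsg.Statements.S0170
import Mathlib
import Cfsg.Agent.Helper2.IndExtra
import Cfsg.Agent.S0198

set_option autoImplicit false
open Cfsg

namespace Cfsg.Agent.S0170

open scoped ComplexConjugate

/-- Exceptional characters. Let S be a subset of a finite group contained in its normalizer N and meeting its conjugates by elements outside N only in the identity. Given n ≥ 2 distinct irreducible characters of N of equal degree that vanish on N away from S, there exist a sign ε and n distinct irreducible characters θ_i of G such that inducing χ_i − χ_j to G gives ε (θ_i − θ_j) for all i, j. -/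
theorem result {G : Type*} [Group G] [Fintype G] (S : Set G) (hSN : S ⊆ Subgroup.normalizer S) (hTI : ∀ g : G, g ∉ Subgroup.normalizer S → ∀ s ∈ S, g * s * g⁻¹ ∈ S → s = 1) (n : ℕ) (hn : 2 ≤ n) (χ : Fin n → (Subgroup.normalizer S → ℂ)) (hirr : ∀ i, Cfsg.IsIrrCharacter (Subgroup.normalizer S) (χ i)) (hinj : Function.Injective χ) (hvan : ∀ i, ∀ x : Subgroup.normalizer S, (x : G) ∉ S → χ i x = 0) (hdeg : ∀ i j, χ i 1 = χ j 1) : ∃ ε : ℂ, (ε = 1 ∨ ε = -1) ∧ ∃ θ : Fin n → (G → ℂ), (∀ i, Cfsg.IsIrrCharacter G (θ i)) ∧ Function.Injective θ ∧ ∀ i j, Cfsg.indFun (Subgroup.normalizer S) (χ i) - Cfsg.indFun (Subgroup.normalizer S) (χ j) = ε • (θ i - θ j) := by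
  classical
  have : Fintype (Subgroup.normalizer S) := Fintype.ofFinite _
  have hnpos : 0 < n := by omega
  obtain ⟨i₀, -⟩ : ∃ i : Fin n, True := ⟨⟨0, hnpos⟩, trivial⟩
  obtain ⟨τ, hτdef⟩ : ∃ τ : Fin n → G → ℂ, ∀ i, τ i =
      indFun (Subgroup.normalizer S) (χ i) - indFun (Subgroup.normalizer S) (χ i₀) :=
    ⟨_, fun _ => rfl⟩
  have hτ0 : τ i₀ = 0 := by rw [hτdef, sub_self]
  have hgen : ∀ i, IsGeneralizedCharacter G (τ i) := fun i =>
    ⟨_, _, Helper2.isCharacter_indFun _ (Helper2.isCharacter_of_isIrrCharacter (hirr i)),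
      Helper2.isCharacter_indFun _ (Helper2.isCharacter_of_isIrrCharacter (hirr i₀)), hτdef i⟩
  have hone : ∀ i, τ i 1 = 0 := by
    intro i
    rw [hτdef, Pi.sub_apply, Helper2.indFun_one_apply, Helper2.indFun_one_apply, hdeg i i₀,
      sub_self]
  have hij : ∀ a b : Fin n, classInner (χ a) (χ b) = if a = b then 1 else 0 := by
    intro a b
    have h1 := Helper2.classInner_irr_irr (⟨χ a, hirr a⟩ : IrrCharacter (Subgroup.normalizer S))
      ⟨χ b, hirr b⟩
    by_cases hab : a = b
    · rw [if_pos hab]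
      rw [if_pos (Subtype.ext (by rw [hab]))] at h1
      exact h1
    · rw [if_neg hab]
      rw [if_neg (fun h => hab (hinj (congrArg Subtype.val h)))] at h1
      exact h1
  have hgram : ∀ i j, i ≠ i₀ → j ≠ i₀ → classInner (τ i) (τ j) = if i = j then 2 else 1 := by
    intro i j hi hj
    have e1 : τ i = indFun (Subgroup.normalizer S) (χ i - χ i₀) := by
      rw [hτdef, Helper2.indFun_sub]
    have e2 : τ j = indFun (Subgroup.normalizer S) (χ j - χ i₀) := by
      rw [hτdef, Helper2.indFun_sub]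
    have hcl : IsClassFunction (Subgroup.normalizer S) (χ j - χ i₀) :=
      Helper1.isClassFunction_sub _ _
        (Helper2.isClassFunction_of_isCharacter (Helper2.isCharacter_of_isIrrCharacter (hirr j)))
        (Helper2.isClassFunction_of_isCharacter (Helper2.isCharacter_of_isIrrCharacter (hirr i₀)))
    have hv1 : ∀ x : Subgroup.normalizer S, (x : G) ∉ S → (χ i - χ i₀) x = 0 := by
      intro x hx
      rw [Pi.sub_apply, hvan i x hx, hvan i₀ x hx, sub_zero]
    have hv2 : ∀ x : Subgroup.normalizer S, (x : G) ∉ S → (χ j - χ i₀) x = 0 := by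
      intro x hx
      rw [Pi.sub_apply, hvan j x hx, hvan i₀ x hx, sub_zero]
    have h1 : (χ i - χ i₀) 1 = 0 := by
      rw [Pi.sub_apply, hdeg i i₀, sub_self]
    rw [e1, e2, Helper2.classInner_indFun_ti S hTI (χ i - χ i₀) (χ j - χ i₀) hcl hv1 hv2 h1]
    rw [Helper2.classInner_sub_left, Helper2.classInner_sub_right, Helper2.classInner_sub_right,
      hij, hij, hij, hij, if_neg hi, if_neg (Ne.symm hj), if_pos rfl]
    by_cases hij' : i = j
    · rw [if_pos hij', if_pos hij']; norm_num
    · rw [if_neg hij', if_neg hij']; norm_num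
  obtain ⟨ε, hε, μ, hμirr, hμinj, hμ⟩ := Cfsg.Agent.S0198.result n i₀ τ hτ0 hgen hone hgram
  refine ⟨ε, hε, μ, hμirr, hμinj, ?_⟩
  intro i j
  have h1 : indFun (Subgroup.normalizer S) (χ i) - indFun (Subgroup.normalizer S) (χ j) =
      τ i - τ j := by
    rw [hτdef i, hτdef j]; abel
  rw [h1, hμ i, hμ j, ← smul_sub]
  congr 1
  abel

end Cfsg.Agent.S0170
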