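import Cfsg.Statements.S0193
import Mathlib
import Cfsg.Agent.Helper2.CharExtra

set_option autoImplicit false
open Cfsg

namespace Cfsg.Agent.S0193

open scoped ComplexConjugate

/-- Let H be a normal subgroup of a finite group G and θ an irreducible character of H. Then |H| times the inner product of the induced function of θ with itself equals the number of g in G with θ(g h g⁻¹) = θ(h) for all h in H; in particular the induced character is irreducible when only elements of H stabilise θ. -/
theorem result {G : Type*} [Group G] [Fintype G] (H : Subgroup G) [hN : H.Normal] (θ : H → ℂ) (hθ : Cfsg.IsIrrCharacter H θ) : (Nat.card H : ℂ) * Cfsg.classInner (Cfsg.indFun H θ) (Cfsg.indFun H θ) = (Nat.card {g : G // ∀ h : H, θ ⟨g * h * g⁻¹, hN.conj_mem h h.2 g⟩ = θ h} : ℂ) := by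
  classical
  have : Fintype H := Fintype.ofFinite H
  have hHne : (Nat.card H : ℂ) ≠ 0 := by exact_mod_cast Nat.card_pos.ne'
  obtain ⟨θx, hθx⟩ : ∃ θx : G → H → ℂ, ∀ x h, θx x h = θ ⟨x * h * x⁻¹, hN.conj_mem h h.2 x⟩ :=
    ⟨_, fun _ _ => rfl⟩
  have hirr : ∀ x : G, IsIrrCharacter H (θx x) := by
    intro x
    have h := Helper2.isIrrCharacter_comp_of_surjective (MulAut.conjNormal x : H ≃* H).toMonoidHom
      (MulAut.conjNormal x : H ≃* H).surjective hθ
    convert h using 1
    funext h
    rw [hθx]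
    congr 1
  have hres : (fun h : H => indFun H θ h) = (Nat.card H : ℂ)⁻¹ • ∑ x : G, θx x⁻¹ := by
    funext h
    rw [Helper2.indFun_apply]
    simp only [Pi.smul_apply, Finset.sum_apply, smul_eq_mul]
    congr 1
    apply Finset.sum_congr rfl
    intro x _
    have hmem : x⁻¹ * (h : G) * x ∈ H := by
      have := hN.conj_mem h h.2 x⁻¹
      simpa using this
    rw [Helper2.extendByZero_of_mem H θ hmem, hθx]
    congr 1
    apply Subtype.ext
    simp
  have hfrob := Helper2.frobenius_reciprocity H θ (indFun H θ) (Helper2.indFun_isClassFunction H θ)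
  rw [hfrob, hres, Helper2.classInner_smul_right, Helper2.classInner_sum_right]
  have hterm : ∀ x : G, classInner θ (θx x⁻¹) = if (∀ h : H, θx x⁻¹ h = θ h) then 1 else 0 := by
    intro x
    have h1 : classInner θ (θx x⁻¹) =
        if (⟨θ, hθ⟩ : IrrCharacter H) = ⟨θx x⁻¹, hirr x⁻¹⟩ then 1 else 0 :=
      Helper2.classInner_irr_irr (⟨θ, hθ⟩ : IrrCharacter H) ⟨θx x⁻¹, hirr x⁻¹⟩
    by_cases hc : ∀ h : H, θx x⁻¹ h = θ h
    · rw [if_pos hc]
      have e : (⟨θ, hθ⟩ : IrrCharacter H) = ⟨θx x⁻¹, hirr x⁻¹⟩ :=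
        Subtype.ext (funext fun h => (hc h).symm)
      rw [h1, if_pos e]
    · rw [if_neg hc, h1, if_neg]
      intro e
      exact hc (fun h => (congrFun (congrArg Subtype.val e) h).symm)
  rw [Finset.sum_congr rfl (fun x _ => hterm x)]
  rw [map_inv₀, Complex.conj_natCast]
  rw [← mul_assoc, mul_inv_cancel₀ hHne, one_mul]
  rw [Fintype.sum_equiv (Equiv.inv G) (fun x => if (∀ h : H, θx x⁻¹ h = θ h) then (1:ℂ) else 0)
    (fun x => if (∀ h : H, θx x h = θ h) then (1:ℂ) else 0) (fun x => rfl)]
  rw [Helper2.sum_ite_const_eq_card, mul_one]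
  simp only [hθx]

end Cfsg.Agent.S0193
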