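import Cfsg.Statements.S0171
import Mathlib
import Cfsg.Agent.Helper2.CharExtra
import Cfsg.Agent.Helper1.Burnside
import Cfsg.Agent.S0193

set_option autoImplicit false
open Cfsg

namespace Cfsg.Agent.S0171

open scoped ComplexConjugate Pointwise

theorem frob_no_commute {G : Type*} [Group G] [Finite G] (K H : Subgroup G) [hKn : K.Normal]
    (hKH' : K ⊔ H = ⊤) (hfpf : ∀ h ∈ H, h ≠ 1 → ∀ k ∈ K, h * k = k * h → k = 1)
    (g : G) (hg : g ∉ K) (x : G) (hx : x ∈ K) (hc : g * x = x * g) : x = 1 := by
  have hgmem : g ∈ (K : Set G) * (H : Set G) := by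
    rw [← Subgroup.normal_mul, hKH']; exact Set.mem_univ g
  obtain ⟨k, hk, h, hh, rfl⟩ := Set.mem_mul.mp hgmem
  have hh1 : h ≠ 1 := by
    rintro rfl
    exact hg (by simpa using hk)
  let f : K → K := fun u =>
    ⟨u * (h * u * h⁻¹)⁻¹, K.mul_mem u.2 (K.inv_mem (hKn.conj_mem u u.2 h))⟩
  have hf : Function.Injective f := by
    intro u v huv
    have h1 : (u : G) * (h * u * h⁻¹)⁻¹ = v * (h * v * h⁻¹)⁻¹ := congrArg Subtype.val huv
    have h2 : h * ((v : G)⁻¹ * u) = ((v : G)⁻¹ * u) * h := by
      have : (u : G) * h * (u : G)⁻¹ = v * h * (v : G)⁻¹ := by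
        have e1 : (u : G) * (h * u * h⁻¹)⁻¹ = u * h * (u : G)⁻¹ * h⁻¹ := by group
        have e2 : (v : G) * (h * v * h⁻¹)⁻¹ = v * h * (v : G)⁻¹ * h⁻¹ := by group
        rw [e1, e2] at h1
        exact mul_right_cancel h1
      calc h * ((v : G)⁻¹ * u) = (v : G)⁻¹ * (v * h * (v : G)⁻¹) * u := by group
        _ = (v : G)⁻¹ * (u * h * (u : G)⁻¹) * u := by rw [this]
        _ = ((v : G)⁻¹ * u) * h := by group
    have h3 := hfpf h hh hh1 ((v : G)⁻¹ * u) (K.mul_mem (K.inv_mem v.2) u.2) h2
    apply Subtype.ext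
    exact (inv_mul_eq_one.mp h3).symm
  have hsurj : Function.Surjective f := Finite.injective_iff_surjective.mp hf
  obtain ⟨u, hu⟩ := hsurj ⟨k, hk⟩
  have hu' : (u : G) * (h * u * h⁻¹)⁻¹ = k := congrArg Subtype.val hu
  have hkh : k * h = u * h * (u : G)⁻¹ := by rw [← hu']; group
  rw [hkh] at hc
  have h4 : h * ((u : G)⁻¹ * x * u) = ((u : G)⁻¹ * x * u) * h := by
    calc h * ((u : G)⁻¹ * x * u) = (u : G)⁻¹ * ((u * h * (u : G)⁻¹) * x) * u := by group
      _ = (u : G)⁻¹ * (x * (u * h * (u : G)⁻¹)) * u := by rw [hc]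
      _ = ((u : G)⁻¹ * x * u) * h := by group
  have h5 := hfpf h hh hh1 ((u : G)⁻¹ * x * u) (by
    have := hKn.conj_mem x hx (u : G)⁻¹
    simpa using this) h4
  have h6 : x = u * ((u : G)⁻¹ * x * u) * (u : G)⁻¹ := by group
  rw [h6, h5]; group

/-- Let G = K H with K normal, K ⊓ H trivial, and no non-identity element of H commuting with a non-identity element of K (a Frobenius group with kernel K and complement H). Then every non-principal irreducible character of K induces to an irreducible character of G. -/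
theorem result {G : Type*} [Group G] [Fintype G] (K H : Subgroup G) [K.Normal] (hKH : K ⊓ H = ⊥) (hKH' : K ⊔ H = ⊤) (hfpf : ∀ h ∈ H, h ≠ 1 → ∀ k ∈ K, h * k = k * h → k = 1) (τ : K → ℂ) (hτ : Cfsg.IsIrrCharacter K τ) (hτ1 : τ ≠ fun _ => 1) : Cfsg.IsIrrCharacter G (Cfsg.indFun K τ) := by
  classical
  have hKn : K.Normal := inferInstance
  have hchar : IsCharacter G (indFun K τ) :=
    Helper2.isCharacter_indFun K (Helper2.isCharacter_of_isIrrCharacter hτ)
  apply Helper2.isIrrCharacter_of_classInner_self hchar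
  have h193 := Cfsg.Agent.S0193.result K τ hτ
  have hKne : (Nat.card K : ℂ) ≠ 0 := by exact_mod_cast Nat.card_pos.ne'
  have hstab : ∀ g : G, (∀ k : K, τ ⟨g * k * g⁻¹, hKn.conj_mem k k.2 g⟩ = τ k) ↔ g ∈ K := by
    intro g
    constructor
    · intro hfix
      by_contra hg
      have : Fintype K := Fintype.ofFinite K
      obtain ⟨α, hα⟩ : ∃ α : K ≃* K, ∀ k : K, ((α k : K) : G) = g * k * g⁻¹ :=
        ⟨MulAut.conjNormal g, fun k => by simp [MulAut.conjNormal_apply]⟩
      let π : IrrCharacter K → IrrCharacter K := fun χ =>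
        ⟨fun k => (χ : K → ℂ) (α k),
          Helper2.isIrrCharacter_comp_of_surjective α.toMonoidHom α.surjective χ.2⟩
      have hcount := Helper2.brauer_count (fun k : K => α k) π (fun χ k => rfl) (fun a b hab => by
        obtain ⟨u, hu⟩ := isConj_iff.mp hab
        exact isConj_iff.mpr ⟨α u, by rw [← hu]; simp⟩)
      have hsub : Subsingleton
          {C : ConjClasses K // IsConj (α (Quotient.out C)) (Quotient.out C)} := by
        have key : ∀ C : ConjClasses K, IsConj (α (Quotient.out C)) (Quotient.out C) →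
            C = ConjClasses.mk 1 := by
          intro C hC
          obtain ⟨c, hc⟩ := isConj_iff.mp hC
          have hc' : (c : G) * (g * (Quotient.out C : K) * g⁻¹) * (c : G)⁻¹ =
              (Quotient.out C : K) := by
            have := congrArg Subtype.val hc
            simpa [hα] using this
          have hx1 : ((Quotient.out C : K) : G) = 1 := by
            apply frob_no_commute K H hKH' hfpf (c * g) ?_ _ (Quotient.out C).2 ?_
            · intro hmem
              apply hg
              have := K.mul_mem (K.inv_mem c.2) hmem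
              simpa using this
            · calc (c : G) * g * (Quotient.out C : K)
                  = ((c : G) * (g * (Quotient.out C : K) * g⁻¹) * (c : G)⁻¹) * (c * g) := by group
                _ = (Quotient.out C : K) * (c * g) := by rw [hc']
          have hx1' : Quotient.out C = 1 := Subtype.ext hx1
          calc C = ConjClasses.mk (Quotient.out C) := (Quotient.out_eq C).symm
            _ = ConjClasses.mk 1 := by rw [hx1']
        constructor
        rintro ⟨C, hC⟩ ⟨D, hD⟩
        exact Subtype.ext ((key C hC).trans (key D hD).symm)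
      have hcard : Nat.card {χ : IrrCharacter K // π χ = χ} ≤ 1 := by
        rw [hcount]; exact Finite.card_le_one_iff_subsingleton.mpr hsub
      have hsub2 := Finite.card_le_one_iff_subsingleton.mp hcard
      have htriv : IsIrrCharacter K (fun _ => (1 : ℂ)) := Helper1.isIrrCharacter_one K
      have hfixτ : π ⟨τ, hτ⟩ = ⟨τ, hτ⟩ := by
        apply Subtype.ext
        funext k
        show τ (α k) = τ k
        rw [← hfix k]
        congr 1
        exact Subtype.ext (hα k)
      have e := Subsingleton.elim (⟨⟨τ, hτ⟩, hfixτ⟩ : {χ : IrrCharacter K // π χ = χ})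
        ⟨⟨fun _ => 1, htriv⟩, Subtype.ext rfl⟩
      exact hτ1 (congrArg (fun x => (x.1 : K → ℂ)) e)
    · intro hg k
      have := Helper25.char_isClassFunction (Helper2.isCharacter_of_isIrrCharacter hτ) k ⟨g, hg⟩
      exact this
  have hcard : Nat.card {g : G // ∀ k : K, τ ⟨g * k * g⁻¹, hKn.conj_mem k k.2 g⟩ = τ k} =
      Nat.card K :=
    Nat.card_congr (Equiv.subtypeEquivRight hstab)
  rw [hcard] at h193
  exact mul_left_cancel₀ hKne (by rw [h193, mul_one])

end Cfsg.Agent.S0171
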