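import Cfsg.Statements.S0172
import Mathlib
import Cfsg.Agent.Helper2.Frobenius

set_option autoImplicit false
open Cfsg

namespace Cfsg.Agent.S0172

/-- Class number of a Frobenius group: if G = K H with K normal, K ⊓ H trivial and no non-identity element of H commuting with a non-identity element of K, then |H| * k(G) + 1 = |H| * k(H) + k(K), where k denotes the number of conjugacy classes. -/
theorem result {G : Type*} [Group G] [Finite G] (K H : Subgroup G) [K.Normal] (hKH : K ⊓ H = ⊥) (hKH' : K ⊔ H = ⊤) (hfpf : ∀ h ∈ H, h ≠ 1 → ∀ k ∈ K, h * k = k * h → k = 1) : Nat.card H * Nat.card (ConjClasses G) + 1 = Nat.card H * Nat.card (ConjClasses H) + Nat.card (ConjClasses K) := by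
  classical
  have : Fintype G := Fintype.ofFinite G
  have : Fintype K := Fintype.ofFinite K
  have : Fintype H := Fintype.ofFinite H
  have hKn : K.Normal := inferInstance
  have hG := Helper2.sum_commute_card G
  have hK := Helper2.sum_commute_card K
  have hH := Helper2.sum_commute_card H
  have hinj : Function.Injective (fun p : K × H => (p.1 : G) * (p.2 : G)) := by
    rintro ⟨k, h⟩ ⟨k', h'⟩ heq
    obtain ⟨h1, h2⟩ := Helper2.frob_mul_injective K H hKH k.2 k'.2 h.2 h'.2 heq
    exact Prod.ext (Subtype.ext h1) (Subtype.ext h2)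
  have hsurj : Function.Surjective (fun p : K × H => (p.1 : G) * (p.2 : G)) := by
    intro g
    obtain ⟨k, hk, h, hh, rfl⟩ := Helper2.frob_exists_mul K H hKH' g
    exact ⟨(⟨k, hk⟩, ⟨h, hh⟩), rfl⟩
  let e : K × H ≃ G := Equiv.ofBijective _ ⟨hinj, hsurj⟩
  have hcardG : Nat.card G = Nat.card K * Nat.card H := by
    rw [← Nat.card_congr e, Nat.card_prod]
  have hF2 : ∀ k : K, k ≠ 1 →
      Nat.card {b : G // (k : G) * b = b * k} = Nat.card {y : K // k * y = y * k} := by
    intro k hk1
    have hmem : ∀ b : {b : G // (k : G) * b = b * k}, b.1 ∈ K := by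
      intro b
      by_contra hb
      exact hk1 (Subtype.ext (Helper2.frob_not_commute K H hKH' hfpf b.1 hb k k.2 b.2.symm))
    exact Nat.card_congr
      { toFun := fun b => ⟨⟨b.1, hmem b⟩, Subtype.ext b.2⟩
        invFun := fun y => ⟨(y.1 : G), congrArg Subtype.val y.2⟩
        left_inv := fun b => rfl
        right_inv := fun y => rfl }
  have hF3 : ∀ (k : K) (h : H), h ≠ 1 →
      Nat.card {b : G // ((k : G) * h) * b = b * ((k : G) * h)} =
        Nat.card {y : H // h * y = y * h} := by
    intro k h hh1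
    have hh1' : (h : G) ≠ 1 := fun hc => hh1 (Subtype.ext hc)
    obtain ⟨u, huK, hu⟩ := Helper2.frob_conj K H hfpf k h k.2 h.2 hh1'
    rw [hu]
    have hmem : ∀ b : {b : G // (u * h * u⁻¹) * b = b * (u * h * u⁻¹)}, u⁻¹ * b.1 * u ∈ H := by
      intro b
      apply Helper2.frob_centralizer_compl K H hKH hKH' hfpf (u⁻¹ * b.1 * u) h h.2 hh1'
      calc u⁻¹ * b.1 * u * h = u⁻¹ * (b.1 * (u * h * u⁻¹)) * u := by group
        _ = u⁻¹ * ((u * h * u⁻¹) * b.1) * u := by rw [b.2]
        _ = h * (u⁻¹ * b.1 * u) := by group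
    exact Nat.card_congr
      { toFun := fun b => ⟨⟨u⁻¹ * b.1 * u, hmem b⟩, Subtype.ext (by
          show (h : G) * (u⁻¹ * b.1 * u) = (u⁻¹ * b.1 * u) * h
          calc (h : G) * (u⁻¹ * b.1 * u) = u⁻¹ * ((u * h * u⁻¹) * b.1) * u := by group
            _ = u⁻¹ * (b.1 * (u * h * u⁻¹)) * u := by rw [b.2]
            _ = (u⁻¹ * b.1 * u) * h := by group)⟩
        invFun := fun y => ⟨u * (y.1 : G) * u⁻¹, by
          have hy : (h : G) * (y.1 : G) = (y.1 : G) * h := congrArg Subtype.val y.2
          calc (u * h * u⁻¹) * (u * (y.1 : G) * u⁻¹) = u * ((h : G) * (y.1 : G)) * u⁻¹ := by group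
            _ = u * ((y.1 : G) * h) * u⁻¹ := by rw [hy]
            _ = (u * (y.1 : G) * u⁻¹) * (u * h * u⁻¹) := by group⟩
        left_inv := fun b => Subtype.ext (by
          show u * (u⁻¹ * b.1 * u) * u⁻¹ = b.1
          group)
        right_inv := fun y => Subtype.ext (Subtype.ext (by
          show u⁻¹ * (u * (y.1 : G) * u⁻¹) * u = (y.1 : G)
          group)) }
  have honeG : Nat.card {b : G // (1 : G) * b = b * 1} = Nat.card G :=
    Nat.card_congr (Equiv.subtypeUnivEquiv (fun b => by simp))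
  have honeK : Nat.card {b : K // (1 : K) * b = b * 1} = Nat.card K :=
    Nat.card_congr (Equiv.subtypeUnivEquiv (fun b => by simp))
  have honeH : Nat.card {b : H // (1 : H) * b = b * 1} = Nat.card H :=
    Nat.card_congr (Equiv.subtypeUnivEquiv (fun b => by simp))
  -- abbreviations
  obtain ⟨SK, hSK⟩ : ∃ SK : ℕ, SK = ∑ k ∈ Finset.univ.erase (1 : K),
      Nat.card {y : K // k * y = y * k} := ⟨_, rfl⟩
  obtain ⟨SH, hSH⟩ : ∃ SH : ℕ, SH = ∑ h ∈ Finset.univ.erase (1 : H),
      Nat.card {y : H // h * y = y * h} := ⟨_, rfl⟩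
  have hK' : Nat.card K + SK = Nat.card (ConjClasses K) * Nat.card K := by
    rw [← hK, ← Finset.add_sum_erase _ _ (Finset.mem_univ (1 : K)), honeK, hSK]
  have hH' : Nat.card H + SH = Nat.card (ConjClasses H) * Nat.card H := by
    rw [← hH, ← Finset.add_sum_erase _ _ (Finset.mem_univ (1 : H)), honeH, hSH]
  have hA : ∑ g : G, Nat.card {b : G // g * b = b * g} =
      Nat.card G + SK + Nat.card K * SH := by
    have h1 : ∑ g : G, Nat.card {b : G // g * b = b * g} =
        ∑ k : K, ∑ h : H, Nat.card {b : G // ((k : G) * h) * b = b * ((k : G) * h)} := by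
      rw [← Fintype.sum_prod_type']
      exact (Fintype.sum_equiv e _ _ (fun p => rfl)).symm
    have h2 : ∀ k : K, ∑ h : H, Nat.card {b : G // ((k : G) * h) * b = b * ((k : G) * h)} =
        Nat.card {b : G // (k : G) * b = b * k} + SH := by
      intro k
      rw [← Finset.add_sum_erase _ _ (Finset.mem_univ (1 : H)), hSH]
      congr 1
      · simp
      · apply Finset.sum_congr rfl
        intro h hh
        exact hF3 k h (Finset.ne_of_mem_erase hh)
    rw [h1, Finset.sum_congr rfl (fun k _ => h2 k), Finset.sum_add_distrib, Finset.sum_const,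
      Finset.card_univ, smul_eq_mul, ← Nat.card_eq_fintype_card,
      ← Finset.add_sum_erase _ _ (Finset.mem_univ (1 : K))]
    have h3 : ∑ k ∈ Finset.univ.erase (1 : K), Nat.card {b : G // (k : G) * b = b * k} = SK := by
      rw [hSK]
      apply Finset.sum_congr rfl
      intro k hk
      exact hF2 k (Finset.ne_of_mem_erase hk)
    rw [h3]
    have h4 : Nat.card {b : G // ((1 : K) : G) * b = b * ((1 : K) : G)} = Nat.card G := by
      rw [← honeG]; rfl
    rw [h4]
  rw [hA] at hG
  have hKpos : 0 < Nat.card K := Nat.card_pos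
  apply Nat.eq_of_mul_eq_mul_left hKpos
  zify at hG hK' hH' hcardG ⊢
  linear_combination (1 - (Nat.card (ConjClasses G) : ℤ)) * hcardG - hG + (Nat.card K : ℤ) * hH' + hK'

end Cfsg.Agent.S0172
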