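import Cfsg.Statements.S0173
import Mathlib
import Cfsg.Agent.Helper2.CharExtra

set_option autoImplicit false
open Cfsg

namespace Cfsg.Agent.S0173

open scoped ComplexConjugate

/-- Brauer's permutation lemma for a single automorphism: the number of conjugacy classes mapped to themselves equals the number of irreducible complex characters χ with χ ∘ α = χ. -/
theorem result {G : Type*} [Group G] [Finite G] (α : G ≃* G) : Nat.card {C : ConjClasses G // ConjClasses.map α.toMonoidHom C = C} = Nat.card {χ : Cfsg.IrrCharacter G // (χ : G → ℂ) ∘ α = (χ : G → ℂ)} := by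
  classical
  have : Fintype G := Fintype.ofFinite G
  let π : IrrCharacter G → IrrCharacter G := fun χ =>
    ⟨fun g => (χ : G → ℂ) (α g),
      Helper2.isIrrCharacter_comp_of_surjective α.toMonoidHom α.surjective χ.2⟩
  have hcount := Helper2.brauer_count (fun g : G => α g) π
    (fun χ g => rfl)
    (fun g h hgh => by
      obtain ⟨u, hu⟩ := isConj_iff.mp hgh
      exact isConj_iff.mpr ⟨α u, by rw [← hu]; simp⟩)
  have e1 : {χ : IrrCharacter G // (χ : G → ℂ) ∘ α = (χ : G → ℂ)} ≃
      {χ : IrrCharacter G // π χ = χ} := Equiv.subtypeEquivRight (fun χ => by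
    constructor
    · intro h
      exact Subtype.ext h
    · intro h
      exact congrArg Subtype.val h)
  have e2 : {C : ConjClasses G // ConjClasses.map α.toMonoidHom C = C} ≃
      {C : ConjClasses G // IsConj (α (Quotient.out C)) (Quotient.out C)} :=
    Equiv.subtypeEquivRight (fun C => by
    have key : ∀ x : G, ConjClasses.mk x = C →
        (ConjClasses.map α.toMonoidHom C = C ↔ IsConj (α x) x) := by
      rintro x rfl
      rw [show ConjClasses.map α.toMonoidHom (ConjClasses.mk x) = ConjClasses.mk (α x) from rfl,
        ConjClasses.mk_eq_mk_iff_isConj]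
    exact key _ (Quotient.out_eq C))
  rw [Nat.card_congr e1, Nat.card_congr e2]
  exact hcount.symm

end Cfsg.Agent.S0173
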