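import Cfsg.Statements.S0174
import Mathlib
import Cfsg.Agent.Helper2.IndNormal

set_option autoImplicit false
open Cfsg

namespace Cfsg.Agent.S0174

open scoped ComplexConjugate

/-- The Clifford Theorem for characters: if θ is an irreducible character of a finite group G, N is a normal subgroup and χ is an irreducible character of N occurring in the restriction of θ, then θ restricted to N equals e times the sum of the distinct G-conjugates of χ, where e is the inner product of the restriction with χ. -/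
theorem result {G : Type*} [Group G] [Fintype G] (N : Subgroup G) [Fintype N] (hN : N.Normal) (θ : G → ℂ) (hθ : Cfsg.IsIrrCharacter G θ) (χ : N → ℂ) (hχ : Cfsg.IsIrrCharacter N χ) (hconst : Cfsg.classInner (fun n : N => θ n) χ ≠ 0) : (fun n : N => θ n) = Cfsg.classInner (fun n : N => θ n) χ • ∑ᶠ ψ ∈ {ψ : N → ℂ | ∃ g : G, ψ = fun n : N => χ ⟨g * n * g⁻¹, hN.conj_mem n n.2 g⟩}, ψ := by
  classical
  haveI := hN
  have hSmem : ∀ ψ : N → ℂ, ψ ∈ {ψ : N → ℂ | ∃ g : G, ψ = fun n : N =>
      χ ⟨g * n * g⁻¹, hN.conj_mem n n.2 g⟩} ↔ ∃ g : G, ψ = Helper2.conjChar N χ g :=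
    fun ψ => Iff.rfl
  generalize {ψ : N → ℂ | ∃ g : G, ψ = fun n : N =>
      χ ⟨g * n * g⁻¹, hN.conj_mem n n.2 g⟩} = S at hSmem ⊢
  have hθchar : IsCharacter G θ := Helper2.isCharacter_of_isIrrCharacter hθ
  have hθcl : IsClassFunction G θ := Helper2.isClassFunction_of_isCharacter hθchar
  obtain ⟨θN, hθN⟩ : ∃ θN : N → ℂ, θN = fun n : N => θ n := ⟨_, rfl⟩
  rw [← hθN] at hconst ⊢
  have hθNchar : IsCharacter N θN := by
    rw [hθN]; exact Helper2.isCharacter_restrict N hθchar
  have hθNcl : IsClassFunction N θN := Helper2.isClassFunction_of_isCharacter hθNchar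
  have hθNconj : ∀ g : G, Helper2.conjChar N θN g = θN := by
    intro g
    funext n
    rw [hθN]
    exact hθcl n g
  have h_i : ∀ g : G, classInner θN (Helper2.conjChar N χ g) = classInner θN χ := by
    intro g
    have := Helper2.classInner_conjChar N θN χ g
    rw [hθNconj] at this
    exact this
  have h_ii : ∀ ξ : IrrCharacter N, (ξ : N → ℂ) ∉ S → classInner θN (ξ : N → ℂ) = 0 := by
    intro ξ hξ
    have hind_char : IsCharacter G (indFun N χ) :=
      Helper2.isCharacter_indFun N (Helper2.isCharacter_of_isIrrCharacter hχ)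
    have hind_cl := Helper2.indFun_isClassFunction N χ
    have hc : ∀ ζ : IrrCharacter G, ∃ c : ℕ, classInner (indFun N χ) (ζ : G → ℂ) = c :=
      fun ζ => Helper2.classInner_char_nat hind_char (Helper2.isCharacter_of_isIrrCharacter ζ.2)
    choose c hc using hc
    have hm : ∀ ζ : IrrCharacter G, ∃ m : ℕ,
        classInner (fun n : N => (ζ : G → ℂ) n) (ξ : N → ℂ) = m :=
      fun ζ => Helper2.classInner_char_nat
        (Helper2.isCharacter_restrict N (Helper2.isCharacter_of_isIrrCharacter ζ.2))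
        (Helper2.isCharacter_of_isIrrCharacter ξ.2)
    choose m hm using hm
    have hdecomp : indFun N χ = ∑ ζ : IrrCharacter G, (c ζ : ℂ) • (ζ : G → ℂ) := by
      conv_lhs => rw [Helper2.classFun_eq_sum_classInner hind_cl]
      exact Finset.sum_congr rfl (fun ζ _ => by rw [hc ζ])
    have hres : (fun n : N => indFun N χ n) =
        ∑ ζ : IrrCharacter G, (c ζ : ℂ) • (fun n : N => (ζ : G → ℂ) n) := by
      funext n
      rw [hdecomp]
      simp only [Finset.sum_apply, Pi.smul_apply]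
    have h1 : classInner (fun n : N => indFun N χ n) (ξ : N → ℂ) =
        ((∑ ζ : IrrCharacter G, c ζ * m ζ : ℕ) : ℂ) := by
      rw [hres, Helper2.classInner_sum_left]
      push_cast
      apply Finset.sum_congr rfl
      intro ζ _
      rw [Helper2.classInner_smul_left, hm ζ]
    have h2 : classInner (fun n : N => indFun N χ n) (ξ : N → ℂ) = 0 := by
      rw [Helper2.indFun_restrict_normal, Helper2.classInner_smul_left,
        Helper2.classInner_sum_left]
      have : ∀ x : G, classInner (Helper2.conjChar N χ x⁻¹) (ξ : N → ℂ) = 0 := by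
        intro x
        rw [Helper2.classInner_conj_symm (ξ : N → ℂ) (Helper2.conjChar N χ x⁻¹)]
        rw [Helper2.classInner_irr_conjChar N hχ ξ.2 x⁻¹, if_neg, map_zero]
        intro h
        exact hξ ((hSmem _).mpr ⟨x⁻¹, h⟩)
      rw [Finset.sum_congr rfl (fun x _ => this x)]
      simp
    rw [h2] at h1
    have h3 : ∑ ζ : IrrCharacter G, c ζ * m ζ = 0 := by exact_mod_cast h1.symm
    have h4 := (Finset.sum_eq_zero_iff.mp h3) ⟨θ, hθ⟩ (Finset.mem_univ _)
    have hcθ : c ⟨θ, hθ⟩ ≠ 0 := by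
      intro h0
      have hfr : classInner (indFun N χ) θ = (c ⟨θ, hθ⟩ : ℂ) := hc ⟨θ, hθ⟩
      rw [Helper2.frobenius_reciprocity N χ θ hθcl, h0, ← hθN] at hfr
      apply hconst
      rw [Helper2.classInner_conj_symm χ θN, hfr]
      simp
    have hmθ : m ⟨θ, hθ⟩ = 0 := by
      rcases Nat.mul_eq_zero.mp h4 with h | h
      · exact absurd h hcθ
      · exact h
    have hfin : classInner (fun n : N => θ n) (ξ : N → ℂ) = (m ⟨θ, hθ⟩ : ℂ) := hm ⟨θ, hθ⟩
    rw [hmθ, ← hθN] at hfin
    simpa using hfin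
  have hLHS := Helper2.classFun_eq_sum_classInner hθNcl
  have hRHS : ∑ᶠ ψ ∈ S, ψ =
      ∑ ξ : IrrCharacter N, (if (ξ : N → ℂ) ∈ S then (ξ : N → ℂ) else 0) := by
    have himg : (Subtype.val : IrrCharacter N → (N → ℂ)) '' {ξ : IrrCharacter N | (ξ : N → ℂ) ∈ S}
        = S := by
      ext ψ
      constructor
      · rintro ⟨ξ, hξ, rfl⟩
        exact hξ
      · intro hψ
        obtain ⟨g, rfl⟩ := (hSmem ψ).mp hψ
        exact ⟨⟨_, Helper2.isIrrCharacter_conjChar N hχ g⟩, hψ, rfl⟩
    calc ∑ᶠ ψ ∈ S, ψ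
        = ∑ᶠ ψ ∈ ((Subtype.val : IrrCharacter N → (N → ℂ)) ''
            {ξ : IrrCharacter N | (ξ : N → ℂ) ∈ S}), ψ := by rw [himg]
      _ = ∑ᶠ ξ ∈ {ξ : IrrCharacter N | (ξ : N → ℂ) ∈ S}, (ξ : N → ℂ) :=
          finsum_mem_image (Subtype.val_injective.injOn)
      _ = ∑ ξ : IrrCharacter N, (if (ξ : N → ℂ) ∈ S then (ξ : N → ℂ) else 0) := by
          rw [finsum_mem_def, finsum_eq_sum_of_fintype]
          apply Finset.sum_congr rfl
          intro ξ _
          rw [Set.indicator_apply]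
          rfl
  rw [hRHS, Finset.smul_sum]
  conv_lhs => rw [hLHS]
  apply Finset.sum_congr rfl
  intro ξ _
  by_cases hξ : (ξ : N → ℂ) ∈ S
  · rw [if_pos hξ]
    obtain ⟨g, hg⟩ := (hSmem _).mp hξ
    rw [hg, h_i g]
  · rw [if_neg hξ, h_ii ξ hξ, zero_smul, smul_zero]

end Cfsg.Agent.S0174
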