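import Cfsg.Statements.S0175
import Mathlib
import Cfsg.Agent.Helper2.CharExtra
import Cfsg.Agent.Helper2.Ind
import Cfsg.Agent.Helper2.IndExtra
import Cfsg.Agent.Helper25.CharKer
import Cfsg.Agent.Helper25.CharClass

set_option autoImplicit false
open Cfsg

namespace Cfsg.Agent.S0175

open Cfsg.Agent
open scoped commutatorElement

/-- Taketa's Theorem on M-groups: if every irreducible complex character of a finite group is induced from a linear character (a homomorphism to ℂˣ) of some subgroup, the group is solvable. -/
theorem result {G : Type*} [Group G] [Fintype G] (hM : ∀ χ : G → ℂ, Cfsg.IsIrrCharacter G χ → ∃ (H : Subgroup G) (lam : H →* ℂˣ), χ = Cfsg.indFun H (fun h => (lam h : ℂ))) : Group.IsSolvable G := by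
  classical
  have key : ∀ d : ℕ, ∃ j : ℕ, ∀ χ : IrrCharacter G, charDegree (χ : G → ℂ) ≤ d →
      derivedSeries G j ≤ Helper25.irrKer χ := by
    intro d
    induction d with
    | zero =>
      refine ⟨0, fun χ hχ => ?_⟩
      have := Helper25.irr_degree_pos χ
      omega
    | succ d ih =>
      obtain ⟨j, hj⟩ := ih
      refine ⟨j + 1, fun χ hχ => ?_⟩
      by_cases hle : charDegree (χ : G → ℂ) ≤ d
      · exact (derivedSeries_antitone G (Nat.le_succ j)).trans (hj χ hle)
      have hdeg : charDegree (χ : G → ℂ) = d + 1 := by omega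
      obtain ⟨H, lam, hχH⟩ := hM χ χ.2
      have hidx : H.index = d + 1 := by
        have h1 : (χ : G → ℂ) 1 = ((d + 1 : ℕ) : ℂ) := by
          rw [Helper25.irr_one_eq_degree, hdeg]
        have h2 : (χ : G → ℂ) 1 = (H.index : ℂ) := by
          rw [hχH, Helper2.indFun_one_apply, map_one, Units.val_one, mul_one]
        exact_mod_cast h2.symm.trans h1
      have hπc : IsCharacter G (indFun H (fun _ => (1 : ℂ))) :=
        Helper2.isCharacter_indFun H Helper2.isCharacter_one
      have hdec := Helper2.classFun_eq_sum_classInner
        (Helper2.isClassFunction_of_isCharacter hπc)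
      have hnat : ∀ ψ : IrrCharacter G, ∃ m : ℕ,
          classInner (indFun H (fun _ => (1 : ℂ))) (ψ : G → ℂ) = (m : ℂ) :=
        fun ψ => Helper2.classInner_char_nat hπc (Helper25.irr_isCharacter ψ)
      choose m hm using hnat
      have hHne : (Nat.card H : ℂ) ≠ 0 := Nat.cast_ne_zero.mpr Nat.card_pos.ne'
      have hm1 : m (Helper25.trivChar G) = 1 := by
        have h1 := Helper2.frobenius_reciprocity H (fun _ => (1 : ℂ))
          (Helper25.trivChar G : G → ℂ)
          (Helper2.isClassFunction_of_isCharacter (Helper25.irr_isCharacter _))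
        have h2 : classInner (fun _ : H => (1 : ℂ))
            (fun h : H => (Helper25.trivChar G : G → ℂ) h) = 1 := by
          unfold classInner
          simp only [Helper25.trivChar_apply, map_one, mul_one, Finset.sum_const,
            Finset.card_univ, nsmul_eq_mul]
          rw [Nat.card_eq_fintype_card] at hHne ⊢
          field_simp
        have h3 : (m (Helper25.trivChar G) : ℂ) = 1 := by
          rw [← hm, h1, h2]
        exact_mod_cast h3
      have hsum : ∑ ψ : IrrCharacter G, m ψ * charDegree (ψ : G → ℂ) = d + 1 := by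
        have h1 := congrFun hdec 1
        rw [Finset.sum_apply] at h1
        simp only [Pi.smul_apply, smul_eq_mul, hm, Helper25.irr_one_eq_degree] at h1
        have h2 : indFun H (fun _ => (1 : ℂ)) 1 = ((d + 1 : ℕ) : ℂ) := by
          rw [Helper2.indFun_one_apply, hidx]
          simp
        rw [h2] at h1
        exact_mod_cast h1.symm
      have hA : ∀ ψ : IrrCharacter G, m ψ ≠ 0 → derivedSeries G j ≤ Helper25.irrKer ψ := by
        intro ψ hψ
        by_cases ht : ψ = Helper25.trivChar G
        · subst ht
          intro g _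
          rw [Helper25.mem_irrKer]
          rfl
        · apply hj
          have h1 : m (Helper25.trivChar G) * charDegree (Helper25.trivChar G : G → ℂ)
              + m ψ * charDegree (ψ : G → ℂ)
              ≤ ∑ φ : IrrCharacter G, m φ * charDegree (φ : G → ℂ) := by
            have h := Finset.sum_le_sum_of_subset
              (f := fun φ : IrrCharacter G => m φ * charDegree (φ : G → ℂ))
              (Finset.subset_univ {Helper25.trivChar G, ψ})
            rw [Finset.sum_pair (Ne.symm ht)] at h
            exact h
          rw [hsum, hm1, Helper25.charDegree_trivChar] at h1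
          have h2 : 1 ≤ m ψ := Nat.one_le_iff_ne_zero.mpr hψ
          have h3 : charDegree (ψ : G → ℂ) ≤ m ψ * charDegree (ψ : G → ℂ) :=
            Nat.le_mul_of_pos_left _ h2
          omega
      have hB : ∀ g ∈ derivedSeries G j,
          indFun H (fun _ => (1 : ℂ)) g = indFun H (fun _ => (1 : ℂ)) 1 := by
        intro g hg
        have h1 := congrFun hdec g
        have h2 := congrFun hdec 1
        rw [Finset.sum_apply] at h1 h2
        rw [h1, h2]
        apply Finset.sum_congr rfl
        intro ψ _
        simp only [Pi.smul_apply, smul_eq_mul]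
        by_cases h0 : m ψ = 0
        · rw [hm, h0]
          simp
        · rw [(Helper25.mem_irrKer ψ g).mp (hA ψ h0 hg)]
      have hC : derivedSeries G j ≤ H := by
        intro g hg
        have h1 := hB g hg
        rw [Helper2.indFun_apply, Helper2.indFun_apply] at h1
        have h2 : ∑ x : G, extendByZero H (fun _ => (1 : ℂ)) (x⁻¹ * g * x)
            = ∑ x : G, extendByZero H (fun _ => (1 : ℂ)) (x⁻¹ * 1 * x) :=
          mul_left_cancel₀ (inv_ne_zero hHne) h1
        have e1 : ∀ y : G, extendByZero H (fun _ => (1 : ℂ)) y = if y ∈ H then 1 else 0 := by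
          intro y
          by_cases hy : y ∈ H
          · rw [Helper2.extendByZero_of_mem H _ hy, if_pos hy]
          · rw [Helper2.extendByZero_of_not_mem H _ hy, if_neg hy]
        simp only [e1, mul_one, inv_mul_cancel, one_mem, if_true] at h2
        rw [Finset.sum_boole] at h2
        simp only [Finset.sum_const, Finset.card_univ, nsmul_eq_mul, mul_one] at h2
        have h3 : (Finset.univ.filter (fun x : G => x⁻¹ * g * x ∈ H)).card = Fintype.card G := by
          exact_mod_cast h2
        have h4 : Finset.univ.filter (fun x : G => x⁻¹ * g * x ∈ H) = Finset.univ :=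
          Finset.eq_univ_of_card _ h3
        have h5 : (1 : G) ∈ Finset.univ.filter (fun x : G => x⁻¹ * g * x ∈ H) := by
          rw [h4]; exact Finset.mem_univ _
        simpa using (Finset.mem_filter.mp h5).2
      have hD : derivedSeries G (j + 1) ≤ (lam.ker).map H.subtype := by
        rw [derivedSeries_succ, Subgroup.commutator_le]
        intro a ha b hb
        refine ⟨⁅(⟨a, hC ha⟩ : H), (⟨b, hC hb⟩ : H)⁆, ?_, rfl⟩
        rw [SetLike.mem_coe, MonoidHom.mem_ker, map_commutatorElement]
        exact commutatorElement_eq_one_iff_commute.mpr (Commute.all _ _)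
      intro g hg
      rw [Helper25.mem_irrKer, hχH, Helper2.indFun_apply, Helper2.indFun_apply]
      congr 1
      apply Finset.sum_congr rfl
      intro x _
      have hx : x⁻¹ * g * x ∈ (lam.ker).map H.subtype := hD (by
        have h := (derivedSeries_normal G (j + 1)).conj_mem g hg x⁻¹
        simpa using h)
      obtain ⟨y, hy, hyx⟩ := hx
      rw [← hyx, mul_one, inv_mul_cancel]
      have e2 : extendByZero H (fun h => ((lam h : ℂˣ) : ℂ)) (H.subtype y)
          = ((lam y : ℂˣ) : ℂ) := Helper2.extendByZero_coe H _ y
      have e3 : extendByZero H (fun h => ((lam h : ℂˣ) : ℂ)) (1 : G)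
          = ((lam 1 : ℂˣ) : ℂ) := Helper2.extendByZero_coe H _ 1
      rw [e2, e3, MonoidHom.mem_ker.mp hy, map_one]
  obtain ⟨j, hj⟩ := key (Finset.univ.sup (fun χ : IrrCharacter G => charDegree (χ : G → ℂ)))
  rw [Group.isSolvable_def]
  refine ⟨j, ?_⟩
  rw [eq_bot_iff]
  intro g hg
  rw [Subgroup.mem_bot]
  have h1 : ∀ χ : IrrCharacter G, (χ : G → ℂ) g = (χ : G → ℂ) 1 := fun χ =>
    (Helper25.mem_irrKer χ g).mp (hj χ (Finset.le_sup
      (f := fun χ : IrrCharacter G => charDegree (χ : G → ℂ)) (Finset.mem_univ χ)) hg)
  have h2 := Helper25.isConj_of_forall_irr_eq h1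
  exact isConj_one_left.mp h2

end Cfsg.Agent.S0175
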