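import Cfsg.Statements.S0177
import Mathlib
import Cfsg.Agent.Helper2.Artin

set_option autoImplicit false
open Cfsg

namespace Cfsg.Agent.S0177

open scoped ComplexConjugate

/-- `F` is an integer combination of functions induced from linear characters of cyclic
subgroups. -/
def IsArtinComb {G : Type*} [Group G] [Fintype G] (F : G → ℂ) : Prop :=
  ∃ l : List ((A : Subgroup G) × ((A →* ℂˣ) × ℤ)), (∀ t ∈ l, IsCyclic t.1) ∧
    F = (l.map fun t => (t.2.2 : ℂ) • Cfsg.indFun t.1 (fun a => (t.2.1 a : ℂ))).sum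

theorem isArtinComb_zero {G : Type*} [Group G] [Fintype G] : IsArtinComb (0 : G → ℂ) :=
  ⟨[], by simp, by simp⟩

theorem isArtinComb_add {G : Type*} [Group G] [Fintype G] {F₁ F₂ : G → ℂ}
    (h₁ : IsArtinComb F₁) (h₂ : IsArtinComb F₂) : IsArtinComb (F₁ + F₂) := by
  obtain ⟨l₁, h₁, rfl⟩ := h₁
  obtain ⟨l₂, h₂, rfl⟩ := h₂
  refine ⟨l₁ ++ l₂, ?_, ?_⟩
  · intro t ht
    rcases List.mem_append.mp ht with h | h
    · exact h₁ t h
    · exact h₂ t h
  · rw [List.map_append, List.sum_append]

theorem isArtinComb_sum {G : Type*} [Group G] [Fintype G] {ι : Type*} (s : Finset ι)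
    (F : ι → G → ℂ) (h : ∀ i ∈ s, IsArtinComb (F i)) : IsArtinComb (∑ i ∈ s, F i) := by
  classical
  induction s using Finset.induction_on with
  | empty => simpa using isArtinComb_zero
  | insert a s ha ih =>
    rw [Finset.sum_insert ha]
    exact isArtinComb_add (h a (Finset.mem_insert_self a s))
      (ih fun i hi => h i (Finset.mem_insert_of_mem hi))

theorem isArtinComb_single {G : Type*} [Group G] [Fintype G] (A : Subgroup G) (hA : IsCyclic A)
    (lam : A →* ℂˣ) (m : ℤ) :
    IsArtinComb ((m : ℂ) • Cfsg.indFun A (fun a => (lam a : ℂ))) := by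
  refine ⟨[⟨A, (lam, m)⟩], ?_, ?_⟩
  · intro t ht
    rw [List.mem_singleton] at ht
    rw [ht]; exact hA
  · simp

theorem isArtinComb_of_gen {G : Type*} [Group G] [Fintype G] (A : Subgroup G) (hA : IsCyclic A)
    (φ : A → ℂ) (hφ : IsGeneralizedCharacter A φ) : IsArtinComb (Cfsg.indFun A φ) := by
  classical
  have : Fintype A := Fintype.ofFinite A
  obtain ⟨hcl, hm⟩ := Helper2.isGeneralizedCharacter_iff.mp hφ
  choose m hm using hm
  have hcomm : ∀ a b : A, a * b = b * a := by
    intro a b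
    obtain ⟨g, hg⟩ := hA.exists_generator
    obtain ⟨i, hi⟩ := Subgroup.mem_zpowers_iff.mp (hg a)
    obtain ⟨j, hj⟩ := Subgroup.mem_zpowers_iff.mp (hg b)
    rw [← hi, ← hj, ← zpow_add, ← zpow_add, add_comm]
  have hlam : ∀ ξ : IrrCharacter A, ∃ lam : A →* ℂˣ, (ξ : A → ℂ) = fun b => (lam b : ℂ) :=
    Helper2.exists_hom_of_irr_of_comm hcomm
  choose lam hlam using hlam
  have key : Cfsg.indFun A φ =
      ∑ ξ : IrrCharacter A, (m ξ : ℂ) • Cfsg.indFun A (fun a => (lam ξ a : ℂ)) := by
    conv_lhs => rw [Helper2.classFun_eq_sum_classInner hcl]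
    rw [Helper2.indFun_sum]
    apply Finset.sum_congr rfl
    intro ξ _
    rw [Helper2.indFun_smul, hm ξ, ← hlam ξ]
  rw [key]
  exact isArtinComb_sum _ _ (fun ξ _ => isArtinComb_single A hA (lam ξ) (m ξ))

/-- The Artin induction Theorem: for a character χ of a finite group, |G| • χ is a ℤ-linear combination of functions induced from homomorphisms of cyclic subgroups into ℂˣ. -/
theorem result {G : Type*} [Group G] [Fintype G] (χ : G → ℂ) (hχ : Cfsg.IsCharacter G χ) : ∃ l : List ((A : Subgroup G) × ((A →* ℂˣ) × ℤ)), (∀ t ∈ l, IsCyclic t.1) ∧ (Nat.card G : ℂ) • χ = (l.map fun t => (t.2.2 : ℂ) • Cfsg.indFun t.1 (fun a => (t.2.1 a : ℂ))).sum := by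
  classical
  have : Fintype (Subgroup G) := Fintype.ofFinite _
  have hcl := Helper2.isClassFunction_of_isCharacter hχ
  have key := Helper2.artin_identity χ hcl
  show IsArtinComb ((Nat.card G : ℂ) • χ)
  rw [key]
  apply isArtinComb_sum
  intro B _
  by_cases hB : IsCyclic B
  · apply isArtinComb_of_gen B hB
    exact Helper2.isGeneralizedCharacter_mul_char (Helper2.isGeneralizedCharacter_genFun B)
      (Helper2.isCharacter_restrict B hχ)
  · rw [Helper2.genFun_eq_zero_of_not_isCyclic B hB, zero_mul, Helper2.indFun_zero]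
    exact isArtinComb_zero

end Cfsg.Agent.S0177
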