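import Cfsg.Statements.S0178
import Mathlib

set_option autoImplicit false
open Cfsg

namespace Cfsg.Agent.S0178

/-- a common eigenvector for a commuting family of operators stabilising nothing smaller -/
theorem exists_common_eigenvector {G : Type*} [Group G] {V : Type*} [AddCommGroup V]
    [Module ℂ V] [FiniteDimensional ℂ V] [Nontrivial V] (ρ : Representation ℂ G V)
    (A : Subgroup G) (hA : ∀ a ∈ A, ∀ b ∈ A, a * b = b * a) :
    ∃ v : V, v ≠ 0 ∧ ∀ a ∈ A, ∃ μ : ℂ, ρ a v = μ • v := by
  classical
  let S : Set (Submodule ℂ V) := {W | W ≠ ⊥ ∧ ∀ a ∈ A, ∀ w ∈ W, ρ a w ∈ W}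
  have hSne : S.Nonempty := ⟨⊤, top_ne_bot, fun _ _ _ _ => Submodule.mem_top⟩
  obtain ⟨W, hWS, hWmin⟩ :=
    WellFounded.has_min (measure (fun W : Submodule ℂ V => Module.finrank ℂ W)).wf S hSne
  obtain ⟨hWne, hWinv⟩ := hWS
  have hscalar : ∀ a ∈ A, ∃ μ : ℂ, ∀ w ∈ W, ρ a w = μ • w := by
    intro a ha
    haveI : Nontrivial W := Submodule.nontrivial_iff_ne_bot.mpr hWne
    let f : Module.End ℂ W := (ρ a).restrict (hWinv a ha)
    obtain ⟨μ, hμ⟩ := Module.End.exists_eigenvalue f
    obtain ⟨w0, hw0⟩ := hμ.exists_hasEigenvector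
    refine ⟨μ, ?_⟩
    let E : Submodule ℂ V := W ⊓ Module.End.eigenspace (ρ a) μ
    have hE_S : E ∈ S := by
      refine ⟨?_, ?_⟩
      · intro hbot
        have h1 : (w0 : V) ∈ E := by
          refine ⟨w0.2, ?_⟩
          rw [SetLike.mem_coe, Module.End.mem_eigenspace_iff]
          have := hw0.apply_eq_smul
          have h2 := congrArg Subtype.val this
          simpa [f] using h2
        rw [hbot, Submodule.mem_bot] at h1
        exact hw0.2 (Subtype.ext h1)
      · intro b hb w hw
        obtain ⟨hwW, hwE⟩ := hw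
        refine ⟨hWinv b hb w hwW, ?_⟩
        rw [SetLike.mem_coe, Module.End.mem_eigenspace_iff] at hwE ⊢
        have hcomm : ρ a (ρ b w) = ρ b (ρ a w) := by
          rw [← Module.End.mul_apply, ← Module.End.mul_apply, ← map_mul, ← map_mul, hA a ha b hb]
        rw [hcomm, hwE, map_smul]
    have hle : E ≤ W := inf_le_left
    have hfin : Module.finrank ℂ W ≤ Module.finrank ℂ E := by
      by_contra hlt
      exact hWmin E hE_S (not_le.mp hlt)
    have hEW : E = W := Submodule.eq_of_le_of_finrank_le hle hfin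
    intro w hw
    rw [← hEW] at hw
    exact Module.End.mem_eigenspace_iff.mp hw.2
  obtain ⟨v, hvW, hv0⟩ := Submodule.exists_mem_ne_zero_of_ne_bot hWne
  refine ⟨v, hv0, ?_⟩
  intro a ha
  obtain ⟨μ, hμ⟩ := hscalar a ha
  exact ⟨μ, hμ v hvW⟩

/-- The degree of an irreducible complex representation of a finite group is at most the index of any abelian subgroup. -/
theorem result {G : Type*} [Group G] [Finite G] {V : Type*} [AddCommGroup V] [Module ℂ V] [FiniteDimensional ℂ V] (ρ : Representation ℂ G V) [ρ.IsIrreducible] (A : Subgroup G) (hA : ∀ a ∈ A, ∀ b ∈ A, a * b = b * a) : Module.finrank ℂ V ≤ A.index := by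
  classical
  haveI : Fintype (G ⧸ A) := Fintype.ofFinite _
  haveI : Nontrivial V := by
    by_contra hV
    rw [not_nontrivial_iff_subsingleton] at hV
    have h1 : (⊥ : Subrepresentation ρ) = ⊤ := by
      apply Subrepresentation.toSubmodule_injective
      exact Subsingleton.elim _ _
    exact bot_ne_top h1
  obtain ⟨v, hv0, hv⟩ := exists_common_eigenvector ρ A hA
  let b : G ⧸ A → V := fun q => ρ q.out v
  have hinv : ∀ g : G, ∀ w ∈ Submodule.span ℂ (Set.range b), ρ g w ∈ Submodule.span ℂ (Set.range b) := by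
    intro g w hw
    induction hw using Submodule.span_induction with
    | mem x hx =>
      obtain ⟨q, rfl⟩ := hx
      show ρ g (ρ q.out v) ∈ _
      -- g * q.out = q'.out * a
      set q' : G ⧸ A := ((g * q.out : G) : G ⧸ A) with hq'
      have hmem : (q'.out)⁻¹ * (g * q.out) ∈ A := by
        rw [← QuotientGroup.eq, QuotientGroup.out_eq']
      obtain ⟨μ, hμ⟩ := hv _ hmem
      have h1 : ρ g (ρ q.out v) = μ • ρ q'.out v := by
        rw [← map_smul, ← hμ, ← Module.End.mul_apply, ← Module.End.mul_apply, ← map_mul, ← map_mul]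
        congr 2
        simp [mul_assoc]
      rw [h1]
      exact Submodule.smul_mem _ _ (Submodule.subset_span ⟨q', rfl⟩)
    | zero => rw [map_zero]; exact Submodule.zero_mem _
    | add x y _ _ hx hy => rw [map_add]; exact Submodule.add_mem _ hx hy
    | smul c x _ hx => rw [map_smul]; exact Submodule.smul_mem _ _ hx
  let U : Subrepresentation ρ :=
    { toSubmodule := Submodule.span ℂ (Set.range b)
      apply_mem_toSubmodule := fun g w hw => hinv g w hw }
  have hUne : U ≠ ⊥ := by
    intro hbot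
    have h1 : b ((1 : G) : G ⧸ A) ∈ U.toSubmodule := Submodule.subset_span ⟨_, rfl⟩
    rw [hbot] at h1
    have h2 : b ((1 : G) : G ⧸ A) = 0 := h1
    have h3 : ρ (((1 : G) : G ⧸ A).out)⁻¹ (ρ (((1 : G) : G ⧸ A).out) v) = v := by
      rw [← Module.End.mul_apply, ← map_mul, inv_mul_cancel, map_one, Module.End.one_apply]
    have h4 : ρ (((1 : G) : G ⧸ A).out) v = 0 := h2
    rw [h4, map_zero] at h3
    exact hv0 h3.symm
  have hUtop : U = ⊤ := (eq_bot_or_eq_top U).resolve_left hUne
  have hspan : Submodule.span ℂ (Set.range b) = ⊤ :=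
    congrArg Subrepresentation.toSubmodule hUtop
  have hfin := finrank_range_le_card (R := ℂ) b
  rw [Set.finrank, hspan, finrank_top] at hfin
  rw [Subgroup.index, Nat.card_eq_fintype_card]
  exact hfin

end Cfsg.Agent.S0178
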