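import Cfsg.Statements.S0180
import Mathlib
import Cfsg.Agent.Helper2.CycSum
import Cfsg.Agent.Helper11.GalConj
import Cfsg.Agent.Helper25.CharClass

set_option autoImplicit false
open Cfsg

namespace Cfsg.Agent.S0180

open Cfsg.Agent

/-- Every irreducible complex character of a finite group takes only rational values if and only if g is conjugate to g ^ m for every element g and every m coprime to the group order. -/
theorem result {G : Type*} [Group G] [Finite G] : (∀ χ : Cfsg.IrrCharacter G, ∀ g : G, ∃ q : ℚ, (χ : G → ℂ) g = (q : ℂ)) ↔ ∀ m : ℕ, m.Coprime (Nat.card G) → ∀ g : G, IsConj g (g ^ m) := by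
  classical
  haveI : NeZero (Nat.card G) := ⟨Nat.card_pos.ne'⟩
  constructor
  · intro hrat m hm g
    apply Helper25.isConj_of_forall_irr_eq
    intro χ
    obtain ⟨q, hq⟩ := hrat χ g
    obtain ⟨k, ρ, hρ, hχ⟩ := χ.2
    obtain ⟨d, μ, hμ, hpow⟩ := Helper2.char_pow_eig ρ g
    obtain ⟨τ, hτ⟩ := Helper11.exists_aut_pow (Nat.card G) Nat.card_pos m hm
    have h1 : (χ : G → ℂ) g = ∑ i, μ i := by
      have := hpow 1
      rw [pow_one] at this
      rw [← hχ, this]
      simp
    have h2 : (χ : G → ℂ) (g ^ m) = ∑ i, μ i ^ m := by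
      rw [← hχ]; exact hpow m
    rw [h2]
    have h3 : τ ((χ : G → ℂ) g) = ∑ i, μ i ^ m := by
      rw [h1, map_sum]
      exact Finset.sum_congr rfl (fun i _ => hτ (μ i) (hμ i))
    rw [← h3, hq, map_ratCast]
  · intro hconj χ g
    obtain ⟨k, ρ, hρ, hχ⟩ := χ.2
    obtain ⟨d, μ, hμ, hpow⟩ := Helper2.char_pow_eig ρ g
    obtain ⟨y, -, hy⟩ := Helper2.cyc_sum (Nat.card G) μ hμ
    have hval : ∀ σ : CyclotomicField (Nat.card G) ℚ ≃ₐ[ℚ] CyclotomicField (Nat.card G) ℚ,
        Helper2.cycEmb (Nat.card G) (σ y) = (χ : G → ℂ) g := by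
      intro σ
      rw [hy σ, ← hpow, hχ]
      exact (Helper25.char_of_isConj (Helper25.irr_isCharacter χ)
        (hconj _ (Helper2.galExp_coprime (Nat.card G) σ) g)).symm
    have hfix : ∀ σ : CyclotomicField (Nat.card G) ℚ ≃ₐ[ℚ] CyclotomicField (Nat.card G) ℚ,
        σ y = y := by
      intro σ
      apply (Helper2.cycEmb (Nat.card G)).toRingHom.injective
      show Helper2.cycEmb (Nat.card G) (σ y) = Helper2.cycEmb (Nat.card G) y
      rw [hval σ]
      have := hval AlgEquiv.refl
      simpa using this.symm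
    obtain ⟨q, hq⟩ := Helper2.cyc_rational (Nat.card G) y hfix
    refine ⟨q, ?_⟩
    rw [← hq]
    have := hval AlgEquiv.refl
    simpa using this.symm

end Cfsg.Agent.S0180
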