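import Cfsg.Statements.S0181
import Mathlib
import Cfsg.Agent.Helper2.CharExtra

set_option autoImplicit false
open Cfsg

namespace Cfsg.Agent.S0181

/-- Let H be a normal subgroup of a finite group G and ρ an irreducible complex representation whose kernel does not contain H. If g commutes with no non-identity element of H, then the character of ρ vanishes at g. -/
theorem result {G : Type*} [Group G] [Finite G] {V : Type*} [AddCommGroup V] [Module ℂ V] [FiniteDimensional ℂ V] (ρ : Representation ℂ G V) [ρ.IsIrreducible] (H : Subgroup G) [H.Normal] (hker : ∃ h ∈ H, ρ h ≠ LinearMap.id) (g : G) (hg : ∀ h ∈ H, h * g = g * h → h = 1) : ρ.character g = 0 := by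
  classical
  have : Fintype G := Fintype.ofFinite G
  have hHn : H.Normal := inferInstance
  have : Fintype H := Fintype.ofFinite H
  obtain ⟨e, he⟩ : ∃ e : Module.End ℂ V, e = ∑ h : H, ρ (h : G) := ⟨_, rfl⟩
  have hxe : ∀ x : H, ρ (x : G) * e = e := by
    intro x
    rw [he, Finset.mul_sum]
    exact Fintype.sum_equiv (Equiv.mulLeft x) _ _
      (fun h => by rw [Equiv.coe_mulLeft, Subgroup.coe_mul, map_mul])
  have hcomm : ∀ y : G, e * ρ y = ρ y * e := by
    intro y
    rw [he, Finset.sum_mul, Finset.mul_sum]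
    refine Fintype.sum_equiv (MulAut.conjNormal y⁻¹ : H ≃* H).toEquiv _ _ (fun h => ?_)
    have e1 : (((MulAut.conjNormal y⁻¹ : H ≃* H).toEquiv h : H) : G) = y⁻¹ * h * y := by
      simp [MulAut.conjNormal_apply]
    rw [e1, ← map_mul, ← map_mul]
    congr 1; group
  obtain ⟨c, hc⟩ := Helper1.exists_scalar_of_commute ρ e (fun y => hcomm y)
  obtain ⟨h₀, hh₀, hne⟩ := hker
  have hc0 : c = 0 := by
    by_contra hcne
    apply hne
    have h1 := hxe ⟨h₀, hh₀⟩
    rw [hc] at h1
    have h2 : c • ρ h₀ = c • (LinearMap.id : V →ₗ[ℂ] V) := by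
      rw [← h1]
      show c • ρ h₀ = ρ h₀ * (c • (1 : Module.End ℂ V))
      rw [mul_smul_comm, mul_one]
    exact smul_right_injective _ hcne h2
  have he0 : e = 0 := by rw [hc, hc0, zero_smul]
  have hconj : ∀ h : H, ρ.character (g * (h : G)) = ρ.character g := by
    intro h
    let f : H → H := fun k => ⟨g⁻¹ * (k : G) * g * (k : G)⁻¹, by
      have := hHn.conj_mem k k.2 g⁻¹
      simp only [inv_inv] at this
      exact H.mul_mem this (H.inv_mem k.2)⟩
    have hf : Function.Injective f := by
      intro k k' hkk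
      have h1 : g⁻¹ * (k : G) * g * (k : G)⁻¹ = g⁻¹ * (k' : G) * g * (k' : G)⁻¹ :=
        congrArg Subtype.val hkk
      have h2 : ((k' : G)⁻¹ * k) * g = g * ((k' : G)⁻¹ * k) := by
        have h3 : (k : G) * g * (k : G)⁻¹ = (k' : G) * g * (k' : G)⁻¹ := by
          have := congrArg (fun t => g * t) h1
          simpa [mul_assoc] using this
        calc ((k' : G)⁻¹ * k) * g = (k' : G)⁻¹ * ((k : G) * g * (k : G)⁻¹) * k := by group
          _ = (k' : G)⁻¹ * ((k' : G) * g * (k' : G)⁻¹) * k := by rw [h3]
          _ = g * ((k' : G)⁻¹ * k) := by group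
      have h4 := hg ((k' : G)⁻¹ * k) (H.mul_mem (H.inv_mem k'.2) k.2) h2
      exact Subtype.ext (inv_mul_eq_one.mp h4).symm
    obtain ⟨k, hk⟩ := (Finite.injective_iff_surjective.mp hf) h
    have hk' : g⁻¹ * (k : G) * g * (k : G)⁻¹ = h := congrArg Subtype.val hk
    have h5 : g * (h : G) = (k : G) * g * (k : G)⁻¹ := by rw [← hk']; group
    rw [h5, Representation.char_conj]
  have hsum : ∑ h : H, ρ.character (g * (h : G)) = 0 := by
    have h1 : ∑ h : H, ρ.character (g * (h : G)) = LinearMap.trace ℂ V (ρ g * e) := by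
      rw [he, Finset.mul_sum, map_sum]
      apply Finset.sum_congr rfl
      intro h _
      rw [← map_mul]; rfl
    rw [h1, he0, mul_zero, map_zero]
  rw [Finset.sum_congr rfl (fun h _ => hconj h), Finset.sum_const, Finset.card_univ,
    nsmul_eq_mul] at hsum
  have hHne : (Fintype.card H : ℂ) ≠ 0 := by exact_mod_cast Fintype.card_ne_zero
  exact (mul_eq_zero.mp hsum).resolve_left hHne

end Cfsg.Agent.S0181
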