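import Cfsg.Statements.S0184
import Mathlib
import Cfsg.Agent.Helper2.CharExtra
import Cfsg.Agent.Helper1.Burnside

set_option autoImplicit false
open Cfsg

namespace Cfsg.Agent.S0184

theorem mem_zpowers_of_pow_prime {A : Type*} [Group A] [Finite A] [IsCyclic A] (p : ℕ)
    (hp : p.Prime) (ω y : A) (hω : orderOf ω = p) (hy : y ^ p = 1) : y ∈ Subgroup.zpowers ω := by
  classical
  have : Fintype A := Fintype.ofFinite A
  have hT := IsCyclic.card_pow_eq_one_le (α := A) hp.pos
  have hsub : (Subgroup.zpowers ω : Set A) ⊆ ((Finset.univ.filter (fun a : A => a ^ p = 1) :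
      Finset A) : Set A) := by
    intro a ha
    obtain ⟨i, rfl⟩ := Subgroup.mem_zpowers_iff.mp ha
    simp only [Finset.coe_filter, Finset.mem_univ, true_and, Set.mem_ofPred_eq]
    rw [← zpow_natCast, ← zpow_mul, mul_comm, zpow_mul, zpow_natCast, ← hω, pow_orderOf_eq_one,
      one_zpow]
  have hcard : (((Finset.univ.filter (fun a : A => a ^ p = 1) : Finset A) : Set A)).ncard ≤
      (Subgroup.zpowers ω : Set A).ncard := by
    rw [Set.ncard_coe_finset]
    have h1 : (Subgroup.zpowers ω : Set A).ncard = p := by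
      rw [← Nat.card_coe_set_eq]
      exact (Nat.card_zpowers ω).trans hω
    rw [h1]; exact hT
  have heq := Set.eq_of_subset_of_ncard_le hsub hcard (Finset.finite_toSet _)
  have hyT : y ∈ ((Finset.univ.filter (fun a : A => a ^ p = 1) : Finset A) : Set A) := by
    simp [hy]
  rw [← heq] at hyT
  exact hyT

theorem normal_inf_center_ne_bot {G : Type*} [Group G] [Finite G] (p : ℕ) [Fact p.Prime]
    (hG : IsPGroup p G) (N : Subgroup G) [hN : N.Normal] (hne : N ≠ ⊥) :
    ∃ b ∈ N, b ≠ 1 ∧ b ∈ Subgroup.center G := by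
  have hNnt : Nontrivial N := (Subgroup.nontrivial_iff_ne_bot N).mpr hne
  have hdvd : p ∣ Nat.card N := by
    obtain ⟨n, hn0, hn⟩ := (hG.to_subgroup N).nontrivial_iff_card.mp hNnt
    exact hn.symm ▸ dvd_pow_self _ (ne_of_gt hn0)
  have h1 : (1 : N) ∈ MulAction.fixedPoints (ConjAct G) N := by
    intro g
    apply Subtype.ext
    show g • ((1 : N) : G) = ((1 : N) : G)
    rw [ConjAct.smul_def]
    simp
  obtain ⟨b, hb, hb1⟩ :=
    (hG.of_equiv ConjAct.toConjAct).exists_fixed_point_of_prime_dvd_card_of_fixed_point N hdvd h1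
  refine ⟨b, b.2, ?_, ?_⟩
  · intro h
    exact hb1 (Subtype.ext h.symm)
  · rw [Subgroup.mem_center_iff]
    intro x
    have h2 := hb (ConjAct.toConjAct x)
    have h3 : x * (b : G) * x⁻¹ = b := by
      have := congrArg Subtype.val h2
      exact this
    calc x * (b : G) = (x * (b : G) * x⁻¹) * x := by group
      _ = b * x := by rw [h3]

/-- A finite p-group admits a faithful irreducible complex representation if and only if its centre is cyclic. -/
theorem result {G : Type*} [Group G] [Finite G] (p : ℕ) [Fact p.Prime] (hG : IsPGroup p G) : (∃ (n : ℕ) (ρ : Representation ℂ G (Fin n → ℂ)), ρ.IsIrreducible ∧ Function.Injective ρ) ↔ IsCyclic (Subgroup.center G) := by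
  classical
  have : Fintype G := Fintype.ofFinite G
  have hpp : p.Prime := Fact.out
  constructor
  · rintro ⟨n, ρ, hρ, hinj⟩
    have hVnt : Nontrivial (Fin n → ℂ) := Helper25.nontrivial_of_irreducible ρ hρ
    have hscal : ∀ z : Subgroup.center G, ∃ c : ℂ,
        ρ (z : G) = c • (1 : Module.End ℂ (Fin n → ℂ)) := by
      intro z
      apply Helper1.exists_scalar_of_commute ρ (ρ z)
      intro g
      have : (z : G) * g = g * z := (Subgroup.mem_center_iff.mp z.2 g).symm
      show ρ z * ρ g = ρ g * ρ z
      rw [← map_mul, ← map_mul, this]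
    choose c hc using hscal
    have hone : (1 : Module.End ℂ (Fin n → ℂ)) ≠ 0 := one_ne_zero
    have hcmul : ∀ z z' : Subgroup.center G, c (z * z') = c z * c z' := by
      intro z z'
      have h1 : ρ ((z * z' : Subgroup.center G) : G) =
          (c z * c z') • (1 : Module.End ℂ (Fin n → ℂ)) := by
        rw [Subgroup.coe_mul, map_mul, hc z, hc z', smul_mul_smul_comm, one_mul]
      rw [hc (z * z')] at h1
      exact smul_left_injective ℂ hone h1
    have hc1 : c 1 = 1 := by
      have h1 : ρ ((1 : Subgroup.center G) : G) = (1 : ℂ) • (1 : Module.End ℂ (Fin n → ℂ)) := by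
        rw [Subgroup.coe_one, map_one, one_smul]
      rw [hc 1] at h1
      exact smul_left_injective ℂ hone h1
    let f : Subgroup.center G →* ℂ := { toFun := c, map_one' := hc1, map_mul' := hcmul }
    have hf : Function.Injective f := by
      intro z z' h
      apply Subtype.ext
      apply hinj
      have h' : c z = c z' := h
      rw [hc z, hc z', h']
    exact isCyclic_of_injective_ringHom f hf
  · intro hcyc
    by_cases hG1 : Subsingleton G
    · refine ⟨1, Representation.trivial ℂ G (Fin 1 → ℂ), ?_, ?_⟩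
      · exact Helper1.isIrreducible_of_finrank_eq_one _ (by simp)
      · intro x y _
        exact Subsingleton.elim x y
    · rw [not_subsingleton_iff_nontrivial] at hG1
      have hZnt : Nontrivial (Subgroup.center G) := hG.center_nontrivial
      have hZp : IsPGroup p (Subgroup.center G) := hG.to_subgroup _
      have hdvdZ : p ∣ Nat.card (Subgroup.center G) := by
        obtain ⟨k, hk0, hk⟩ := hZp.nontrivial_iff_card.mp hZnt
        exact hk.symm ▸ dvd_pow_self _ (ne_of_gt hk0)
      obtain ⟨ω, hω⟩ := exists_prime_orderOf_dvd_card' p hdvdZ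
      have hω1 : (ω : G) ≠ 1 := by
        intro h
        have : ω = 1 := Subtype.ext h
        rw [this, orderOf_one] at hω
        exact hpp.one_lt.ne hω
      have hex : ∃ χ : IrrCharacter G, (χ : G → ℂ) (ω : G) ≠ (χ : G → ℂ) 1 := by
        by_contra hcon
        push Not at hcon
        have h1 := Helper25.second_orthogonality (ω : G) (1 : G)
        rw [if_neg (fun h => hω1 (isConj_one_left.mp h)), inv_one] at h1
        have h2 := Helper25.sum_irr_degree_sq (G := G)
        rw [Finset.sum_congr rfl (fun χ _ => by rw [hcon χ])] at h1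
        rw [h1] at h2
        have : (Nat.card G : ℂ) ≠ 0 := by exact_mod_cast Nat.card_pos.ne'
        exact this h2.symm
      obtain ⟨χ, hχ⟩ := hex
      obtain ⟨n, ρ, hρ, hχeq⟩ := χ.2
      have hρω : ρ (ω : G) ≠ 1 := by
        intro h
        apply hχ
        rw [← hχeq]
        show LinearMap.trace ℂ _ (ρ (ω : G)) = LinearMap.trace ℂ _ (ρ 1)
        rw [h, map_one ρ]
      refine ⟨n, ρ, hρ, ?_⟩
      have hker : MonoidHom.ker (ρ : G →* Module.End ℂ (Fin n → ℂ)) = ⊥ := by
        by_contra hne
        obtain ⟨b, hbN, hb1, hbZ⟩ := normal_inf_center_ne_bot p hG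
          (MonoidHom.ker (ρ : G →* Module.End ℂ (Fin n → ℂ))) hne
        have hb'1 : (⟨b, hbZ⟩ : Subgroup.center G) ≠ 1 := by
          intro h
          exact hb1 (congrArg Subtype.val h)
        have hnt : Nontrivial (Subgroup.zpowers (⟨b, hbZ⟩ : Subgroup.center G)) := by
          rw [Subgroup.nontrivial_iff_ne_bot]
          intro h
          rw [Subgroup.zpowers_eq_bot] at h
          exact hb'1 h
        have hdvd : p ∣ Nat.card (Subgroup.zpowers (⟨b, hbZ⟩ : Subgroup.center G)) := by
          obtain ⟨k, hk0, hk⟩ := (hZp.to_subgroup _).nontrivial_iff_card.mp hnt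
          exact hk.symm ▸ dvd_pow_self _ (ne_of_gt hk0)
        obtain ⟨y, hy⟩ := exists_prime_orderOf_dvd_card' p hdvd
        have hy' : orderOf (y : Subgroup.center G) = p := by
          rw [Subgroup.orderOf_coe]; exact hy
        have hωp : ω ^ p = 1 := by rw [← hω]; exact pow_orderOf_eq_one ω
        have hmem := mem_zpowers_of_pow_prime p hpp (y : Subgroup.center G) ω hy' hωp
        obtain ⟨i, hi⟩ := Subgroup.mem_zpowers_iff.mp hmem
        obtain ⟨j, hj⟩ := Subgroup.mem_zpowers_iff.mp y.2
        have hωb : (ω : G) = b ^ (j * i) := by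
          rw [← hi, ← hj, ← zpow_mul]
          simp
        apply hρω
        have : (ω : G) ∈ MonoidHom.ker (ρ : G →* Module.End ℂ (Fin n → ℂ)) := by
          rw [hωb]; exact Subgroup.zpow_mem _ hbN _
        exact MonoidHom.mem_ker.mp this
      intro x y hxy
      have : x⁻¹ * y ∈ MonoidHom.ker (ρ : G →* Module.End ℂ (Fin n → ℂ)) := by
        rw [MonoidHom.mem_ker, map_mul, ← hxy, ← map_mul, inv_mul_cancel, map_one]
      rw [hker, Subgroup.mem_bot] at this
      exact inv_mul_eq_one.mp this

end Cfsg.Agent.S0184
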