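import Cfsg.Statements.S0185
import Mathlib
import Cfsg.Agent.Helper2.CharExtra
import Cfsg.Agent.Helper25.CharClass
import Cfsg.Agent.S0168

set_option autoImplicit false
open Cfsg

namespace Cfsg.Agent.S0185

/-- If a finite group has a faithful complex representation of degree less than the smallest prime dividing its order, the group is abelian. -/
theorem result {G : Type*} [Group G] [Finite G] {V : Type*} [AddCommGroup V] [Module ℂ V] [FiniteDimensional ℂ V] (ρ : Representation ℂ G V) (hfaithful : Function.Injective ρ) (hdeg : ∀ p : ℕ, p.Prime → p ∣ Nat.card G → Module.finrank ℂ V < p) (a b : G) : a * b = b * a := by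
  classical
  have : Fintype G := Fintype.ofFinite G
  have hχ : IsCharacter G ρ.character := Helper1.isCharacter_character ρ
  have hcl := Helper2.isClassFunction_of_isCharacter hχ
  have hm : ∀ ξ : IrrCharacter G, ∃ m : ℕ, classInner ρ.character (ξ : G → ℂ) = m :=
    fun ξ => Helper2.classInner_char_nat hχ (Helper2.isCharacter_of_isIrrCharacter ξ.2)
  choose m hm using hm
  have hdec : ∀ g, ρ.character g = ∑ ξ : IrrCharacter G, (m ξ : ℂ) * (ξ : G → ℂ) g := by
    intro g
    have h1 := congrFun (Helper2.classFun_eq_sum_classInner hcl) g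
    rw [h1]
    simp only [Finset.sum_apply, Pi.smul_apply, smul_eq_mul, hm]
  have hd : ∀ ξ : IrrCharacter G, ∃ d : ℕ, (ξ : G → ℂ) 1 = (d : ℂ) ∧ d ∣ Nat.card G ∧ 0 < d := by
    intro ξ
    obtain ⟨n, σ, hσ, hξ⟩ := ξ.2
    refine ⟨n, ?_, ?_, ?_⟩
    · rw [← hξ, Representation.char_one]; simp
    · have := Helper1.finrank_dvd_card σ
      simpa using this
    · have := Helper25.nontrivial_of_irreducible σ hσ
      have h := Module.finrank_pos (R := ℂ) (M := Fin n → ℂ)
      simpa using h
  choose d hd1 hd2 hd3 using hd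
  have hn : Module.finrank ℂ V = ∑ ξ : IrrCharacter G, m ξ * d ξ := by
    have h1 := hdec 1
    rw [Representation.char_one] at h1
    have : ((Module.finrank ℂ V : ℕ) : ℂ) = ((∑ ξ : IrrCharacter G, m ξ * d ξ : ℕ) : ℂ) := by
      rw [h1]; push_cast
      exact Finset.sum_congr rfl (fun ξ _ => by rw [hd1 ξ])
    exact_mod_cast this
  have hlin : ∀ ξ : IrrCharacter G, m ξ ≠ 0 → d ξ = 1 := by
    intro ξ hmξ
    by_contra hne
    obtain ⟨q, hq, hqd⟩ := Nat.exists_prime_and_dvd hne
    have h1 := hdeg q hq (hqd.trans (hd2 ξ))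
    have h2 : d ξ ≤ Module.finrank ℂ V := by
      rw [hn]
      calc d ξ ≤ m ξ * d ξ := Nat.le_mul_of_pos_left _ (Nat.pos_of_ne_zero hmξ)
        _ ≤ ∑ ξ : IrrCharacter G, m ξ * d ξ :=
          Finset.single_le_sum (f := fun ξ => m ξ * d ξ) (fun _ _ => Nat.zero_le _)
            (Finset.mem_univ ξ)
    have h3 : q ≤ d ξ := Nat.le_of_dvd (hd3 ξ) hqd
    omega
  have hcomm : ∀ c ∈ commutator G, c = 1 := by
    intro c hc
    have h1 : ρ.character c = ρ.character 1 := by
      rw [hdec c, hdec 1]
      apply Finset.sum_congr rfl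
      intro ξ _
      by_cases hmξ : m ξ = 0
      · rw [hmξ]; simp
      · have hξ1 : (ξ : G → ℂ) 1 = 1 := by rw [hd1 ξ, hlin ξ hmξ]; simp
        rw [Helper25.irr_linear_commutator ξ hξ1 hc, hξ1]
    have h2 := Cfsg.Agent.S0168.rho_eq_one_of_char_eq ρ c h1
    apply hfaithful
    rw [h2, map_one]
  have hc : a * b * a⁻¹ * b⁻¹ ∈ commutator G := by
    rw [commutator_def]
    exact Subgroup.commutator_mem_commutator (Subgroup.mem_top a) (Subgroup.mem_top b)
  have h1 := hcomm _ hc
  calc a * b = (a * b * a⁻¹ * b⁻¹) * (b * a) := by group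
    _ = b * a := by rw [h1, one_mul]

end Cfsg.Agent.S0185
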