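import Cfsg.Statements.S0186
import Mathlib
import Cfsg.Agent.Helper2.CharExtra
import Cfsg.Agent.Helper1.Burnside
import Cfsg.Agent.S0185

set_option autoImplicit false
open Cfsg

namespace Cfsg.Agent.S0186

theorem abelian_of_small_faithful {G : Type*} [Group G] [Finite G] (n : ℕ)
    (ρ : Representation ℂ G (Fin n → ℂ)) (hinj : Function.Injective ρ) (p : ℕ) (hp : p.Prime)
    (Q : Subgroup G) (m : ℕ) (hQ : Nat.card Q = p ^ m) (hn : n < p) (a b : G) (ha : a ∈ Q)
    (hb : b ∈ Q) : a * b = b * a := by
  let ρQ : Representation ℂ Q (Fin n → ℂ) := ρ.comp Q.subtype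
  have hinjQ : Function.Injective ρQ := fun x y hxy => Subtype.ext (hinj hxy)
  have hdegQ : ∀ q : ℕ, q.Prime → q ∣ Nat.card Q → Module.finrank ℂ (Fin n → ℂ) < q := by
    intro q hq hqd
    rw [hQ] at hqd
    have : q = p := (Nat.prime_dvd_prime_iff_eq hq hp).mp (hq.dvd_of_dvd_pow hqd)
    rw [this]
    simpa using hn
  have := Cfsg.Agent.S0185.result ρQ hinjQ hdegQ ⟨a, ha⟩ ⟨b, hb⟩
  exact congrArg Subtype.val this

theorem abelian_of_card_prime {G : Type*} [Group G] (Q : Subgroup G) (p : ℕ) [Fact p.Prime]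
    (hQ : Nat.card Q = p) (a b : G) (ha : a ∈ Q) (hb : b ∈ Q) : a * b = b * a := by
  have hcyc : IsCyclic Q := isCyclic_of_prime_card hQ
  obtain ⟨g, hg⟩ := hcyc.exists_generator
  obtain ⟨i, hi⟩ := Subgroup.mem_zpowers_iff.mp (hg ⟨a, ha⟩)
  obtain ⟨j, hj⟩ := Subgroup.mem_zpowers_iff.mp (hg ⟨b, hb⟩)
  have : (⟨a, ha⟩ : Q) * ⟨b, hb⟩ = ⟨b, hb⟩ * ⟨a, ha⟩ := by
    rw [← hi, ← hj, ← zpow_add, ← zpow_add, add_comm]
  exact congrArg Subtype.val this

/-- Let G be a finite simple group of order n and p a prime dividing n. If G has more than n / p^2 conjugacy classes, then every Sylow p-subgroup of G is abelian. -/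
theorem result {G : Type*} [Group G] [Finite G] [IsSimpleGroup G] (p : ℕ) [Fact p.Prime] (hp : p ∣ Nat.card G) (hmany : Nat.card G < p ^ 2 * Nat.card (ConjClasses G)) (P : Sylow p G) (a b : G) (ha : a ∈ P) (hb : b ∈ P) : a * b = b * a := by
  classical
  have : Fintype G := Fintype.ofFinite G
  have hpp : p.Prime := Fact.out
  by_cases hp2 : p ^ 2 ∣ Nat.card G
  · have hd : ∀ χ : IrrCharacter G, ∃ d : ℕ, (χ : G → ℂ) 1 = (d : ℂ) := by
      intro χ
      obtain ⟨n, ρ, hρ, hχ⟩ := χ.2
      exact ⟨n, by rw [← hχ, Representation.char_one]; simp⟩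
    choose d hd using hd
    have hsum : ∑ χ : IrrCharacter G, d χ ^ 2 = Nat.card G := by
      have := Helper25.sum_irr_degree_sq (G := G)
      have h2 : ((∑ χ : IrrCharacter G, d χ ^ 2 : ℕ) : ℂ) = (Nat.card G : ℂ) := by
        rw [← this]; push_cast
        apply Finset.sum_congr rfl; intro χ _; rw [hd χ]; ring
      exact_mod_cast h2
    have hk : Nat.card (ConjClasses G) = Fintype.card (IrrCharacter G) := by
      rw [← Helper1.card_irr, Nat.card_eq_fintype_card]
    obtain ⟨triv, htriv⟩ : ∃ triv : IrrCharacter G, (triv : G → ℂ) = fun _ => 1 :=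
      ⟨⟨fun _ => 1, Helper1.isIrrCharacter_one G⟩, rfl⟩
    have hdtriv : d triv = 1 := by
      have h0 := hd triv
      rw [htriv] at h0
      have h1 : (1 : ℂ) = (d triv : ℂ) := h0
      exact_mod_cast h1.symm
    have hex : ∃ χ : IrrCharacter G, χ ≠ triv ∧ d χ < p := by
      by_contra hcon
      push Not at hcon
      have h1 : ∑ χ : IrrCharacter G, d χ ^ 2 = 1 + ∑ χ ∈ Finset.univ.erase triv, d χ ^ 2 := by
        rw [← Finset.add_sum_erase _ _ (Finset.mem_univ triv), hdtriv]; norm_num
      have h2 : (Finset.univ.erase triv).card * p ^ 2 ≤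
          ∑ χ ∈ Finset.univ.erase triv, d χ ^ 2 := by
        rw [← smul_eq_mul, ← Finset.sum_const]
        apply Finset.sum_le_sum
        intro χ hχ
        exact Nat.pow_le_pow_left (hcon χ (Finset.ne_of_mem_erase hχ)) 2
      have h3 : (Finset.univ.erase triv).card = Fintype.card (IrrCharacter G) - 1 := by
        rw [Finset.card_erase_of_mem (Finset.mem_univ _), Finset.card_univ]
      obtain ⟨t, ht⟩ := hp2
      rw [hk] at hmany
      rw [hsum] at h1
      have h4 : (Fintype.card (IrrCharacter G) - 1) * p ^ 2 + 1 ≤ Nat.card G := by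
        rw [h1, ← h3]; omega
      rw [ht] at h4 hmany
      have hp2pos : 0 < p ^ 2 := pow_pos hpp.pos 2
      have h5 : t < Fintype.card (IrrCharacter G) := Nat.lt_of_mul_lt_mul_left hmany
      have h6 : Fintype.card (IrrCharacter G) - 1 < t := by
        by_contra h
        push Not at h
        have : p ^ 2 * t ≤ (Fintype.card (IrrCharacter G) - 1) * p ^ 2 := by nlinarith
        omega
      omega
    obtain ⟨χ, hχne, hχd⟩ := hex
    obtain ⟨n, ρ, hρ, hχeq⟩ := χ.2
    have hn : n = d χ := by
      have := hd χ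
      rw [← hχeq, Representation.char_one] at this
      have h2 : ((n : ℕ) : ℂ) = (d χ : ℂ) := by simpa using this
      exact_mod_cast h2
    have hker : MonoidHom.ker (ρ : G →* Module.End ℂ (Fin n → ℂ)) = ⊥ := by
      rcases (MonoidHom.normal_ker (ρ : G →* Module.End ℂ (Fin n → ℂ))).eq_bot_or_eq_top
        with h | h
      · exact h
      · exfalso
        apply hχne
        apply Subtype.ext
        have hall : ∀ x, ρ x = 1 := fun x => by
          have : x ∈ MonoidHom.ker (ρ : G →* Module.End ℂ (Fin n → ℂ)) := by rw [h]; trivial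
          exact MonoidHom.mem_ker.mp this
        rw [htriv, ← hχeq]
        exact Helper1.char_eq_one_of_forall_eq_one ρ hall
    have hinj : Function.Injective ρ := by
      intro x y hxy
      have : x⁻¹ * y ∈ MonoidHom.ker (ρ : G →* Module.End ℂ (Fin n → ℂ)) := by
        rw [MonoidHom.mem_ker, map_mul, ← hxy, ← map_mul, inv_mul_cancel, map_one]
      rw [hker, Subgroup.mem_bot] at this
      exact inv_mul_eq_one.mp this
    obtain ⟨m, hm⟩ := IsPGroup.iff_card.mp P.isPGroup'
    exact abelian_of_small_faithful n ρ hinj p hpp (P : Subgroup G) m hm (by omega) a b ha hb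
  · have hcard : Nat.card (P : Subgroup G) = p := by
      have h0 := Sylow.card_eq_multiplicity P
      have h1 : (Nat.card G).factorization p = 1 := by
        have hle : 1 ≤ (Nat.card G).factorization p :=
          (hpp.dvd_iff_one_le_factorization Nat.card_pos.ne').mp hp
        have hlt : ¬ 2 ≤ (Nat.card G).factorization p := by
          intro h
          exact hp2 ((hpp.pow_dvd_iff_le_factorization Nat.card_pos.ne').mpr h)
        omega
      rw [h1, pow_one] at h0
      exact h0
    exact abelian_of_card_prime (P : Subgroup G) p hcard a b ha hb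

end Cfsg.Agent.S0186
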