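import Cfsg.Statements.S0187
import Mathlib
import Cfsg.Agent.Helper25.CharOrth
import Cfsg.Agent.Helper1.CharClass

set_option autoImplicit false
open Cfsg

namespace Cfsg.Agent.S0187

/-- A finite group is commutative if and only if every irreducible complex character has degree 1. -/
theorem result {G : Type*} [Group G] [Finite G] : (∀ a b : G, a * b = b * a) ↔ ∀ χ : Cfsg.IrrCharacter G, (χ : G → ℂ) 1 = 1 := by
  classical
  haveI : Fintype G := Fintype.ofFinite G
  have hsq := Cfsg.Agent.Helper25.sum_irr_degree_sq (G := G)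
  have hcard := Cfsg.Agent.Helper1.card_irr (G := G)
  -- natural-number version of the degree equation
  have hdeg : ∀ χ : IrrCharacter G, (χ : G → ℂ) 1 = (charDegree (χ : G → ℂ) : ℂ) :=
    fun χ => Cfsg.Agent.Helper25.irr_one_eq_degree χ
  have hpos : ∀ χ : IrrCharacter G, 0 < charDegree (χ : G → ℂ) :=
    fun χ => Cfsg.Agent.Helper25.irr_degree_pos χ
  have hsqN : ∑ χ : IrrCharacter G, charDegree (χ : G → ℂ) * charDegree (χ : G → ℂ) = Nat.card G := by
    have : ((∑ χ : IrrCharacter G, charDegree (χ : G → ℂ) * charDegree (χ : G → ℂ) : ℕ) : ℂ) =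
        (Nat.card G : ℂ) := by
      rw [← hsq]
      push_cast
      apply Finset.sum_congr rfl
      intro χ _
      rw [hdeg χ]
    exact_mod_cast this
  have hcardN : ∑ _χ : IrrCharacter G, 1 = Nat.card (ConjClasses G) := by
    rw [Finset.sum_const, Finset.card_univ, smul_eq_mul, mul_one, ← hcard, Nat.card_eq_fintype_card]
  constructor
  · intro hcomm χ
    -- conjugacy classes are singletons
    have hinj : Function.Injective (ConjClasses.mk : G → ConjClasses G) := by
      intro a b hab
      rw [ConjClasses.mk_eq_mk_iff_isConj, isConj_iff] at hab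
      obtain ⟨c, hc⟩ := hab
      rw [← hc, hcomm c a, mul_assoc, mul_inv_cancel, mul_one]
    have hk : Nat.card (ConjClasses G) = Nat.card G :=
      (Nat.card_congr (Equiv.ofBijective _ ⟨hinj, ConjClasses.mk_surjective⟩)).symm
    have hle : ∀ χ ∈ (Finset.univ : Finset (IrrCharacter G)),
        1 ≤ charDegree (χ : G → ℂ) * charDegree (χ : G → ℂ) := by
      intro χ _
      exact Nat.mul_pos (hpos χ) (hpos χ)
    have hsum : ∑ _χ : IrrCharacter G, 1 =
        ∑ χ : IrrCharacter G, charDegree (χ : G → ℂ) * charDegree (χ : G → ℂ) := by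
      rw [hsqN, hcardN, hk]
    have h1 := (Finset.sum_eq_sum_iff_of_le hle).mp hsum χ (Finset.mem_univ χ)
    have h2 : charDegree (χ : G → ℂ) = 1 := by
      have := hpos χ
      nlinarith
    rw [hdeg χ, h2, Nat.cast_one]
  · intro hone
    have hdegN : ∀ χ : IrrCharacter G, charDegree (χ : G → ℂ) = 1 := by
      intro χ
      have := hone χ
      rw [hdeg χ] at this
      exact_mod_cast this
    have hk : Nat.card (ConjClasses G) = Nat.card G := by
      rw [← hsqN, ← hcardN]
      apply Finset.sum_congr rfl
      intro χ _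
      rw [hdegN χ]
    obtain ⟨e⟩ := Finite.card_eq.mp hk
    have hinj : Function.Injective (ConjClasses.mk : G → ConjClasses G) :=
      (Finite.injective_iff_surjective_of_equiv e.symm).mpr ConjClasses.mk_surjective
    intro a b
    have h1 : ConjClasses.mk (a * b * a⁻¹) = ConjClasses.mk b := by
      rw [ConjClasses.mk_eq_mk_iff_isConj, isConj_comm, isConj_iff]
      exact ⟨a, rfl⟩
    have h2 := hinj h1
    calc a * b = (a * b * a⁻¹) * a := by simp [mul_assoc]
      _ = b * a := by rw [h2]

end Cfsg.Agent.S0187
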