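import Cfsg.Statements.S0188
import Mathlib
import Cfsg.Agent.Helper2.CharExtra

set_option autoImplicit false
open Cfsg

namespace Cfsg.Agent.S0188

open scoped ComplexConjugate

theorem classInner_prod {G : Type*} {H : Type*} [Group G] [Group H] [Fintype G] [Fintype H]
    (f k : G → ℂ) (f' k' : H → ℂ) :
    classInner (fun x : G × H => f x.1 * f' x.2) (fun x : G × H => k x.1 * k' x.2) =
      classInner f k * classInner f' k' := by
  unfold classInner
  rw [Fintype.sum_prod_type, Nat.card_prod]
  have : ∀ (g : G) (h : H), f g * f' h * conj (k g * k' h) =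
      (f g * conj (k g)) * (f' h * conj (k' h)) := fun g h => by rw [map_mul]; ring
  simp_rw [this]
  rw [← Finset.sum_mul_sum]
  push_cast
  rw [mul_inv]; ring

theorem classInner_prod_right {G : Type*} {H : Type*} [Group G] [Group H] [Fintype G] [Fintype H]
    (θ : G × H → ℂ) (φ : G → ℂ) (ψ : H → ℂ) :
    classInner θ (fun x : G × H => φ x.1 * ψ x.2) =
      classInner (fun h => classInner (fun g => θ (g, h)) φ) ψ := by
  unfold classInner
  rw [Fintype.sum_prod_type, Nat.card_prod, Finset.sum_comm]
  push_cast
  simp only [Finset.mul_sum, Finset.sum_mul]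
  refine Finset.sum_congr rfl fun h _ => Finset.sum_congr rfl fun g _ => ?_
  rw [mul_inv, map_mul]; ring

/-- The irreducible complex characters of G × H are precisely the functions (g, h) ↦ φ g * ψ h with φ, ψ irreducible characters of G and H. -/
theorem result {G : Type*} [Group G] [Finite G] {H : Type*} [Group H] [Finite H] (θ : G × H → ℂ) : Cfsg.IsIrrCharacter (G × H) θ ↔ ∃ (φ : G → ℂ) (ψ : H → ℂ), Cfsg.IsIrrCharacter G φ ∧ Cfsg.IsIrrCharacter H ψ ∧ θ = fun x => φ x.1 * ψ x.2 := by
  classical
  have : Fintype G := Fintype.ofFinite G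
  have : Fintype H := Fintype.ofFinite H
  have hprod : ∀ (φ : G → ℂ) (ψ : H → ℂ), IsIrrCharacter G φ → IsIrrCharacter H ψ →
      IsIrrCharacter (G × H) (fun x => φ x.1 * ψ x.2) := by
    intro φ ψ hφ hψ
    have hc : IsCharacter (G × H) (fun x => φ x.1 * ψ x.2) :=
      Helper2.isCharacter_mul
        (Helper2.isCharacter_comp (MonoidHom.fst G H) (Helper2.isCharacter_of_isIrrCharacter hφ))
        (Helper2.isCharacter_comp (MonoidHom.snd G H) (Helper2.isCharacter_of_isIrrCharacter hψ))
    apply Helper2.isIrrCharacter_of_classInner_self hc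
    rw [classInner_prod, Helper1.classInner_irr_self ⟨φ, hφ⟩,
      Helper1.classInner_irr_self ⟨ψ, hψ⟩, mul_one]
  constructor
  · intro hθ
    by_contra hcon
    push Not at hcon
    have hθcl : IsClassFunction (G × H) θ :=
      Helper2.isClassFunction_of_isCharacter (Helper2.isCharacter_of_isIrrCharacter hθ)
    have hzero : ∀ (φ : IrrCharacter G) (ψ : IrrCharacter H),
        classInner θ (fun x : G × H => (φ : G → ℂ) x.1 * (ψ : H → ℂ) x.2) = 0 := by
      intro φ ψ
      have h1 := Helper2.classInner_irr_irr (⟨θ, hθ⟩ : IrrCharacter (G × H))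
        ⟨_, hprod φ ψ φ.2 ψ.2⟩
      rw [if_neg] at h1
      · exact h1
      · intro e
        exact hcon φ ψ φ.2 ψ.2 (congrArg Subtype.val e)
    have ha : ∀ (φ : IrrCharacter G) (h : H),
        classInner (fun g => θ (g, h)) (φ : G → ℂ) = 0 := by
      intro φ
      have hacl : IsClassFunction H (fun h => classInner (fun g => θ (g, h)) (φ : G → ℂ)) := by
        intro h y
        show classInner (fun g => θ (g, y * h * y⁻¹)) (φ : G → ℂ) =
          classInner (fun g => θ (g, h)) (φ : G → ℂ)
        congr 1
        funext g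
        have := hθcl (g, h) (1, y)
        simpa using this
      have hazero : ∀ ψ : IrrCharacter H,
          classInner (fun h => classInner (fun g => θ (g, h)) (φ : G → ℂ)) (ψ : H → ℂ) = 0 := by
        intro ψ
        rw [← classInner_prod_right]
        exact hzero φ ψ
      have := Helper1.eq_zero_of_forall_classInner_irr_eq_zero _ hacl hazero
      intro h
      exact congrFun this h
    have hθ0 : θ = 0 := by
      funext ⟨g, h⟩
      have hFcl : IsClassFunction G (fun g => θ (g, h)) := by
        intro g x
        have := hθcl (g, h) (x, 1)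
        simpa using this
      have := Helper1.eq_zero_of_forall_classInner_irr_eq_zero _ hFcl (fun φ => ha φ h)
      exact congrFun this g
    have h1 : θ 1 ≠ 0 := Helper25.irr_one_ne_zero (⟨θ, hθ⟩ : IrrCharacter (G × H))
    exact h1 (congrFun hθ0 1)
  · rintro ⟨φ, ψ, hφ, hψ, rfl⟩
    exact hprod φ ψ hφ hψ

end Cfsg.Agent.S0188
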