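import Cfsg.Statements.S0189
import Mathlib

set_option autoImplicit false
open Cfsg

namespace Cfsg.Agent.S0189

theorem aux {G : Type*} [Group G] [Finite G] (Q : Subgroup G) (χ : G → ℂ)
    (hχ : Cfsg.IsCharacter G χ) (hvan : ∀ g : G, g ∈ Q → g ≠ 1 → χ g = 0) :
    ∃ k : ℕ, χ 1 = (Nat.card Q : ℂ) * k := by
  classical
  obtain ⟨n, ρ, hρ⟩ := hχ
  haveI : Fintype Q := Fintype.ofFinite Q
  let σ : Representation ℂ Q (Fin n → ℂ) := MonoidHom.comp ρ Q.subtype
  have hP : (Nat.card Q : ℂ) ≠ 0 := by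
    exact_mod_cast (Nat.card_pos (α := Q)).ne'
  haveI : Invertible (Nat.card Q : ℂ) := invertibleOfNonzero hP
  have h := Representation.card_inv_mul_sum_char_eq_finrank σ
  have hσ : ∀ h : Q, σ.character h = χ h := by
    intro h
    rw [← hρ]
    rfl
  have hsum : ∑ g : Q, σ.character g = χ 1 := by
    rw [Finset.sum_eq_single (1 : Q)]
    · rw [hσ]; rfl
    · intro b _ hb
      rw [hσ]
      exact hvan b b.2 (fun h => hb (Subtype.ext h))
    · intro h
      exact absurd (Finset.mem_univ _) h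
  rw [hsum] at h
  refine ⟨Module.finrank ℂ (Representation.invariants σ), ?_⟩
  rw [← h]
  field_simp

/-- If a complex character of a finite group vanishes at every non-identity element of a Sylow p-subgroup P, then |P| divides its degree. -/
theorem result {G : Type*} [Group G] [Finite G] (p : ℕ) [Fact p.Prime] (P : Sylow p G) (χ : G → ℂ) (hχ : Cfsg.IsCharacter G χ) (hvan : ∀ g : G, g ∈ P → g ≠ 1 → χ g = 0) : ∃ k : ℕ, χ 1 = (Nat.card P : ℂ) * k := by
  exact aux (P : Subgroup G) χ hχ hvan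

end Cfsg.Agent.S0189
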