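import Cfsg.Statements.S0190
import Mathlib
import Cfsg.Agent.Helper2.Ind

set_option autoImplicit false
open Cfsg

namespace Cfsg.Agent.S0190

open Cfsg.Agent.Helper2

/-- For a transitive action of a finite group on X, the permutation character g ↦ (number of fixed points of g) is the function induced from the principal character of the stabilizer of any point. -/
theorem result {G : Type*} [Group G] [Fintype G] (X : Type*) [MulAction G X] [Finite X] [MulAction.IsPretransitive G X] (x : X) : (fun g : G => (Nat.card (MulAction.fixedBy X g) : ℂ)) = Cfsg.indFun (MulAction.stabilizer G x) (fun _ => 1) := by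
  classical
  haveI : Fintype X := Fintype.ofFinite X
  funext g
  rw [indFun_apply]
  have h1 : ∀ y : G, extendByZero (MulAction.stabilizer G x) (fun _ => (1 : ℂ)) (y⁻¹ * g * y) =
      if g • (y • x) = y • x then 1 else 0 := by
    intro y
    by_cases h : y⁻¹ * g * y ∈ MulAction.stabilizer G x
    · rw [extendByZero_of_mem _ _ h, if_pos]
      rw [MulAction.mem_stabilizer_iff] at h
      have : g • y • x = y • ((y⁻¹ * g * y) • x) := by simp [mul_smul]
      rw [this, h]
    · rw [extendByZero_of_not_mem _ _ h, if_neg]
      intro h'
      apply h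
      rw [MulAction.mem_stabilizer_iff, mul_smul, mul_smul, h', inv_smul_smul]
  rw [Finset.sum_congr rfl (fun y _ => h1 y)]
  have hfib : ∀ z : X, (Finset.univ.filter (fun y : G => y • x = z)).card =
      Nat.card (MulAction.stabilizer G x) := by
    intro z
    obtain ⟨y0, hy0⟩ := MulAction.exists_smul_eq G x z
    rw [← Fintype.card_subtype, ← Nat.card_eq_fintype_card]
    apply Nat.card_congr
    refine
      { toFun := fun y => ⟨y0⁻¹ * y.1, ?_⟩
        invFun := fun s => ⟨y0 * s.1, ?_⟩
        left_inv := ?_
        right_inv := ?_ }
    · rw [MulAction.mem_stabilizer_iff, mul_smul, y.2, ← hy0, inv_smul_smul]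
    · rw [mul_smul, MulAction.mem_stabilizer_iff.mp s.2, hy0]
    · intro y
      apply Subtype.ext
      simp
    · intro s
      apply Subtype.ext
      simp
  have h2 : ∑ y : G, (if g • (y • x) = y • x then (1 : ℂ) else 0) =
      (Nat.card (MulAction.stabilizer G x) : ℂ) * (Nat.card (MulAction.fixedBy X g) : ℂ) := by
    rw [Finset.sum_comp (fun z : X => if g • z = z then (1 : ℂ) else 0) (fun y : G => y • x)]
    rw [Finset.image_univ_of_surjective (MulAction.surjective_smul G x)]
    have h3 : ∀ z ∈ (Finset.univ : Finset X),
        (Finset.univ.filter (fun y : G => y • x = z)).card • (if g • z = z then (1 : ℂ) else 0) =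
        (Nat.card (MulAction.stabilizer G x) : ℂ) * (if g • z = z then (1 : ℂ) else 0) := by
      intro z _
      rw [hfib z, nsmul_eq_mul]
    rw [Finset.sum_congr rfl h3, ← Finset.mul_sum]
    congr 1
    rw [Finset.sum_boole, Nat.card_eq_fintype_card]
    congr 1
    rw [← Fintype.card_subtype]
    rfl
  rw [h2]
  have hS : (Nat.card (MulAction.stabilizer G x) : ℂ) ≠ 0 := natCard_ne_zero_complex _
  field_simp

end Cfsg.Agent.S0190
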