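import Cfsg.Statements.S0191
import Mathlib
import Cfsg.Agent.Helper2.CycSum
import Cfsg.Agent.Helper2.CharExtra
import Cfsg.Agent.Helper25.CharComplete

set_option autoImplicit false
open Cfsg

namespace Cfsg.Agent.S0191

open Cfsg.Agent

/-- An irreducible complex representation of a finite group of degree greater than 1 has a character that vanishes somewhere. -/
theorem result {G : Type*} [Group G] [Finite G] {V : Type*} [AddCommGroup V] [Module ℂ V] [FiniteDimensional ℂ V] (ρ : Representation ℂ G V) [ρ.IsIrreducible] (hdeg : 1 < Module.finrank ℂ V) : ∃ g : G, ρ.character g = 0 := by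
  classical
  haveI := Fintype.ofFinite G
  haveI : NeZero (Nat.card G) := ⟨Nat.card_pos.ne'⟩
  by_contra hne
  push Not at hne
  have hχ : IsIrrCharacter G ρ.character := Helper25.isIrrCharacter_of_irreducible ρ inferInstance
  -- sum of squares
  have hsum : ∑ g : G, ‖ρ.character g‖ ^ 2 = (Nat.card G : ℝ) := by
    have h1 := Helper2.classInner_irr_irr (⟨ρ.character, hχ⟩ : IrrCharacter G) ⟨ρ.character, hχ⟩
    rw [if_pos rfl] at h1
    unfold classInner at h1
    have hG : (Nat.card G : ℂ) ≠ 0 := Nat.cast_ne_zero.mpr Nat.card_pos.ne'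
    have h2 : ∑ g : G, ρ.character g * (starRingEnd ℂ) (ρ.character g) = (Nat.card G : ℂ) := by
      have h3 := congrArg (fun z => (Nat.card G : ℂ) * z) h1
      simp only [mul_one] at h3
      rw [← mul_assoc, mul_inv_cancel₀ hG, one_mul] at h3
      exact h3
    have h4 : ∀ g : G, ρ.character g * (starRingEnd ℂ) (ρ.character g)
        = ((‖ρ.character g‖ ^ 2 : ℝ) : ℂ) := by
      intro g
      rw [Complex.mul_conj, Complex.normSq_eq_norm_sq]
    simp only [h4] at h2
    rw [← Complex.ofReal_sum] at h2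
    exact_mod_cast h2
  -- invariance under coprime powers
  have hpowsum : ∀ σ : CyclotomicField (Nat.card G) ℚ ≃ₐ[ℚ] CyclotomicField (Nat.card G) ℚ,
      ∑ g : G, ‖ρ.character (g ^ Helper2.galExp (Nat.card G) σ)‖ ^ 2 = (Nat.card G : ℝ) := by
    intro σ
    rw [← hsum]
    exact Equiv.sum_comp (powCoprime (Helper2.galExp_coprime (Nat.card G) σ).symm)
      (fun g => ‖ρ.character g‖ ^ 2)
  -- AM-GM bound
  have hcardpos : (0 : ℝ) < (Fintype.card
      (CyclotomicField (Nat.card G) ℚ ≃ₐ[ℚ] CyclotomicField (Nat.card G) ℚ) : ℝ) := by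
    have : 0 < Fintype.card
        (CyclotomicField (Nat.card G) ℚ ≃ₐ[ℚ] CyclotomicField (Nat.card G) ℚ) :=
      Fintype.card_pos_iff.mpr ⟨AlgEquiv.refl⟩
    exact_mod_cast this
  have hbound : ∀ g : G, (Fintype.card
      (CyclotomicField (Nat.card G) ℚ ≃ₐ[ℚ] CyclotomicField (Nat.card G) ℚ) : ℝ)
      ≤ ∑ σ : CyclotomicField (Nat.card G) ℚ ≃ₐ[ℚ] CyclotomicField (Nat.card G) ℚ,
          ‖ρ.character (g ^ Helper2.galExp (Nat.card G) σ)‖ ^ 2 := by
    intro g
    obtain ⟨d, μ, hμ, hpow⟩ := Helper2.char_pow_eig ρ g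
    obtain ⟨y, hyint, hy⟩ := Helper2.cyc_sum (Nat.card G) μ hμ
    have hval : ∀ σ : CyclotomicField (Nat.card G) ℚ ≃ₐ[ℚ] CyclotomicField (Nat.card G) ℚ,
        Helper2.cycEmb (Nat.card G) (σ y)
          = ρ.character (g ^ Helper2.galExp (Nat.card G) σ) := by
      intro σ
      rw [hy σ, ← hpow]
    have hy0 : y ≠ 0 := by
      rintro rfl
      have := hval AlgEquiv.refl
      simp only [map_zero] at this
      exact hne _ this.symm
    have h1 := Helper2.cyc_norm_ge_one (Nat.card G) y hyint hy0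
    rw [norm_prod] at h1
    simp only [hval] at h1
    have hprod : 1 ≤ ∏ σ : CyclotomicField (Nat.card G) ℚ ≃ₐ[ℚ] CyclotomicField (Nat.card G) ℚ,
        ‖ρ.character (g ^ Helper2.galExp (Nat.card G) σ)‖ ^ 2 := by
      rw [Finset.prod_pow]
      exact one_le_pow₀ h1
    have hAG := Real.geom_mean_le_arith_mean Finset.univ (fun _ => (1 : ℝ))
      (fun σ : CyclotomicField (Nat.card G) ℚ ≃ₐ[ℚ] CyclotomicField (Nat.card G) ℚ =>
        ‖ρ.character (g ^ Helper2.galExp (Nat.card G) σ)‖ ^ 2)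
      (fun _ _ => zero_le_one)
      (by simpa using hcardpos)
      (fun σ _ => sq_nonneg _)
    simp only [Real.rpow_one, one_mul, Finset.sum_const, Finset.card_univ, nsmul_eq_mul,
      mul_one] at hAG
    have h2 : (1 : ℝ) ≤ (∏ σ : CyclotomicField (Nat.card G) ℚ ≃ₐ[ℚ] CyclotomicField (Nat.card G) ℚ,
        ‖ρ.character (g ^ Helper2.galExp (Nat.card G) σ)‖ ^ 2) ^ ((Fintype.card
      (CyclotomicField (Nat.card G) ℚ ≃ₐ[ℚ] CyclotomicField (Nat.card G) ℚ) : ℝ))⁻¹ :=
      Real.one_le_rpow hprod (inv_nonneg.mpr hcardpos.le)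
    have h3 := h2.trans hAG
    rwa [le_div_iff₀ hcardpos, one_mul] at h3
  -- strict at g = 1
  have hone : (Fintype.card
      (CyclotomicField (Nat.card G) ℚ ≃ₐ[ℚ] CyclotomicField (Nat.card G) ℚ) : ℝ)
      < ∑ σ : CyclotomicField (Nat.card G) ℚ ≃ₐ[ℚ] CyclotomicField (Nat.card G) ℚ,
          ‖ρ.character ((1 : G) ^ Helper2.galExp (Nat.card G) σ)‖ ^ 2 := by
    simp only [one_pow, Representation.char_one, Finset.sum_const, Finset.card_univ,
      nsmul_eq_mul]
    have hk : (2 : ℝ) ≤ (Module.finrank ℂ V : ℝ) := by exact_mod_cast hdeg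
    have h1 : ‖((Module.finrank ℂ V : ℕ) : ℂ)‖ = (Module.finrank ℂ V : ℝ) := by
      simp
    rw [h1]
    have h4 : (4 : ℝ) ≤ (Module.finrank ℂ V : ℝ) ^ 2 := by nlinarith
    nlinarith [mul_nonneg hcardpos.le (sub_nonneg.mpr h4)]
  have hlt := Finset.sum_lt_sum (s := (Finset.univ : Finset G))
    (f := fun _ => (Fintype.card
      (CyclotomicField (Nat.card G) ℚ ≃ₐ[ℚ] CyclotomicField (Nat.card G) ℚ) : ℝ))
    (g := fun g => ∑ σ : CyclotomicField (Nat.card G) ℚ ≃ₐ[ℚ] CyclotomicField (Nat.card G) ℚ,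
          ‖ρ.character (g ^ Helper2.galExp (Nat.card G) σ)‖ ^ 2)
    (fun g _ => hbound g) ⟨1, Finset.mem_univ _, hone⟩
  rw [Finset.sum_comm] at hlt
  simp only [hpowsum, Finset.sum_const, Finset.card_univ, nsmul_eq_mul] at hlt
  rw [Nat.card_eq_fintype_card] at hlt
  linarith [mul_comm (Fintype.card G : ℝ) (Fintype.card
      (CyclotomicField (Fintype.card G) ℚ ≃ₐ[ℚ] CyclotomicField (Fintype.card G) ℚ) : ℝ)]

end Cfsg.Agent.S0191
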