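import Cfsg.Statements.S0192
import Mathlib
import Cfsg.Agent.Helper1.CharComplete

set_option autoImplicit false
open Cfsg

namespace Cfsg.Agent.S0192

open scoped ComplexConjugate

/-- fixed vectors of a subgroup -/
noncomputable def Fix {G : Type*} [Group G] {V : Type*} [AddCommGroup V] [Module ℂ V]
    (ρ : Representation ℂ G V) (H : Subgroup G) : Submodule ℂ V :=
  Representation.invariants (MonoidHom.comp ρ H.subtype : Representation ℂ H V)

theorem mem_Fix {G : Type*} [Group G] {V : Type*} [AddCommGroup V] [Module ℂ V]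
    (ρ : Representation ℂ G V) (H : Subgroup G) (v : V) :
    v ∈ Fix ρ H ↔ ∀ h ∈ H, ρ h v = v := by
  unfold Fix
  rw [Representation.mem_invariants]
  constructor
  · intro h g hg
    exact h ⟨g, hg⟩
  · intro h g
    exact h g.1 g.2

theorem Fix_anti {G : Type*} [Group G] {V : Type*} [AddCommGroup V] [Module ℂ V]
    (ρ : Representation ℂ G V) {H K : Subgroup G} (hHK : H ≤ K) : Fix ρ K ≤ Fix ρ H := by
  intro v hv
  rw [mem_Fix] at hv ⊢
  intro h hh
  exact hv h (hHK hh)

theorem Fix_inf_le {G : Type*} [Group G] {V : Type*} [AddCommGroup V] [Module ℂ V]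
    (ρ : Representation ℂ G V) (H K : Subgroup G) : Fix ρ H ⊓ Fix ρ K ≤ Fix ρ (H ⊔ K) := by
  intro v hv
  rw [Submodule.mem_inf, mem_Fix, mem_Fix] at hv
  rw [mem_Fix]
  let S : Subgroup G :=
    { carrier := {g | ρ g v = v}
      mul_mem' := by
        intro a b ha hb
        show ρ (a * b) v = v
        rw [map_mul, Module.End.mul_apply, hb, ha]
      one_mem' := by
        show ρ 1 v = v
        rw [map_one, Module.End.one_apply]
      inv_mem' := by
        intro a ha
        show ρ a⁻¹ v = v
        have h1 : ρ a⁻¹ (ρ a v) = v := by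
          rw [← Module.End.mul_apply, ← map_mul, inv_mul_cancel, map_one, Module.End.one_apply]
        rw [ha] at h1
        exact h1 }
  have hS : H ⊔ K ≤ S := sup_le (fun g hg => hv.1 g hg) (fun g hg => hv.2 g hg)
  intro g hg
  exact hS hg

theorem classInner_restrict_one {G : Type*} [Group G] {V : Type*} [AddCommGroup V]
    [Module ℂ V] [FiniteDimensional ℂ V] (ρ : Representation ℂ G V) (H : Subgroup G) [Fintype H] :
    Cfsg.classInner (fun x : H => ρ.character x) (fun _ => 1) =
      (Module.finrank ℂ (Fix ρ H) : ℂ) := by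
  have hH : (Nat.card H : ℂ) ≠ 0 := by
    exact_mod_cast (Nat.card_pos (α := H)).ne'
  haveI : Invertible (Nat.card H : ℂ) := invertibleOfNonzero hH
  have h := Representation.card_inv_mul_sum_char_eq_finrank
    (MonoidHom.comp ρ H.subtype : Representation ℂ H V)
  unfold Fix
  rw [← h]
  unfold Cfsg.classInner
  congr 1
  apply Finset.sum_congr rfl
  intro x _
  rw [map_one, mul_one]
  rfl

theorem Fix_top_eq_bot {G : Type*} [Group G] [Fintype G] {n : ℕ}
    (ρ : Representation ℂ G (Fin n → ℂ)) [hirr : ρ.IsIrreducible]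
    (h1 : ρ.character ≠ fun _ => 1) : Fix ρ ⊤ = ⊥ := by
  -- the fixed space is a subrepresentation
  let W : Subrepresentation ρ :=
    { toSubmodule := Fix ρ ⊤
      apply_mem_toSubmodule := by
        intro g v hv
        rw [mem_Fix] at hv
        rw [hv g (Subgroup.mem_top g)]
        exact (mem_Fix ρ ⊤ v).mpr hv }
  rcases eq_bot_or_eq_top W with hW | hW
  · have := congrArg Subrepresentation.toSubmodule hW
    exact this
  · exfalso
    have htop : Fix ρ ⊤ = ⊤ := congrArg Subrepresentation.toSubmodule hW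
    have hid : ∀ g : G, ρ g = LinearMap.id := by
      intro g
      apply LinearMap.ext
      intro v
      have hv : v ∈ Fix ρ ⊤ := by rw [htop]; exact Submodule.mem_top
      rw [mem_Fix] at hv
      exact hv g (Subgroup.mem_top g)
    have hchar : ∀ g : G, ρ.character g = (n : ℂ) := by
      intro g
      unfold Representation.character
      rw [hid g, LinearMap.trace_id]
      simp
    have hnorm := Cfsg.Agent.Helper1.classInner_char_self ρ
    unfold Cfsg.classInner at hnorm
    have hG : (Nat.card G : ℂ) ≠ 0 := by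
      exact_mod_cast (Nat.card_pos (α := G)).ne'
    have hsum : ∑ g : G, ρ.character g * conj (ρ.character g) = (Nat.card G : ℂ) * ((n : ℂ) * n) := by
      rw [Finset.sum_congr rfl (fun g _ => by rw [hchar g, Complex.conj_natCast]),
        Finset.sum_const, Finset.card_univ, nsmul_eq_mul, Nat.card_eq_fintype_card]
    rw [hsum, ← mul_assoc, inv_mul_cancel₀ hG, one_mul] at hnorm
    have hn : n * n = 1 := by exact_mod_cast hnorm
    have hn1 : n = 1 := by
      rcases Nat.eq_zero_or_pos n with h0 | h0
      · rw [h0] at hn; omega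
      · nlinarith
    apply h1
    funext g
    rw [hchar g, hn1, Nat.cast_one]

/-- Brauer's generation criterion. Let G be a finite simple group, H₁ and H₂ subgroups, and χ a non-principal irreducible character. If the multiplicity of the principal character in χ restricted to H₁ ⊓ H₂ is less than the sum of the corresponding multiplicities for H₁ and H₂, then H₁ and H₂ do not generate G. -/
theorem result {G : Type*} [Group G] [Fintype G] [IsSimpleGroup G] (H₁ H₂ : Subgroup G) [Fintype H₁] [Fintype H₂] [Fintype ↥(H₁ ⊓ H₂)] (χ : G → ℂ) (hχ : Cfsg.IsIrrCharacter G χ) (hχ1 : χ ≠ fun _ => 1) (hlt : (Cfsg.classInner (fun x : ↥(H₁ ⊓ H₂) => χ x) (fun _ => 1)).re < (Cfsg.classInner (fun x : H₁ => χ x) (fun _ => 1)).re + (Cfsg.classInner (fun x : H₂ => χ x) (fun _ => 1)).re) : H₁ ⊔ H₂ ≠ ⊤ := by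
  classical
  obtain ⟨n, ρ, hirr, hρ⟩ := hχ
  intro htop
  subst hρ
  have e12 := classInner_restrict_one ρ (H₁ ⊓ H₂)
  have e1 := classInner_restrict_one ρ H₁
  have e2 := classInner_restrict_one ρ H₂
  rw [e12, e1, e2] at hlt
  simp only [Complex.natCast_re] at hlt
  have hle : Module.finrank ℂ (Fix ρ H₁) + Module.finrank ℂ (Fix ρ H₂) ≤
      Module.finrank ℂ (Fix ρ (H₁ ⊓ H₂)) := by
    have h1 := Submodule.finrank_sup_add_finrank_inf_eq (Fix ρ H₁) (Fix ρ H₂)
    have h2 : Fix ρ H₁ ⊓ Fix ρ H₂ = ⊥ := by
      have := Fix_inf_le ρ H₁ H₂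
      rw [htop, Fix_top_eq_bot ρ hχ1] at this
      exact le_bot_iff.mp this
    rw [h2, finrank_bot, add_zero] at h1
    rw [← h1]
    apply Submodule.finrank_mono
    exact sup_le (Fix_anti ρ inf_le_left) (Fix_anti ρ inf_le_right)
  have : (Module.finrank ℂ (Fix ρ H₁) : ℝ) + (Module.finrank ℂ (Fix ρ H₂) : ℝ) ≤
      (Module.finrank ℂ (Fix ρ (H₁ ⊓ H₂)) : ℝ) := by exact_mod_cast hle
  linarith

end Cfsg.Agent.S0192
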