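import Cfsg.Statements.S0194
import Mathlib
import Cfsg.Agent.Helper2.IndNormal
import Cfsg.Agent.S0161

set_option autoImplicit false
open scoped ComplexConjugate
open Cfsg

namespace Cfsg.Agent.S0194

open scoped ComplexConjugate

/-- Let G have odd order, H be a normal subgroup and θ a non-principal irreducible character of H. Then the function induced from θ is orthogonal to its complex conjugate. -/
theorem result {G : Type*} [Group G] [Fintype G] (hodd : Odd (Nat.card G)) (H : Subgroup G) [H.Normal] (θ : H → ℂ) (hθ : Cfsg.IsIrrCharacter H θ) (hθ1 : θ ≠ fun _ => 1) : Cfsg.classInner (fun g => conj (Cfsg.indFun H θ g)) (Cfsg.indFun H θ) = 0 := by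
  classical
  have : Fintype H := Fintype.ofFinite H
  rw [Helper2.indFun_conj]
  rw [Helper2.frobenius_reciprocity H _ (indFun H θ) (Helper2.indFun_isClassFunction H θ)]
  rw [Helper2.indFun_restrict_normal, Helper2.classInner_smul_right, Helper2.classInner_sum_right]
  have hθc : IsIrrCharacter H (fun h => conj (θ h)) := Helper2.isIrrCharacter_conj hθ
  have hterm : ∀ x : G, classInner (fun h => conj (θ h)) (Helper2.conjChar H θ x⁻¹) = 0 := by
    intro x
    rw [Helper2.classInner_irr_conjChar H hθ hθc x⁻¹, if_neg]
    intro heq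
    set y := x⁻¹ with hy
    have h2 : Helper2.conjChar H θ (y * y) = θ := by
      rw [← Helper2.conjChar_mul, ← heq, Helper2.conjChar_conj, ← heq]
      funext h; simp
    have hyodd : Odd (orderOf y) := Odd.of_dvd_nat hodd (orderOf_dvd_natCard y)
    obtain ⟨k, hk⟩ := hyodd
    have hyk : y = (y * y) ^ (k + 1) := by
      rw [← pow_two, ← pow_mul]
      have : 2 * (k + 1) = orderOf y + 1 := by omega
      rw [this, pow_succ, pow_orderOf_eq_one, one_mul]
    have h3 : Helper2.conjChar H θ y = θ := by
      rw [hyk]; exact Helper2.conjChar_pow H θ (y * y) h2 (k + 1)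
    rw [h3] at heq
    have hreal : ∀ h : H, (θ h).im = 0 := fun h => Complex.conj_eq_iff_im.mp (congrFun heq h)
    have hoddH : Odd (Nat.card H) := Odd.of_dvd_nat hodd (Subgroup.card_subgroup_dvd_card H)
    exact hθ1 (Cfsg.Agent.S0161.result hoddH ⟨θ, hθ⟩ hreal)
  rw [Finset.sum_congr rfl (fun x _ => hterm x)]
  simp

end Cfsg.Agent.S0194
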