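import Cfsg.Statements.S0196
import Mathlib

set_option autoImplicit false
open Cfsg

namespace Cfsg.Agent.S0196

theorem dvd_card_of_index_stabilizer {G X : Type*} [Group G] [MulAction G X] [Finite X] [Finite G]
    (d : ℕ) (h : ∀ x : X, (MulAction.stabilizer G x).index = d) : d ∣ Nat.card X := by
  classical
  haveI : Fintype (MulAction.orbitRel.Quotient G X) := Fintype.ofFinite _
  rw [Nat.card_congr (MulAction.selfEquivSigmaOrbitsQuotientStabilizer G X), Nat.card_sigma]
  apply Finset.dvd_sum
  intro ω _
  have := h (Quotient.out ω)
  rw [Subgroup.index] at this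
  rw [this]

/-- Let A be a subgroup of a finite group G that equals the centralizer of each of its non-identity elements, and let N be its normalizer. Then the index of A in N divides |A| − 1 (N/A permutes the non-identity elements of A in orbits of full length). -/
theorem result {G : Type*} [Group G] [Finite G] (A : Subgroup G) (hA : ∀ x ∈ A, x ≠ 1 → Subgroup.centralizer ({x} : Set G) = A) : (A.subgroupOf (Subgroup.normalizer (A : Set G))).index ∣ Nat.card A - 1 := by
  classical
  let X := {x : G // x ∈ A ∧ x ≠ 1}
  letI : MulAction (Subgroup.normalizer (A : Set G)) X :=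
    { smul := fun n x => ⟨(n : G) * x.1 * (n : G)⁻¹, by
        have := (Subgroup.mem_normalizer_iff.mp n.2 x.1).mp x.2.1
        exact this, by
        intro h
        apply x.2.2
        have e : x.1 = (n : G)⁻¹ * ((n : G) * x.1 * (n : G)⁻¹) * (n : G) := by group
        rw [e, h]; group⟩
      one_smul := by
        intro x
        apply Subtype.ext
        show ((1 : Subgroup.normalizer (A : Set G)) : G) * x.1 * ((1 : Subgroup.normalizer (A : Set G)) : G)⁻¹ = x.1
        simp
      mul_smul := by
        intro a b x
        apply Subtype.ext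
        show ((a * b : Subgroup.normalizer (A : Set G)) : G) * x.1 * ((a * b : Subgroup.normalizer (A : Set G)) : G)⁻¹ = (a : G) * ((b : G) * x.1 * (b : G)⁻¹) * (a : G)⁻¹
        simp [mul_assoc] }
  have hsmul : ∀ (n : Subgroup.normalizer (A : Set G)) (x : X), ((n • x : X) : G) = (n : G) * x.1 * (n : G)⁻¹ := fun _ _ => rfl
  have hstab : ∀ x : X, MulAction.stabilizer (Subgroup.normalizer (A : Set G)) x = A.subgroupOf (Subgroup.normalizer (A : Set G)) := by
    intro x
    ext n
    have hc : (n : G) ∈ A ↔ (n : G) ∈ Subgroup.centralizer ({x.1} : Set G) := by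
      rw [hA x.1 x.2.1 x.2.2]
    rw [MulAction.mem_stabilizer_iff, Subgroup.mem_subgroupOf, hc,
      Subgroup.mem_centralizer_iff]
    simp only [Set.mem_singleton_iff, forall_eq]
    rw [Subtype.ext_iff, hsmul]
    constructor
    · intro h
      have : (n : G) * x.1 = (n : G) * x.1 * (n : G)⁻¹ * n := by group
      rw [this, h]
    · intro h
      rw [← h]; group
  have hd := dvd_card_of_index_stabilizer (G := Subgroup.normalizer (A : Set G)) (X := X)
    ((A.subgroupOf (Subgroup.normalizer (A : Set G))).index) (fun x => by rw [hstab x])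
  have hcard : Nat.card X = Nat.card A - 1 := by
    have e1 : Nat.card X = ((A : Set G) \ {1}).ncard := by
      rw [← Nat.card_coe_set_eq]
      rfl
    rw [e1, Set.ncard_sdiff_singleton_of_mem (Subgroup.one_mem A), ← Nat.card_coe_set_eq]
    rfl
  rw [← hcard]
  exact hd

end Cfsg.Agent.S0196
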