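import Cfsg.Statements.S0207
import Mathlib
import Cfsg.Agent.Helper2.Invol

set_option autoImplicit false
open Cfsg

namespace Cfsg.Agent.S0207

open Cfsg.Agent.Helper2 in
theorem aux {G : Type*} [Group G] (x y : G) (hx : orderOf x = 2) (hy : orderOf y = 2) (i : ℤ) :
    ((x * y) ^ i * x) * ((x * y) ^ i * x) = 1 := by
  calc (x * y) ^ i * x * ((x * y) ^ i * x) = (x * y) ^ i * (x * (x * y) ^ i) * x := by
        simp [mul_assoc]
    _ = (x * y) ^ i * ((x * y) ^ (-i) * x) * x := by rw [invol_mul_zpow x y hx hy i]
    _ = (x * y) ^ i * (x * y) ^ (-i) * (x * x) := by simp [mul_assoc]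
    _ = 1 := by rw [sq_of_orderOf_two hx, mul_one, ← zpow_add, add_neg_cancel, zpow_zero]

/-- If x, y are distinct involutions, every element of the subgroup they generate that lies outside the cyclic subgroup generated by xy is an involution. -/
theorem result {G : Type*} [Group G] [Finite G] (x y : G) (hx : orderOf x = 2) (hy : orderOf y = 2) (hxy : x ≠ y) (d : G) (hd : d ∈ Subgroup.closure ({x, y} : Set G)) (hd' : d ∉ Subgroup.zpowers (x * y)) : orderOf d = 2 := by
  obtain ⟨i, hi | hi⟩ := Cfsg.Agent.Helper2.mem_closure_pair x y hx hy d hd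
  · exfalso
    apply hd'
    rw [hi]
    exact Subgroup.zpow_mem_zpowers _ i
  · apply Cfsg.Agent.Helper2.orderOf_two_of_sq
    · rw [hi]
      exact aux x y hx hy i
    · intro h1
      apply hd'
      rw [h1]
      exact Subgroup.one_mem _

end Cfsg.Agent.S0207
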