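import Cfsg.Statements.S0208
import Mathlib
import Cfsg.Agent.Helper2.Invol

set_option autoImplicit false
open Cfsg

namespace Cfsg.Agent.S0208

/-- If x, y are involutions and xy has odd order, then some element of the subgroup generated by x and y conjugates x to y. -/
theorem result {G : Type*} [Group G] [Finite G] (x y : G) (hx : orderOf x = 2) (hy : orderOf y = 2) (hodd : Odd (orderOf (x * y))) : ∃ d ∈ Subgroup.closure ({x, y} : Set G), d * x * d⁻¹ = y := by
  obtain ⟨k, hk⟩ := hodd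
  refine ⟨(x * y) ^ (k : ℤ), Cfsg.Agent.Helper2.xy_zpow_mem_closure_pair x y k, ?_⟩
  rw [Cfsg.Agent.Helper2.zpow_conj_x x y hx hy]
  have h1 : (x * y) ^ (2 * (k : ℤ)) = (x * y) ^ (-1 : ℤ) := by
    have h2 : (2 * (k : ℤ)) = ((2 * k + 1 : ℕ) : ℤ) + (-1 : ℤ) := by push_cast; ring
    rw [h2, zpow_add, zpow_natCast, ← hk, pow_orderOf_eq_one, one_mul]
  rw [h1]
  exact (Cfsg.Agent.Helper2.y_eq x y hx hy).symm

end Cfsg.Agent.S0208
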