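import Cfsg.Statements.S0209
import Mathlib
import Cfsg.Agent.Helper2.Invol

set_option autoImplicit false
open Cfsg

namespace Cfsg.Agent.S0209

open Cfsg.Agent.Helper2 in
theorem main {G : Type*} [Group G] [Finite G] (x y : G) (hx : orderOf x = 2) (hy : orderOf y = 2)
    (heven : Even (orderOf (x * y))) :
    orderOf ((x * y) ^ (orderOf (x * y) / 2)) = 2 ∧
      x * (x * y) ^ (orderOf (x * y) / 2) * x⁻¹ = (x * y) ^ (orderOf (x * y) / 2) := by
  obtain ⟨m, hm⟩ := heven
  have hpos : 0 < orderOf (x * y) := orderOf_pos (x * y)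
  have hm2 : orderOf (x * y) / 2 = m := by omega
  rw [hm2]
  have hsq : (x * y) ^ m * (x * y) ^ m = 1 := by
    rw [← pow_add, ← hm, pow_orderOf_eq_one]
  have hne : (x * y) ^ m ≠ 1 := by
    apply pow_ne_one_of_lt_orderOf
    · omega
    · omega
  refine ⟨orderOf_two_of_sq hsq hne, ?_⟩
  have h1 := conj_zpow_invol x y hx hy (m : ℤ)
  rw [zpow_natCast, zpow_neg, zpow_natCast] at h1
  rw [h1]
  exact inv_eq_of_mul_eq_one_left hsq

/-- If x, y are involutions whose product has even order n, the element (xy)^(n/2) is an involution that commutes with x and with y. -/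
theorem result {G : Type*} [Group G] [Finite G] (x y : G) (hx : orderOf x = 2) (hy : orderOf y = 2) (heven : Even (orderOf (x * y))) : orderOf ((x * y) ^ (orderOf (x * y) / 2)) = 2 ∧ Commute ((x * y) ^ (orderOf (x * y) / 2)) x ∧ Commute ((x * y) ^ (orderOf (x * y) / 2)) y := by
  obtain ⟨h1, h2⟩ := main x y hx hy heven
  refine ⟨h1, ?_, ?_⟩
  · show (x * y) ^ (orderOf (x * y) / 2) * x = x * (x * y) ^ (orderOf (x * y) / 2)
    nth_rewrite 1 [← h2]
    simp [mul_assoc]
  · -- y = r⁻¹ * x
    set z := (x * y) ^ (orderOf (x * y) / 2) with hz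
    have hzx : z * x = x * z := by
      nth_rewrite 1 [← h2]
      simp [mul_assoc]
    have hzr : z * (x * y) = (x * y) * z := by
      rw [hz, ← pow_succ, ← pow_succ']
    have hy' : y = x * (x * y) := by
      rw [← mul_assoc, Cfsg.Agent.Helper2.sq_of_orderOf_two hx, one_mul]
    show z * y = y * z
    rw [hy', ← mul_assoc, hzx, mul_assoc, hzr, ← mul_assoc, ← mul_assoc]

end Cfsg.Agent.S0209
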