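import Cfsg.Statements.S0211
import Mathlib
import Cfsg.Agent.Helper2.Invol

set_option autoImplicit false
open Cfsg

namespace Cfsg.Agent.S0211

/-- Let x, y be involutions with xy of even order n and z = (xy)^(n/2). Then xz is conjugate to x by an element of the subgroup generated by x, y if and only if 4 divides n. -/
theorem result {G : Type*} [Group G] [Finite G] (x y : G) (hx : orderOf x = 2) (hy : orderOf y = 2) (heven : Even (orderOf (x * y))) : (∃ d ∈ Subgroup.closure ({x, y} : Set G), d * x * d⁻¹ = x * (x * y) ^ (orderOf (x * y) / 2)) ↔ 4 ∣ orderOf (x * y) := by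
  obtain ⟨m, hm⟩ := heven
  have hm2 : orderOf (x * y) / 2 = m := by omega
  rw [hm2]
  have hxr : x * (x * y) ^ m = (x * y) ^ (-(m : ℤ)) * x := by
    have := Cfsg.Agent.Helper2.invol_mul_zpow x y hx hy (m : ℤ)
    rwa [zpow_natCast] at this
  constructor
  · rintro ⟨d, hd, hdx⟩
    obtain ⟨i, hi⟩ := Cfsg.Agent.Helper2.conj_x_of_mem_closure x y hx hy d hd
    rw [hdx, hxr] at hi
    have h2 : (x * y) ^ (-(m : ℤ)) = (x * y) ^ (2 * i) := mul_right_cancel hi
    have h3 : (x * y) ^ (2 * i + m) = 1 := by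
      rw [zpow_add, ← h2, ← zpow_add, neg_add_cancel, zpow_zero]
    have h4 := orderOf_dvd_iff_zpow_eq_one.mpr h3
    rw [hm] at h4
    have h5 : (2 : ℤ) ∣ 2 * i + m := by
      refine dvd_trans ?_ h4
      exact ⟨m, by push_cast; ring⟩
    have h6 : (2 : ℤ) ∣ (m : ℤ) := by omega
    have h7 : 2 ∣ m := by exact_mod_cast h6
    rw [hm]
    omega
  · intro h4
    rw [hm] at h4
    have h2 : 2 ∣ m := by omega
    obtain ⟨j, hj⟩ := h2
    refine ⟨(x * y) ^ (j : ℤ), Cfsg.Agent.Helper2.xy_zpow_mem_closure_pair x y j, ?_⟩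
    rw [Cfsg.Agent.Helper2.zpow_conj_x x y hx hy, hxr]
    congr 1
    have h5 : (2 * (j : ℤ)) = -(m : ℤ) + ((orderOf (x * y) : ℕ) : ℤ) := by
      rw [hm, hj]; push_cast; ring
    rw [h5, zpow_add, zpow_natCast (x * y) (orderOf (x * y)), pow_orderOf_eq_one, mul_one]

end Cfsg.Agent.S0211
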