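import Cfsg.Statements.S0212
import Mathlib
import Cfsg.Agent.Helper2.Conj

set_option autoImplicit false
open Cfsg

namespace Cfsg.Agent.S0212

open Cfsg.Agent.Helper2

lemma card_le_factorial_index {G : Type*} [Group G] [Finite G] [IsSimpleGroup G]
    (H : Subgroup G) (hH : H ≠ ⊤) : Nat.card G ≤ Nat.factorial H.index := by
  have hker : (MulAction.toPermHom G (G ⧸ H)).ker = ⊥ := by
    rw [← Subgroup.normalCore_eq_ker]
    rcases (Subgroup.normalCore_normal H).eq_bot_or_eq_top with h | h
    · exact h
    · exact absurd (top_le_iff.mp (h ▸ Subgroup.normalCore_le H)) hH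
  have hinj : Function.Injective (MulAction.toPermHom G (G ⧸ H)) :=
    (MonoidHom.ker_eq_bot_iff _).mp hker
  have h1 := Nat.card_le_card_of_injective _ hinj
  rw [Nat.card_perm] at h1
  rwa [Subgroup.index_eq_card]

lemma sq_index_le_sum {G : Type*} [Group G] [Fintype G] (t : G) (ht : orderOf t = 2) :
    (Subgroup.centralizer ({t} : Set G)).index ^ 2 ≤
      ∑ g : G, Nat.card (Subgroup.centralizer ({g} : Set G)) := by
  classical
  obtain ⟨K, hK⟩ : ∃ K : Finset G, K = Finset.univ.filter (fun u => IsConj t u) := ⟨_, rfl⟩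
  have hKcard : K.card = (Subgroup.centralizer ({t} : Set G)).index := by
    have h1 := card_conj_mul_card_centralizer t
    have h2 := Subgroup.card_mul_index (Subgroup.centralizer ({t} : Set G))
    have h3 : Nat.card {h : G // IsConj t h} = K.card := by
      rw [hK, Nat.card_eq_fintype_card, Fintype.card_subtype]
    rw [h3] at h1
    have hn : 0 < Nat.card (Subgroup.centralizer ({t} : Set G)) := Nat.card_pos
    have h4 : K.card * Nat.card (Subgroup.centralizer ({t} : Set G)) =
        (Subgroup.centralizer ({t} : Set G)).index *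
          Nat.card (Subgroup.centralizer ({t} : Set G)) := by
      rw [h1, ← h2, mul_comm]
    exact Nat.eq_of_mul_eq_mul_right hn h4
  have hinv : ∀ u ∈ K, u * u = 1 := by
    intro u hu
    rw [hK, Finset.mem_filter] at hu
    have h1 := IsConj.orderOf_eq' hu.2
    rw [ht] at h1
    have h2 := pow_orderOf_eq_one u
    rwa [h1, pow_two] at h2
  have hfib := Finset.card_eq_sum_card_fiberwise (f := fun p : G × G => p.1 * p.2)
    (s := K ×ˢ K) (t := Finset.univ) (fun x _ => Finset.mem_univ _)
  rw [Finset.card_product, hKcard] at hfib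
  rw [pow_two, hfib]
  apply Finset.sum_le_sum
  intro g _
  have h1 : (Finset.filter (fun p : G × G => p.1 * p.2 = g) (K ×ˢ K)).card ≤
      (Finset.univ.filter (fun u : G => u * g * u⁻¹ = g⁻¹)).card := by
    apply Finset.card_le_card_of_injOn (fun p => p.1)
    · intro p hp
      have hp' : p ∈ Finset.filter (fun p : G × G => p.1 * p.2 = g) (K ×ˢ K) := hp
      rw [Finset.mem_filter, Finset.mem_product] at hp'
      obtain ⟨⟨hu, hv⟩, hg⟩ := hp'
      show p.1 ∈ Finset.univ.filter (fun u : G => u * g * u⁻¹ = g⁻¹)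
      rw [Finset.mem_filter]
      refine ⟨Finset.mem_univ _, ?_⟩
      rw [← hg]
      have e1 := hinv _ hu
      have e2 := hinv _ hv
      have i1 : p.1⁻¹ = p.1 := inv_eq_of_mul_eq_one_left e1
      have i2 : p.2⁻¹ = p.2 := inv_eq_of_mul_eq_one_left e2
      rw [mul_inv_rev, i1, i2, ← mul_assoc, e1, one_mul]
    · intro p hp q hq hpq
      have hp' : p ∈ Finset.filter (fun p : G × G => p.1 * p.2 = g) (K ×ˢ K) := hp
      have hq' : q ∈ Finset.filter (fun p : G × G => p.1 * p.2 = g) (K ×ˢ K) := hq
      rw [Finset.mem_filter] at hp' hq'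
      have e : p.1 = q.1 := hpq
      have e2 : p.1 * p.2 = p.1 * q.2 := by rw [hp'.2, e, hq'.2]
      exact Prod.ext e (mul_left_cancel e2)
  have h2 : Nat.card {u : G // u * g * u⁻¹ = g⁻¹} ≤
      Nat.card (Subgroup.centralizer ({g} : Set G)) := by
    by_cases hne : Nonempty {u : G // u * g * u⁻¹ = g⁻¹}
    · obtain ⟨⟨u₀, hu₀⟩⟩ := hne
      have hmem : ∀ u : {u : G // u * g * u⁻¹ = g⁻¹},
          u₀⁻¹ * u.1 ∈ Subgroup.centralizer ({g} : Set G) := by
        intro u
        rw [Subgroup.mem_centralizer_iff]
        intro x hx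
        rw [Set.mem_singleton_iff] at hx
        subst hx
        have e2 : u.1 * x * u.1⁻¹ = u₀ * x * u₀⁻¹ := by rw [u.2, hu₀]
        calc x * (u₀⁻¹ * u.1) = u₀⁻¹ * (u₀ * x * u₀⁻¹) * u.1 := by group
          _ = u₀⁻¹ * (u.1 * x * u.1⁻¹) * u.1 := by rw [e2]
          _ = u₀⁻¹ * u.1 * x := by group
      apply Nat.card_le_card_of_injective
        (fun u : {u : G // u * g * u⁻¹ = g⁻¹} =>
          (⟨u₀⁻¹ * u.1, hmem u⟩ : Subgroup.centralizer ({g} : Set G)))
      intro a b hab
      have := congrArg Subtype.val hab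
      exact Subtype.ext (mul_left_cancel this)
    · rw [not_nonempty_iff] at hne
      simp
  have h3 : Nat.card {u : G // u * g * u⁻¹ = g⁻¹} =
      (Finset.univ.filter (fun u : G => u * g * u⁻¹ = g⁻¹)).card := by
    rw [Nat.card_eq_fintype_card, Fintype.card_subtype]
  rw [h3] at h2
  exact h1.trans h2

/-- The Brauer–Fowler bound: if G is a finite simple group and t an involution of G whose centralizer has order n, then |G| ≤ (2n^2)!. -/
theorem result {G : Type*} [Group G] [Finite G] [IsSimpleGroup G] (t : G) (ht : orderOf t = 2) : Nat.card G ≤ Nat.factorial (2 * (Nat.card (Subgroup.centralizer ({t} : Set G))) ^ 2) := by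
  classical
  haveI : Fintype G := Fintype.ofFinite G
  obtain ⟨n, hn⟩ : ∃ n, n = Nat.card (Subgroup.centralizer ({t} : Set G)) := ⟨_, rfl⟩
  rw [← hn]
  by_cases hc : Subgroup.center G = ⊤
  · have hcen : Subgroup.centralizer ({t} : Set G) = ⊤ := by
      rw [eq_top_iff]
      intro x _
      rw [Subgroup.mem_centralizer_iff]
      intro y hy
      have hx : x ∈ Subgroup.center G := hc ▸ Subgroup.mem_top x
      exact Subgroup.mem_center_iff.mp hx y
    have hnG : n = Nat.card G := by rw [hn, hcen]; exact Subgroup.card_top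
    rw [hnG]
    have hpos : 0 < Nat.card G := Nat.card_pos
    calc Nat.card G ≤ 2 * Nat.card G ^ 2 := by nlinarith
      _ ≤ _ := Nat.self_le_factorial _
  · have hcb : Subgroup.center G = ⊥ :=
      ((inferInstance : (Subgroup.center G).Normal).eq_bot_or_eq_top).resolve_right hc
    by_contra hlt
    push Not at hlt
    have hbig : ∀ g : G, g ≠ 1 →
        2 * n ^ 2 + 1 ≤ (Subgroup.centralizer ({g} : Set G)).index := by
      intro g hg
      by_contra hsm
      push Not at hsm
      have hne : Subgroup.centralizer ({g} : Set G) ≠ ⊤ := by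
        intro h
        apply hg
        have hgc : g ∈ Subgroup.center G := by
          rw [Subgroup.mem_center_iff]
          intro x
          have hx : x ∈ Subgroup.centralizer ({g} : Set G) := h ▸ Subgroup.mem_top x
          rw [Subgroup.mem_centralizer_iff] at hx
          exact (hx g rfl).symm
        rw [hcb] at hgc
        exact Subgroup.mem_bot.mp hgc
      have h1 := card_le_factorial_index _ hne
      have h2 : Nat.factorial (Subgroup.centralizer ({g} : Set G)).index ≤
          Nat.factorial (2 * n ^ 2) := Nat.factorial_le (by omega)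
      omega
    obtain ⟨m, hm⟩ : ∃ m, m = (Subgroup.centralizer ({t} : Set G)).index := ⟨_, rfl⟩
    have ht1 : t ≠ 1 := by
      rintro rfl
      simp at ht
    have hm_big : 2 * n ^ 2 + 1 ≤ m := hm ▸ hbig t ht1
    have hmn : n * m = Nat.card G := by rw [hn, hm]; exact Subgroup.card_mul_index _
    have hsum := sq_index_le_sum t ht
    rw [← hm] at hsum
    have hsplit : ∑ g : G, Nat.card (Subgroup.centralizer ({g} : Set G)) =
        Nat.card G + ∑ g ∈ Finset.univ.erase (1 : G),
          Nat.card (Subgroup.centralizer ({g} : Set G)) := by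
      rw [← Finset.add_sum_erase Finset.univ _ (Finset.mem_univ (1 : G))]
      congr 1
      have h1 : Subgroup.centralizer ({1} : Set G) = ⊤ := by
        rw [eq_top_iff]
        intro x _
        rw [Subgroup.mem_centralizer_iff]
        intro y hy
        rw [Set.mem_singleton_iff] at hy
        subst hy
        simp
      rw [h1]
      exact Subgroup.card_top
    obtain ⟨S, hS⟩ : ∃ S, S = ∑ g ∈ Finset.univ.erase (1 : G),
        Nat.card (Subgroup.centralizer ({g} : Set G)) := ⟨_, rfl⟩
    rw [hsplit, ← hS] at hsum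
    have hbound : (2 * n ^ 2 + 1) * S ≤ (Nat.card G - 1) * Nat.card G := by
      rw [hS, Finset.mul_sum]
      calc ∑ g ∈ Finset.univ.erase (1 : G),
            (2 * n ^ 2 + 1) * Nat.card (Subgroup.centralizer ({g} : Set G))
          ≤ ∑ g ∈ Finset.univ.erase (1 : G), Nat.card G := by
            apply Finset.sum_le_sum
            intro g hg
            have h1 := hbig g (Finset.ne_of_mem_erase hg)
            have h2 := Subgroup.card_mul_index (Subgroup.centralizer ({g} : Set G))
            calc (2 * n ^ 2 + 1) * Nat.card (Subgroup.centralizer ({g} : Set G))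
                ≤ (Subgroup.centralizer ({g} : Set G)).index *
                  Nat.card (Subgroup.centralizer ({g} : Set G)) := Nat.mul_le_mul_right _ h1
              _ = Nat.card G := by rw [mul_comm]; exact h2
        _ = (Nat.card G - 1) * Nat.card G := by
            rw [Finset.sum_const, Finset.card_erase_of_mem (Finset.mem_univ _), Finset.card_univ,
              smul_eq_mul, Nat.card_eq_fintype_card]
    have hnpos : 0 < n := hn ▸ Nat.card_pos
    have hmpos : 0 < m := by omega
    obtain ⟨N, hN⟩ : ∃ N, N = Nat.card G := ⟨_, rfl⟩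
    rw [← hN] at hbound hsum hmn
    have hNpos : 0 < N := hN ▸ Nat.card_pos
    have hb2 : (2 * n ^ 2 + 1) * S + N ≤ N * N := by
      have : (N - 1) * N + N = N * N := by
        obtain ⟨N', rfl⟩ : ∃ N', N = N' + 1 := Nat.exists_eq_succ_of_ne_zero hNpos.ne'
        simp only [Nat.add_sub_cancel]
        ring
      omega
    have k1 : (2 * n ^ 2 + 1) * m ^ 2 ≤ (2 * n ^ 2 + 1) * (N + S) := Nat.mul_le_mul_left _ hsum
    have k2 : (2 * n ^ 2 + 1) * m ^ 2 + N ≤ (2 * n ^ 2 + 1) * N + N * N := by nlinarith
    rw [← hmn] at k2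
    have k3 : m * ((2 * n ^ 2 + 1) * m + n) ≤ m * ((2 * n ^ 2 + 1) * n + n * (n * m)) := by
      nlinarith
    have k4 := Nat.le_of_mul_le_mul_left k3 hmpos
    have k5 : n ^ 2 * (2 * n ^ 2 + 1) ≤ n ^ 2 * m := Nat.mul_le_mul_left _ hm_big
    have k6 : n ≤ n ^ 2 := by nlinarith
    have k7 : n * n ^ 2 ≤ n ^ 2 * n ^ 2 := by nlinarith
    nlinarith

end Cfsg.Agent.S0212
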