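import Cfsg.Statements.S0213
import Mathlib
import Cfsg.Agent.Helper2.Conj

set_option autoImplicit false
open Cfsg

namespace Cfsg.Agent.S0213

open Cfsg.Agent.Helper2

lemma unique_invol_zpowers {G : Type*} [Group G] [Finite G] (g z z' : G) (hz : orderOf z = 2)
    (hz' : orderOf z' = 2) (h : z ∈ Subgroup.zpowers g) (h' : z' ∈ Subgroup.zpowers g) :
    z = z' := by
  classical
  haveI : Fintype (Subgroup.zpowers g) := Fintype.ofFinite _
  have h1 : (Finset.univ.filter (fun a : Subgroup.zpowers g => a ^ 2 = 1)).card ≤ 2 :=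
    IsCyclic.card_pow_eq_one_le (by norm_num)
  by_contra hne
  have hz1 : z ≠ 1 := by
    rintro rfl
    simp at hz
  have hz'1 : z' ≠ 1 := by
    rintro rfl
    simp at hz'
  have hsub : ({1, ⟨z, h⟩, ⟨z', h'⟩} : Finset (Subgroup.zpowers g)) ⊆
      Finset.univ.filter (fun a : Subgroup.zpowers g => a ^ 2 = 1) := by
    intro a ha
    rw [Finset.mem_insert, Finset.mem_insert, Finset.mem_singleton] at ha
    rw [Finset.mem_filter]
    refine ⟨Finset.mem_univ _, ?_⟩
    rcases ha with rfl | rfl | rfl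
    · simp
    · apply Subtype.ext
      simp only [Subgroup.coe_pow, Subgroup.coe_one]
      rw [← hz]
      exact pow_orderOf_eq_one z
    · apply Subtype.ext
      simp only [Subgroup.coe_pow, Subgroup.coe_one]
      rw [← hz']
      exact pow_orderOf_eq_one z'
  have hcard : ({1, ⟨z, h⟩, ⟨z', h'⟩} : Finset (Subgroup.zpowers g)).card = 3 := by
    rw [Finset.card_insert_of_notMem, Finset.card_insert_of_notMem, Finset.card_singleton]
    · rw [Finset.mem_singleton]
      intro e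
      exact hne (congrArg Subtype.val e)
    · rw [Finset.mem_insert, Finset.mem_singleton, not_or]
      exact ⟨fun e => hz1 (congrArg Subtype.val e).symm,
        fun e => hz'1 (congrArg Subtype.val e).symm⟩
  have h2 := Finset.card_le_card hsub
  omega

/-- Thompson Order Formula, two-class case: if every involution of the finite group G is conjugate to exactly one of the non-conjugate involutions x₁, x₂, and nᵢ is the number of pairs (u, v) with u conjugate to x₁, v conjugate to x₂ and xᵢ in the cyclic group generated by uv, then |G| = |C(x₂)| n₁ + |C(x₁)| n₂. -/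
theorem result {G : Type*} [Group G] [Finite G] (x₁ x₂ : G) (h₁ : orderOf x₁ = 2) (h₂ : orderOf x₂ = 2) (hnc : ¬ IsConj x₁ x₂) (hall : ∀ t : G, orderOf t = 2 → IsConj x₁ t ∨ IsConj x₂ t) : Nat.card G = Nat.card (Subgroup.centralizer ({x₂} : Set G)) * Nat.card {p : G × G // IsConj x₁ p.1 ∧ IsConj x₂ p.2 ∧ x₁ ∈ Subgroup.zpowers (p.1 * p.2)} + Nat.card (Subgroup.centralizer ({x₁} : Set G)) * Nat.card {p : G × G // IsConj x₁ p.1 ∧ IsConj x₂ p.2 ∧ x₂ ∈ Subgroup.zpowers (p.1 * p.2)} := by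
  classical
  haveI : Fintype G := Fintype.ofFinite G
  obtain ⟨K₁, hK₁⟩ : ∃ K : Finset G, K = Finset.univ.filter (fun u => IsConj x₁ u) := ⟨_, rfl⟩
  obtain ⟨K₂, hK₂⟩ : ∃ K : Finset G, K = Finset.univ.filter (fun u => IsConj x₂ u) := ⟨_, rfl⟩
  have hmem₁ : ∀ u, u ∈ K₁ ↔ IsConj x₁ u := by
    intro u
    rw [hK₁, Finset.mem_filter]
    simp
  have hmem₂ : ∀ u, u ∈ K₂ ↔ IsConj x₂ u := by
    intro u
    rw [hK₂, Finset.mem_filter]
    simp
  obtain ⟨F, hF⟩ : ∃ F : G → Finset (G × G), F = fun z =>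
      (K₁ ×ˢ K₂).filter (fun p => z ∈ Subgroup.zpowers (p.1 * p.2)) := ⟨_, rfl⟩
  have hFmem : ∀ z p, p ∈ F z ↔
      IsConj x₁ p.1 ∧ IsConj x₂ p.2 ∧ z ∈ Subgroup.zpowers (p.1 * p.2) := by
    intro z p
    rw [hF]
    simp only [Finset.mem_filter, Finset.mem_product, hmem₁, hmem₂, and_assoc]
  have hn : ∀ z, Nat.card {p : G × G // IsConj x₁ p.1 ∧ IsConj x₂ p.2 ∧
      z ∈ Subgroup.zpowers (p.1 * p.2)} = (F z).card := by
    intro z
    rw [Nat.card_eq_fintype_card, Fintype.card_subtype]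
    congr 1
    ext p
    rw [hFmem, Finset.mem_filter]
    simp
  rw [hn x₁, hn x₂]
  have hc₁ : K₁.card * Nat.card (Subgroup.centralizer ({x₁} : Set G)) = Nat.card G := by
    have h1 := card_conj_mul_card_centralizer x₁
    have h3 : Nat.card {h : G // IsConj x₁ h} = K₁.card := by
      rw [hK₁, Nat.card_eq_fintype_card, Fintype.card_subtype]
    rw [h3] at h1
    exact h1
  have hc₂ : K₂.card * Nat.card (Subgroup.centralizer ({x₂} : Set G)) = Nat.card G := by
    have h1 := card_conj_mul_card_centralizer x₂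
    have h3 : Nat.card {h : G // IsConj x₂ h} = K₂.card := by
      rw [hK₂, Nat.card_eq_fintype_card, Fintype.card_subtype]
    rw [h3] at h1
    exact h1
  have hconj_le : ∀ z g, (F z).card ≤ (F (g * z * g⁻¹)).card := by
    intro z g
    apply Finset.card_le_card_of_injOn (fun p => (g * p.1 * g⁻¹, g * p.2 * g⁻¹))
    · intro p hp
      rw [Finset.mem_coe, hFmem] at hp ⊢
      obtain ⟨h1, h2, h3⟩ := hp
      refine ⟨h1.trans (isConj_iff.mpr ⟨g, rfl⟩), h2.trans (isConj_iff.mpr ⟨g, rfl⟩), ?_⟩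
      obtain ⟨k, hk⟩ := Subgroup.mem_zpowers_iff.mp h3
      rw [Subgroup.mem_zpowers_iff]
      refine ⟨k, ?_⟩
      show (g * p.1 * g⁻¹ * (g * p.2 * g⁻¹)) ^ k = g * z * g⁻¹
      have e : g * p.1 * g⁻¹ * (g * p.2 * g⁻¹) = g * (p.1 * p.2) * g⁻¹ := by group
      rw [e, conj_zpow, hk]
    · intro p _ q _ hpq
      have e1 : g * p.1 * g⁻¹ = g * q.1 * g⁻¹ := congrArg Prod.fst hpq
      have e2 : g * p.2 * g⁻¹ = g * q.2 * g⁻¹ := congrArg Prod.snd hpq
      exact Prod.ext (mul_left_cancel (mul_right_cancel e1))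
        (mul_left_cancel (mul_right_cancel e2))
  have hconj : ∀ z z', IsConj z z' → (F z').card = (F z).card := by
    intro z z' h
    obtain ⟨g, rfl⟩ := isConj_iff.mp h
    apply le_antisymm
    · have h1 := hconj_le (g * z * g⁻¹) g⁻¹
      have e : g⁻¹ * (g * z * g⁻¹) * g⁻¹⁻¹ = z := by group
      rw [e] at h1
      exact h1
    · exact hconj_le z g
  have hdisj : Disjoint K₁ K₂ := by
    rw [Finset.disjoint_left]
    intro u h1 h2
    rw [hmem₁] at h1
    rw [hmem₂] at h2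
    exact hnc (h1.trans h2.symm)
  have hInvmem : ∀ z, z ∈ K₁ ∪ K₂ ↔ orderOf z = 2 := by
    intro z
    rw [Finset.mem_union, hmem₁, hmem₂]
    constructor
    · rintro (h | h)
      · rw [IsConj.orderOf_eq' h]; exact h₁
      · rw [IsConj.orderOf_eq' h]; exact h₂
    · exact hall z
  have hdc := Finset.sum_card_bipartiteAbove_eq_sum_card_bipartiteBelow
    (s := K₁ ∪ K₂) (t := K₁ ×ˢ K₂) (fun (z : G) (p : G × G) => z ∈ Subgroup.zpowers (p.1 * p.2))
  have hR : ∀ p ∈ K₁ ×ˢ K₂, (Finset.bipartiteBelow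
      (fun (z : G) (p : G × G) => z ∈ Subgroup.zpowers (p.1 * p.2)) (K₁ ∪ K₂) p).card = 1 := by
    intro p hp
    rw [Finset.mem_product, hmem₁, hmem₂] at hp
    have o1 : orderOf p.1 = 2 := by rw [IsConj.orderOf_eq' hp.1]; exact h₁
    have o2 : orderOf p.2 = 2 := by rw [IsConj.orderOf_eq' hp.2]; exact h₂
    have hnc' : ¬ IsConj p.1 p.2 := fun h => hnc ((hp.1.trans h).trans hp.2.symm)
    have heven := even_orderOf_mul_of_not_isConj p.1 p.2 o1 o2 hnc'
    obtain ⟨z, hz, -, -, hzmem⟩ := exists_central_invol p.1 p.2 o1 o2 heven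
    rw [Finset.card_eq_one]
    refine ⟨z, ?_⟩
    rw [Finset.eq_singleton_iff_unique_mem]
    constructor
    · rw [Finset.bipartiteBelow, Finset.mem_filter]
      exact ⟨(hInvmem z).mpr hz, hzmem⟩
    · intro w hw
      rw [Finset.bipartiteBelow, Finset.mem_filter] at hw
      exact unique_invol_zpowers _ w z ((hInvmem w).mp hw.1) hz hw.2 hzmem
  rw [Finset.sum_congr rfl hR] at hdc
  simp only [Finset.sum_const, smul_eq_mul, mul_one, Finset.card_product] at hdc
  have hL : ∀ z ∈ K₁ ∪ K₂, (Finset.bipartiteAbove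
      (fun (z : G) (p : G × G) => z ∈ Subgroup.zpowers (p.1 * p.2)) (K₁ ×ˢ K₂) z).card =
      (F z).card := by
    intro z _
    rw [hF]
    rfl
  rw [Finset.sum_congr rfl hL, Finset.sum_union hdisj] at hdc
  have hs₁ : ∑ z ∈ K₁, (F z).card = K₁.card * (F x₁).card := by
    rw [Finset.sum_congr rfl (fun z hz => hconj x₁ z ((hmem₁ z).mp hz)), Finset.sum_const,
      smul_eq_mul]
  have hs₂ : ∑ z ∈ K₂, (F z).card = K₂.card * (F x₂).card := by
    rw [Finset.sum_congr rfl (fun z hz => hconj x₂ z ((hmem₂ z).mp hz)), Finset.sum_const,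
      smul_eq_mul]
  rw [hs₁, hs₂] at hdc
  obtain ⟨c₁, hc₁'⟩ : ∃ c, c = Nat.card (Subgroup.centralizer ({x₁} : Set G)) := ⟨_, rfl⟩
  obtain ⟨c₂, hc₂'⟩ : ∃ c, c = Nat.card (Subgroup.centralizer ({x₂} : Set G)) := ⟨_, rfl⟩
  rw [← hc₁'] at hc₁ ⊢
  rw [← hc₂'] at hc₂ ⊢
  have hpos : 0 < Nat.card G := Nat.card_pos
  apply Nat.eq_of_mul_eq_mul_left hpos
  calc Nat.card G * Nat.card G = (K₁.card * c₁) * (K₂.card * c₂) := by rw [hc₁, hc₂]
    _ = c₁ * c₂ * (K₁.card * K₂.card) := by ring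
    _ = c₁ * c₂ * (K₁.card * (F x₁).card + K₂.card * (F x₂).card) := by rw [hdc]
    _ = (K₁.card * c₁) * (c₂ * (F x₁).card) + (K₂.card * c₂) * (c₁ * (F x₂).card) := by ring
    _ = Nat.card G * (c₂ * (F x₁).card + c₁ * (F x₂).card) := by rw [hc₁, hc₂]; ring

end Cfsg.Agent.S0213
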