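import Cfsg.Statements.S0216
import Mathlib
import Cfsg.Agent.Helper2.Sylow2

set_option autoImplicit false
open Cfsg

namespace Cfsg.Agent.S0216

open Cfsg.Agent.Helper2

/-- For an involution u in a Sylow 2-subgroup P of a finite group G, the following are equivalent: no G-conjugate of u other than u lies in P; every commutator of u with an element of G has odd order. -/
theorem result {G : Type*} [Group G] [Finite G] (P : Sylow 2 G) (u : G) (hu : orderOf u = 2) (huP : u ∈ P) : (∀ g : G, g * u * g⁻¹ ∈ P → g * u * g⁻¹ = u) ↔ (∀ g : G, Odd (orderOf (u * g * u⁻¹ * g⁻¹))) := by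
  haveI : Fact (Nat.Prime 2) := ⟨Nat.prime_two⟩
  have hcomm_eq : ∀ g : G, u * g * u⁻¹ * g⁻¹ = u * (g * u * g⁻¹) := by
    intro g
    rw [inv_of_orderOf_two hu]
    simp [mul_assoc]
  constructor
  · intro hiso g
    rw [hcomm_eq]
    set v := g * u * g⁻¹ with hv
    have hv2 : orderOf v = 2 := by rw [hv, orderOf_conj_eq, hu]
    by_contra hodd
    rw [Nat.not_odd_iff_even] at hodd
    obtain ⟨z, hz2, hzu, hzv, hzmem⟩ := exists_central_invol u v hu hv2 hodd
    obtain ⟨k, hk⟩ := Subgroup.mem_zpowers_iff.mp hzmem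
    have hconj : IsConj u (u * z) := by
      rw [← hk]
      rcases Int.emod_two_eq_zero_or_one k with h | h
      · have hk2 : k = 2 * (k / 2) := by omega
        rw [hk2]
        exact isConj_mul_even_zpow u v hu hv2 _
      · have hk2 : k = 2 * (k / 2) + 1 := by omega
        rw [hk2]
        have h1 := isConj_mul_odd_zpow u v hu hv2 (k / 2)
        have h2 : IsConj u v := isConj_iff.mpr ⟨g, rfl⟩
        exact h2.trans h1
    have hcomm : Commute u (u * z) := by
      show u * (u * z) = u * z * u
      rw [mul_assoc, hzu.eq]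
    have := eq_of_isolated P u hu hiso (u * z) hconj hcomm
    have hz1 : z = 1 := by
      have : u * z = u * 1 := by rw [mul_one]; exact this
      exact mul_left_cancel this
    exact ne_one_of_orderOf_two hz2 hz1
  · intro hodd g hg
    have h1 := hodd g
    rw [hcomm_eq] at h1
    have hmem : u * (g * u * g⁻¹) ∈ P := mul_mem huP hg
    obtain ⟨k, hk⟩ := P.isPGroup' ⟨_, hmem⟩
    have hk' : (u * (g * u * g⁻¹)) ^ 2 ^ k = 1 := by
      have := congrArg Subtype.val hk
      simpa using this
    have h2 : orderOf (u * (g * u * g⁻¹)) ∣ 2 ^ k := orderOf_dvd_of_pow_eq_one hk'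
    have h3 : orderOf (u * (g * u * g⁻¹)) = 1 := by
      obtain ⟨j, -, hj⟩ := (Nat.dvd_prime_pow Nat.prime_two).mp h2
      rw [hj] at h1 ⊢
      rcases j with _ | j
      · rfl
      · exfalso
        rw [pow_succ] at h1
        exact (Nat.not_even_iff_odd.mpr h1) (even_two.mul_left _)
    rw [orderOf_eq_one_iff] at h3
    have h4 : g * u * g⁻¹ = u⁻¹ := eq_inv_of_mul_eq_one_right h3
    rw [h4, inv_of_orderOf_two hu]

end Cfsg.Agent.S0216
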