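import Cfsg.Statements.S0218
import Mathlib

set_option autoImplicit false
open Cfsg

namespace Cfsg.Agent.S0218

theorem aux_eq (N : ℕ) (hN : 0 < N) (i : ZMod (2 * N)) (h2 : i + i = 0) (h0 : i ≠ 0) :
    i = (N : ZMod (2 * N)) := by
  haveI : NeZero (2 * N) := ⟨by omega⟩
  have hi : i = ((i.val : ℕ) : ZMod (2 * N)) := (ZMod.natCast_zmod_val i).symm
  have h3 : ((i.val + i.val : ℕ) : ZMod (2 * N)) = 0 := by
    rw [Nat.cast_add, ← hi, h2]
  rw [ZMod.natCast_eq_zero_iff] at h3
  have hlt : i.val < 2 * N := ZMod.val_lt i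
  have hne : i.val ≠ 0 := by
    intro h
    apply h0
    rw [hi, h, Nat.cast_zero]
  obtain ⟨k, hk⟩ := h3
  have hk1 : k = 1 := by
    rcases k with _ | _ | k
    · omega
    · rfl
    · exfalso
      have : 2 * N * (k + 1 + 1) ≥ 2 * N * 2 := Nat.mul_le_mul_left _ (by omega)
      omega
  subst hk1
  have : i.val = N := by omega
  rw [hi, this]

/-- The generalized quaternion group of order 2^(n+3) contains exactly one element of order 2. -/
theorem result (n : ℕ) : Nat.card {x : QuaternionGroup (2 ^ (n + 1)) // orderOf x = 2} = 1 := by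
  have hN : 0 < 2 ^ (n + 1) := by positivity
  haveI : NeZero (2 ^ (n + 1)) := ⟨by positivity⟩
  haveI : NeZero (2 * 2 ^ (n + 1)) := ⟨by positivity⟩
  rw [Nat.card_eq_one_iff_unique]
  have hNne : ((2 ^ (n + 1) : ℕ) : ZMod (2 * 2 ^ (n + 1))) ≠ 0 := by
    rw [Ne, ZMod.natCast_eq_zero_iff]
    intro h
    have := Nat.le_of_dvd hN h
    omega
  have horder : orderOf (QuaternionGroup.a ((2 ^ (n + 1) : ℕ) : ZMod (2 * 2 ^ (n + 1)))) = 2 := by
    apply orderOf_eq_prime
    · rw [pow_two, QuaternionGroup.a_mul_a, QuaternionGroup.one_def]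
      congr 1
      rw [← Nat.cast_add, ZMod.natCast_eq_zero_iff]
      exact ⟨1, by ring⟩
    · rw [QuaternionGroup.one_def]
      intro h
      exact hNne (QuaternionGroup.a.inj h)
  constructor
  · constructor
    intro x y
    obtain ⟨x, hx⟩ := x
    obtain ⟨y, hy⟩ := y
    have key : ∀ z : QuaternionGroup (2 ^ (n + 1)), orderOf z = 2 →
        z = QuaternionGroup.a ((2 ^ (n + 1) : ℕ) : ZMod (2 * 2 ^ (n + 1))) := by
      intro z hz
      cases z with
      | a i =>
        congr 1
        apply aux_eq _ hN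
        · have h1 := pow_orderOf_eq_one (QuaternionGroup.a i)
          rw [hz, pow_two, QuaternionGroup.a_mul_a, QuaternionGroup.one_def] at h1
          exact QuaternionGroup.a.inj h1
        · intro h0
          rw [h0, QuaternionGroup.a_zero, orderOf_one] at hz
          omega
      | xa i =>
        rw [QuaternionGroup.orderOf_xa] at hz
        omega
    apply Subtype.ext
    show x = y
    rw [key x hx, key y hy]
  · exact ⟨⟨_, horder⟩⟩

end Cfsg.Agent.S0218
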