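import Cfsg.Statements.S0220
import Mathlib
import Cfsg.Agent.Helper2.Sylow2
import Cfsg.Agent.S0219

set_option autoImplicit false
open Cfsg

namespace Cfsg.Agent.S0220

open Cfsg.Agent.Helper2

/-- If x is an involution of a finite group G and a Sylow 2-subgroup of the centralizer of x is cyclic, then G has a subgroup of index 2; in particular G is not simple unless it has order 2. -/
theorem result {G : Type*} [Group G] [Finite G] (x : G) (hx : orderOf x = 2) (S : Sylow 2 ↥(Subgroup.centralizer ({x} : Set G))) (hS : IsCyclic (S : Subgroup ↥(Subgroup.centralizer ({x} : Set G)))) : ∃ H : Subgroup G, H.index = 2 := by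
  classical
  haveI : Fact (Nat.Prime 2) := ⟨Nat.prime_two⟩
  obtain ⟨T, hxT, -⟩ := exists_sylow_of_commute x x hx hx (Commute.refl x)
  have hK : IsPGroup 2 ((T : Subgroup G) ⊓ Subgroup.centralizer ({x} : Set G) : Subgroup G) :=
    IsPGroup.to_le T.isPGroup' inf_le_left
  have hK' : IsPGroup 2 (((T : Subgroup G) ⊓ Subgroup.centralizer ({x} : Set G)).subgroupOf
      (Subgroup.centralizer ({x} : Set G))) := hK.comap_subtype
  obtain ⟨S', hS'⟩ := hK'.exists_le_sylow
  haveI hScyc : IsCyclic S := hS
  haveI : IsCyclic S' := by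
    have e : S ≃* S' := Sylow.equiv S S'
    exact isCyclic_of_surjective e e.surjective
  let f : ↥((T : Subgroup G) ⊓ Subgroup.centralizer ({x} : Set G)) →* S' :=
    { toFun := fun k => ⟨⟨k.1, k.2.2⟩, hS' (Subgroup.mem_subgroupOf.mpr k.2)⟩
      map_one' := rfl
      map_mul' := fun a b => rfl }
  have hf : Function.Injective f := by
    intro a b hab
    have := congrArg (fun s : S' => ((s : Subgroup.centralizer ({x} : Set G)) : G)) hab
    exact Subtype.ext this
  haveI hKcyc : IsCyclic ↥((T : Subgroup G) ⊓ Subgroup.centralizer ({x} : Set G)) :=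
    isCyclic_of_injective f hf
  haveI : Nontrivial T :=
    ⟨⟨⟨x, hxT⟩, 1, fun h => ne_one_of_orderOf_two hx (congrArg Subtype.val h)⟩⟩
  haveI := IsPGroup.center_nontrivial T.isPGroup'
  have hZ : IsPGroup 2 (Subgroup.center T) := IsPGroup.to_subgroup T.isPGroup' _
  obtain ⟨k, hk⟩ := hZ.exists_card_eq
  have h2 : 2 ∣ Nat.card (Subgroup.center T) := by
    rw [hk]
    have hk0 : k ≠ 0 := by
      intro h0
      rw [h0, pow_zero] at hk
      have := Finite.one_lt_card (α := Subgroup.center T)
      omega
    exact dvd_pow_self 2 hk0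
  obtain ⟨z, hz⟩ := exists_prime_orderOf_dvd_card' 2 h2
  have hz2 : orderOf (z.1.1 : G) = 2 := by
    rw [Subgroup.orderOf_coe, Subgroup.orderOf_coe]; exact hz
  have hzc : ∀ g : T, g * z.1 = z.1 * g := fun g => Subgroup.mem_center_iff.mp z.2 g
  have hzx : Commute (z.1.1 : G) x := by
    have := congrArg Subtype.val (hzc ⟨x, hxT⟩)
    exact this.symm
  let x' : ↥((T : Subgroup G) ⊓ Subgroup.centralizer ({x} : Set G)) :=
    ⟨x, hxT, mem_centralizer_singleton_iff.mpr (Commute.refl x)⟩
  let z' : ↥((T : Subgroup G) ⊓ Subgroup.centralizer ({x} : Set G)) :=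
    ⟨z.1.1, z.1.2, mem_centralizer_singleton_iff.mpr hzx⟩
  have hxz : x' = z' := by
    by_contra hne
    haveI : Fintype ↥((T : Subgroup G) ⊓ Subgroup.centralizer ({x} : Set G)) := Fintype.ofFinite _
    have hle := IsCyclic.card_pow_eq_one_le
      (α := ↥((T : Subgroup G) ⊓ Subgroup.centralizer ({x} : Set G))) (n := 2) (by norm_num)
    have h1x : (1 : ↥((T : Subgroup G) ⊓ Subgroup.centralizer ({x} : Set G))) ≠ x' := by
      intro h
      exact ne_one_of_orderOf_two hx (congrArg Subtype.val h).symm
    have h1z : (1 : ↥((T : Subgroup G) ⊓ Subgroup.centralizer ({x} : Set G))) ≠ z' := by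
      intro h
      exact ne_one_of_orderOf_two hz2 (congrArg Subtype.val h).symm
    have hsub : ({1, x', z'} : Finset ↥((T : Subgroup G) ⊓ Subgroup.centralizer ({x} : Set G))) ⊆
        Finset.univ.filter (fun a => a ^ 2 = 1) := by
      intro a ha
      simp only [Finset.mem_insert, Finset.mem_singleton] at ha
      rw [Finset.mem_filter]
      refine ⟨Finset.mem_univ _, ?_⟩
      rcases ha with rfl | rfl | rfl
      · simp
      · apply Subtype.ext
        show x ^ 2 = 1
        have hpx := pow_orderOf_eq_one x
        rw [hx] at hpx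
        exact hpx
      · apply Subtype.ext
        show (z.1.1 : G) ^ 2 = 1
        have hpz := pow_orderOf_eq_one (z.1.1 : G)
        rw [hz2] at hpz
        exact hpz
    have hcard : ({1, x', z'} : Finset ↥((T : Subgroup G) ⊓ Subgroup.centralizer ({x} : Set G))).card
        = 3 := by
      rw [Finset.card_insert_of_notMem, Finset.card_insert_of_notMem, Finset.card_singleton]
      · simpa using hne
      · simp only [Finset.mem_insert, Finset.mem_singleton, not_or]
        exact ⟨h1x, h1z⟩
    have := Finset.card_le_card hsub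
    omega
  have hxz' : x = z.1.1 := congrArg Subtype.val hxz
  have hxc : ∀ g ∈ T, Commute g x := by
    intro g hg
    have := congrArg Subtype.val (hzc ⟨g, hg⟩)
    rw [hxz']
    exact this
  have hTC : (T : Subgroup G) ⊓ Subgroup.centralizer ({x} : Set G) = T :=
    inf_eq_left.mpr (fun g hg => mem_centralizer_singleton_iff.mpr (hxc g hg))
  have hTcyc : IsCyclic (T : Subgroup G) := by
    have := hKcyc
    rwa [hTC] at this
  have heven : Even (Nat.card G) := by
    rw [even_iff_two_dvd, ← hx]; exact orderOf_dvd_natCard x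
  exact Cfsg.Agent.S0219.result heven T hTcyc

end Cfsg.Agent.S0220
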