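import Cfsg.Statements.S0221
import Mathlib
import Cfsg.Agent.Helper2.NormalFour
import Cfsg.Agent.Helper1.Hall

set_option autoImplicit false
open Cfsg

namespace Cfsg.Agent.S0221

open Cfsg.Agent.Helper2 in
theorem exists_eight {G : Type*} [Group G] (V : Subgroup G) (hV4 : Nat.card V = 4)
    (hV2 : ∀ y ∈ V, y * y = 1) (b t : G) (hb2 : b * b = 1) (hbV : b ∉ V)
    (hbc : ∀ y ∈ V, b * y = y * b) (htc : ∀ y ∈ V, t * y = y * t) (htb : t * b = b * t) :
    ∃ W : Subgroup G, W ≤ Subgroup.centralizer ({t} : Set G) ∧ Nat.card W = 8 ∧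
      ∀ w ∈ W, w ^ 2 = 1 := by
  have hb1 : b ≠ 1 := by
    rintro rfl; exact hbV V.one_mem
  obtain ⟨W, -, -, hcard, hmem⟩ := exists_prod_sub V (Subgroup.zpowers b)
    (fun y hy c hc => by
      rcases mem_zpowers_of_sq_one hb2 hc with h | h
      · rw [h]; simp
      · rw [h]; exact (hbc y hy).symm)
    (fun y hy hy' => by
      rcases mem_zpowers_of_sq_one hb2 hy' with h | h
      · exact h
      · exact absurd (h ▸ hy) hbV)
  refine ⟨W, ?_, by rw [hcard, hV4, card_zpowers_of_sq_one hb2 hb1], ?_⟩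
  · intro w hw
    obtain ⟨y, hy, c, hc, rfl⟩ := hmem w hw
    rw [Subgroup.mem_centralizer_iff]
    intro u hu
    rw [Set.mem_singleton_iff] at hu
    subst hu
    rcases mem_zpowers_of_sq_one hb2 hc with h | h
    · rw [h]; simpa using htc y hy
    · rw [h, ← mul_assoc, htc y hy, mul_assoc, htb, ← mul_assoc]
  · intro w hw
    obtain ⟨y, hy, c, hc, rfl⟩ := hmem w hw
    rw [pow_two]
    rcases mem_zpowers_of_sq_one hb2 hc with h | h
    · rw [h]; simpa using hV2 y hy
    · rw [h]
      calc y * b * (y * b) = y * (b * y) * b := by group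
        _ = y * (y * b) * b := by rw [hbc y hy]
        _ = (y * y) * (b * b) := by group
        _ = 1 := by rw [hV2 y hy, hb2, one_mul]

/-- Let G be a finite group with no subgroup of index 2 whose 2-rank is at least 3 (it contains an elementary abelian subgroup of order 8). Then the centralizer of every involution of G also contains an elementary abelian subgroup of order 8. -/
theorem result {G : Type*} [Group G] [Finite G] (hno : ∀ H : Subgroup G, H.index ≠ 2) (hrank : ∃ E : Subgroup G, Nat.card E = 8 ∧ ∀ e ∈ E, e ^ 2 = 1) (x : G) (hx : orderOf x = 2) : ∃ E : Subgroup G, E ≤ Subgroup.centralizer ({x} : Set G) ∧ Nat.card E = 8 ∧ ∀ e ∈ E, e ^ 2 = 1 := by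
  classical
  haveI : Fact (Nat.Prime 2) := ⟨Nat.prime_two⟩
  obtain ⟨E₀, hE₀8, hE₀2⟩ := hrank
  have hx2 : x * x = 1 := by
    have := pow_orderOf_eq_one x
    rwa [hx, pow_two] at this
  have hxp : IsPGroup 2 (Subgroup.zpowers x) :=
    IsPGroup.of_card (n := 1) (by rw [Nat.card_zpowers, hx, pow_one])
  obtain ⟨S, hS⟩ := hxp.exists_le_sylow
  have hxS : x ∈ (S : Subgroup G) := hS (Subgroup.mem_zpowers x)
  have hE₀p : IsPGroup 2 E₀ := IsPGroup.of_card (n := 3) (by rw [hE₀8]; norm_num)
  obtain ⟨S', hS'⟩ := hE₀p.exists_le_sylow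
  obtain ⟨g, hg⟩ := MulAction.exists_smul_eq G S' S
  obtain ⟨E, hEdef⟩ : ∃ E : Subgroup G, E = E₀.map (MulAut.conj g).toMonoidHom := ⟨_, rfl⟩
  have hES : E ≤ S := by
    rw [hEdef]
    rintro y ⟨e, he, rfl⟩
    rw [← hg, Sylow.coe_subgroup_smul]
    exact Subgroup.smul_mem_pointwise_smul e (MulAut.conj g) (S' : Subgroup G) (hS' he)
  have hE8 : Nat.card E = 8 := by
    rw [hEdef, Subgroup.card_map_of_injective (MulAut.conj g).injective, hE₀8]
  have hE2 : ∀ e ∈ E, e * e = 1 := by
    rw [hEdef]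
    rintro y ⟨e, he, rfl⟩
    have h1 := hE₀2 e he
    rw [pow_two] at h1
    simp only [MulEquiv.coe_toMonoidHom, MulAut.conj_apply]
    calc g * e * g⁻¹ * (g * e * g⁻¹) = g * (e * e) * g⁻¹ := by group
      _ = 1 := by rw [h1]; group
  -- the pair inside S
  have hSp : IsPGroup 2 ↥(S : Subgroup G) := S.isPGroup'
  have hE'8 : Nat.card (E.subgroupOf (S : Subgroup G)) = 8 := by
    rw [Nat.card_congr (Subgroup.subgroupOfEquivOfLe hES).toEquiv, hE8]
  have hE'2 : ∀ e ∈ E.subgroupOf (S : Subgroup G), e * e = 1 := by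
    intro e he
    rw [Subgroup.mem_subgroupOf] at he
    exact Subtype.ext (hE2 _ he)
  obtain ⟨z', v', hzc', hz1', hz2', hv2', hv1', hvz', hconj'⟩ :=
    Cfsg.Agent.Helper2.exists_pair hSp _ hE'8 hE'2
  obtain ⟨z, hzS⟩ := z'
  obtain ⟨v, hvS⟩ := v'
  have hzc : ∀ s ∈ (S : Subgroup G), s * z = z * s := fun s hs =>
    congrArg Subtype.val (hzc' ⟨s, hs⟩)
  have hz1 : z ≠ 1 := fun h => hz1' (Subtype.ext h)
  have hz2 : z * z = 1 := congrArg Subtype.val hz2'
  have hv2 : v * v = 1 := congrArg Subtype.val hv2'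
  have hv1 : v ≠ 1 := fun h => hv1' (Subtype.ext h)
  have hvz : v ≠ z := fun h => hvz' (Subtype.ext h)
  have hconj : ∀ s ∈ (S : Subgroup G), s * v * s⁻¹ = v ∨ s * v * s⁻¹ = v * z := by
    intro s hs
    rcases hconj' ⟨s, hs⟩ with h | h
    · left; exact congrArg Subtype.val h
    · right; exact congrArg Subtype.val h
  obtain ⟨V, hV4, hzV, hvV, hVmem⟩ :=
    Cfsg.Agent.Helper2.exists_four z v hz2 hv2 (hzc v hvS).symm hz1 hv1 hvz
  have hV2 : ∀ y ∈ V, y * y = 1 := by
    intro y hy
    rcases (hVmem y).mp hy with rfl | rfl | rfl | rfl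
    · simp
    · exact hz2
    · exact hv2
    · calc v * z * (v * z) = v * (z * v) * z := by group
        _ = v * (v * z) * z := by rw [(hzc v hvS).symm]
        _ = (v * v) * (z * z) := by group
        _ = 1 := by rw [hv2, hz2, one_mul]
  have K1 : ∀ t ∈ (S : Subgroup G), t * v = v * t → ∀ y ∈ V, t * y = y * t := by
    intro t htS htv y hy
    rcases (hVmem y).mp hy with rfl | rfl | rfl | rfl
    · simp
    · exact hzc t htS
    · exact htv
    · calc t * (v * z) = (t * v) * z := by group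
        _ = v * (t * z) := by rw [htv]; group
        _ = v * z * t := by rw [hzc t htS]; group
  have K2 : ∀ s ∈ (S : Subgroup G), ¬ (s * v = v * s) → s * v * s⁻¹ = v * z := by
    intro s hs hsv
    rcases hconj s hs with h | h
    · exfalso; apply hsv
      calc s * v = (s * v * s⁻¹) * s := by group
        _ = v * s := by rw [h]
    · exact h
  have hconjz : ∀ s ∈ (S : Subgroup G), s * z * s⁻¹ = z := by
    intro s hs
    rw [hzc s hs]; group
  have hEc : ∀ a ∈ E, ∀ b ∈ E, a * b = b * a := fun a ha b hb =>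
    Cfsg.Agent.Helper2.comm_of_sq_one (hE2 a ha) (hE2 b hb) (hE2 _ (E.mul_mem ha hb))
  have K3 : ∃ a ∈ E, a * v = v * a ∧ a ∉ V := by
    by_contra hX
    push Not at hX
    have hnle : ¬ E ≤ V := by
      intro hle
      have := Subgroup.card_le_of_le hle
      omega
    obtain ⟨e₁, he₁E, he₁V⟩ := SetLike.not_le_iff_exists.mp hnle
    have he₁v : ¬ (e₁ * v = v * e₁) := fun h => he₁V (hX e₁ he₁E h)
    have he₁c := K2 e₁ (hES he₁E) he₁v
    have hrel : V.relIndex E = 2 := by
      rw [Subgroup.relIndex_eq_two_iff]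
      refine ⟨e₁, he₁E, fun b hb => ?_⟩
      by_cases hbV : b ∈ V
      · right
        refine ⟨hbV, fun h => he₁V ?_⟩
        have := V.mul_mem (V.inv_mem hbV) h
        simpa using this
      · left
        refine ⟨?_, hbV⟩
        apply hX (b * e₁) (E.mul_mem hb he₁E)
        have hbv : ¬ (b * v = v * b) := fun h => hbV (hX b hb h)
        have hbc := K2 b (hES hb) hbv
        have h1 : (b * e₁) * v * (b * e₁)⁻¹ = v := by
          calc (b * e₁) * v * (b * e₁)⁻¹ = b * (e₁ * v * e₁⁻¹) * b⁻¹ := by group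
            _ = b * (v * z) * b⁻¹ := by rw [he₁c]
            _ = (b * v * b⁻¹) * (b * z * b⁻¹) := by group
            _ = v * z * z := by rw [hbc, hconjz b (hES hb)]
            _ = v := by rw [mul_assoc, hz2, mul_one]
        calc (b * e₁) * v = ((b * e₁) * v * (b * e₁)⁻¹) * (b * e₁) := by group
          _ = v * (b * e₁) := by rw [h1]
    have hc1 : Nat.card (V.subgroupOf E) * 2 = 8 := by
      have := Subgroup.card_mul_index (V.subgroupOf E)
      rw [hE8] at this
      have hrel' : (V.subgroupOf E).index = 2 := hrel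
      rw [hrel'] at this
      exact this
    have hc2 : Nat.card ↥(V ⊓ E) = Nat.card (V.subgroupOf E) := by
      rw [← Subgroup.inf_subgroupOf_right V E]
      exact (Nat.card_congr (Subgroup.subgroupOfEquivOfLe (inf_le_right : V ⊓ E ≤ E)).toEquiv).symm
    have hVE : V ⊓ E = V := Subgroup.eq_of_le_of_card_ge inf_le_left (by omega)
    have hvE' : v ∈ V ⊓ E := by rw [hVE]; exact hvV
    have hvE : v ∈ E := hvE'.2
    exact he₁v (hEc e₁ he₁E v hvE)
  obtain ⟨a, haE, hav, haV⟩ := K3
  have K4 : ∀ t ∈ (S : Subgroup G), t * t = 1 → t * v = v * t →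
      ∃ W : Subgroup G, W ≤ Subgroup.centralizer ({t} : Set G) ∧ Nat.card W = 8 ∧
        ∀ w ∈ W, w ^ 2 = 1 := by
    intro t htS ht2 htv
    by_cases htV : t ∈ V
    · exact exists_eight V hV4 hV2 a t (hE2 a haE) haV (K1 a (hES haE) hav) (K1 t htS htv)
        (K1 a (hES haE) hav t htV).symm
    · exact exists_eight V hV4 hV2 t t ht2 htV (K1 t htS htv) (K1 t htS htv) rfl
  by_cases hxv : x * v = v * x
  · exact K4 x hxS hx2 hxv
  · have hxc := K2 x hxS hxv
    have hTmem : ∀ t, t ∈ (S : Subgroup G) ⊓ Subgroup.centralizer ({v} : Set G) ↔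
        t ∈ (S : Subgroup G) ∧ t * v = v * t := by
      intro t
      rw [Subgroup.mem_inf, Subgroup.mem_centralizer_iff]
      constructor
      · rintro ⟨h1, h2⟩; exact ⟨h1, (h2 v rfl).symm⟩
      · rintro ⟨h1, h2⟩
        refine ⟨h1, fun u hu => ?_⟩
        rw [Set.mem_singleton_iff] at hu
        rw [hu]; exact h2.symm
    have hrel : ((S : Subgroup G) ⊓ Subgroup.centralizer ({v} : Set G)).relIndex
        (S : Subgroup G) = 2 := by
      rw [Subgroup.relIndex_eq_two_iff]
      refine ⟨x, hxS, fun b hb => ?_⟩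
      by_cases hbv : b * v = v * b
      · right
        refine ⟨(hTmem b).mpr ⟨hb, hbv⟩, fun h => hxv ?_⟩
        have h1 := ((hTmem _).mp h).2
        calc x * v = b⁻¹ * ((b * x) * v) := by group
          _ = b⁻¹ * (v * (b * x)) := by rw [h1]
          _ = b⁻¹ * (v * b) * x := by group
          _ = b⁻¹ * (b * v) * x := by rw [hbv]
          _ = v * x := by group
      · left
        refine ⟨(hTmem _).mpr ⟨(S : Subgroup G).mul_mem hb hxS, ?_⟩, fun h => hbv ((hTmem b).mp h).2⟩
        have hbc := K2 b hb hbv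
        have h1 : (b * x) * v * (b * x)⁻¹ = v := by
          calc (b * x) * v * (b * x)⁻¹ = b * (x * v * x⁻¹) * b⁻¹ := by group
            _ = b * (v * z) * b⁻¹ := by rw [hxc]
            _ = (b * v * b⁻¹) * (b * z * b⁻¹) := by group
            _ = v * z * z := by rw [hbc, hconjz b hb]
            _ = v := by rw [mul_assoc, hz2, mul_one]
        calc (b * x) * v = ((b * x) * v * (b * x)⁻¹) * (b * x) := by group
          _ = v * (b * x) := by rw [h1]
    rcases Cfsg.Agent.Helper1.thompson_transfer S _ inf_le_left hrel x hx with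
      ⟨M, -, hM2, -⟩ | ⟨k, hk⟩
    · exact absurd hM2 (hno M)
    · obtain ⟨hkS, hkv⟩ := (hTmem _).mp hk
      have hk2 : (k * x * k⁻¹) * (k * x * k⁻¹) = 1 := by
        calc (k * x * k⁻¹) * (k * x * k⁻¹) = k * (x * x) * k⁻¹ := by group
          _ = 1 := by rw [hx2]; group
      obtain ⟨W, hWc, hW8, hW2⟩ := K4 _ hkS hk2 hkv
      refine ⟨W.map (MulAut.conj k⁻¹).toMonoidHom, ?_, ?_, ?_⟩
      · rintro y ⟨w, hw, rfl⟩
        have h1 := Subgroup.mem_centralizer_iff.mp (hWc hw) _ rfl
        rw [Subgroup.mem_centralizer_iff]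
        intro u hu
        rw [Set.mem_singleton_iff] at hu
        subst hu
        simp only [MulEquiv.coe_toMonoidHom, MulAut.conj_apply, inv_inv]
        calc u * (k⁻¹ * w * k) = k⁻¹ * ((k * u * k⁻¹) * w) * k := by group
          _ = k⁻¹ * (w * (k * u * k⁻¹)) * k := by rw [h1]
          _ = k⁻¹ * w * k * u := by group
      · rw [Subgroup.card_map_of_injective (MulAut.conj k⁻¹).injective, hW8]
      · rintro y ⟨w, hw, rfl⟩
        rw [← map_pow, hW2 w hw, map_one]

end Cfsg.Agent.S0221
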