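import Cfsg.Statements.S0226
import Mathlib

set_option autoImplicit false
open Cfsg

namespace Cfsg.Agent.S0226

theorem mul_self_of_orderOf_two {G : Type*} [Group G] {u : G} (h : orderOf u = 2) : u * u = 1 := by
  have := pow_orderOf_eq_one u
  rw [h, pow_two] at this
  exact this

theorem inv_of_orderOf_two {G : Type*} [Group G] {u : G} (h : orderOf u = 2) : u⁻¹ = u :=
  inv_eq_of_mul_eq_one_left (mul_self_of_orderOf_two h)

/-- A finite group of even order has an odd number of involutions. -/
theorem result {G : Type*} [Group G] [Finite G] (heven : Even (Nat.card G)) : Odd (Nat.card {t : G // orderOf t = 2}) := by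
  classical
  haveI : Fintype G := Fintype.ofFinite G
  let f : Function.End G := fun g => g⁻¹
  have hf : f ^ 2 ^ 1 = 1 := by
    rw [pow_one, pow_two]
    funext g
    show (g⁻¹)⁻¹ = g
    simp
  haveI : Fact (Nat.Prime 2) := ⟨Nat.prime_two⟩
  have h1 := Equiv.Perm.card_fixedPoints_modEq (p := 2) (n := 1) hf
  have h2 : Fintype.card (Function.fixedPoints f) = Nat.card {t : G // orderOf t = 2} + 1 := by
    rw [← Nat.card_eq_fintype_card, ← Finite.card_option]
    apply Nat.card_congr
    refine
      { toFun := fun g => if h : g.1 = 1 then none else some ⟨g.1, ?_⟩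
        invFun := fun o => match o with
          | none => ⟨1, inv_one⟩
          | some t => ⟨t.1, inv_of_orderOf_two t.2⟩
        left_inv := ?_
        right_inv := ?_ }
    · have hg : g.1⁻¹ = g.1 := g.2
      apply orderOf_eq_prime _ h
      rw [pow_two]
      nth_rewrite 1 [← hg]
      exact inv_mul_cancel g.1
    · intro g
      by_cases h : g.1 = 1
      · simp only [h, dite_true]
        exact Subtype.ext h.symm
      · simp only [h, dite_false]
    · intro o
      cases o with
      | none => simp
      | some t =>
        have : t.1 ≠ 1 := by
          intro h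
          have := t.2
          rw [h, orderOf_one] at this
          omega
        simp [this]
  rw [h2, ← Nat.card_eq_fintype_card] at h1
  have h3 : Nat.card G % 2 = 0 := Nat.even_iff.mp heven
  rw [Nat.odd_iff]
  have := h1
  unfold Nat.ModEq at this
  omega

end Cfsg.Agent.S0226
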