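import Cfsg.Statements.S0229
import Mathlib
import Cfsg.Agent.Helper2.Sylow2

set_option autoImplicit false
open Cfsg

namespace Cfsg.Agent.S0229

open Cfsg.Agent.Helper2

/-- Let t be an involution of a Sylow 2-subgroup S of a finite group G, conjugate in G to no other element of S, and let s be an involution of G not conjugate to t. Then the order of st is twice an odd number. -/
theorem result {G : Type*} [Group G] [Finite G] (S : Sylow 2 G) (t : G) (ht : orderOf t = 2) (htS : t ∈ S) (hiso : ∀ g : G, g * t * g⁻¹ ∈ S → g * t * g⁻¹ = t) (s : G) (hs : orderOf s = 2) (hns : ¬ IsConj s t) : orderOf (s * t) % 4 = 2 := by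
  have heven := even_orderOf_mul_of_not_isConj s t hs ht hns
  have hpos : 0 < orderOf (s * t) := orderOf_pos _
  by_contra hne
  have h4 : orderOf (s * t) % 4 = 0 := by
    have := Nat.even_iff.mp heven
    omega
  obtain ⟨q, hq⟩ := Nat.dvd_of_mod_eq_zero h4
  have hqpos : 0 < q := by omega
  have hord : orderOf (t * s) = orderOf (s * t) := by
    have : t * s = t * (s * t) * t⁻¹ := by simp [mul_assoc]
    rw [this, orderOf_conj_eq]
  have hr4 : (t * s) ^ (2 * (q : ℤ)) * (t * s) ^ (2 * (q : ℤ)) = 1 := by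
    rw [← zpow_add]
    have : 2 * (q : ℤ) + 2 * (q : ℤ) = ((4 * q : ℕ) : ℤ) := by push_cast; ring
    rw [this, zpow_natCast, ← hq, ← hord, pow_orderOf_eq_one]
  have hconj : IsConj t (t * (t * s) ^ (2 * (q : ℤ))) := isConj_mul_even_zpow t s ht hs q
  have hcomm : Commute t (t * (t * s) ^ (2 * (q : ℤ))) := by
    show t * (t * (t * s) ^ (2 * (q : ℤ))) = t * (t * s) ^ (2 * (q : ℤ)) * t
    rw [mul_assoc]
    congr 1
    rw [invol_mul_zpow t s ht hs, zpow_neg]
    congr 1
    exact inv_eq_of_mul_eq_one_left hr4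
  have hw := eq_of_isolated S t ht hiso _ hconj hcomm
  have hz1 : (t * s) ^ (2 * (q : ℤ)) = 1 := by
    have : t * (t * s) ^ (2 * (q : ℤ)) = t * 1 := by rw [mul_one]; exact hw
    exact mul_left_cancel this
  have h5 : (t * s) ^ (2 * q) = 1 := by
    rw [← zpow_natCast]
    push_cast
    exact hz1
  have h6 := orderOf_dvd_of_pow_eq_one h5
  rw [hord, hq] at h6
  have := Nat.le_of_dvd (by omega) h6
  omega

end Cfsg.Agent.S0229
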