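import Cfsg.Statements.S0230
import Mathlib
import Cfsg.Agent.Helper2.Conj

set_option autoImplicit false
open Cfsg

namespace Cfsg.Agent.S0230

open Cfsg.Agent.Helper2

open Classical in
theorem card_centralizer_eq_filter {G : Type*} [Group G] [Fintype G] (z : G) :
    Nat.card (Subgroup.centralizer ({z} : Set G)) =
      (Finset.univ.filter (fun v : G => Commute v z)).card := by
  classical
  rw [Nat.card_eq_fintype_card, ← Fintype.card_subtype]
  apply Fintype.card_congr
  apply Equiv.subtypeEquivRight
  intro v
  exact mem_centralizer_singleton_iff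

/-- Let G be a finite group with two non-conjugate involutions, and let t be an involution whose centralizer has maximal order among centralizers of involutions. Then |G| < |C_G(t)|^3. -/
theorem result {G : Type*} [Group G] [Finite G] (s t : G) (hs : orderOf s = 2) (ht : orderOf t = 2) (hnc : ¬ IsConj s t) (hmax : ∀ u : G, orderOf u = 2 → Nat.card (Subgroup.centralizer ({u} : Set G)) ≤ Nat.card (Subgroup.centralizer ({t} : Set G))) : Nat.card G < Nat.card (Subgroup.centralizer ({t} : Set G)) ^ 3 := by
  classical
  haveI : Fintype G := Fintype.ofFinite G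
  set m := Nat.card (Subgroup.centralizer ({t} : Set G)) with hm
  have hmpos : 0 < m := Nat.card_pos
  -- the class of t
  let Ct : Finset G := Finset.univ.filter (fun v : G => IsConj t v)
  let A : Finset G := Finset.univ.filter (fun z : G => orderOf z = 2 ∧ Commute z s)
  let B : G → Finset G := fun z => Finset.univ.filter (fun v : G => Commute v z)
  have hCt : Ct.card * m = Nat.card G := by
    rw [← card_conj_mul_card_centralizer t]
    congr 1
    rw [Nat.card_eq_fintype_card, Fintype.card_subtype]
  have hsub : Ct ⊆ A.biUnion B := by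
    intro v hv
    rw [Finset.mem_filter] at hv
    have hv2 : orderOf v = 2 := by rw [IsConj.orderOf_eq' hv.2, ht]
    have hnc' : ¬ IsConj s v := fun h => hnc (h.trans hv.2.symm)
    obtain ⟨z, hz2, hzs, hzv, -⟩ :=
      exists_central_invol s v hs hv2 (even_orderOf_mul_of_not_isConj s v hs hv2 hnc')
    rw [Finset.mem_biUnion]
    refine ⟨z, ?_, ?_⟩
    · rw [Finset.mem_filter]
      exact ⟨Finset.mem_univ _, hz2, hzs⟩
    · rw [Finset.mem_filter]
      exact ⟨Finset.mem_univ _, hzv.symm⟩
  have hB : ∀ z ∈ A, (B z).card ≤ m := by
    intro z hz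
    rw [Finset.mem_filter] at hz
    rw [← card_centralizer_eq_filter z]
    exact hmax z hz.2.1
  have h1 : Ct.card ≤ A.card * m := by
    calc Ct.card ≤ (A.biUnion B).card := Finset.card_le_card hsub
      _ ≤ ∑ z ∈ A, (B z).card := Finset.card_biUnion_le
      _ ≤ ∑ _z ∈ A, m := Finset.sum_le_sum hB
      _ = A.card * m := by rw [Finset.sum_const, smul_eq_mul]
  have hA : A.card + 1 ≤ m := by
    have h2 : (insert (1 : G) A).card ≤ (Finset.univ.filter (fun v : G => Commute v s)).card := by
      apply Finset.card_le_card
      intro z hz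
      rw [Finset.mem_insert] at hz
      rw [Finset.mem_filter]
      refine ⟨Finset.mem_univ _, ?_⟩
      rcases hz with rfl | hz
      · exact Commute.one_left s
      · rw [Finset.mem_filter] at hz
        exact hz.2.2
    have h3 : (1 : G) ∉ A := by
      intro h
      rw [Finset.mem_filter] at h
      exact ne_one_of_orderOf_two h.2.1 rfl
    rw [Finset.card_insert_of_notMem h3, ← card_centralizer_eq_filter s] at h2
    exact h2.trans (hmax s hs)
  have h4 : Nat.card G ≤ (m - 1) * m * m := by
    rw [← hCt]
    apply Nat.mul_le_mul_right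
    calc Ct.card ≤ A.card * m := h1
      _ ≤ (m - 1) * m := Nat.mul_le_mul_right _ (by omega)
  have h5 : (m - 1) * m * m < m ^ 3 := by
    have : m ^ 3 = m * m * m := by ring
    rw [this]
    apply Nat.mul_lt_mul_of_pos_right _ hmpos
    apply Nat.mul_lt_mul_of_pos_right _ hmpos
    omega
  exact lt_of_le_of_lt h4 h5

end Cfsg.Agent.S0230
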