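import Cfsg.Statements.S0231
import Mathlib
import Cfsg.Agent.Helper2.Sylow2

set_option autoImplicit false
open scoped Pointwise
open Cfsg

namespace Cfsg.Agent.S0231

open Cfsg.Agent.Helper2
open scoped Pointwise

theorem ti_all {G : Type*} [Group G] [Finite G] (T : Sylow 2 G)
    (hTI : ∀ g : G, MulAut.conj g • (T : Subgroup G) ≠ T → MulAut.conj g • (T : Subgroup G) ⊓ T = ⊥)
    (Q1 Q2 : Sylow 2 G) (a : G) (ha : a ≠ 1) (h1 : a ∈ Q1) (h2 : a ∈ Q2) : Q1 = Q2 := by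
  haveI : Fact (Nat.Prime 2) := ⟨Nat.prime_two⟩
  obtain ⟨g1, hg1⟩ := MulAction.exists_smul_eq G T Q1
  obtain ⟨g2, hg2⟩ := MulAction.exists_smul_eq G T Q2
  rw [← hg1, mem_smul_sylow_iff] at h1
  rw [← hg2, mem_smul_sylow_iff] at h2
  by_cases hne : MulAut.conj (g1⁻¹ * g2) • (T : Subgroup G) = T
  · have h3 : (g1⁻¹ * g2) • T = T := Sylow.ext hne
    rw [← hg1, ← hg2]
    nth_rewrite 1 [← h3]
    rw [← mul_smul, mul_inv_cancel_left]
  · exfalso
    have h3 := hTI _ hne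
    have h4 : g1⁻¹ * a * g1 ∈ MulAut.conj (g1⁻¹ * g2) • (T : Subgroup G) ⊓ T := by
      refine Subgroup.mem_inf.mpr ⟨?_, h1⟩
      rw [mem_conj_smul_subgroup_iff]
      have : (g1⁻¹ * g2)⁻¹ * (g1⁻¹ * a * g1) * (g1⁻¹ * g2) = g2⁻¹ * a * g2 := by
        simp [mul_assoc]
      rw [this]
      exact h2
    rw [h3, Subgroup.mem_bot] at h4
    apply ha
    have : a = g1 * (g1⁻¹ * a * g1) * g1⁻¹ := by simp [mul_assoc]
    rw [this, h4]
    simp

theorem lemmaA {G : Type*} [Group G] [Finite G] (T : Sylow 2 G)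
    (hTI : ∀ g : G, MulAut.conj g • (T : Subgroup G) ≠ T → MulAut.conj g • (T : Subgroup G) ⊓ T = ⊥)
    (Q1 Q2 : Sylow 2 G) (a b : G) (ha : orderOf a = 2) (hb : orderOf b = 2) (h1 : a ∈ Q1)
    (h2 : b ∈ Q2) (hnc : ¬ IsConj a b) : Q1 = Q2 := by
  obtain ⟨z, hz2, hza, hzb, -⟩ :=
    exists_central_invol a b ha hb (even_orderOf_mul_of_not_isConj a b ha hb hnc)
  obtain ⟨Q3, ha3, hz3⟩ := exists_sylow_of_commute a z ha hz2 hza.symm
  obtain ⟨Q4, hb4, hz4⟩ := exists_sylow_of_commute b z hb hz2 hzb.symm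
  have e1 : Q3 = Q1 := ti_all T hTI Q3 Q1 a (ne_one_of_orderOf_two ha) ha3 h1
  have e2 : Q4 = Q2 := ti_all T hTI Q4 Q2 b (ne_one_of_orderOf_two hb) hb4 h2
  rw [e1] at hz3
  rw [e2] at hz4
  exact ti_all T hTI Q1 Q2 z (ne_one_of_orderOf_two hz2) hz3 hz4

/-- Let T be a Sylow 2-subgroup of the finite group G which is not normal and which intersects every other Sylow 2-subgroup trivially. Then G has a single conjugacy class of involutions. -/
theorem result {G : Type*} [Group G] [Finite G] (T : Sylow 2 G) (hnn : ¬ (T : Subgroup G).Normal) (hTI : ∀ g : G, MulAut.conj g • (T : Subgroup G) ≠ T → MulAut.conj g • (T : Subgroup G) ⊓ T = ⊥) (s t : G) (hs : orderOf s = 2) (ht : orderOf t = 2) : IsConj s t := by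
  haveI : Fact (Nat.Prime 2) := ⟨Nat.prime_two⟩
  by_contra hnc
  obtain ⟨Qs, hsQ, -⟩ := exists_sylow_of_commute s s hs hs (Commute.refl s)
  obtain ⟨Qt, htQ, -⟩ := exists_sylow_of_commute t t ht ht (Commute.refl t)
  have hQ : Qs = Qt := lemmaA T hTI Qs Qt s t hs ht hsQ htQ hnc
  subst hQ
  have hex : ∃ g : G, g • Qs ≠ Qs := by
    by_contra hall'
    have hall : ∀ g : G, g • Qs = Qs := fun g => by_contra (fun h => hall' ⟨g, h⟩)
    obtain ⟨h, hh⟩ := MulAction.exists_smul_eq G Qs T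
    have hT : T = Qs := by rw [← hh, hall h]
    apply hnn
    rw [hT, ← Subgroup.normalizer_eq_top_iff]
    ext g
    simp only [Subgroup.mem_top, iff_true]
    exact Sylow.smul_eq_iff_mem_normalizer.mp (hall g)
  obtain ⟨g, hg⟩ := hex
  have ht' : g * t * g⁻¹ ∈ g • Qs := by
    rw [mem_smul_sylow_iff]
    have : g⁻¹ * (g * t * g⁻¹) * g = t := by simp [mul_assoc]
    rw [this]
    exact htQ
  have ht2 : orderOf (g * t * g⁻¹) = 2 := by rw [orderOf_conj_eq, ht]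
  by_cases hc : IsConj s (g * t * g⁻¹)
  · apply hnc
    have h2 : IsConj t (g * t * g⁻¹) := isConj_iff.mpr ⟨g, rfl⟩
    exact hc.trans h2.symm
  · exact hg (lemmaA T hTI Qs (g • Qs) s (g * t * g⁻¹) hs ht2 hsQ ht' hc).symm

end Cfsg.Agent.S0231
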