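import Cfsg.Statements.S0233
import Mathlib

set_option autoImplicit false
open Cfsg

namespace Cfsg.Agent.S0233

lemma mem_cent_iff {G : Type*} [Group G] (g x : G) :
    x ∈ Subgroup.centralizer ({g} : Set G) ↔ x * g * x⁻¹ = g := by
  rw [Subgroup.mem_centralizer_iff]
  constructor
  · intro h
    have h1 := h g rfl
    rw [← h1]
    group
  · intro h y hy
    rw [Set.mem_singleton_iff] at hy
    subst hy
    calc y * x = (x * y * x⁻¹) * x := by rw [h]
      _ = x * y := by group

/-- the extended centralizer: elements centralizing or inverting `g` -/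
def cstar {G : Type*} [Group G] (g : G) : Subgroup G where
  carrier := {x | x * g * x⁻¹ = g ∨ x * g * x⁻¹ = g⁻¹}
  one_mem' := Or.inl (by simp)
  mul_mem' := by
    rintro x y (hx | hx) (hy | hy)
    · left
      calc x * y * g * (x * y)⁻¹ = x * (y * g * y⁻¹) * x⁻¹ := by group
        _ = g := by rw [hy, hx]
    · right
      calc x * y * g * (x * y)⁻¹ = x * (y * g * y⁻¹) * x⁻¹ := by group
        _ = (x * g * x⁻¹)⁻¹ := by rw [hy]; group
        _ = g⁻¹ := by rw [hx]
    · right
      calc x * y * g * (x * y)⁻¹ = x * (y * g * y⁻¹) * x⁻¹ := by group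
        _ = x * g * x⁻¹ := by rw [hy]
        _ = g⁻¹ := hx
    · left
      calc x * y * g * (x * y)⁻¹ = x * (y * g * y⁻¹) * x⁻¹ := by group
        _ = (x * g * x⁻¹)⁻¹ := by rw [hy]; group
        _ = g := by rw [hx, inv_inv]
  inv_mem' := by
    rintro x (hx | hx)
    · left
      calc x⁻¹ * g * x⁻¹⁻¹ = x⁻¹ * (x * g * x⁻¹) * x := by rw [hx]; group
        _ = g := by group
    · right
      have h2 : x * g⁻¹ * x⁻¹ = g := by
        have : x * g⁻¹ * x⁻¹ = (x * g * x⁻¹)⁻¹ := by group
        rw [this, hx, inv_inv]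
      calc x⁻¹ * g * x⁻¹⁻¹ = x⁻¹ * (x * g⁻¹ * x⁻¹) * x := by rw [h2]; group
        _ = g⁻¹ := by group

lemma mem_cstar {G : Type*} [Group G] (g x : G) :
    x ∈ cstar g ↔ (x * g * x⁻¹ = g ∨ x * g * x⁻¹ = g⁻¹) := Iff.rfl

/-- the core counting inequality -/
lemma key {G : Type*} [Group G] [Fintype G] [DecidableEq G] (n L : ℕ)
    (I : Finset G) (hI : I = Finset.univ.filter (fun t => orderOf t = 2)) (hIcard : I.card = n)
    (hnpos : 0 < n) (hL : L = Nat.card G + n)
    (hZ : Odd (Nat.card (Subgroup.center G)))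
    (hno2 : ∀ H : Subgroup G, H ≠ ⊤ → H.index ≠ 2)
    (hstar : ∀ H : Subgroup G, H ≠ ⊤ → Nat.card H * L ≤ 2 * n ^ 2) : False := by
  have hinvI : ∀ u ∈ I, u * u = 1 ∧ u ≠ 1 := by
    intro u hu
    rw [hI, Finset.mem_filter] at hu
    have h2 := pow_orderOf_eq_one u
    rw [hu.2, pow_two] at h2
    refine ⟨h2, ?_⟩
    rintro rfl
    simp at hu
  obtain ⟨c, hc⟩ : ∃ c : G → ℕ, c = fun g =>
      ((I ×ˢ I).filter (fun p : G × G => p.1 * p.2 = g)).card := ⟨_, rfl⟩
  have hcg : ∀ g, c g = ((I ×ˢ I).filter (fun p : G × G => p.1 * p.2 = g)).card := by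
    intro g; rw [hc]
  have hsum : n ^ 2 = ∑ g : G, c g := by
    have hfib := Finset.card_eq_sum_card_fiberwise (f := fun p : G × G => p.1 * p.2)
      (s := I ×ˢ I) (t := Finset.univ) (fun x _ => Finset.mem_univ _)
    rw [Finset.card_product, hIcard] at hfib
    rw [pow_two, hfib, hc]
  have hfiber : ∀ g : G, ∀ p ∈ (I ×ˢ I).filter (fun p : G × G => p.1 * p.2 = g),
      p.1 ∈ I ∧ p.2 ∈ I ∧ p.1 * p.2 = g ∧ p.1 * g * p.1⁻¹ = g⁻¹ := by
    intro g p hp
    rw [Finset.mem_filter, Finset.mem_product] at hp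
    obtain ⟨⟨hu, hv⟩, hg⟩ := hp
    refine ⟨hu, hv, hg, ?_⟩
    rw [← hg]
    have e1 := (hinvI _ hu).1
    have e2 := (hinvI _ hv).1
    have i1 : p.1⁻¹ = p.1 := inv_eq_of_mul_eq_one_left e1
    have i2 : p.2⁻¹ = p.2 := inv_eq_of_mul_eq_one_left e2
    rw [mul_inv_rev, i1, i2, ← mul_assoc, e1, one_mul]
  have hinj : ∀ g : G, Set.InjOn (fun p : G × G => p.1)
      ((I ×ˢ I).filter (fun p : G × G => p.1 * p.2 = g) : Finset (G × G)) := by
    intro g p hp q hq hpq
    have hp' := Finset.mem_filter.mp (Finset.mem_coe.mp hp)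
    have hq' := Finset.mem_filter.mp (Finset.mem_coe.mp hq)
    have e : p.1 = q.1 := hpq
    have e2 : p.1 * p.2 = p.1 * q.2 := by rw [hp'.2, e, hq'.2]
    exact Prod.ext e (mul_left_cancel e2)
  have hc1 : c 1 ≤ n := by
    rw [hcg, ← hIcard, ← Finset.card_image_of_injOn (hinj 1)]
    apply Finset.card_le_card
    intro u hu
    obtain ⟨p, hp, rfl⟩ := Finset.mem_image.mp hu
    exact (hfiber 1 p hp).1
  have hcardS : ∀ (S : Finset G) (H : Subgroup G), (∀ x ∈ S, x ∈ H) → S.card ≤ Nat.card H := by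
    intro S H hS
    have h1 : S.card = Nat.card S := by rw [Nat.card_eq_fintype_card, Fintype.card_coe]
    rw [h1]
    apply Nat.card_le_card_of_injective (fun s : S => (⟨s.1, hS s.1 s.2⟩ : H))
    intro a b hab
    have hab' : (a : G) = (b : G) := congrArg (fun h : H => (h : G)) hab
    exact Subtype.ext hab'
  -- involutions
  have hcI : ∀ g ∈ I, c g * L + 2 * L ≤ 2 * n ^ 2 := by
    intro g hg
    obtain ⟨hg2, hg1⟩ := hinvI g hg
    have hginv : g⁻¹ = g := inv_eq_of_mul_eq_one_left hg2
    have hne : Subgroup.centralizer ({g} : Set G) ≠ ⊤ := by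
      intro h
      have hgc : g ∈ Subgroup.center G := by
        rw [Subgroup.mem_center_iff]
        intro x
        have hx : x ∈ Subgroup.centralizer ({g} : Set G) := h ▸ Subgroup.mem_top x
        rw [Subgroup.mem_centralizer_iff] at hx
        exact (hx g rfl).symm
      have h2 : orderOf (⟨g, hgc⟩ : Subgroup.center G) = 2 := by
        rw [← Subgroup.orderOf_coe]
        rw [hI, Finset.mem_filter] at hg
        exact hg.2
      have h3 : 2 ∣ Nat.card (Subgroup.center G) := h2 ▸ orderOf_dvd_natCard _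
      exact (Nat.not_even_iff_odd.mpr hZ) (even_iff_two_dvd.mpr h3)
    have h1 := hstar _ hne
    have h2 : c g + 2 ≤ Nat.card (Subgroup.centralizer ({g} : Set G)) := by
      obtain ⟨T, hT⟩ : ∃ T : Finset G, T =
          ((I ×ˢ I).filter (fun p : G × G => p.1 * p.2 = g)).image (fun p => p.1) := ⟨_, rfl⟩
      have hTcard : T.card = c g := by rw [hT, Finset.card_image_of_injOn (hinj g), hcg]
      have hTprop : ∀ u ∈ T, u ≠ 1 ∧ u ≠ g ∧ u ∈ Subgroup.centralizer ({g} : Set G) := by
        intro u hu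
        rw [hT] at hu
        obtain ⟨p, hp, rfl⟩ := Finset.mem_image.mp hu
        obtain ⟨hu', hv', hpg, hinv⟩ := hfiber g p hp
        refine ⟨(hinvI _ hu').2, ?_, ?_⟩
        · intro e
          apply (hinvI _ hv').2
          have e3 : p.1 * p.2 = p.1 * 1 := by rw [hpg, mul_one, e]
          exact mul_left_cancel e3
        · rw [mem_cent_iff]
          rw [hginv] at hinv
          exact hinv
      have h1T : (1 : G) ∉ insert g T := by
        rw [Finset.mem_insert, not_or]
        exact ⟨fun e => hg1 e.symm, fun h => (hTprop 1 h).1 rfl⟩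
      have hgT : g ∉ T := fun h => (hTprop g h).2.1 rfl
      have hcard : (insert (1 : G) (insert g T)).card = c g + 2 := by
        rw [Finset.card_insert_of_notMem h1T, Finset.card_insert_of_notMem hgT, hTcard]
      rw [← hcard]
      apply hcardS
      intro x hx
      rw [Finset.mem_insert, Finset.mem_insert] at hx
      rcases hx with rfl | rfl | hx
      · exact Subgroup.one_mem _
      · rw [mem_cent_iff]; group
      · exact (hTprop x hx).2.2
    nlinarith
  -- non-involutions
  have hcR : ∀ g : G, g ≠ 1 → g ∉ I → c g * L ≤ n ^ 2 := by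
    intro g hg1 hgI
    by_cases hc0 : c g = 0
    · rw [hc0]; simp
    have hne : ((I ×ˢ I).filter (fun p : G × G => p.1 * p.2 = g)).Nonempty := by
      rw [← Finset.card_pos, ← hcg]
      omega
    obtain ⟨p₀, hp₀⟩ := hne
    obtain ⟨hu₀, hv₀, -, hinv₀⟩ := hfiber g p₀ hp₀
    have hgg : g ≠ g⁻¹ := by
      intro e
      apply hgI
      rw [hI, Finset.mem_filter]
      refine ⟨Finset.mem_univ _, ?_⟩
      have h2 : g * g = 1 := by nth_rewrite 2 [e]; exact mul_inv_cancel g
      haveI : Fact (Nat.Prime 2) := ⟨Nat.prime_two⟩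
      exact orderOf_eq_prime (by rw [pow_two]; exact h2) hg1
    have hu₀c : p₀.1 ∉ Subgroup.centralizer ({g} : Set G) := by
      rw [mem_cent_iff, hinv₀]
      exact fun e => hgg e.symm
    have hcs : cstar g ≠ ⊤ := by
      intro htop
      have hidx : (Subgroup.centralizer ({g} : Set G)).index = 2 := by
        rw [Subgroup.index_eq_two_iff]
        refine ⟨p₀.1, fun b => ?_⟩
        have hb : b ∈ cstar g := htop ▸ Subgroup.mem_top b
        have hconj : b * p₀.1 * g * (b * p₀.1)⁻¹ = (b * g * b⁻¹)⁻¹ := by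
          calc b * p₀.1 * g * (b * p₀.1)⁻¹ = b * (p₀.1 * g * p₀.1⁻¹) * b⁻¹ := by group
            _ = (b * g * b⁻¹)⁻¹ := by rw [hinv₀]; group
        rcases hb with hb | hb
        · right
          refine ⟨(mem_cent_iff g b).mpr hb, ?_⟩
          rw [mem_cent_iff, hconj, hb]
          exact fun e => hgg e.symm
        · left
          refine ⟨?_, ?_⟩
          · rw [mem_cent_iff, hconj, hb, inv_inv]
          · rw [mem_cent_iff, hb]
            exact fun e => hgg e.symm
      have hne : Subgroup.centralizer ({g} : Set G) ≠ ⊤ := by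
        intro h
        exact hu₀c (h ▸ Subgroup.mem_top _)
      exact hno2 _ hne hidx
    have h1 := hstar _ hcs
    have h2 : 2 * c g ≤ Nat.card (cstar g) := by
      obtain ⟨T, hT⟩ : ∃ T : Finset G, T =
          ((I ×ˢ I).filter (fun p : G × G => p.1 * p.2 = g)).image (fun p => p.1) := ⟨_, rfl⟩
      have hTcard : T.card = c g := by rw [hT, Finset.card_image_of_injOn (hinj g), hcg]
      have hTprop : ∀ u ∈ T, u * g * u⁻¹ = g⁻¹ := by
        intro u hu
        rw [hT] at hu
        obtain ⟨p, hp, rfl⟩ := Finset.mem_image.mp hu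
        exact (hfiber g p hp).2.2.2
      obtain ⟨T', hT'⟩ : ∃ T' : Finset G, T' = T.image (fun u => p₀.1⁻¹ * u) := ⟨_, rfl⟩
      have hT'card : T'.card = c g := by
        rw [hT', Finset.card_image_of_injective _ (mul_right_injective _), hTcard]
      have hT'prop : ∀ x ∈ T', x * g * x⁻¹ = g := by
        intro x hx
        rw [hT'] at hx
        obtain ⟨u, hu, rfl⟩ := Finset.mem_image.mp hx
        have e1 := hTprop u hu
        have e2 : p₀.1⁻¹ * g⁻¹ * p₀.1 = g := by
          rw [← hinv₀]; group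
        calc p₀.1⁻¹ * u * g * (p₀.1⁻¹ * u)⁻¹ = p₀.1⁻¹ * (u * g * u⁻¹) * p₀.1 := by group
          _ = g := by rw [e1, e2]
      have hdisj : Disjoint T T' := by
        rw [Finset.disjoint_left]
        intro x hx hx'
        have e1 := hTprop x hx
        have e2 := hT'prop x hx'
        rw [e2] at e1
        exact hgg e1
      have hcard : (T ∪ T').card = 2 * c g := by
        rw [Finset.card_union_of_disjoint hdisj, hTcard, hT'card]
        ring
      rw [← hcard]
      apply hcardS
      intro x hx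
      rw [Finset.mem_union] at hx
      rcases hx with hx | hx
      · exact Or.inr (hTprop x hx)
      · exact Or.inl (hT'prop x hx)
    nlinarith
  -- summation
  have h1I : (1 : G) ∉ I := fun h => (hinvI 1 h).2 rfl
  have hsplit := Finset.add_sum_erase Finset.univ (fun g => c g * L) (Finset.mem_univ (1 : G))
  have hbound : ∀ g ∈ Finset.univ.erase (1 : G),
      c g * L + (if g ∈ I then 2 * L else 0) ≤ n ^ 2 + (if g ∈ I then n ^ 2 else 0) := by
    intro g hg
    have hg1 := Finset.ne_of_mem_erase hg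
    by_cases hgI : g ∈ I
    · rw [if_pos hgI, if_pos hgI]
      have := hcI g hgI
      omega
    · rw [if_neg hgI, if_neg hgI]
      have := hcR g hg1 hgI
      omega
  have hsum2 := Finset.sum_le_sum hbound
  rw [Finset.sum_add_distrib, Finset.sum_add_distrib, Finset.sum_ite_mem, Finset.sum_ite_mem] at hsum2
  have hinter : (Finset.univ.erase (1 : G)) ∩ I = I := by
    rw [Finset.inter_eq_right]
    intro x hx
    rw [Finset.mem_erase]
    exact ⟨fun e => h1I (e ▸ hx), Finset.mem_univ _⟩
  rw [hinter] at hsum2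
  simp only [Finset.sum_const, hIcard, smul_eq_mul, Finset.card_erase_of_mem (Finset.mem_univ _),
    Finset.card_univ] at hsum2
  have hsumL : n ^ 2 * L = ∑ g : G, c g * L := by rw [hsum, Finset.sum_mul]
  rw [← hsplit] at hsumL
  have hcG : Fintype.card G = Nat.card G := Nat.card_eq_fintype_card.symm
  rw [hcG] at hsum2
  have hGpos : 0 < Nat.card G := Nat.card_pos
  obtain ⟨N, hN⟩ : ∃ N, Nat.card G = N + 1 := Nat.exists_eq_succ_of_ne_zero hGpos.ne'
  rw [hN] at hsum2 hL
  simp only [Nat.add_sub_cancel] at hsum2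
  have hc1L : c 1 * L ≤ n * L := Nat.mul_le_mul_right _ hc1
  subst hL
  nlinarith

/-- Let G be a finite group of even order with exactly n involutions whose centre has odd order, and put a = |G|/n. Then G has a proper subgroup H with |G : H| = 2 or |G : H| < a(a+1)/2; over ℕ the latter reads 2·|G:H|·n² < |G|·(|G| + n). -/
theorem result {G : Type*} [Group G] [Finite G] (heven : Even (Nat.card G)) (hZ : Odd (Nat.card (Subgroup.center G))) : ∃ H : Subgroup G, H ≠ ⊤ ∧ (H.index = 2 ∨ 2 * H.index * (Nat.card {t : G // orderOf t = 2}) ^ 2 < Nat.card G * (Nat.card G + Nat.card {t : G // orderOf t = 2})) := by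
  classical
  haveI : Fintype G := Fintype.ofFinite G
  by_contra hcon
  push Not at hcon
  obtain ⟨I, hI⟩ : ∃ I : Finset G, I = Finset.univ.filter (fun t => orderOf t = 2) := ⟨_, rfl⟩
  obtain ⟨n, hn⟩ : ∃ n, n = Nat.card {t : G // orderOf t = 2} := ⟨_, rfl⟩
  have hIcard : I.card = n := by
    rw [hn, hI, Nat.card_eq_fintype_card, Fintype.card_subtype]
  rw [← hn] at hcon
  have hGpos : 0 < Nat.card G := Nat.card_pos
  have hnpos : 0 < n := by
    rw [← hIcard, Finset.card_pos]
    haveI : Fact (Nat.Prime 2) := ⟨Nat.prime_two⟩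
    obtain ⟨x, hx⟩ := exists_prime_orderOf_dvd_card' (G := G) 2 (even_iff_two_dvd.mp heven)
    exact ⟨x, by rw [hI, Finset.mem_filter]; exact ⟨Finset.mem_univ _, hx⟩⟩
  apply key n (Nat.card G + n) I hI hIcard hnpos rfl hZ (fun H hH => (hcon H hH).1)
  intro H hH
  have h1 := (hcon H hH).2
  have h2 := Subgroup.card_mul_index H
  have h3 : Nat.card G * (Nat.card H * (Nat.card G + n)) ≤ Nat.card G * (2 * n ^ 2) := by
    calc Nat.card G * (Nat.card H * (Nat.card G + n))
        = Nat.card H * (Nat.card G * (Nat.card G + n)) := by ring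
      _ ≤ Nat.card H * (2 * H.index * n ^ 2) := Nat.mul_le_mul_left _ h1
      _ = (Nat.card H * H.index) * (2 * n ^ 2) := by ring
      _ = Nat.card G * (2 * n ^ 2) := by rw [h2]
  exact Nat.le_of_mul_le_mul_left h3 hGpos

end Cfsg.Agent.S0233
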