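import Cfsg.Statements.S0232
import Mathlib
import Cfsg.Agent.S0233
import Cfsg.Agent.S0219
import Cfsg.Agent.Helper2.Conj

set_option autoImplicit false
open Cfsg

namespace Cfsg.Agent.S0232

open Cfsg.Agent.Helper2

universe u

/-- index form of the statement -/
lemma idx_form : ∀ (k : ℕ) (G : Type u) [Group G] [Finite G], Nat.card G = k →
    Even (Nat.card G) → 2 < Nat.card G →
    ∃ H : Subgroup G, H ≠ ⊤ ∧ H.index ^ 3 < Nat.card G ^ 2 := by
  intro k
  induction k using Nat.strong_induction_on with
  | _ k ih =>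
  intro G _ _ hk heven hgt
  classical
  haveI : Fact (Nat.Prime 2) := ⟨Nat.prime_two⟩
  have h4 : 4 ≤ Nat.card G := by
    obtain ⟨r, hr⟩ := heven
    omega
  have hGpos : 0 < Nat.card G := Nat.card_pos
  by_cases hZ : Odd (Nat.card (Subgroup.center G))
  · obtain ⟨t, ht⟩ := exists_prime_orderOf_dvd_card' (G := G) 2 (even_iff_two_dvd.mp heven)
    have hne : Subgroup.centralizer ({t} : Set G) ≠ ⊤ := by
      intro h
      have hgc : t ∈ Subgroup.center G := by
        rw [Subgroup.mem_center_iff]
        intro x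
        have hx : x ∈ Subgroup.centralizer ({t} : Set G) := h ▸ Subgroup.mem_top x
        rw [Subgroup.mem_centralizer_iff] at hx
        exact (hx t rfl).symm
      have h2 : orderOf (⟨t, hgc⟩ : Subgroup.center G) = 2 := by
        rw [← Subgroup.orderOf_coe]
        exact ht
      have h3 : 2 ∣ Nat.card (Subgroup.center G) := h2 ▸ orderOf_dvd_natCard _
      exact (Nat.not_even_iff_odd.mpr hZ) (even_iff_two_dvd.mpr h3)
    obtain ⟨c, hc⟩ : ∃ c, c = Nat.card (Subgroup.centralizer ({t} : Set G)) := ⟨_, rfl⟩
    obtain ⟨m, hm⟩ : ∃ m, m = (Subgroup.centralizer ({t} : Set G)).index := ⟨_, rfl⟩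
    have hcm : c * m = Nat.card G := by rw [hc, hm]; exact Subgroup.card_mul_index _
    have hcpos : 0 < c := hc ▸ Nat.card_pos
    have hmpos : 0 < m := by
      rcases Nat.eq_zero_or_pos m with h | h
      · rw [h] at hcm; omega
      · exact h
    by_cases hc3 : Nat.card G < c ^ 3
    · refine ⟨_, hne, ?_⟩
      rw [← hm]
      have h1 : m ^ 3 * c ^ 3 < Nat.card G ^ 2 * c ^ 3 := by
        have e : m ^ 3 * c ^ 3 = Nat.card G ^ 2 * Nat.card G := by rw [← hcm]; ring
        rw [e]
        exact Nat.mul_lt_mul_of_pos_left hc3 (by positivity)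
      exact Nat.lt_of_mul_lt_mul_right h1
    · push Not at hc3
      obtain ⟨H, hH, hidx⟩ := Cfsg.Agent.S0233.result heven hZ
      refine ⟨H, hH, ?_⟩
      rcases hidx with h | h
      · rw [h]; nlinarith
      · obtain ⟨n, hn⟩ : ∃ n, n = Nat.card {t : G // orderOf t = 2} := ⟨_, rfl⟩
        rw [← hn] at h
        have hnm : m ≤ n := by
          have h1 := card_conj_mul_card_centralizer t
          have h2 : Nat.card {h : G // IsConj t h} = m := by
            rw [← hc] at h1
            have h3 : Nat.card {h : G // IsConj t h} * c = m * c := by rw [h1, ← hcm, mul_comm]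
            exact Nat.eq_of_mul_eq_mul_right hcpos h3
          rw [← h2, hn]
          apply Nat.card_le_card_of_injective (fun x : {h : G // IsConj t h} =>
            (⟨x.1, by rw [IsConj.orderOf_eq' x.2]; exact ht⟩ : {t : G // orderOf t = 2}))
          intro a b hab
          exact Subtype.ext (congrArg (fun s : {t : G // orderOf t = 2} => (s : G)) hab)
        have hGcn : Nat.card G ≤ c * n := by rw [← hcm]; exact Nat.mul_le_mul_left _ hnm
        have hnpos : 0 < n := lt_of_lt_of_le hmpos hnm
        have k1 : 2 * H.index * n ^ 2 < (c ^ 2 + c) * n ^ 2 := by nlinarith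
        have k2 : 2 * H.index < c ^ 2 + c := Nat.lt_of_mul_lt_mul_right k1
        have k3 : H.index < c ^ 2 := by nlinarith
        have k4 : H.index ^ 3 < (c ^ 2) ^ 3 := Nat.pow_lt_pow_left k3 (by norm_num)
        have k5 : (c ^ 2) ^ 3 = (c ^ 3) ^ 2 := by ring
        have k6 : (c ^ 3) ^ 2 ≤ Nat.card G ^ 2 := Nat.pow_le_pow_left hc3 2
        omega
  · rw [Nat.not_odd_iff_even] at hZ
    obtain ⟨z, hz⟩ := exists_prime_orderOf_dvd_card' (G := Subgroup.center G) 2
      (even_iff_two_dvd.mp hZ)
    obtain ⟨N, hN⟩ : ∃ N : Subgroup G, N = Subgroup.zpowers (z : G) := ⟨_, rfl⟩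
    have hNcard : Nat.card N = 2 := by rw [hN, Nat.card_zpowers, Subgroup.orderOf_coe, hz]
    haveI hNn : N.Normal := by
      rw [hN]
      constructor
      intro x hx g
      have e : g * x * g⁻¹ = x := by
        obtain ⟨i, rfl⟩ := Subgroup.mem_zpowers_iff.mp hx
        have hzi : (z : G) ^ i ∈ Subgroup.center G := Subgroup.zpow_mem _ z.2 i
        rw [Subgroup.mem_center_iff.mp hzi g]
        group
      rw [e]
      exact hx
    have hq : Nat.card (G ⧸ N) * 2 = Nat.card G := by
      rw [← hNcard, ← Subgroup.card_eq_card_quotient_mul_card_subgroup]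
    by_cases hqe : Even (Nat.card (G ⧸ N)) ∧ 2 < Nat.card (G ⧸ N)
    · obtain ⟨K, hK, hKi⟩ := ih (Nat.card (G ⧸ N)) (by omega) (G ⧸ N) rfl hqe.1 hqe.2
      refine ⟨K.comap (QuotientGroup.mk' N), ?_, ?_⟩
      · intro h
        apply hK
        rw [eq_top_iff]
        intro x _
        obtain ⟨g, rfl⟩ := QuotientGroup.mk'_surjective N x
        have hg : g ∈ K.comap (QuotientGroup.mk' N) := h ▸ Subgroup.mem_top g
        exact hg
      · rw [Subgroup.index_comap_of_surjective _ (QuotientGroup.mk'_surjective N)]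
        have h5 : Nat.card (G ⧸ N) ^ 2 ≤ Nat.card G ^ 2 := Nat.pow_le_pow_left (by omega) 2
        omega
    · have hex : ∃ H : Subgroup G, H.index = 2 := by
        by_cases hq2 : Nat.card (G ⧸ N) = 2
        · refine ⟨N, ?_⟩
          rw [Subgroup.index_eq_card]
          exact hq2
        · have hodd : Odd (Nat.card (G ⧸ N)) := by
            rw [← Nat.not_even_iff_odd]
            intro he
            apply hqe
            refine ⟨he, ?_⟩
            omega
          obtain ⟨T⟩ : Nonempty (Sylow 2 G) := inferInstance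
          have hT2 : Nat.card T = 2 := by
            obtain ⟨j, hj⟩ := IsPGroup.iff_card.mp T.isPGroup'
            have hd : 2 ^ j ∣ Nat.card G := hj ▸ Subgroup.card_subgroup_dvd_card _
            have hd2 : 2 ∣ Nat.card T := T.dvd_card_of_dvd_card (even_iff_two_dvd.mp heven)
            rcases Nat.lt_or_ge j 2 with hj2 | hj2
            · interval_cases j
              · rw [hj] at hd2; norm_num at hd2
              · rw [hj]; norm_num
            · exfalso
              have h4' : 2 ^ 2 ∣ Nat.card G := dvd_trans (pow_dvd_pow 2 hj2) hd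
              obtain ⟨r, hr⟩ := hodd
              rw [← hq, hr] at h4'
              omega
          haveI : Fact (Nat.Prime 2) := ⟨Nat.prime_two⟩
          exact Cfsg.Agent.S0219.result heven T (isCyclic_of_prime_card hT2)
      obtain ⟨H, hH2⟩ := hex
      refine ⟨H, ?_, ?_⟩
      · intro h
        rw [h, Subgroup.index_top] at hH2
        omega
      · rw [hH2]
        nlinarith

/-- A finite group G of even order greater than 2 has a proper subgroup H with |G| < |H|^3. -/
theorem result {G : Type*} [Group G] [Finite G] (heven : Even (Nat.card G)) (hgt : 2 < Nat.card G) : ∃ H : Subgroup G, H ≠ ⊤ ∧ Nat.card G < (Nat.card H) ^ 3 := by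
  obtain ⟨H, hH, hidx⟩ := idx_form (Nat.card G) G rfl heven hgt
  refine ⟨H, hH, ?_⟩
  have h1 := Subgroup.card_mul_index H
  have hpos : 0 < H.index := Nat.pos_of_ne_zero Subgroup.index_ne_zero_of_finite
  have h2 : Nat.card G * H.index ^ 3 < Nat.card H ^ 3 * H.index ^ 3 := by
    have e : Nat.card H ^ 3 * H.index ^ 3 = Nat.card G * Nat.card G ^ 2 := by rw [← h1]; ring
    rw [e]
    exact Nat.mul_lt_mul_of_pos_left hidx Nat.card_pos
  exact Nat.lt_of_mul_lt_mul_right h2

end Cfsg.Agent.S0232
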