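import Cfsg.Statements.S0234
import Mathlib
import Cfsg.Agent.S0233
import Cfsg.Agent.S0493
import Cfsg.Agent.S0494

set_option autoImplicit false
open Cfsg

namespace Cfsg.Agent.S0234

lemma invol_iff {G : Type*} [Group G] (x : G) : orderOf x = 2 ↔ x ≠ 1 ∧ x * x = 1 := by
  haveI : Fact (Nat.Prime 2) := ⟨Nat.prime_two⟩
  rw [orderOf_eq_prime_iff, pow_two]
  tauto

lemma card_invol_A5 : Nat.card {s : alternatingGroup (Fin 5) // orderOf s = 2} = 15 := by
  have h : (Finset.univ.filter (fun s : Equiv.Perm (Fin 5) =>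
      Equiv.Perm.sign s = 1 ∧ s ≠ 1 ∧ s * s = 1)).card = 15 := by decide +kernel
  rw [← h, ← Fintype.card_subtype, ← Nat.card_eq_fintype_card]
  apply Nat.card_congr
  refine ⟨fun s => ⟨s.1.1, ?_⟩, fun s => ⟨⟨s.1, ?_⟩, ?_⟩, ?_, ?_⟩
  · have h1 := s.2
    rw [← Subgroup.orderOf_coe, invol_iff] at h1
    exact ⟨Equiv.Perm.mem_alternatingGroup.mp s.1.2, h1⟩
  · exact Equiv.Perm.mem_alternatingGroup.mpr s.2.1
  · rw [← Subgroup.orderOf_coe, invol_iff]
    exact s.2.2
  · intro s
    rfl
  · intro s
    rfl

/-- In a finite simple group G of even order greater than 2, the number n of involutions satisfies 3n < |G|. -/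
theorem result {G : Type*} [Group G] [Finite G] [IsSimpleGroup G] (heven : Even (Nat.card G)) (hgt : 2 < Nat.card G) : 3 * Nat.card {t : G // orderOf t = 2} < Nat.card G := by
  classical
  obtain ⟨n, hn⟩ : ∃ n, n = Nat.card {t : G // orderOf t = 2} := ⟨_, rfl⟩
  rw [← hn]
  haveI : Fact (Nat.Prime 2) := ⟨Nat.prime_two⟩
  obtain ⟨t, ht⟩ := exists_prime_orderOf_dvd_card' (G := G) 2 (even_iff_two_dvd.mp heven)
  have ht1 : t ≠ 1 := by
    rintro rfl
    simp at ht
  have hcb : Subgroup.center G = ⊥ := by
    rcases (inferInstance : (Subgroup.center G).Normal).eq_bot_or_eq_top with h | h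
    · exact h
    · exfalso
      have hnorm : (Subgroup.zpowers t).Normal := by
        constructor
        intro x hx g
        have hg : g ∈ Subgroup.center G := h ▸ Subgroup.mem_top g
        have e : g * x * g⁻¹ = x := by
          rw [← Subgroup.mem_center_iff.mp hg x]
          group
        rw [e]
        exact hx
      rcases hnorm.eq_bot_or_eq_top with h2 | h2
      · exact ht1 (Subgroup.zpowers_eq_bot.mp h2)
      · have h3 : Nat.card G = 2 := by
          rw [← Subgroup.card_top (G := G), ← h2, Nat.card_zpowers, ht]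
        omega
  have hZ : Odd (Nat.card (Subgroup.center G)) := by
    rw [hcb, Subgroup.card_bot]
    exact odd_one
  by_contra h3
  push Not at h3
  obtain ⟨H, hH, hidx⟩ := Cfsg.Agent.S0233.result heven hZ
  rw [← hn] at hidx
  have hnpos : 0 < n := by
    rw [hn]
    haveI : Nonempty {t : G // orderOf t = 2} := ⟨⟨t, ht⟩⟩
    exact Nat.card_pos
  have hidx5 : H.index ≤ 5 := by
    rcases hidx with h | h
    · omega
    · by_contra h6
      push Not at h6
      have h7 : Nat.card G * (Nat.card G + n) ≤ 3 * n * (4 * n) := Nat.mul_le_mul h3 (by omega)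
      have h8 : 2 * 6 * n ^ 2 ≤ 2 * H.index * n ^ 2 :=
        Nat.mul_le_mul_right _ (Nat.mul_le_mul_left _ h6)
      nlinarith
  have hker : (MulAction.toPermHom G (G ⧸ H)).ker = ⊥ := by
    rw [← Subgroup.normalCore_eq_ker]
    rcases (Subgroup.normalCore_normal H).eq_bot_or_eq_top with h | h
    · exact h
    · exact absurd (top_le_iff.mp (h ▸ Subgroup.normalCore_le H)) hH
  have hinj : Function.Injective (MulAction.toPermHom G (G ⧸ H)) :=
    (MonoidHom.ker_eq_bot_iff _).mp hker
  haveI : Fintype (G ⧸ H) := Fintype.ofFinite _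
  have hsign : ∀ g : G, Equiv.Perm.sign (MulAction.toPermHom G (G ⧸ H) g) = 1 := by
    intro g
    rcases ((Equiv.Perm.sign.comp (MulAction.toPermHom G (G ⧸ H))).normal_ker).eq_bot_or_eq_top
      with hk | hk
    · exfalso
      have hinj2 : Function.Injective (Equiv.Perm.sign.comp (MulAction.toPermHom G (G ⧸ H))) :=
        (MonoidHom.ker_eq_bot_iff _).mp hk
      have h4 := Nat.card_le_card_of_injective _ hinj2
      rw [Nat.card_eq_fintype_card (α := ℤˣ), Fintype.card_units_int] at h4
      omega
    · have hg : g ∈ (Equiv.Perm.sign.comp (MulAction.toPermHom G (G ⧸ H))).ker :=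
        hk ▸ Subgroup.mem_top g
      exact hg
  have hle60 : Nat.card G ≤ 60 := by
    have h1 : Nat.card G ≤ Nat.card (alternatingGroup (G ⧸ H)) :=
      Nat.card_le_card_of_injective
        (fun g => (⟨MulAction.toPermHom G (G ⧸ H) g,
          Equiv.Perm.mem_alternatingGroup.mpr (hsign g)⟩ : alternatingGroup (G ⧸ H)))
        (fun a b hab => hinj (congrArg (fun s : alternatingGroup (G ⧸ H) =>
          (s : Equiv.Perm (G ⧸ H))) hab))
    haveI : Nontrivial (G ⧸ H) := by
      rw [← Finite.one_lt_card_iff_nontrivial, ← Subgroup.index_eq_card]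
      have h0 : H.index ≠ 0 := Subgroup.index_ne_zero_of_finite
      have h1' : H.index ≠ 1 := fun e => hH (Subgroup.index_eq_one.mp e)
      omega
    have h2 := two_mul_nat_card_alternatingGroup (α := G ⧸ H)
    rw [Nat.card_perm, ← Subgroup.index_eq_card] at h2
    have h5 : Nat.factorial H.index ≤ Nat.factorial 5 := Nat.factorial_le hidx5
    have h6 : Nat.factorial 5 = 120 := rfl
    omega
  have hcyc : ¬ IsCyclic G := by
    intro hc
    have htc : t ∈ Subgroup.center G := by
      rw [Subgroup.mem_center_iff]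
      intro g
      obtain ⟨x, hx⟩ := hc.exists_generator
      obtain ⟨i, rfl⟩ := Subgroup.mem_zpowers_iff.mp (hx g)
      obtain ⟨j, rfl⟩ := Subgroup.mem_zpowers_iff.mp (hx t)
      rw [← zpow_add, ← zpow_add, add_comm]
    rw [hcb] at htc
    exact ht1 (Subgroup.mem_bot.mp htc)
  have h60 := Cfsg.Agent.S0493.result hcyc (by omega)
  obtain ⟨e⟩ := Cfsg.Agent.S0494.result h60
  have hn15 : n = 15 := by
    rw [hn, ← card_invol_A5]
    apply Nat.card_congr
    exact
      { toFun := fun t => ⟨e t.1, by rw [MulEquiv.orderOf_eq]; exact t.2⟩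
        invFun := fun s => ⟨e.symm s.1, by rw [MulEquiv.orderOf_eq]; exact s.2⟩
        left_inv := fun t => by simp
        right_inv := fun s => by simp }
  omega

end Cfsg.Agent.S0234
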