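import Cfsg.Statements.S0235
import Mathlib

set_option autoImplicit false
open Cfsg

namespace Cfsg.Agent.S0235

theorem mul_self_of_orderOf_two {G : Type*} [Group G] {u : G} (h : orderOf u = 2) : u * u = 1 := by
  have := pow_orderOf_eq_one u
  rw [h, pow_two] at this
  exact this

theorem inv_of_orderOf_two {G : Type*} [Group G] {u : G} (h : orderOf u = 2) : u⁻¹ = u :=
  inv_eq_of_mul_eq_one_left (mul_self_of_orderOf_two h)

/-- If x² ≠ 1, the ordered pairs (u, v) of involutions with uv = x correspond bijectively to the involutions t with t x t⁻¹ = x⁻¹ (via (u, v) ↦ u), so the two counts agree. -/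
theorem result {G : Type*} [Group G] [Finite G] (x : G) (hx : x ^ 2 ≠ 1) : Nat.card {p : G × G // orderOf p.1 = 2 ∧ orderOf p.2 = 2 ∧ p.1 * p.2 = x} = Nat.card {t : G // orderOf t = 2 ∧ t * x * t⁻¹ = x⁻¹} := by
  apply Nat.card_congr
  refine
    { toFun := fun p => ⟨p.1.1, p.2.1, ?_⟩
      invFun := fun t => ⟨(t.1, t.1 * x), t.2.1, ?_, ?_⟩
      left_inv := ?_
      right_inv := ?_ }
  · obtain ⟨⟨u, v⟩, hu, hv, huv⟩ := p
    simp only at hu hv huv ⊢
    rw [← huv, mul_inv_rev, inv_of_orderOf_two hv, inv_of_orderOf_two hu]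
    calc u * (u * v) * u = (u * u) * v * u := by simp [mul_assoc]
      _ = v * u := by rw [mul_self_of_orderOf_two hu, one_mul]
  · obtain ⟨t, ht, htx⟩ := t
    simp only
    have h1 : t * x = x⁻¹ * t := by
      have : t * x = (t * x * t⁻¹) * t := by simp [mul_assoc]
      rw [this, htx]
    apply orderOf_eq_prime
    · rw [pow_two]
      calc t * x * (t * x) = x⁻¹ * t * (t * x) := by rw [h1]
        _ = x⁻¹ * (t * t) * x := by simp [mul_assoc]
        _ = 1 := by rw [mul_self_of_orderOf_two ht]; simp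
    · intro h
      apply hx
      have h2 : x = t⁻¹ := eq_inv_of_mul_eq_one_right h
      rw [h2, inv_of_orderOf_two ht, pow_two, mul_self_of_orderOf_two ht]
  · obtain ⟨t, ht, htx⟩ := t
    simp only
    rw [← mul_assoc, mul_self_of_orderOf_two ht, one_mul]
  · intro p
    obtain ⟨⟨u, v⟩, hu, hv, huv⟩ := p
    apply Subtype.ext
    simp only at hu hv huv ⊢
    rw [← huv, ← mul_assoc, mul_self_of_orderOf_two hu, one_mul]
  · intro t
    rfl

end Cfsg.Agent.S0235
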