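import Cfsg.Statements.S0236
import Mathlib

set_option autoImplicit false
open Cfsg

namespace Cfsg.Agent.S0236

theorem mul_self_of_orderOf_two {G : Type*} [Group G] {u : G} (h : orderOf u = 2) : u * u = 1 := by
  have := pow_orderOf_eq_one u
  rw [h, pow_two] at this
  exact this

theorem inv_of_orderOf_two {G : Type*} [Group G] {u : G} (h : orderOf u = 2) : u⁻¹ = u :=
  inv_eq_of_mul_eq_one_left (mul_self_of_orderOf_two h)

/-- If x is an involution, the number of ordered pairs (u, v) of involutions with uv = x, plus one, equals the number of involutions in the centralizer of x. -/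
theorem result {G : Type*} [Group G] [Finite G] (x : G) (hx : orderOf x = 2) : Nat.card {p : G × G // orderOf p.1 = 2 ∧ orderOf p.2 = 2 ∧ p.1 * p.2 = x} + 1 = Nat.card {t : G // orderOf t = 2 ∧ Commute t x} := by
  classical
  rw [← Finite.card_option]
  apply Nat.card_congr
  have hxx : x * x = 1 := mul_self_of_orderOf_two hx
  have key1 : ∀ u v : G, orderOf u = 2 → orderOf v = 2 → u * v = x → Commute u x := by
    intro u v hu hv huv
    show u * x = x * u
    have h1 : v = u * x := by
      rw [← huv, ← mul_assoc, mul_self_of_orderOf_two hu, one_mul]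
    have h2 : v * v = 1 := mul_self_of_orderOf_two hv
    rw [h1] at h2
    -- u x u x = 1
    have h3 : u * x = (u * x)⁻¹ := eq_inv_of_mul_eq_one_left h2
    rw [h3, mul_inv_rev, inv_of_orderOf_two hx, inv_of_orderOf_two hu]
  have key2 : ∀ t : G, orderOf t = 2 → Commute t x → t ≠ x → orderOf (t * x) = 2 := by
    intro t ht htx hne
    apply orderOf_eq_prime
    · rw [pow_two]
      calc t * x * (t * x) = t * (x * t) * x := by simp [mul_assoc]
        _ = t * (t * x) * x := by rw [htx.eq]
        _ = (t * t) * (x * x) := by simp [mul_assoc]
        _ = 1 := by rw [mul_self_of_orderOf_two ht, hxx, one_mul]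
    · intro h
      apply hne
      have : x = t⁻¹ := eq_inv_of_mul_eq_one_right h
      rw [this, inv_of_orderOf_two ht]
  refine
    { toFun := fun o => match o with
        | none => ⟨x, hx, Commute.refl x⟩
        | some p => ⟨p.1.1, p.2.1, key1 p.1.1 p.1.2 p.2.1 p.2.2.1 p.2.2.2⟩
      invFun := fun t => if h : t.1 = x then none else
        some ⟨(t.1, t.1 * x), t.2.1, key2 t.1 t.2.1 t.2.2 h, by
          show t.1 * (t.1 * x) = x
          rw [← mul_assoc, mul_self_of_orderOf_two t.2.1, one_mul]⟩
      left_inv := ?_
      right_inv := ?_ }
  · intro o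
    cases o with
    | none => simp
    | some p =>
      obtain ⟨⟨u, v⟩, hu, hv, huv⟩ := p
      simp only at hu hv huv
      have hne : u ≠ x := by
        intro h
        rw [h] at huv
        have : v = 1 := by
          have := mul_left_cancel (huv.trans (mul_one x).symm)
          exact this
        rw [this, orderOf_one] at hv
        omega
      simp only [hne, dite_false]
      congr 1
      apply Subtype.ext
      simp only
      rw [← huv, ← mul_assoc, mul_self_of_orderOf_two hu, one_mul]
  · intro t
    obtain ⟨t, ht, htx⟩ := t
    by_cases h : t = x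
    · subst h
      simp
    · simp [h]

end Cfsg.Agent.S0236
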