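import Cfsg.Statements.S0237
import Mathlib

set_option autoImplicit false
open Cfsg

namespace Cfsg.Agent.S0237

/-- If x is real (conjugate to x⁻¹) in a finite group G, the number of g with g x g⁻¹ = x⁻¹ equals |C_G(x)|. -/
theorem result {G : Type*} [Group G] [Finite G] (x : G) (hreal : IsConj x x⁻¹) : Nat.card {g : G // g * x * g⁻¹ = x⁻¹} = Nat.card (Subgroup.centralizer ({x} : Set G)) := by
  obtain ⟨g₀, hg₀⟩ := isConj_iff.mp hreal
  symm
  apply Nat.card_congr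
  refine
    { toFun := fun c => ⟨g₀ * c.1, ?_⟩
      invFun := fun g => ⟨g₀⁻¹ * g.1, ?_⟩
      left_inv := ?_
      right_inv := ?_ }
  · have hc : x * c.1 = c.1 * x := (Subgroup.mem_centralizer_iff.mp c.2) x (Set.mem_singleton x)
    have : g₀ * c.1 * x * (g₀ * c.1)⁻¹ = g₀ * (c.1 * x) * c.1⁻¹ * g₀⁻¹ := by
      simp [mul_assoc]
    rw [this, ← hc, ← hg₀]
    simp [mul_assoc]
  · obtain ⟨g, hg⟩ := g
    rw [Subgroup.mem_centralizer_iff]
    intro h hh
    rw [Set.mem_singleton_iff] at hh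
    subst hh
    have h1 : g * h = h⁻¹ * g := by
      have : g * h = (g * h * g⁻¹) * g := by simp [mul_assoc]
      rw [this, hg]
    have h2 : g₀ * h = h⁻¹ * g₀ := by
      have : g₀ * h = (g₀ * h * g₀⁻¹) * g₀ := by simp [mul_assoc]
      rw [this, hg₀]
    have h3 : h * g₀⁻¹ = g₀⁻¹ * h⁻¹ := by
      have : h * g₀⁻¹ = g₀⁻¹ * (g₀ * h) * g₀⁻¹ := by simp [mul_assoc]
      rw [this, h2]; simp [mul_assoc]
    show h * (g₀⁻¹ * g) = g₀⁻¹ * g * h
    calc h * (g₀⁻¹ * g) = (h * g₀⁻¹) * g := by rw [mul_assoc]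
      _ = g₀⁻¹ * (h⁻¹ * g) := by rw [h3, mul_assoc]
      _ = g₀⁻¹ * g * h := by rw [← h1, mul_assoc]
  · intro c
    apply Subtype.ext
    simp
  · intro g
    apply Subtype.ext
    simp

end Cfsg.Agent.S0237
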