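import Cfsg.Statements.S0238
import Mathlib
import Cfsg.Agent.S0236
import Cfsg.Agent.S0237

set_option autoImplicit false
open Cfsg

namespace Cfsg.Agent.S0238

theorem mul_self_of_orderOf_two' {G : Type*} [Group G] {u : G} (h : orderOf u = 2) : u * u = 1 := by
  have := pow_orderOf_eq_one u
  rw [h, pow_two] at this
  exact this

theorem inv_of_orderOf_two' {G : Type*} [Group G] {u : G} (h : orderOf u = 2) : u⁻¹ = u :=
  inv_eq_of_mul_eq_one_left (mul_self_of_orderOf_two' h)

theorem conj_of_pair {G : Type*} [Group G] (x u v : G) (hu : orderOf u = 2) (hv : orderOf v = 2)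
    (huv : u * v = x) : u * x * u⁻¹ = x⁻¹ := by
  rw [← huv, mul_inv_rev, inv_of_orderOf_two' hv, inv_of_orderOf_two' hu]
  calc u * (u * v) * u = (u * u) * v * u := by simp [mul_assoc]
    _ = v * u := by rw [mul_self_of_orderOf_two' hu, one_mul]

/-- For every x in a finite group G, the number c of ordered pairs (u, v) of involutions with uv = x is at most |C_G(x)|; c = 0 when x is not conjugate to x⁻¹; and c + 2 ≤ |C_G(x)| when x is an involution. -/
theorem result {G : Type*} [Group G] [Finite G] (x : G) : Nat.card {p : G × G // orderOf p.1 = 2 ∧ orderOf p.2 = 2 ∧ p.1 * p.2 = x} ≤ Nat.card (Subgroup.centralizer ({x} : Set G)) ∧ (¬ IsConj x x⁻¹ → Nat.card {p : G × G // orderOf p.1 = 2 ∧ orderOf p.2 = 2 ∧ p.1 * p.2 = x} = 0) ∧ (orderOf x = 2 → Nat.card {p : G × G // orderOf p.1 = 2 ∧ orderOf p.2 = 2 ∧ p.1 * p.2 = x} + 2 ≤ Nat.card (Subgroup.centralizer ({x} : Set G))) := by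
  classical
  refine ⟨?_, ?_, ?_⟩
  · by_cases hreal : IsConj x x⁻¹
    · rw [← Cfsg.Agent.S0237.result x hreal]
      apply Nat.card_le_card_of_injective
        (fun p : {p : G × G // orderOf p.1 = 2 ∧ orderOf p.2 = 2 ∧ p.1 * p.2 = x} =>
          (⟨p.1.1, conj_of_pair x p.1.1 p.1.2 p.2.1 p.2.2.1 p.2.2.2⟩ : {g : G // g * x * g⁻¹ = x⁻¹}))
      intro p q hpq
      obtain ⟨⟨u, v⟩, hu, hv, huv⟩ := p
      obtain ⟨⟨u', v'⟩, hu', hv', huv'⟩ := q
      simp only [Subtype.mk.injEq] at hpq
      subst hpq
      simp only at huv huv'
      have : v = v' := mul_left_cancel (huv.trans huv'.symm)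
      subst this
      rfl
    · have : IsEmpty {p : G × G // orderOf p.1 = 2 ∧ orderOf p.2 = 2 ∧ p.1 * p.2 = x} := by
        constructor
        intro p
        exact hreal (isConj_iff.mpr ⟨p.1.1, conj_of_pair x p.1.1 p.1.2 p.2.1 p.2.2.1 p.2.2.2⟩)
      rw [Nat.card_of_isEmpty]
      exact Nat.zero_le _
  · intro hreal
    have : IsEmpty {p : G × G // orderOf p.1 = 2 ∧ orderOf p.2 = 2 ∧ p.1 * p.2 = x} := by
      constructor
      intro p
      exact hreal (isConj_iff.mpr ⟨p.1.1, conj_of_pair x p.1.1 p.1.2 p.2.1 p.2.2.1 p.2.2.2⟩)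
    exact Nat.card_of_isEmpty
  · intro hx
    have h1 := Cfsg.Agent.S0236.result x hx
    have h2 : Nat.card {t : G // orderOf t = 2 ∧ Commute t x} + 1 ≤
        Nat.card (Subgroup.centralizer ({x} : Set G)) := by
      rw [← Finite.card_option]
      apply Nat.card_le_card_of_injective
        (fun o : Option {t : G // orderOf t = 2 ∧ Commute t x} =>
          match o with
          | none => (1 : Subgroup.centralizer ({x} : Set G))
          | some t => ⟨t.1, by
              rw [Subgroup.mem_centralizer_iff]
              intro h hh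
              rw [Set.mem_singleton_iff] at hh
              subst hh
              exact t.2.2.eq.symm⟩)
      intro a b hab
      cases a with
      | none =>
        cases b with
        | none => rfl
        | some t =>
          exfalso
          simp only [Subtype.ext_iff] at hab
          have h3 : t.1 = 1 := hab.symm
          have h4 := t.2.1
          rw [h3, orderOf_one] at h4
          omega
      | some s =>
        cases b with
        | none =>
          exfalso
          simp only [Subtype.ext_iff] at hab
          have h3 : s.1 = 1 := hab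
          have h4 := s.2.1
          rw [h3, orderOf_one] at h4
          omega
        | some t =>
          simp only [Subtype.ext_iff] at hab
          congr 1
          exact Subtype.ext hab
    omega

end Cfsg.Agent.S0238
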