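import Cfsg.Statements.S0240
import Mathlib

set_option autoImplicit false
open Cfsg

namespace Cfsg.Agent.S0240

theorem mul_self_of_orderOf_two {G : Type*} [Group G] {u : G} (h : orderOf u = 2) : u * u = 1 := by
  have := pow_orderOf_eq_one u
  rw [h, pow_two] at this
  exact this

theorem inv_of_orderOf_two {G : Type*} [Group G] {u : G} (h : orderOf u = 2) : u⁻¹ = u :=
  inv_eq_of_mul_eq_one_left (mul_self_of_orderOf_two h)

theorem ne_one_of_orderOf_two {G : Type*} [Group G] {u : G} (h : orderOf u = 2) : u ≠ 1 := by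
  intro h1
  rw [h1, orderOf_one] at h
  omega

/-- Let G be a finite group with n involutions and H a subgroup with |H|·(n+1) > |G|. Then some nontrivial h ∈ H is strongly real in G: an involution t of G satisfies t h t⁻¹ = h⁻¹. -/
theorem result {G : Type*} [Group G] [Finite G] (H : Subgroup G) (hH : Nat.card G < Nat.card H * (Nat.card {t : G // orderOf t = 2} + 1)) : ∃ h : G, h ∈ H ∧ h ≠ 1 ∧ ∃ t : G, orderOf t = 2 ∧ t * h * t⁻¹ = h⁻¹ := by
  classical
  haveI : Fintype G := Fintype.ofFinite G
  let T := Option {t : G // orderOf t = 2}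
  let f : T → G := fun o => match o with
    | none => 1
    | some t => t.1
  let q : T → G ⧸ H := fun o => (f o : G ⧸ H)
  have hcard : Nat.card (G ⧸ H) < Nat.card T := by
    have h1 : Nat.card G = Nat.card (G ⧸ H) * Nat.card H :=
      Subgroup.card_eq_card_quotient_mul_card_subgroup H
    have h2 : Nat.card T = Nat.card {t : G // orderOf t = 2} + 1 := Finite.card_option
    rw [h2]
    rw [h1, mul_comm] at hH
    exact lt_of_mul_lt_mul_left hH (Nat.zero_le _)
  haveI : Fintype T := Fintype.ofFinite T
  haveI : Fintype (G ⧸ H) := Fintype.ofFinite _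
  rw [Nat.card_eq_fintype_card, Nat.card_eq_fintype_card] at hcard
  obtain ⟨a, b, hab, hq⟩ := Fintype.exists_ne_map_eq_of_card_lt q hcard
  have hmem : (f a)⁻¹ * f b ∈ H := QuotientGroup.eq.mp hq
  cases a with
  | none =>
    cases b with
    | none => exact absurd rfl hab
    | some t =>
      have ht : (1 : G)⁻¹ * t.1 ∈ H := hmem
      rw [inv_one, one_mul] at ht
      refine ⟨t.1, ht, ne_one_of_orderOf_two t.2, t.1, t.2, ?_⟩
      rw [inv_of_orderOf_two t.2, mul_self_of_orderOf_two t.2, one_mul]
  | some s =>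
    cases b with
    | none =>
      have hs : s.1⁻¹ * 1 ∈ H := hmem
      rw [mul_one, inv_of_orderOf_two s.2] at hs
      refine ⟨s.1, hs, ne_one_of_orderOf_two s.2, s.1, s.2, ?_⟩
      rw [inv_of_orderOf_two s.2, mul_self_of_orderOf_two s.2, one_mul]
    | some t =>
      have hst : s.1⁻¹ * t.1 ∈ H := hmem
      rw [inv_of_orderOf_two s.2] at hst
      have hne : s.1 ≠ t.1 := by
        intro h
        apply hab
        congr 1
        exact Subtype.ext h
      refine ⟨s.1 * t.1, hst, ?_, s.1, s.2, ?_⟩
      · intro h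
        apply hne
        have : t.1 = s.1⁻¹ := eq_inv_of_mul_eq_one_right h
        rw [this, inv_of_orderOf_two s.2]
      · rw [mul_inv_rev, inv_of_orderOf_two s.2, inv_of_orderOf_two t.2]
        calc s.1 * (s.1 * t.1) * s.1 = (s.1 * s.1) * t.1 * s.1 := by simp [mul_assoc]
          _ = t.1 * s.1 := by rw [mul_self_of_orderOf_two s.2, one_mul]

end Cfsg.Agent.S0240
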