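import Cfsg.Statements.S0241
import Mathlib

set_option autoImplicit false
open Cfsg

namespace Cfsg.Agent.S0241

theorem conj_pow_odd {G : Type*} [Group G] (g x : G) (hg : g * x * g⁻¹ = x⁻¹) (j : ℕ) :
    g ^ (2 * j + 1) * x * (g ^ (2 * j + 1))⁻¹ = x⁻¹ := by
  have h3 : g * x⁻¹ * g⁻¹ = x := by
    have : g * x⁻¹ * g⁻¹ = (g * x * g⁻¹)⁻¹ := by simp [mul_assoc]
    rw [this, hg, inv_inv]
  have h2 : Commute (g ^ 2) x := by
    have : g ^ 2 * x = x * g ^ 2 := by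
      calc g ^ 2 * x = g * (g * x * g⁻¹) * g := by simp [pow_two, mul_assoc]
        _ = g * x⁻¹ * g := by rw [hg]
        _ = (g * x⁻¹ * g⁻¹) * g ^ 2 := by simp [pow_two, mul_assoc]
        _ = x * g ^ 2 := by rw [h3]
    exact this
  have h4 : Commute ((g ^ 2) ^ j) x⁻¹ := (h2.pow_left j).inv_right
  have e : g ^ (2 * j + 1) = (g ^ 2) ^ j * g := by
    rw [pow_succ, pow_mul]
  rw [e, mul_inv_rev]
  calc (g ^ 2) ^ j * g * x * (g⁻¹ * ((g ^ 2) ^ j)⁻¹)
      = (g ^ 2) ^ j * (g * x * g⁻¹) * ((g ^ 2) ^ j)⁻¹ := by simp [mul_assoc]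
    _ = (g ^ 2) ^ j * x⁻¹ * ((g ^ 2) ^ j)⁻¹ := by rw [hg]
    _ = x⁻¹ * (g ^ 2) ^ j * ((g ^ 2) ^ j)⁻¹ := by rw [h4.eq]
    _ = x⁻¹ := by simp [mul_assoc]

theorem sq_mem_centralizer {G : Type*} [Group G] (g x : G) (hg : g * x * g⁻¹ = x⁻¹) :
    g ^ 2 ∈ Subgroup.centralizer ({x} : Set G) := by
  have h3 : g * x⁻¹ * g⁻¹ = x := by
    have : g * x⁻¹ * g⁻¹ = (g * x * g⁻¹)⁻¹ := by simp [mul_assoc]
    rw [this, hg, inv_inv]
  rw [Subgroup.mem_centralizer_iff]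
  intro h hh
  rw [Set.mem_singleton_iff] at hh
  subst hh
  symm
  calc g ^ 2 * h = g * (g * h * g⁻¹) * g := by simp [pow_two, mul_assoc]
    _ = g * h⁻¹ * g := by rw [hg]
    _ = (g * h⁻¹ * g⁻¹) * g ^ 2 := by simp [pow_two, mul_assoc]
    _ = h * g ^ 2 := by rw [h3]

/-- If x ≠ 1 is conjugate to x⁻¹ in a finite group G and |C_G(x)| is odd, then some involution t satisfies t x t⁻¹ = x⁻¹. -/
theorem result {G : Type*} [Group G] [Finite G] (x : G) (hx : x ≠ 1) (hreal : IsConj x x⁻¹) (hodd : Odd (Nat.card (Subgroup.centralizer ({x} : Set G)))) : ∃ t : G, orderOf t = 2 ∧ t * x * t⁻¹ = x⁻¹ := by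
  obtain ⟨g, hg⟩ := isConj_iff.mp hreal
  obtain ⟨j, hj⟩ := hodd
  have hx2 : x ≠ x⁻¹ := by
    intro h
    have h6 : x ^ 2 = 1 := by
      rw [pow_two]; nth_rewrite 2 [h]; exact mul_inv_cancel x
    have h7 : orderOf x = 2 := orderOf_eq_prime h6 hx
    have hxc : x ∈ Subgroup.centralizer ({x} : Set G) := by
      rw [Subgroup.mem_centralizer_iff]
      intro h hh
      rw [Set.mem_singleton_iff] at hh
      subst hh
      rfl
    have h8 : orderOf (⟨x, hxc⟩ : Subgroup.centralizer ({x} : Set G)) = 2 := by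
      rw [← h7]
      exact (Subgroup.orderOf_mk x hxc)
    have h9 := orderOf_dvd_natCard (⟨x, hxc⟩ : Subgroup.centralizer ({x} : Set G))
    rw [h8, hj] at h9
    omega
  refine ⟨g ^ (2 * j + 1), ?_, conj_pow_odd g x hg j⟩
  apply orderOf_eq_prime
  · rw [← pow_mul, mul_comm, pow_mul]
    have h1 := sq_mem_centralizer g x hg
    have h2 : (⟨g ^ 2, h1⟩ : Subgroup.centralizer ({x} : Set G)) ^ (2 * j + 1) = 1 := by
      rw [← hj]
      exact pow_card_eq_one'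
    have h3 := congrArg (Subtype.val) h2
    simpa using h3
  · intro h
    have := conj_pow_odd g x hg j
    rw [h] at this
    apply hx2
    simpa using this

end Cfsg.Agent.S0241
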