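import Mathlib
import Cfsg.Statements.S0247
import Cfsg.Agent.Helper6.SpFrames
import Cfsg.Agent.Helper6.SpCard

set_option autoImplicit false
open Cfsg

namespace Cfsg.Agent.S0247

section aux

variable {F : Type*} [Field F]

/-- lift of `F^4` into the even-weight vectors of `F^6` -/
def lam (x : Fin 2 ⊕ Fin 2 → F) : Fin 6 → F :=
  ![x (.inl 0), x (.inl 0) + x (.inr 0), x (.inr 0), x (.inl 1), x (.inl 1) + x (.inr 1), x (.inr 1)]

/-- projection of `F^6` onto `F^4` killing the all-ones vector -/
def pr (w : Fin 6 → F) : Fin 2 ⊕ Fin 2 → F :=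
  Sum.elim ![w 1 + w 2, w 3 + w 0 + w 1 + w 2] ![w 0 + w 1, w 5 + w 0 + w 1 + w 2]

/-- the action of a permutation on `F^4` -/
def T (σ : Equiv.Perm (Fin 6)) (x : Fin 2 ⊕ Fin 2 → F) : Fin 2 ⊕ Fin 2 → F :=
  pr (fun i => lam x (σ.symm i))

theorem lam_sum (h2 : (2 : F) = 0) (x : Fin 2 ⊕ Fin 2 → F) : ∑ i, lam x i = 0 := by
  simp only [Fin.sum_univ_six, lam]
  simp
  linear_combination (x (.inl 0) + x (.inr 0) + x (.inl 1) + x (.inr 1)) * h2

theorem lam_pr (h2 : (2 : F) = 0) (w : Fin 6 → F) (hw : ∑ i, w i = 0) :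
    lam (pr w) = fun i => w i + (w 0 + w 1 + w 2) := by
  rw [Fin.sum_univ_six] at hw
  ext i
  fin_cases i
  · simp [lam, pr]
    linear_combination (-w 0) * h2
  · simp [lam, pr]
    ring
  · simp [lam, pr]
    linear_combination (-w 2) * h2
  · simp [lam, pr]
    ring
  · simp [lam, pr]
    linear_combination hw - w 4 * h2
  · simp [lam, pr]
    ring

theorem pr_add_const (h2 : (2 : F) = 0) (u : Fin 6 → F) (c : F) :
    pr (fun i => u i + c) = pr u := by
  ext j
  rcases j with j | j
  · fin_cases j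
    · simp [pr]
      linear_combination c * h2
    · simp [pr]
      linear_combination 2 * c * h2
  · fin_cases j
    · simp [pr]
      linear_combination c * h2
    · simp [pr]
      linear_combination 2 * c * h2

theorem pr_lam (x : Fin 2 ⊕ Fin 2 → F) (h2 : (2 : F) = 0) : pr (lam x) = x := by
  ext j
  rcases j with j | j
  · fin_cases j
    · simp [pr, lam]
      linear_combination x (.inr 0) * h2
    · simp [pr, lam]
      linear_combination (x (.inl 0) + x (.inr 0)) * h2
  · fin_cases j
    · simp [pr, lam]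
      linear_combination x (.inl 0) * h2
    · simp [pr, lam]
      linear_combination (x (.inl 0) + x (.inr 0)) * h2

theorem T_one (h2 : (2 : F) = 0) (x : Fin 2 ⊕ Fin 2 → F) : T 1 x = x := by
  unfold T
  exact pr_lam x h2

theorem T_mul (h2 : (2 : F) = 0) (σ τ : Equiv.Perm (Fin 6)) (x : Fin 2 ⊕ Fin 2 → F) :
    T σ (T τ x) = T (σ * τ) x := by
  have hw : ∑ i, (fun i => lam x (τ.symm i)) i = 0 := by
    rw [Equiv.sum_comp τ.symm (lam x)]
    exact lam_sum h2 x
  unfold T
  rw [lam_pr h2 _ hw]
  exact pr_add_const h2 (fun i => lam x (τ.symm (σ.symm i))) _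

theorem sf_lam (h2 : (2 : F) = 0) (x y : Fin 2 ⊕ Fin 2 → F) :
    Cfsg.sympForm 2 F x y = ∑ i, lam x i * lam y i := by
  simp only [Fin.sum_univ_six, lam]
  simp [Cfsg.sympForm, Matrix.J, dotProduct, Matrix.mulVec, Fin.sum_univ_two, Matrix.fromBlocks]
  linear_combination (x (.inl 0) * y (.inr 0) + x (.inl 1) * y (.inr 1) + x (.inl 0) * y (.inl 0)
    + x (.inr 0) * y (.inr 0) + x (.inl 1) * y (.inl 1) + x (.inr 1) * y (.inr 1)) * (-h2)

theorem dot_shift (h2 : (2 : F) = 0) (u v : Fin 6 → F) (c c' : F) (hu : ∑ i, u i = 0)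
    (hv : ∑ i, v i = 0) : ∑ i, (u i + c) * (v i + c') = ∑ i, u i * v i := by
  have h : ∀ i, (u i + c) * (v i + c') = u i * v i + c' * u i + c * v i + c * c' := fun i => by ring
  simp only [h, Finset.sum_add_distrib, ← Finset.mul_sum, hu, hv, Finset.sum_const,
    Finset.card_univ, Fintype.card_fin]
  rw [mul_zero, mul_zero, add_zero, add_zero, nsmul_eq_mul]
  push_cast
  linear_combination 3 * c * c' * h2

theorem sf_T (h2 : (2 : F) = 0) (σ : Equiv.Perm (Fin 6)) (x y : Fin 2 ⊕ Fin 2 → F) :
    Cfsg.sympForm 2 F (T σ x) (T σ y) = Cfsg.sympForm 2 F x y := by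
  have hx : ∑ i, (fun i => lam x (σ.symm i)) i = 0 := by
    rw [Equiv.sum_comp σ.symm (lam x)]
    exact lam_sum h2 x
  have hy : ∑ i, (fun i => lam y (σ.symm i)) i = 0 := by
    rw [Equiv.sum_comp σ.symm (lam y)]
    exact lam_sum h2 y
  rw [sf_lam h2, sf_lam h2]
  unfold T
  rw [lam_pr h2 _ hx, lam_pr h2 _ hy]
  rw [dot_shift h2 _ _ _ _ hx hy]
  exact Equiv.sum_comp σ.symm (fun i => lam x i * lam y i)

theorem lam_add (x y : Fin 2 ⊕ Fin 2 → F) : lam (x + y) = lam x + lam y := by
  ext i
  fin_cases i <;> simp [lam] <;> ring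

theorem lam_smul (c : F) (x : Fin 2 ⊕ Fin 2 → F) : lam (c • x) = c • lam x := by
  ext i
  fin_cases i <;> simp [lam] <;> ring

theorem pr_add (u v : Fin 6 → F) : pr (u + v) = pr u + pr v := by
  ext j
  rcases j with j | j
  · fin_cases j <;> simp [pr] <;> ring
  · fin_cases j <;> simp [pr] <;> ring

theorem pr_smul (c : F) (u : Fin 6 → F) : pr (c • u) = c • pr u := by
  ext j
  rcases j with j | j
  · fin_cases j <;> simp [pr] <;> ring
  · fin_cases j <;> simp [pr] <;> ring

/-- `T σ` as a linear map -/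
def Tl (σ : Equiv.Perm (Fin 6)) : (Fin 2 ⊕ Fin 2 → F) →ₗ[F] (Fin 2 ⊕ Fin 2 → F) where
  toFun := T σ
  map_add' := by
    intro x y
    unfold T
    rw [lam_add, ← pr_add]
    rfl
  map_smul' := by
    intro c x
    unfold T
    rw [lam_smul, RingHom.id_apply, ← pr_smul]
    rfl

theorem Tl_apply (σ : Equiv.Perm (Fin 6)) (x : Fin 2 ⊕ Fin 2 → F) : Tl σ x = T σ x := rfl

theorem supp_lemma (h01 : ∀ x : F, x = 0 ∨ x = 1) (σ : Equiv.Perm (Fin 6)) (a b : Fin 6)
    (hab : a ≠ b) (u : Fin 6 → F) (hu : ∀ i, u i = if i = a ∨ i = b then 1 else 0) (c : F)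
    (h : ∀ i, u i = u (σ.symm i) + c) :
    (σ.symm a = a ∨ σ.symm a = b) ∧ (σ.symm b = a ∨ σ.symm b = b) := by
  rcases h01 c with rfl | rfl
  · constructor
    · have h1 := h a
      rw [hu a, hu (σ.symm a)] at h1
      by_contra hc
      rw [if_neg hc] at h1
      simp at h1
    · have h1 := h b
      rw [hu b, hu (σ.symm b)] at h1
      by_contra hc
      rw [if_neg hc] at h1
      simp at h1
  · exfalso
    have hmaps : ∀ i ∈ ({a, b} : Finset (Fin 6))ᶜ, σ.symm i ∈ ({a, b} : Finset (Fin 6)) := by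
      intro i hi
      have h1 := h i
      rw [hu i, hu (σ.symm i)] at h1
      simp only [Finset.mem_compl, Finset.mem_insert, Finset.mem_singleton] at hi
      rw [if_neg hi] at h1
      by_contra hc
      simp only [Finset.mem_insert, Finset.mem_singleton] at hc
      rw [if_neg hc] at h1
      simp at h1
    have h2 := Finset.card_le_card_of_injOn σ.symm hmaps σ.symm.injective.injOn
    rw [Finset.card_compl, Finset.card_pair hab] at h2
    simp at h2

end aux

/-- Sp_4(2) is isomorphic to the symmetric group S_6. -/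
theorem result {F : Type*} [Field F] [Fintype F] (hF : Fintype.card F = 2) : Nonempty (Matrix.symplecticGroup (Fin 2) F ≃* Equiv.Perm (Fin 6)) := by
  classical
  have h01 : ∀ x : F, x = 0 ∨ x = 1 := by
    intro x
    by_contra hx
    push Not at hx
    have h3 : ({0, 1, x} : Finset F).card = 3 := by
      rw [Finset.card_insert_of_notMem, Finset.card_insert_of_notMem, Finset.card_singleton]
      · simpa using hx.2.symm
      · simp only [Finset.mem_insert, Finset.mem_singleton, not_or]
        exact ⟨zero_ne_one, hx.1.symm⟩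
    have h4 := Finset.card_le_univ ({0, 1, x} : Finset F)
    omega
  have h2 : (2 : F) = 0 := by
    rcases h01 2 with h | h
    · exact h
    · exfalso
      have : (1 : F) = 0 := by linear_combination h
      exact one_ne_zero this
  let Te : Equiv.Perm (Fin 6) → ((Fin 2 ⊕ Fin 2 → F) ≃ₗ[F] (Fin 2 ⊕ Fin 2 → F)) := fun σ =>
    LinearEquiv.ofLinearMap (Tl σ) (Tl σ⁻¹)
      (LinearMap.ext fun x => by
        simp only [LinearMap.comp_apply, Tl_apply, LinearMap.id_apply]
        rw [T_mul h2, mul_inv_cancel, T_one h2])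
      (LinearMap.ext fun x => by
        simp only [LinearMap.comp_apply, Tl_apply, LinearMap.id_apply]
        rw [T_mul h2, inv_mul_cancel, T_one h2])
  have hTe : ∀ σ x, Te σ x = T σ x := fun _ _ => rfl
  choose A hA using fun σ => Cfsg.Agent.Helper6.sp_of_isometry 2 (Te σ) (fun u v => sf_T h2 σ u v)
  let φ : Equiv.Perm (Fin 6) →* Matrix.symplecticGroup (Fin 2) F := MonoidHom.mk' A (by
    intro σ τ
    apply Subtype.ext
    rw [Cfsg.Agent.Helper6.sp_coe_mul]
    apply Matrix.mulVec_injective
    funext x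
    rw [← Matrix.mulVec_mulVec, hA, hA, hA, hTe, hTe, hTe, T_mul h2])
  have hinj : Function.Injective φ := by
    rw [injective_iff_map_eq_one]
    intro σ hσ
    have h1 : ∀ x : Fin 2 ⊕ Fin 2 → F, T σ x = x := by
      intro x
      rw [← hTe, ← hA]
      have h1' : A σ = 1 := hσ
      rw [h1']
      exact Matrix.one_mulVec x
    have h3 : ∀ x : Fin 2 ⊕ Fin 2 → F, ∃ c : F, ∀ i, lam x i = lam x (σ.symm i) + c := by
      intro x
      have hw : ∑ i, (fun i => lam x (σ.symm i)) i = 0 := by
        rw [Equiv.sum_comp σ.symm (lam x)]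
        exact lam_sum h2 x
      have h4 := lam_pr h2 _ hw
      have h5 : lam (pr fun i => lam x (σ.symm i)) = lam x := by
        have h5' := h1 x
        unfold T at h5'
        rw [h5']
      rw [h5] at h4
      exact ⟨_, fun i => congrFun h4 i⟩
    obtain ⟨c1, hc1⟩ := h3 (Pi.single (.inl 0) 1)
    obtain ⟨c2, hc2⟩ := h3 (Pi.single (.inr 0) 1)
    obtain ⟨c3, hc3⟩ := h3 (Pi.single (.inl 1) 1)
    obtain ⟨c4, hc4⟩ := h3 (Pi.single (.inr 1) 1)
    have hA1 := supp_lemma h01 σ 0 1 (by decide) _ (by
      intro i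
      fin_cases i <;> simp [lam]) c1 hc1
    have hB1 := supp_lemma h01 σ 1 2 (by decide) _ (by
      intro i
      fin_cases i <;> simp [lam]) c2 hc2
    have hA2 := supp_lemma h01 σ 3 4 (by decide) _ (by
      intro i
      fin_cases i <;> simp [lam]) c3 hc3
    have hB2 := supp_lemma h01 σ 4 5 (by decide) _ (by
      intro i
      fin_cases i <;> simp [lam]) c4 hc4
    have e1 : σ.symm 1 = 1 := by
      rcases hA1.2 with h | h
      · rcases hB1.1 with h' | h'
        · exact h'
        · rw [h] at h'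
          exact absurd h' (by decide)
      · exact h
    have e0 : σ.symm 0 = 0 := by
      rcases hA1.1 with h | h
      · exact h
      · exact absurd (σ.symm.injective (h.trans e1.symm)) (by decide)
    have e2 : σ.symm 2 = 2 := by
      rcases hB1.2 with h | h
      · exact absurd (σ.symm.injective (h.trans e1.symm)) (by decide)
      · exact h
    have e4 : σ.symm 4 = 4 := by
      rcases hA2.2 with h | h
      · rcases hB2.1 with h' | h'
        · exact h'
        · rw [h] at h'
          exact absurd h' (by decide)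
      · exact h
    have e3 : σ.symm 3 = 3 := by
      rcases hA2.1 with h | h
      · exact h
      · exact absurd (σ.symm.injective (h.trans e4.symm)) (by decide)
    have e5 : σ.symm 5 = 5 := by
      rcases hB2.2 with h | h
      · exact absurd (σ.symm.injective (h.trans e4.symm)) (by decide)
      · exact h
    have hs : σ.symm = 1 := by
      ext i
      fin_cases i
      · exact congrArg Fin.val e0
      · exact congrArg Fin.val e1
      · exact congrArg Fin.val e2
      · exact congrArg Fin.val e3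
      · exact congrArg Fin.val e4
      · exact congrArg Fin.val e5
    have hs' : σ⁻¹ = 1 := hs
    exact inv_eq_one.1 hs'
  have hcardSp : Nat.card (Matrix.symplecticGroup (Fin 2) F) = 720 := by
    rw [Cfsg.Agent.Helper6.sp_card hF 2]
    decide
  have hcard : Nat.card (Equiv.Perm (Fin 6)) = Nat.card (Matrix.symplecticGroup (Fin 2) F) := by
    rw [hcardSp, Nat.card_perm, Nat.card_fin]
    decide
  haveI : Finite (Matrix.symplecticGroup (Fin 2) F) :=
    Nat.finite_of_card_ne_zero (by rw [hcardSp]; norm_num)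
  have hbij : Function.Bijective φ := by
    rw [Nat.bijective_iff_injective_and_card]
    exact ⟨hinj, hcard⟩
  exact ⟨(MulEquiv.ofBijective φ hbij).symm⟩

end Cfsg.Agent.S0247
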