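import Cfsg.Statements.S0251
import Mathlib
import Cfsg.Agent.Helper2.PermIso
import Cfsg.Agent.S0243

set_option autoImplicit false
open Cfsg

namespace Cfsg.Agent.S0251

open Cfsg.Agent.Helper2
open scoped LinearAlgebra.Projectivization

/-- PSL_2(3) is isomorphic to A_4. -/
theorem result {F : Type*} [Field F] [Fintype F] (hF : Fintype.card F = 3) : Nonempty (Matrix.ProjectiveSpecialLinearGroup (Fin 2) F ≃* alternatingGroup (Fin 4)) := by
  have hcard := Cfsg.Agent.S0243.result hF 2 le_rfl
  have h12 : Nat.card (Matrix.ProjectiveSpecialLinearGroup (Fin 2) F) = 12 := by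
    simp [Fin.prod_univ_two] at hcard
    omega
  haveI : Finite (Matrix.ProjectiveSpecialLinearGroup (Fin 2) F) :=
    Nat.finite_of_card_ne_zero (by rw [h12]; norm_num)
  classical
  haveI : Fintype (ℙ F (Fin 2 → F)) := Fintype.ofFinite _
  have hα : Fintype.card (ℙ F (Fin 2 → F)) = 4 := by
    rw [← Nat.card_eq_fintype_card, Projectivization.card_of_finrank_two F (Fin 2 → F) (by simp),
      Nat.card_eq_fintype_card, hF]
  exact nonempty_equiv_alternating_of_injective hα Projectivization.PSLAction.toPermHom
    Matrix.ProjectiveSpecialLinearGroup.toPermHom_injective (by rw [h12]; rfl)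

end Cfsg.Agent.S0251
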