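import Cfsg.Statements.S0254
import Cfsg.Agent.Helper16.PermQuadThree
import Cfsg.Agent.S0300

set_option autoImplicit false
open Cfsg

namespace Cfsg.Agent.S0254

open Cfsg.Agent.Helper16 in

/-- PSL_2(9) is isomorphic to A_6. -/
theorem result {F : Type*} [Field F] [Fintype F] (hF : Fintype.card F = 9) : Nonempty (Matrix.ProjectiveSpecialLinearGroup (Fin 2) F ≃* alternatingGroup (Fin 6)) := by
  obtain ⟨e1⟩ := alt_six_iso_pomega
  obtain ⟨e2⟩ := Cfsg.Agent.S0300.result (F := ZMod 3) (K := F) (q := 3) (by simp [ZMod.card])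
    (by rw [hF]; norm_num) 0 1 (by decide)
  exact ⟨e2.symm.trans e1.symm⟩

end Cfsg.Agent.S0254
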