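import Cfsg.Statements.S0495
import Mathlib
import Cfsg.Agent.Helper4.Simple168f
import Cfsg.Agent.S0243
-- import your own Cfsg.Agent.* helpers here

set_option autoImplicit false
open Cfsg

namespace Cfsg.Agent.S0495

/-- A simple group of order 168 is isomorphic to the projective special linear group of dimension 2 over the field with
7 elements. -/
theorem result {G : Type*} [Group G] [Finite G] [IsSimpleGroup G]
    (h : Nat.card G = 168) {F : Type*} [Field F] [Fintype F] (hF : Fintype.card F = 7) :
    Nonempty (G ≃* Matrix.ProjectiveSpecialLinearGroup (Fin 2) F) := by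
  haveI : IsSimpleGroup (Matrix.ProjectiveSpecialLinearGroup (Fin 2) F) :=
    Matrix.ProjectiveSpecialLinearGroup.rank_two_simple (by rw [Nat.card_eq_fintype_card]; omega)
  have hcard := Cfsg.Agent.S0243.result hF 2 le_rfl
  have h168 : Nat.card (Matrix.ProjectiveSpecialLinearGroup (Fin 2) F) = 168 := by
    simp [Fin.prod_univ_two] at hcard
    omega
  haveI : Finite (Matrix.ProjectiveSpecialLinearGroup (Fin 2) F) :=
    Nat.finite_of_card_ne_zero (by rw [h168]; norm_num)
  exact Cfsg.Agent.Helper4.Simple168f.equiv_of_card h h168

end Cfsg.Agent.S0495
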