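import Cfsg.Statements.S0255
import Mathlib
import Cfsg.Agent.S0243
import Cfsg.Agent.S0249
import Cfsg.Agent.S0495
-- import your own Cfsg.Agent.* helpers here

set_option autoImplicit false
open Cfsg

namespace Cfsg.Agent.S0255

/-- PSL_2(7) is isomorphic to PSL_3(2). -/
theorem result {F K : Type*} [Field F] [Fintype F] [Field K] [Fintype K] (hF : Fintype.card F = 7) (hK : Fintype.card K = 2) : Nonempty (Matrix.ProjectiveSpecialLinearGroup (Fin 2) F ≃* Matrix.ProjectiveSpecialLinearGroup (Fin 3) K) := by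
  classical
  have h1 := Cfsg.Agent.S0243.result (F := K) hK 3 (by norm_num)
  have h2 : ∏ i : Fin 3, (2 ^ 3 - 2 ^ (i : ℕ)) = 168 := by decide
  have h168 : Nat.card (Matrix.ProjectiveSpecialLinearGroup (Fin 3) K) = 168 := by
    rw [h2] at h1
    have h3 : Nat.gcd 3 (2 - 1) = 1 := by decide
    rw [h3] at h1
    omega
  haveI : IsSimpleGroup (Matrix.ProjectiveSpecialLinearGroup (Fin 3) K) :=
    Cfsg.Agent.S0249.result 3 (le_refl 3)
  haveI : Finite (Matrix.ProjectiveSpecialLinearGroup (Fin 3) K) :=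
    Nat.finite_of_card_ne_zero (by omega)
  obtain ⟨e⟩ := Cfsg.Agent.S0495.result (G := Matrix.ProjectiveSpecialLinearGroup (Fin 3) K) h168 hF
  exact ⟨e.symm⟩

end Cfsg.Agent.S0255
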