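import Cfsg.Statements.S0261
import Mathlib
import Cfsg.Agent.Lead.Quat

set_option autoImplicit false
open Cfsg

namespace Cfsg.Agent.S0261

open Matrix

/-- involutions of `SL₂` in characteristic `≠ 2` are `±1`. -/
lemma sl2_invol {F : Type*} [Field F] (h2 : (2 : F) ≠ 0)
    (g : Matrix.SpecialLinearGroup (Fin 2) F) (hg : g * g = 1) :
    (g : Matrix (Fin 2) (Fin 2) F) = 1 ∨ (g : Matrix (Fin 2) (Fin 2) F) = -1 := by
  have hdet := g.2
  rw [Matrix.det_fin_two] at hdet
  have hM : (g : Matrix (Fin 2) (Fin 2) F) * (g : Matrix (Fin 2) (Fin 2) F) = 1 := by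
    have := congrArg Subtype.val hg
    simpa using this
  have e00 := congrFun (congrFun hM 0) 0
  have e01 := congrFun (congrFun hM 0) 1
  have e10 := congrFun (congrFun hM 1) 0
  have e11 := congrFun (congrFun hM 1) 1
  simp only [Matrix.mul_apply, Fin.sum_univ_two, Matrix.one_apply_eq, Matrix.one_apply_ne,
    ne_eq, Fin.isValue, zero_ne_one, one_ne_zero, not_false_eq_true] at e00 e01 e10 e11
  have hs : g.1 0 0 * (g.1 0 0 + g.1 1 1) = 2 := by linear_combination e00 + hdet
  have hne : g.1 0 0 + g.1 1 1 ≠ 0 := by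
    intro h
    rw [h, mul_zero] at hs
    exact h2 hs.symm
  have hb : g.1 0 1 = 0 := by
    have : g.1 0 1 * (g.1 0 0 + g.1 1 1) = 0 := by linear_combination e01
    exact (mul_eq_zero.mp this).resolve_right hne
  have hc : g.1 1 0 = 0 := by
    have : g.1 1 0 * (g.1 0 0 + g.1 1 1) = 0 := by linear_combination e10
    exact (mul_eq_zero.mp this).resolve_right hne
  have haa : g.1 0 0 * g.1 0 0 = 1 := by
    rw [hb] at e00
    simpa using e00
  have had : g.1 0 0 * g.1 1 1 = 1 := by
    rw [hb] at hdet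
    simpa using hdet
  have ha0 : g.1 0 0 ≠ 0 := by
    intro h
    rw [h, zero_mul] at haa
    exact zero_ne_one haa
  have hd : g.1 1 1 = g.1 0 0 := mul_left_cancel₀ ha0 (had.trans haa.symm)
  rcases (mul_self_eq_one_iff.mp haa) with h | h
  · left
    ext i j
    fin_cases i <;> fin_cases j <;> simp [h, hb, hc, hd]
  · right
    ext i j
    fin_cases i <;> fin_cases j <;> simp [h, hb, hc, hd]

/-- For q odd, the Sylow 2-subgroups of SL_2(q) are generalised quaternion. -/
theorem result {F : Type*} [Field F] [Fintype F] (hF : Odd (Fintype.card F)) (P : Sylow 2 (Matrix.SpecialLinearGroup (Fin 2) F)) : ∃ k : ℕ, 1 ≤ k ∧ Nonempty ((P : Subgroup (Matrix.SpecialLinearGroup (Fin 2) F)) ≃* QuaternionGroup (2 ^ k)) := by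
  classical
  haveI : Fact (Nat.Prime 2) := ⟨Nat.prime_two⟩
  have h2 : (2 : F) ≠ 0 := by
    intro h
    have hch : ringChar F = 2 :=
      CharP.ringChar_of_prime_eq_zero Nat.prime_two (by simpa using h)
    have := FiniteField.even_card_of_char_two hch
    rcases hF with ⟨k, hk⟩
    omega
  obtain ⟨a, b, hab⟩ : ∃ a b : F, a * a + b * b = -1 := by
    obtain ⟨p, hp⟩ := CharP.exists F
    haveI := hp
    haveI : Fact p.Prime := ⟨CharP.char_is_prime F p⟩
    haveI : NeZero p := ⟨(Fact.out : p.Prime).ne_zero⟩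
    obtain ⟨a, b, h⟩ := CharP.sq_add_sq F p (-1)
    exact ⟨a, b, by push_cast at h; linear_combination h⟩
  let hh : Matrix.SpecialLinearGroup (Fin 2) F :=
    ⟨!![0, -1; 1, 0], by simp [Matrix.det_fin_two_of]⟩
  let hi : Matrix.SpecialLinearGroup (Fin 2) F :=
    ⟨!![0, 1; -1, 0], by simp [Matrix.det_fin_two_of]⟩
  let xx : Matrix.SpecialLinearGroup (Fin 2) F :=
    ⟨!![a, b; b, -a], by rw [Matrix.det_fin_two_of]; linear_combination -hab⟩
  have e1 : hh * hi = 1 := by
    apply Subtype.ext
    rw [Matrix.SpecialLinearGroup.coe_mul, Matrix.SpecialLinearGroup.coe_one]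
    ext i j
    fin_cases i <;> fin_cases j <;> simp [hh, hi, Matrix.mul_apply, Fin.sum_univ_two]
  have e2 : xx * hh = hi * xx := by
    apply Subtype.ext
    rw [Matrix.SpecialLinearGroup.coe_mul, Matrix.SpecialLinearGroup.coe_mul]
    ext i j
    fin_cases i <;> fin_cases j <;> simp [hh, hi, xx, Matrix.mul_apply, Fin.sum_univ_two]
  have e3 : xx * hi = hh * xx := by
    apply Subtype.ext
    rw [Matrix.SpecialLinearGroup.coe_mul, Matrix.SpecialLinearGroup.coe_mul]
    ext i j
    fin_cases i <;> fin_cases j <;> simp [hh, hi, xx, Matrix.mul_apply, Fin.sum_univ_two]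
  have e4 : hh * hh * hh * hh = 1 := by
    have e4' : ((hh * hh : Matrix.SpecialLinearGroup (Fin 2) F) : Matrix (Fin 2) (Fin 2) F)
        = -1 := by
      rw [Matrix.SpecialLinearGroup.coe_mul]
      ext i j
      fin_cases i <;> fin_cases j <;> simp [hh, Matrix.mul_apply, Fin.sum_univ_two]
    apply Subtype.ext
    rw [mul_assoc, Matrix.SpecialLinearGroup.coe_mul, e4']
    simp
  have e5 : xx * xx * xx * xx = 1 := by
    have e5' : ((xx * xx : Matrix.SpecialLinearGroup (Fin 2) F) : Matrix (Fin 2) (Fin 2) F)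
        = -1 := by
      rw [Matrix.SpecialLinearGroup.coe_mul]
      ext i j
      fin_cases i <;> fin_cases j <;> simp [xx, Matrix.mul_apply, Fin.sum_univ_two]
      · linear_combination hab
      · ring
      · ring
      · linear_combination hab
    apply Subtype.ext
    rw [mul_assoc, Matrix.SpecialLinearGroup.coe_mul, e5']
    simp
  have hhi : hi = hh⁻¹ := eq_inv_of_mul_eq_one_right e1
  have hne : xx * hh ≠ hh * xx := by
    intro h
    rw [e2] at h
    have h' : hi = hh := mul_right_cancel h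
    have h'' := congrFun (congrFun (congrArg Subtype.val h') 0) 1
    simp [hh, hi] at h''
    apply h2
    linear_combination h''
  -- the two cyclic groups are 2-groups
  have pg : ∀ y : Matrix.SpecialLinearGroup (Fin 2) F, y * y * y * y = 1 →
      IsPGroup 2 (Subgroup.zpowers y) := by
    intro y hy
    rintro ⟨w, hw⟩
    refine ⟨2, ?_⟩
    apply Subtype.ext
    obtain ⟨k, rfl⟩ := Subgroup.mem_zpowers_iff.mp hw
    show (y ^ k) ^ 2 ^ 2 = 1
    have hy4 : y ^ 4 = 1 := by
      rw [← hy]; simp [pow_succ]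
    have h4 : (y ^ k) ^ 4 = 1 := by
      rw [← zpow_natCast, ← _root_.zpow_mul, mul_comm, _root_.zpow_mul, zpow_natCast, hy4,
        _root_.one_zpow]
    have h22 : (2 : ℕ) ^ 2 = 4 := by norm_num
    rw [h22]
    exact h4
  have hnorm : Subgroup.zpowers xx ≤ Subgroup.normalizer (Subgroup.zpowers hh) := by
    rw [Subgroup.zpowers_le, Subgroup.mem_normalizer_iff]
    intro n
    constructor
    · intro hn
      obtain ⟨k, rfl⟩ := Subgroup.mem_zpowers_iff.mp hn
      have : xx * hh ^ k * xx⁻¹ = (hh⁻¹) ^ k := by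
        have h1 : xx * hh * xx⁻¹ = hh⁻¹ := by rw [e2, ← hhi]; group
        rw [← h1]
        exact (conj_zpow (a := xx) (b := hh) (i := k)).symm
      rw [this]
      exact Subgroup.zpow_mem _ (Subgroup.inv_mem _ (Subgroup.mem_zpowers hh)) k
    · intro hn
      obtain ⟨k, hk⟩ := Subgroup.mem_zpowers_iff.mp hn
      have h1 : xx⁻¹ * hh * xx = hh⁻¹ := by
        rw [← hhi, mul_assoc, ← e3, inv_mul_cancel_left]
      have : n = (hh⁻¹) ^ k := by
        have h3 : n = xx⁻¹ * (xx * n * xx⁻¹) * xx := by group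
        rw [h3, ← hk, ← h1]
        have := (conj_zpow (a := xx⁻¹) (b := hh) (i := k))
        rw [inv_inv] at this
        exact this.symm
      rw [this]
      exact Subgroup.zpow_mem _ (Subgroup.inv_mem _ (Subgroup.mem_zpowers hh)) k
  have hsup := IsPGroup.to_sup_of_normal_right' (pg xx e5) (pg hh e4) hnorm
  obtain ⟨P', hP'⟩ := hsup.exists_le_sylow
  have hxP : xx ∈ (P' : Subgroup (Matrix.SpecialLinearGroup (Fin 2) F)) :=
    hP' (Subgroup.mem_sup_left (Subgroup.mem_zpowers xx))
  have hhP : hh ∈ (P' : Subgroup (Matrix.SpecialLinearGroup (Fin 2) F)) :=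
    hP' (Subgroup.mem_sup_right (Subgroup.mem_zpowers hh))
  -- unique subgroup of order two
  have hinv : ∀ s : (P' : Subgroup (Matrix.SpecialLinearGroup (Fin 2) F)), s ≠ 1 → s * s = 1 →
      ((s : Matrix.SpecialLinearGroup (Fin 2) F) : Matrix (Fin 2) (Fin 2) F) = -1 := by
    intro s hs1 hss
    have hss' : (s : Matrix.SpecialLinearGroup (Fin 2) F) * s = 1 := by
      have := congrArg Subtype.val hss
      simpa using this
    rcases sl2_invol h2 _ hss' with h | h
    · exfalso
      apply hs1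
      apply Subtype.ext
      apply Subtype.ext
      simpa using h
    · exact h
  have hsub : ∀ S : Subgroup (P' : Subgroup (Matrix.SpecialLinearGroup (Fin 2) F)),
      Nat.card S = 2 → ∀ s ∈ S, s ≠ 1 →
      ((s : Matrix.SpecialLinearGroup (Fin 2) F) : Matrix (Fin 2) (Fin 2) F) = -1 := by
    intro S hS s hs hs1
    apply hinv s hs1
    have h1 : (⟨s, hs⟩ : S) ^ Nat.card S = 1 := pow_card_eq_one'
    rw [hS] at h1
    have h2' := congrArg Subtype.val h1
    simp only [SubmonoidClass.mk_pow, OneMemClass.coe_one] at h2'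
    rw [← pow_two]
    exact h2'
  have hex : ∀ S : Subgroup (P' : Subgroup (Matrix.SpecialLinearGroup (Fin 2) F)),
      Nat.card S = 2 → ∃ s ∈ S, s ≠ 1 := by
    intro S hS
    have hne : S ≠ ⊥ := by
      intro h
      rw [h, Subgroup.card_bot] at hS
      omega
    obtain ⟨s, hs⟩ := (Subgroup.ne_bot_iff_exists_ne_one).mp hne
    exact ⟨s.1, s.2, fun h => hs (Subtype.ext h)⟩
  have hle : ∀ S T : Subgroup (P' : Subgroup (Matrix.SpecialLinearGroup (Fin 2) F)),
      Nat.card S = 2 → Nat.card T = 2 → S ≤ T := by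
    intro S T hS hT y hy
    by_cases hy1 : y = 1
    · rw [hy1]; exact one_mem _
    obtain ⟨t, ht, ht1⟩ := hex T hT
    have h1 := hsub S hS y hy hy1
    have h2' := hsub T hT t ht ht1
    have : y = t := by
      apply Subtype.ext
      apply Subtype.ext
      rw [h1, h2']
    rw [this]; exact ht
  have huniq : ∀ S T : Subgroup (P' : Subgroup (Matrix.SpecialLinearGroup (Fin 2) F)),
      Nat.card S = 2 → Nat.card T = 2 → S = T :=
    fun S T hS hT => le_antisymm (hle S T hS hT) (hle T S hT hS)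
  have hncyc : ¬ IsCyclic (P' : Subgroup (Matrix.SpecialLinearGroup (Fin 2) F)) := by
    intro hcyc
    have hc := (IsCyclic.commGroup
      (α := (P' : Subgroup (Matrix.SpecialLinearGroup (Fin 2) F)))).mul_comm ⟨xx, hxP⟩ ⟨hh, hhP⟩
    exact hne (congrArg Subtype.val hc)
  have hmain : ∃ k : ℕ, 1 ≤ k ∧ Nonempty
      ((P' : Subgroup (Matrix.SpecialLinearGroup (Fin 2) F)) ≃* QuaternionGroup (2 ^ k)) := by
    rcases Cfsg.Agent.Lead.cyclic_or_quaternion_of_unique_involution P'.isPGroup' huniq with h | h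
    · exact absurd h hncyc
    · obtain ⟨n, ⟨e⟩⟩ := h
      rcases n with _ | n
      · exfalso
        apply hncyc
        have e' : (P' : Subgroup (Matrix.SpecialLinearGroup (Fin 2) F)) ≃* QuaternionGroup 1 := e
        haveI := QuaternionGroup.quaternionGroup_one_isCyclic
        exact isCyclic_of_surjective e'.symm e'.symm.surjective
      · exact ⟨n + 1, by omega, ⟨e⟩⟩
  obtain ⟨g, rfl⟩ := MulAction.exists_smul_eq (Matrix.SpecialLinearGroup (Fin 2) F) P' P
  obtain ⟨k, hk, ⟨e⟩⟩ := hmain
  exact ⟨k, hk, ⟨(Sylow.equivSMul P' g).symm.trans e⟩⟩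

end Cfsg.Agent.S0261
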