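import Cfsg.Statements.S0257
import Mathlib
import Cfsg.Agent.Helper2.Unip2
import Cfsg.Agent.S0261
import Cfsg.Agent.S0243
import Cfsg.Agent.S0228

set_option autoImplicit false
open Cfsg

namespace Cfsg.Agent.S0257

open Matrix Cfsg.Agent.Helper2

/-- SL_2(3) has a normal subgroup of index 3 isomorphic to the quaternion group of order 8, and its centre has order 2. -/
theorem result {F : Type*} [Field F] [Fintype F] (hF : Fintype.card F = 3) : (∃ Q : Subgroup (Matrix.SpecialLinearGroup (Fin 2) F), Q.Normal ∧ Q.index = 3 ∧ Nonempty (Q ≃* QuaternionGroup 2)) ∧ Nat.card (Subgroup.center (Matrix.SpecialLinearGroup (Fin 2) F)) = 2 := by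
  classical
  refine ⟨?_, ?_⟩
  swap
  · rw [Cfsg.Agent.S0243.card_center_SL 2 (by norm_num), hF]
    rfl
  obtain ⟨p, hp, n, hpp, hn⟩ := FiniteField.card' F
  have hp3 : p = 3 := by
    rw [hF] at hn
    have : p ∣ 3 := by rw [hn]; exact dvd_pow_self p n.ne_zero
    exact (Nat.prime_dvd_prime_iff_eq hpp Nat.prime_three).mp this
  subst hp3
  haveI : Fact (Nat.Prime 3) := ⟨Nat.prime_three⟩
  haveI : Fact (Nat.Prime 2) := ⟨Nat.prime_two⟩
  have hG : Nat.card (Matrix.SpecialLinearGroup (Fin 2) F) = 24 := by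
    have h := Cfsg.Agent.S0242.result hF 2 (by norm_num)
    rw [Fin.prod_univ_two] at h
    have h' : 2 * Nat.card (Matrix.SpecialLinearGroup (Fin 2) F) = 48 := by
      simpa using h
    omega
  obtain ⟨P3⟩ : Nonempty (Sylow 3 (Matrix.SpecialLinearGroup (Fin 2) F)) := inferInstance
  obtain ⟨v, hv, hP3⟩ := sylow_eq_slFix 3 P3
  have hP3card : Nat.card (P3 : Subgroup (Matrix.SpecialLinearGroup (Fin 2) F)) = 3 := by
    have := Cfsg.Agent.S0228.sylow_card_of P3 1 8 (by rw [hG]; norm_num) (by norm_num)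
    simpa using this
  have hP3comm : ∀ x ∈ (P3 : Subgroup (Matrix.SpecialLinearGroup (Fin 2) F)),
      ∀ y ∈ (P3 : Subgroup (Matrix.SpecialLinearGroup (Fin 2) F)), x * y = y * x := by
    intro x hx y hy
    haveI : IsCyclic (P3 : Subgroup (Matrix.SpecialLinearGroup (Fin 2) F)) :=
      isCyclic_of_prime_card (p := 3) hP3card
    have := (IsCyclic.commGroup
      (α := (P3 : Subgroup (Matrix.SpecialLinearGroup (Fin 2) F)))).mul_comm ⟨x, hx⟩ ⟨y, hy⟩
    exact congrArg Subtype.val this
  have hNC : Subgroup.normalizer (P3 : Set (Matrix.SpecialLinearGroup (Fin 2) F))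
      ≤ Subgroup.centralizer (P3 : Set (Matrix.SpecialLinearGroup (Fin 2) F)) := by
    intro g hg
    rw [Subgroup.mem_centralizer_iff]
    intro h hh
    have hh' : h ∈ (P3 : Subgroup (Matrix.SpecialLinearGroup (Fin 2) F)) := hh
    have h1 : g * slTv v * g⁻¹ ∈ slFix v := by
      have hmem : slTv v ∈ (P3 : Subgroup (Matrix.SpecialLinearGroup (Fin 2) F)) := by
        rw [hP3]; exact slTv_mem v
      have h' : g * slTv v * g⁻¹ ∈ (P3 : Subgroup (Matrix.SpecialLinearGroup (Fin 2) F)) :=
        (Subgroup.mem_normalizer_iff.mp hg (slTv v)).mp hmem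
      rw [hP3] at h'
      exact h'
    rw [mem_slFix] at h1
    have h2 : (slTv v : Matrix (Fin 2) (Fin 2) F) *ᵥ
        ((g⁻¹ : Matrix.SpecialLinearGroup (Fin 2) F).1 *ᵥ v)
        = (g⁻¹ : Matrix.SpecialLinearGroup (Fin 2) F).1 *ᵥ v := by
      have h3 := congrArg (fun u => (g⁻¹ : Matrix.SpecialLinearGroup (Fin 2) F).1 *ᵥ u) h1
      simp only [Matrix.mulVec_mulVec, ← Matrix.SpecialLinearGroup.coe_mul] at h3
      rw [show g⁻¹ * (g * slTv v * g⁻¹) = slTv v * g⁻¹ by group,
        Matrix.SpecialLinearGroup.coe_mul, ← Matrix.mulVec_mulVec] at h3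
      exact h3
    have hD := det_eq_of_slTv_fix v _ hv h2
    obtain ⟨c, hc⟩ := exists_smul_eq_of_det
      ((g⁻¹ : Matrix.SpecialLinearGroup (Fin 2) F).1 *ᵥ v) v hv (by linear_combination -hD)
    have hw0 : (g⁻¹ : Matrix.SpecialLinearGroup (Fin 2) F).1 *ᵥ v ≠ 0 := by
      intro h0
      apply hv
      have h4 : (g : Matrix.SpecialLinearGroup (Fin 2) F).1 *ᵥ
          ((g⁻¹ : Matrix.SpecialLinearGroup (Fin 2) F).1 *ᵥ v) = v := by
        rw [Matrix.mulVec_mulVec, ← Matrix.SpecialLinearGroup.coe_mul, mul_inv_cancel,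
          Matrix.SpecialLinearGroup.coe_one, Matrix.one_mulVec]
      rw [← h4, h0, Matrix.mulVec_zero]
    have hc0 : c ≠ 0 := by
      rintro rfl
      rw [zero_smul] at hc
      exact hw0 hc.symm
    have hc2 : c = 1 ∨ c = -1 := by
      have h5 := FiniteField.pow_card_sub_one_eq_one c hc0
      rw [hF] at h5
      have h6 : (c - 1) * (c + 1) = 0 := by
        have : c ^ 2 = 1 := h5
        linear_combination this
      rcases mul_eq_zero.mp h6 with h7 | h7
      · left; exact sub_eq_zero.mp h7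
      · right; exact eq_neg_of_add_eq_zero_left h7
    rcases hc2 with rfl | rfl
    · have hgi : g⁻¹ ∈ (P3 : Subgroup (Matrix.SpecialLinearGroup (Fin 2) F)) := by
        rw [hP3, mem_slFix, ← hc, one_smul]
      have hgm : g ∈ (P3 : Subgroup (Matrix.SpecialLinearGroup (Fin 2) F)) := by
        simpa using Subgroup.inv_mem _ hgi
      exact hP3comm h hh' g hgm
    · let m : Matrix.SpecialLinearGroup (Fin 2) F :=
        ⟨-(g⁻¹ : Matrix.SpecialLinearGroup (Fin 2) F).1, by
          rw [Matrix.det_neg, Fintype.card_fin, (g⁻¹).2]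
          norm_num⟩
      have hm : m ∈ (P3 : Subgroup (Matrix.SpecialLinearGroup (Fin 2) F)) := by
        rw [hP3, mem_slFix]
        show (-(g⁻¹ : Matrix.SpecialLinearGroup (Fin 2) F).1) *ᵥ v = v
        rw [Matrix.neg_mulVec, ← hc]
        simp
      have hcm := hP3comm h hh' m hm
      have hcm' : h * g⁻¹ = g⁻¹ * h := by
        apply Subtype.ext
        have h8 := congrArg Subtype.val hcm
        simp only [Matrix.SpecialLinearGroup.coe_mul] at h8 ⊢
        have t2 : (h : Matrix (Fin 2) (Fin 2) F) *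
            (-(g⁻¹ : Matrix.SpecialLinearGroup (Fin 2) F).1)
            = (-(g⁻¹ : Matrix.SpecialLinearGroup (Fin 2) F).1) * (h : Matrix (Fin 2) (Fin 2) F) :=
          h8
        rw [Matrix.mul_neg, Matrix.neg_mul] at t2
        exact neg_injective t2
      calc h * g = g * (g⁻¹ * h) * g := by group
        _ = g * (h * g⁻¹) * g := by rw [hcm']
        _ = g * h := by group
  have hcompl := MonoidHom.ker_transferSylow_isComplement' P3 hNC
  have hidx : (MonoidHom.transferSylow P3 hNC).ker.index = 3 := by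
    rw [hcompl.symm.index_eq_card, hP3card]
  have hQcard : Nat.card (MonoidHom.transferSylow P3 hNC).ker = 8 := by
    have := (MonoidHom.transferSylow P3 hNC).ker.card_mul_index
    rw [hidx, hG] at this
    omega
  have hQ2 : IsPGroup 2 (MonoidHom.transferSylow P3 hNC).ker :=
    IsPGroup.of_card (n := 3) (by rw [hQcard]; norm_num)
  obtain ⟨P2, hP2⟩ := hQ2.exists_le_sylow
  have hP2eq : (P2 : Subgroup (Matrix.SpecialLinearGroup (Fin 2) F))
      = (MonoidHom.transferSylow P3 hNC).ker := by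
    symm
    apply Subgroup.eq_of_le_of_card_ge hP2
    have := Cfsg.Agent.S0228.sylow_card_of P2 3 3 (by rw [hG]; norm_num) (by norm_num)
    rw [this, hQcard]
    norm_num
  obtain ⟨k, hk, ⟨e⟩⟩ := Cfsg.Agent.S0261.result ⟨1, by rw [hF]; norm_num⟩ P2
  have hk1 : k = 1 := by
    have hc := Nat.card_congr e.toEquiv
    haveI : NeZero (2 ^ k) := ⟨by positivity⟩
    rw [Nat.card_eq_fintype_card (α := QuaternionGroup (2 ^ k)), QuaternionGroup.card, hP2eq,
      hQcard] at hc
    have : 2 ^ k = 2 ^ 1 := by omega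
    exact Nat.pow_right_injective le_rfl this
  subst hk1
  refine ⟨(MonoidHom.transferSylow P3 hNC).ker, MonoidHom.normal_ker _, hidx, ⟨?_⟩⟩
  exact (MulEquiv.subgroupCongr hP2eq.symm).trans e

end Cfsg.Agent.S0257
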