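import Cfsg.Statements.S0258
import Mathlib
import Cfsg.Agent.Helper2.Unip2

set_option autoImplicit false
open Cfsg

namespace Cfsg.Agent.S0258

open Cfsg.Agent.Helper2
open scoped LinearAlgebra.Projectivization

/-- GL_2(q), q a power of the prime p, has exactly q + 1 Sylow p-subgroups. -/
theorem result {F : Type*} [Field F] [Fintype F] {q : ℕ} (hF : Fintype.card F = q) (p : ℕ) [Fact p.Prime] [CharP F p] : Nat.card (Sylow p (Matrix.GeneralLinearGroup (Fin 2) F)) = q + 1 := by
  classical
  let f : Sylow p (Matrix.GeneralLinearGroup (Fin 2) F) → ℙ F (Fin 2 → F) := fun P =>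
    Projectivization.mk F (sylow_eq_glFix p P).choose (sylow_eq_glFix p P).choose_spec.1
  have hf : Function.Bijective f := by
    constructor
    · intro P Q hPQ
      simp only [f] at hPQ
      rw [Projectivization.mk_eq_mk_iff'] at hPQ
      obtain ⟨a, ha⟩ := hPQ
      have hv := (sylow_eq_glFix p P).choose_spec
      have hw := (sylow_eq_glFix p Q).choose_spec
      have ha0 : a ≠ 0 := by
        rintro rfl
        rw [zero_smul] at ha
        exact hv.1 ha.symm
      apply Sylow.ext
      rw [hv.2, hw.2, ← ha, glFix_smul _ a ha0]
    · intro x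
      induction x using Projectivization.ind with
      | h v hv =>
        obtain ⟨P, hP⟩ := (glFix_isPGroup p v hv).exists_le_sylow
        refine ⟨P, ?_⟩
        simp only [f]
        rw [Projectivization.mk_eq_mk_iff']
        have hw := (sylow_eq_glFix p P).choose_spec
        rw [hw.2] at hP
        have hD := glFix_le_det v _ hv hP
        have hD' : (sylow_eq_glFix p P).choose 0 * v 1 = (sylow_eq_glFix p P).choose 1 * v 0 := by
          linear_combination -hD
        exact exists_smul_eq_of_det _ v hv hD'
  have h2 : Module.finrank F (Fin 2 → F) = 2 := by simp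
  have h3 := Projectivization.card_of_finrank_two (k := F) (V := Fin 2 → F) h2
  rw [Nat.card_congr (Equiv.ofBijective f hf), h3, Nat.card_eq_fintype_card, hF]

end Cfsg.Agent.S0258
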