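import Cfsg.Statements.S0259
import Mathlib
import Cfsg.Agent.Helper2.Unip2

set_option autoImplicit false
open Cfsg

namespace Cfsg.Agent.S0259

open Cfsg.Agent.Helper2

/-- Distinct Sylow p-subgroups of GL_2(q), p the characteristic, intersect trivially. -/
theorem result {F : Type*} [Field F] [Fintype F] (p : ℕ) [Fact p.Prime] [CharP F p] (P Q : Sylow p (Matrix.GeneralLinearGroup (Fin 2) F)) (h : P ≠ Q) : (P : Subgroup (Matrix.GeneralLinearGroup (Fin 2) F)) ⊓ (Q : Subgroup (Matrix.GeneralLinearGroup (Fin 2) F)) = ⊥ := by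
  classical
  obtain ⟨v, hv, hP⟩ := sylow_eq_glFix p P
  obtain ⟨w, hw, hQ⟩ := sylow_eq_glFix p Q
  rw [eq_bot_iff]
  intro g hg
  rw [Subgroup.mem_bot]
  by_contra hg1
  apply h
  have hgP : g ∈ glFix v := hP ▸ hg.1
  have hgQ : g ∈ glFix w := hQ ▸ hg.2
  have hD := det_eq_of_fix_two g hg1 v w hgP.1 hgQ.1
  obtain ⟨a, ha⟩ := exists_smul_eq_of_det v w hw hD
  have ha0 : a ≠ 0 := by
    rintro rfl
    rw [zero_smul] at ha
    exact hv ha.symm
  apply Sylow.ext
  rw [hP, hQ, ← ha, glFix_smul w a ha0]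

end Cfsg.Agent.S0259
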