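import Cfsg.Statements.S0260
import Mathlib
import Cfsg.Agent.Helper2.Unip2
import Cfsg.Agent.S0249

set_option autoImplicit false
open Cfsg

namespace Cfsg.Agent.S0260

open Cfsg.Agent.Helper2 Matrix

/-- Any two distinct Sylow p-subgroups of SL_2(q), p the characteristic, generate SL_2(q). -/
theorem result {F : Type*} [Field F] [Fintype F] (p : ℕ) [Fact p.Prime] [CharP F p] (P Q : Sylow p (Matrix.SpecialLinearGroup (Fin 2) F)) (h : P ≠ Q) : (P : Subgroup (Matrix.SpecialLinearGroup (Fin 2) F)) ⊔ (Q : Subgroup (Matrix.SpecialLinearGroup (Fin 2) F)) = ⊤ := by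
  classical
  obtain ⟨v, hv, hP⟩ := sylow_eq_slFix p P
  obtain ⟨w, hw, hQ⟩ := sylow_eq_slFix p Q
  have hD : v 0 * w 1 - v 1 * w 0 ≠ 0 := by
    intro hD
    apply h
    obtain ⟨a, ha⟩ := exists_smul_eq_of_det v w hw (sub_eq_zero.mp hD)
    have ha0 : a ≠ 0 := by
      rintro rfl
      rw [zero_smul] at ha
      exact hv ha.symm
    apply Sylow.ext
    rw [hP, hQ, ← ha, slFix_smul w a ha0]
  have hdet : (!![v 0, w 0 / (v 0 * w 1 - v 1 * w 0); v 1, w 1 / (v 0 * w 1 - v 1 * w 0)] :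
      Matrix (Fin 2) (Fin 2) F).det = 1 := by
    rw [Matrix.det_fin_two_of]
    field_simp
  let hm : Matrix.SpecialLinearGroup (Fin 2) F :=
    ⟨!![v 0, w 0 / (v 0 * w 1 - v 1 * w 0); v 1, w 1 / (v 0 * w 1 - v 1 * w 0)], hdet⟩
  have hm0 : (hm : Matrix (Fin 2) (Fin 2) F) *ᵥ ![1, 0] = v := by
    ext i; fin_cases i <;> simp [hm, Matrix.mulVec, dotProduct, Fin.sum_univ_two]
  have hm1 : (hm : Matrix (Fin 2) (Fin 2) F) *ᵥ ![0, 1] = (v 0 * w 1 - v 1 * w 0)⁻¹ • w := by
    ext i; fin_cases i <;> simp [hm, Matrix.mulVec, dotProduct, Fin.sum_univ_two, div_eq_inv_mul]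
  have conj_fix : ∀ (A : Matrix.SpecialLinearGroup (Fin 2) F) (x : Fin 2 → F),
      (A : Matrix (Fin 2) (Fin 2) F) *ᵥ x = x →
      ((hm * A * hm⁻¹ : Matrix.SpecialLinearGroup (Fin 2) F) : Matrix (Fin 2) (Fin 2) F) *ᵥ
        ((hm : Matrix (Fin 2) (Fin 2) F) *ᵥ x) = (hm : Matrix (Fin 2) (Fin 2) F) *ᵥ x := by
    intro A x hx
    rw [Matrix.mulVec_mulVec, ← Matrix.SpecialLinearGroup.coe_mul, inv_mul_cancel_right,
      Matrix.SpecialLinearGroup.coe_mul, ← Matrix.mulVec_mulVec, hx]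
  have tvfix : ∀ (i j : Fin 2) (hij : i ≠ j) (c : F) (x : Fin 2 → F), x j = 0 →
      ((Matrix.SpecialLinearGroup.transvection hij c : Matrix.SpecialLinearGroup (Fin 2) F) :
        Matrix (Fin 2) (Fin 2) F) *ᵥ x = x := by
    intro i j hij c x hx
    have h1 : ((Matrix.SpecialLinearGroup.transvection hij c :
        Matrix.SpecialLinearGroup (Fin 2) F) : Matrix (Fin 2) (Fin 2) F) *ᵥ x
        = Matrix.SpecialLinearGroup.transvection hij c • x := rfl
    rw [h1]
    funext k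
    rw [Cfsg.Agent.S0249.tv_smul_apply, hx]
    simp
  have key : ∀ A : Matrix.SpecialLinearGroup (Fin 2) F, hm * A * hm⁻¹ ∈
      (P : Subgroup (Matrix.SpecialLinearGroup (Fin 2) F)) ⊔
        (Q : Subgroup (Matrix.SpecialLinearGroup (Fin 2) F)) := by
    intro A
    refine Cfsg.Agent.S0249.transvection_induction (fun A => hm * A * hm⁻¹ ∈
      (P : Subgroup (Matrix.SpecialLinearGroup (Fin 2) F)) ⊔
        (Q : Subgroup (Matrix.SpecialLinearGroup (Fin 2) F))) ?_ ?_ A
    · intro i j hij c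
      have hcases : (i = 0 ∧ j = 1) ∨ (i = 1 ∧ j = 0) := by
        fin_cases i <;> fin_cases j <;> simp at hij ⊢
      rcases hcases with ⟨rfl, rfl⟩ | ⟨rfl, rfl⟩
      · apply Subgroup.mem_sup_left
        rw [hP, mem_slFix]
        have := conj_fix (Matrix.SpecialLinearGroup.transvection hij c) ![1, 0]
          (tvfix 0 1 hij c ![1, 0] (by simp))
        rw [hm0] at this
        exact this
      · apply Subgroup.mem_sup_right
        rw [hQ, ← slFix_smul w (v 0 * w 1 - v 1 * w 0)⁻¹ (inv_ne_zero hD), mem_slFix]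
        have := conj_fix (Matrix.SpecialLinearGroup.transvection hij c) ![0, 1]
          (tvfix 1 0 hij c ![0, 1] (by simp))
        rw [hm1] at this
        exact this
    · intro A B hA hB
      have : hm * (A * B) * hm⁻¹ = (hm * A * hm⁻¹) * (hm * B * hm⁻¹) := by group
      show hm * (A * B) * hm⁻¹ ∈ _
      rw [this]
      exact Subgroup.mul_mem _ hA hB
  rw [eq_top_iff]
  intro g _
  have := key (hm⁻¹ * g * hm)
  have e : hm * (hm⁻¹ * g * hm) * hm⁻¹ = g := by group
  rw [e] at this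
  exact this

end Cfsg.Agent.S0260
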