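import Cfsg.Statements.S0262
import Mathlib
import Cfsg.Agent.Helper2.Unip2
import Cfsg.Agent.S0016
import Cfsg.Agent.Helper17.SPE

set_option autoImplicit false
open Cfsg

namespace Cfsg.Agent.S0262

open Matrix Cfsg.Agent.Helper2

/-- a commutative group of order prime to `p` embedded in `SL₂(F)` is cyclic. -/
lemma abelian_cyclic {F : Type*} [Field F] [Fintype F] (p : ℕ) [Fact p.Prime] [CharP F p]
    {A : Type*} [Group A] [Finite A] (φ : A →* Matrix.SpecialLinearGroup (Fin 2) F)
    (hφ : Function.Injective φ)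
    (hcomm : ∀ x y : A, x * y = y * x) (hcop : ¬ p ∣ Nat.card A) : IsCyclic A := by
  classical
  by_cases hev : ∃ v : Fin 2 → F, v ≠ 0 ∧ ∀ a : A, ∃ c : F,
      (φ a : Matrix (Fin 2) (Fin 2) F) *ᵥ v = c • v
  · obtain ⟨v, hv, hA⟩ := hev
    obtain ⟨i, hi⟩ : ∃ i, v i ≠ 0 := by
      by_contra h
      push Not at h
      exact hv (funext h)
    have hval : ∀ a : A, (φ a : Matrix (Fin 2) (Fin 2) F) *ᵥ v
        = (((φ a : Matrix (Fin 2) (Fin 2) F) *ᵥ v) i / v i) • v := by
      intro a
      obtain ⟨c, hc⟩ := hA a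
      have h1 : ((φ a : Matrix (Fin 2) (Fin 2) F) *ᵥ v) i = c * v i := by rw [hc]; rfl
      rw [h1, mul_div_cancel_right₀ _ hi]
      exact hc
    let f : A →* F :=
      { toFun := fun a => ((φ a : Matrix (Fin 2) (Fin 2) F) *ᵥ v) i / v i
        map_one' := by
          show ((φ 1 : Matrix (Fin 2) (Fin 2) F) *ᵥ v) i / v i = 1
          rw [map_one, Matrix.SpecialLinearGroup.coe_one, Matrix.one_mulVec, div_self hi]
        map_mul' := fun a b => by
          show ((φ (a * b) : Matrix (Fin 2) (Fin 2) F) *ᵥ v) i / v i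
            = ((φ a : Matrix (Fin 2) (Fin 2) F) *ᵥ v) i / v i
              * (((φ b : Matrix (Fin 2) (Fin 2) F) *ᵥ v) i / v i)
          have ha := hval a
          have hb := hval b
          have h1 : (φ (a * b) : Matrix (Fin 2) (Fin 2) F) *ᵥ v
              = ((((φ b : Matrix (Fin 2) (Fin 2) F) *ᵥ v) i / v i) *
                (((φ a : Matrix (Fin 2) (Fin 2) F) *ᵥ v) i / v i)) • v := by
            rw [map_mul, Matrix.SpecialLinearGroup.coe_mul, ← Matrix.mulVec_mulVec]
            conv_lhs => rw [hb, Matrix.mulVec_smul, ha, smul_smul]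
          rw [h1]
          simp only [Pi.smul_apply, smul_eq_mul]
          rw [mul_div_assoc, div_self hi, mul_one, mul_comm] }
    apply isCyclic_of_injective_ringHom f
    rw [injective_iff_map_eq_one]
    intro a ha1
    have hfix : (φ a : Matrix (Fin 2) (Fin 2) F) *ᵥ v = v := by
      have h := hval a
      rw [show ((φ a : Matrix (Fin 2) (Fin 2) F) *ᵥ v) i / v i = 1 from ha1, one_smul] at h
      exact h
    have hpow : (φ a : Matrix (Fin 2) (Fin 2) F) ^ p = 1 :=
      unip_pow_char p _ (unip_sq_zero _ (φ a).2 v hv hfix)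
    have hap : a ^ p = 1 := by
      apply hφ
      rw [map_pow, map_one]
      apply Subtype.ext
      rw [Matrix.SpecialLinearGroup.coe_pow, hpow, Matrix.SpecialLinearGroup.coe_one]
    have h1 : orderOf a ∣ p := orderOf_dvd_of_pow_eq_one hap
    have h2 : orderOf a ∣ Nat.card A := orderOf_dvd_natCard a
    rcases (Nat.dvd_prime (Fact.out : p.Prime)).mp h1 with h | h
    · exact orderOf_eq_one_iff.mp h
    · exact absurd (h ▸ h2) hcop
  · push Not at hev
    let S : Set (Matrix (Fin 2) (Fin 2) F) := {M | ∃ a : A, (φ a : Matrix (Fin 2) (Fin 2) F) = M}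
    have hS : ∀ x ∈ S, ∀ y ∈ S, x * y = y * x := by
      rintro _ ⟨a, rfl⟩ _ ⟨b, rfl⟩
      rw [← Matrix.SpecialLinearGroup.coe_mul, ← map_mul, hcomm a b, map_mul,
        Matrix.SpecialLinearGroup.coe_mul]
    letI : CommRing (Algebra.adjoin F S) := Algebra.adjoinCommRingOfComm F hS
    have hEA : ∀ (X : Algebra.adjoin F S) (a : A),
        (X : Matrix (Fin 2) (Fin 2) F) * (φ a : Matrix (Fin 2) (Fin 2) F)
          = (φ a : Matrix (Fin 2) (Fin 2) F) * (X : Matrix (Fin 2) (Fin 2) F) := by
      intro X a
      have h := mul_comm X ⟨(φ a : Matrix (Fin 2) (Fin 2) F), Algebra.subset_adjoin ⟨a, rfl⟩⟩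
      exact congrArg Subtype.val h
    have hinj : ∀ X : Algebra.adjoin F S, X ≠ 0 → ∀ w : Fin 2 → F,
        (X : Matrix (Fin 2) (Fin 2) F) *ᵥ w = 0 → w = 0 := by
      intro X hX w hw
      by_contra hw0
      obtain ⟨a, hne⟩ := hev w hw0
      have hw2 : (X : Matrix (Fin 2) (Fin 2) F) *ᵥ ((φ a : Matrix (Fin 2) (Fin 2) F) *ᵥ w) = 0 := by
        rw [Matrix.mulVec_mulVec, hEA X a, ← Matrix.mulVec_mulVec, hw, Matrix.mulVec_zero]
      have hD : ((φ a : Matrix (Fin 2) (Fin 2) F) *ᵥ w) 0 * w 1
          ≠ ((φ a : Matrix (Fin 2) (Fin 2) F) *ᵥ w) 1 * w 0 := by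
        intro h
        obtain ⟨c, hc⟩ := exists_smul_eq_of_det _ w hw0 h
        exact hne c hc.symm
      have hD' : ((φ a : Matrix (Fin 2) (Fin 2) F) *ᵥ w) 0 * w 1
          - ((φ a : Matrix (Fin 2) (Fin 2) F) *ᵥ w) 1 * w 0 ≠ 0 := sub_ne_zero.mpr hD
      apply hX
      apply Subtype.ext
      show (X : Matrix (Fin 2) (Fin 2) F) = 0
      generalize (φ a : Matrix (Fin 2) (Fin 2) F) *ᵥ w = u at hw2 hD'
      ext i j
      have e1 := congrFun hw i
      have e2 := congrFun hw2 i
      simp only [Matrix.mulVec, dotProduct, Fin.sum_univ_two, Pi.zero_apply] at e1 e2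
      have f0 : (X : Matrix (Fin 2) (Fin 2) F) i 0 * (u 0 * w 1 - u 1 * w 0) = 0 := by
        linear_combination (w 1) * e2 - (u 1) * e1
      have f1 : (X : Matrix (Fin 2) (Fin 2) F) i 1 * (u 0 * w 1 - u 1 * w 0) = 0 := by
        linear_combination (u 0) * e1 - (w 0) * e2
      fin_cases j
      · simpa using (mul_eq_zero.mp f0).resolve_right hD'
      · simpa using (mul_eq_zero.mp f1).resolve_right hD'
    haveI : NoZeroDivisors (Algebra.adjoin F S) := ⟨by
      intro X Y hXY
      by_contra h
      push Not at h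
      apply h.2
      apply Subtype.ext
      have hXY' : (X : Matrix (Fin 2) (Fin 2) F) * (Y : Matrix (Fin 2) (Fin 2) F) = 0 :=
        congrArg Subtype.val hXY
      show (Y : Matrix (Fin 2) (Fin 2) F) = 0
      ext i j
      have h1 := hinj X h.1 ((Y : Matrix (Fin 2) (Fin 2) F) *ᵥ Pi.single j 1)
        (by rw [Matrix.mulVec_mulVec, hXY', Matrix.zero_mulVec])
      have h2 := congrFun h1 i
      simpa using h2⟩
    haveI : IsDomain (Algebra.adjoin F S) := NoZeroDivisors.to_isDomain _
    let f : A →* Algebra.adjoin F S :=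
      { toFun := fun a => ⟨(φ a : Matrix (Fin 2) (Fin 2) F), Algebra.subset_adjoin ⟨a, rfl⟩⟩
        map_one' := by
          apply Subtype.ext
          show (φ 1 : Matrix (Fin 2) (Fin 2) F) = 1
          rw [map_one, Matrix.SpecialLinearGroup.coe_one]
        map_mul' := fun a b => by
          apply Subtype.ext
          show (φ (a * b) : Matrix (Fin 2) (Fin 2) F)
            = (φ a : Matrix (Fin 2) (Fin 2) F) * (φ b : Matrix (Fin 2) (Fin 2) F)
          rw [map_mul, Matrix.SpecialLinearGroup.coe_mul] }
    apply isCyclic_of_injective_ringHom f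
    intro a b hab
    apply hφ
    apply Subtype.ext
    exact congrArg (fun X : Algebra.adjoin F S => (X : Matrix (Fin 2) (Fin 2) F)) hab

/-- For an odd prime r different from the characteristic, the Sylow r-subgroups of SL_2(q) are cyclic. -/
theorem result {F : Type*} [Field F] [Fintype F] (p : ℕ) [Fact p.Prime] [CharP F p] (r : ℕ) [Fact r.Prime] (hr : r ≠ 2) (hrp : r ≠ p) (R : Sylow r (Matrix.SpecialLinearGroup (Fin 2) F)) : IsCyclic (R : Subgroup (Matrix.SpecialLinearGroup (Fin 2) F)) := by
  classical
  have hRp : IsPGroup r (R : Subgroup (Matrix.SpecialLinearGroup (Fin 2) F)) := R.isPGroup'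
  have huniq : ∀ H K : Subgroup (R : Subgroup (Matrix.SpecialLinearGroup (Fin 2) F)),
      Nat.card H = r → Nat.card K = r → H = K := by
    have hr1 : 1 < r := (Fact.out : r.Prime).one_lt
    -- a central element of order r exists as soon as some subgroup of order r exists
    have hz : ∀ H : Subgroup (R : Subgroup (Matrix.SpecialLinearGroup (Fin 2) F)),
        Nat.card H = r → ∃ z : (R : Subgroup (Matrix.SpecialLinearGroup (Fin 2) F)),
          orderOf z = r ∧ ∀ y, y * z = z * y := by
      intro H hH
      obtain ⟨n, hn⟩ := IsPGroup.iff_card.mp hRp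
      have hn0 : 0 < n := by
        rcases Nat.eq_zero_or_pos n with h | h
        · exfalso
          rw [h, pow_zero] at hn
          have := Subgroup.card_subgroup_dvd_card H
          rw [hH, hn] at this
          have := Nat.le_of_dvd one_pos this
          omega
        · exact h
      obtain ⟨k, hk0, hk⟩ := IsPGroup.card_center_eq_prime_pow hn hn0
      have hdvd : r ∣ Nat.card (Subgroup.center
          (R : Subgroup (Matrix.SpecialLinearGroup (Fin 2) F))) := by
        rw [hk]; exact dvd_pow_self r hk0.ne'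
      obtain ⟨z, hz⟩ := exists_prime_orderOf_dvd_card' r hdvd
      refine ⟨z.1, ?_, ?_⟩
      · exact (Subgroup.orderOf_coe z).trans hz
      · intro y
        exact Subgroup.mem_center_iff.mp z.2 y
    -- every element of order dividing r lies in zpowers z
    have hmem : ∀ z : (R : Subgroup (Matrix.SpecialLinearGroup (Fin 2) F)),
        orderOf z = r → (∀ y, y * z = z * y) →
        ∀ a : (R : Subgroup (Matrix.SpecialLinearGroup (Fin 2) F)), a ^ r = 1 →
          a ∈ Subgroup.zpowers z := by
      intro z hzr hzc a har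
      have hk : ∀ x ∈ ({z, a} : Set (R : Subgroup (Matrix.SpecialLinearGroup (Fin 2) F))),
          ∀ y ∈ ({z, a} : Set (R : Subgroup (Matrix.SpecialLinearGroup (Fin 2) F))),
          x * y = y * x := by
        rintro x (rfl | rfl) y (rfl | rfl)
        · rfl
        · exact (hzc y).symm
        · exact hzc x
        · rfl
      letI : CommGroup (Subgroup.closure
          ({z, a} : Set (R : Subgroup (Matrix.SpecialLinearGroup (Fin 2) F)))) :=
        Subgroup.closureCommGroupOfComm hk
      have hcop : ¬ p ∣ Nat.card (Subgroup.closure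
          ({z, a} : Set (R : Subgroup (Matrix.SpecialLinearGroup (Fin 2) F)))) := by
        intro hp
        have h1 := hp.trans (Subgroup.card_subgroup_dvd_card _)
        obtain ⟨n, hn⟩ := IsPGroup.iff_card.mp hRp
        rw [hn] at h1
        have h2 := (Fact.out : p.Prime).dvd_of_dvd_pow h1
        exact hrp ((Nat.prime_dvd_prime_iff_eq (Fact.out : p.Prime) (Fact.out : r.Prime)).mp h2).symm
      haveI : IsCyclic (Subgroup.closure
          ({z, a} : Set (R : Subgroup (Matrix.SpecialLinearGroup (Fin 2) F)))) :=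
        abelian_cyclic p
          ((R : Subgroup (Matrix.SpecialLinearGroup (Fin 2) F)).subtype.comp
            (Subgroup.closure
              ({z, a} : Set (R : Subgroup (Matrix.SpecialLinearGroup (Fin 2) F)))).subtype)
          (by
            intro x y hxy
            apply Subtype.ext
            apply Subtype.ext
            exact hxy)
          (fun x y => mul_comm x y) hcop
      have hzmem : z ∈ Subgroup.closure
          ({z, a} : Set (R : Subgroup (Matrix.SpecialLinearGroup (Fin 2) F))) :=
        Subgroup.subset_closure (by simp)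
      have hamem : a ∈ Subgroup.closure
          ({z, a} : Set (R : Subgroup (Matrix.SpecialLinearGroup (Fin 2) F))) :=
        Subgroup.subset_closure (by simp)
      have h1 := Cfsg.Agent.Helper17.unique_order_p_of_cyclic (p := r)
        (y := (⟨z, hzmem⟩ : Subgroup.closure
          ({z, a} : Set (R : Subgroup (Matrix.SpecialLinearGroup (Fin 2) F)))))
        ((Subgroup.orderOf_mk z hzmem).trans hzr)
        ⟨a, hamem⟩ (by apply Subtype.ext; simpa using har)
      obtain ⟨k, hk'⟩ := Subgroup.mem_zpowers_iff.mp h1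
      refine Subgroup.mem_zpowers_iff.mpr ⟨k, ?_⟩
      have := congrArg Subtype.val hk'
      simpa using this
    have hsub : ∀ H : Subgroup (R : Subgroup (Matrix.SpecialLinearGroup (Fin 2) F)),
        Nat.card H = r → ∀ z : (R : Subgroup (Matrix.SpecialLinearGroup (Fin 2) F)),
        orderOf z = r → (∀ y, y * z = z * y) → H = Subgroup.zpowers z := by
      intro H hH z hzr hzc
      have hle : H ≤ Subgroup.zpowers z := by
        intro a ha
        apply hmem z hzr hzc
        have h1 : (⟨a, ha⟩ : H) ^ Nat.card H = 1 := pow_card_eq_one'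
        rw [hH] at h1
        have := congrArg Subtype.val h1
        simpa using this
      apply Subgroup.eq_of_le_of_card_ge hle
      rw [hH, Nat.card_zpowers, hzr]
    intro H K hH hK
    obtain ⟨z, hzr, hzc⟩ := hz H hH
    rw [hsub H hH z hzr hzc, hsub K hK z hzr hzc]
  rcases Cfsg.Agent.S0016.result r hRp huniq with h | ⟨h2, -⟩
  · exact h
  · exact absurd h2 hr

end Cfsg.Agent.S0262
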