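import Cfsg.Statements.S0263
import Mathlib

set_option autoImplicit false
open Cfsg

namespace Cfsg.Agent.S0263

theorem card_GL_factor (q n : ℕ) (hq : 1 ≤ q) :
    ∏ i : Fin n, (q ^ n - q ^ (i : ℕ)) =
      q ^ (n * (n - 1) / 2) * ∏ i : Fin n, (q ^ (n - (i : ℕ)) - 1) := by
  have h1 : ∀ i : Fin n, q ^ n - q ^ (i : ℕ) = q ^ (i : ℕ) * (q ^ (n - (i : ℕ)) - 1) := by
    intro i
    have hi : (i : ℕ) ≤ n := i.2.le
    have hpos : 1 ≤ q ^ (n - (i : ℕ)) := Nat.one_le_pow _ _ hq
    rw [Nat.mul_sub, mul_one, ← pow_add, Nat.add_sub_cancel' hi]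
  rw [Finset.prod_congr rfl (fun i _ => h1 i), Finset.prod_mul_distrib]
  congr 1
  rw [Finset.prod_pow_eq_pow_sum, Fin.sum_univ_eq_sum_range (fun i => i) n, Finset.sum_range_id]

theorem not_dvd_prod (p q n : ℕ) (hp : p.Prime) (hpq : p ∣ q) (hq : 1 ≤ q) :
    ¬ p ∣ ∏ i : Fin n, (q ^ (n - (i : ℕ)) - 1) := by
  intro h
  rw [Prime.dvd_finsetProd_iff hp.prime] at h
  obtain ⟨i, -, hi⟩ := h
  have hk : n - (i : ℕ) ≠ 0 := by have := i.2; omega
  have h1 : p ∣ q ^ (n - (i : ℕ)) := dvd_pow hpq hk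
  have hpos : 1 ≤ q ^ (n - (i : ℕ)) := Nat.one_le_pow _ _ hq
  have h2 : p ∣ 1 := by
    have := Nat.dvd_sub h1 hi
    rwa [Nat.sub_sub_self hpos] at this
  exact hp.one_lt.ne' (Nat.dvd_one.mp h2)

/-- A Sylow p-subgroup of GL_n(q), p the characteristic, has order q^(n(n-1)/2). -/
theorem result {F : Type*} [Field F] [Fintype F] {q : ℕ} (hF : Fintype.card F = q) (p : ℕ) [Fact p.Prime] [CharP F p] (n : ℕ) (P : Sylow p (Matrix.GeneralLinearGroup (Fin n) F)) : Nat.card P = q ^ (n * (n - 1) / 2) := by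
  subst hF
  obtain ⟨f, hpp, hq⟩ := FiniteField.card F p
  have hq1 : 1 ≤ Fintype.card F := Fintype.card_pos
  have hpq : p ∣ Fintype.card F := by
    rw [hq]; exact dvd_pow_self p f.ne_zero
  have hcardG := Matrix.card_GL_field (𝔽 := F) (n := n)
  rw [card_GL_factor _ n hq1] at hcardG
  set M := ∏ i : Fin n, (Fintype.card F ^ (n - (i : ℕ)) - 1) with hM
  have hMp : ¬ p ∣ M := not_dvd_prod p _ n hpp hpq hq1
  have hcop : Nat.Coprime p M := (Nat.Prime.coprime_iff_not_dvd hpp).mpr hMp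
  obtain ⟨a, ha⟩ := (P.isPGroup').exists_card_eq
  have hidx := P.card_coprime_index
  have hmul := (P : Subgroup (Matrix.GeneralLinearGroup (Fin n) F)).card_mul_index
  rw [hcardG] at hmul
  have hqpow : Fintype.card F ^ (n * (n - 1) / 2) = p ^ ((f : ℕ) * (n * (n - 1) / 2)) := by
    rw [hq, ← pow_mul]
  have hPcard : Nat.card P = Nat.card (P : Subgroup (Matrix.GeneralLinearGroup (Fin n) F)) := rfl
  rw [hPcard, hqpow]
  rw [hqpow] at hmul
  apply Nat.dvd_antisymm
  · have h1 : Nat.card (P : Subgroup (Matrix.GeneralLinearGroup (Fin n) F)) ∣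
        p ^ ((f : ℕ) * (n * (n - 1) / 2)) * M := Dvd.intro _ hmul
    have h2 : Nat.Coprime (Nat.card (P : Subgroup (Matrix.GeneralLinearGroup (Fin n) F))) M := by
      rw [← hPcard, ha]
      exact Nat.Coprime.pow_left _ hcop
    exact h2.dvd_of_dvd_mul_right h1
  · have h1 : p ^ ((f : ℕ) * (n * (n - 1) / 2)) ∣
        Nat.card (P : Subgroup (Matrix.GeneralLinearGroup (Fin n) F)) *
          (P : Subgroup (Matrix.GeneralLinearGroup (Fin n) F)).index := by
      rw [hmul]; exact Dvd.intro _ rfl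
    have h2 : Nat.Coprime (p ^ ((f : ℕ) * (n * (n - 1) / 2)))
        (P : Subgroup (Matrix.GeneralLinearGroup (Fin n) F)).index := by
      apply Nat.Coprime.pow_left
      have := hidx
      rw [← hPcard, ha] at this
      rcases Nat.eq_zero_or_pos a with h0 | h0
      · -- a = 0: P trivial; then index = card G = p^... * M
        rw [← hPcard, ha, h0, pow_zero, one_mul] at hmul
        by_cases hexp : (f : ℕ) * (n * (n - 1) / 2) = 0
        · rw [hexp, pow_zero, one_mul] at hmul
          rw [hmul]; exact hcop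
        · exfalso
          -- p divides card G but P is trivial: contradiction with Sylow
          have hdvd : p ∣ Nat.card (Matrix.GeneralLinearGroup (Fin n) F) := by
            rw [hcardG, hqpow]
            exact Dvd.dvd.mul_right (dvd_pow_self p hexp) _
          have := P.dvd_card_of_dvd_card hdvd
          rw [ha, h0, pow_zero] at this
          exact hpp.one_lt.ne' (Nat.dvd_one.mp this)
      · exact (Nat.coprime_pow_left_iff h0 _ _).mp this
    exact h2.dvd_of_dvd_mul_right h1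

end Cfsg.Agent.S0263
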