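import Cfsg.Statements.S0266
import Mathlib
import Cfsg.Agent.Helper3.ProjLine

set_option autoImplicit false
open scoped MatrixGroups
open Cfsg Cfsg.Agent.Helper3

namespace Cfsg.Agent.S0266

/-- PGL_2(F) is sharply 3-transitive on the projective line: it is 3-transitive and the stabiliser of three distinct points is trivial. -/
theorem result {F : Type*} [Field F] : MulAction.IsMultiplyPretransitive (Matrix.ProjGenLinGroup (Fin 2) F) (Projectivization F (Fin 2 → F)) 3 ∧ ∀ (g : Matrix.ProjGenLinGroup (Fin 2) F) (a b c : Projectivization F (Fin 2 → F)), a ≠ b → a ≠ c → b ≠ c → g • a = a → g • b = b → g • c = c → g = 1 := by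
  constructor
  · rw [MulAction.isMultiplyPretransitive_iff]
    intro x y
    obtain ⟨gx, hx0, hx1, hx2⟩ := exists_pgl (x 0) (x 1) (x 2)
      (x.injective.ne (by decide)) (x.injective.ne (by decide)) (x.injective.ne (by decide))
    obtain ⟨gy, hy0, hy1, hy2⟩ := exists_pgl (y 0) (y 1) (y 2)
      (y.injective.ne (by decide)) (y.injective.ne (by decide)) (y.injective.ne (by decide))
    refine ⟨Matrix.ProjGenLinGroup.mk gy * (Matrix.ProjGenLinGroup.mk gx)⁻¹,
      DFunLike.ext _ _ fun i => ?_⟩
    rw [Function.Embedding.smul_apply]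
    fin_cases i
    · show _ • x 0 = y 0
      rw [← hx0, mul_smul, inv_smul_smul, hy0]
    · show _ • x 1 = y 1
      rw [← hx1, mul_smul, inv_smul_smul, hy1]
    · show _ • x 2 = y 2
      rw [← hx2, mul_smul, inv_smul_smul, hy2]
  · intro g a b c hab hac hbc ha hb hc
    obtain ⟨h, h0, h1, h2⟩ := exists_pgl a b c hab hac hbc
    obtain ⟨g0, rfl⟩ := Matrix.ProjGenLinGroup.mk_surjective g
    have key : (Matrix.ProjGenLinGroup.mk (h⁻¹ * g0 * h) : Matrix.ProjGenLinGroup (Fin 2) F) = 1 := by
      apply eq_one_of_fix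
      · rw [map_mul, map_mul, mul_smul, mul_smul, h0, ha, ← h0, map_inv, inv_smul_smul]
      · rw [map_mul, map_mul, mul_smul, mul_smul, h1, hb, ← h1, map_inv, inv_smul_smul]
      · rw [map_mul, map_mul, mul_smul, mul_smul, h2, hc, ← h2, map_inv, inv_smul_smul]
    rw [map_mul, map_mul, map_inv] at key
    have e : Matrix.ProjGenLinGroup.mk g0 = Matrix.ProjGenLinGroup.mk h *
        ((Matrix.ProjGenLinGroup.mk h)⁻¹ * Matrix.ProjGenLinGroup.mk g0 *
          Matrix.ProjGenLinGroup.mk h) * (Matrix.ProjGenLinGroup.mk h)⁻¹ := by group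
    rw [e, key]
    group

end Cfsg.Agent.S0266
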