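import Cfsg.Statements.S0267
import Mathlib
import Cfsg.Agent.Helper3.ProjLine

set_option autoImplicit false
open Cfsg Cfsg.Agent.Helper3

namespace Cfsg.Agent.S0267

/-- SL_2(q) is 3-transitive on the q+1 points of the projective line if and only if q is even. -/
theorem result {F : Type*} [Field F] [Fintype F] : MulAction.IsMultiplyPretransitive (Matrix.SpecialLinearGroup (Fin 2) F) (Projectivization F (Fin 2 → F)) 3 ↔ ringChar F = 2 := by
  constructor
  · intro h3
    by_contra hch
    obtain ⟨d, hd⟩ := FiniteField.exists_nonsquare hch
    have hd0 : d ≠ 0 := by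
      rintro rfl
      exact hd ⟨0, by simp⟩
    exact hd (isSquare_of_sl2_three_trans h3 d hd0)
  · intro hch
    exact sl2_three_trans_of_char_two hch

end Cfsg.Agent.S0267
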