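import Cfsg.Statements.S0268
import Mathlib

set_option autoImplicit false
open Cfsg

namespace Cfsg.Agent.S0268

/-- For q odd, -1 is the unique involution of SL_2(q). -/
theorem result {F : Type*} [Field F] [Fintype F] (hF : Odd (Fintype.card F)) (g : Matrix.SpecialLinearGroup (Fin 2) F) (h1 : g ≠ 1) (h2 : g * g = 1) : (g : Matrix (Fin 2) (Fin 2) F) = -1 := by
  have h2ne : (2 : F) ≠ 0 := by
    apply Ring.two_ne_zero
    intro hch
    have := (FiniteField.even_card_iff_char_two (F := F)).mp hch
    rcases hF with ⟨k, hk⟩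
    omega
  have hdet := g.det_coe
  rw [Matrix.det_fin_two] at hdet
  have hm : (g : Matrix (Fin 2) (Fin 2) F) * (g : Matrix (Fin 2) (Fin 2) F) = 1 := by
    have := congrArg (fun x : Matrix.SpecialLinearGroup (Fin 2) F => (x : Matrix (Fin 2) (Fin 2) F)) h2
    simpa using this
  have e00 := congrFun (congrFun hm 0) 0
  have e01 := congrFun (congrFun hm 0) 1
  have e10 := congrFun (congrFun hm 1) 0
  have e11 := congrFun (congrFun hm 1) 1
  simp only [Matrix.mul_apply, Fin.sum_univ_two, Matrix.one_apply_eq, Matrix.one_apply_ne,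
    ne_eq, Fin.reduceEq, not_false_eq_true] at e00 e01 e10 e11
  set a := (g : Matrix (Fin 2) (Fin 2) F) 0 0 with ha
  set b := (g : Matrix (Fin 2) (Fin 2) F) 0 1 with hb
  set c := (g : Matrix (Fin 2) (Fin 2) F) 1 0 with hc
  set d := (g : Matrix (Fin 2) (Fin 2) F) 1 1 with hd
  -- trace t = a + d satisfies t * a = 2, etc.
  have ht : (a + d) * a = 2 := by linear_combination e00 + hdet
  have htne : a + d ≠ 0 := by
    intro h0
    rw [h0, zero_mul] at ht
    exact h2ne ht.symm
  have hb0 : b = 0 := by
    have : (a + d) * b = 0 := by linear_combination e01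
    rcases mul_eq_zero.mp this with h | h
    · exact absurd h htne
    · exact h
  have hc0 : c = 0 := by
    have : (a + d) * c = 0 := by linear_combination e10
    rcases mul_eq_zero.mp this with h | h
    · exact absurd h htne
    · exact h
  rw [hb0, hc0] at hdet e00 e11
  simp only [mul_zero, sub_zero, add_zero, zero_add] at hdet e00 e11
  have had : a = d := by
    have : a * (a - d) = 0 := by linear_combination e00 - hdet
    rcases mul_eq_zero.mp this with h | h
    · rw [h, zero_mul] at hdet
      exact absurd hdet zero_ne_one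
    · exact sub_eq_zero.mp h
  have ha2 : (a - 1) * (a + 1) = 0 := by linear_combination e00
  rcases mul_eq_zero.mp ha2 with h | h
  · exfalso
    apply h1
    ext i j
    have ha1 : a = 1 := sub_eq_zero.mp h
    fin_cases i <;> fin_cases j <;> simp [← ha, ← hb, ← hc, ← hd, hb0, hc0, ha1, ← had]
  · have ha1 : a = -1 := eq_neg_of_add_eq_zero_left h
    ext i j
    fin_cases i <;> fin_cases j <;> simp [← ha, ← hb, ← hc, ← hd, hb0, hc0, ha1, ← had]

end Cfsg.Agent.S0268
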