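import Cfsg.Statements.S0276
import Mathlib
import Cfsg.Agent.S0243
import Cfsg.Agent.Helper3.KleinSylow

set_option autoImplicit false
open Cfsg Cfsg.Agent.Helper3

namespace Cfsg.Agent.S0276

open Matrix in
theorem psl2_card_arith (q c : ℕ) (hq : q % 8 = 3 ∨ q % 8 = 5)
    (h : Nat.gcd 2 (q - 1) * ((q - 1) * c) = (q ^ 2 - 1) * (q ^ 2 - q)) :
    ∃ m, Odd m ∧ c = 4 * m := by
  rcases hq with hq | hq
  · obtain ⟨k, rfl⟩ : ∃ k, q = 8 * k + 3 := ⟨q / 8, by omega⟩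
    have e1 : 8 * k + 3 - 1 = 8 * k + 2 := by omega
    have e2 : (8 * k + 3) ^ 2 - 1 = (8 * k + 2) * (8 * k + 4) :=
      Nat.sub_eq_of_eq_add (by ring)
    have e3 : (8 * k + 3) ^ 2 - (8 * k + 3) = (8 * k + 3) * (8 * k + 2) :=
      Nat.sub_eq_of_eq_add (by ring)
    have e4 : Nat.gcd 2 (8 * k + 2) = 2 := Nat.gcd_eq_left ⟨4 * k + 1, by ring⟩
    rw [e1, e2, e3, e4] at h
    refine ⟨(2 * k + 1) * (8 * k + 3) * (4 * k + 1), ?_, ?_⟩
    · exact (Odd.mul ⟨k, rfl⟩ ⟨4 * k + 1, by ring⟩).mul ⟨2 * k, by ring⟩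
    · have hpos : 0 < 2 * (8 * k + 2) := by positivity
      apply Nat.eq_of_mul_eq_mul_left hpos
      rw [mul_assoc, h]
      ring
  · obtain ⟨k, rfl⟩ : ∃ k, q = 8 * k + 5 := ⟨q / 8, by omega⟩
    have e1 : 8 * k + 5 - 1 = 8 * k + 4 := by omega
    have e2 : (8 * k + 5) ^ 2 - 1 = (8 * k + 4) * (8 * k + 6) :=
      Nat.sub_eq_of_eq_add (by ring)
    have e3 : (8 * k + 5) ^ 2 - (8 * k + 5) = (8 * k + 5) * (8 * k + 4) :=
      Nat.sub_eq_of_eq_add (by ring)
    have e4 : Nat.gcd 2 (8 * k + 4) = 2 := Nat.gcd_eq_left ⟨4 * k + 2, by ring⟩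
    rw [e1, e2, e3, e4] at h
    refine ⟨(4 * k + 3) * (8 * k + 5) * (2 * k + 1), ?_, ?_⟩
    · exact (Odd.mul ⟨2 * k + 1, by ring⟩ ⟨4 * k + 2, by ring⟩).mul ⟨k, rfl⟩
    · have hpos : 0 < 2 * (8 * k + 4) := by positivity
      apply Nat.eq_of_mul_eq_mul_left hpos
      rw [mul_assoc, h]
      ring

/-- Two elements of `SL₂` whose matrices are negatives of each other agree in `PSL₂`. -/
theorem mk_eq_of_neg {F : Type*} [Field F] (A B : Matrix.SpecialLinearGroup (Fin 2) F)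
    (h : (B : Matrix (Fin 2) (Fin 2) F) = -(A : Matrix (Fin 2) (Fin 2) F)) :
    (QuotientGroup.mk A : Matrix.ProjectiveSpecialLinearGroup (Fin 2) F) = QuotientGroup.mk B := by
  rw [QuotientGroup.eq, Subgroup.mem_center_iff]
  intro g
  have hAB : ((A⁻¹ * B : Matrix.SpecialLinearGroup (Fin 2) F) : Matrix (Fin 2) (Fin 2) F) = -1 := by
    have h1 : ((A⁻¹ * A : Matrix.SpecialLinearGroup (Fin 2) F) : Matrix (Fin 2) (Fin 2) F) = 1 := by
      rw [inv_mul_cancel]; rfl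
    rw [Matrix.SpecialLinearGroup.coe_mul] at h1 ⊢
    rw [h, mul_neg, h1]
  apply Subtype.ext
  have e1 : ((g * (A⁻¹ * B) : Matrix.SpecialLinearGroup (Fin 2) F) : Matrix (Fin 2) (Fin 2) F) =
      (g : Matrix (Fin 2) (Fin 2) F) *
        ((A⁻¹ * B : Matrix.SpecialLinearGroup (Fin 2) F) : Matrix (Fin 2) (Fin 2) F) :=
    Matrix.SpecialLinearGroup.coe_mul _ _
  have e2 : (((A⁻¹ * B) * g : Matrix.SpecialLinearGroup (Fin 2) F) : Matrix (Fin 2) (Fin 2) F) =
      ((A⁻¹ * B : Matrix.SpecialLinearGroup (Fin 2) F) : Matrix (Fin 2) (Fin 2) F) *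
        (g : Matrix (Fin 2) (Fin 2) F) :=
    Matrix.SpecialLinearGroup.coe_mul _ _
  show ((g * (A⁻¹ * B) : Matrix.SpecialLinearGroup (Fin 2) F) : Matrix (Fin 2) (Fin 2) F) =
    (((A⁻¹ * B) * g : Matrix.SpecialLinearGroup (Fin 2) F) : Matrix (Fin 2) (Fin 2) F)
  rw [e1, e2, hAB]
  simp

/-- An element of `SL₂` trivial in `PSL₂` is a scalar matrix. -/
theorem scalar_of_mk_eq_one {F : Type*} [Field F] (A : Matrix.SpecialLinearGroup (Fin 2) F)
    (h : (QuotientGroup.mk A : Matrix.ProjectiveSpecialLinearGroup (Fin 2) F) = 1) :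
    (A : Matrix (Fin 2) (Fin 2) F) 0 1 = 0 ∧ (A : Matrix (Fin 2) (Fin 2) F) 0 0 =
      (A : Matrix (Fin 2) (Fin 2) F) 1 1 := by
  rw [QuotientGroup.eq_one_iff, Matrix.SpecialLinearGroup.mem_center_iff] at h
  obtain ⟨r, _, hr⟩ := h
  have h01 := congrFun (congrFun hr 0) 1
  have h00 := congrFun (congrFun hr 0) 0
  have h11 := congrFun (congrFun hr 1) 1
  simp at h01 h00 h11
  exact ⟨h01.symm, by rw [← h00, ← h11]⟩

/-- For q = 3 or 5 mod 8 the Sylow 2-subgroups of PSL_2(q) are elementary abelian of order 4. -/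
theorem result {F : Type*} [Field F] [Fintype F] {q : ℕ} (hF : Fintype.card F = q) (hq : q % 8 = 3 ∨ q % 8 = 5) (P : Sylow 2 (Matrix.ProjectiveSpecialLinearGroup (Fin 2) F)) : IsKleinFour (P : Subgroup (Matrix.ProjectiveSpecialLinearGroup (Fin 2) F)) := by
  classical
  subst hF
  have hfin : Finite (Matrix.ProjectiveSpecialLinearGroup (Fin 2) F) :=
    Finite.of_surjective (QuotientGroup.mk : Matrix.SpecialLinearGroup (Fin 2) F → _)
      (QuotientGroup.mk_surjective)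
  have h2ne : (2 : F) ≠ 0 := by
    apply Ring.two_ne_zero
    intro hch
    have := (FiniteField.even_card_iff_char_two (F := F)).mp hch
    omega
  have hcard := Cfsg.Agent.S0243.result (F := F) rfl 2 le_rfl
  rw [Fin.prod_univ_two] at hcard
  simp only [Fin.val_zero, Fin.val_one, pow_zero, pow_one] at hcard
  obtain ⟨m, hm, hc⟩ := psl2_card_arith _ _ hq hcard
  -- elements
  have hp : (ringChar F).Prime := CharP.char_is_prime F (ringChar F)
  haveI : NeZero (ringChar F) := ⟨hp.ne_zero⟩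
  obtain ⟨a', b', hab'⟩ := CharP.sq_add_sq F (ringChar F) (-1)
  obtain ⟨a, ha⟩ : ∃ a : F, a = (a' : F) := ⟨_, rfl⟩
  obtain ⟨b, hb⟩ : ∃ b : F, b = (b' : F) := ⟨_, rfl⟩
  have hab : a ^ 2 + b ^ 2 = -1 := by
    rw [ha, hb, hab']; simp
  let I : Matrix.SpecialLinearGroup (Fin 2) F := ⟨!![a, b; b, -a], by
    rw [Matrix.det_fin_two_of]; linear_combination -hab⟩
  let J : Matrix.SpecialLinearGroup (Fin 2) F := ⟨!![0, -1; 1, 0], by
    rw [Matrix.det_fin_two_of]; ring⟩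
  have hII : ((I * I : Matrix.SpecialLinearGroup (Fin 2) F) : Matrix (Fin 2) (Fin 2) F) =
      -((1 : Matrix.SpecialLinearGroup (Fin 2) F) : Matrix (Fin 2) (Fin 2) F) := by
    rw [Matrix.SpecialLinearGroup.coe_mul]
    show !![a, b; b, -a] * !![a, b; b, -a] = -(1 : Matrix (Fin 2) (Fin 2) F)
    ext i j
    fin_cases i <;> fin_cases j <;> simp [Matrix.mul_apply, Fin.sum_univ_two] <;>
      first | linear_combination hab | ring1
  have hJJ : ((J * J : Matrix.SpecialLinearGroup (Fin 2) F) : Matrix (Fin 2) (Fin 2) F) =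
      -((1 : Matrix.SpecialLinearGroup (Fin 2) F) : Matrix (Fin 2) (Fin 2) F) := by
    rw [Matrix.SpecialLinearGroup.coe_mul]
    show !![0, -1; 1, 0] * !![0, -1; 1, 0] = -(1 : Matrix (Fin 2) (Fin 2) F)
    ext i j
    fin_cases i <;> fin_cases j <;> simp [Matrix.mul_apply, Fin.sum_univ_two]
  have hIJ : ((J * I : Matrix.SpecialLinearGroup (Fin 2) F) : Matrix (Fin 2) (Fin 2) F) =
      -((I * J : Matrix.SpecialLinearGroup (Fin 2) F) : Matrix (Fin 2) (Fin 2) F) := by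
    rw [Matrix.SpecialLinearGroup.coe_mul, Matrix.SpecialLinearGroup.coe_mul]
    show !![0, -1; 1, 0] * !![a, b; b, -a] = -(!![a, b; b, -a] * !![0, -1; 1, 0])
    ext i j
    fin_cases i <;> fin_cases j <;> simp [Matrix.mul_apply, Fin.sum_univ_two]
  have hIJval : ((I * J : Matrix.SpecialLinearGroup (Fin 2) F) : Matrix (Fin 2) (Fin 2) F) =
      !![b, -a; -a, -b] := by
    rw [Matrix.SpecialLinearGroup.coe_mul]
    show !![a, b; b, -a] * !![0, -1; 1, 0] = _
    ext i j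
    fin_cases i <;> fin_cases j <;> simp [Matrix.mul_apply, Fin.sum_univ_two]
  obtain ⟨x, hx⟩ : ∃ x : Matrix.ProjectiveSpecialLinearGroup (Fin 2) F, x = QuotientGroup.mk I :=
    ⟨_, rfl⟩
  obtain ⟨y, hy⟩ : ∃ y : Matrix.ProjectiveSpecialLinearGroup (Fin 2) F, y = QuotientGroup.mk J :=
    ⟨_, rfl⟩
  have hxx : x * x = 1 := by
    rw [hx, ← QuotientGroup.mk_mul, ← mk_eq_of_neg 1 (I * I) hII]; rfl
  have hyy : y * y = 1 := by
    rw [hy, ← QuotientGroup.mk_mul, ← mk_eq_of_neg 1 (J * J) hJJ]; rfl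
  have hxy : x * y = y * x := by
    rw [hx, hy, ← QuotientGroup.mk_mul, ← QuotientGroup.mk_mul]
    exact mk_eq_of_neg (I * J) (J * I) hIJ
  have hab0 : ¬ (a = 0 ∧ b = 0) := by
    rintro ⟨rfl, rfl⟩
    simp at hab
  have hx1 : x ≠ 1 := by
    intro h
    rw [hx] at h
    obtain ⟨h1, h2⟩ := scalar_of_mk_eq_one I h
    have h1' : b = 0 := h1
    have h2' : a = -a := h2
    apply hab0
    refine ⟨?_, h1'⟩
    have : (2 : F) * a = 0 := by linear_combination h2'
    rcases mul_eq_zero.mp this with h | h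
    · exact absurd h h2ne
    · exact h
  have hy1 : y ≠ 1 := by
    intro h
    rw [hy] at h
    obtain ⟨h1, h2⟩ := scalar_of_mk_eq_one J h
    have h1' : (-1 : F) = 0 := h1
    simp at h1'
  have hne : x ≠ y := by
    intro h
    have h1 : x * y = 1 := by rw [← h]; exact hxx
    rw [hx, hy, ← QuotientGroup.mk_mul] at h1
    obtain ⟨h2, h3⟩ := scalar_of_mk_eq_one (I * J) h1
    rw [hIJval] at h2 h3
    have h2' : -a = 0 := h2
    have h3' : b = -b := h3
    apply hab0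
    refine ⟨neg_eq_zero.mp h2', ?_⟩
    have : (2 : F) * b = 0 := by linear_combination h3'
    rcases mul_eq_zero.mp this with h | h
    · exact absurd h h2ne
    · exact h
  exact sylow_klein m hm hc x y hxx hyy hxy hx1 hy1 hne P

end Cfsg.Agent.S0276
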