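import Cfsg.Statements.S0289
import Mathlib
import Cfsg.Agent.Helper3.FormCount

set_option autoImplicit false
open Cfsg Cfsg.Agent.Helper3

namespace Cfsg.Agent.S0289

/-- The hyperbolic quadratic form on F^(2m), m at least 1, has q^(2m-1) + q^m - q^(m-1) zeros (that is, (q^m - 1)(q^(m-1) + 1) non-zero isotropic vectors). -/
theorem result {F : Type*} [Field F] [Fintype F] {q : ℕ} (hF : Fintype.card F = q) (m : ℕ) (hm : 1 ≤ m) : Nat.card {v : Fin m ⊕ Fin m → F // Cfsg.quadFormPlus m F v = 0} = q ^ (2 * m - 1) + q ^ m - q ^ (m - 1) := by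
  classical
  subst hF
  rw [card_subtype_of_equiv
    ((Equiv.sumArrowEquivProdArrow (Fin m) (Fin m) F).trans (Equiv.prodPUnit _).symm) _
    (fun p : ((Fin m → F) × (Fin m → F)) × Unit =>
      ∑ i, p.1.1 i * p.1.2 i + (fun _ : Unit => (0 : F)) p.2 = 0)
    (by
      intro v
      show _ ↔ ∑ i, v (Sum.inl i) * v (Sum.inr i) + 0 = 0
      rw [add_zero]
      rfl)]
  refine (card_hyperbolic_add (F := F) (ι := Fin m) (fun _ : Unit => (0 : F))).trans ?_
  have hZ : (Finset.univ.filter (fun z : Unit => (fun _ : Unit => (0 : F)) z = 0)).card = 1 := by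
    simp
  rw [hZ, Fintype.card_fin, Fintype.card_unit, one_mul, one_mul]
  exact arith_plus _ m Fintype.card_pos hm

end Cfsg.Agent.S0289
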