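import Cfsg.Statements.S0290
import Mathlib
import Cfsg.Agent.Helper3.FormCount

set_option autoImplicit false
open Cfsg Cfsg.Agent.Helper3

namespace Cfsg.Agent.S0290

/-- The minus-type quadratic form on F^(2m), m at least 1, has q^(2m-1) + q^(m-1) - q^m zeros (that is, (q^m + 1)(q^(m-1) - 1) non-zero isotropic vectors). -/
theorem result {F : Type*} [Field F] [Fintype F] {q : ℕ} (hF : Fintype.card F = q) (m : ℕ) (hm : 1 ≤ m) (a b : F) (hab : ∀ z₁ z₂ : F, z₁ ^ 2 + a * z₁ * z₂ + b * z₂ ^ 2 = 0 → z₁ = 0 ∧ z₂ = 0) : Nat.card {v : (Fin (m - 1) ⊕ Fin (m - 1)) ⊕ Fin 2 → F // Cfsg.quadFormMinus (m - 1) F a b v = 0} = q ^ (2 * m - 1) + q ^ (m - 1) - q ^ m := by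
  classical
  subst hF
  rw [card_subtype_of_equiv
    ((Equiv.sumArrowEquivProdArrow (Fin (m - 1) ⊕ Fin (m - 1)) (Fin 2) F).trans
      (Equiv.prodCongr (Equiv.sumArrowEquivProdArrow (Fin (m - 1)) (Fin (m - 1)) F)
        (Equiv.refl _))) _
    (fun p : ((Fin (m - 1) → F) × (Fin (m - 1) → F)) × (Fin 2 → F) =>
      ∑ i, p.1.1 i * p.1.2 i +
        (fun z : Fin 2 → F => z 0 ^ 2 + a * z 0 * z 1 + b * z 1 ^ 2) p.2 = 0)
    (by
      intro v
      rfl)]
  refine (card_hyperbolic_add (F := F) (ι := Fin (m - 1))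
    (fun z : Fin 2 → F => z 0 ^ 2 + a * z 0 * z 1 + b * z 1 ^ 2)).trans ?_
  have hZ : (Finset.univ.filter (fun z : Fin 2 → F =>
      (fun z : Fin 2 → F => z 0 ^ 2 + a * z 0 * z 1 + b * z 1 ^ 2) z = 0)).card = 1 := by
    rw [Finset.card_eq_one]
    refine ⟨0, ?_⟩
    ext z
    simp only [Finset.mem_filter, Finset.mem_univ, true_and, Finset.mem_singleton]
    constructor
    · intro h
      obtain ⟨h0, h1⟩ := hab _ _ h
      ext i
      fin_cases i
      · exact h0
      · exact h1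
    · rintro rfl
      simp
  rw [hZ, Fintype.card_fin, one_mul, Fintype.card_fun, Fintype.card_fin]
  exact arith_minus _ m Fintype.card_pos hm

end Cfsg.Agent.S0290
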