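import Cfsg.Statements.S0291
import Mathlib
import Cfsg.Agent.Helper3.FormCount

set_option autoImplicit false
open Cfsg Cfsg.Agent.Helper3

namespace Cfsg.Agent.S0291

/-- For q odd, the form x_0^2 + sum_{i<m} x_i y_i on F^(2m+1) has exactly q^(2m) zeros. -/
theorem result {F : Type*} [Field F] [Fintype F] {q : ℕ} (hF : Fintype.card F = q) (hodd : Odd q) (m : ℕ) : Nat.card {v : Unit ⊕ (Fin m ⊕ Fin m) → F // Cfsg.quadFormOdd m F v = 0} = q ^ (2 * m) := by
  classical
  subst hF
  rw [card_subtype_of_equiv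
    ((Equiv.sumArrowEquivProdArrow Unit (Fin m ⊕ Fin m) F).trans
      ((Equiv.prodCongr (Equiv.funUnique Unit F)
        (Equiv.sumArrowEquivProdArrow (Fin m) (Fin m) F)).trans (Equiv.prodComm _ _))) _
    (fun p : ((Fin m → F) × (Fin m → F)) × F =>
      ∑ i, p.1.1 i * p.1.2 i + (fun z : F => z ^ 2) p.2 = 0)
    (by
      intro v
      show _ ↔ ∑ i, v (Sum.inr (Sum.inl i)) * v (Sum.inr (Sum.inr i)) + v (Sum.inl ()) ^ 2 = 0
      unfold Cfsg.quadFormOdd
      rw [add_comm])]
  refine (card_hyperbolic_add (F := F) (ι := Fin m) (fun z : F => z ^ 2)).trans ?_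
  have hZ : (Finset.univ.filter (fun z : F => (fun z : F => z ^ 2) z = 0)).card = 1 := by
    rw [Finset.card_eq_one]
    refine ⟨0, ?_⟩
    ext z
    simp
  rw [hZ, Fintype.card_fin, one_mul]
  exact arith_odd _ m Fintype.card_pos

end Cfsg.Agent.S0291
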