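import Cfsg.Statements.S0292
import Cfsg.Agent.Helper16.OmegaOrder
import Cfsg.Agent.Helper16.StdForms
import Cfsg.Agent.Helper16.Gram
import Cfsg.Agent.S0286

set_option autoImplicit false
open Cfsg

namespace Cfsg.Agent.S0292

open Cfsg.Agent.Helper16 in

/-- 2 |PΩ_{2m+1}(q)| = q^(m^2) prod_{i=1}^{m} (q^(2i) - 1), for q odd and m at least 3 (type B_m). -/
theorem result {F : Type*} [Field F] [Fintype F] {q : ℕ} (hF : Fintype.card F = q) (hodd : Odd q) (m : ℕ) (hm : 3 ≤ m) : 2 * Nat.card (Cfsg.POmega F (Cfsg.quadFormOdd m F)) = q ^ (m ^ 2) * ∏ i ∈ Finset.range m, (q ^ (2 * (i + 1)) - 1) := by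
  have h2 : (2 : F) ≠ 0 := two_ne_zero_of_odd_card (hF ▸ hodd)
  have hcard : Fintype.card (Unit ⊕ (Fin m ⊕ Fin m)) = 2 * m + 1 := by
    simp only [Fintype.card_sum, Fintype.card_unit, Fintype.card_fin]
    omega
  have hO := Cfsg.Agent.S0286.result hF hodd m
  rw [← coe_qfOdd m F] at hO ⊢
  have hnd := qfOdd_nondegenerate (m := m) h2
  have hidx : (Cfsg.Omega F ⇑(qfOdd m F)).index = 4 :=
    Omega_index_odd h2 (by omega) (qfOdd m F) hnd
  have hZ : Nat.card (Subgroup.center ↥(Cfsg.Omega F ⇑(qfOdd m F))) = 1 := by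
    apply card_center_eq_one (by omega) (qfOdd m F) hnd
    intro g hg hmat
    exfalso
    have hdet := Omega_le_SO _ g hg
    rw [hmat, Matrix.det_neg, Matrix.det_one, hcard, pow_succ, pow_mul] at hdet
    norm_num at hdet
    exact h2 (by linear_combination (-1 : F) * hdet)
  have hmul := card_POmega_mul (F := F) ⇑(qfOdd m F)
  obtain ⟨X, hX⟩ : ∃ X, X = q ^ (m ^ 2) * ∏ i ∈ Finset.range m, (q ^ (2 * (i + 1)) - 1) :=
    ⟨_, rfl⟩
  have hO' : Nat.card ↥(Cfsg.isometryGroup F ⇑(qfOdd m F)) = 2 * X := by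
    rw [hO, hX, mul_assoc]
  rw [hZ, hidx, hO'] at hmul
  rw [← hX]
  omega

end Cfsg.Agent.S0292
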