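import Cfsg.Statements.S2621
import Cfsg.Agent.Helper16.Gram

set_option autoImplicit false
open Cfsg

namespace Cfsg.Agent.S2621

theorem result {F : Type*} [Field F] [Fintype F] {q : ℕ} (hF : Fintype.card F = q) (hq : Odd q) {m : ℕ} (hm : 1 ≤ m) (a c : F) (hac : ∀ z₁ z₂ : F, z₁ ^ 2 + a * z₁ * z₂ + c * z₂ ^ 2 = 0 → z₁ = 0 ∧ z₂ = 0) {ι : Type*} [Fintype ι] [DecidableEq ι] (b : Module.Basis ι F ((Fin (m - 1) ⊕ Fin (m - 1)) ⊕ Fin 2 → F)) : IsSquare (Matrix.of (fun i j : ι => QuadraticMap.polar (Cfsg.quadFormMinus (m - 1) F a c) (b i) (b j))).det ↔ ¬ Even (m * (q - 1) / 2) := by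
  have hD := Cfsg.Agent.Helper16.not_isSquare_disc (hF ▸ hq) a c hac
  rw [Cfsg.Agent.Helper16.isSquare_gram_det_iff b
    (Matrix.fromBlocks (Matrix.fromBlocks (0 : Matrix (Fin (m - 1)) (Fin (m - 1)) F)
      (1 : Matrix (Fin (m - 1)) (Fin (m - 1)) F)
      (1 : Matrix (Fin (m - 1)) (Fin (m - 1)) F) (0 : Matrix (Fin (m - 1)) (Fin (m - 1)) F))
      (0 : Matrix (Fin (m - 1) ⊕ Fin (m - 1)) (Fin 2) F)
      (0 : Matrix (Fin 2) (Fin (m - 1) ⊕ Fin (m - 1)) F) !![2, a; a, 2 * c])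
    (QuadraticMap.polar (Cfsg.quadFormMinus (m - 1) F a c)),
    Matrix.det_fromBlocks_zero₁₂, Cfsg.Agent.Helper16.det_hyperbolic, Matrix.det_fin_two]
  · have h1 : (-1 : F) ^ (m - 1) * ((!![2, a; a, 2 * c] : Matrix (Fin 2) (Fin 2) F) 0 0 *
        (!![2, a; a, 2 * c] : Matrix (Fin 2) (Fin 2) F) 1 1 -
        (!![2, a; a, 2 * c] : Matrix (Fin 2) (Fin 2) F) 0 1 *
        (!![2, a; a, 2 * c] : Matrix (Fin 2) (Fin 2) F) 1 0) = (-1 : F) ^ m * (a ^ 2 - 4 * c) := by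
      obtain ⟨k, rfl⟩ : ∃ k, m = k + 1 := ⟨m - 1, by omega⟩
      simp only [Nat.add_sub_cancel, Matrix.of_apply, Matrix.cons_val', Matrix.cons_val_zero,
        Matrix.cons_val_one, Matrix.cons_val_fin_one]
      ring
    rw [h1]
    exact Cfsg.Agent.Helper16.isSquare_neg_one_pow_mul_iff hF hq m _ hD
  · intro x y
    have hy : y = Sum.elim (y ∘ Sum.inl) (y ∘ Sum.inr) := (Sum.elim_comp_inl_inr y).symm
    have hy' : y ∘ Sum.inl = Sum.elim ((y ∘ Sum.inl) ∘ Sum.inl) ((y ∘ Sum.inl) ∘ Sum.inr) :=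
      (Sum.elim_comp_inl_inr _).symm
    rw [hy, Matrix.fromBlocks_mulVec, hy', Matrix.fromBlocks_mulVec, ← hy', ← hy]
    simp only [QuadraticMap.polar, Cfsg.quadFormMinus, dotProduct, Fintype.sum_sum_type,
      Sum.elim_inl, Sum.elim_inr, Matrix.zero_mulVec, Matrix.one_mulVec, zero_add, add_zero,
      Pi.add_apply, Function.comp_apply, Fin.sum_univ_two, Matrix.mulVec, Matrix.of_apply,
      Matrix.cons_val', Matrix.cons_val_zero, Matrix.cons_val_one, Matrix.cons_val_fin_one]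
    have e1 : ∀ (u v w : Fin (m - 1) → F) (s t r : F),
        (∑ i, u i + s) - (∑ i, v i + t) - (∑ i, w i + r) = ∑ i, (u i - v i - w i) + (s - t - r) := by
      intro u v w s t r
      rw [Finset.sum_sub_distrib, Finset.sum_sub_distrib]; ring
    rw [e1, ← Finset.sum_add_distrib]
    congr 1
    · refine Finset.sum_congr rfl fun i _ => ?_
      ring
    · ring

end Cfsg.Agent.S2621
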