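import Cfsg.Statements.S2679
import Cfsg.Agent.Helper16.IsomEmbed

set_option autoImplicit false
open Cfsg

namespace Cfsg.Agent.S2679

open QuadraticMap Cfsg.Agent.Helper16 Polynomial

/-- an anisotropic binary form `z₁² + a z₁z₂ + c z₂²` over a finite field has non-zero
discriminant -/
theorem disc_ne_zero {F : Type*} [Field F] [Finite F] (a c : F)
    (hac : ∀ z₁ z₂ : F, z₁ ^ 2 + a * z₁ * z₂ + c * z₂ ^ 2 = 0 → z₁ = 0 ∧ z₂ = 0) :
    a ^ 2 - 4 * c ≠ 0 := by
  intro h0
  by_cases h2 : (2 : F) = 0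
  · have h4 : (4 : F) = 0 := by
      have : (4 : F) = 2 * 2 := by norm_num
      rw [this, h2, mul_zero]
    rw [h4, zero_mul, sub_zero] at h0
    have ha : a = 0 := by simpa using h0
    obtain ⟨s, hs⟩ := FiniteField.isSquare_of_char_two (ringChar_two_of_two_eq_zero h2) c
    have h1 := (hac s 1 (by rw [ha, hs]; linear_combination (s * s) * h2)).2
    exact one_ne_zero h1
  · have h1 := (hac (-a) 2 (by linear_combination -h0)).2
    exact h2 h1

/-- an embedding `F → K` into the field with `q²` elements together with the two distinct roots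
of `t² + a t + c` -/
theorem exists_hom_roots {F K : Type*} [Field F] [Fintype F] [Field K] [Fintype K] {q : ℕ}
    (hF : Fintype.card F = q) (hK : Fintype.card K = q ^ 2) (a c : F)
    (hac : ∀ z₁ z₂ : F, z₁ ^ 2 + a * z₁ * z₂ + c * z₂ ^ 2 = 0 → z₁ = 0 ∧ z₂ = 0) :
    ∃ (ι : F →+* K) (θ θ' : K), θ + θ' = -ι a ∧ θ * θ' = ι c ∧ θ ≠ θ' := by
  obtain ⟨p, hp⟩ : ∃ p : F[X], p = C 1 * X ^ 2 + C a * X + C c := ⟨_, rfl⟩
  have hdeg : p.natDegree = 2 := by
    rw [hp]
    exact natDegree_quadratic one_ne_zero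
  have hmonic : p.Monic := by
    rw [Monic, hp]
    exact leadingCoeff_quadratic one_ne_zero
  have hp0 : p ≠ 0 := hmonic.ne_zero
  have hirr : Irreducible p := by
    rw [hmonic.irreducible_iff_roots_eq_zero_of_degree_le_three (by rw [hdeg]) (by rw [hdeg]; norm_num)]
    apply Multiset.eq_zero_of_forall_notMem
    intro t ht
    rw [mem_roots hp0, IsRoot, hp] at ht
    simp only [eval_add, eval_mul, eval_C, eval_pow, eval_X, one_mul] at ht
    have h1 := (hac t 1 (by linear_combination ht)).2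
    exact one_ne_zero h1
  have hfact : Fact (Irreducible p) := ⟨hirr⟩
  have hfinmod : Module.Finite F (AdjoinRoot p) := (AdjoinRoot.powerBasis hp0).finite
  have hfinL : Finite (AdjoinRoot p) := Module.finite_of_finite F
  have hcardL : Nat.card (AdjoinRoot p) = q ^ 2 := by
    rw [Module.natCard_eq_pow_finrank (K := F), PowerBasis.finrank (AdjoinRoot.powerBasis hp0),
      AdjoinRoot.powerBasis_dim, hdeg, Nat.card_eq_fintype_card, hF]
  let _ : Fintype (AdjoinRoot p) := Fintype.ofFinite _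
  have hcard : Fintype.card (AdjoinRoot p) = Fintype.card K := by
    rw [← Nat.card_eq_fintype_card, hcardL, hK]
  let e : AdjoinRoot p ≃+* K := FiniteField.ringEquivOfCardEq hcard
  have hroot : (AdjoinRoot.root p) ^ 2 + AdjoinRoot.of p a * AdjoinRoot.root p + AdjoinRoot.of p c = 0 := by
    have h := AdjoinRoot.eval₂_root p
    conv at h => lhs; arg 3; rw [hp]
    simpa [eval₂_add, eval₂_mul, eval₂_pow] using h
  have hθ : (e (AdjoinRoot.root p)) ^ 2 + e (AdjoinRoot.of p a) * e (AdjoinRoot.root p) +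
      e (AdjoinRoot.of p c) = 0 := by
    have h := congrArg e hroot
    simpa [map_add, map_mul, map_pow] using h
  refine ⟨(e : AdjoinRoot p →+* K).comp (AdjoinRoot.of p), e (AdjoinRoot.root p),
    -e (AdjoinRoot.of p a) - e (AdjoinRoot.root p), ?_, ?_, ?_⟩
  · show _ = -e (AdjoinRoot.of p a)
    ring
  · show _ = e (AdjoinRoot.of p c)
    linear_combination -hθ
  · intro heq
    have hdisc : e (AdjoinRoot.of p (a ^ 2 - 4 * c)) = 0 := by
      rw [map_sub, map_sub, map_pow, map_pow, map_mul, map_mul]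
      have h4 : e (AdjoinRoot.of p 4) = 4 := by rw [map_ofNat, map_ofNat]
      rw [h4]
      linear_combination (-4 : K) * hθ + (e (AdjoinRoot.of p a) + 2 * e (AdjoinRoot.root p)) * heq
    have h3 : AdjoinRoot.of p (a ^ 2 - 4 * c) = 0 := by
      have := e.injective (hdisc.trans (map_zero e).symm)
      exact this
    have h4 : a ^ 2 - 4 * c = 0 := (AdjoinRoot.of p).injective (h3.trans (map_zero _).symm)
    exact disc_ne_zero a c hac h4

/-- the linear map turning the elliptic form over `K` into the hyperbolic form -/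
noncomputable def tMap {K : Type*} [Field K] (k : ℕ) (θ θ' : K) :
    (Fin (k + 1) ⊕ Fin (k + 1) → K) →ₗ[K] ((Fin k ⊕ Fin k) ⊕ Fin 2 → K) where
  toFun v := Sum.elim (Sum.elim (fun i => v (Sum.inl i.succ)) (fun i => v (Sum.inr i.succ)))
    ![θ * v (Sum.inl 0) + θ' * (-((θ - θ') ^ 2)⁻¹ * v (Sum.inr 0)),
      v (Sum.inl 0) + -((θ - θ') ^ 2)⁻¹ * v (Sum.inr 0)]
  map_add' u v := by
    funext j
    rcases j with (i | i) | r
    · rfl
    · rfl
    · fin_cases r
      · simp
        ring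
      · simp
        ring
  map_smul' t v := by
    funext j
    rcases j with (i | i) | r
    · rfl
    · rfl
    · fin_cases r
      · simp
        ring
      · simp
        ring

theorem tMap_injective {K : Type*} [Field K] (k : ℕ) (θ θ' : K) (hθ : θ ≠ θ') :
    Function.Injective (tMap k θ θ') := by
  rw [injective_iff_map_eq_zero]
  intro v hv
  have hsub : θ - θ' ≠ 0 := sub_ne_zero.2 hθ
  have h0 := congrFun hv (Sum.inr 0)
  have h1 := congrFun hv (Sum.inr 1)
  have hx : v (Sum.inl 0) = 0 := by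
    have e1 : θ * v (Sum.inl 0) + θ' * (-((θ - θ') ^ 2)⁻¹ * v (Sum.inr 0)) = 0 := h0
    have e2 : v (Sum.inl 0) + -((θ - θ') ^ 2)⁻¹ * v (Sum.inr 0) = 0 := h1
    have e3 : (θ - θ') * v (Sum.inl 0) = 0 := by linear_combination e1 - θ' * e2
    rcases mul_eq_zero.1 e3 with h | h
    · exact absurd h hsub
    · exact h
  have hy : v (Sum.inr 0) = 0 := by
    have e2 : v (Sum.inl 0) + -((θ - θ') ^ 2)⁻¹ * v (Sum.inr 0) = 0 := h1
    rw [hx, zero_add] at e2
    rcases mul_eq_zero.1 e2 with h | h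
    · exfalso
      exact (inv_ne_zero (pow_ne_zero 2 hsub)) (neg_eq_zero.1 h)
    · exact h
  funext j
  rcases j with i | i
  · refine Fin.cases ?_ (fun i' => ?_) i
    · exact hx
    · exact congrFun hv (Sum.inl (Sum.inl i'))
  · refine Fin.cases ?_ (fun i' => ?_) i
    · exact hy
    · exact congrFun hv (Sum.inl (Sum.inr i'))

theorem tMap_form {K : Type*} [Field K] (k : ℕ) (θ θ' a c : K) (h1 : θ + θ' = -a) (h2 : θ * θ' = c)
    (hθ : θ ≠ θ') (v : Fin (k + 1) ⊕ Fin (k + 1) → K) :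
    Cfsg.quadFormMinus k K a c (tMap k θ θ' v) = Cfsg.quadFormPlus (k + 1) K v := by
  have hsub : θ - θ' ≠ 0 := sub_ne_zero.2 hθ
  have ha : a = -(θ + θ') := by rw [h1, neg_neg]
  simp only [Cfsg.quadFormMinus, Cfsg.quadFormPlus, tMap, LinearMap.coe_mk, AddHom.coe_mk,
    Sum.elim_inl, Sum.elim_inr, Matrix.cons_val_zero, Matrix.cons_val_one, Fin.sum_univ_succ]
  rw [ha, ← h2]
  field_simp
  ring


/-- An elliptic orthogonal group embeds in the hyperbolic orthogonal group of the same dimension over the quadratic extension: for a field F with q elements and a field K with q² elements there is an injective homomorphism from O⁻_2m(F) (isometries of Σ_(j<m−1) x_j y_j + z₁² + a z₁z₂ + c z₂², binary part anisotropic) to O⁺_2m(K) (isometries of Σ_(j<m) x_j y_j over K). -/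
theorem result {F K : Type*} [Field F] [Fintype F] [Field K] [Fintype K] {q : ℕ} (hF : Fintype.card F = q) (hK : Fintype.card K = q ^ 2) {m : ℕ} (hm : 1 ≤ m) (a c : F) (hac : ∀ z₁ z₂ : F, z₁ ^ 2 + a * z₁ * z₂ + c * z₂ ^ 2 = 0 → z₁ = 0 ∧ z₂ = 0) : ∃ φ : ↥(Cfsg.isometryGroup F (Cfsg.quadFormMinus (m - 1) F a c)) →* ↥(Cfsg.isometryGroup K (Cfsg.quadFormPlus m K)), Function.Injective φ := by
  obtain ⟨k, rfl⟩ : ∃ k, m = k + 1 := ⟨m - 1, by omega⟩
  obtain ⟨ι, θ, θ', h1, h2, h3⟩ := exists_hom_roots hF hK a c hac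
  obtain ⟨β, hβ⟩ := exists_baseChange_hom ι (Cfsg.quadFormMinus k F a c) (qfMinus k K (ι a) (ι c))
    (by
      intro u
      rw [qfMinus_apply]
      simp [Cfsg.quadFormMinus, map_sum, map_add, map_mul, map_pow])
  have hfr : Module.finrank K (Fin (k + 1) ⊕ Fin (k + 1) → K) =
      Module.finrank K ((Fin k ⊕ Fin k) ⊕ Fin 2 → K) := by
    simp
    omega
  obtain ⟨γ, hγ⟩ := exists_conj_hom (⇑(qfMinus k K (ι a) (ι c))) (Cfsg.quadFormPlus (k + 1) K)
    (LinearMap.linearEquivOfInjective (tMap k θ θ') (tMap_injective k θ θ' h3) hfr)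
    (by
      intro v
      rw [qfMinus_apply]
      exact tMap_form k θ θ' (ι a) (ι c) h1 h2 h3 v)
  exact ⟨γ.comp β, hγ.comp hβ⟩

end Cfsg.Agent.S2679
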