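import Cfsg.Statements.S0791
import Cfsg.Agent.Helper16.SpinorMore
import Cfsg.Agent.S2621
import Cfsg.Agent.S2679

set_option autoImplicit false
open Cfsg

namespace Cfsg.Agent.S0791

/-- −1 ∈ Ω⁻_2m(q) iff q^m ≡ −1 (mod 4), for q odd and m ≥ 1; for the minus-type form quadFormMinus (m−1) with anisotropic binary part. -/
theorem result {F : Type*} [Field F] [Fintype F] {q : ℕ} (hF : Fintype.card F = q) (hodd : Odd q) (m : ℕ) (hm : 1 ≤ m) (a b : F) (hab : ∀ z₁ z₂ : F, z₁ ^ 2 + a * z₁ * z₂ + b * z₂ ^ 2 = 0 → z₁ = 0 ∧ z₂ = 0) : (∃ g : ↥(Cfsg.isometryGroup F (Cfsg.quadFormMinus (m - 1) F a b)), g ∈ Cfsg.Omega F (Cfsg.quadFormMinus (m - 1) F a b) ∧ ((g : Matrix.GeneralLinearGroup ((Fin (m - 1) ⊕ Fin (m - 1)) ⊕ Fin 2) F) : Matrix ((Fin (m - 1) ⊕ Fin (m - 1)) ⊕ Fin 2) ((Fin (m - 1) ⊕ Fin (m - 1)) ⊕ Fin 2) F) = -1) ↔ q ^ m % 4 = 3 := by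
  classical
  have h2 : (2 : F) ≠ 0 := Cfsg.Agent.Helper16.two_ne_zero_of_odd_card (by rw [hF]; exact hodd)
  have hd : 4 * b - a ^ 2 ≠ 0 := by
    have := Cfsg.Agent.S2679.disc_ne_zero a b hab
    intro h
    apply this
    linear_combination -h
  have hcard : Even (Fintype.card ((Fin (m - 1) ⊕ Fin (m - 1)) ⊕ Fin 2)) := by
    simp only [Fintype.card_sum, Fintype.card_fin]
    exact ⟨m, by omega⟩
  obtain ⟨bas, hbas⟩ := Cfsg.Agent.Helper16.neg_one_mem_Omega_iff h2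
    (Cfsg.Agent.Helper16.qfMinus (m - 1) F a b)
    (Cfsg.Agent.Helper16.qfMinus_nondegenerate a b hd) hcard
  rw [Cfsg.Agent.Helper16.coe_qfMinus] at hbas
  rw [hbas, Cfsg.Agent.S2621.result hF hodd hm a b hab bas,
    ← Cfsg.Agent.Helper16.isSquare_neg_one_pow_iff hF hodd m,
    Cfsg.Agent.Helper16.isSquare_neg_one_pow_iff' hF hodd m]
  have hodd' : q ^ m % 2 = 1 := Nat.odd_iff.1 (hodd.pow)
  omega

end Cfsg.Agent.S0791
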