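import Cfsg.Statements.S0294
import Cfsg.Agent.Helper16.OmegaOrder
import Cfsg.Agent.Helper16.StdForms
import Cfsg.Agent.S0288
import Cfsg.Agent.S0791

set_option autoImplicit false
open Cfsg

namespace Cfsg.Agent.S0294

open Cfsg.Agent.Helper16 in

/-- gcd(4, q^m + 1) |PΩ^-_{2m}(q)| = q^(m(m-1)) (q^m + 1) prod_{i=1}^{m-1} (q^(2i) - 1), m at least 4 (type ²D_m). -/
theorem result {F : Type*} [Field F] [Fintype F] {q : ℕ} (hF : Fintype.card F = q) (m : ℕ) (hm : 4 ≤ m) (a b : F) (hab : ∀ z₁ z₂ : F, z₁ ^ 2 + a * z₁ * z₂ + b * z₂ ^ 2 = 0 → z₁ = 0 ∧ z₂ = 0) : Nat.gcd 4 (q ^ m + 1) * Nat.card (Cfsg.POmega F (Cfsg.quadFormMinus (m - 1) F a b)) = q ^ (m * (m - 1)) * (q ^ m + 1) * ∏ i ∈ Finset.range (m - 1), (q ^ (2 * (i + 1)) - 1) := by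
  have hcard : Fintype.card ((Fin (m - 1) ⊕ Fin (m - 1)) ⊕ Fin 2) = 2 * m := by
    simp only [Fintype.card_sum, Fintype.card_fin]
    omega
  have hO := Cfsg.Agent.S0288.result hF m (by omega) a b hab
  have hd := minus_disc_ne_all a b hab
  have hkey := card_POmega_of_crit (by omega) (qfMinus (m - 1) F a b)
    (qfMinus_nondegenerate a b hd) (q ^ m + 1)
    (by
      intro h2
      apply gcd_four_of_odd
      have hq : q % 2 = 0 := hF ▸ card_parity h2
      have hqm : q ^ m % 2 = 0 := by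
        rw [Nat.pow_mod, hq, zero_pow (by omega)]
        rfl
      omega)
    (by
      intro h2
      have hq : q % 2 = 1 := hF ▸ card_parity' h2
      have hqm : q ^ m % 2 = 1 := by
        rw [Nat.pow_mod, hq, one_pow]
        rfl
      obtain ⟨h1, h3⟩ := gcd_four_of_even (q ^ m + 1) (by omega)
      refine ⟨?_, h3⟩
      rw [h1, coe_qfMinus, Cfsg.Agent.S0791.result hF (Nat.odd_iff.2 hq) m (by omega) a b hab]
      omega)
  rw [coe_qfMinus, hO] at hkey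
  obtain ⟨Y, hY⟩ : ∃ Y, Y = q ^ (m * (m - 1)) * (q ^ m + 1) *
      ∏ i ∈ Finset.range (m - 1), (q ^ (2 * (i + 1)) - 1) := ⟨_, rfl⟩
  have hO' : 2 * q ^ (m * (m - 1)) * (q ^ m + 1) *
      ∏ i ∈ Finset.range (m - 1), (q ^ (2 * (i + 1)) - 1) = 2 * Y := by
    rw [hY]
    ring
  rw [hO'] at hkey
  rw [← hY]
  omega

end Cfsg.Agent.S0294
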