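import Cfsg.Statements.S0295
import Cfsg.Agent.Helper16.Simple
import Cfsg.Agent.Helper16.StdForms
import Cfsg.Agent.Helper16.Gram

set_option autoImplicit false
open Cfsg

namespace Cfsg.Agent.S0295

open Cfsg.Agent.Helper16 in

/-- PΩ_{2m+1}(q) is simple for q odd and m at least 3. -/
theorem result {F : Type*} [Field F] [Fintype F] (hodd : Odd (Fintype.card F)) (m : ℕ) (hm : 3 ≤ m) : IsSimpleGroup (Cfsg.POmega F (Cfsg.quadFormOdd m F)) := by
  have h2 : (2 : F) ≠ 0 := two_ne_zero_of_odd_card hodd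
  have hc : 5 ≤ Fintype.card (Unit ⊕ (Fin m ⊕ Fin m)) := by
    simp only [Fintype.card_sum, Fintype.card_unit, Fintype.card_fin]
    omega
  rw [← coe_qfOdd m F]
  exact POmega_simple hc (qfOdd m F) (qfOdd_nondegenerate h2)
    (Omega_eq_siegel h2 hc (qfOdd m F) (qfOdd_nondegenerate h2))

end Cfsg.Agent.S0295
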