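import Mathlib
import Cfsg.Statements.S0304
import Cfsg.Agent.Helper6.SpFrames

set_option autoImplicit false
open Cfsg

namespace Cfsg.Agent.S0304

section aux

open Matrix

variable {F : Type*} [Field F] {m : ℕ}

/-- restriction to the hyperbolic coordinates -/
def rs (x : Unit ⊕ (Fin m ⊕ Fin m) → F) : Fin m ⊕ Fin m → F := fun k => x (.inr k)

theorem rs_add (x y : Unit ⊕ (Fin m ⊕ Fin m) → F) : rs (x + y) = rs x + rs y := rfl

theorem qf_apply (x : Unit ⊕ (Fin m ⊕ Fin m) → F) :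
    Cfsg.quadFormOdd m F x
      = x (.inl ()) ^ 2 + ∑ i : Fin m, x (.inr (.inl i)) * x (.inr (.inr i)) := rfl

theorem sf_expand (u v : Fin m ⊕ Fin m → F) :
    Cfsg.sympForm m F u v = ∑ i : Fin m, (u (.inr i) * v (.inl i) - u (.inl i) * v (.inr i)) := by
  rw [Cfsg.sympForm, Cfsg.Agent.S0764.J_mulVec, dotProduct, Fintype.sum_sum_type]
  simp only [Sum.elim_inl, Sum.elim_inr, mul_neg, Finset.sum_neg_distrib, Finset.sum_sub_distrib]
  ring

theorem hpol (h2 : (2 : F) = 0) (x y : Unit ⊕ (Fin m ⊕ Fin m) → F) :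
    Cfsg.quadFormOdd m F (x + y) = Cfsg.quadFormOdd m F x + Cfsg.quadFormOdd m F y
      + Cfsg.sympForm m F (rs x) (rs y) := by
  rw [qf_apply, qf_apply, qf_apply, sf_expand]
  simp only [Pi.add_apply, rs]
  have e : ∀ i : Fin m, (x (.inr (.inl i)) + y (.inr (.inl i))) * (x (.inr (.inr i)) + y (.inr (.inr i)))
      = x (.inr (.inl i)) * x (.inr (.inr i)) + y (.inr (.inl i)) * y (.inr (.inr i))
        + (x (.inr (.inr i)) * y (.inr (.inl i)) - x (.inr (.inl i)) * y (.inr (.inr i)))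
        + 2 * (x (.inr (.inl i)) * y (.inr (.inr i))) := by
    intro i
    ring
  simp only [e, Finset.sum_add_distrib, ← Finset.mul_sum, h2, zero_mul, add_zero]
  linear_combination (x (.inl ()) * y (.inl ())) * h2

theorem qf_smul (c : F) (x : Unit ⊕ (Fin m ⊕ Fin m) → F) :
    Cfsg.quadFormOdd m F (c • x) = c ^ 2 * Cfsg.quadFormOdd m F x := by
  rw [qf_apply, qf_apply, mul_add, Finset.mul_sum]
  simp only [Pi.smul_apply, smul_eq_mul]
  congr 1
  · ring
  · exact Finset.sum_congr rfl fun i _ => by ring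

theorem qf_e0 : Cfsg.quadFormOdd m F (Pi.single (.inl ()) 1) = 1 := by
  rw [qf_apply]
  simp

theorem rs_e0 : rs (Pi.single (.inl ()) 1 : Unit ⊕ (Fin m ⊕ Fin m) → F) = 0 := by
  ext k
  simp [rs]

theorem sf_zero_right' (u : Fin m ⊕ Fin m → F) : Cfsg.sympForm m F u 0 = 0 := by
  simp [Cfsg.sympForm]

theorem rs_eq_zero_of_perp (u : Fin m ⊕ Fin m → F)
    (h : ∀ y : Fin m ⊕ Fin m → F, Cfsg.sympForm m F u y = 0) : u = 0 := by
  ext k
  rcases k with i | i
  · have h1 := h (Pi.single (.inr i) 1)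
    rw [Cfsg.Agent.Helper6.sf_single_inr] at h1
    simpa using h1
  · have h1 := h (Pi.single (.inl i) 1)
    rw [Cfsg.Agent.Helper6.sf_single_inl] at h1
    simpa using h1

/-- an isometry fixes the radical vector -/
theorem col0 (h2 : (2 : F) = 0) (M : Matrix (Unit ⊕ (Fin m ⊕ Fin m)) (Unit ⊕ (Fin m ⊕ Fin m)) F)
    (hM : ∀ u, Cfsg.quadFormOdd m F (M.mulVec u) = Cfsg.quadFormOdd m F u)
    (hsurj : Function.Surjective M.mulVec) :
    M.mulVec (Pi.single (.inl ()) 1) = Pi.single (.inl ()) 1 := by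
  have hu : ∀ y : Unit ⊕ (Fin m ⊕ Fin m) → F,
      Cfsg.sympForm m F (rs (M.mulVec (Pi.single (.inl ()) 1))) (rs y) = 0 := by
    intro y
    obtain ⟨z, rfl⟩ := hsurj y
    have h1 := hpol h2 (M.mulVec (Pi.single (.inl ()) 1)) (M.mulVec z)
    rw [← Matrix.mulVec_add, hM, hM, hM, hpol h2, rs_e0, Cfsg.Agent.Helper6.sf_zero_left] at h1
    linear_combination -h1
  have hpu : rs (M.mulVec (Pi.single (.inl ()) 1)) = 0 := by
    apply rs_eq_zero_of_perp
    intro y
    have h1 := hu (Sum.elim (fun _ => 0) y)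
    exact h1
  have h3 : M.mulVec (Pi.single (.inl ()) 1)
      = (M.mulVec (Pi.single (.inl ()) 1) (.inl ())) • (Pi.single (.inl ()) 1) := by
    ext k
    rcases k with ⟨⟩ | k
    · simp
    · have := congrFun hpu k
      simp only [rs, Pi.zero_apply] at this
      simp [this]
  have h4 := hM (Pi.single (.inl ()) 1)
  rw [h3, qf_smul, qf_e0, mul_one] at h4
  have h5 : M.mulVec (Pi.single (.inl ()) 1) (.inl ()) = 1 := by
    have h6 : (M.mulVec (Pi.single (.inl ()) 1) (.inl ()) - 1) ^ 2 = 0 := by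
      linear_combination h4 + (1 - M.mulVec (Pi.single (.inl ()) 1) (.inl ())) * h2
    have h7 := pow_eq_zero_iff (two_ne_zero) |>.1 h6
    linear_combination h7
  rw [h3, h5, one_smul]

theorem entry_inl (h2 : (2 : F) = 0)
    (M : Matrix (Unit ⊕ (Fin m ⊕ Fin m)) (Unit ⊕ (Fin m ⊕ Fin m)) F)
    (hM : ∀ u, Cfsg.quadFormOdd m F (M.mulVec u) = Cfsg.quadFormOdd m F u)
    (hsurj : Function.Surjective M.mulVec) :
    M (.inl ()) (.inl ()) = 1 ∧ ∀ k, M (.inr k) (.inl ()) = 0 := by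
  classical
  have h := col0 h2 M hM hsurj
  constructor
  · have h1 := congrFun h (.inl ())
    simpa [Matrix.mulVec_single_one] using h1
  · intro k
    have h1 := congrFun h (.inr k)
    simpa [Matrix.mulVec_single_one] using h1

theorem rs_mulVec (M : Matrix (Unit ⊕ (Fin m ⊕ Fin m)) (Unit ⊕ (Fin m ⊕ Fin m)) F)
    (h0 : ∀ k, M (.inr k) (.inl ()) = 0) (x : Unit ⊕ (Fin m ⊕ Fin m) → F) :
    rs (M.mulVec x) = (M.toBlocks₂₂).mulVec (rs x) := by
  ext k
  simp only [rs, Matrix.mulVec, dotProduct, Fintype.sum_sum_type, Matrix.toBlocks₂₂, Matrix.of_apply]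
  simp [h0]

theorem sp_mem_of_preserves (A : Matrix (Fin m ⊕ Fin m) (Fin m ⊕ Fin m) F)
    (hg : ∀ u v, Cfsg.sympForm m F (A.mulVec u) (A.mulVec v) = Cfsg.sympForm m F u v) :
    A ∈ Matrix.symplecticGroup (Fin m) F := by
  classical
  rw [SymplecticGroup.mem_iff']
  ext i j
  have h := hg (Pi.single i 1) (Pi.single j 1)
  unfold Cfsg.sympForm at h
  rw [← Matrix.vecMul_transpose, ← Matrix.dotProduct_mulVec, Matrix.mulVec_mulVec,
    Matrix.mulVec_mulVec] at h
  simpa [Matrix.mulVec_single_one, Matrix.mul_assoc] using h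

theorem blk_sp (h2 : (2 : F) = 0)
    (M : Matrix (Unit ⊕ (Fin m ⊕ Fin m)) (Unit ⊕ (Fin m ⊕ Fin m)) F)
    (hM : ∀ u, Cfsg.quadFormOdd m F (M.mulVec u) = Cfsg.quadFormOdd m F u)
    (hsurj : Function.Surjective M.mulVec) :
    M.toBlocks₂₂ ∈ Matrix.symplecticGroup (Fin m) F := by
  have h0 := (entry_inl h2 M hM hsurj).2
  apply sp_mem_of_preserves
  intro u v
  have hu : rs (Sum.elim (fun _ => 0) u : Unit ⊕ (Fin m ⊕ Fin m) → F) = u := rfl
  have hv : rs (Sum.elim (fun _ => 0) v : Unit ⊕ (Fin m ⊕ Fin m) → F) = v := rfl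
  have h1 := hpol h2 (M.mulVec (Sum.elim (fun _ => 0) u)) (M.mulVec (Sum.elim (fun _ => 0) v))
  rw [← Matrix.mulVec_add, hM, hM, hM, hpol h2, rs_mulVec M h0, rs_mulVec M h0, hu, hv] at h1
  linear_combination -h1

theorem blk_mul (M N : Matrix (Unit ⊕ (Fin m ⊕ Fin m)) (Unit ⊕ (Fin m ⊕ Fin m)) F)
    (h0 : ∀ k, M (.inr k) (.inl ()) = 0) :
    (M * N).toBlocks₂₂ = M.toBlocks₂₂ * N.toBlocks₂₂ := by
  ext i k
  simp only [Matrix.toBlocks₂₂, Matrix.of_apply, Matrix.mul_apply, Fintype.sum_sum_type]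
  simp [h0]

theorem blk_inj (h2 : (2 : F) = 0)
    (M : Matrix (Unit ⊕ (Fin m ⊕ Fin m)) (Unit ⊕ (Fin m ⊕ Fin m)) F)
    (hM : ∀ u, Cfsg.quadFormOdd m F (M.mulVec u) = Cfsg.quadFormOdd m F u)
    (hsurj : Function.Surjective M.mulVec) (hA : M.toBlocks₂₂ = 1) : M = 1 := by
  classical
  obtain ⟨h00, h0⟩ := entry_inl h2 M hM hsurj
  have hc : ∀ k, M (.inl ()) (.inr k) = 0 := by
    intro k
    have h1 := hM (Pi.single (.inr k) 1)
    have h3 : M.mulVec (Pi.single (.inr k) 1)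
        = Pi.single (.inr k) 1 + M (.inl ()) (.inr k) • Pi.single (.inl ()) 1 := by
      ext j
      rcases j with ⟨⟩ | j
      · simp [Matrix.mulVec_single_one]
      · have h4 := congrFun (congrFun hA j) k
        simp only [Matrix.toBlocks₂₂, Matrix.of_apply] at h4
        simp [Matrix.mulVec_single_one, h4, Matrix.one_apply, Pi.single_apply]
    have h5 : rs (M (.inl ()) (.inr k) • (Pi.single (.inl ()) 1 : Unit ⊕ (Fin m ⊕ Fin m) → F)) = 0 := by
      ext j
      simp [rs]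
    rw [h3, hpol h2, qf_smul, qf_e0, h5, sf_zero_right'] at h1
    have h6 : M (.inl ()) (.inr k) ^ 2 = 0 := by linear_combination h1
    exact (pow_eq_zero_iff two_ne_zero).1 h6
  ext i j
  rcases i with ⟨⟩ | i <;> rcases j with ⟨⟩ | j
  · simpa using h00
  · simpa using hc j
  · simpa using h0 i
  · have h4 := congrFun (congrFun hA i) j
    simpa [Matrix.toBlocks₂₂, Matrix.one_apply] using h4

theorem blk_surj [Fintype F] [CharP F 2] (h2 : (2 : F) = 0)
    (A : Matrix (Fin m ⊕ Fin m) (Fin m ⊕ Fin m) F) (hA : A ∈ Matrix.symplecticGroup (Fin m) F) :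
    ∃ M : Matrix (Unit ⊕ (Fin m ⊕ Fin m)) (Unit ⊕ (Fin m ⊕ Fin m)) F, IsUnit M ∧
      (∀ u, Cfsg.quadFormOdd m F (M.mulVec u) = Cfsg.quadFormOdd m F u) ∧ M.toBlocks₂₂ = A := by
  classical
  let io : (Fin m ⊕ Fin m → F) → (Unit ⊕ (Fin m ⊕ Fin m) → F) := fun v => Sum.elim (fun _ => 0) v
  have hio_add : ∀ v w, io (v + w) = io v + io w := by
    intro v w
    ext j
    rcases j with ⟨⟩ | j <;> simp [io]
  have hio_smul : ∀ (c : F) v, io (c • v) = c • io v := by
    intro c v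
    ext j
    rcases j with ⟨⟩ | j <;> simp [io]
  have hrs : ∀ v, rs (io v) = v := fun v => rfl
  let D : (Fin m ⊕ Fin m → F) → F := fun v =>
    Cfsg.quadFormOdd m F (io v) + Cfsg.quadFormOdd m F (io (A.mulVec v))
  have hD_add : ∀ v w, D (v + w) = D v + D w := by
    intro v w
    show Cfsg.quadFormOdd m F (io (v + w)) + Cfsg.quadFormOdd m F (io (A.mulVec (v + w)))
      = Cfsg.quadFormOdd m F (io v) + Cfsg.quadFormOdd m F (io (A.mulVec v))
        + (Cfsg.quadFormOdd m F (io w) + Cfsg.quadFormOdd m F (io (A.mulVec w)))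
    rw [hio_add, hpol h2, Matrix.mulVec_add, hio_add, hpol h2, hrs, hrs, hrs, hrs]
    have h1 := Cfsg.Agent.Helper6.sp_preserves ⟨A, hA⟩ v w
    simp only at h1
    rw [h1]
    linear_combination (Cfsg.sympForm m F v w) * h2
  have hD_smul : ∀ (c : F) v, D (c • v) = c ^ 2 * D v := by
    intro c v
    show Cfsg.quadFormOdd m F (io (c • v)) + Cfsg.quadFormOdd m F (io (A.mulVec (c • v)))
      = c ^ 2 * (Cfsg.quadFormOdd m F (io v) + Cfsg.quadFormOdd m F (io (A.mulVec v)))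
    rw [hio_smul, qf_smul, Matrix.mulVec_smul, hio_smul, qf_smul]
    ring
  let s : (Fin m ⊕ Fin m → F) →ₗ[F] F :=
    { toFun := fun v => (frobeniusEquiv F 2).symm (D v)
      map_add' := by
        intro v w
        rw [hD_add, map_add]
      map_smul' := by
        intro c v
        rw [hD_smul, map_mul, frobeniusEquiv_symm_pow, RingHom.id_apply, smul_eq_mul] }
  have hs2 : ∀ v, s v ^ 2 = D v := fun v => frobeniusEquiv_symm_pow_p F 2 (D v)
  let M : Matrix (Unit ⊕ (Fin m ⊕ Fin m)) (Unit ⊕ (Fin m ⊕ Fin m)) F :=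
    Matrix.fromBlocks (1 : Matrix Unit Unit F)
      (Matrix.of fun _ k => s (fun j => if k = j then 1 else 0))
      (0 : Matrix (Fin m ⊕ Fin m) Unit F) A
  have hMv : ∀ x : Unit ⊕ (Fin m ⊕ Fin m) → F, M.mulVec x
      = io (A.mulVec (rs x)) + (x (.inl ()) + s (rs x)) • Pi.single (.inl ()) 1 := by
    intro x
    have h1 := LinearMap.pi_apply_eq_sum_univ s (rs x)
    ext j
    rcases j with ⟨⟩ | j
    · simp only [M, Matrix.fromBlocks_mulVec, Sum.elim_inl, Pi.add_apply, Pi.smul_apply]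
      rw [h1]
      simp [Matrix.mulVec, dotProduct, io, rs, mul_comm]
    · simp only [M, Matrix.fromBlocks_mulVec, Sum.elim_inr, Pi.add_apply, Pi.smul_apply]
      simp [io, rs]
      rfl
  refine ⟨M, ?_, ?_, ?_⟩
  · rw [Matrix.isUnit_iff_isUnit_det]
    show IsUnit (Matrix.det (Matrix.fromBlocks (1 : Matrix Unit Unit F)
      (Matrix.of fun _ k => s (fun j => if k = j then 1 else 0))
      (0 : Matrix (Fin m ⊕ Fin m) Unit F) A))
    rw [Matrix.det_fromBlocks_zero₂₁, Matrix.det_one, one_mul]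
    exact SymplecticGroup.symplectic_det hA
  · intro x
    have h5 : rs ((x (.inl ()) + s (rs x)) • (Pi.single (.inl ()) 1 : Unit ⊕ (Fin m ⊕ Fin m) → F)) = 0 := by
      ext j
      simp [rs]
    rw [hMv, hpol h2, qf_smul, qf_e0, h5, sf_zero_right']
    have h6 := hs2 (rs x)
    have h7 : D (rs x) = Cfsg.quadFormOdd m F (io (rs x))
        + Cfsg.quadFormOdd m F (io (A.mulVec (rs x))) := rfl
    have h8 : Cfsg.quadFormOdd m F x = x (.inl ()) ^ 2 + Cfsg.quadFormOdd m F (io (rs x)) := by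
      rw [qf_apply, qf_apply]
      simp [io, rs]
    rw [h8]
    linear_combination h6 + h7 + (x (.inl ()) * s (rs x) + Cfsg.quadFormOdd m F (io (A.mulVec (rs x)))) * h2
  · exact Matrix.toBlocks_fromBlocks₂₂ _ _ _ _

end aux

/-- In characteristic 2, O_{2m+1}(q) is isomorphic to Sp_{2m}(q). -/
theorem result {F : Type*} [Field F] [Fintype F] [CharP F 2] (m : ℕ) : Nonempty (Cfsg.isometryGroup F (Cfsg.quadFormOdd m F) ≃* Matrix.symplecticGroup (Fin m) F) := by
  classical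
  have h2 : (2 : F) = 0 := CharTwo.two_eq_zero
  have hprop : ∀ g : Cfsg.isometryGroup F (Cfsg.quadFormOdd m F),
      (∀ u, Cfsg.quadFormOdd m F (((g : Matrix.GeneralLinearGroup (Unit ⊕ (Fin m ⊕ Fin m)) F)
        : Matrix (Unit ⊕ (Fin m ⊕ Fin m)) (Unit ⊕ (Fin m ⊕ Fin m)) F).mulVec u)
          = Cfsg.quadFormOdd m F u) ∧
      Function.Surjective (((g : Matrix.GeneralLinearGroup (Unit ⊕ (Fin m ⊕ Fin m)) F)
        : Matrix (Unit ⊕ (Fin m ⊕ Fin m)) (Unit ⊕ (Fin m ⊕ Fin m)) F).mulVec) := by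
    intro g
    constructor
    · intro u
      have h := g.2 u u
      simp only [Units.coeHom_apply] at h
      exact h
    · intro y
      refine ⟨((((g : Matrix.GeneralLinearGroup (Unit ⊕ (Fin m ⊕ Fin m)) F)⁻¹
        : Matrix.GeneralLinearGroup (Unit ⊕ (Fin m ⊕ Fin m)) F)
        : Matrix (Unit ⊕ (Fin m ⊕ Fin m)) (Unit ⊕ (Fin m ⊕ Fin m)) F)).mulVec y, ?_⟩
      rw [Matrix.mulVec_mulVec, ← Units.val_mul, mul_inv_cancel, Units.val_one, Matrix.one_mulVec]
  let φ : Cfsg.isometryGroup F (Cfsg.quadFormOdd m F) →* Matrix.symplecticGroup (Fin m) F :=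
    MonoidHom.mk' (fun g => ⟨((g : Matrix.GeneralLinearGroup (Unit ⊕ (Fin m ⊕ Fin m)) F)
        : Matrix (Unit ⊕ (Fin m ⊕ Fin m)) (Unit ⊕ (Fin m ⊕ Fin m)) F).toBlocks₂₂,
        blk_sp h2 _ (hprop g).1 (hprop g).2⟩) (by
      intro g h
      apply Subtype.ext
      exact blk_mul _ _ (entry_inl h2 _ (hprop g).1 (hprop g).2).2)
  refine ⟨MulEquiv.ofBijective φ ⟨?_, ?_⟩⟩
  · rw [injective_iff_map_eq_one]
    intro g hg
    have h1 : ((g : Matrix.GeneralLinearGroup (Unit ⊕ (Fin m ⊕ Fin m)) F)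
        : Matrix (Unit ⊕ (Fin m ⊕ Fin m)) (Unit ⊕ (Fin m ⊕ Fin m)) F).toBlocks₂₂ = 1 :=
      congrArg Subtype.val hg
    have h3 := blk_inj h2 _ (hprop g).1 (hprop g).2 h1
    apply Subtype.ext
    apply Units.ext
    exact h3
  · intro A
    obtain ⟨M, hMu, hMQ, hMA⟩ := blk_surj h2 A.1 A.2
    refine ⟨⟨hMu.unit, fun u v => ?_⟩, Subtype.ext hMA⟩
    exact hMQ u

end Cfsg.Agent.S0304
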