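import Cfsg.Statements.S0305
import Mathlib

set_option autoImplicit false
open Cfsg

namespace Cfsg.Agent.S0305

open Matrix

/-- 2x2 matrices over the index type `Fin 1 ⊕ Fin 1` -/
def mk2 {F : Type*} (a b c d : F) : Matrix (Fin 1 ⊕ Fin 1) (Fin 1 ⊕ Fin 1) F :=
  Matrix.of (fun i j => Sum.elim (fun _ => Sum.elim (fun _ => a) (fun _ => b) j)
    (fun _ => Sum.elim (fun _ => c) (fun _ => d) j) i)

theorem mk2_mul {F : Type*} [Field F] (a b c d a' b' c' d' : F) :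
    mk2 a b c d * mk2 a' b' c' d' =
      mk2 (a * a' + b * c') (a * b' + b * d') (c * a' + d * c') (c * b' + d * d') := by
  ext i j
  rcases i with i | i <;> rcases j with j | j <;>
    simp [mk2, Matrix.mul_apply, Fintype.sum_sum_type]

theorem mk2_one {F : Type*} [Field F] : mk2 (1 : F) 0 0 1 = 1 := by
  ext i j
  rcases i with i | i <;> rcases j with j | j <;>
    simp [mk2, Matrix.one_apply, Subsingleton.elim i j]

theorem mk2_eta {F : Type*} (M : Matrix (Fin 1 ⊕ Fin 1) (Fin 1 ⊕ Fin 1) F) :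
    M = mk2 (M (Sum.inl 0) (Sum.inl 0)) (M (Sum.inl 0) (Sum.inr 0)) (M (Sum.inr 0) (Sum.inl 0))
      (M (Sum.inr 0) (Sum.inr 0)) := by
  ext i j
  rcases i with i | i <;> rcases j with j | j <;>
    simp [mk2, Subsingleton.elim i 0, Subsingleton.elim j 0]

theorem mk2_mulVec {F : Type*} [Field F] (a b c d : F) (v : Fin 1 ⊕ Fin 1 → F) :
    Cfsg.quadFormPlus 1 F (mk2 a b c d *ᵥ v) =
      (a * v (Sum.inl 0) + b * v (Sum.inr 0)) * (c * v (Sum.inl 0) + d * v (Sum.inr 0)) := by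
  simp [Cfsg.quadFormPlus, mk2, Matrix.mulVec, dotProduct, Fintype.sum_sum_type]

/-- diagonal elements -/
def Dm {F : Type*} [Field F] (u : Fˣ) : GL (Fin 1 ⊕ Fin 1) F :=
  ⟨mk2 (u : F) 0 0 ((u⁻¹ : Fˣ) : F), mk2 ((u⁻¹ : Fˣ) : F) 0 0 (u : F), by
    rw [mk2_mul, ← mk2_one]; congr 1 <;> simp, by
    rw [mk2_mul, ← mk2_one]; congr 1 <;> simp⟩

/-- the swap -/
def Sm {F : Type*} [Field F] : GL (Fin 1 ⊕ Fin 1) F :=
  ⟨mk2 (0 : F) 1 1 0, mk2 (0 : F) 1 1 0, by
    rw [mk2_mul, ← mk2_one]; congr 1 <;> simp, by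
    rw [mk2_mul, ← mk2_one]; congr 1 <;> simp⟩

theorem Dm_mul {F : Type*} [Field F] (u v : Fˣ) : Dm u * Dm v = Dm (u * v) := by
  apply Units.ext
  show mk2 (u : F) 0 0 ((u⁻¹ : Fˣ) : F) * mk2 (v : F) 0 0 ((v⁻¹ : Fˣ) : F) =
    mk2 ((u * v : Fˣ) : F) 0 0 (((u * v)⁻¹ : Fˣ) : F)
  rw [mk2_mul]
  congr 1 <;> simp [mul_comm]

theorem Sm_mul_Sm {F : Type*} [Field F] : (Sm : GL (Fin 1 ⊕ Fin 1) F) * Sm = 1 := by
  apply Units.ext
  show mk2 (0 : F) 1 1 0 * mk2 (0 : F) 1 1 0 = 1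
  rw [mk2_mul, ← mk2_one]; congr 1 <;> simp

theorem Dm_mul_Sm {F : Type*} [Field F] (u : Fˣ) : Dm u * Sm = Sm * Dm u⁻¹ := by
  apply Units.ext
  show mk2 (u : F) 0 0 ((u⁻¹ : Fˣ) : F) * mk2 (0 : F) 1 1 0 =
    mk2 (0 : F) 1 1 0 * mk2 ((u⁻¹ : Fˣ) : F) 0 0 (((u⁻¹)⁻¹ : Fˣ) : F)
  rw [mk2_mul, mk2_mul]
  congr 1 <;> simp

theorem Dm_mem {F : Type*} [Field F] (u : Fˣ) :
    Dm u ∈ Cfsg.isometryGroup F (Cfsg.quadFormPlus 1 F) := by
  intro v _
  show Cfsg.quadFormPlus 1 F (mk2 (u : F) 0 0 ((u⁻¹ : Fˣ) : F) *ᵥ v) = Cfsg.quadFormPlus 1 F v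
  rw [mk2_mulVec]
  have h : (u : F) * ((u⁻¹ : Fˣ) : F) = 1 := by simp
  simp only [Cfsg.quadFormPlus, Finset.univ_unique, Fin.default_eq_zero, Finset.sum_singleton]
  linear_combination (v (Sum.inl 0) * v (Sum.inr 0)) * h

theorem Sm_mem {F : Type*} [Field F] :
    (Sm : GL (Fin 1 ⊕ Fin 1) F) ∈ Cfsg.isometryGroup F (Cfsg.quadFormPlus 1 F) := by
  intro v _
  show Cfsg.quadFormPlus 1 F (mk2 (0 : F) 1 1 0 *ᵥ v) = Cfsg.quadFormPlus 1 F v
  rw [mk2_mulVec]
  simp only [Cfsg.quadFormPlus, Finset.univ_unique, Fin.default_eq_zero, Finset.sum_singleton]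
  ring

/-- GO^+_2(q) is dihedral of order 2(q-1). -/
theorem result {F : Type*} [Field F] [Fintype F] {q : ℕ} (hF : Fintype.card F = q) : Nonempty (Cfsg.isometryGroup F (Cfsg.quadFormPlus 1 F) ≃* DihedralGroup (q - 1)) := by
  classical
  have hq2 : 2 ≤ q := by rw [← hF]; exact Fintype.one_lt_card
  have hcard : Nat.card Fˣ = q - 1 := by
    rw [Nat.card_units, Nat.card_eq_fintype_card, hF]
  obtain ⟨e⟩ : Nonempty (Multiplicative (ZMod (q - 1)) ≃* Fˣ) := by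
    rw [← hcard]
    exact ⟨zmodCyclicMulEquiv inferInstance⟩
  let E : ZMod (q - 1) → Fˣ := fun i => e (Multiplicative.ofAdd i)
  have hEadd : ∀ i j, E (i + j) = E i * E j := fun i j => by
    show e (Multiplicative.ofAdd (i + j)) = _
    rw [ofAdd_add, map_mul]
  have hEsub : ∀ i j, E (j - i) = (E i)⁻¹ * E j := fun i j => by
    show e (Multiplicative.ofAdd (j - i)) = _
    rw [ofAdd_sub, map_div, div_eq_mul_inv, mul_comm]
  have hEinj : Function.Injective E := fun i j h => by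
    have := e.injective h
    exact Multiplicative.ofAdd.injective this
  have hEsurj : Function.Surjective E := fun u => by
    obtain ⟨x, hx⟩ := e.surjective u
    exact ⟨Multiplicative.toAdd x, hx⟩
  let f : DihedralGroup (q - 1) → GL (Fin 1 ⊕ Fin 1) F := fun x =>
    match x with
    | DihedralGroup.r i => Dm (E i)
    | DihedralGroup.sr i => Sm * Dm (E i)
  have hmul : ∀ x y, f (x * y) = f x * f y := by
    rintro (i | i) (j | j)
    · show Dm (E (i + j)) = Dm (E i) * Dm (E j)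
      rw [Dm_mul, hEadd]
    · show Sm * Dm (E (j - i)) = Dm (E i) * (Sm * Dm (E j))
      rw [← mul_assoc, Dm_mul_Sm, mul_assoc, Dm_mul, hEsub]
    · show Sm * Dm (E (i + j)) = Sm * Dm (E i) * Dm (E j)
      rw [mul_assoc, Dm_mul, hEadd]
    · show Dm (E (j - i)) = Sm * Dm (E i) * (Sm * Dm (E j))
      rw [mul_assoc, ← mul_assoc (Dm (E i)), Dm_mul_Sm, mul_assoc Sm (Dm (E i)⁻¹), Dm_mul,
        ← mul_assoc, Sm_mul_Sm, one_mul, hEsub]
  have hmem : ∀ x, f x ∈ Cfsg.isometryGroup F (Cfsg.quadFormPlus 1 F) := by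
    rintro (i | i)
    · exact Dm_mem _
    · exact Subgroup.mul_mem _ Sm_mem (Dm_mem _)
  let Φ : DihedralGroup (q - 1) →* Cfsg.isometryGroup F (Cfsg.quadFormPlus 1 F) :=
    (MonoidHom.mk' f hmul).codRestrict _ hmem
  have hinj : Function.Injective Φ := by
    intro x y hxy
    have h1 : f x = f y := congrArg Subtype.val hxy
    have h2 : ((f x : GL (Fin 1 ⊕ Fin 1) F) : Matrix (Fin 1 ⊕ Fin 1) (Fin 1 ⊕ Fin 1) F) = f y := by
      rw [h1]
    rcases x with i | i <;> rcases y with j | j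
    · have h3 := congrFun (congrFun h2 (Sum.inl 0)) (Sum.inl 0)
      have h4 : ((E i : Fˣ) : F) = E j := h3
      rw [hEinj (Units.ext h4)]
    · exfalso
      have h3 := congrFun (congrFun h2 (Sum.inl 0)) (Sum.inl 0)
      have h4 : ((E i : Fˣ) : F) = (mk2 (0 : F) 1 1 0 * mk2 ((E j : Fˣ) : F) 0 0 (((E j)⁻¹ : Fˣ) : F))
          (Sum.inl 0) (Sum.inl 0) := h3
      rw [mk2_mul] at h4
      simp [mk2] at h4
    · exfalso
      have h3 := congrFun (congrFun h2 (Sum.inl 0)) (Sum.inl 0)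
      have h4 : (mk2 (0 : F) 1 1 0 * mk2 ((E i : Fˣ) : F) 0 0 (((E i)⁻¹ : Fˣ) : F))
          (Sum.inl 0) (Sum.inl 0) = ((E j : Fˣ) : F) := h3
      rw [mk2_mul] at h4
      simp [mk2] at h4
      exact (E j).ne_zero h4.symm
    · have h3 := congrFun (congrFun h2 (Sum.inr 0)) (Sum.inl 0)
      have h4 : (mk2 (0 : F) 1 1 0 * mk2 ((E i : Fˣ) : F) 0 0 (((E i)⁻¹ : Fˣ) : F))
          (Sum.inr 0) (Sum.inl 0) = (mk2 (0 : F) 1 1 0 * mk2 ((E j : Fˣ) : F) 0 0
            (((E j)⁻¹ : Fˣ) : F)) (Sum.inr 0) (Sum.inl 0) := h3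
      rw [mk2_mul, mk2_mul] at h4
      simp [mk2] at h4
      rw [hEinj (Units.ext h4)]
  have hsurj : Function.Surjective Φ := by
    rintro ⟨g, hg⟩
    obtain ⟨M, hM⟩ : ∃ M : Matrix (Fin 1 ⊕ Fin 1) (Fin 1 ⊕ Fin 1) F, M = (g : Matrix _ _ F) :=
      ⟨_, rfl⟩
    have hpres : ∀ v, Cfsg.quadFormPlus 1 F (M *ᵥ v) = Cfsg.quadFormPlus 1 F v := by
      intro v
      rw [hM]
      exact hg v v
    rw [mk2_eta M] at hpres
    set a := M (Sum.inl 0) (Sum.inl 0) with ha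
    set b := M (Sum.inl 0) (Sum.inr 0) with hb
    set c := M (Sum.inr 0) (Sum.inl 0) with hc
    set d := M (Sum.inr 0) (Sum.inr 0) with hd
    have h10 := hpres (Sum.elim (fun _ => 1) (fun _ => 0))
    have h01 := hpres (Sum.elim (fun _ => 0) (fun _ => 1))
    have h11 := hpres (Sum.elim (fun _ => 1) (fun _ => 1))
    rw [mk2_mulVec] at h10 h01 h11
    simp [Cfsg.quadFormPlus] at h10 h01 h11
    have hMeq : (g : Matrix _ _ F) = mk2 a b c d := by rw [← hM]; exact mk2_eta M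
    have hbd : b * d = 0 := mul_eq_zero.mpr h01
    by_cases ha0 : a = 0
    · have hbc : b * c = 1 := by rw [ha0] at h11; linear_combination h11 - hbd
      have hb0 : b ≠ 0 := left_ne_zero_of_mul_eq_one hbc
      have hc0 : c ≠ 0 := right_ne_zero_of_mul_eq_one hbc
      have hd0 : d = 0 := by
        rcases h01 with h | h
        · exact absurd h hb0
        · exact h
      obtain ⟨i, hi⟩ := hEsurj (Units.mk0 c hc0)
      refine ⟨DihedralGroup.sr i, ?_⟩
      apply Subtype.ext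
      apply Units.ext
      show mk2 (0 : F) 1 1 0 * mk2 ((E i : Fˣ) : F) 0 0 (((E i)⁻¹ : Fˣ) : F) = (g : Matrix _ _ F)
      rw [hMeq, mk2_mul, hi, ha0, hd0]
      congr 1
      · simp
      · simp
        exact (eq_inv_of_mul_eq_one_left hbc).symm
      · simp
      · simp
    · have hc0 : c = 0 := by
        rcases h10 with h | h
        · exact absurd h ha0
        · exact h
      have had : a * d = 1 := by rw [hc0] at h11; linear_combination h11 - hbd
      have hd0 : d ≠ 0 := right_ne_zero_of_mul_eq_one had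
      have hb0 : b = 0 := by
        rcases h01 with h | h
        · exact h
        · exact absurd h hd0
      obtain ⟨i, hi⟩ := hEsurj (Units.mk0 a ha0)
      refine ⟨DihedralGroup.r i, ?_⟩
      apply Subtype.ext
      apply Units.ext
      show mk2 ((E i : Fˣ) : F) 0 0 (((E i)⁻¹ : Fˣ) : F) = (g : Matrix _ _ F)
      rw [hMeq, hi, hb0, hc0]
      congr 1
      simp
      exact (eq_inv_of_mul_eq_one_right had).symm
  exact ⟨(MulEquiv.ofBijective Φ ⟨hinj, hsurj⟩).symm⟩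

end Cfsg.Agent.S0305
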