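import Cfsg.Statements.S0307
import Mathlib

set_option autoImplicit false
open Cfsg

namespace Cfsg.Agent.S0307

/-- PSL_n(q) is normal in PGL_n(q) with cyclic quotient of order gcd(n, q-1): the image of the natural map PSL_n → PGL_n is the kernel of a surjective homomorphism onto the cyclic group of that order. -/
theorem result {F : Type*} [Field F] [Fintype F] {q : ℕ} (hF : Fintype.card F = q) (n : ℕ) (hn : 1 ≤ n) : ∃ g : Matrix.ProjGenLinGroup (Fin n) F →* Multiplicative (ZMod (Nat.gcd n (q - 1))), Function.Surjective g ∧ g.ker = (Matrix.ProjectiveSpecialLinearGroup.toPGL : Matrix.ProjectiveSpecialLinearGroup (Fin n) F →* Matrix.ProjGenLinGroup (Fin n) F).range := by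
  classical
  subst hF
  haveI : Nonempty (Fin n) := ⟨⟨0, hn⟩⟩
  obtain ⟨K, hK⟩ : ∃ K : Subgroup Fˣ, K = (powMonoidHom n : Fˣ →* Fˣ).range := ⟨_, rfl⟩
  have hcyc : IsCyclic (Fˣ ⧸ K) :=
    isCyclic_of_surjective (QuotientGroup.mk' K) (QuotientGroup.mk'_surjective K)
  have hcard : Nat.card (Fˣ ⧸ K) = Nat.gcd n (Fintype.card F - 1) := by
    have h1 := IsCyclic.index_powMonoidHom_range (G := Fˣ) n
    rw [← hK, Subgroup.index] at h1
    rw [h1, Nat.card_units, Nat.card_eq_fintype_card, Nat.gcd_comm]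
  rw [← hcard]
  have hsc : ((QuotientGroup.mk' K).comp Matrix.GeneralLinearGroup.det).comp
      (Matrix.GeneralLinearGroup.scalar (Fin n)) = 1 := by
    ext u
    simp only [MonoidHom.comp_apply, MonoidHom.one_apply]
    rw [Matrix.GeneralLinearGroup.det_scalar, QuotientGroup.mk'_apply, QuotientGroup.eq_one_iff, hK]
    exact ⟨u, by simp⟩
  obtain ⟨δ, hδ⟩ : ∃ δ : Matrix.ProjGenLinGroup (Fin n) F →* Fˣ ⧸ K,
      ∀ g : Matrix.GeneralLinearGroup (Fin n) F, δ (Matrix.ProjGenLinGroup.mk g) =
        QuotientGroup.mk' K (Matrix.GeneralLinearGroup.det g) :=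
    ⟨Matrix.ProjGenLinGroup.lift _ hsc, fun g => rfl⟩
  refine ⟨(zmodCyclicMulEquiv hcyc).symm.toMonoidHom.comp δ, ?_, ?_⟩
  · intro z
    obtain ⟨u, hu⟩ := QuotientGroup.mk'_surjective K (zmodCyclicMulEquiv hcyc z)
    obtain ⟨A, hA⟩ := Matrix.GeneralLinearGroup.det_surjective (n := Fin n) u
    refine ⟨Matrix.ProjGenLinGroup.mk A, ?_⟩
    rw [MonoidHom.comp_apply, hδ, hA, hu]
    exact (zmodCyclicMulEquiv hcyc).symm_apply_apply z
  · ext x
    rw [MonoidHom.mem_ker, MonoidHom.comp_apply]
    have hiff : (zmodCyclicMulEquiv hcyc).symm.toMonoidHom (δ x) = 1 ↔ δ x = 1 :=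
      MulEquiv.map_eq_one_iff _
    rw [hiff]
    induction x using Matrix.ProjGenLinGroup.induction_on with
    | mk g =>
      rw [hδ, QuotientGroup.mk'_apply, QuotientGroup.eq_one_iff, hK]
      constructor
      · rintro ⟨v, hv⟩
        have hv' : v ^ n = Matrix.GeneralLinearGroup.det g := hv
        have hdet : ((v⁻¹ : Fˣ) : F) ^ n * (g : Matrix (Fin n) (Fin n) F).det = 1 := by
          have h2 := congrArg Units.val hv'
          rw [Matrix.GeneralLinearGroup.val_det_apply] at h2
          rw [← h2, ← Units.val_pow_eq_pow_val, ← Units.val_mul, ← mul_pow, inv_mul_cancel, one_pow,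
            Units.val_one]
        obtain ⟨A, hA⟩ : ∃ A : Matrix.SpecialLinearGroup (Fin n) F,
            (A : Matrix (Fin n) (Fin n) F) = ((v⁻¹ : Fˣ) : F) • (g : Matrix (Fin n) (Fin n) F) := by
          refine ⟨⟨((v⁻¹ : Fˣ) : F) • (g : Matrix (Fin n) (Fin n) F), ?_⟩, rfl⟩
          rw [Matrix.det_smul, Fintype.card_fin, hdet]
        refine ⟨QuotientGroup.mk A, ?_⟩
        show Matrix.ProjectiveSpecialLinearGroup.toPGL (QuotientGroup.mk A) = _
        rw [Matrix.ProjectiveSpecialLinearGroup.toPGL_mk, Matrix.ProjGenLinGroup.mk_eq_mk_iff]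
        refine ⟨v, Units.ext ?_⟩
        show (A : Matrix (Fin n) (Fin n) F) * Matrix.scalar (Fin n) (v : F) =
          (g : Matrix (Fin n) (Fin n) F)
        rw [hA, Matrix.scalar_apply, ← Matrix.smul_one_eq_diagonal, Matrix.mul_smul, Matrix.mul_one,
          smul_smul, ← Units.val_mul, mul_inv_cancel, Units.val_one, one_smul]
      · rintro ⟨y, hy⟩
        induction y using QuotientGroup.induction_on with
        | H A =>
          rw [Matrix.ProjectiveSpecialLinearGroup.toPGL_mk, Matrix.ProjGenLinGroup.mk_eq_mk_iff] at hy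
          obtain ⟨u, rfl⟩ := hy
          refine ⟨u, ?_⟩
          have hA1 : Matrix.GeneralLinearGroup.det (Matrix.SpecialLinearGroup.toGL A) = 1 := by
            apply Units.ext
            rw [Matrix.GeneralLinearGroup.val_det_apply]
            exact A.det_coe
          rw [map_mul, Matrix.GeneralLinearGroup.det_scalar, Fintype.card_fin, hA1, one_mul]
          rfl

end Cfsg.Agent.S0307
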