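import Cfsg.Statements.S0314
import Cfsg.Agent.Helper3.BNPair

set_option autoImplicit false
open Cfsg

namespace Cfsg.Agent.S0314

/-- Distinct sets of distinguished generators give distinct standard parabolic subgroups. -/
theorem result {G : Type*} [Group G] (P : Cfsg.BNPair G) {J K : Set G}
    (hJ : J ⊆ P.S) (hK : K ⊆ P.S) (h : P.parabolic J = P.parabolic K) : J = K := by
  apply Set.Subset.antisymm
  · intro j hj
    apply Cfsg.Agent.Helper3.mem_of_mem_parabolic P hK (hJ hj)
    rw [← h]
    exact (le_sup_right : Subgroup.closure J ≤ P.parabolic J) (Subgroup.subset_closure hj)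
  · intro k hk
    apply Cfsg.Agent.Helper3.mem_of_mem_parabolic P hJ (hK hk)
    rw [h]
    exact (le_sup_right : Subgroup.closure K ≤ P.parabolic K) (Subgroup.subset_closure hk)

end Cfsg.Agent.S0314
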