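import Cfsg.Statements.S0316
import Cfsg.Agent.Helper3.BNPair

set_option autoImplicit false
open Cfsg

namespace Cfsg.Agent.S0316

/-- The map `J ↦ P_J` is a lattice isomorphism from the power set of the set of distinguished generators onto the
subgroups containing `B`. -/
theorem result {G : Type*} [Group G] (P : Cfsg.BNPair G) :
    ∃ e : Set P.S ≃o {M : Subgroup G // P.B ≤ M},
      ∀ J : Set P.S, ((e J : {M : Subgroup G // P.B ≤ M}) : Subgroup G) = P.parabolic (Subtype.val '' J) := by
  let f : Set P.S → {M : Subgroup G // P.B ≤ M} := fun J =>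
    ⟨P.parabolic (Subtype.val '' J), Cfsg.Agent.Helper3.B_le_parabolic P _⟩
  have hsub : ∀ J : Set P.S, Subtype.val '' J ⊆ P.S := by
    rintro J _ ⟨x, _, rfl⟩; exact x.2
  have hle : ∀ J K : Set P.S, f J ≤ f K ↔ J ≤ K := by
    intro J K
    constructor
    · intro h j hj
      have h0 : (j : G) ∈ P.parabolic (Subtype.val '' J) :=
        (le_sup_right : Subgroup.closure (Subtype.val '' J) ≤ P.parabolic (Subtype.val '' J))
          (Subgroup.subset_closure ⟨j, hj, rfl⟩)
      have h1 : (j : G) ∈ P.parabolic (Subtype.val '' K) := h h0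
      obtain ⟨k, hk, hkj⟩ := Cfsg.Agent.Helper3.mem_of_mem_parabolic P (hsub K) j.2 h1
      have e : k = j := Subtype.ext hkj
      rw [← e]; exact hk
    · intro h
      exact Cfsg.Agent.Helper3.parabolic_mono P (Set.image_mono h)
  have hinj : Function.Injective f := by
    intro J K h
    exact le_antisymm ((hle J K).1 (le_of_eq h)) ((hle K J).1 (le_of_eq h.symm))
  have hsurj : Function.Surjective f := by
    rintro ⟨M, hM⟩
    refine ⟨{s : P.S | (s : G) ∈ M}, ?_⟩
    apply Subtype.ext
    show P.parabolic (Subtype.val '' {s : P.S | (s : G) ∈ M}) = M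
    have e : Subtype.val '' {s : P.S | (s : G) ∈ M} = P.S ∩ (M : Set G) := by
      ext x; constructor
      · rintro ⟨s, hs, rfl⟩; exact ⟨s.2, hs⟩
      · rintro ⟨hx, hxM⟩; exact ⟨⟨x, hx⟩, hxM, rfl⟩
    rw [e]; exact (Cfsg.Agent.Helper3.eq_parabolic_of_le P hM).symm
  refine ⟨{ toEquiv := Equiv.ofBijective f ⟨hinj, hsurj⟩, map_rel_iff' := ?_ }, ?_⟩
  · intro J K; exact hle J K
  · intro J; rfl

end Cfsg.Agent.S0316
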