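import Cfsg.Statements.S0319
import Cfsg.Agent.Helper3.BNPair

set_option autoImplicit false
open Cfsg Cfsg.Agent.Helper3

namespace Cfsg.Agent.S0319

open scoped Pointwise

/-- Simplicity criterion for groups with a (B,N)-pair: if the distinguished generators admit no
splitting into two non-empty mutually commuting parts, `B` is solvable, `G` is perfect and the intersection
of all conjugates of `B` is trivial, then `G` is simple. -/
theorem result {G : Type*} [Group G] [Nontrivial G]
    (P : Cfsg.BNPair G) (hirr : P.Irreducible) (hsolv : Group.IsSolvable P.B) (hperf : commutator G = ⊤)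
    (hcore : P.B.normalCore = ⊥) : IsSimpleGroup G := by
  refine { exists_pair_ne := exists_pair_ne G, eq_bot_or_eq_top_of_normal := fun H hH => ?_ }
  by_contra hcon
  have hbot : H ≠ ⊥ := fun h => hcon (Or.inl h)
  have htop : H ≠ ⊤ := fun h => hcon (Or.inr h)
  have hHn : H.Normal := hH
  have hBM : P.B ≤ H ⊔ P.B := le_sup_right
  have hHM : H ≤ H ⊔ P.B := le_sup_left
  have hMeq := eq_parabolic_of_le P hBM
  have hXS : P.S ∩ ((H ⊔ P.B : Subgroup G) : Set G) ⊆ P.S := Set.inter_subset_left
  have hclaim : ¬ ((P.S ∩ ((H ⊔ P.B : Subgroup G) : Set G)).Nonempty ∧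
      (P.S \ (P.S ∩ ((H ⊔ P.B : Subgroup G) : Set G))).Nonempty) := by
    rintro ⟨hne, hne'⟩
    obtain ⟨s, hs, s', hs', hnot⟩ := hirr _ hXS hne hne'
    apply hnot
    have hsS := hXS hs
    have hs'S := hs'.1
    have hsN := P.subset hsS
    have hs'N := P.subset hs'S
    have hxb : toW P s ∈ Sb P := ⟨s, hsS, rfl⟩
    have hx'b : toW P s' ∈ Sb P := ⟨s', hs'S, rfl⟩
    have hs'M : s' ∉ H ⊔ P.B := fun h => hs'.2 ⟨hs'S, h⟩
    have hxne : toW P s ≠ toW P s' := by
      intro h
      have e := toW_injOn_S P hsS hs'S h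
      rw [e] at hs
      exact hs'.2 hs
    have hlx : len (Sb P) (toW P s) = 1 :=
      len_of_mem (Sb_inv P) (Sb_gen P) hxb (Sb_ne_one P _ hxb)
    have hlx' : len (Sb P) (toW P s') = 1 :=
      len_of_mem (Sb_inv P) (Sb_gen P) hx'b (Sb_ne_one P _ hx'b)
    have hl2 : len (Sb P) (toW P s' * toW P s) = 2 := by
      have h1 := len_mul_ne P hx'b (toW P s)
      have h2 := len_mul_le (Sb_inv P) (Sb_gen P) hx'b (toW P s)
      have h3 : len (Sb P) (toW P s' * toW P s) ≠ 0 := by
        intro h0
        have h4 := len_eq_zero (Sb_inv P) (Sb_gen P) h0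
        have h5 : toW P s' = (toW P s)⁻¹ := eq_inv_of_mul_eq_one_left h4
        rw [inv_eq_self_of_mem (Sb_inv P) hxb] at h5
        exact hxne h5.symm
      omega
    have hl2' : len (Sb P) (toW P s * toW P s') = 2 := by
      have h1 := len_mul_ne P hxb (toW P s')
      have h2 := len_mul_le (Sb_inv P) (Sb_gen P) hxb (toW P s')
      have h3 : len (Sb P) (toW P s * toW P s') ≠ 0 := by
        intro h0
        have h4 := len_eq_zero (Sb_inv P) (Sb_gen P) h0
        have h5 : toW P s = (toW P s')⁻¹ := eq_inv_of_mul_eq_one_left h4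
        rw [inv_eq_self_of_mem (Sb_inv P) hx'b] at h5
        exact hxne h5
      omega
    -- an element of `H` in `C x`
    have hsM : s ∈ ((H ⊔ P.B : Subgroup G) : Set G) := hs.2
    rw [Subgroup.normal_mul] at hsM
    obtain ⟨h, hh, b, hb, hhb⟩ := hsM
    have hhC : h ∈ C P (toW P s) := by
      rw [mem_C_toW P hsN]
      exact ⟨1, P.B.one_mem, b⁻¹, P.B.inv_mem hb, by rw [← hhb]; group⟩
    have hgH : s' * h * s'⁻¹ ∈ H := hH.conj_mem h hh s'
    have hgM : s' * h * s'⁻¹ ∈ H ⊔ P.B := hHM hgH
    have hs'inv : s'⁻¹ ∈ C P (toW P s') := by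
      have := C_inv P (self_mem_C P hs'N)
      rwa [inv_eq_self_of_mem (Sb_inv P) hx'b] at this
    have hg1 : s' * h * s'⁻¹ ∈ C P (toW P s' * toW P s) * C P (toW P s') := by
      rw [← C_mul_of_le' P hx'b (w := toW P s) (by omega)]
      exact Set.mul_mem_mul (Set.mul_mem_mul (self_mem_C P hs'N) hhC) hs'inv
    have hcomm : toW P s' * toW P s = toW P s * toW P s' := by
      rcases T3_right P hx'b _ hg1 with hg2 | hg2
      · -- length of x' x x'
        have h1 := len_mul_ne P hx'b (toW P s * toW P s')
        have h2 := len_mul_le (Sb_inv P) (Sb_gen P) hx'b (toW P s * toW P s')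
        have h3 := len_le_mul (Sb_inv P) (Sb_gen P) hx'b (toW P s * toW P s')
        by_cases h4 : len (Sb P) (toW P s' * (toW P s * toW P s')) = 3
        · exfalso
          have hred : Red (Sb P) [toW P s', toW P s, toW P s'] := by
            refine ⟨IsWordIn.cons hx'b (IsWordIn.cons hxb (IsWordIn.cons hx'b IsWordIn.nil)), ?_⟩
            simpa using h4
          have hl := red_letters_subset P hBM _ hred
            ⟨_, by simpa [mul_assoc] using hg2, hgM⟩
          exact hs'M (hl (toW P s') (by simp) (self_mem_C P hs'N))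
        · have hlt : len (Sb P) (toW P s' * [toW P s, toW P s'].prod) <
              len (Sb P) [toW P s, toW P s'].prod := by
            simp only [List.prod_cons, List.prod_nil, mul_one]
            omega
          have hred : Red (Sb P) [toW P s, toW P s'] := by
            refine ⟨IsWordIn.cons hxb (IsWordIn.cons hx'b IsWordIn.nil), ?_⟩
            simpa using hl2'
          obtain ⟨L1, y, L2, hL, hex⟩ := exchange P hx'b _ hred hlt
          cases L1 with
          | nil =>
            exfalso
            simp only [List.nil_append, List.cons.injEq] at hL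
            simp only [List.prod_nil, mul_one, one_mul] at hex
            exact hxne (hL.1.trans hex.symm)
          | cons a L1 =>
            cases L1 with
            | nil =>
              simp only [List.cons_append, List.nil_append, List.cons.injEq] at hL
              simp only [List.prod_cons, List.prod_nil, mul_one] at hex
              rw [← hL.1, ← hL.2.1] at hex
              exact hex
            | cons c L1 =>
              exfalso
              simp at hL
      · exfalso
        have hred : Red (Sb P) [toW P s', toW P s] := by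
          refine ⟨IsWordIn.cons hx'b (IsWordIn.cons hxb IsWordIn.nil), ?_⟩
          simpa using hl2
        have hl := red_letters_subset P hBM _ hred ⟨_, by simpa using hg2, hgM⟩
        exact hs'M (hl (toW P s') (by simp) (self_mem_C P hs'N))
    have hone : toW P (s * s' * s⁻¹ * s'⁻¹) = 1 := by
      rw [toW_mul P (P.N.mul_mem (P.N.mul_mem hsN hs'N) (P.N.inv_mem hsN)) (P.N.inv_mem hs'N),
        toW_mul P (P.N.mul_mem hsN hs'N) (P.N.inv_mem hsN), toW_mul P hsN hs'N, toW_inv P hsN,
        toW_inv P hs'N, ← hcomm]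
      group
    exact (toW_eq_one_iff P (P.N.mul_mem (P.N.mul_mem (P.N.mul_mem hsN hs'N) (P.N.inv_mem hsN))
      (P.N.inv_mem hs'N))).1 hone
  by_cases hX : (P.S ∩ ((H ⊔ P.B : Subgroup G) : Set G)).Nonempty
  · -- then S ⊆ M and M = ⊤
    have hS : P.S ⊆ ((H ⊔ P.B : Subgroup G) : Set G) := by
      intro s hs
      by_contra hsM
      exact hclaim ⟨hX, ⟨s, hs, fun h => hsM h.2⟩⟩
    have hN : P.N ≤ H ⊔ P.B := by
      rw [← P.closure_sup]
      exact sup_le ((Subgroup.closure_le _).2 hS) (inf_le_left.trans hBM)
    have hM : H ⊔ P.B = ⊤ := by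
      rw [eq_top_iff, ← P.sup_eq_top]
      exact sup_le hBM hN
    apply htop
    -- G ⧸ H is solvable and perfect
    let f : P.B →* G ⧸ H := (QuotientGroup.mk' H).comp P.B.subtype
    have hf : Function.Surjective f := by
      intro q
      obtain ⟨g, rfl⟩ := QuotientGroup.mk_surjective q
      have hg : g ∈ ((H ⊔ P.B : Subgroup G) : Set G) := by rw [hM]; trivial
      rw [Subgroup.normal_mul] at hg
      obtain ⟨h, hh, b, hb, rfl⟩ := hg
      refine ⟨⟨b, hb⟩, ?_⟩
      show (QuotientGroup.mk b : G ⧸ H) = QuotientGroup.mk (h * b)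
      rw [QuotientGroup.eq]
      have e : b⁻¹ * (h * b) = b⁻¹ * h * b⁻¹⁻¹ := by group
      rw [e]
      exact hH.conj_mem h hh b⁻¹
    have hsolvQ : Group.IsSolvable (G ⧸ H) := Group.isSolvable_of_surjective hf
    have hperf' : commutator (G ⧸ H) = ⊤ := by
      rw [commutator_def, ← Subgroup.map_top_of_surjective (QuotientGroup.mk' H)
        (QuotientGroup.mk'_surjective H), ← Subgroup.map_commutator, ← commutator_def, hperf]
    by_contra hne
    have hntQ : Nontrivial (G ⧸ H) := by
      by_contra hnt
      rw [not_nontrivial_iff_subsingleton] at hnt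
      exact hne (QuotientGroup.subgroup_eq_top_of_subsingleton H hnt)
    exact (ne_of_lt (Group.IsSolvable.commutator_lt_top_of_nontrivial (G ⧸ H))) hperf'
  · -- then M = B, so H ≤ B
    apply hbot
    have hM : H ⊔ P.B = P.B := by
      rw [hMeq, Set.not_nonempty_iff_eq_empty.1 hX]
      show P.B ⊔ Subgroup.closure ∅ = P.B
      rw [Subgroup.closure_empty, sup_bot_eq]
    have hHB : H ≤ P.B := by rw [← hM]; exact hHM
    have h1 : H ≤ P.B.normalCore := (Subgroup.normal_le_normalCore).2 hHB
    rw [hcore] at h1
    exact le_bot_iff.1 h1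

end Cfsg.Agent.S0319
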