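import Cfsg.Statements.S0320
import Cfsg.Agent.Helper3.WordProp

set_option autoImplicit false
open Cfsg Cfsg.Agent.Helper3

namespace Cfsg.Agent.S0320

/-- The Weyl group `W = N / (B ⊓ N)` of a (B,N)-pair, with its distinguished involutions, is a Coxeter system. -/
theorem result {G : Type*} [Group G] (P : Cfsg.BNPair G)
    [hN : ((P.B ⊓ P.N).subgroupOf P.N).Normal] :
    ∃ (M : CoxeterMatrix P.S) (cs : CoxeterSystem M (P.N ⧸ (P.B ⊓ P.N).subgroupOf P.N)),
      ∀ s : P.S, cs.simple s = QuotientGroup.mk (⟨(s : G), P.subset s.2⟩ : P.N) := by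
  classical
  have hxS : ∀ s : P.S, toW P s ∈ Sb P := fun s => ⟨s, s.2, rfl⟩
  have hxinv : ∀ s : P.S, (toW P s)⁻¹ = toW P s := fun s =>
    inv_eq_self_of_mem (Sb_inv P) (hxS s)
  let M : CoxeterMatrix P.S :=
    { M := fun s s' => orderOf (toW P s * toW P s')
      isSymm := by
        apply Matrix.IsSymm.ext
        intro s s'
        show orderOf (toW P s' * toW P s) = orderOf (toW P s * toW P s')
        rw [← orderOf_inv (toW P s * toW P s'), mul_inv_rev, hxinv, hxinv]
      diagonal := by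
        intro s
        show orderOf (toW P s * toW P s) = 1
        rw [Sb_inv P _ (hxS s), orderOf_one]
      off_diagonal := by
        intro s s' hss' h
        have h1 : toW P s * toW P s' = 1 := orderOf_eq_one_iff.1 h
        have h2 : toW P s = (toW P s')⁻¹ := eq_inv_of_mul_eq_one_left h1
        rw [hxinv] at h2
        exact hss' (Subtype.ext (toW_injOn_S P s.2 s'.2 h2)) }
  have hlift : M.IsLiftable (fun s : P.S => toW P s) := fun s s' => pow_orderOf_eq_one _
  let φ : M.Group →* Weyl P := M.toCoxeterSystem.lift ⟨fun s : P.S => toW P s, hlift⟩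
  have hφ : ∀ s : P.S, φ (M.simple s) = toW P s := fun s =>
    M.toCoxeterSystem.lift_apply_simple hlift s
  let f : Weyl P → M.Group := fun w =>
    if h : w ∈ Sb P then M.simple ⟨Classical.choose h, (Classical.choose_spec h).1⟩ else 1
  have hf : ∀ s : P.S, f (toW P s) = M.simple s := by
    intro s
    have h : toW P s ∈ Sb P := hxS s
    show (if h : toW P s ∈ Sb P then
      M.simple ⟨Classical.choose h, (Classical.choose_spec h).1⟩ else 1) = _
    rw [dif_pos h]
    congr 1
    exact Subtype.ext (toW_injOn_S P (Classical.choose_spec h).1 s.2 (Classical.choose_spec h).2)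
  have hfsq : ∀ c ∈ Sb P, f c * f c = 1 := by
    rintro _ ⟨s, hs, rfl⟩
    rw [hf ⟨s, hs⟩]
    exact M.toCoxeterSystem.simple_mul_simple_self ⟨s, hs⟩
  have hbraid : ∀ c ∈ Sb P, ∀ c' ∈ Sb P, c ≠ c' → orderOf (c * c') ≠ 0 →
      ((altW c c' (orderOf (c * c'))).map f).prod =
        ((altW c' c (orderOf (c * c'))).map f).prod := by
    rintro _ ⟨s, hs, rfl⟩ _ ⟨s', hs', rfl⟩ _ _
    rw [altW_map, altW_map, hf ⟨s, hs⟩, hf ⟨s', hs'⟩]
    have hsq1 : M.simple ⟨s, hs⟩ * M.simple ⟨s, hs⟩ = 1 :=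
      M.toCoxeterSystem.simple_mul_simple_self ⟨s, hs⟩
    have hsq2 : M.simple ⟨s', hs'⟩ * M.simple ⟨s', hs'⟩ = 1 :=
      M.toCoxeterSystem.simple_mul_simple_self ⟨s', hs'⟩
    have h1 := (altW_prod_mul_inv hsq1 hsq2 (orderOf (toW P s * toW P s'))).1
    have h2 : (M.simple ⟨s, hs⟩ * M.simple ⟨s', hs'⟩) ^ (orderOf (toW P s * toW P s')) = 1 :=
      M.toCoxeterSystem.simple_mul_simple_pow ⟨s, hs⟩ ⟨s', hs'⟩
    rw [h2] at h1
    exact mul_inv_eq_one.1 h1
  have hexch : ∀ s ∈ Sb P, ∀ L, Red (Sb P) L → len (Sb P) (s * L.prod) < len (Sb P) L.prod →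
      ∃ L1 x L2, L = L1 ++ x :: L2 ∧ s * L1.prod = L1.prod * x :=
    fun s hs L hL hlt => exchange P hs L hL hlt
  let g : Weyl P →* M.Group := MonoidHom.mk' (gmap (Sb_inv P) (Sb_gen P) f)
    (gmap_mul (Sb_inv P) (Sb_gen P) hexch f hfsq (fun s hs w => len_mul_ne P hs w) hbraid)
  have hgx : ∀ s : P.S, g (toW P s) = M.simple s := by
    intro s
    have hred : Red (Sb P) [toW P s] :=
      ⟨IsWordIn.cons (hxS s) IsWordIn.nil, by
        simpa using len_of_mem (Sb_inv P) (Sb_gen P) (hxS s) (Sb_ne_one P _ (hxS s))⟩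
    have h3 := gmap_red (Sb_inv P) (Sb_gen P) hexch f hbraid hred
    simp only [List.prod_cons, List.prod_nil, mul_one, List.map_cons, List.map_nil] at h3
    rw [← hf s]; exact h3
  have key : ∀ L : List (Weyl P), IsWordIn (Sb P) L → φ (g L.prod) = L.prod := by
    intro L
    induction L with
    | nil => intro _; simp
    | cons a L ih =>
      intro hL
      obtain ⟨s, hs, rfl⟩ := hL.head
      rw [List.prod_cons, map_mul, map_mul, ih hL.tail, hgx ⟨s, hs⟩, hφ ⟨s, hs⟩]
  have h1 : φ.comp g = MonoidHom.id _ := by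
    apply MonoidHom.ext
    intro w
    obtain ⟨L, hL, rfl⟩ := exists_word P w
    exact key L hL
  have h2 : g.comp φ = MonoidHom.id _ := by
    apply M.toCoxeterSystem.ext_simple
    intro s
    show g (φ (M.toCoxeterSystem.simple s)) = M.toCoxeterSystem.simple s
    rw [CoxeterMatrix.toCoxeterSystem_simple, hφ, hgx]
  refine ⟨M, ⟨MonoidHom.toMulEquiv g φ h1 h2⟩, fun s => ?_⟩
  have h4 := hφ s
  rw [toW_of_mem P (P.subset s.2)] at h4
  exact h4

end Cfsg.Agent.S0320
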