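import Cfsg.Statements.S0321
import Cfsg.Agent.Helper3.BNPair

set_option autoImplicit false
open Cfsg Cfsg.Agent.Helper3

namespace Cfsg.Agent.S0321

/-- For `n ∈ N` not in `B`, the union `B ∪ B n B` is (the underlying set of) a subgroup exactly when `n` agrees
modulo `B ⊓ N` with one of the distinguished representatives; thus the distinguished involutions are
determined by `B` and `N`. -/
theorem result {G : Type*} [Group G] (P : Cfsg.BNPair G) {n : G}
    (hn : n ∈ P.N) (hnB : n ∉ P.B) :
    (∃ H : Subgroup G, (H : Set G) = (P.B : Set G) ∪ DoubleCoset.doubleCoset n (P.B : Set G) P.B) ↔ ∃ s ∈ P.S, s⁻¹ * n ∈ P.B := by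
  constructor
  · rintro ⟨H, hH⟩
    have hBH : P.B ≤ H := by
      intro b hb
      have h1 : b ∈ (H : Set G) := by rw [hH]; exact Or.inl hb
      exact h1
    have hnH : n ∈ H := by
      have h1 : n ∈ (H : Set G) := by
        rw [hH]; exact Or.inr (DoubleCoset.mem_doubleCoset_self _ _ _)
      exact h1
    obtain ⟨L, hL, hLp⟩ := exists_red (Sb_inv P) (Sb_gen P) (toW P n)
    have hl := red_letters_subset P hBH L hL ⟨n, by rw [hLp]; exact self_mem_C P hn, hnH⟩
    have hLne : L ≠ [] := by
      rintro rfl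
      simp only [List.prod_nil] at hLp
      exact hnB ((toW_eq_one_iff P hn).1 hLp.symm)
    obtain ⟨x, L', rfl⟩ := List.exists_cons_of_ne_nil hLne
    obtain ⟨s0, hs0, hs0e⟩ := hL.1.head
    have hs0H : s0 ∈ (H : Set G) :=
      hl x (by simp) (by rw [← hs0e]; exact self_mem_C P (P.subset hs0))
    rw [hH] at hs0H
    rcases hs0H with h | h
    · exact absurd h (not_mem_B_of_mem_S P hs0)
    · refine ⟨s0, hs0, ?_⟩
      rw [← C_toW P hn] at h
      have h2 := mem_C_unique P (self_mem_C P (P.subset hs0)) h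
      exact (toW_eq_iff P (P.subset hs0) hn).1 h2
  · rintro ⟨s, hs, hsn⟩
    refine ⟨P.parabolic {s}, ?_⟩
    have hsN := P.subset hs
    have e : toW P s = toW P n := (toW_eq_iff P hsN hn).2 hsn
    have hJ : ({s} : Set G) ⊆ P.S := Set.singleton_subset_iff.2 hs
    have hsb : toW P s ∈ Sb P := ⟨s, hs, rfl⟩
    ext g
    rw [SetLike.mem_coe, mem_parabolic_iff P hJ, ← C_toW P hn, ← e, Set.image_singleton]
    constructor
    · rintro ⟨w, hw, hg⟩
      have hw' : w = 1 ∨ w = toW P s := by
        rw [Subgroup.mem_closure_singleton] at hw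
        obtain ⟨k, rfl⟩ := hw
        rcases Int.even_or_odd k with ⟨m, rfl⟩ | ⟨m, rfl⟩
        · left
          rw [← two_mul, zpow_mul, zpow_two, Sb_inv P _ hsb, one_zpow]
        · right
          rw [zpow_add, zpow_mul, zpow_two, Sb_inv P _ hsb, one_zpow, one_mul, zpow_one]
      rcases hw' with rfl | rfl
      · left; rw [C_one] at hg; exact hg
      · right; exact hg
    · rintro (hg | hg)
      · exact ⟨1, Subgroup.one_mem _, by rw [C_one]; exact hg⟩
      · exact ⟨toW P s, Subgroup.subset_closure rfl, hg⟩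

end Cfsg.Agent.S0321
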