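import Cfsg.Statements.S0322
import Cfsg.Agent.Helper3.BNPair

set_option autoImplicit false
open Cfsg Cfsg.Agent.Helper3

namespace Cfsg.Agent.S0322

/-- A group with a (B,N)-pair of rank one acts doubly transitively on the left cosets of `B`. -/
theorem result {G : Type*} [Group G] (P : Cfsg.BNPair G) (h : P.rank = 1) : MulAction.IsMultiplyPretransitive G (G ⧸ P.B) 2 := by
  have hcard : Nat.card P.S = 1 := h
  obtain ⟨s0, hs0⟩ : ∃ s0 : P.S, ∀ s : P.S, s = s0 := by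
    rw [Nat.card_eq_one_iff_unique] at hcard
    obtain ⟨hsub, hne⟩ := hcard
    obtain ⟨s0⟩ := hne
    exact ⟨s0, fun s => Subsingleton.elim _ _⟩
  have hSb : ∀ x ∈ Sb P, x = toW P s0 := by
    rintro _ ⟨s, hs, rfl⟩
    have h1 := hs0 ⟨s, hs⟩
    rw [show s = (s0 : G) from congrArg Subtype.val h1]
  have hs0b : toW P s0 ∈ Sb P := ⟨s0, s0.2, rfl⟩
  have hW : ∀ w : Weyl P, w = 1 ∨ w = toW P s0 := by
    intro w
    obtain ⟨L, hL, rfl⟩ := exists_word P w
    induction L with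
    | nil => left; rfl
    | cons a L ih =>
      have ha := hSb a hL.head
      rcases ih hL.tail with h1 | h1
      · right; simp [h1, ha]
      · left; simp only [List.prod_cons]; rw [h1, ha]; exact Sb_inv P _ hs0b
  have hG : ∀ g : G, g ∈ P.B ∨ g ∈ C P (toW P s0) := by
    intro g
    obtain ⟨w, hw⟩ := exists_mem_C P g
    rcases hW w with rfl | rfl
    · left; rw [C_one] at hw; exact hw
    · right; exact hw
  rw [MulAction.is_two_pretransitive_iff]
  intro a b c d hab hcd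
  obtain ⟨x, rfl⟩ := QuotientGroup.mk_surjective a
  obtain ⟨y, rfl⟩ := QuotientGroup.mk_surjective b
  obtain ⟨z, rfl⟩ := QuotientGroup.mk_surjective c
  obtain ⟨t, rfl⟩ := QuotientGroup.mk_surjective d
  have hxy : x⁻¹ * y ∉ P.B := fun h => hab (QuotientGroup.eq.2 h)
  have hzt : z⁻¹ * t ∉ P.B := fun h => hcd (QuotientGroup.eq.2 h)
  have h1 := (hG _).resolve_left hxy
  have h2 := (hG _).resolve_left hzt
  obtain ⟨b1, hb1, b2, hb2, e1⟩ := (mem_C_toW P (P.subset s0.2)).1 h1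
  obtain ⟨b3, hb3, b4, hb4, e2⟩ := (mem_C_toW P (P.subset s0.2)).1 h2
  have ey : y = x * (b1 * s0 * b2) := by rw [← e1]; group
  have et : t = z * (b3 * s0 * b4) := by rw [← e2]; group
  refine ⟨z * b3 * b1⁻¹ * x⁻¹, ?_, ?_⟩
  · rw [MulAction.Quotient.smul_mk, QuotientGroup.eq, smul_eq_mul]
    have e : (z * b3 * b1⁻¹ * x⁻¹ * x)⁻¹ * z = b1 * b3⁻¹ := by group
    rw [e]
    exact P.B.mul_mem hb1 (P.B.inv_mem hb3)
  · rw [MulAction.Quotient.smul_mk, QuotientGroup.eq, smul_eq_mul, ey, et]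
    have e : (z * b3 * b1⁻¹ * x⁻¹ * (x * (b1 * s0 * b2)))⁻¹ * (z * (b3 * s0 * b4)) = b2⁻¹ * b4 := by
      group
    rw [e]
    exact P.B.mul_mem (P.B.inv_mem hb2) hb4

end Cfsg.Agent.S0322
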