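import Cfsg.Statements.S0323
import Cfsg.Agent.Helper3.BNPair

set_option autoImplicit false
open scoped Pointwise
open Cfsg

namespace Cfsg.Agent.S0323

/-- A doubly transitive action on a set with at least three points yields a (B,N)-pair of rank one:
`B` is the stabiliser of a point `x`, `N` the setwise stabiliser of a pair `{x, y}`. -/
theorem result {G Ω : Type*} [Group G] [MulAction G Ω]
    (h2 : MulAction.IsMultiplyPretransitive G Ω 2) {x y z : Ω} (hxy : x ≠ y) (hyz : y ≠ z) (hxz : x ≠ z) :
    ∃ P : Cfsg.BNPair G, P.B = MulAction.stabilizer G x ∧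
      P.N = MulAction.stabilizer G ({x, y} : Set Ω) ∧ P.rank = 1 := by
  rw [MulAction.is_two_pretransitive_iff] at h2
  obtain ⟨s, hsx, hsy⟩ := h2 hxy hxy.symm
  have hB : ∀ g : G, g ∈ MulAction.stabilizer G x ↔ g • x = x := fun g =>
    MulAction.mem_stabilizer_iff
  have hN : ∀ g : G, g ∈ MulAction.stabilizer G ({x, y} : Set Ω) ↔
      (g • x = x ∧ g • y = y) ∨ (g • x = y ∧ g • y = x) := by
    intro g
    rw [MulAction.mem_stabilizer_iff, Set.smul_set_insert, Set.smul_set_singleton,
      Set.pair_eq_pair_iff]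
  have htr : ∀ u v : Ω, u ≠ x → v ≠ x → ∃ b : G, b • x = x ∧ b • u = v :=
    fun u v hu hv => h2 (Ne.symm hu) (Ne.symm hv)
  have hdc : ∀ g h : G, g • x ≠ x → h • x ≠ x →
      h ∈ DoubleCoset.doubleCoset g (MulAction.stabilizer G x : Set G)
        (MulAction.stabilizer G x) := by
    intro g h hg hh
    obtain ⟨b, hbx, hbu⟩ := htr (g • x) (h • x) hg hh
    refine DoubleCoset.mem_doubleCoset.2 ⟨b, (hB b).2 hbx, (b * g)⁻¹ * h, ?_, by group⟩
    rw [SetLike.mem_coe, hB, mul_smul, inv_smul_eq_iff, mul_smul, hbu]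
  have hdc' : ∀ g h : G, g • x = x → h • x = x →
      h ∈ DoubleCoset.doubleCoset g (MulAction.stabilizer G x : Set G)
        (MulAction.stabilizer G x) := by
    intro g h hg hh
    refine DoubleCoset.mem_doubleCoset.2 ⟨h * g⁻¹, ?_, 1, Subgroup.one_mem _, by group⟩
    rw [SetLike.mem_coe, hB, mul_smul, inv_smul_eq_iff.2 hg.symm, hh]
  have hsN : s ∈ MulAction.stabilizer G ({x, y} : Set Ω) := (hN s).2 (Or.inr ⟨hsx, hsy⟩)
  refine ⟨{ B := MulAction.stabilizer G x, N := MulAction.stabilizer G ({x, y} : Set Ω), S := {s},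
            sup_eq_top := ?_, conj_mem := ?_, subset := ?_, sq_mem := ?_, inj := ?_,
            closure_sup := ?_, mul_mem_union := ?_, conj_ne := ?_ }, rfl, rfl, ?_⟩
  · rw [eq_top_iff]
    intro g _
    by_cases hg : g • x = x
    · exact Subgroup.mem_sup_left ((hB g).2 hg)
    · obtain ⟨b, hbx, hby⟩ := htr y (g • x) hxy.symm hg
      have h1 : (b * s)⁻¹ * g ∈ MulAction.stabilizer G x := by
        rw [hB, mul_smul, inv_smul_eq_iff, mul_smul, hsx, hby]
      have e : g = b * s * ((b * s)⁻¹ * g) := by group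
      rw [e]
      exact Subgroup.mul_mem _ (Subgroup.mul_mem _ (Subgroup.mem_sup_left ((hB b).2 hbx))
        (Subgroup.mem_sup_right hsN)) (Subgroup.mem_sup_left h1)
  · intro n hn t ht
    rw [hB]
    have htB := (hB t).1 (Subgroup.mem_inf.1 ht).1
    have htN := (hN t).1 (Subgroup.mem_inf.1 ht).2
    have hty : t • y = y := by
      rcases htN with h | h
      · exact h.2
      · exact absurd (htB.symm.trans h.1) hxy
    have hn' := (hN n⁻¹).1 (Subgroup.inv_mem _ hn)
    rw [mul_smul, mul_smul, smul_eq_iff_eq_inv_smul]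
    rcases hn' with h | h
    · rw [h.1, htB]
    · rw [h.1, hty]
  · intro a ha
    rw [Set.mem_singleton_iff] at ha
    subst ha
    exact hsN
  · intro a ha
    rw [Set.mem_singleton_iff] at ha
    subst ha
    rw [hB, mul_smul, hsx, hsy]
  · intro a ha b hb _
    rw [Set.mem_singleton_iff] at ha hb
    rw [ha, hb]
  · apply le_antisymm
    · apply sup_le
      · rw [Subgroup.closure_le, Set.singleton_subset_iff]; exact hsN
      · exact inf_le_right
    · intro n hn
      rcases (hN n).1 hn with h | h
      · exact Subgroup.mem_sup_right (Subgroup.mem_inf.2 ⟨(hB n).2 h.1, hn⟩)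
      · have h1 : s⁻¹ * n ∈ MulAction.stabilizer G x ⊓
            MulAction.stabilizer G ({x, y} : Set Ω) := by
          refine Subgroup.mem_inf.2 ⟨?_, Subgroup.mul_mem _ (Subgroup.inv_mem _ hsN) hn⟩
          rw [hB, mul_smul, h.1, inv_smul_eq_iff, hsx]
        have e : n = s * (s⁻¹ * n) := by group
        rw [e]
        exact Subgroup.mul_mem _ (Subgroup.mem_sup_left (Subgroup.subset_closure rfl))
          (Subgroup.mem_sup_right h1)
  · intro a ha n hn b hb
    rw [Set.mem_singleton_iff] at ha
    subst ha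
    have hbx := (hB b).1 hb
    rcases (hN n).1 hn with h | h
    · left
      apply hdc
      · rw [mul_smul, h.1, hsx]; exact hxy.symm
      · rw [mul_smul, mul_smul, h.1, hbx, hsx]; exact hxy.symm
    · by_cases hc : (a * b * n) • x = x
      · left
        apply hdc'
        · rw [mul_smul, h.1, hsy]
        · exact hc
      · right
        apply hdc
        · rw [h.1]; exact hxy.symm
        · exact hc
  · intro a ha
    rw [Set.mem_singleton_iff] at ha
    subst ha
    obtain ⟨b, hbx, hby⟩ := htr y z hxy.symm hxz.symm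
    intro heq
    have h1 : a * b * a ∈ (MulAction.stabilizer G x : Set G) := by
      rw [← heq]; exact ⟨b, (hB b).2 hbx, rfl⟩
    rw [SetLike.mem_coe, hB, mul_smul, mul_smul, hsx, hby] at h1
    have h3 : z = y := by
      have h2 : a • z = a • y := by rw [h1, hsy]
      exact MulAction.injective a h2
    exact hyz h3.symm
  · show Nat.card (({s} : Set G)) = 1
    simp

end Cfsg.Agent.S0323
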