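import Cfsg.Statements.S0338
import Mathlib
import Cfsg.Agent.Helper3.Zassenhaus

set_option autoImplicit false
open Cfsg Cfsg.Agent.Helper3

namespace Cfsg.Agent.S0338

/-- A Zassenhaus group of odd degree is a simple group. -/
theorem result {G Ω : Type*} [Group G] [MulAction G Ω] [Fintype Ω]
    (hZ : Cfsg.IsZassenhausGroup G Ω) (hodd : Odd (Fintype.card Ω)) : IsSimpleGroup G := by
  classical
  have Z := zdata_of hZ
  have hnt : Nontrivial G := by
    obtain ⟨g, hg, _⟩ := Z.fix2
    exact ⟨⟨g, 1, hg⟩⟩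
  refine { toNontrivial := hnt, eq_bot_or_eq_top_of_normal := ?_ }
  intro N hNn
  by_cases hN : N = ⊥
  · exact Or.inl hN
  · exact Or.inr (Z.normal_eq_top_of_odd hodd N hN)

end Cfsg.Agent.S0338
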