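import Cfsg.Statements.S0339
import Mathlib
import Cfsg.Agent.Helper3.Zassenhaus

set_option autoImplicit false
open Cfsg Cfsg.Agent.Helper3

namespace Cfsg.Agent.S0339

/-- A non-trivial normal subgroup of a Zassenhaus group is itself a Zassenhaus group on the same set. -/
theorem result {G Ω : Type*} [Group G] [MulAction G Ω] [Finite Ω]
    (hZ : Cfsg.IsZassenhausGroup G Ω) (N : Subgroup G) [N.Normal] (hN : N ≠ ⊥) :
    Cfsg.IsZassenhausGroup N Ω := by
  have Z := zdata_of hZ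
  refine ⟨⟨?_⟩, ?_, ?_, ?_, ?_⟩
  · intro x y h
    apply Subtype.ext
    have h' : ∀ a : Ω, ((x : G)⁻¹ * (y : G)) • a = a := by
      intro a
      have e : (x : G) • a = (y : G) • a := h a
      rw [mul_smul, ← e, inv_smul_smul]
    exact inv_mul_eq_one.mp (Z.faithful _ h')
  · rw [MulAction.is_two_pretransitive_iff]
    intro a b c d hab hcd
    obtain ⟨n, hn, h1, h2⟩ := Z.normal_two N hN hab hcd
    exact ⟨⟨n, hn⟩, h1, h2⟩
  · intro g a b c hab hbc hac ha hb hc
    exact Subtype.ext (Z.three (g : G) a b c hab hbc hac ha hb hc)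
  · obtain ⟨x, hx, hx1, a, b, hab, ha, hb⟩ := Z.normal_fix2 N hN
    exact ⟨⟨x, hx⟩, fun h => hx1 (congrArg Subtype.val h), a, b, hab, ha, hb⟩
  · intro M hM hMt
    by_contra hcon
    have hfree : ∀ m ∈ M, ∀ c : Ω, m • c = c → m = 1 := by
      intro m hm c hc
      by_contra hm1
      apply hcon
      refine ⟨c, ?_⟩
      intro hbot
      have : (⟨m, hm⟩ : M) ∈ MulAction.stabilizer M c := hc
      rw [hbot, Subgroup.mem_bot] at this
      exact hm1 (congrArg Subtype.val this)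
    apply Z.no_regular N hN (M.map N.subtype)
    · rintro _ ⟨m, hm, rfl⟩
      exact m.2
    · rintro n hn _ ⟨m, hm, rfl⟩
      exact ⟨⟨n, hn⟩ * m * ⟨n, hn⟩⁻¹, hM.conj_mem m hm _, rfl⟩
    · intro u v
      obtain ⟨⟨m, hm⟩, h⟩ := hMt.exists_smul_eq u v
      exact ⟨(m : G), ⟨m, hm, rfl⟩, h⟩
    · rintro _ ⟨m, hm, rfl⟩ c hc
      have := hfree m hm c hc
      rw [this]; rfl

end Cfsg.Agent.S0339
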