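import Cfsg.Statements.S0353
import Cfsg.Agent.Helper3.Steiner
import Cfsg.Agent.S0352

set_option autoImplicit false
open Cfsg Cfsg.Agent.Helper3

namespace Cfsg.Agent.S0353

/-- In an S(5, 8, 24), the symmetric difference of two blocks meeting in four points is a block. -/
theorem result {α : Type*} [Fintype α] [DecidableEq α] (hα : Fintype.card α = 24) {B : Set (Finset α)} (hB : Cfsg.IsSteinerSystem 5 8 B) {b c : Finset α} (hb : b ∈ B) (hc : c ∈ B) (h4 : (b ∩ c).card = 4) : symmDiff b c ∈ B := by
  have I : ∀ u v : Finset α, u ∈ B → v ∈ B → u ≠ v →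
      (u ∩ v).card = 0 ∨ (u ∩ v).card = 2 ∨ (u ∩ v).card = 4 :=
    fun u v hu hv huv => Cfsg.Agent.S0352.result hα hB hu hv huv
  have E : ∀ u v : Finset α, u ∈ B → v ∈ B → 5 ≤ (u ∩ v).card → u = v :=
    fun u v hu hv h => block_eq_of_inter hB hu hv h
  have hbk := hB.1 b hb
  have hck := hB.1 c hc
  have hT2 : (b \ c).card = 4 := by
    rw [Finset.card_sdiff, Finset.inter_comm, h4, hbk]
  have hT3 : (c \ b).card = 4 := by
    rw [Finset.card_sdiff, h4, hck]
  have hsd : symmDiff b c = (b \ c) ∪ (c \ b) := rfl
  have K : ∀ x ∈ c \ b, ∀ d ∈ B, insert x (b \ c) ⊆ d →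
      d ∩ b = b \ c ∧ ((d ∩ (c \ b)).card = 2 ∨ (d ∩ (c \ b)).card = 4) := by
    intro x hx d hd hsub
    have hxd : x ∈ d := hsub (Finset.mem_insert_self _ _)
    have hT2d : b \ c ⊆ d := fun y hy => hsub (Finset.mem_insert_of_mem hy)
    have hxc : x ∈ c := (Finset.mem_sdiff.1 hx).1
    have hxb : x ∉ b := (Finset.mem_sdiff.1 hx).2
    have hdb : d ≠ b := by
      intro h; rw [h] at hxd; exact hxb hxd
    have hsub2 : b \ c ⊆ d ∩ b := fun y hy =>
      Finset.mem_inter.2 ⟨hT2d hy, (Finset.mem_sdiff.1 hy).1⟩
    have hcard : (d ∩ b).card = 4 := by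
      have h1 := Finset.card_le_card hsub2
      rcases I d b hd hb hdb with h | h | h <;> omega
    have heq : d ∩ b = b \ c := (Finset.eq_of_subset_of_card_le hsub2 (by omega)).symm
    have hdc : d ≠ c := by
      intro h
      obtain ⟨a, ha⟩ := Finset.card_pos.1 (by omega : 0 < (b \ c).card)
      have hac : a ∈ c := by rw [← h]; exact hT2d ha
      exact (Finset.mem_sdiff.1 ha).2 hac
    have hdc2 : d ∩ c = d ∩ (c \ b) := by
      ext y
      simp only [Finset.mem_inter, Finset.mem_sdiff]
      constructor
      · rintro ⟨hyd, hyc⟩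
        refine ⟨hyd, hyc, fun hyb => ?_⟩
        have h5 : y ∈ d ∩ b := Finset.mem_inter.2 ⟨hyd, hyb⟩
        rw [heq] at h5
        exact (Finset.mem_sdiff.1 h5).2 hyc
      · rintro ⟨hyd, hyc, -⟩; exact ⟨hyd, hyc⟩
    have hne : (d ∩ c).card ≠ 0 := by
      rw [Finset.card_ne_zero]
      exact ⟨x, Finset.mem_inter.2 ⟨hxd, hxc⟩⟩
    refine ⟨heq, ?_⟩
    rw [← hdc2]
    rcases I d c hd hc hdc with h | h | h
    · exact absurd h hne
    · exact Or.inl h
    · exact Or.inr h
  obtain ⟨x, hx⟩ := Finset.card_pos.1 (by omega : 0 < (c \ b).card)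
  have hxT2 : x ∉ b \ c := fun h => (Finset.mem_sdiff.1 hx).2 (Finset.mem_sdiff.1 h).1
  obtain ⟨d, ⟨hd, hdsub⟩, hduniq⟩ := hB.2 (insert x (b \ c))
    (by rw [Finset.card_insert_of_notMem hxT2, hT2])
  obtain ⟨hdb, hd23⟩ := K x hx d hd hdsub
  have hxd : x ∈ d := hdsub (Finset.mem_insert_self _ _)
  have hT2d : b \ c ⊆ d := fun y hy => hdsub (Finset.mem_insert_of_mem hy)
  have hdk := hB.1 d hd
  rcases hd23 with h2 | h4'
  · exfalso
    have hT3d : ((c \ b) \ d).card = 2 := by
      have h6 := Finset.card_sdiff_add_card_inter (c \ b) d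
      rw [Finset.inter_comm] at h6; omega
    obtain ⟨x'', hx''⟩ := Finset.card_pos.1 (by omega : 0 < ((c \ b) \ d).card)
    have hx''T3 : x'' ∈ c \ b := (Finset.mem_sdiff.1 hx'').1
    have hx''d : x'' ∉ d := (Finset.mem_sdiff.1 hx'').2
    obtain ⟨a4, ha4⟩ := Finset.card_pos.1 (by omega : 0 < (b \ c).card)
    have hA3 : ((b \ c).erase a4).card = 3 := by rw [Finset.card_erase_of_mem ha4, hT2]
    have hA3sub : (b \ c).erase a4 ⊆ b \ c := Finset.erase_subset _ _
    have hxx'' : x ≠ x'' := by
      intro h; rw [← h] at hx''d; exact hx''d hxd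
    have hx''b : x'' ∉ b := (Finset.mem_sdiff.1 hx''T3).2
    have hxb : x ∉ b := (Finset.mem_sdiff.1 hx).2
    have hxA3 : x ∉ (b \ c).erase a4 := fun h => hxT2 (hA3sub h)
    have hx''A3 : x'' ∉ insert x ((b \ c).erase a4) := by
      intro h
      rcases Finset.mem_insert.1 h with h | h
      · exact hxx'' h.symm
      · exact hx''b (Finset.mem_sdiff.1 (hA3sub h)).1
    obtain ⟨e, ⟨he, hesub⟩, heuniq⟩ := hB.2 (insert x'' (insert x ((b \ c).erase a4)))
      (by rw [Finset.card_insert_of_notMem hx''A3, Finset.card_insert_of_notMem hxA3, hA3])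
    have hx''e : x'' ∈ e := hesub (Finset.mem_insert_self _ _)
    have hxe : x ∈ e := hesub (Finset.mem_insert_of_mem (Finset.mem_insert_self _ _))
    have hA3e : (b \ c).erase a4 ⊆ e := fun y hy =>
      hesub (Finset.mem_insert_of_mem (Finset.mem_insert_of_mem hy))
    have heb : e ≠ b := by
      intro h; rw [h] at hxe; exact hxb hxe
    have hebcard : (e ∩ b).card = 4 := by
      have hsub3 : (b \ c).erase a4 ⊆ e ∩ b := fun y hy =>
        Finset.mem_inter.2 ⟨hA3e hy, (Finset.mem_sdiff.1 (hA3sub hy)).1⟩
      have h1 := Finset.card_le_card hsub3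
      rcases I e b he hb heb with h | h | h <;> omega
    by_cases ha4e : a4 ∈ e
    · have hsube : insert x (b \ c) ⊆ e := by
        intro y hy
        rcases Finset.mem_insert.1 hy with rfl | hy
        · exact hxe
        · by_cases hya : y = a4
          · rw [hya]; exact ha4e
          · exact hA3e (Finset.mem_erase.2 ⟨hya, hy⟩)
      have hed : e = d := hduniq e ⟨he, hsube⟩
      rw [hed] at hx''e
      exact hx''d hx''e
    · have hex_t : ∃ t ∈ e ∩ b, t ∉ (b \ c).erase a4 := by
        by_contra hcon
        have hcon' : e ∩ b ⊆ (b \ c).erase a4 := by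
          intro t ht
          by_contra htn
          exact hcon ⟨t, ht, htn⟩
        have h7 := Finset.card_le_card hcon'
        omega
      obtain ⟨t, ht, htA3⟩ := hex_t
      have hte : t ∈ e := (Finset.mem_inter.1 ht).1
      have htb : t ∈ b := (Finset.mem_inter.1 ht).2
      have hta4 : t ≠ a4 := by
        intro h; rw [h] at hte; exact ha4e hte
      have htc : t ∈ c := by
        by_contra htc
        exact htA3 (Finset.mem_erase.2 ⟨hta4, Finset.mem_sdiff.2 ⟨htb, htc⟩⟩)
      have hec : e ≠ c := by
        intro h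
        obtain ⟨a, ha⟩ := Finset.card_pos.1 (by omega : 0 < ((b \ c).erase a4).card)
        have hac : a ∈ c := by rw [← h]; exact hA3e ha
        exact (Finset.mem_sdiff.1 (hA3sub ha)).2 hac
      have hxc : x ∈ c := (Finset.mem_sdiff.1 hx).1
      have hx''c : x'' ∈ c := (Finset.mem_sdiff.1 hx''T3).1
      have hsub3 : insert t (insert x ({x''} : Finset α)) ⊆ e ∩ c := by
        intro y hy
        simp only [Finset.mem_insert, Finset.mem_singleton] at hy
        rcases hy with rfl | rfl | rfl
        · exact Finset.mem_inter.2 ⟨hte, htc⟩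
        · exact Finset.mem_inter.2 ⟨hxe, hxc⟩
        · exact Finset.mem_inter.2 ⟨hx''e, hx''c⟩
      have hcard3 : (insert t (insert x ({x''} : Finset α))).card = 3 := by
        rw [Finset.card_insert_of_notMem, Finset.card_insert_of_notMem, Finset.card_singleton]
        · simpa using hxx''
        · simp only [Finset.mem_insert, Finset.mem_singleton]
          rintro (h | h)
          · rw [h] at htb; exact hxb htb
          · rw [h] at htb; exact hx''b htb
      have heccard : (e ∩ c).card = 4 := by
        have h1 := Finset.card_le_card hsub3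
        rcases I e c he hc hec with h | h | h <;> omega
      have hex_u : ∃ u ∈ e ∩ c, u ∉ insert t (insert x ({x''} : Finset α)) := by
        by_contra hcon
        have hcon' : e ∩ c ⊆ insert t (insert x ({x''} : Finset α)) := by
          intro u hu
          by_contra hun
          exact hcon ⟨u, hu, hun⟩
        have h7 := Finset.card_le_card hcon'
        omega
      obtain ⟨u, hu, hu3⟩ := hex_u
      have hue : u ∈ e := (Finset.mem_inter.1 hu).1
      have huc : u ∈ c := (Finset.mem_inter.1 hu).2
      simp only [Finset.mem_insert, Finset.mem_singleton, not_or] at hu3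
      obtain ⟨hut, hux, hux''⟩ := hu3
      have hub : u ∉ b := by
        intro hub
        have hsub4 : insert t ((b \ c).erase a4) ⊆ e ∩ b := by
          intro y hy
          rcases Finset.mem_insert.1 hy with rfl | hy
          · exact ht
          · exact Finset.mem_inter.2 ⟨hA3e hy, (Finset.mem_sdiff.1 (hA3sub hy)).1⟩
        have hcard4 : (insert t ((b \ c).erase a4)).card = 4 := by
          rw [Finset.card_insert_of_notMem htA3, hA3]
        have heq4 : insert t ((b \ c).erase a4) = e ∩ b :=
          Finset.eq_of_subset_of_card_le hsub4 (by omega)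
        have h8 : u ∈ insert t ((b \ c).erase a4) := by
          rw [heq4]; exact Finset.mem_inter.2 ⟨hue, hub⟩
        rcases Finset.mem_insert.1 h8 with h | h
        · exact hut h
        · exact (Finset.mem_sdiff.1 (hA3sub h)).2 huc
      have huT3 : u ∈ c \ b := Finset.mem_sdiff.2 ⟨huc, hub⟩
      have huA3 : u ∉ (b \ c).erase a4 := fun h => hub (Finset.mem_sdiff.1 (hA3sub h)).1
      by_cases hud : u ∈ d
      · have hsub5 : insert u (insert x ((b \ c).erase a4)) ⊆ d ∩ e := by
          intro y hy
          rcases Finset.mem_insert.1 hy with rfl | hy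
          · exact Finset.mem_inter.2 ⟨hud, hue⟩
          · rcases Finset.mem_insert.1 hy with rfl | hy
            · exact Finset.mem_inter.2 ⟨hxd, hxe⟩
            · exact Finset.mem_inter.2 ⟨hT2d (hA3sub hy), hA3e hy⟩
        have hcard5 : (insert u (insert x ((b \ c).erase a4))).card = 5 := by
          rw [Finset.card_insert_of_notMem, Finset.card_insert_of_notMem hxA3, hA3]
          intro h
          rcases Finset.mem_insert.1 h with h | h
          · exact hux h
          · exact huA3 h
        have hde : d = e := E d e hd he (by have h9 := Finset.card_le_card hsub5; omega)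
        rw [← hde] at hx''e
        exact hx''d hx''e
      · have hx''T2 : x'' ∉ b \ c := fun h => hx''b (Finset.mem_sdiff.1 h).1
        obtain ⟨d', ⟨hd', hd'sub⟩, hd'uniq⟩ := hB.2 (insert x'' (b \ c))
          (by rw [Finset.card_insert_of_notMem hx''T2, hT2])
        obtain ⟨hd'b, hd'23⟩ := K x'' hx''T3 d' hd' hd'sub
        have hx''d' : x'' ∈ d' := hd'sub (Finset.mem_insert_self _ _)
        have hT2d' : b \ c ⊆ d' := fun y hy => hd'sub (Finset.mem_insert_of_mem hy)
        have hdd' : d ≠ d' := by
          intro h; rw [← h] at hx''d'; exact hx''d hx''d'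
        have hsub6 : b \ c ⊆ d ∩ d' := fun y hy => Finset.mem_inter.2 ⟨hT2d hy, hT2d' hy⟩
        have hdd'card : (d ∩ d').card = 4 := by
          have h1 := Finset.card_le_card hsub6
          rcases I d d' hd hd' hdd' with h | h | h <;> omega
        have hdd'eq : b \ c = d ∩ d' := Finset.eq_of_subset_of_card_le hsub6 (by omega)
        have hsub7 : d' ∩ (c \ b) ⊆ (c \ b) \ d := by
          intro y hy
          obtain ⟨hyd', hyT3⟩ := Finset.mem_inter.1 hy
          refine Finset.mem_sdiff.2 ⟨hyT3, fun hyd => ?_⟩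
          have h10 : y ∈ b \ c := by rw [hdd'eq]; exact Finset.mem_inter.2 ⟨hyd, hyd'⟩
          exact (Finset.mem_sdiff.1 hyT3).2 (Finset.mem_sdiff.1 h10).1
        have hcard7 : (d' ∩ (c \ b)).card = 2 := by
          have h1 := Finset.card_le_card hsub7
          rcases hd'23 with h | h <;> omega
        have heq7 : d' ∩ (c \ b) = (c \ b) \ d := Finset.eq_of_subset_of_card_le hsub7 (by omega)
        have hud' : u ∈ d' := by
          have h11 : u ∈ (c \ b) \ d := Finset.mem_sdiff.2 ⟨huT3, hud⟩
          rw [← heq7] at h11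
          exact (Finset.mem_inter.1 h11).1
        have hsub8 : insert u (insert x'' ((b \ c).erase a4)) ⊆ d' ∩ e := by
          intro y hy
          rcases Finset.mem_insert.1 hy with rfl | hy
          · exact Finset.mem_inter.2 ⟨hud', hue⟩
          · rcases Finset.mem_insert.1 hy with rfl | hy
            · exact Finset.mem_inter.2 ⟨hx''d', hx''e⟩
            · exact Finset.mem_inter.2 ⟨hT2d' (hA3sub hy), hA3e hy⟩
        have hx''A3' : x'' ∉ (b \ c).erase a4 := fun h =>
          hx''b (Finset.mem_sdiff.1 (hA3sub h)).1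
        have hcard8 : (insert u (insert x'' ((b \ c).erase a4))).card = 5 := by
          rw [Finset.card_insert_of_notMem, Finset.card_insert_of_notMem hx''A3', hA3]
          intro h
          rcases Finset.mem_insert.1 h with h | h
          · exact hux'' h
          · exact huA3 h
        have hd'e : d' = e := E d' e hd' he (by have h9 := Finset.card_le_card hsub8; omega)
        have hxd' : x ∈ d' := by rw [hd'e]; exact hxe
        have h12 : x ∈ b \ c := by rw [hdd'eq]; exact Finset.mem_inter.2 ⟨hxd, hxd'⟩
        exact hxT2 h12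
  · have hT3d : c \ b ⊆ d := by
      have hsub9 : d ∩ (c \ b) ⊆ c \ b := Finset.inter_subset_right
      have h13 := Finset.eq_of_subset_of_card_le hsub9 (by omega)
      intro y hy
      rw [← h13] at hy
      exact (Finset.mem_inter.1 hy).1
    have hsub10 : (b \ c) ∪ (c \ b) ⊆ d := Finset.union_subset hT2d hT3d
    have hcard10 : ((b \ c) ∪ (c \ b)).card = 8 := by
      rw [Finset.card_union_of_disjoint, hT2, hT3]
      rw [Finset.disjoint_left]
      intro y hy hy'
      exact (Finset.mem_sdiff.1 hy).2 (Finset.mem_sdiff.1 hy').1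
    have h14 : (b \ c) ∪ (c \ b) = d := Finset.eq_of_subset_of_card_le hsub10 (by omega)
    rw [hsd, h14]; exact hd

end Cfsg.Agent.S0353
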