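import Cfsg.Statements.S0354
import Cfsg.Agent.Helper3.Steiner

set_option autoImplicit false
open Cfsg Cfsg.Agent.Helper3

namespace Cfsg.Agent.S0354

/-- In an S(5, 8, 24), each block is disjoint from exactly 30 blocks. -/
theorem result {α : Type*} [Fintype α] [DecidableEq α] (hα : Fintype.card α = 24) {B : Set (Finset α)} (hB : Cfsg.IsSteinerSystem 5 8 B) {b : Finset α} (hb : b ∈ B) : {c : Finset α | c ∈ B ∧ Disjoint b c}.ncard = 30 := by
  obtain ⟨Bf, rfl⟩ := exists_finset_coe B
  obtain ⟨h0, -, -⟩ := s5824 hα hB (show b ∈ Bf from hb)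
  have e : {c : Finset α | c ∈ (Bf : Set (Finset α)) ∧ Disjoint b c} =
      ((Bf.filter (fun c => (b ∩ c).card = 0) : Finset (Finset α)) : Set (Finset α)) := by
    ext c
    simp only [Set.mem_setOf_eq, Finset.mem_coe, Finset.mem_filter, Finset.card_eq_zero,
      Finset.disjoint_iff_inter_eq_empty]
  rw [e, Set.ncard_coe_finset, h0]

end Cfsg.Agent.S0354
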