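import Cfsg.Statements.S0357
import Cfsg.Agent.Helper3.Steiner

set_option autoImplicit false
open Cfsg Cfsg.Agent.Helper3

namespace Cfsg.Agent.S0357

/-- In a Steiner system S(5, 6, 12), the complement of every block is again a block. -/
theorem result {α : Type*} [Fintype α] [DecidableEq α] (hα : Fintype.card α = 12) {B : Set (Finset α)} (hB : Cfsg.IsSteinerSystem 5 6 B) {b : Finset α} (hb : b ∈ B) : bᶜ ∈ B := by
  obtain ⟨Bf, rfl⟩ := exists_finset_coe B
  have h0 := s5612 hα hB (show b ∈ Bf from hb)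
  obtain ⟨c, hc⟩ := Finset.card_eq_one.1 h0
  have hcm : c ∈ Bf.filter (fun c => (b ∩ c).card = 0) := by
    rw [hc]; exact Finset.mem_singleton_self c
  obtain ⟨hcB, hc0⟩ := Finset.mem_filter.1 hcm
  have hdisj : Disjoint b c := by
    rw [Finset.disjoint_iff_inter_eq_empty]; exact Finset.card_eq_zero.1 hc0
  have hsub : c ⊆ bᶜ := by
    intro x hx
    rw [Finset.mem_compl]
    exact fun hxb => Finset.disjoint_left.1 hdisj hxb hx
  have hcard : bᶜ.card = c.card := by
    rw [Finset.card_compl, hα, hB.1 b hb, hB.1 c hcB]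
  have e : c = bᶜ := Finset.eq_of_subset_of_card_le hsub (le_of_eq hcard)
  rw [← e]; exact hcB

end Cfsg.Agent.S0357
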