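import Cfsg.Statements.S0403
import Mathlib
import Cfsg.Agent.Helper3.Co3Simple

set_option autoImplicit false
open Cfsg

namespace Cfsg.Agent.S0403

/-- Stabiliser of a vector of sum of squares 48 is simple of order 495766656000. -/
theorem result (v : Cfsg.leechLattice) (hv : Cfsg.sqNorm (v : Cfsg.GolayPt → ℤ) = 48) : Cfsg.IsCo3 (MulAction.stabilizer Cfsg.Co0 v) := by
  exact ⟨Cfsg.Agent.Helper3.co3_simple v hv, Cfsg.Agent.Helper3.co3_card v hv⟩

end Cfsg.Agent.S0403
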