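import Cfsg.Statements.S0439
import Mathlib

set_option autoImplicit false
open Cfsg

namespace Cfsg.Agent.S0439

open Equiv Equiv.Perm

theorem three_cycle_pow {α : Type*} [Fintype α] [DecidableEq α] {a b c : α} (ab : a ≠ b) (ac : a ≠ c)
    (bc : b ≠ c) : (swap a b * swap a c) ^ 3 = 1 := by
  have h := (isThreeCycle_swap_mul_swap_same ab ac bc).orderOf
  rw [← h]
  exact pow_orderOf_eq_one _

theorem swap_swap_cases {α : Type*} [Fintype α] [DecidableEq α] {a b c d : α} (hab : a ≠ b)
    (hcd : c ≠ d) :
    (swap a b * swap c d) ^ 2 = 1 ∨ (swap a b * swap c d) ^ 3 = 1 := by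
  by_cases hca : c = a
  · subst hca
    by_cases hdb : d = b
    · subst hdb
      left
      rw [swap_mul_self, one_pow]
    · right
      exact three_cycle_pow hab hcd (Ne.symm hdb)
  · by_cases hcb : c = b
    · subst hcb
      by_cases hda : d = a
      · subst hda
        left
        rw [swap_comm c d, swap_mul_self, one_pow]
      · right
        rw [swap_comm a c]
        exact three_cycle_pow (Ne.symm hab) hcd (Ne.symm hda)
    · by_cases hda : d = a
      · subst hda
        right
        rw [swap_comm c d]
        exact three_cycle_pow hab (Ne.symm hca) (Ne.symm hcb)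
      · by_cases hdb : d = b
        · subst hdb
          right
          rw [swap_comm a d, swap_comm c d]
          exact three_cycle_pow (Ne.symm hab) (Ne.symm hcd) (Ne.symm hca)
        · left
          have hdis : Equiv.Perm.Disjoint (swap a b) (swap c d) := by
            apply disjoint_swap_swap
            simp only [List.nodup_cons, List.mem_cons, List.not_mem_nil, or_false, not_or,
              List.nodup_nil, and_true, not_false_eq_true]
            exact ⟨⟨hab, Ne.symm hca, Ne.symm hda⟩, ⟨Ne.symm hcb, Ne.symm hdb⟩, hcd⟩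
          rw [hdis.commute.mul_pow, pow_two, pow_two, swap_mul_self, swap_mul_self, one_mul]

/-- In the symmetric group of degree n ≥ 2, the set of transpositions is a conjugacy class of 3-transpositions which generates the group. -/
theorem result (n : ℕ) (hn : 2 ≤ n) : Cfsg.IsThreeTranspositionClass {σ : Equiv.Perm (Fin n) | σ.IsSwap} := by
  refine ⟨⟨?_, ?_⟩, ?_, ?_⟩
  · intro d hd
    exact Equiv.Perm.IsSwap.orderOf hd
  · intro d hd e he
    obtain ⟨a, b, hab, rfl⟩ := hd
    obtain ⟨c, d', hcd, rfl⟩ := he
    exact swap_swap_cases hab hcd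
  · have h01 : (⟨0, by omega⟩ : Fin n) ≠ ⟨1, by omega⟩ := by
      intro h
      have := congrArg Fin.val h
      simp at this
    refine ⟨swap ⟨0, by omega⟩ ⟨1, by omega⟩, ⟨_, _, h01, rfl⟩, ?_⟩
    ext σ
    show σ.IsSwap ↔ IsConj _ σ
    constructor
    · rintro ⟨x, y, hxy, rfl⟩
      exact isConj_swap h01 hxy
    · intro h
      rw [isConj_iff] at h
      obtain ⟨c, hc⟩ := h
      show σ.IsSwap
      rw [← card_support_eq_two, ← hc, card_support_conj, card_support_eq_two]
      exact ⟨_, _, h01, rfl⟩
  · exact closure_isSwap

end Cfsg.Agent.S0439
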