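import Cfsg.Statements.S0440
import Mathlib
import Cfsg.Agent.Helper4.SpTv

set_option autoImplicit false
open Cfsg

namespace Cfsg.Agent.S0440

open Cfsg.Agent.Helper4.SpTv in
/-- In the symplectic group in dimension 2n ≥ 2 over the field with two elements, the elements g for which g - 1 has rank one (the symplectic transvections) form a conjugacy class of 3-transpositions generating the group. -/
theorem result (n : ℕ) (hn : 1 ≤ n) : Cfsg.IsThreeTranspositionClass {g : Matrix.symplecticGroup (Fin n) (ZMod 2) | ((g : Matrix (Fin n ⊕ Fin n) (Fin n ⊕ Fin n) (ZMod 2)) - 1).rank = 1} := by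
  have hD : {g : Matrix.symplecticGroup (Fin n) (ZMod 2) | ((g : Matrix (Fin n ⊕ Fin n) (Fin n ⊕ Fin n) (ZMod 2)) - 1).rank = 1} = {t | ∃ c, c ≠ 0 ∧ t = tv c} := by
    ext g
    constructor
    · exact eq_tv_of_rank g
    · rintro ⟨c, hc, rfl⟩
      exact rank_tv c hc
  rw [hD]
  refine ⟨⟨?_, ?_⟩, ?_, closure_tv⟩
  · rintro d ⟨c, hc, rfl⟩
    exact orderOf_tv c hc
  · rintro d ⟨c, hc, rfl⟩ e ⟨c', hc', rfl⟩
    exact tv_three c c'
  · have hc₀ : (Pi.single (Sum.inl ⟨0, hn⟩) 1 : Fin n ⊕ Fin n → ZMod 2) ≠ 0 := by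
      intro h
      have := congrFun h (Sum.inl ⟨0, hn⟩)
      simp at this
    refine ⟨tv _, ⟨_, hc₀, rfl⟩, ?_⟩
    ext g
    constructor
    · rintro ⟨c, hc, rfl⟩
      obtain ⟨h, hh⟩ := exists_act_eq _ c hc₀ hc
      show IsConj _ _
      rw [isConj_iff]
      exact ⟨h, by rw [conj_tv, hh]⟩
    · intro hg
      have hg' : IsConj _ _ := hg
      rw [isConj_iff] at hg'
      obtain ⟨h, rfl⟩ := hg'
      exact ⟨act h _, act_ne_zero h _ hc₀, conj_tv h _⟩

end Cfsg.Agent.S0440
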