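import Cfsg.Statements.S0442
import Mathlib

set_option autoImplicit false
open Cfsg

namespace Cfsg.Agent.S0442

theorem inv_conj_pow {G : Type*} [Group G] (a c : G) (ha : a * a = 1) (hc : c * c = 1) (m : ℕ) :
    a * (a * c) ^ m * a = ((a * c) ^ m)⁻¹ := by
  have h1 : a * (a * c) * a⁻¹ = (a * c)⁻¹ := by
    have ha' : a⁻¹ = a := inv_eq_of_mul_eq_one_left ha
    have hc' : c⁻¹ = c := inv_eq_of_mul_eq_one_left hc
    rw [mul_inv_rev, ha', hc']
    calc a * (a * c) * a = (a * a) * c * a := by group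
      _ = c * a := by rw [ha, one_mul]
  have ha' : a⁻¹ = a := inv_eq_of_mul_eq_one_left ha
  have h2 : a * (a * c) ^ m * a⁻¹ = (a * (a * c) * a⁻¹) ^ m := (conj_pow).symm
  rw [ha'] at h2
  rw [h2, ← inv_pow]
  congr 1
  rw [← h1, ha']

/-- A standard trick for producing elements of an involution centraliser: for an involution a and an element g, let b be the conjugate g⁻¹ * a * g. If a * b has odd order 2m + 1 then g * (a * b) ^ m commutes with a; if a * b has even order 2m then (a * b) ^ m and (a * (g * a * g⁻¹)) ^ m commute with a. -/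
theorem result {G : Type*} [Group G] (a g : G) (ha : orderOf a = 2) : (∀ m : ℕ, orderOf (a * (g⁻¹ * a * g)) = 2 * m + 1 → Commute (g * (a * (g⁻¹ * a * g)) ^ m) a) ∧ (∀ m : ℕ, orderOf (a * (g⁻¹ * a * g)) = 2 * m → Commute ((a * (g⁻¹ * a * g)) ^ m) a ∧ Commute ((a * (g * a * g⁻¹)) ^ m) a) := by
  have haa : a * a = 1 := by
    have := pow_orderOf_eq_one a
    rw [ha, pow_two] at this
    exact this
  have ha' : a⁻¹ = a := inv_eq_of_mul_eq_one_left haa
  have hbb : (g⁻¹ * a * g) * (g⁻¹ * a * g) = 1 := by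
    calc (g⁻¹ * a * g) * (g⁻¹ * a * g) = g⁻¹ * (a * a) * g := by group
      _ = 1 := by rw [haa]; group
  have hcc : (g * a * g⁻¹) * (g * a * g⁻¹) = 1 := by
    calc (g * a * g⁻¹) * (g * a * g⁻¹) = g * (a * a) * g⁻¹ := by group
      _ = 1 := by rw [haa]; group
  refine ⟨fun m hm => ?_, fun m hm => ⟨?_, ?_⟩⟩
  · -- odd case
    set b := g⁻¹ * a * g with hb
    have hpow : (a * b) ^ (2 * m + 1) = 1 := by rw [← hm]; exact pow_orderOf_eq_one _
    have hinv := inv_conj_pow a b haa hbb m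
    -- a * (ab)^m * a = ((ab)^m)⁻¹
    have hag : a * g = g * b := by rw [hb]; group
    -- want g (ab)^m a = a g (ab)^m = g b (ab)^m
    show g * (a * b) ^ m * a = a * (g * (a * b) ^ m)
    rw [← mul_assoc a g, hag, mul_assoc g b, mul_assoc g]
    congr 1
    -- (ab)^m a = b (ab)^m
    have h3 : (a * b) ^ m * a = a * ((a * b) ^ m)⁻¹ := by
      have : a * (a * (a * b) ^ m * a) = a * ((a * b) ^ m)⁻¹ := by rw [hinv]
      rw [← this]
      calc (a * b) ^ m * a = (a * a) * (a * b) ^ m * a := by rw [haa, one_mul]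
        _ = a * (a * (a * b) ^ m * a) := by group
    rw [h3]
    -- a ((ab)^m)⁻¹ = b (ab)^m  ⟸ (ab)^(2m+1) = 1
    have h4 : (a * b) ^ m * ((a * b) * (a * b) ^ m) = 1 := by
      rw [← pow_succ', ← pow_add, ← hpow]
      congr 1; omega
    have hb' : b⁻¹ = b := inv_eq_of_mul_eq_one_left hbb
    have h5 : ((a * b) ^ m)⁻¹ = a * b * (a * b) ^ m := by
      rw [inv_eq_iff_eq_inv]
      exact eq_inv_of_mul_eq_one_left h4
    rw [h5]
    calc a * (a * b * (a * b) ^ m) = (a * a) * b * (a * b) ^ m := by simp only [mul_assoc]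
      _ = b * (a * b) ^ m := by rw [haa, one_mul]
  · set b := g⁻¹ * a * g with hb
    have hpow : (a * b) ^ (2 * m) = 1 := by rw [← hm]; exact pow_orderOf_eq_one _
    have hinv := inv_conj_pow a b haa hbb m
    have h6 : ((a * b) ^ m)⁻¹ = (a * b) ^ m := by
      rw [inv_eq_iff_mul_eq_one, ← pow_add, ← two_mul]; exact hpow
    rw [h6] at hinv
    show (a * b) ^ m * a = a * (a * b) ^ m
    calc (a * b) ^ m * a = (a * a) * (a * b) ^ m * a := by rw [haa, one_mul]
      _ = a * (a * (a * b) ^ m * a) := by group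
      _ = a * (a * b) ^ m := by rw [hinv]
  · set c := g * a * g⁻¹ with hc
    have hconj : a * c = g * (a * (g⁻¹ * a * g))⁻¹ * g⁻¹ := by
      rw [hc, mul_inv_rev, ha']
      have : (g⁻¹ * a * g)⁻¹ = g⁻¹ * a * g := inv_eq_of_mul_eq_one_left hbb
      rw [this]; group
    have hord : orderOf (a * c) = 2 * m := by
      rw [hconj]
      have : orderOf (g * (a * (g⁻¹ * a * g))⁻¹ * g⁻¹) = orderOf ((a * (g⁻¹ * a * g))⁻¹) := by
        have := (MulAut.conj g).orderOf_eq ((a * (g⁻¹ * a * g))⁻¹)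
        simpa [MulAut.conj_apply] using this
      rw [this, orderOf_inv, hm]
    have hpow : (a * c) ^ (2 * m) = 1 := by rw [← hord]; exact pow_orderOf_eq_one _
    have hinv := inv_conj_pow a c haa hcc m
    have h6 : ((a * c) ^ m)⁻¹ = (a * c) ^ m := by
      rw [inv_eq_iff_mul_eq_one, ← pow_add, ← two_mul]; exact hpow
    rw [h6] at hinv
    show (a * c) ^ m * a = a * (a * c) ^ m
    calc (a * c) ^ m * a = (a * a) * (a * c) ^ m * a := by rw [haa, one_mul]
      _ = a * (a * (a * c) ^ m * a) := by group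
      _ = a * (a * c) ^ m := by rw [hinv]

end Cfsg.Agent.S0442
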