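import Cfsg.Statements.S0443
import Mathlib

set_option autoImplicit false
open Cfsg

namespace Cfsg.Agent.S0443

/-- An element of order `p` centralising a Sylow `p`-subgroup lies in it. -/
theorem mem_sylow_of_centralizes {G : Type*} [Group G] (p : ℕ) [Fact p.Prime] (t : G)
    (ht : orderOf t = p) (P : Sylow p G)
    (hP : (P : Subgroup G) ≤ Subgroup.centralizer ({t} : Set G)) : t ∈ (P : Subgroup G) := by
  have hz : IsPGroup p (Subgroup.zpowers t) := by
    intro g
    refine ⟨1, ?_⟩
    obtain ⟨g, hg⟩ := g
    obtain ⟨i, rfl⟩ := Subgroup.mem_zpowers_iff.mp hg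
    apply Subtype.ext
    simp only [pow_one, Subgroup.coe_pow, Subgroup.coe_one]
    rw [← zpow_natCast, ← zpow_mul, mul_comm, zpow_mul, zpow_natCast, ← ht, pow_orderOf_eq_one,
      one_zpow]
  have hnorm : Subgroup.zpowers t ≤ Subgroup.normalizer ((P : Subgroup G) : Set G) := by
    rw [Subgroup.zpowers_le]
    rw [Subgroup.mem_normalizer_iff]
    intro x
    constructor
    · intro hx
      have h1 := hP hx
      rw [Subgroup.mem_centralizer_iff] at h1
      have h2 : t * x = x * t := h1 t rfl
      rw [h2, mul_inv_cancel_right]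
      exact hx
    · intro hx
      have h1 := hP hx
      rw [Subgroup.mem_centralizer_iff] at h1
      have h2 : t * (t * x * t⁻¹) = (t * x * t⁻¹) * t := h1 t rfl
      have h3 : t * x * t⁻¹ = x := by
        have : t * (t * x * t⁻¹) = t * x := by
          rw [h2]; group
        exact mul_left_cancel this
      rw [← h3]; exact hx
  have hsup : IsPGroup p (Subgroup.zpowers t ⊔ (P : Subgroup G) : Subgroup G) :=
    hz.to_sup_of_normal_right' P.isPGroup' hnorm
  have heq := P.is_maximal' hsup le_sup_right
  have : t ∈ Subgroup.zpowers t ⊔ (P : Subgroup G) :=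
    (le_sup_left : Subgroup.zpowers t ≤ _) (Subgroup.mem_zpowers t)
  rw [heq] at this
  exact this

/-- Two definitions of a 2-central involution agree: an element t of order 2 of a finite group lies in the centre of some Sylow 2-subgroup if and only if its centraliser contains some Sylow 2-subgroup. -/
theorem result {G : Type*} [Group G] [Finite G] (t : G) (ht : orderOf t = 2) : Cfsg.IsTwoCentralInvolution t ↔ ∃ P : Sylow 2 G, (P : Subgroup G) ≤ Subgroup.centralizer ({t} : Set G) := by
  have : Fact (Nat.Prime 2) := ⟨Nat.prime_two⟩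
  constructor
  · rintro ⟨_, P, htP, hc⟩
    refine ⟨P, fun x hx => ?_⟩
    rw [Subgroup.mem_centralizer_iff]
    intro y hy
    rw [Set.mem_singleton_iff] at hy
    subst hy
    exact (hc x hx).symm
  · rintro ⟨P, hP⟩
    refine ⟨ht, P, mem_sylow_of_centralizes 2 t ht P hP, fun x hx => ?_⟩
    have h1 := hP hx
    rw [Subgroup.mem_centralizer_iff] at h1
    exact (h1 t rfl).symm

end Cfsg.Agent.S0443
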