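import Cfsg.Statements.S0444
import Mathlib

set_option autoImplicit false
open Cfsg

namespace Cfsg.Agent.S0444

theorem inv2_zpow {H : Type*} [Group H] (g : H) (hg : g * g = 1) (k : ℤ) : g ^ k = 1 ∨ g ^ k = g := by
  have h2 : g ^ (2 : ℤ) = 1 := by rw [zpow_ofNat, pow_two, hg]
  have h3 : g ^ k = g ^ (k % 2) := by
    conv_lhs => rw [← Int.emod_add_mul_ediv k 2]
    rw [zpow_add, zpow_mul, h2, one_zpow, mul_one]
  rcases Int.emod_two_eq_zero_or_one k with h0 | h1
  · left; rw [h3, h0, zpow_zero]
  · right; rw [h3, h1, zpow_one]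

/-- Two members of a set of 3-transpositions which do not commute generate a subgroup isomorphic to the symmetric group on three letters. -/
theorem result {G : Type*} [Group G] {E : Set G} (hE : Cfsg.IsThreeTranspositionSet E) {d e : G} (hd : d ∈ E) (he : e ∈ E) (h : ¬ Commute d e) : Nonempty (Subgroup.closure ({d, e} : Set G) ≃* Equiv.Perm (Fin 3)) := by
  classical
  have hd2 : d * d = 1 := by
    have := hE.1 d hd
    rw [← pow_two, ← this]; exact pow_orderOf_eq_one d
  have he2 : e * e = 1 := by
    have := hE.1 e he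
    rw [← pow_two, ← this]; exact pow_orderOf_eq_one e
  have hdi : d⁻¹ = d := inv_eq_of_mul_eq_one_left hd2
  have hei : e⁻¹ = e := inv_eq_of_mul_eq_one_left he2
  have hd1 : d ≠ 1 := by
    intro h1
    have := hE.1 d hd
    rw [h1, orderOf_one] at this
    omega
  have hde3 : (d * e) ^ 3 = 1 := by
    rcases hE.2 d hd e he with h2 | h3
    · exfalso
      apply h
      have h4 : d * e * (d * e) = 1 := by rw [← pow_two]; exact h2
      have h5 := eq_inv_of_mul_eq_one_left h4
      rw [mul_inv_rev, hdi, hei] at h5
      exact h5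
    · exact h3
  have hbraid : d * e * d = e * d * e := by
    have h4 : d * e * d * (e * d * e) = 1 := by
      have : (d * e) ^ 3 = d * e * d * (e * d * e) := by
        simp only [pow_succ, pow_zero, one_mul, mul_assoc]
      rw [← this]; exact hde3
    have h5 := eq_inv_of_mul_eq_one_left h4
    rw [mul_inv_rev, mul_inv_rev, hdi, hei, ← mul_assoc] at h5
    exact h5
  have hd2' : ∀ a : G, a * d * d = a := fun a => by rw [mul_assoc, hd2, mul_one]
  have he2' : ∀ a : G, a * e * e = a := fun a => by rw [mul_assoc, he2, mul_one]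
  have hsub : ∀ x ∈ Subgroup.closure ({d, e} : Set G),
      x ∈ ({1, d, e, d * e, e * d, d * e * d} : Finset G) := by
    intro x hx
    induction hx using Subgroup.closure_induction_left with
    | one => simp
    | mul_left x hx y hy ih =>
      simp only [Finset.mem_insert, Finset.mem_singleton] at ih ⊢
      rcases hx with rfl | rfl
      · rcases ih with rfl | rfl | rfl | rfl | rfl | rfl <;>
          simp [← mul_assoc, hd2, he2, hd2', he2', hbraid.symm]
      · rcases ih with rfl | rfl | rfl | rfl | rfl | rfl <;>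
          simp [← mul_assoc, hd2, he2, hd2', he2', hbraid.symm]
    | inv_mul_cancel x hx y hy ih =>
      simp only [Finset.mem_insert, Finset.mem_singleton] at ih ⊢
      rcases hx with rfl | rfl
      · rw [hdi]
        rcases ih with rfl | rfl | rfl | rfl | rfl | rfl <;>
          simp [← mul_assoc, hd2, he2, hd2', he2', hbraid.symm]
      · rw [hei]
        rcases ih with rfl | rfl | rfl | rfl | rfl | rfl <;>
          simp [← mul_assoc, hd2, he2, hd2', he2', hbraid.symm]
  have hdH : d ∈ Subgroup.closure ({d, e} : Set G) := Subgroup.subset_closure (by simp)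
  have heH : e ∈ Subgroup.closure ({d, e} : Set G) := Subgroup.subset_closure (by simp)
  have hsetfin : ((Subgroup.closure ({d, e} : Set G) : Subgroup G) : Set G).Finite :=
    Set.Finite.subset (Finset.finite_toSet _) hsub
  have hfin : Finite (Subgroup.closure ({d, e} : Set G)) := hsetfin.to_subtype
  have hcard_le : Nat.card (Subgroup.closure ({d, e} : Set G)) ≤ 6 := by
    have h1 : Nat.card (Subgroup.closure ({d, e} : Set G)) =
        ((Subgroup.closure ({d, e} : Set G) : Subgroup G) : Set G).ncard := Nat.card_coe_set_eq _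
    rw [h1]
    refine (Set.ncard_le_ncard hsub (Finset.finite_toSet _)).trans ?_
    rw [Set.ncard_coe_finset]
    exact Finset.card_le_six
  have h2 : 2 ∣ Nat.card (Subgroup.closure ({d, e} : Set G)) := by
    have := orderOf_dvd_natCard (⟨d, hdH⟩ : Subgroup.closure ({d, e} : Set G))
    rwa [Subgroup.orderOf_mk, hE.1 d hd] at this
  have h3 : 3 ∣ Nat.card (Subgroup.closure ({d, e} : Set G)) := by
    have hdvd := orderOf_dvd_natCard (⟨d * e, mul_mem hdH heH⟩ : Subgroup.closure ({d, e} : Set G))
    have : Fact (Nat.Prime 3) := ⟨Nat.prime_three⟩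
    have ho : orderOf (d * e) = 3 := by
      apply orderOf_eq_prime hde3
      intro h1
      apply h
      have := eq_inv_of_mul_eq_one_left h1
      rw [hei] at this
      rw [this]
    rwa [Subgroup.orderOf_mk, ho] at hdvd
  have h6 : Nat.card (Subgroup.closure ({d, e} : Set G)) = 6 := by
    have h6d : 6 ∣ Nat.card (Subgroup.closure ({d, e} : Set G)) :=
      Nat.Coprime.mul_dvd_of_dvd_of_dvd (by norm_num : Nat.Coprime 2 3) h2 h3
    exact Nat.le_antisymm hcard_le (Nat.le_of_dvd Nat.card_pos h6d)
  have hDcard : Nat.card (Subgroup.zpowers (⟨d, hdH⟩ : Subgroup.closure ({d, e} : Set G))) = 2 := by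
    rw [Nat.card_zpowers, Subgroup.orderOf_mk, hE.1 d hd]
  have hidx : (Subgroup.zpowers (⟨d, hdH⟩ : Subgroup.closure ({d, e} : Set G))).index = 3 := by
    have := (Subgroup.zpowers (⟨d, hdH⟩ : Subgroup.closure ({d, e} : Set G))).card_mul_index
    rw [hDcard, h6] at this
    omega
  have hDmem : ∀ x ∈ Subgroup.zpowers (⟨d, hdH⟩ : Subgroup.closure ({d, e} : Set G)),
      x = 1 ∨ x = ⟨d, hdH⟩ := by
    intro x hx
    obtain ⟨k, rfl⟩ := Subgroup.mem_zpowers_iff.mp hx
    exact inv2_zpow _ (Subtype.ext hd2) k
  have hcore : (Subgroup.zpowers (⟨d, hdH⟩ : Subgroup.closure ({d, e} : Set G))).normalCore = ⊥ := by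
    rw [eq_bot_iff]
    intro x hx
    rw [Subgroup.mem_bot]
    rcases hDmem x (Subgroup.normalCore_le _ hx) with h1 | h1
    · exact h1
    · exfalso
      have hn : (Subgroup.zpowers (⟨d, hdH⟩ : Subgroup.closure ({d, e} : Set G))).normalCore.Normal :=
        inferInstance
      have hc := hn.conj_mem x hx ⟨e, heH⟩
      rcases hDmem _ (Subgroup.normalCore_le _ hc) with h4 | h4
      · rw [h1] at h4
        have h5 := congrArg Subtype.val h4
        simp only [Subgroup.coe_mul, Subgroup.coe_inv, Subgroup.coe_one] at h5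
        apply hd1
        have : d = e⁻¹ * (e * d * e⁻¹) * e := by group
        rw [this, h5]; group
      · rw [h1] at h4
        have h5 := congrArg Subtype.val h4
        simp only [Subgroup.coe_mul, Subgroup.coe_inv] at h5
        apply h
        show d * e = e * d
        have : e * d = (e * d * e⁻¹) * e := by group
        rw [this, h5]
  have hinj : Function.Injective (MulAction.toPermHom (Subgroup.closure ({d, e} : Set G))
      ((Subgroup.closure ({d, e} : Set G)) ⧸
        Subgroup.zpowers (⟨d, hdH⟩ : Subgroup.closure ({d, e} : Set G)))) := by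
    rw [← MonoidHom.ker_eq_bot_iff, ← Subgroup.normalCore_eq_ker, hcore]
  have hq3 : Nat.card ((Subgroup.closure ({d, e} : Set G)) ⧸
        Subgroup.zpowers (⟨d, hdH⟩ : Subgroup.closure ({d, e} : Set G))) = 3 := by
    rw [← Subgroup.index_eq_card, hidx]
  have hbij : Function.Bijective (MulAction.toPermHom (Subgroup.closure ({d, e} : Set G))
      ((Subgroup.closure ({d, e} : Set G)) ⧸
        Subgroup.zpowers (⟨d, hdH⟩ : Subgroup.closure ({d, e} : Set G)))) := by
    rw [Nat.bijective_iff_injective_and_card]
    refine ⟨hinj, ?_⟩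
    rw [h6, Nat.card_perm, hq3]
    rfl
  exact ⟨(MulEquiv.ofBijective _ hbij).trans (Equiv.permCongrHom (Finite.equivFinOfCardEq hq3))⟩

end Cfsg.Agent.S0444
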