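import Cfsg.Statements.S0445
import Mathlib

set_option autoImplicit false
open Cfsg

namespace Cfsg.Agent.S0445

open Matrix

/-- the shape of the elements of the centraliser -/
def mk5 (a : ZMod 2) (u v : Fin 3 → ZMod 2) (h : Matrix (Fin 3) (Fin 3) (ZMod 2)) :
    Matrix (Fin 5) (Fin 5) (ZMod 2) :=
  !![1, a, u 0, u 1, u 2; 0, 1, 0, 0, 0; 0, v 0, h 0 0, h 0 1, h 0 2; 0, v 1, h 1 0, h 1 1, h 1 2;
    0, v 2, h 2 0, h 2 1, h 2 2]

theorem det_mk5 (a : ZMod 2) (u v : Fin 3 → ZMod 2) (h : Matrix (Fin 3) (Fin 3) (ZMod 2)) :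
    (mk5 a u v h).det = h.det := by
  rw [Matrix.det_succ_column_zero]
  simp [mk5, Fin.sum_univ_succ, Matrix.det_succ_row_zero]

theorem comm_mk5 (a : ZMod 2) (u v : Fin 3 → ZMod 2) (h : Matrix (Fin 3) (Fin 3) (ZMod 2)) :
    Matrix.transvection 0 1 (1 : ZMod 2) * mk5 a u v h =
      mk5 a u v h * Matrix.transvection 0 1 (1 : ZMod 2) := by
  rw [Matrix.transvection, add_mul, mul_add, one_mul, mul_one]
  congr 1
  ext i j
  fin_cases i <;> fin_cases j <;>
    simp [mk5, Matrix.mul_apply, Matrix.single_apply]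

theorem shape (g : Matrix (Fin 5) (Fin 5) (ZMod 2)) (hdet : g.det = 1)
    (hc : Matrix.transvection 0 1 (1 : ZMod 2) * g = g * Matrix.transvection 0 1 (1 : ZMod 2)) :
    g = mk5 (g 0 1) (fun k => g 0 k.succ.succ) (fun i => g i.succ.succ 1)
      (fun i k => g i.succ.succ k.succ.succ) := by
  rw [Matrix.transvection, add_mul, mul_add, one_mul, mul_one] at hc
  have hc' : Matrix.single 0 1 (1 : ZMod 2) * g = g * Matrix.single 0 1 (1 : ZMod 2) :=
    add_left_cancel hc
  have hrow : ∀ k : Fin 5, k ≠ 1 → g 1 k = 0 := by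
    intro k hk
    have h1 := congrFun (congrFun hc' 0) k
    rw [Matrix.single_mul_apply_same,
      Matrix.mul_single_apply_of_ne (c := (1 : ZMod 2)) 0 1 0 k hk g, one_mul] at h1
    exact h1
  have hcol : ∀ i : Fin 5, i ≠ 0 → g i 0 = 0 := by
    intro i hi
    have h1 := congrFun (congrFun hc' i) 1
    rw [Matrix.single_mul_apply_of_ne (c := (1 : ZMod 2)) 0 1 i 1 hi g,
      Matrix.mul_single_apply_same, mul_one] at h1
    exact h1.symm
  have h01 : g 0 0 = g 1 1 := by
    have h1 := congrFun (congrFun hc' 0) 1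
    rw [Matrix.single_mul_apply_same, Matrix.mul_single_apply_same, mul_one, one_mul] at h1
    exact h1.symm
  have h00 : g 0 0 = 1 := by
    by_contra hne
    have h0 : g 0 0 = 0 := by
      revert hne
      generalize g 0 0 = x
      revert x
      decide
    have hz : g.det = 0 := by
      apply Matrix.det_eq_zero_of_column_eq_zero 0
      intro i
      by_cases hi : i = 0
      · rw [hi, h0]
      · exact hcol i hi
    rw [hz] at hdet
    exact zero_ne_one hdet
  have h11 : g 1 1 = 1 := by rw [← h01, h00]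
  ext i j
  fin_cases i <;> fin_cases j <;> simp [mk5, h00, h11] <;>
    first
      | rfl
      | exact hrow _ (by decide)
      | exact hcol _ (by decide)

theorem result (s : Matrix.SpecialLinearGroup (Fin 5) (ZMod 2)) (hs : (s : Matrix (Fin 5) (Fin 5) (ZMod 2)) = Matrix.transvection 0 1 1) : Nat.card (Subgroup.centralizer ({s} : Set (Matrix.SpecialLinearGroup (Fin 5) (ZMod 2)))) = 21504 := by
  have hmem : ∀ g : Matrix.SpecialLinearGroup (Fin 5) (ZMod 2),
      g ∈ Subgroup.centralizer ({s} : Set (Matrix.SpecialLinearGroup (Fin 5) (ZMod 2))) ↔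
      Matrix.transvection 0 1 (1 : ZMod 2) * (g : Matrix (Fin 5) (Fin 5) (ZMod 2)) =
        (g : Matrix (Fin 5) (Fin 5) (ZMod 2)) * Matrix.transvection 0 1 (1 : ZMod 2) := by
    intro g
    rw [Subgroup.mem_centralizer_iff]
    constructor
    · intro h
      have h1 := h s (Set.mem_singleton s)
      have h2 := congrArg (fun x : Matrix.SpecialLinearGroup (Fin 5) (ZMod 2) =>
        (x : Matrix (Fin 5) (Fin 5) (ZMod 2))) h1
      simp only [Matrix.SpecialLinearGroup.coe_mul, hs] at h2
      exact h2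
    · intro h x hx
      rw [Set.mem_singleton_iff] at hx
      subst hx
      apply Subtype.ext
      simp only [Matrix.SpecialLinearGroup.coe_mul, hs]
      exact h
  have hdet1 : ∀ x : ZMod 2, x ≠ 0 → x = 1 := by decide
  -- the map to parameters
  let f : Subgroup.centralizer ({s} : Set (Matrix.SpecialLinearGroup (Fin 5) (ZMod 2))) →
      ZMod 2 × (Fin 3 → ZMod 2) × (Fin 3 → ZMod 2) × GL (Fin 3) (ZMod 2) := fun g =>
    (((g : Matrix.SpecialLinearGroup (Fin 5) (ZMod 2)) : Matrix (Fin 5) (Fin 5) (ZMod 2)) 0 1,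
      fun k => ((g : Matrix.SpecialLinearGroup (Fin 5) (ZMod 2)) :
        Matrix (Fin 5) (Fin 5) (ZMod 2)) 0 k.succ.succ,
      fun i => ((g : Matrix.SpecialLinearGroup (Fin 5) (ZMod 2)) :
        Matrix (Fin 5) (Fin 5) (ZMod 2)) i.succ.succ 1,
      Matrix.GeneralLinearGroup.mkOfDetNeZero
        (fun i k => ((g : Matrix.SpecialLinearGroup (Fin 5) (ZMod 2)) :
          Matrix (Fin 5) (Fin 5) (ZMod 2)) i.succ.succ k.succ.succ)
        (by
          have h1 := shape _ (g : Matrix.SpecialLinearGroup (Fin 5) (ZMod 2)).2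
            ((hmem g).mp g.2)
          have h2 := det_mk5
            ((((g : Matrix.SpecialLinearGroup (Fin 5) (ZMod 2)) :
              Matrix (Fin 5) (Fin 5) (ZMod 2))) 0 1)
            (fun k => ((g : Matrix.SpecialLinearGroup (Fin 5) (ZMod 2)) :
              Matrix (Fin 5) (Fin 5) (ZMod 2)) 0 k.succ.succ)
            (fun i => ((g : Matrix.SpecialLinearGroup (Fin 5) (ZMod 2)) :
              Matrix (Fin 5) (Fin 5) (ZMod 2)) i.succ.succ 1)
            (fun i k => ((g : Matrix.SpecialLinearGroup (Fin 5) (ZMod 2)) :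
              Matrix (Fin 5) (Fin 5) (ZMod 2)) i.succ.succ k.succ.succ)
          rw [← h1, (g : Matrix.SpecialLinearGroup (Fin 5) (ZMod 2)).2] at h2
          rw [← h2]
          exact one_ne_zero))
  have hinj : Function.Injective f := by
    intro g g' hgg
    have h1 := shape _ (g : Matrix.SpecialLinearGroup (Fin 5) (ZMod 2)).2 ((hmem g).mp g.2)
    have h2 := shape _ (g' : Matrix.SpecialLinearGroup (Fin 5) (ZMod 2)).2 ((hmem g').mp g'.2)
    simp only [f, Prod.mk.injEq] at hgg
    obtain ⟨e1, e2, e3, e4⟩ := hgg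
    have e4' : (fun i k : Fin 3 => ((g : Matrix.SpecialLinearGroup (Fin 5) (ZMod 2)) :
          Matrix (Fin 5) (Fin 5) (ZMod 2)) i.succ.succ k.succ.succ) =
        (fun i k : Fin 3 => ((g' : Matrix.SpecialLinearGroup (Fin 5) (ZMod 2)) :
          Matrix (Fin 5) (Fin 5) (ZMod 2)) i.succ.succ k.succ.succ) :=
      congrArg (fun x : GL (Fin 3) (ZMod 2) => (x : Matrix (Fin 3) (Fin 3) (ZMod 2))) e4
    apply Subtype.ext
    apply Subtype.ext
    rw [h1, h2, e1, e2, e3, e4']
  have hsurj : Function.Surjective f := by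
    rintro ⟨a, u, v, h⟩
    have hd : (mk5 a u v (h : Matrix (Fin 3) (Fin 3) (ZMod 2))).det = 1 := by
      rw [det_mk5]
      apply hdet1
      intro h0
      have := (Matrix.isUnit_iff_isUnit_det _).mp h.isUnit
      rw [h0] at this
      exact not_isUnit_zero this
    refine ⟨⟨(⟨mk5 a u v (h : Matrix (Fin 3) (Fin 3) (ZMod 2)), hd⟩ :
      Matrix.SpecialLinearGroup (Fin 5) (ZMod 2)), ?_⟩, ?_⟩
    · exact (hmem _).mpr (comm_mk5 a u v _)
    · simp only [f, Prod.mk.injEq]
      refine ⟨?_, ?_, ?_, ?_⟩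
      · simp [mk5]
      · ext k
        fin_cases k <;> simp [mk5]
      · ext i
        fin_cases i <;> simp [mk5]
      · apply Units.ext
        ext i k
        fin_cases i <;> fin_cases k <;> rfl
  rw [Nat.card_congr (Equiv.ofBijective f ⟨hinj, hsurj⟩)]
  rw [Nat.card_prod, Nat.card_prod, Nat.card_prod, Matrix.card_GL_field]
  simp [Nat.card_eq_fintype_card, Fin.prod_univ_succ]

end Cfsg.Agent.S0445
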