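import Cfsg.Statements.S0446
import Mathlib

set_option autoImplicit false
open Cfsg

namespace Cfsg.Agent.S0446

/-- Every finite group of even order contains a 2-central involution, i.e. an element of order 2 in the centre of some Sylow 2-subgroup. -/
theorem result {G : Type*} [Group G] [Finite G] (h : Even (Nat.card G)) : ∃ t : G, Cfsg.IsTwoCentralInvolution t := by
  have : Fact (Nat.Prime 2) := ⟨Nat.prime_two⟩
  obtain ⟨P⟩ : Nonempty (Sylow 2 G) := inferInstance
  have hdvd : 2 ∣ Nat.card G := even_iff_two_dvd.mp h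
  have hcardP : Nat.card P = 2 ^ (Nat.card G).factorization 2 := P.card_eq_multiplicity
  have hpos : 0 < (Nat.card G).factorization 2 :=
    Nat.Prime.factorization_pos_of_dvd Nat.prime_two Nat.card_pos.ne' hdvd
  have hP1 : 1 < Nat.card P := by
    rw [hcardP]
    exact Nat.one_lt_two_pow hpos.ne'
  have hnt : Nontrivial P := Finite.one_lt_card_iff_nontrivial.mp hP1
  have hPp : IsPGroup 2 P := P.isPGroup'
  have hcnt : Nontrivial (Subgroup.center P) := hPp.center_nontrivial
  have hcp : IsPGroup 2 (Subgroup.center P) := hPp.to_subgroup _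
  obtain ⟨n, hn⟩ := IsPGroup.iff_card.mp hcp
  have hn0 : n ≠ 0 := by
    rintro rfl
    have := Finite.one_lt_card_iff_nontrivial.mpr hcnt
    rw [hn] at this
    simp at this
  have h2 : 2 ∣ Nat.card (Subgroup.center P) := by
    rw [hn]; exact dvd_pow_self 2 hn0
  obtain ⟨z, hz⟩ := exists_prime_orderOf_dvd_card' 2 h2
  refine ⟨((z : P) : G), ?_, P, (z : P).2, fun x hx => ?_⟩
  · rw [Subgroup.orderOf_coe, Subgroup.orderOf_coe]; exact hz
  · have hzc := z.2
    rw [Subgroup.mem_center_iff] at hzc
    have := hzc ⟨x, hx⟩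
    exact congrArg Subtype.val this

end Cfsg.Agent.S0446
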