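import Cfsg.Statements.S0481
import Mathlib

set_option autoImplicit false
open Cfsg

namespace Cfsg.Agent.S0481

/-- Large extraspecial subgroups: let z be an involution of a finite group G whose centraliser C contains a normal 2-subgroup Q with centre of order 2 and all squares central, such that every element of G centralising Q lies in Q. Then C contains a Sylow 2-subgroup of G, and any involution of G whose centraliser contains a Sylow 2-subgroup of G is conjugate to z. -/
theorem result {G : Type*} [Group G] [Finite G] (z : G) (hz : orderOf z = 2) (Q : Subgroup G) (hQC : Q ≤ Subgroup.centralizer ({z} : Set G)) (hQn : ∀ g ∈ Subgroup.centralizer ({z} : Set G), ∀ q ∈ Q, g * q * g⁻¹ ∈ Q) (hQ2 : IsPGroup 2 Q) (hZ : Nat.card (Subgroup.center Q) = 2) (hsq : ∀ x : Q, x ^ 2 ∈ Subgroup.center Q) (hlarge : Subgroup.centralizer (Q : Set G) ≤ Q) : (∃ P : Sylow 2 G, (P : Subgroup G) ≤ Subgroup.centralizer ({z} : Set G)) ∧ ∀ u : G, orderOf u = 2 → (∃ P : Sylow 2 G, (P : Subgroup G) ≤ Subgroup.centralizer ({u} : Set G))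 → IsConj z u := by
  have hz1 : z ≠ 1 := by
    intro h
    rw [h, orderOf_one] at hz
    omega
  have hzcQ : z ∈ Subgroup.centralizer (Q : Set G) := by
    rw [Subgroup.mem_centralizer_iff]
    intro q hq
    have := hQC hq
    rw [Subgroup.mem_centralizer_iff] at this
    exact (this z rfl).symm
  have hzQ : z ∈ Q := hlarge hzcQ
  have hcen : ∀ w : G, ∀ hw : w ∈ Q, w ∈ Subgroup.centralizer (Q : Set G) →
      (⟨w, hw⟩ : Q) ∈ Subgroup.center Q := by
    intro w hw hwc
    rw [Subgroup.mem_center_iff]
    intro q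
    exact Subtype.ext ((Subgroup.mem_centralizer_iff.mp hwc) q q.2)
  have key : ∀ w : G, w ≠ 1 → w ∈ Subgroup.centralizer (Q : Set G) → w = z := by
    intro w hw1 hwc
    have hwQ := hlarge hwc
    obtain ⟨y, hy, huniq⟩ := (Nat.card_eq_two_iff' (1 : Subgroup.center Q)).mp hZ
    have e1 := huniq ⟨⟨w, hwQ⟩, hcen w hwQ hwc⟩ (by
      intro h
      apply hw1
      have := congrArg (fun x : Subgroup.center Q => ((x : Q) : G)) h
      simpa using this)
    have e2 := huniq ⟨⟨z, hzQ⟩, hcen z hzQ hzcQ⟩ (by
      intro h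
      apply hz1
      have := congrArg (fun x : Subgroup.center Q => ((x : Q) : G)) h
      simpa using this)
    have := congrArg (fun x : Subgroup.center Q => ((x : Q) : G)) (e1.trans e2.symm)
    simpa using this
  obtain ⟨P, hQP⟩ := hQ2.exists_le_sylow
  have hPc : (P : Subgroup G) ≤ Subgroup.centralizer ({z} : Set G) := by
    haveI : Nontrivial P := ⟨⟨⟨z, hQP hzQ⟩, 1, fun h => hz1 (congrArg Subtype.val h)⟩⟩
    haveI := P.isPGroup'.center_nontrivial
    obtain ⟨w, hw⟩ := exists_ne (1 : Subgroup.center (P : Subgroup G))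
    have hwz : ((w : P) : G) = z := by
      apply key
      · intro h
        apply hw
        ext
        simpa using h
      · rw [Subgroup.mem_centralizer_iff]
        intro q hq
        have := (Subgroup.mem_center_iff.mp w.2) ⟨q, hQP hq⟩
        exact congrArg Subtype.val this
    intro p hp
    rw [Subgroup.mem_centralizer_iff]
    intro x hx
    rw [Set.mem_singleton_iff] at hx
    rw [hx]
    have h1 := (Subgroup.mem_center_iff.mp w.2) ⟨p, hp⟩
    have h2 := congrArg Subtype.val h1
    simp only [Subgroup.coe_mul] at h2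
    rw [hwz] at h2
    exact h2.symm
  refine ⟨⟨P, hPc⟩, ?_⟩
  rintro u hu ⟨P', hP'⟩
  obtain ⟨g, hg⟩ := MulAction.exists_smul_eq G P' P
  have hu1 : u ≠ 1 := by
    intro h
    rw [h, orderOf_one] at hu
    omega
  have hu'c : g * u * g⁻¹ ∈ Subgroup.centralizer (Q : Set G) := by
    rw [Subgroup.mem_centralizer_iff]
    intro q hq
    have hqP : q ∈ (P : Subgroup G) := hQP hq
    rw [← hg, Sylow.coe_subgroup_smul, Subgroup.mem_smul_pointwise_iff_exists] at hqP
    obtain ⟨s, hs, hsq'⟩ := hqP
    have hc := hP' hs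
    rw [Subgroup.mem_centralizer_iff] at hc
    have h3 := hc u rfl
    rw [← hsq', MulAut.smul_def, MulAut.conj_apply]
    calc g * s * g⁻¹ * (g * u * g⁻¹) = g * (s * u) * g⁻¹ := by group
      _ = g * (u * s) * g⁻¹ := by rw [h3]
      _ = g * u * g⁻¹ * (g * s * g⁻¹) := by group
  have h4 : g * u * g⁻¹ = z := by
    apply key _ _ hu'c
    intro h
    apply hu1
    have : u = g⁻¹ * (g * u * g⁻¹) * g := by group
    rw [this, h]
    group
  rw [isConj_comm, isConj_iff]
  exact ⟨g, h4⟩

end Cfsg.Agent.S0481
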