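import Cfsg.Statements.S0497
import Mathlib
import Cfsg.Agent.Helper4.A6f
-- import your own Cfsg.Agent.* helpers here

set_option autoImplicit false
open Cfsg

namespace Cfsg.Agent.S0497

/-- A simple group of order 360 is isomorphic to the alternating group of degree 6. -/
theorem result {G : Type*} [Group G] [Finite G] [IsSimpleGroup G]
    (h : Nat.card G = 360) : Nonempty (G ≃* alternatingGroup (Fin 6)) := by
  haveI : IsSimpleGroup (alternatingGroup (Fin 6)) :=
    alternatingGroup.isSimpleGroup (by simp [Nat.card_eq_fintype_card])
  have hA6 : Nat.card (alternatingGroup (Fin 6)) = 360 := by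
    have h2 := two_mul_card_alternatingGroup (α := Fin 6)
    rw [Fintype.card_perm, Fintype.card_fin] at h2
    rw [Nat.card_eq_fintype_card]
    have h720 : (6 : ℕ).factorial = 720 := by decide
    omega
  exact Cfsg.Agent.Helper4.A6.equiv_of_card h hA6

end Cfsg.Agent.S0497
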