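import Cfsg.Statements.S0498
import Mathlib
import Cfsg.Agent.Helper4.Zass11
import Cfsg.Agent.Helper4.Zass13
import Cfsg.Agent.S0243
-- import your own Cfsg.Agent.* helpers here

set_option autoImplicit false
open Cfsg

namespace Cfsg.Agent.S0498

/-- A simple group of order 660, respectively 1092, is isomorphic to the projective special linear group of dimension 2
over the field with 11, respectively 13, elements. -/
theorem result {G : Type*} [Group G] [Finite G] [IsSimpleGroup G] (p : ℕ)
    (hp : p = 11 ∨ p = 13) (h : 2 * Nat.card G = p * (p ^ 2 - 1)) {F : Type*} [Field F] [Fintype F]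
    (hF : Fintype.card F = p) : Nonempty (G ≃* Matrix.ProjectiveSpecialLinearGroup (Fin 2) F) := by
  haveI : IsSimpleGroup (Matrix.ProjectiveSpecialLinearGroup (Fin 2) F) :=
    Matrix.ProjectiveSpecialLinearGroup.rank_two_simple
      (by rw [Nat.card_eq_fintype_card, hF]; rcases hp with rfl | rfl <;> norm_num)
  have hcard := Cfsg.Agent.S0243.result hF 2 le_rfl
  rcases hp with rfl | rfl
  · have hG : Nat.card G = 660 := by norm_num at h; omega
    have hL : Nat.card (Matrix.ProjectiveSpecialLinearGroup (Fin 2) F) = 660 := by
      simp [Fin.prod_univ_two] at hcard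
      omega
    haveI : Finite (Matrix.ProjectiveSpecialLinearGroup (Fin 2) F) :=
      Nat.finite_of_card_ne_zero (by rw [hL]; norm_num)
    exact Cfsg.Agent.Helper4.Zass11.equiv_of_card hG hL
  · have hG : Nat.card G = 1092 := by norm_num at h; omega
    have hL : Nat.card (Matrix.ProjectiveSpecialLinearGroup (Fin 2) F) = 1092 := by
      simp [Fin.prod_univ_two] at hcard
      omega
    haveI : Finite (Matrix.ProjectiveSpecialLinearGroup (Fin 2) F) :=
      Nat.finite_of_card_ne_zero (by rw [hL]; norm_num)
    exact Cfsg.Agent.Helper4.Zass13.equiv_of_card hG hL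

end Cfsg.Agent.S0498
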