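import Cfsg.Statements.S0502
import Mathlib
import Cfsg.Agent.Helper4.Four

set_option autoImplicit false
open Cfsg

namespace Cfsg.Agent.S0502

open Cfsg.Agent.Helper4.Four

theorem rel_symm {P : Type*} [Group P] {A B : Subgroup P}
    (h : IsKleinFour A ∧ IsKleinFour B ∧ ∀ a ∈ A, ∀ b ∈ B, a * b = b * a) :
    IsKleinFour B ∧ IsKleinFour A ∧ ∀ b ∈ B, ∀ a ∈ A, b * a = a * b :=
  ⟨h.2.1, h.1, fun b hb a ha => (h.2.2 a ha b hb).symm⟩

/-- If a finite 2-group has a normal elementary abelian subgroup of order at least 8, then any two of its Klein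
four-subgroups are joined by a chain of Klein four-subgroups with consecutive members commuting elementwise. -/
theorem result {P : Type*} [Group P] [Finite P] (hP : IsPGroup 2 P)
    (E : Subgroup P) [E.Normal] (hE : IsMulCommutative E) (hE2 : ∀ e ∈ E, e ^ 2 = 1) (hE8 : 8 ≤ Nat.card E) :
    Cfsg.IsFourConnected P := by
  have hEc : ∀ a ∈ E, ∀ b ∈ E, a * b = b * a := by
    intro a ha b hb
    have := hE.is_comm.comm (⟨a, ha⟩ : E) ⟨b, hb⟩
    exact congrArg Subtype.val this
  have hEsq : ∀ e ∈ E, e * e = 1 := fun e he => by rw [← pow_two]; exact hE2 e he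
  have hC3 : ∀ a : P, a * a = 1 → 3 ≤ Nat.card (E ⊓ Subgroup.centralizer {a} : Subgroup P) := by
    intro a ha
    have h1 := cent_sq E hEc hEsq a ha (fun d hd => ‹E.Normal›.conj_mem d hd a)
    by_contra hlt
    push Not at hlt
    have : Nat.card (E ⊓ Subgroup.centralizer {a} : Subgroup P) ^ 2 ≤ 2 ^ 2 :=
      Nat.pow_le_pow_left (by omega) 2
    omega
  have reach : ∀ U : Subgroup P, IsKleinFour U → ∃ F : Subgroup P, IsKleinFour F ∧ F ≤ E ∧
      Relation.ReflTransGen (fun A B : Subgroup P =>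
        IsKleinFour A ∧ IsKleinFour B ∧ ∀ a ∈ A, ∀ b ∈ B, a * b = b * a) U F ∧
      Relation.ReflTransGen (fun A B : Subgroup P =>
        IsKleinFour A ∧ IsKleinFour B ∧ ∀ a ∈ A, ∀ b ∈ B, a * b = b * a) F U := by
    intro U hU
    have hUsq := kf_sq U hU
    have hUc := kf_comm U hU
    have hU3 : 3 ≤ Nat.card U := by rw [hU.card_four]; norm_num
    obtain ⟨a, haU, ha1, -⟩ := exists_ne_pair U hU3 1 1
    obtain ⟨b, hbU, hb1, hba⟩ := exists_ne_pair U hU3 1 a
    have hab : a * b = b * a := hUc a haU b hbU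
    have hUeq : four a b (hUsq a haU) (hUsq b hbU) hab = U :=
      kf_eq_four U hU haU hbU ha1 hb1 (Ne.symm hba)
    have hD3 := hC3 a (hUsq a haU)
    have hD := cent_sq (E ⊓ Subgroup.centralizer {a}) (fun x hx y hy => hEc x hx.1 y hy.1)
      (fun d hd => hEsq d hd.1) b (hUsq b hbU) (by
      intro d hd
      refine Subgroup.mem_inf.mpr ⟨‹E.Normal›.conj_mem d hd.1 b, Subgroup.mem_centralizer_iff.mpr ?_⟩
      intro x hx
      rw [Set.mem_singleton_iff] at hx
      rw [hx]
      have hda : a * d = d * a := (Subgroup.mem_centralizer_iff.mp hd.2) a rfl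
      have hab' : a * b⁻¹ = b⁻¹ * a := by
        calc a * b⁻¹ = b⁻¹ * (b * a) * b⁻¹ := by group
          _ = b⁻¹ * (a * b) * b⁻¹ := by rw [hab]
          _ = b⁻¹ * a := by group
      calc a * (b * d * b⁻¹) = (a * b) * d * b⁻¹ := by group
        _ = b * (a * d) * b⁻¹ := by rw [hab]; group
        _ = b * d * (a * b⁻¹) := by rw [hda]; group
        _ = b * d * b⁻¹ * a := by rw [hab']; group)
    have hD2 : 2 ≤ Nat.card
        ((E ⊓ Subgroup.centralizer {a}) ⊓ Subgroup.centralizer {b} : Subgroup P) := by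
      by_contra hlt
      push Not at hlt
      have : Nat.card ((E ⊓ Subgroup.centralizer {a}) ⊓ Subgroup.centralizer {b} : Subgroup P) ^ 2
          ≤ 1 ^ 2 := Nat.pow_le_pow_left (by omega) 2
      omega
    obtain ⟨e, he, he1⟩ := exists_ne_one _ hD2
    have heE : e ∈ E := he.1.1
    have hea : a * e = e * a := (Subgroup.mem_centralizer_iff.mp he.1.2) a rfl
    have heb : b * e = e * b := (Subgroup.mem_centralizer_iff.mp he.2) b rfl
    have heU : ∀ u ∈ U, e * u = u * e := by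
      intro u hu
      rw [← hUeq] at hu
      exact four_commute hu hea.symm heb.symm
    obtain ⟨a₀, ha₀U, ha₀1, ha₀e⟩ := exists_ne_pair U hU3 1 e
    have ha₀sq := hUsq a₀ ha₀U
    have ha₀e' : a₀ * e = e * a₀ := (heU a₀ ha₀U).symm
    obtain ⟨f, hf, hf1, hfe⟩ := exists_ne_pair _ (hC3 a₀ ha₀sq) 1 e
    have hfE : f ∈ E := hf.1
    have hfa : a₀ * f = f * a₀ := (Subgroup.mem_centralizer_iff.mp hf.2) a₀ rfl
    have hef : e * f = f * e := hEc e heE f hfE
    have hW : IsKleinFour (four a₀ e ha₀sq (hEsq e heE) ha₀e') := four_isKleinFour ha₀1 he1 ha₀e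
    have hF : IsKleinFour (four e f (hEsq e heE) (hEsq f hfE) hef) :=
      four_isKleinFour he1 hf1 (Ne.symm hfe)
    have hUW : ∀ u ∈ U, ∀ w ∈ four a₀ e ha₀sq (hEsq e heE) ha₀e', u * w = w * u := by
      intro u hu w hw
      exact four_commute hw (hUc u hu a₀ ha₀U) (heU u hu).symm
    have hWF : ∀ w ∈ four a₀ e ha₀sq (hEsq e heE) ha₀e',
        ∀ x ∈ four e f (hEsq e heE) (hEsq f hfE) hef, w * x = x * w := by
      intro w hw x hx
      have hxa : x * a₀ = a₀ * x := (four_commute hx ha₀e' hfa).symm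
      have hxe : x * e = e * x := (four_commute hx rfl hef).symm
      exact (four_commute hw hxa hxe).symm
    refine ⟨_, hF, four_le heE hfE, ?_, ?_⟩
    · exact (Relation.ReflTransGen.single ⟨hU, hW, hUW⟩).tail ⟨hW, hF, hWF⟩
    · refine Relation.ReflTransGen.head (b := four a₀ e ha₀sq (hEsq e heE) ha₀e') ?_
        (Relation.ReflTransGen.single ?_)
      · exact rel_symm ⟨hW, hF, hWF⟩
      · exact rel_symm ⟨hU, hW, hUW⟩
  intro U V hU hV
  obtain ⟨F, hF, hFE, hUF, -⟩ := reach U hU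
  obtain ⟨F', hF', hF'E, -, hF'V⟩ := reach V hV
  exact (hUF.tail ⟨hF, hF', fun x hx y hy => hEc x (hFE hx) y (hF'E hy)⟩).trans hF'V

end Cfsg.Agent.S0502
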