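import Cfsg.Statements.S3761
import Mathlib
import Cfsg.Agent.Helper4.CycNormal2
import Cfsg.Agent.Helper9.Recog

set_option autoImplicit false
open Cfsg

namespace Cfsg.Agent.S3761

open Cfsg.Agent.Helper4.CycNormal Cfsg.Agent.Helper4.CycNormal2

/-- Let G be a finite non-abelian p-group with a cyclic normal subgroup U of order p^n such that C_G(U) = U. Then either p = 2 and G is dihedral, generalized quaternion or semidihedral of order 2^(n+1); or, writing U₁ for the subgroup generated by the p-th powers of elements of U and M = C_G(U₁), the subgroup U has index p in M and the subgroup Ω₁(M) generated by the elements of M of order dividing p is elementary abelian of order p² and characteristic in G. -/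
theorem result {G : Type*} [Group G] [Finite G] {p : ℕ} [Fact p.Prime] (hG : IsPGroup p G) (hna : ¬ IsMulCommutative G) (U : Subgroup G) [U.Normal] (hU : IsCyclic U) (n : ℕ) (hUn : Nat.card U = p ^ n) (hC : Subgroup.centralizer (U : Set G) = U) : (p = 2 ∧ Nat.card G = 2 ^ (n + 1) ∧ ((∃ m : ℕ, Nonempty (G ≃* DihedralGroup m)) ∨ (∃ m : ℕ, Nonempty (G ≃* QuaternionGroup m)) ∨ Cfsg.IsQuasiDihedral G)) ∨ (U.relIndex (Subgroup.centralizer (Cfsg.powerClosure p 1 U : Set G)) = p ∧ Cfsg.IsElementaryAbelian p (Cfsg.omegaOne p (Subgroup.centralizer (Cfsg.powerClosure p 1 U : Set G))) ∧ Nat.card ↥(Cfsg.omegaOne p (Subgroup.centralizer (Cfsg.powerClosure p 1 U : Set G))) = p ^ 2 ∧ (Cfsg.omegaOne p (Subgroup.centralizer (Cfsg.powerClosure p 1 U : Set G))).Characteristic) := by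
  have hp : p.Prime := Fact.out
  obtain ⟨a, haU, hUz⟩ : ∃ a : G, a ∈ U ∧ U = Subgroup.zpowers a := by
    obtain ⟨g, hg⟩ := hU.exists_generator
    refine ⟨g, g.2, ?_⟩
    ext x
    constructor
    · intro hx
      obtain ⟨k, hk⟩ := Subgroup.mem_zpowers_iff.mp (hg ⟨x, hx⟩)
      exact Subgroup.mem_zpowers_iff.mpr ⟨k, by
        have := congrArg Subtype.val hk
        simpa using this⟩
    · intro hx
      obtain ⟨k, rfl⟩ := Subgroup.mem_zpowers_iff.mp hx
      exact zpow_mem g.2 k
  subst hUz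
  have ha : orderOf a = p ^ n := by rw [← Nat.card_zpowers, hUn]
  have hnorm : ∀ g : G, g * a * g⁻¹ ∈ Subgroup.zpowers a := by
    intro g; exact ‹(Subgroup.zpowers a).Normal›.conj_mem _ haU g
  have hcent : ∀ g : G, g * a = a * g → g ∈ Subgroup.zpowers a := by
    intro g hg
    rw [← hC, Subgroup.mem_centralizer_iff]
    intro u hu
    rw [SetLike.mem_coe] at hu
    obtain ⟨i, rfl⟩ := Subgroup.mem_zpowers_iff.mp hu
    exact ((Commute.zpow_right (show Commute g a from hg) i).eq).symm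
  obtain ⟨g₁, hg₁⟩ : ∃ g : G, g ∉ Subgroup.zpowers a := by
    by_contra hcon
    push Not at hcon
    apply hna
    refine ⟨⟨fun x y => ?_⟩⟩
    obtain ⟨i, rfl⟩ := Subgroup.mem_zpowers_iff.mp (hcon x)
    obtain ⟨j, rfl⟩ := Subgroup.mem_zpowers_iff.mp (hcon y)
    exact (Commute.zpow_zpow_self a i j).eq
  obtain ⟨g₀, hg₀, hg₀p⟩ : ∃ g : G, g ∉ Subgroup.zpowers a ∧ g ^ p ∈ Subgroup.zpowers a := by
    obtain ⟨t, ht⟩ := hG g₁
    have hex : ∃ j : ℕ, g₁ ^ (p ^ j) ∈ Subgroup.zpowers a := ⟨t, by rw [ht]; exact one_mem _⟩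
    classical
    have hj₀spec : g₁ ^ (p ^ (Nat.find hex)) ∈ Subgroup.zpowers a := Nat.find_spec hex
    have hj₀pos : Nat.find hex ≠ 0 := by
      intro h0
      rw [h0] at hj₀spec
      simp at hj₀spec
      exact hg₁ hj₀spec
    obtain ⟨j₁, hj₁⟩ : ∃ j₁, Nat.find hex = j₁ + 1 := ⟨Nat.find hex - 1, by omega⟩
    refine ⟨g₁ ^ (p ^ j₁), ?_, ?_⟩
    · exact Nat.find_min hex (by omega : j₁ < Nat.find hex)
    · rw [← pow_mul, ← pow_succ, ← hj₁]; exact hj₀spec
  obtain ⟨k, hk⟩ := Subgroup.mem_zpowers_iff.mp (hnorm g₀)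
  have hcp : g₀ ^ p * a = a * g₀ ^ p := by
    obtain ⟨i, hi⟩ := Subgroup.mem_zpowers_iff.mp hg₀p
    rw [← hi]; exact ((Commute.refl a).zpow_left i).eq
  have hdvd : ((p ^ n : ℕ) : ℤ) ∣ k ^ p - 1 := dvd_of_pow_comm ha hk.symm p hcp
  have hn2 : 2 ≤ n := by
    by_contra hlt
    apply hg₀
    apply hcent
    have h1 : ((p ^ n : ℕ) : ℤ) ∣ k - 1 := by
      have hn1 : n = 0 ∨ n = 1 := by omega
      rcases hn1 with rfl | rfl
      · simp
      · have h3 : (p : ℤ) ∣ k - 1 := nt_fermat p k (by simpa using hdvd)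
        simpa using h3
    have h2 := zpow_of_dvd_sub ha h1
    rw [zpow_one] at h2
    rw [h2] at hk
    exact mul_inv_eq_iff_eq_mul.mp hk.symm
  obtain ⟨N, rfl⟩ : ∃ N, n = N + 1 := ⟨n - 1, by omega⟩
  have hN : 1 ≤ N := by omega
  have hM : ∀ m : G, m ∈ Subgroup.centralizer (Cfsg.powerClosure p 1 (Subgroup.zpowers a) : Set G) ↔
      m * a ^ p = a ^ p * m := by
    intro m
    constructor
    · intro hm
      have h1 : a ^ p ∈ (Cfsg.powerClosure p 1 (Subgroup.zpowers a) : Set G) :=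
        Subgroup.subset_closure ⟨a, haU, by rw [pow_one]⟩
      exact ((Subgroup.mem_centralizer_iff.mp hm) _ h1).symm
    · intro hm
      rw [Subgroup.mem_centralizer_iff]
      intro h hh
      have hle : Cfsg.powerClosure p 1 (Subgroup.zpowers a) ≤ Subgroup.centralizer {m} := by
        unfold Cfsg.powerClosure
        rw [Subgroup.closure_le]
        rintro y ⟨x, hx, rfl⟩
        obtain ⟨i, rfl⟩ := Subgroup.mem_zpowers_iff.mp hx
        rw [SetLike.mem_coe, Subgroup.mem_centralizer_iff]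
        intro m' hm'
        rw [Set.mem_singleton_iff] at hm'
        subst hm'
        rw [pow_one, ← zpow_natCast, ← zpow_mul, mul_comm, zpow_mul, zpow_natCast]
        exact (Commute.zpow_right (show Commute m' (a ^ p) from hm) i).eq
      exact ((Subgroup.mem_centralizer_iff.mp (hle hh)) m (Set.mem_singleton m)).symm
  have hfin : ∀ g : G, g ∈ Subgroup.centralizer (Cfsg.powerClosure p 1 (Subgroup.zpowers a) : Set G) →
      g ∉ Subgroup.zpowers a → p ∣ p ^ (N - 1) * p.choose 2 →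
      ((Subgroup.zpowers a).relIndex (Subgroup.centralizer (Cfsg.powerClosure p 1 (Subgroup.zpowers a) : Set G)) = p ∧ Cfsg.IsElementaryAbelian p (Cfsg.omegaOne p (Subgroup.centralizer (Cfsg.powerClosure p 1 (Subgroup.zpowers a) : Set G))) ∧ Nat.card ↥(Cfsg.omegaOne p (Subgroup.centralizer (Cfsg.powerClosure p 1 (Subgroup.zpowers a) : Set G))) = p ^ 2 ∧ (Cfsg.omegaOne p (Subgroup.centralizer (Cfsg.powerClosure p 1 (Subgroup.zpowers a) : Set G))).Characteristic) := by
    intro g hgM hgU hdiv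
    obtain ⟨h1, h2, h3, h4, h5⟩ := caseB hG ha hN hdiv hnorm hcent _ hM g hgM hgU
    exact ⟨h1, ⟨h2, h3⟩, h4, h5⟩
  by_cases hp2 : p = 2
  · subst hp2
    by_cases hB : 2 ≤ N ∧ ∃ g : G, g * a * g⁻¹ = a * a ^ (2 ^ N)
    · right
      obtain ⟨hN2, g, hg⟩ := hB
      apply hfin g
      · rw [hM]
        have hz := z_sq ha
        have : g * a ^ 2 * g⁻¹ = a ^ 2 := by
          rw [← conj_pow, hg, ((Commute.refl a).pow_right _).mul_pow, pow_two (a ^ (2 ^ N)), hz,
            mul_one]
        exact mul_inv_eq_iff_eq_mul.mp this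
      · intro hmem
        have h1 : g * a * g⁻¹ = a := by
          obtain ⟨i, rfl⟩ := Subgroup.mem_zpowers_iff.mp hmem
          rw [((Commute.refl a).zpow_left i).eq, mul_inv_cancel_right]
        rw [h1] at hg
        exact z_ne_one ha (mul_eq_left.mp hg.symm)
      · obtain ⟨N'', rfl⟩ : ∃ N'', N = N'' + 2 := ⟨N - 2, by omega⟩
        exact Dvd.dvd.mul_right (dvd_pow_self 2 (by omega)) _
    · left
      obtain ⟨hcard, b, hb, hcases⟩ := caseA hG ha hN hnorm hcent hB g₀ hg₀
      refine ⟨rfl, hcard, ?_⟩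
      rcases hcases with ⟨h1, h2⟩ | ⟨h1, h2⟩ | ⟨hN2, h1, h2⟩
      · left
        exact ⟨2 ^ (N + 1), Cfsg.Agent.Helper9.dihedral_equiv_of (2 ^ (N + 1)) a b ha h1 h2 hb
          (by rw [hcard]; ring)⟩
      · right; left
        exact ⟨2 ^ N, Cfsg.Agent.Helper9.quaternion_equiv_of (2 ^ N) a b (by rw [ha]; ring) h1 h2 hb
          (by rw [hcard]; ring)⟩
      · right; right
        refine ⟨N + 1, by omega, hcard, a, b, ha, ?_, ?_⟩
        · apply orderOf_eq_prime (by rw [pow_two]; exact h1)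
          intro hb1; apply hb; rw [hb1]; exact one_mem _
        · rw [h2, Nat.add_sub_cancel]
          exact inv_mul_pow_pred a _ Nat.one_le_two_pow
  · right
    apply hfin g₀
    · rw [hM]
      have h1 : ((p : ℤ)) ^ N ∣ k - 1 := by
        apply nt_odd p hp2
        have := hdvd
        push_cast at this
        exact this
      have h2 : g₀ * a ^ p * g₀⁻¹ = a ^ p := by
        rw [← conj_pow, ← hk, ← zpow_natCast, ← zpow_mul, ← zpow_natCast a p]
        apply zpow_of_dvd_sub ha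
        push_cast
        obtain ⟨d, hd⟩ := h1
        exact ⟨d, by rw [pow_succ]; linear_combination (p : ℤ) * hd⟩
      exact mul_inv_eq_iff_eq_mul.mp h2
    · exact hg₀
    · exact Dvd.dvd.mul_left (hp.dvd_choose_self (by norm_num)
        (lt_of_le_of_ne hp.two_le (Ne.symm hp2))) _

end Cfsg.Agent.S3761
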