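import Cfsg.Statements.S0519
import Mathlib
import Cfsg.Agent.S3761
import Cfsg.Agent.Lead.Quat

set_option autoImplicit false
open Cfsg

namespace Cfsg.Agent.S0519

open DihedralGroup in
/-- the Klein four subgroup of `D₈` -/
def kleinD4 : Subgroup (DihedralGroup 4) where
  carrier := {x | x = r 0 ∨ x = r 2 ∨ x = sr 0 ∨ x = sr 2}
  mul_mem' := by
    intro a b
    show (a = r 0 ∨ a = r 2 ∨ a = sr 0 ∨ a = sr 2) → (b = r 0 ∨ b = r 2 ∨ b = sr 0 ∨ b = sr 2) →
      (a * b = r 0 ∨ a * b = r 2 ∨ a * b = sr 0 ∨ a * b = sr 2)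
    revert a b
    decide
  one_mem' := Or.inl rfl
  inv_mem' := by
    intro a
    show (a = r 0 ∨ a = r 2 ∨ a = sr 0 ∨ a = sr 2) →
      (a⁻¹ = r 0 ∨ a⁻¹ = r 2 ∨ a⁻¹ = sr 0 ∨ a⁻¹ = sr 2)
    revert a
    decide

open DihedralGroup in
theorem kleinD4_normal : kleinD4.Normal := by
  constructor
  intro n hn g
  revert g
  have : ∀ n : DihedralGroup 4, (n = r 0 ∨ n = r 2 ∨ n = sr 0 ∨ n = sr 2) →
      ∀ g : DihedralGroup 4,
      (g * n * g⁻¹ = r 0 ∨ g * n * g⁻¹ = r 2 ∨ g * n * g⁻¹ = sr 0 ∨ g * n * g⁻¹ = sr 2) := by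
    decide
  exact this n hn

open DihedralGroup in
theorem kleinD4_comm : ∀ x ∈ kleinD4, ∀ y ∈ kleinD4, x * y = y * x := by
  have : ∀ x : DihedralGroup 4, (x = r 0 ∨ x = r 2 ∨ x = sr 0 ∨ x = sr 2) →
      ∀ y : DihedralGroup 4, (y = r 0 ∨ y = r 2 ∨ y = sr 0 ∨ y = sr 2) → x * y = y * x := by
    decide
  exact this

open DihedralGroup in
theorem kleinD4_sq : ∀ x ∈ kleinD4, x * x = 1 := by
  have : ∀ x : DihedralGroup 4, (x = r 0 ∨ x = r 2 ∨ x = sr 0 ∨ x = sr 2) → x * x = 1 := by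
    decide
  exact this

open DihedralGroup in
theorem kleinD4_ne : (r 2 : DihedralGroup 4) ≠ 1 ∧ (sr 0 : DihedralGroup 4) ≠ 1 ∧
    (r 2 : DihedralGroup 4) ≠ sr 0 := by
  decide

/-- a group isomorphic to `D₈` has a non-cyclic abelian normal subgroup -/
theorem not_d4 {P : Type*} [Group P] (e : P ≃* DihedralGroup 4)
    (hn : ∀ A : Subgroup P, A.Normal → IsMulCommutative A → IsCyclic A) : False := by
  have hKn : (kleinD4.comap e.toMonoidHom).Normal := kleinD4_normal.comap _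
  have hmem : ∀ x : P, x ∈ kleinD4.comap e.toMonoidHom ↔ e x ∈ kleinD4 := fun x => Iff.rfl
  have hKc : IsMulCommutative (kleinD4.comap e.toMonoidHom) := by
    refine ⟨⟨fun x y => Subtype.ext ?_⟩⟩
    apply e.injective
    show e (x.1 * y.1) = e (y.1 * x.1)
    rw [map_mul, map_mul]
    exact kleinD4_comm _ ((hmem _).mp x.2) _ ((hmem _).mp y.2)
  obtain ⟨g, hg⟩ := (hn _ hKn hKc).exists_generator
  have hgg : g * g = 1 := by
    apply Subtype.ext
    apply e.injective
    show e (g.1 * g.1) = e 1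
    rw [map_mul, map_one]
    exact kleinD4_sq _ ((hmem _).mp g.2)
  have hx : e.symm (DihedralGroup.r 2) ∈ kleinD4.comap e.toMonoidHom := by
    rw [hmem, MulEquiv.apply_symm_apply]
    exact Or.inr (Or.inl rfl)
  have hy : e.symm (DihedralGroup.sr 0) ∈ kleinD4.comap e.toMonoidHom := by
    rw [hmem, MulEquiv.apply_symm_apply]
    exact Or.inr (Or.inr (Or.inl rfl))
  obtain ⟨h1, h2, h3⟩ := kleinD4_ne
  have key : ∀ w : DihedralGroup 4, ∀ hw : e.symm w ∈ kleinD4.comap e.toMonoidHom, w ≠ 1 →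
      e.symm w = g.1 := by
    intro w hw hw1
    obtain ⟨i, hi⟩ := Subgroup.mem_zpowers_iff.mp (hg ⟨e.symm w, hw⟩)
    rcases Cfsg.Agent.Helper4.CycNormal.sq_zpow_cases hgg i with h | h
    · exfalso
      rw [h] at hi
      have := congrArg Subtype.val hi
      apply hw1
      have h5 : e.symm w = 1 := this.symm
      rw [← e.apply_symm_apply w, h5, map_one]
    · rw [h] at hi
      exact (congrArg Subtype.val hi).symm
  have e1 := key _ hx h1
  have e2 := key _ hy h2
  exact h3 (e.symm.injective (e1.trans e2.symm))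

/-- Let P be a finite p-group in which every abelian normal subgroup is cyclic, but which has a non-cyclic abelian
subgroup. Then p = 2 and P is generalized quaternion, dihedral of order at least 16, or quasi-dihedral. -/
theorem result {P : Type*} [Group P] [Finite P] (p : ℕ) [Fact p.Prime]
    (hP : IsPGroup p P) (hn : ∀ A : Subgroup P, A.Normal → IsMulCommutative A → IsCyclic A)
    (hm : ∃ B : Subgroup P, IsMulCommutative B ∧ ¬ IsCyclic B) :
    p = 2 ∧ ((∃ n : ℕ, Nonempty (P ≃* QuaternionGroup n)) ∨ (∃ n : ℕ, 8 ≤ n ∧ Nonempty (P ≃* DihedralGroup n)) ∨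
      Cfsg.IsQuasiDihedral P) := by
  have hp : p.Prime := Fact.out
  have hna : ¬ IsMulCommutative P := by
    intro hc
    obtain ⟨B, hBc, hBn⟩ := hm
    apply hBn
    have h1 : IsCyclic (⊤ : Subgroup P) :=
      hn ⊤ inferInstance ⟨⟨fun x y => Subtype.ext (hc.is_comm.comm x.1 y.1)⟩⟩
    have h2 : IsCyclic P :=
      isCyclic_of_surjective (Subgroup.topEquiv : (⊤ : Subgroup P) ≃* P) (MulEquiv.surjective _)
    exact Subgroup.isCyclic B
  obtain ⟨A, -, hAmax⟩ := Finite.exists_le_maximal (α := Subgroup P)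
    (p := fun A => A.Normal ∧ ∀ x ∈ A, ∀ y ∈ A, x * y = y * x) (a := ⊥)
    ⟨inferInstance, by
      intro x hx y hy
      rw [Subgroup.mem_bot] at hx hy
      rw [hx, hy]⟩
  obtain ⟨⟨hAn, hAc⟩, hAm⟩ := hAmax
  have hAcyc : IsCyclic A := hn A hAn ⟨⟨fun x y => Subtype.ext (hAc x.1 x.2 y.1 y.2)⟩⟩
  have hC : Subgroup.centralizer (A : Set P) = A := by
    apply le_antisymm
    · exact Cfsg.Agent.Lead.centralizer_le_of_maximal_normal_abelian p hP A hAc
        (fun B hBn hBc hAB => le_antisymm (hAm ⟨hBn, hBc⟩ hAB) hAB)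
    · intro x hx
      exact Subgroup.mem_centralizer_iff.mpr (fun y hy => hAc y hy x hx)
  obtain ⟨n, hn'⟩ := IsPGroup.iff_card.mp (hP.to_subgroup A)
  rcases Cfsg.Agent.S3761.result hP hna A hAcyc n hn' hC with
    ⟨hp2, hcard, hD | hQ | hQD⟩ | ⟨h1, h2, h3, h4⟩
  · refine ⟨hp2, Or.inr (Or.inl ?_)⟩
    obtain ⟨m, ⟨e⟩⟩ := hD
    refine ⟨m, ?_, ⟨e⟩⟩
    have hm2 : 2 * m = 2 ^ (n + 1) := by
      rw [← hcard, Nat.card_congr e.toEquiv, DihedralGroup.nat_card]
    have hmn : m = 2 ^ n := by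
      rw [pow_succ] at hm2; omega
    subst hp2
    rcases n with _ | _ | _ | n
    · exfalso
      apply hna
      have : IsCyclic P := isCyclic_of_prime_card (p := 2) (by rw [hcard]; norm_num)
      exact IsCyclic.isMulCommutative
    · exfalso
      apply hna
      exact IsPGroup.isMulCommutative_of_card_eq_prime_sq (p := 2) (by rw [hcard])
    · exfalso
      have hm4 : m = 4 := by rw [hmn]; norm_num
      subst hm4
      exact not_d4 e hn
    · rw [hmn]
      have : 2 ^ 3 ≤ 2 ^ (n + 1 + 1 + 1) := Nat.pow_le_pow_right (by norm_num) (by omega)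
      omega
  · exact ⟨hp2, Or.inl hQ⟩
  · exact ⟨hp2, Or.inr (Or.inr hQD)⟩
  · exfalso
    have hEn : (Cfsg.omegaOne p (Subgroup.centralizer (Cfsg.powerClosure p 1 A : Set P))).Normal :=
      Subgroup.normal_of_characteristic _
    obtain ⟨g, hg⟩ := (hn _ hEn h2.1).exists_generator
    have hord := orderOf_eq_card_of_forall_mem_zpowers hg
    rw [h3] at hord
    have hgp : g ^ p = 1 := by
      apply Subtype.ext
      rw [Subgroup.coe_pow]
      exact h2.2 _ g.2
    have := orderOf_dvd_of_pow_eq_one hgp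
    rw [hord] at this
    have h5 := Nat.le_of_dvd hp.pos this
    have h6 : p * 2 ≤ p ^ 2 := by rw [pow_two]; exact Nat.mul_le_mul_left p hp.two_le
    have := hp.pos
    omega

end Cfsg.Agent.S0519
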