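-- Statement S0520: 2-generated core versus connectivity of the commuting graph of four-subgroups.
import Cfsg.Statements.S0520
import Mathlib

set_option autoImplicit false
open Cfsg

namespace Cfsg.Agent.S0520

section lemmas

variable {G : Type*} [Group G]

/-- the conjugate subgroup `g K g⁻¹` -/
def cj (g : G) (K : Subgroup G) : Subgroup G := K.map (MulAut.conj g).toMonoidHom

theorem mem_cj {g : G} {K : Subgroup G} {x : G} : x ∈ cj g K ↔ g⁻¹ * x * g ∈ K := by
  unfold cj
  rw [Subgroup.mem_map]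
  constructor
  · rintro ⟨y, hy, rfl⟩
    simpa [mul_assoc] using hy
  · intro h
    exact ⟨g⁻¹ * x * g, h, by simp [mul_assoc]⟩

theorem cj_one (K : Subgroup G) : cj 1 K = K := by
  ext x
  simp [mem_cj]

theorem cj_mul (g h : G) (K : Subgroup G) : cj (g * h) K = cj g (cj h K) := by
  ext x
  simp [mem_cj, mul_assoc]

theorem cj_mono {g : G} {K L : Subgroup G} (h : K ≤ L) : cj g K ≤ cj g L := Subgroup.map_mono h

theorem cj_inv_cj (g : G) (K : Subgroup G) : cj g⁻¹ (cj g K) = K := by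
  rw [← cj_mul, inv_mul_cancel, cj_one]

theorem cj_le_of_mem {g : G} {K L : Subgroup G} (hg : g ∈ L) (hK : K ≤ L) : cj g K ≤ L := by
  intro x hx
  rw [mem_cj] at hx
  have h2 := L.mul_mem (L.mul_mem hg (hK hx)) (L.inv_mem hg)
  simpa [mul_assoc] using h2

theorem le_of_cj_le {g : G} {K L : Subgroup G} (hg : g ∈ L) (hK : cj g K ≤ L) : K ≤ L := by
  have := cj_le_of_mem (L.inv_mem hg) hK
  rwa [cj_inv_cj] at this

theorem kf_iff (U : Subgroup G) : IsKleinFour U ↔ Nat.card U = 4 ∧ ∀ u ∈ U, u ^ 2 = 1 := by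
  constructor
  · intro h
    refine ⟨h.card_four, fun u hu => ?_⟩
    have := Monoid.pow_exponent_eq_one (⟨u, hu⟩ : U)
    rw [h.exponent_two] at this
    exact congrArg Subtype.val this
  · rintro ⟨h4, h2⟩
    refine ⟨h4, ?_⟩
    have hdvd : Monoid.exponent U ∣ 2 := by
      rw [Monoid.exponent_dvd_iff_forall_pow_eq_one]
      intro g
      exact Subtype.ext (h2 g g.2)
    have hne1 : Monoid.exponent U ≠ 1 := by
      rw [Ne, Monoid.exp_eq_one_iff]
      intro hs
      have : Nat.card U = 1 := Nat.card_of_subsingleton (1 : U)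
      omega
    exact ((Nat.dvd_prime Nat.prime_two).mp hdvd).resolve_left hne1

theorem kf_map {H : Type*} [Group H] (f : H →* G) (hf : Function.Injective f) (U : Subgroup H)
    (hU : IsKleinFour U) : IsKleinFour (U.map f) := by
  rw [kf_iff] at hU ⊢
  refine ⟨?_, ?_⟩
  · rw [Subgroup.card_map_of_injective hf]
    exact hU.1
  · rintro _ ⟨u, hu, rfl⟩
    rw [← map_pow, hU.2 u hu, map_one]

theorem kf_cj (g : G) {U : Subgroup G} (hU : IsKleinFour U) : IsKleinFour (cj g U) :=
  kf_map _ (MulAut.conj g).injective U hU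

theorem kf_subgroupOf {U S : Subgroup G} (hUS : U ≤ S) (hU : IsKleinFour U) :
    IsKleinFour (U.subgroupOf S) := by
  rw [kf_iff] at hU ⊢
  refine ⟨?_, ?_⟩
  · rw [Nat.card_congr (Subgroup.subgroupOfEquivOfLe hUS).toEquiv]
    exact hU.1
  · intro u hu
    apply Subtype.ext
    have := hU.2 u.1 (Subgroup.mem_subgroupOf.mp hu)
    simpa using this

theorem kf_isPGroup {U : Subgroup G} (hU : IsKleinFour U) : IsPGroup 2 U :=
  IsPGroup.of_card (n := 2) (by rw [hU.card_four]; norm_num)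

theorem pg_cj (g : G) {U : Subgroup G} (hU : IsPGroup 2 U) : IsPGroup 2 (cj g U) :=
  hU.map _

theorem exists_kf_of_not_prank {H : Type*} [Group H] [Finite H] (h : ¬ Cfsg.PRankLE 2 1 H) :
    ∃ V : Subgroup H, IsKleinFour V := by
  unfold Cfsg.PRankLE at h
  push Not at h
  obtain ⟨A, hAc, hA2, hAcard⟩ := h
  have hp : IsPGroup 2 A := by
    intro a
    exact ⟨1, by apply Subtype.ext; simpa using hA2 a a.2⟩
  obtain ⟨n, hn⟩ := IsPGroup.iff_card.mp hp
  have hn2 : 2 ≤ n := by
    by_contra hlt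
    have h01 : n = 0 ∨ n = 1 := by omega
    rcases h01 with rfl | rfl
    · rw [hn] at hAcard
      norm_num at hAcard
    · rw [hn] at hAcard
      norm_num at hAcard
  have hdvd : 2 ^ 2 ∣ Nat.card A := by
    rw [hn]
    exact pow_dvd_pow 2 hn2
  obtain ⟨K, hK⟩ := Sylow.exists_subgroup_card_pow_prime 2 hdvd
  refine ⟨K.map A.subtype, ?_⟩
  rw [kf_iff]
  refine ⟨?_, ?_⟩
  · rw [Subgroup.card_map_of_injective A.subtype_injective, hK]
    norm_num
  · rintro _ ⟨k, hk, rfl⟩
    exact hA2 k.1 k.2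

theorem not_prank_of_kf {Q V : Subgroup G} (hVQ : V ≤ Q) (hV : IsKleinFour V) :
    ¬ Cfsg.PRankLE 2 1 Q := by
  intro h
  have hV' := kf_subgroupOf hVQ hV
  have hc : IsMulCommutative (V.subgroupOf Q) :=
    ⟨⟨fun a b => mul_comm_of_exponent_two hV'.exponent_two a b⟩⟩
  have := h (V.subgroupOf Q) hc (fun a ha => ((kf_iff _).mp hV').2 a ha)
  rw [hV'.card_four] at this
  norm_num at this

theorem exists_cj_le [Finite G] (S : Sylow 2 G) {K P : Subgroup G}
    (hSK : (S : Subgroup G) ≤ K) (hPK : P ≤ K) (hP : IsPGroup 2 P) :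
    ∃ k ∈ K, cj k P ≤ S := by
  obtain ⟨Q, hQ⟩ := (hP.comap_subtype (K := K)).exists_le_sylow
  obtain ⟨k, hk⟩ := MulAction.exists_smul_eq K Q (S.subtype hSK)
  refine ⟨k.1, k.2, ?_⟩
  intro x hx
  rw [mem_cj] at hx
  have hxK : (k.1)⁻¹ * x * k.1 ∈ K := hPK hx
  have h1 : (⟨(k.1)⁻¹ * x * k.1, hxK⟩ : K) ∈ (Q : Subgroup K) :=
    hQ (Subgroup.mem_subgroupOf.mpr hx)
  have h2 : MulAut.conj k • (⟨(k.1)⁻¹ * x * k.1, hxK⟩ : K) ∈
      ((k • Q : Sylow 2 K) : Subgroup K) := by
    rw [Sylow.coe_subgroup_smul]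
    exact Subgroup.smul_mem_pointwise_smul _ _ _ h1
  rw [hk, Sylow.coe_subtype, Subgroup.mem_subgroupOf] at h2
  have h3 : ((MulAut.conj k • (⟨(k.1)⁻¹ * x * k.1, hxK⟩ : K) : K) : G) = x := by
    simp [MulAut.smul_def, mul_assoc]
  rwa [h3] at h2

theorem exists_normalizer_mem [Finite G] {T S : Subgroup G} (hS : IsPGroup 2 S) (hTS : T < S) :
    ∃ s ∈ S, s ∈ Subgroup.normalizer (T : Set G) ∧ s ∉ T := by
  have : Group.IsNilpotent S := hS.isNilpotent
  have hlt : T.subgroupOf S < ⊤ := by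
    rw [lt_top_iff_ne_top]
    intro h
    rw [Subgroup.subgroupOf_eq_top] at h
    exact absurd (le_antisymm hTS.le h) hTS.ne
  have hnc := Group.normalizerCondition_of_isNilpotent (G := S) (T.subgroupOf S) hlt
  rw [← Subgroup.subgroupOf_normalizer_eq hTS.le] at hnc
  obtain ⟨r, hr1, hr2⟩ := SetLike.exists_of_lt hnc
  rw [Subgroup.mem_subgroupOf] at hr1 hr2
  exact ⟨r.1, r.2, hr1, hr2⟩

theorem mem_normalizer_of_commute {c : G} {A : Subgroup G} (h : ∀ x ∈ A, c * x = x * c) :
    c ∈ Subgroup.normalizer (A : Set G) := by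
  rw [Subgroup.mem_normalizer_iff]
  intro x
  constructor
  · intro hx
    rw [h x hx, mul_assoc, mul_inv_cancel, mul_one]
    exact hx
  · intro hx
    have h2 := h _ hx
    have h3 : c * x * c⁻¹ = x := by
      have : c * (c * x * c⁻¹) * c⁻¹ = c * x * c⁻¹ := by
        rw [h2]
        group
      have h4 : c * (c * x * c⁻¹) * c⁻¹ = c * (x) * c⁻¹ → c * x * c⁻¹ = x := by
        intro h5
        have h6 := mul_left_cancel (mul_right_cancel h5)
        exact h6
      exact h4 this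
    rwa [h3] at hx

theorem cj_normalizer (g : G) {t : G} {T : Subgroup G}
    (ht : t ∈ Subgroup.normalizer (T : Set G)) :
    g * t * g⁻¹ ∈ Subgroup.normalizer ((cj g T : Subgroup G) : Set G) := by
  rw [Subgroup.mem_normalizer_iff] at ht ⊢
  intro h
  rw [mem_cj, mem_cj, ht (g⁻¹ * h * g)]
  have : g⁻¹ * (g * t * g⁻¹ * h * (g * t * g⁻¹)⁻¹) * g = t * (g⁻¹ * h * g) * t⁻¹ := by group
  rw [this]

theorem mem_normalizer_of_cj_le [Finite G] {g : G} {S : Subgroup G} (h : cj g S ≤ S) :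
    g ∈ Subgroup.normalizer (S : Set G) := by
  have heq : cj g S = S := by
    apply Subgroup.eq_of_le_of_card_ge h
    unfold cj
    rw [Subgroup.card_map_of_injective (MulAut.conj g).injective]
  rw [Subgroup.mem_normalizer_iff]
  intro x
  constructor
  · intro hx
    have : g * x * g⁻¹ ∈ cj g S := by
      rw [mem_cj]
      simpa [mul_assoc] using hx
    rwa [heq] at this
  · intro hx
    rw [← heq, mem_cj] at hx
    simpa [mul_assoc] using hx

theorem rtg_lift {α β : Type*} {r : α → α → Prop} {p : β → β → Prop} (f : α → β)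
    (h : ∀ a b, r a b → p (f a) (f b)) {a b : α} (hab : Relation.ReflTransGen r a b) :
    Relation.ReflTransGen p (f a) (f b) := by
  induction hab with
  | refl => exact Relation.ReflTransGen.refl
  | tail _ hbc ih => exact ih.tail (h _ _ hbc)

theorem core_of_connected [Finite G] (S : Sylow 2 G) (Γ : Subgroup G)
    (hF1 : ∀ Q V : Subgroup G, Q ≤ (S : Subgroup G) → V ≤ Q → IsKleinFour V →
      Subgroup.normalizer (Q : Set G) ≤ Γ)
    (W0 : Subgroup G) (hW0S : W0 ≤ (S : Subgroup G)) (hW0 : IsKleinFour W0)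
    (hG : Cfsg.IsFourConnected G) : Γ = ⊤ := by
  have hSΓ : (S : Subgroup G) ≤ Γ :=
    Subgroup.le_normalizer.trans (hF1 S W0 le_rfl hW0S hW0)
  have hstep : ∀ A B : Subgroup G, A ≤ Γ →
      (IsKleinFour A ∧ IsKleinFour B ∧ ∀ a ∈ A, ∀ b ∈ B, a * b = b * a) → B ≤ Γ := by
    rintro A B hAΓ ⟨hA, hB, hAB⟩
    obtain ⟨γ, hγ, hγA⟩ := exists_cj_le S hSΓ hAΓ (kf_isPGroup hA)
    have hN := hF1 (cj γ A) (cj γ A) hγA le_rfl (kf_cj γ hA)
    intro b hb
    have hb' : γ * b * γ⁻¹ ∈ Subgroup.normalizer ((cj γ A : Subgroup G) : Set G) := by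
      apply mem_normalizer_of_commute
      intro x hx
      rw [mem_cj] at hx
      have := hAB _ hx b hb
      calc γ * b * γ⁻¹ * x = γ * (b * (γ⁻¹ * x * γ)) * γ⁻¹ := by group
        _ = γ * ((γ⁻¹ * x * γ) * b) * γ⁻¹ := by rw [this]
        _ = x * (γ * b * γ⁻¹) := by group
    have h3 := hN hb'
    have h4 := Γ.mul_mem (Γ.mul_mem (Γ.inv_mem hγ) h3) hγ
    simpa [mul_assoc] using h4
  have hall : ∀ V : Subgroup G, Relation.ReflTransGen
      (fun A B : Subgroup G => IsKleinFour A ∧ IsKleinFour B ∧ ∀ a ∈ A, ∀ b ∈ B, a * b = b * a)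
      W0 V → V ≤ Γ := by
    intro V hch
    induction hch with
    | refl => exact hW0S.trans hSΓ
    | tail _ hbc ih => exact hstep _ _ ih hbc
  rw [eq_top_iff]
  intro x _
  have key : ∀ T : Subgroup G, W0 ≤ T → T ≤ (S : Subgroup G) → cj x T ≤ Γ → x ∈ Γ := by
    intro T
    induction T using WellFoundedGT.induction with
    | ind T ih =>
      intro hWT hTS hxT
      obtain ⟨δ, hδ, hδT⟩ := exists_cj_le S hSΓ hxT (pg_cj x (S.isPGroup'.to_le hTS))
      rw [← cj_mul] at hδT
      have hN := hF1 (cj (δ * x) T) (cj (δ * x) W0) hδT (cj_mono hWT) (kf_cj _ hW0)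
      by_cases hTeq : T = S
      · rw [hTeq] at hδT
        have hmem : δ * x ∈ Subgroup.normalizer ((S : Subgroup G) : Set G) :=
          mem_normalizer_of_cj_le hδT
        have h5 := hF1 S W0 le_rfl hW0S hW0 hmem
        have h6 := Γ.mul_mem (Γ.inv_mem hδ) h5
        simpa using h6
      · have hlt : T < S := lt_of_le_of_ne hTS hTeq
        obtain ⟨s, hsS, hsN, hsT⟩ := exists_normalizer_mem S.isPGroup' hlt
        refine ih (Subgroup.normalizer (T : Set G) ⊓ S) ?_
          (hWT.trans (le_inf Subgroup.le_normalizer hTS)) inf_le_right ?_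
        · refine lt_of_le_of_ne (le_inf Subgroup.le_normalizer hTS) ?_
          intro h
          apply hsT
          rw [h]
          exact ⟨hsN, hsS⟩
        · apply le_of_cj_le hδ
          rw [← cj_mul]
          intro y hy
          rw [mem_cj] at hy
          have h7 := cj_normalizer (δ * x) hy.1
          have h8 := hN h7
          simpa [mul_assoc] using h8
  exact key W0 le_rfl hW0S (hall _ (hG W0 (cj x W0) hW0 (kf_cj x hW0)))

theorem connected_of_core [Finite G] (S : Sylow 2 G)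
    (hS : Cfsg.IsFourConnected (S : Subgroup G))
    (hΓ : (⨆ Q : {Q : Subgroup G // Q ≤ (S : Subgroup G) ∧ ¬ Cfsg.PRankLE 2 1 Q},
          Subgroup.normalizer ((Q : Subgroup G) : Set G)) = ⊤) :
    Cfsg.IsFourConnected G := by
  have hsymm : ∀ A B : Subgroup G, Relation.ReflTransGen
      (fun A B : Subgroup G =>
        IsKleinFour A ∧ IsKleinFour B ∧ ∀ a ∈ A, ∀ b ∈ B, a * b = b * a) A B →
      Relation.ReflTransGen
      (fun A B : Subgroup G =>
        IsKleinFour A ∧ IsKleinFour B ∧ ∀ a ∈ A, ∀ b ∈ B, a * b = b * a) B A := by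
    intro A B h
    induction h with
    | refl => exact Relation.ReflTransGen.refl
    | tail _ hbc ih =>
      exact Relation.ReflTransGen.head
        ⟨hbc.2.1, hbc.1, fun b hb a ha => (hbc.2.2 a ha b hb).symm⟩ ih
  have hconj : ∀ (g : G) (A B : Subgroup G), Relation.ReflTransGen
      (fun A B : Subgroup G =>
        IsKleinFour A ∧ IsKleinFour B ∧ ∀ a ∈ A, ∀ b ∈ B, a * b = b * a) A B →
      Relation.ReflTransGen
      (fun A B : Subgroup G =>
        IsKleinFour A ∧ IsKleinFour B ∧ ∀ a ∈ A, ∀ b ∈ B, a * b = b * a) (cj g A) (cj g B) := by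
    intro g A B h
    refine rtg_lift (cj g) ?_ h
    rintro A B ⟨hA, hB, hAB⟩
    refine ⟨kf_cj g hA, kf_cj g hB, ?_⟩
    intro a ha b hb
    rw [mem_cj] at ha hb
    have := hAB _ ha _ hb
    have h2 : g * ((g⁻¹ * a * g) * (g⁻¹ * b * g)) * g⁻¹ =
        g * ((g⁻¹ * b * g) * (g⁻¹ * a * g)) * g⁻¹ := by rw [this]
    simpa [mul_assoc] using h2
  have hin : ∀ U V : Subgroup G, U ≤ (S : Subgroup G) → V ≤ (S : Subgroup G) →
      IsKleinFour U → IsKleinFour V → Relation.ReflTransGen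
      (fun A B : Subgroup G =>
        IsKleinFour A ∧ IsKleinFour B ∧ ∀ a ∈ A, ∀ b ∈ B, a * b = b * a) U V := by
    intro U V hU hV hUk hVk
    have h := hS (U.subgroupOf S) (V.subgroupOf S) (kf_subgroupOf hU hUk) (kf_subgroupOf hV hVk)
    have h2 := rtg_lift
      (r := fun A B : Subgroup (S : Subgroup G) =>
        IsKleinFour A ∧ IsKleinFour B ∧ ∀ a ∈ A, ∀ b ∈ B, a * b = b * a)
      (p := fun A B : Subgroup G =>
        IsKleinFour A ∧ IsKleinFour B ∧ ∀ a ∈ A, ∀ b ∈ B, a * b = b * a)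
      (Subgroup.map (S : Subgroup G).subtype) ?_ h
    · rwa [Subgroup.map_subgroupOf_eq_of_le hU, Subgroup.map_subgroupOf_eq_of_le hV] at h2
    · rintro A B ⟨hA, hB, hAB⟩
      refine ⟨kf_map _ (Subgroup.subtype_injective _) A hA,
        kf_map _ (Subgroup.subtype_injective _) B hB, ?_⟩
      rintro _ ⟨a, ha, rfl⟩ _ ⟨b, hb, rfl⟩
      rw [← map_mul, ← map_mul, hAB a ha b hb]
  have hP : ∀ g : G, ∀ U V : Subgroup G, U ≤ (S : Subgroup G) → V ≤ (S : Subgroup G) →
      IsKleinFour U → IsKleinFour V → Relation.ReflTransGen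
      (fun A B : Subgroup G =>
        IsKleinFour A ∧ IsKleinFour B ∧ ∀ a ∈ A, ∀ b ∈ B, a * b = b * a) (cj g U) V := by
    intro g
    have hg : g ∈ (⨆ Q : {Q : Subgroup G // Q ≤ (S : Subgroup G) ∧ ¬ Cfsg.PRankLE 2 1 Q},
          Subgroup.normalizer ((Q : Subgroup G) : Set G)) := by
      rw [hΓ]
      exact Subgroup.mem_top g
    refine Subgroup.iSup_induction
      (C := fun g => ∀ U V : Subgroup G, U ≤ (S : Subgroup G) → V ≤ (S : Subgroup G) →
        IsKleinFour U → IsKleinFour V → Relation.ReflTransGen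
        (fun A B : Subgroup G =>
          IsKleinFour A ∧ IsKleinFour B ∧ ∀ a ∈ A, ∀ b ∈ B, a * b = b * a) (cj g U) V)
      _ hg ?_ ?_ ?_
    · rintro ⟨Q, hQS, hQr⟩ n hn U V hU hV hUk hVk
      obtain ⟨W', hW'⟩ := exists_kf_of_not_prank hQr
      have hWk : IsKleinFour (W'.map Q.subtype) :=
        kf_map _ (Subgroup.subtype_injective _) W' hW'
      have hWQ : W'.map Q.subtype ≤ Q := by
        rintro _ ⟨w, -, rfl⟩
        exact w.2
      have hnW : cj n (W'.map Q.subtype) ≤ Q := by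
        intro y hy
        rw [mem_cj] at hy
        have hyQ := hWQ hy
        have h3 := (Subgroup.mem_normalizer_iff.mp hn (n⁻¹ * y * n)).mp hyQ
        simpa [mul_assoc] using h3
      exact (hconj n _ _ (hin U _ hU (hWQ.trans hQS) hUk hWk)).trans
        (hin _ V (hnW.trans hQS) hV (kf_cj n hWk) hVk)
    · intro U V hU hV hUk hVk
      rw [cj_one]
      exact hin U V hU hV hUk hVk
    · intro x y hx hy U V hU hV hUk hVk
      rw [cj_mul]
      exact (hconj x _ _ (hy U U hU hU hUk hUk)).trans (hx U V hU hV hUk hVk)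
  intro U V hUk hVk
  obtain ⟨a, -, ha⟩ := exists_cj_le S (K := ⊤) le_top le_top (kf_isPGroup hUk)
  obtain ⟨b, -, hb⟩ := exists_cj_le S (K := ⊤) le_top le_top (kf_isPGroup hVk)
  have h1 := hP a⁻¹ (cj a U) (cj a U) ha ha (kf_cj a hUk) (kf_cj a hUk)
  rw [cj_inv_cj] at h1
  have h2 := hP b⁻¹ (cj b V) (cj b V) hb hb (kf_cj b hVk) (kf_cj b hVk)
  rw [cj_inv_cj] at h2
  have h3 := hin (cj a U) (cj b V) ha hb (kf_cj a hUk) (kf_cj b hVk)
  exact (h1.trans h3).trans (hsymm _ _ h2)

end lemmas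

/-- Let G be a finite group of 2-rank at least 2 and S a Sylow 2-subgroup whose commuting graph of Klein four-subgroups is
connected. Then the commuting graph of Klein four-subgroups of G is disconnected if and only if the 2-generated core — the
subgroup generated by the normalizers N_G(Q) of the subgroups Q of S that contain a Klein four-group — is a proper
subgroup of G. -/
theorem result {G : Type*} [Group G] [Finite G] (h2 : ¬ Cfsg.PRankLE 2 1 G)
    (S : Sylow 2 G) (hS : Cfsg.IsFourConnected (S : Subgroup G)) :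
    ¬ Cfsg.IsFourConnected G ↔
      (⨆ Q : {Q : Subgroup G // Q ≤ (S : Subgroup G) ∧ ¬ Cfsg.PRankLE 2 1 Q},
          Subgroup.normalizer ((Q : Subgroup G) : Set G)) ≠ ⊤ := by
  rw [Ne, not_iff_not]
  constructor
  · intro hG
    obtain ⟨V0, hV0⟩ := exists_kf_of_not_prank h2
    obtain ⟨a, -, ha⟩ := exists_cj_le S (K := ⊤) le_top le_top (kf_isPGroup hV0)
    refine core_of_connected S _ ?_ (cj a V0) ha (kf_cj a hV0) hG
    intro Q V hQS hVQ hV
    exact le_iSup (fun Q : {Q : Subgroup G // Q ≤ (S : Subgroup G) ∧ ¬ Cfsg.PRankLE 2 1 Q} =>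
      Subgroup.normalizer ((Q : Subgroup G) : Set G)) ⟨Q, hQS, not_prank_of_kf hVQ hV⟩
  · intro hΓ
    exact connected_of_core S hS hΓ

end Cfsg.Agent.S0520
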