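import Cfsg.Statements.S0527
import Cfsg.Agent.Helper4.Supersolvable
import Cfsg.Agent.Helper4.Quot
import Mathlib

set_option autoImplicit false
open Cfsg

namespace Cfsg.Agent.S0527

open Subgroup Cfsg.Agent.Helper4

universe u

theorem aux : ∀ (n : ℕ) (G : Type u) [Group G] [Finite G], Nat.card G = n →
    Cfsg.IsSupersolvable G → ∀ M : Subgroup G, IsCoatom M → M.index.Prime := by
  intro n
  induction n using Nat.strong_induction_on with
  | _ n ih =>
  intro G _ _ hcard hG M hM
  have hnt : Nontrivial G := by
    by_contra h
    rw [not_nontrivial_iff_subsingleton] at h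
    exact hM.1 (Subsingleton.elim _ _)
  obtain ⟨x, hp, hnorm⟩ := exists_normal_prime_order hG
  have hcN : Nat.card (zpowers x) = orderOf x := Nat.card_zpowers x
  by_cases hNM : zpowers x ≤ M
  · have hQ : Cfsg.IsSupersolvable (G ⧸ zpowers x) := isSupersolvable_quotient _ hG
    have hmul : Nat.card G = Nat.card (G ⧸ zpowers x) * orderOf x := by
      rw [← hcN]; exact Subgroup.card_eq_card_quotient_mul_card_subgroup _
    have hposQ : 0 < Nat.card (G ⧸ zpowers x) := Nat.card_pos
    have hlt : Nat.card (G ⧸ zpowers x) < n := by
      rw [← hcard, hmul]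
      have := hp.two_le
      nlinarith
    have hco := isCoatom_map_mk' (zpowers x) M hM hNM
    have := ih _ hlt (G ⧸ zpowers x) rfl hQ _ hco
    rwa [Subgroup.index_map_eq M (QuotientGroup.mk'_surjective _)
      (by rw [QuotientGroup.ker_mk']; exact hNM)] at this
  · rw [index_of_coatom_of_not_le (zpowers x) (by rw [hcN]; exact hp) M hM hNM, hcN]
    exact hp

/-- In a finite supersolvable group the index of any maximal subgroup is a prime number. -/
theorem result {G : Type*} [Group G] [Finite G] (hG : Cfsg.IsSupersolvable G) (M : Subgroup G) (hM : IsCoatom M) : M.index.Prime := by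
  exact aux (Nat.card G) G rfl hG M hM

end Cfsg.Agent.S0527
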