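import Cfsg.Statements.S0530
import Cfsg.Agent.Helper4.Supersolvable
import Mathlib

set_option autoImplicit false
open Cfsg

namespace Cfsg.Agent.S0530

open Subgroup Cfsg.Agent.Helper4

universe u

theorem normal_zpowers_of_conj_mem {G : Type*} [Group G] (y : G)
    (h : ∀ g : G, g * y * g⁻¹ ∈ zpowers y) : (zpowers y).Normal := by
  constructor
  intro n hn g
  obtain ⟨j, rfl⟩ := Subgroup.mem_zpowers_iff.mp hn
  have h2 : g * y ^ j * g⁻¹ = (g * y * g⁻¹) ^ j := by
    have := map_zpow (MulAut.conj g) y j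
    simpa only [MulAut.conj_apply] using this
  rw [h2]
  exact Subgroup.zpow_mem _ (h g) j

/-- A nontrivial normal `q`-subgroup `Q` of index at most two contains a nontrivial cyclic
subgroup that is normal in the whole group. -/
theorem exists_cyclic_normal {G : Type u} [Group G] [Finite G] (q : ℕ) (hq : q.Prime)
    (Q : Subgroup G) (hQn : Q.Normal) (hQp : IsPGroup q Q) (hQi : Q.index ≤ 2) (hQ : Q ≠ ⊥) :
    ∃ w : G, w ≠ 1 ∧ (zpowers w).Normal := by
  haveI : Fact q.Prime := ⟨hq⟩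
  have hnt : Nontrivial Q := (Subgroup.nontrivial_iff_ne_bot Q).mpr hQ
  have hcnt : Nontrivial (Subgroup.center Q) := hQp.center_nontrivial
  obtain ⟨z, hz1⟩ := exists_ne (1 : Subgroup.center Q)
  -- z0 : the element of G
  have hz0Q : ((z : Q) : G) ∈ Q := (z : Q).2
  have hz0ne : ((z : Q) : G) ≠ 1 := by
    intro h
    apply hz1
    apply Subtype.ext
    apply Subtype.ext
    exact h
  have hz0c : ∀ y ∈ Q, y * ((z : Q) : G) = ((z : Q) : G) * y := by
    intro y hy
    have hzc := z.2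
    rw [Subgroup.mem_center_iff] at hzc
    exact congrArg Subtype.val (hzc ⟨y, hy⟩)
  generalize ((z : Q) : G) = z0 at hz0Q hz0ne hz0c
  by_cases hex : ∃ t, t ∉ Q
  · obtain ⟨t, ht⟩ := hex
    have hidx : Q.index = 2 := by
      have h0 : Q.index ≠ 0 := Subgroup.index_ne_zero_of_finite
      have h1 : Q.index ≠ 1 := by
        rw [Ne, Subgroup.index_eq_one]
        intro h
        exact ht (h ▸ Subgroup.mem_top t)
      omega
    have htinv : t⁻¹ ∉ Q := fun h => ht (by simpa using Q.inv_mem h)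
    have htt : t * t ∈ Q := by
      rw [Subgroup.mul_mem_iff_of_index_two hidx]
    have hdec : ∀ g : G, g ∉ Q → g * t⁻¹ ∈ Q := by
      intro g hg
      rw [Subgroup.mul_mem_iff_of_index_two hidx]
      exact ⟨fun h => absurd h hg, fun h => absurd h htinv⟩
    have hz1Q : t * z0 * t⁻¹ ∈ Q := hQn.conj_mem z0 hz0Q t
    have hz1c : ∀ y ∈ Q, y * (t * z0 * t⁻¹) = (t * z0 * t⁻¹) * y := by
      intro y hy
      have hy' : t⁻¹ * y * t ∈ Q := by
        have := hQn.conj_mem y hy t⁻¹
        simpa using this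
      have := hz0c _ hy'
      calc y * (t * z0 * t⁻¹) = t * ((t⁻¹ * y * t) * z0) * t⁻¹ := by group
        _ = t * (z0 * (t⁻¹ * y * t)) * t⁻¹ := by rw [this]
        _ = (t * z0 * t⁻¹) * y := by group
    by_cases hy0 : z0 * (t * z0 * t⁻¹) = 1
    · -- t inverts z0
      have hinv : t * z0 * t⁻¹ = z0⁻¹ := by
        rw [eq_comm, inv_eq_iff_mul_eq_one]; exact hy0
      refine ⟨z0, hz0ne, normal_zpowers_of_conj_mem z0 fun g => ?_⟩
      by_cases hg : g ∈ Q
      · have : g * z0 * g⁻¹ = z0 := by rw [hz0c g hg]; group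
        rw [this]; exact Subgroup.mem_zpowers z0
      · have hu := hdec g hg
        have hu' : (g * t⁻¹) * z0⁻¹ = z0⁻¹ * (g * t⁻¹) := by
          have := hz0c _ hu
          calc (g * t⁻¹) * z0⁻¹ = z0⁻¹ * (z0 * (g * t⁻¹)) * z0⁻¹ := by group
            _ = z0⁻¹ * ((g * t⁻¹) * z0) * z0⁻¹ := by rw [this]
            _ = z0⁻¹ * (g * t⁻¹) := by group
        have : g * z0 * g⁻¹ = z0⁻¹ := by
          calc g * z0 * g⁻¹ = (g * t⁻¹) * (t * z0 * t⁻¹) * (g * t⁻¹)⁻¹ := by group
            _ = (g * t⁻¹) * z0⁻¹ * (g * t⁻¹)⁻¹ := by rw [hinv]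
            _ = z0⁻¹ * (g * t⁻¹) * (g * t⁻¹)⁻¹ := by rw [hu']
            _ = z0⁻¹ := by group
        rw [this]; exact Subgroup.inv_mem _ (Subgroup.mem_zpowers z0)
    · -- y0 = z0 * z1 is central
      have hy0Q : z0 * (t * z0 * t⁻¹) ∈ Q := Q.mul_mem hz0Q hz1Q
      have hy0c : ∀ y ∈ Q, y * (z0 * (t * z0 * t⁻¹)) = (z0 * (t * z0 * t⁻¹)) * y := by
        intro y hy
        calc y * (z0 * (t * z0 * t⁻¹)) = (y * z0) * (t * z0 * t⁻¹) := by group
          _ = (z0 * y) * (t * z0 * t⁻¹) := by rw [hz0c y hy]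
          _ = z0 * (y * (t * z0 * t⁻¹)) := by group
          _ = z0 * ((t * z0 * t⁻¹) * y) := by rw [hz1c y hy]
          _ = (z0 * (t * z0 * t⁻¹)) * y := by group
      have hty0 : t * (z0 * (t * z0 * t⁻¹)) * t⁻¹ = z0 * (t * z0 * t⁻¹) := by
        have h1 : (t * t) * z0 = z0 * (t * t) := hz0c _ htt
        have h2 : z0 * (t * z0 * t⁻¹) = (t * z0 * t⁻¹) * z0 := hz1c z0 hz0Q
        calc t * (z0 * (t * z0 * t⁻¹)) * t⁻¹ = (t * z0 * t⁻¹) * (((t * t) * z0) * (t⁻¹ * t⁻¹)) := by
              group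
          _ = (t * z0 * t⁻¹) * ((z0 * (t * t)) * (t⁻¹ * t⁻¹)) := by rw [h1]
          _ = (t * z0 * t⁻¹) * z0 := by group
          _ = z0 * (t * z0 * t⁻¹) := h2.symm
      refine ⟨z0 * (t * z0 * t⁻¹), hy0, normal_zpowers_of_conj_mem _ fun g => ?_⟩
      by_cases hg : g ∈ Q
      · have : g * (z0 * (t * z0 * t⁻¹)) * g⁻¹ = z0 * (t * z0 * t⁻¹) := by
          rw [hy0c g hg]; group
        rw [this]; exact Subgroup.mem_zpowers _
      · have hu := hdec g hg
        have : g * (z0 * (t * z0 * t⁻¹)) * g⁻¹ = z0 * (t * z0 * t⁻¹) := by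
          calc g * (z0 * (t * z0 * t⁻¹)) * g⁻¹
              = (g * t⁻¹) * (t * (z0 * (t * z0 * t⁻¹)) * t⁻¹) * (g * t⁻¹)⁻¹ := by group
            _ = (g * t⁻¹) * (z0 * (t * z0 * t⁻¹)) * (g * t⁻¹)⁻¹ := by rw [hty0]
            _ = (z0 * (t * z0 * t⁻¹)) * (g * t⁻¹) * (g * t⁻¹)⁻¹ := by rw [hy0c _ hu]
            _ = z0 * (t * z0 * t⁻¹) := by group
        rw [this]; exact Subgroup.mem_zpowers _
  · push_neg at hex
    refine ⟨z0, hz0ne, normal_zpowers_of_conj_mem z0 fun g => ?_⟩
    have : g * z0 * g⁻¹ = z0 := by rw [hz0c g (hex g)]; group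
    rw [this]; exact Subgroup.mem_zpowers z0

theorem ss_aux : ∀ (n : ℕ) (G : Type u) [Group G] [Finite G], Nat.card G = n →
    (∃ q : ℕ, q.Prime ∧ ∃ Q : Subgroup G, Q.Normal ∧ IsPGroup q Q ∧ Q.index ≤ 2) →
    Cfsg.IsSupersolvable G := by
  intro n
  induction n using Nat.strong_induction_on with
  | _ n ih =>
  intro G _ _ hcard hex
  obtain ⟨q, hq, Q, hQn, hQp, hQi⟩ := hex
  by_cases hQ : Q = ⊥
  · -- |G| ≤ 2
    have hc : Nat.card G ≤ 2 := by
      rw [hQ, Subgroup.index_bot] at hQi; exact hQi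
    have hcyc : IsCyclic G := by
      rcases Nat.lt_or_ge (Nat.card G) 2 with h | h
      · have h1 : Nat.card G = 1 := by
          have : 0 < Nat.card G := Nat.card_pos
          omega
        have : Subsingleton G := (Nat.card_eq_one_iff_unique.mp h1).1
        infer_instance
      · have h2 : Nat.card G = 2 := le_antisymm hc h
        haveI : Fact (Nat.Prime 2) := ⟨Nat.prime_two⟩
        exact isCyclic_of_prime_card h2
    exact isSupersolvable_of_isCyclic
  · obtain ⟨w, hw, hwn⟩ := exists_cyclic_normal q hq Q hQn hQp hQi hQ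
    haveI := hwn
    have hcN : Nat.card (zpowers w) = orderOf w := Nat.card_zpowers w
    have hmul : Nat.card G = Nat.card (G ⧸ zpowers w) * orderOf w := by
      rw [← hcN]; exact Subgroup.card_eq_card_quotient_mul_card_subgroup _
    have hposQ : 0 < Nat.card (G ⧸ zpowers w) := Nat.card_pos
    have hord : 2 ≤ orderOf w := by
      have h0 : 0 < orderOf w := orderOf_pos w
      have h1 : orderOf w ≠ 1 := by rw [Ne, orderOf_eq_one_iff]; exact hw
      omega
    have hlt : Nat.card (G ⧸ zpowers w) < n := by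
      rw [← hcard, hmul]
      nlinarith
    have hquot : Cfsg.IsSupersolvable (G ⧸ zpowers w) := by
      apply ih _ hlt (G ⧸ zpowers w) rfl
      refine ⟨q, hq, Q.map (QuotientGroup.mk' (zpowers w)),
        hQn.map _ (QuotientGroup.mk'_surjective _), hQp.map _, ?_⟩
      have hdvd := Subgroup.index_map_dvd Q (QuotientGroup.mk'_surjective (zpowers w))
      have h0 : Q.index ≠ 0 := Subgroup.index_ne_zero_of_finite
      exact le_trans (Nat.le_of_dvd (Nat.pos_of_ne_zero h0) hdvd) hQi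
    exact isSupersolvable_of_cyclic_normal (zpowers w) hquot

/-- A finite group whose order is twice a prime power is supersolvable. -/
theorem result {G : Type*} [Group G] [Finite G] (p n : ℕ) (hp : p.Prime) (hG : Nat.card G = 2 * p ^ n) : Cfsg.IsSupersolvable G := by
  apply ss_aux (Nat.card G) G rfl
  refine ⟨p, hp, ?_⟩
  haveI : Fact p.Prime := ⟨hp⟩
  by_cases hp2 : p = 2
  · subst hp2
    have hGp : IsPGroup 2 G := IsPGroup.of_card (n := n + 1) (by rw [hG, pow_succ, mul_comm])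
    exact ⟨⊤, inferInstance, hGp.to_subgroup _, by rw [Subgroup.index_top]; omega⟩
  · obtain ⟨P⟩ : Nonempty (Sylow p G) := inferInstance
    have hnd : ¬ p ∣ (P : Subgroup G).index := P.not_dvd_index
    have hdvd : (P : Subgroup G).index ∣ 2 * p ^ n := by
      rw [← hG]; exact Subgroup.index_dvd_card _
    have hcop : Nat.Coprime (P : Subgroup G).index (p ^ n) :=
      Nat.Coprime.pow_right n ((Nat.Prime.coprime_iff_not_dvd hp).mpr hnd).symm
    have hdvd2 : (P : Subgroup G).index ∣ 2 := hcop.dvd_of_dvd_mul_right hdvd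
    have hle : (P : Subgroup G).index ≤ 2 := Nat.le_of_dvd (by norm_num) hdvd2
    have hnorm : (P : Subgroup G).Normal := by
      have h0 : (P : Subgroup G).index ≠ 0 := Subgroup.index_ne_zero_of_finite
      rcases Nat.lt_or_ge (P : Subgroup G).index 2 with h | h
      · have h1 : (P : Subgroup G).index = 1 := by omega
        rw [Subgroup.index_eq_one] at h1
        rw [h1]; infer_instance
      · exact Subgroup.normal_of_index_eq_two (le_antisymm hle h)
    exact ⟨P, hnorm, P.isPGroup', hle⟩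

end Cfsg.Agent.S0530
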