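import Cfsg.Statements.S0531
import Cfsg.Agent.Helper4.Supersolvable
import Mathlib

set_option autoImplicit false
open Cfsg

namespace Cfsg.Agent.S0531

open Subgroup Cfsg.Agent.Helper4

universe u

theorem clt_aux : ∀ (n : ℕ) (G : Type u) [Group G] [Finite G], Nat.card G = n →
    Cfsg.IsSupersolvable G → ∀ d : ℕ, d ∣ n → ∃ H : Subgroup G, Nat.card H = d := by
  intro n
  induction n using Nat.strong_induction_on with
  | _ n ih =>
  intro G _ _ hcard hG d hd
  by_cases hnt : Nontrivial G
  · obtain ⟨x, hp, hnorm⟩ := exists_normal_prime_order hG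
    have hcN : Nat.card (zpowers x) = orderOf x := Nat.card_zpowers x
    have hQ : Cfsg.IsSupersolvable (G ⧸ zpowers x) := isSupersolvable_quotient _ hG
    have hmul : Nat.card G = Nat.card (G ⧸ zpowers x) * orderOf x := by
      rw [← hcN]; exact Subgroup.card_eq_card_quotient_mul_card_subgroup _
    have hposQ : 0 < Nat.card (G ⧸ zpowers x) := Nat.card_pos
    have hlt : Nat.card (G ⧸ zpowers x) < n := by
      rw [← hcard, hmul]
      have := hp.two_le
      nlinarith
    by_cases hpd : orderOf x ∣ d
    · obtain ⟨d', rfl⟩ := hpd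
      have hd' : d' ∣ Nat.card (G ⧸ zpowers x) := by
        rw [← hcard, hmul, mul_comm (Nat.card (G ⧸ zpowers x))] at hd
        exact Nat.dvd_of_mul_dvd_mul_left hp.pos hd
      obtain ⟨H', hH'⟩ := ih _ hlt (G ⧸ zpowers x) rfl hQ d' hd'
      refine ⟨H'.comap (QuotientGroup.mk' (zpowers x)), ?_⟩
      have hidx : (H'.comap (QuotientGroup.mk' (zpowers x))).index = H'.index :=
        Subgroup.index_comap_of_surjective _ (QuotientGroup.mk'_surjective _)
      have h1 := (H'.comap (QuotientGroup.mk' (zpowers x))).card_mul_index
      have h2 := H'.card_mul_index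
      rw [hidx, hmul, ← h2, hH'] at h1
      have hidxpos : 0 < H'.index := Nat.pos_of_ne_zero (Subgroup.index_ne_zero_of_finite)
      have : Nat.card (H'.comap (QuotientGroup.mk' (zpowers x))) * H'.index =
          (orderOf x * d') * H'.index := by rw [h1]; ring
      exact Nat.eq_of_mul_eq_mul_right hidxpos this
    · have hcop : Nat.Coprime d (orderOf x) :=
        (Nat.Coprime.symm ((Nat.Prime.coprime_iff_not_dvd hp).mpr hpd))
      have hd' : d ∣ Nat.card (G ⧸ zpowers x) := by
        rw [← hcard, hmul] at hd
        exact hcop.dvd_of_dvd_mul_right hd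
      obtain ⟨H', hH'⟩ := ih _ hlt (G ⧸ zpowers x) rfl hQ d hd'
      -- K = preimage of H'
      have hNK : zpowers x ≤ H'.comap (QuotientGroup.mk' (zpowers x)) := by
        have := MonoidHom.ker_le_comap (QuotientGroup.mk' (zpowers x)) H'
        rwa [QuotientGroup.ker_mk'] at this
      have hidx : (H'.comap (QuotientGroup.mk' (zpowers x))).index = H'.index :=
        Subgroup.index_comap_of_surjective _ (QuotientGroup.mk'_surjective _)
      have hcK : Nat.card (H'.comap (QuotientGroup.mk' (zpowers x))) = d * orderOf x := by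
        have h1 := (H'.comap (QuotientGroup.mk' (zpowers x))).card_mul_index
        have h2 := H'.card_mul_index
        rw [hidx, hmul, ← h2, hH'] at h1
        have hidxpos : 0 < H'.index := Nat.pos_of_ne_zero (Subgroup.index_ne_zero_of_finite)
        have : Nat.card (H'.comap (QuotientGroup.mk' (zpowers x))) * H'.index =
            (d * orderOf x) * H'.index := by rw [h1]; ring
        exact Nat.eq_of_mul_eq_mul_right hidxpos this
      -- Schur–Zassenhaus inside K
      have hnK : ((zpowers x).subgroupOf (H'.comap (QuotientGroup.mk' (zpowers x)))).Normal :=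
        hnorm.subgroupOf _
      have hcNK : Nat.card ((zpowers x).subgroupOf (H'.comap (QuotientGroup.mk' (zpowers x)))) =
          orderOf x := by
        rw [Nat.card_congr (Subgroup.subgroupOfEquivOfLe hNK).toEquiv, hcN]
      have hidxNK : ((zpowers x).subgroupOf (H'.comap (QuotientGroup.mk' (zpowers x)))).index = d := by
        have h1 := ((zpowers x).subgroupOf (H'.comap (QuotientGroup.mk' (zpowers x)))).card_mul_index
        rw [hcNK, hcK, mul_comm] at h1
        exact Nat.eq_of_mul_eq_mul_right hp.pos h1
      have hcop' : Nat.Coprime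
          (Nat.card ((zpowers x).subgroupOf (H'.comap (QuotientGroup.mk' (zpowers x)))))
          ((zpowers x).subgroupOf (H'.comap (QuotientGroup.mk' (zpowers x)))).index := by
        rw [hcNK, hidxNK]; exact hcop.symm
      obtain ⟨C, hC⟩ := Subgroup.exists_right_complement'_of_coprime hcop'
      refine ⟨C.map (Subgroup.subtype _), ?_⟩
      rw [Subgroup.card_map_of_injective (Subgroup.subtype_injective _)]
      have h3 := hC.card_mul_card
      rw [hcNK, hcK, mul_comm] at h3
      exact Nat.eq_of_mul_eq_mul_right hp.pos h3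
  · rw [not_nontrivial_iff_subsingleton] at hnt
    have h1 : Nat.card G = 1 := Nat.card_eq_one_iff_unique.mpr ⟨hnt, ⟨1⟩⟩
    rw [← hcard, h1, Nat.dvd_one] at hd
    exact ⟨⊥, by rw [hd]; exact Subgroup.card_bot⟩

/-- A finite supersolvable group has a subgroup of each order dividing its order. -/
theorem result {G : Type*} [Group G] [Finite G] (hG : Cfsg.IsSupersolvable G) : Cfsg.HasSubgroupOfEveryOrder G := by
  intro d hd
  exact clt_aux (Nat.card G) G rfl hG d hd

end Cfsg.Agent.S0531
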