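import Cfsg.Statements.S0532
import Cfsg.Agent.Helper4.SylowExtra
import Mathlib

set_option autoImplicit false
open Cfsg

namespace Cfsg.Agent.S0532

open Subgroup Cfsg.Agent.Helper4

universe u

theorem hasSubgroup_of_equiv {A B : Type*} [Group A] [Group B] (e : A ≃* B)
    (hA : Cfsg.HasSubgroupOfEveryOrder A) : Cfsg.HasSubgroupOfEveryOrder B := by
  intro d hd
  rw [← Nat.card_congr e.toEquiv] at hd
  obtain ⟨K, hK⟩ := hA d hd
  refine ⟨K.map e.toMonoidHom, ?_⟩
  rw [Subgroup.card_map_of_injective e.injective]
  exact hK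

theorem aux : ∀ (n : ℕ) (G : Type u) [Group G] [Finite G], Nat.card G = n →
    (∀ H : Subgroup G, Cfsg.HasSubgroupOfEveryOrder H) → ∀ (p : ℕ) [Fact p.Prime],
    p ∣ Nat.card G → (∀ q : ℕ, q.Prime → q ∣ Nat.card G → q ≤ p) →
    ∀ P : Sylow p G, (P : Subgroup G).Normal := by
  intro n
  induction n using Nat.strong_induction_on with
  | _ n ih =>
  intro G _ _ hcard h p hp hdvd hmax P
  have hpp : p.Prime := hp.out
  have hpos : 0 < Nat.card G := Nat.card_pos
  have hne1 : Nat.card G ≠ 1 := by
    intro h1
    rw [h1] at hdvd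
    exact hpp.one_lt.ne' (Nat.dvd_one.mp hdvd)
  have hq0 : (Nat.card G).minFac.Prime := Nat.minFac_prime hne1
  have hq0d : (Nat.card G).minFac ∣ Nat.card G := Nat.minFac_dvd _
  have hq0le : (Nat.card G).minFac ≤ p := hmax _ hq0 hq0d
  rcases hq0le.eq_or_lt with heq | hlt
  · -- G is a p-group
    have hpow : Nat.card G = p ^ (Nat.card G).primeFactorsList.length := by
      apply Nat.eq_prime_pow_of_unique_prime_dvd hpos.ne'
      intro d hd hdd
      have h1 : d ≤ p := hmax d hd hdd
      have h2 : (Nat.card G).minFac ≤ d := Nat.minFac_le_of_dvd hd.two_le hdd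
      omega
    have hG : IsPGroup p G := IsPGroup.of_card hpow
    have : (P : Subgroup G) = ⊤ := by
      have := P.is_maximal' (Q := ⊤) (hG.to_subgroup _) le_top
      exact this.symm
    rw [this]
    infer_instance
  · -- a subgroup of index the smallest prime
    obtain ⟨d, hd⟩ := hq0d
    have hdpos : 0 < d := by
      rcases Nat.eq_zero_or_pos d with h0 | h0
      · rw [h0, mul_zero] at hd; omega
      · exact h0
    have hdd : d ∣ Nat.card (⊤ : Subgroup G) := by
      rw [Subgroup.card_top, hd]; exact dvd_mul_left _ _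
    obtain ⟨M0, hM0⟩ := h ⊤ d hdd
    have hcM : Nat.card (M0.map (⊤ : Subgroup G).subtype) = d := by
      rw [Subgroup.card_map_of_injective (Subgroup.subtype_injective _)]; exact hM0
    have hidx : (M0.map (⊤ : Subgroup G).subtype).index = (Nat.card G).minFac := by
      have h1 := (M0.map (⊤ : Subgroup G).subtype).card_mul_index
      rw [hcM] at h1
      have h2 : d * (M0.map (⊤ : Subgroup G).subtype).index = d * (Nat.card G).minFac := by
        rw [h1, mul_comm, ← hd]
      exact Nat.eq_of_mul_eq_mul_left hdpos h2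
    have hMn : (M0.map (⊤ : Subgroup G).subtype).Normal :=
      Subgroup.normal_of_index_eq_minFac_card hidx
    generalize M0.map (⊤ : Subgroup G).subtype = M at hcM hidx hMn
    have := hMn
    have hndvd : ¬ p ∣ M.index := by
      rw [hidx]
      intro hc
      have := (Nat.prime_dvd_prime_iff_eq hpp hq0).mp hc
      omega
    have hPM : (P : Subgroup G) ≤ M := sylow_le_normal_of_not_dvd_index P M hndvd
    have hlt' : Nat.card M < n := by
      rw [hcM, ← hcard, hd]
      have := hq0.two_le
      nlinarith
    have hpM : p ∣ Nat.card M := by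
      rw [hcM]
      rw [hd] at hdvd
      rcases (Nat.Prime.dvd_mul hpp).mp hdvd with h1 | h1
      · have := (Nat.prime_dvd_prime_iff_eq hpp hq0).mp h1
        omega
      · exact h1
    have hmaxM : ∀ q : ℕ, q.Prime → q ∣ Nat.card M → q ≤ p := fun q hq hqd =>
      hmax q hq (hqd.trans (Subgroup.card_subgroup_dvd_card M))
    have hM : ∀ H : Subgroup M, Cfsg.HasSubgroupOfEveryOrder H := by
      intro H
      exact hasSubgroup_of_equiv (Subgroup.equivMapOfInjective H M.subtype
        (Subgroup.subtype_injective M)).symm (h (H.map M.subtype))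
    have hnorm := ih _ hlt' M rfl hM p hpM hmaxM (P.subtype hPM)
    rw [Sylow.coe_subtype] at hnorm
    exact sylow_normal_of_normal_subgroupOf P M hPM hnorm

/-- If each subgroup of a finite group satisfies the converse of Lagrange's theorem, then a Sylow subgroup for the largest prime dividing the group order is normal. -/
theorem result {G : Type*} [Group G] [Finite G] (h : ∀ H : Subgroup G, Cfsg.HasSubgroupOfEveryOrder H) (p : ℕ) [Fact p.Prime] (hdvd : p ∣ Nat.card G) (hmax : ∀ q : ℕ, q.Prime → q ∣ Nat.card G → q ≤ p) (P : Sylow p G) : (P : Subgroup G).Normal := by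
  exact aux (Nat.card G) G rfl h p hdvd hmax P

end Cfsg.Agent.S0532
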