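import Cfsg.Statements.S0533
import Cfsg.Agent.Helper4.Supersolvable
import Cfsg.Agent.S0532
import Mathlib

set_option autoImplicit false
open Cfsg

namespace Cfsg.Agent.S0533

open Subgroup Cfsg.Agent.Helper4

universe u

theorem card_comap_mk' {G : Type*} [Group G] [Finite G] (N : Subgroup G) [N.Normal]
    (H' : Subgroup (G ⧸ N)) :
    Nat.card (H'.comap (QuotientGroup.mk' N)) = Nat.card H' * Nat.card N := by
  have hidx : (H'.comap (QuotientGroup.mk' N)).index = H'.index :=
    Subgroup.index_comap_of_surjective _ (QuotientGroup.mk'_surjective _)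
  have h1 := (H'.comap (QuotientGroup.mk' N)).card_mul_index
  have h2 := H'.card_mul_index
  have h3 : Nat.card G = Nat.card (G ⧸ N) * Nat.card N :=
    Subgroup.card_eq_card_quotient_mul_card_subgroup _
  rw [hidx, h3, ← h2] at h1
  have hidxpos : 0 < H'.index := Nat.pos_of_ne_zero (Subgroup.index_ne_zero_of_finite)
  have : Nat.card (H'.comap (QuotientGroup.mk' N)) * H'.index =
      (Nat.card H' * Nat.card N) * H'.index := by rw [h1]; ring
  exact Nat.eq_of_mul_eq_mul_right hidxpos this

theorem card_map_mk'_mul {G : Type*} [Group G] [Finite G] (N : Subgroup G) [N.Normal]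
    (K : Subgroup G) :
    Nat.card (K.map (QuotientGroup.mk' N)) * Nat.card (N ⊓ K : Subgroup G) = Nat.card K := by
  have h1 : (QuotientGroup.mk' N).ker.relIndex K = Nat.card (K.map (QuotientGroup.mk' N)) :=
    Subgroup.relIndex_ker _ _
  rw [QuotientGroup.ker_mk'] at h1
  have h2 := (N.subgroupOf K).card_mul_index
  have h3 : Nat.card (N.subgroupOf K) = Nat.card (N ⊓ K : Subgroup G) := by
    rw [← Subgroup.inf_subgroupOf_right]
    exact Nat.card_congr (Subgroup.subgroupOfEquivOfLe inf_le_right).toEquiv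
  rw [h3] at h2
  rw [← h1, mul_comm]
  exact h2

/-- Subgroups of prescribed order inside a subgroup, viewed in the ambient group. -/
theorem clt_subgroup {G : Type*} [Group G]
    (h : ∀ H : Subgroup G, Cfsg.HasSubgroupOfEveryOrder H) (K : Subgroup G) (d : ℕ)
    (hd : d ∣ Nat.card K) : ∃ L : Subgroup G, L ≤ K ∧ Nat.card L = d := by
  obtain ⟨L0, hL0⟩ := h K d hd
  refine ⟨L0.map K.subtype, ?_, ?_⟩
  · rintro _ ⟨x, _, rfl⟩
    exact x.2
  · rw [Subgroup.card_map_of_injective (Subgroup.subtype_injective _)]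
    exact hL0

/-- The property "every subgroup satisfies the converse of Lagrange's theorem" passes to
quotients by normal subgroups of prime order. -/
theorem clt_quotient {G : Type u} [Group G] [Finite G]
    (h : ∀ H : Subgroup G, Cfsg.HasSubgroupOfEveryOrder H) (N : Subgroup G) [N.Normal]
    (hp : (Nat.card N).Prime) : ∀ K' : Subgroup (G ⧸ N), Cfsg.HasSubgroupOfEveryOrder K' := by
  intro K' d hd
  have hcK : Nat.card (K'.comap (QuotientGroup.mk' N)) = Nat.card K' * Nat.card N :=
    card_comap_mk' N K'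
  have hdK : d * Nat.card N ∣ Nat.card (K'.comap (QuotientGroup.mk' N)) := by
    rw [hcK]; exact Nat.mul_dvd_mul_right hd _
  obtain ⟨L, hLle, hLc⟩ := clt_subgroup h _ _ hdK
  suffices hex : ∃ L' : Subgroup (G ⧸ N), L' ≤ K' ∧ Nat.card L' = d by
    obtain ⟨L', hle, hc⟩ := hex
    refine ⟨L'.subgroupOf K', ?_⟩
    rw [Nat.card_congr (Subgroup.subgroupOfEquivOfLe hle).toEquiv]; exact hc
  by_cases hNL : N ≤ L
  · refine ⟨L.map (QuotientGroup.mk' N), Subgroup.map_le_iff_le_comap.mpr hLle, ?_⟩
    have := card_map_mk'_mul N L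
    rw [inf_of_le_left hNL, hLc] at this
    exact Nat.eq_of_mul_eq_mul_right hp.pos this
  · have hinf : N ⊓ L = ⊥ := by
      have hdvd : Nat.card (N ⊓ L : Subgroup G) ∣ Nat.card N := Subgroup.card_dvd_of_le inf_le_left
      rcases (Nat.dvd_prime hp).mp hdvd with h1 | h1
      · exact (Subgroup.card_eq_one).mp h1
      · exfalso
        apply hNL
        have : N ⊓ L = N := Subgroup.eq_of_le_of_card_ge inf_le_left (le_of_eq h1.symm)
        rw [← this]
        exact inf_le_right
    have hdL : d ∣ Nat.card L := by rw [hLc]; exact dvd_mul_right _ _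
    obtain ⟨M, hMle, hMc⟩ := clt_subgroup h L d hdL
    refine ⟨M.map (QuotientGroup.mk' N), Subgroup.map_le_iff_le_comap.mpr (hMle.trans hLle), ?_⟩
    have := card_map_mk'_mul N M
    have hinf' : N ⊓ M = ⊥ := le_bot_iff.mp (hinf ▸ inf_le_inf_left N hMle)
    rw [hinf', Subgroup.card_bot, mul_one] at this
    rw [this]; exact hMc

theorem exists_central_normal {G : Type*} [Group G] [Finite G] (p : ℕ) [Fact p.Prime]
    (P : Subgroup G) [P.Normal] (hP : IsPGroup p P) (hne : P ≠ ⊥) :
    ∃ A : Subgroup G, A.Normal ∧ A ≤ P ∧ A ≠ ⊥ ∧ ∀ a ∈ A, ∀ x ∈ P, x * a = a * x := by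
  have hnt : Nontrivial P := (Subgroup.nontrivial_iff_ne_bot P).mpr hne
  have hcnt : Nontrivial (Subgroup.center P) := hP.center_nontrivial
  refine ⟨(Subgroup.center P).map P.subtype, inferInstance, ?_, ?_, ?_⟩
  · rintro _ ⟨x, _, rfl⟩
    exact x.2
  · intro h
    rw [(Subgroup.map_eq_bot_iff_of_injective _ (Subgroup.subtype_injective P))] at h
    exact ((Subgroup.nontrivial_iff_ne_bot _).mp hcnt) h
  · rintro _ ⟨z, hz, rfl⟩ x hx
    rw [SetLike.mem_coe, Subgroup.mem_center_iff] at hz
    exact congrArg Subtype.val (hz ⟨x, hx⟩)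

theorem exists_normal_prime {G : Type u} [Group G] [Finite G] [Nontrivial G]
    (h : ∀ H : Subgroup G, Cfsg.HasSubgroupOfEveryOrder H) :
    ∃ N : Subgroup G, N.Normal ∧ (Nat.card N).Prime := by
  have hcard : 1 < Nat.card G := Finite.one_lt_card
  obtain ⟨p, hpmem, hpmax⟩ := Finset.exists_max_image (Nat.card G).primeFactors id
    (Nat.nonempty_primeFactors.mpr hcard)
  have hpp : p.Prime := Nat.prime_of_mem_primeFactors hpmem
  have hpd : p ∣ Nat.card G := Nat.dvd_of_mem_primeFactors hpmem
  have hmax : ∀ q : ℕ, q.Prime → q ∣ Nat.card G → q ≤ p := fun q hq hqd =>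
    hpmax q (Nat.mem_primeFactors.mpr ⟨hq, hqd, Nat.card_pos.ne'⟩)
  have : Fact p.Prime := ⟨hpp⟩
  obtain ⟨P⟩ : Nonempty (Sylow p G) := inferInstance
  have hPn : (P : Subgroup G).Normal := Cfsg.Agent.S0532.result h p hpd hmax P
  have hPne : (P : Subgroup G) ≠ ⊥ := by
    intro hb
    have h1 := P.card_eq_multiplicity
    have h2 : Nat.card (P : Subgroup G) = 1 := by rw [hb]; exact Subgroup.card_bot
    have hpos : 0 < (Nat.card G).factorization p :=
      Nat.Prime.factorization_pos_of_dvd hpp Nat.card_pos.ne' hpd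
    have h3 : Nat.card P = 1 := h2
    rw [h3] at h1
    have := Nat.one_lt_pow hpos.ne' hpp.one_lt
    omega
  -- a complement H of order m
  have hidx : Nat.card (P : Subgroup G) * (P : Subgroup G).index = Nat.card G :=
    (P : Subgroup G).card_mul_index
  have hndvd : ¬ p ∣ (P : Subgroup G).index := P.not_dvd_index
  obtain ⟨H, -, hHc⟩ := clt_subgroup h ⊤ (P : Subgroup G).index
    (by rw [Subgroup.card_top, ← hidx]; exact dvd_mul_left _ _)
  obtain ⟨A, hAn, hAP, hAne, hAc⟩ := exists_central_normal p (P : Subgroup G) P.isPGroup' hPne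
  have := hAn
  have hAp : IsPGroup p A := P.isPGroup'.to_le hAP
  have hpA : p ∣ Nat.card A := by
    obtain ⟨k, hk⟩ := IsPGroup.iff_card.mp hAp
    have hk0 : k ≠ 0 := by
      rintro rfl
      rw [pow_zero] at hk
      exact hAne (Subgroup.card_eq_one.mp hk)
    rw [hk]; exact dvd_pow_self p hk0
  have hcop : Nat.Coprime p (P : Subgroup G).index := (Nat.Prime.coprime_iff_not_dvd hpp).mpr hndvd
  have hdvdAH : p * (P : Subgroup G).index ∣ Nat.card (A ⊔ H : Subgroup G) := by
    apply Nat.Coprime.mul_dvd_of_dvd_of_dvd hcop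
    · exact hpA.trans (Subgroup.card_dvd_of_le le_sup_left)
    · rw [← hHc]; exact Subgroup.card_dvd_of_le le_sup_right
  obtain ⟨D, hDle, hDc⟩ := clt_subgroup h (A ⊔ H) _ hdvdAH
  -- the subgroup N = A ⊓ D
  have hmul := card_map_mk'_mul A D
  have hDmap : Nat.card (D.map (QuotientGroup.mk' A)) ∣ (P : Subgroup G).index := by
    have h1 : D.map (QuotientGroup.mk' A) ≤ H.map (QuotientGroup.mk' A) := by
      have h2 : (A ⊔ H).map (QuotientGroup.mk' A) = H.map (QuotientGroup.mk' A) := by
        rw [Subgroup.map_sup, QuotientGroup.map_mk'_self, bot_sup_eq]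
      rw [← h2]
      exact Subgroup.map_mono hDle
    have h3 : Nat.card (H.map (QuotientGroup.mk' A)) ∣ Nat.card H := Subgroup.card_map_dvd _ _
    rw [hHc] at h3
    exact (Subgroup.card_dvd_of_le h1).trans h3
  have hpN : p ∣ Nat.card (A ⊓ D : Subgroup G) := by
    have h1 : p ∣ Nat.card (D.map (QuotientGroup.mk' A)) * Nat.card (A ⊓ D : Subgroup G) := by
      rw [hmul, hDc]; exact dvd_mul_right _ _
    have h2 : Nat.Coprime p (Nat.card (D.map (QuotientGroup.mk' A))) :=
      Nat.Coprime.coprime_dvd_right hDmap hcop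
    exact h2.dvd_of_dvd_mul_left h1
  have hNc : Nat.card (A ⊓ D : Subgroup G) = p := by
    obtain ⟨k, hk⟩ := IsPGroup.iff_card.mp (hAp.to_le (inf_le_left : A ⊓ D ≤ A))
    have h1 : p ^ k ∣ p * (P : Subgroup G).index := by
      rw [← hk, ← hDc]; exact Subgroup.card_dvd_of_le inf_le_right
    have h2 : p ^ k ∣ p := (Nat.Coprime.pow_left k hcop).dvd_of_dvd_mul_right h1
    have hk1 : k ≤ 1 := by
      by_contra hcon
      have : p ^ 2 ∣ p := (pow_dvd_pow p (by omega)).trans h2
      have := Nat.le_of_dvd hpp.pos this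
      have := hpp.two_le
      nlinarith
    rw [hk] at hpN ⊢
    interval_cases k
    · rw [pow_zero] at hpN
      exact absurd (Nat.dvd_one.mp hpN) hpp.one_lt.ne'
    · rw [pow_one]
  refine ⟨A ⊓ D, ?_, hNc ▸ hpp⟩
  rw [← Subgroup.normalizer_eq_top_iff]
  have hDn : D ≤ Subgroup.normalizer ((A ⊓ D : Subgroup G) : Set G) := by
    intro d hd
    apply Subgroup.mem_normalizer_fintype
    intro n hn
    exact ⟨hAn.conj_mem n hn.1 d, D.mul_mem (D.mul_mem hd hn.2) (D.inv_mem hd)⟩
  have hPn' : (P : Subgroup G) ≤ Subgroup.normalizer ((A ⊓ D : Subgroup G) : Set G) := by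
    intro x hx
    apply Subgroup.mem_normalizer_fintype
    intro n hn
    have : x * n * x⁻¹ = n := by rw [hAc n hn.1 x hx]; group
    rw [this]; exact hn
  have hle : D ⊔ (P : Subgroup G) ≤ Subgroup.normalizer ((A ⊓ D : Subgroup G) : Set G) :=
    sup_le hDn hPn'
  have htop : D ⊔ (P : Subgroup G) = ⊤ := by
    rw [← Subgroup.card_eq_iff_eq_top]
    apply Nat.dvd_antisymm (Subgroup.card_subgroup_dvd_card _)
    rw [← hidx]
    have hcop' : Nat.Coprime (Nat.card (P : Subgroup G)) (P : Subgroup G).index := by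
      obtain ⟨k, hk⟩ := IsPGroup.iff_card.mp P.isPGroup'
      have hk' : Nat.card (P : Subgroup G) = p ^ k := hk
      rw [hk']
      exact Nat.Coprime.pow_left k hcop
    apply Nat.Coprime.mul_dvd_of_dvd_of_dvd hcop'
    · exact Subgroup.card_dvd_of_le le_sup_right
    · have h1 : (P : Subgroup G).index ∣ Nat.card D := by rw [hDc]; exact dvd_mul_left _ _
      exact h1.trans (Subgroup.card_dvd_of_le le_sup_left)
  rw [htop] at hle
  exact top_le_iff.mp hle

theorem aux : ∀ (n : ℕ) (G : Type u) [Group G] [Finite G], Nat.card G = n →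
    (∀ H : Subgroup G, Cfsg.HasSubgroupOfEveryOrder H) → Cfsg.IsSupersolvable G := by
  intro n
  induction n using Nat.strong_induction_on with
  | _ n ih =>
  intro G _ _ hcard h
  by_cases hnt : Nontrivial G
  · obtain ⟨N, hNn, hNp⟩ := exists_normal_prime h
    have := hNn
    have : Fact (Nat.card N).Prime := ⟨hNp⟩
    have : IsCyclic N := isCyclic_of_prime_card rfl
    have hmul : Nat.card G = Nat.card (G ⧸ N) * Nat.card N :=
      Subgroup.card_eq_card_quotient_mul_card_subgroup _
    have hposQ : 0 < Nat.card (G ⧸ N) := Nat.card_pos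
    have hlt : Nat.card (G ⧸ N) < n := by
      rw [← hcard, hmul]
      have := hNp.two_le
      nlinarith
    have hQ := ih _ hlt (G ⧸ N) rfl (clt_quotient h N hNp)
    exact isSupersolvable_of_cyclic_normal N hQ
  · rw [not_nontrivial_iff_subsingleton] at hnt
    exact isSupersolvable_of_isCyclic

/-- If every subgroup of a finite group has subgroups of all orders dividing its order, then the group is supersolvable. -/
theorem result {G : Type*} [Group G] [Finite G] (h : ∀ H : Subgroup G, Cfsg.HasSubgroupOfEveryOrder H) : Cfsg.IsSupersolvable G := by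
  exact aux (Nat.card G) G rfl h

end Cfsg.Agent.S0533
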