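import Cfsg.Statements.S0534
import Mathlib
import Cfsg.Agent.S0531
import Cfsg.Agent.S0003
import Cfsg.Agent.Helper4.Supersolvable
set_option autoImplicit false
open Cfsg
namespace Cfsg.Agent.S0534

universe u

theorem arith (N M d : ℕ) (hN : N ≠ 0) (hM : M ≠ 0) (hd : d ∣ N * M)
    (hexp : ∀ p : ℕ, p.Prime → p ∣ N → M.factorization p + 1 = N.factorization p) :
    ∃ m k : ℕ, m * k = d ∧ m ∣ N ∧ Nat.Coprime m (N / m) ∧ k ∣ M := by
  classical
  have hd0 : d ≠ 0 := ne_zero_of_dvd_ne_zero (mul_ne_zero hN hM) hd
  set f : ℕ →₀ ℕ := N.factorization.filter (fun p => N.factorization p ≤ d.factorization p) with hf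
  have hfN : f ≤ N.factorization := by
    intro p
    rw [hf, Finsupp.filter_apply]
    split_ifs <;> simp
  have hfd : f ≤ d.factorization := by
    intro p
    rw [hf, Finsupp.filter_apply]
    split_ifs with h <;> simp [h]
  set m := f.prod (· ^ ·) with hm
  have hmf : m.factorization = f := Nat.factorization_prod_pow_eq_self_of_le_factorization hfN
  have hmN : m ∣ N := Nat.prod_pow_dvd_of_le_factorization hfN
  have hmd : m ∣ d := Nat.prod_pow_dvd_of_le_factorization hfd
  have hm0 : m ≠ 0 := ne_zero_of_dvd_ne_zero hN hmN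
  refine ⟨m, d / m, Nat.mul_div_cancel' hmd, hmN, ?_, ?_⟩
  · apply Nat.coprime_of_dvd'
    intro r hr hrm hrN
    exfalso
    have h1 : 0 < f r := by
      rw [← hmf]; exact hr.factorization_pos_of_dvd hm0 hrm
    have h2 : f r = N.factorization r := by
      rw [hf, Finsupp.filter_apply] at h1 ⊢
      split_ifs at h1 ⊢ with h
      · rfl
      · omega
    have hNm0 : N / m ≠ 0 :=
      (Nat.div_pos (Nat.le_of_dvd (Nat.pos_of_ne_zero hN) hmN) (Nat.pos_of_ne_zero hm0)).ne'
    have h3 : 0 < (N / m).factorization r := hr.factorization_pos_of_dvd hNm0 hrN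
    rw [Nat.factorization_div hmN, hmf] at h3
    simp [h2] at h3
  · have hk0 : d / m ≠ 0 :=
      (Nat.div_pos (Nat.le_of_dvd (Nat.pos_of_ne_zero hd0) hmd) (Nat.pos_of_ne_zero hm0)).ne'
    rw [← Nat.factorization_le_iff_dvd hk0 hM, Nat.factorization_div hmd, hmf]
    intro p
    simp only [Finsupp.coe_tsub, Pi.sub_apply]
    have hbound : d.factorization p ≤ N.factorization p + M.factorization p := by
      have := (Nat.factorization_le_iff_dvd hd0 (mul_ne_zero hN hM)).mpr hd p
      rw [Nat.factorization_mul hN hM] at this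
      simpa using this
    by_cases h : N.factorization p ≤ d.factorization p
    · have : f p = N.factorization p := by rw [hf, Finsupp.filter_apply, if_pos h]
      omega
    · have hfp : f p = 0 := by rw [hf, Finsupp.filter_apply, if_neg h]
      push Not at h
      have hpos : 0 < N.factorization p := by omega
      have hpp : p.Prime := by
        by_contra hnp
        rw [Nat.factorization_eq_zero_of_not_prime N hnp] at hpos
        omega
      have hpN : p ∣ N := Nat.dvd_of_factorization_pos hpos.ne'
      have := hexp p hpp hpN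
      omega

/-- A finite commutative group is supersolvable. -/
theorem isSupersolvable_of_comm : ∀ (n : ℕ) (A : Type u) [CommGroup A] [Finite A],
    Nat.card A = n → Cfsg.IsSupersolvable A := by
  intro n
  induction n using Nat.strong_induction_on with
  | _ n ih =>
  intro A _ _ hn
  by_cases htriv : Subsingleton A
  · haveI : IsCyclic A := inferInstance
    exact Cfsg.Agent.Helper4.isSupersolvable_of_isCyclic
  rw [not_subsingleton_iff_nontrivial] at htriv
  obtain ⟨g, hg⟩ := exists_ne (1 : A)
  haveI : (Subgroup.zpowers g).Normal := inferInstance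
  apply Cfsg.Agent.Helper4.isSupersolvable_of_cyclic_normal (Subgroup.zpowers g)
  apply ih (Nat.card (A ⧸ Subgroup.zpowers g)) _ (A ⧸ Subgroup.zpowers g) rfl
  rw [← hn]
  have hlt : 1 < Nat.card (Subgroup.zpowers g) := by
    rw [Nat.card_zpowers]
    have h1 : orderOf g ≠ 1 := fun h => hg (orderOf_eq_one_iff.mp h)
    have h0 : 0 < orderOf g := orderOf_pos g
    omega
  have := (Subgroup.zpowers g).card_mul_index
  rw [Subgroup.index] at this
  have hpos : 0 < Nat.card (A ⧸ Subgroup.zpowers g) := Nat.card_pos
  nlinarith

/-- Let G be a finite solvable group and A a finite abelian group such that every prime dividing the order of A divides the order of G and, for each prime p dividing the order of G, the exponent of p in the order of A is one less than its exponent in the order of G. Then G × A has a subgroup of every order dividing its order. -/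
theorem result {G A : Type*} [Group G] [CommGroup A] [Finite G] [Finite A] [Group.IsSolvable G] (hA : ∀ p : ℕ, p.Prime → p ∣ Nat.card A → p ∣ Nat.card G) (hexp : ∀ p : ℕ, p.Prime → p ∣ Nat.card G → (Nat.card A).factorization p + 1 = (Nat.card G).factorization p) : Cfsg.HasSubgroupOfEveryOrder (G × A) := by
  intro d hd
  rw [Nat.card_prod] at hd
  obtain ⟨m, k, hmk, hmN, hcop, hkM⟩ := arith (Nat.card G) (Nat.card A) d Nat.card_pos.ne'
    Nat.card_pos.ne' hd hexp
  have hGcard : Nat.card G = m * (Nat.card G / m) := (Nat.mul_div_cancel' hmN).symm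
  obtain ⟨H, hH⟩ := Cfsg.Agent.S0003.result m (Nat.card G / m) hGcard hcop
  have hAs : Cfsg.IsSupersolvable A := isSupersolvable_of_comm _ A rfl
  obtain ⟨K, hK⟩ := Cfsg.Agent.S0531.result hAs k hkM
  refine ⟨H.prod K, ?_⟩
  rw [Nat.card_congr (Subgroup.prodEquiv H K).toEquiv, Nat.card_prod, hH, hK, hmk]

end Cfsg.Agent.S0534
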