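import Cfsg.Statements.S0541
import Cfsg.Agent.S0540
import Mathlib

set_option autoImplicit false
open Cfsg

namespace Cfsg.Agent.S0541

open scoped Pointwise

/-- in a finite group with the normalizer condition every subgroup is subnormal. -/
theorem subnormal_of_normalizerCondition {G : Type*} [Group G] [Finite G]
    (hnc : NormalizerCondition G) : ∀ H : Subgroup G, H.IsSubnormal := by
  have key : ∀ n : ℕ, ∀ H : Subgroup G, H.index = n → H.IsSubnormal := by
    intro n
    induction n using Nat.strong_induction_on with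
    | _ n ih =>
    intro H hH
    by_cases htop : H = ⊤
    · rw [htop]
      exact Subgroup.IsSubnormal.top
    · have hlt : H < Subgroup.normalizer (H : Set G) := hnc H (lt_top_iff_ne_top.mpr htop)
      have hidx : (Subgroup.normalizer (H : Set G)).index < n := by
        rw [← hH]
        exact Subgroup.index_strictAnti hlt
      have hN := ih _ hidx (Subgroup.normalizer (H : Set G)) rfl
      exact Subgroup.IsSubnormal.step H _ Subgroup.le_normalizer hN
        ((Subgroup.normal_subgroupOf_iff_le_normalizer Subgroup.le_normalizer).mpr le_rfl)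
  intro H
  exact key _ H rfl

theorem conj_mem_conj_smul {G : Type*} [Group G] (a b : G) (Z : Subgroup G) (x : G)
    (hx : x ∈ MulAut.conj b • Z) : a * x * a⁻¹ ∈ MulAut.conj (a * b) • Z := by
  rw [Subgroup.mem_smul_pointwise_iff_exists] at hx ⊢
  obtain ⟨z, hz, rfl⟩ := hx
  refine ⟨z, hz, ?_⟩
  simp only [MulAut.smul_def, MulAut.conj_apply]
  group

theorem le_normalizer_iSup_conj {G : Type*} [Group G] (Y Z : Subgroup G) (g : G) :
    Y ≤ Subgroup.normalizer ((⨆ y ∈ Y, MulAut.conj (y * g) • Z : Subgroup G) : Set G) := by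
  apply Cfsg.Agent.S0567.le_normalizer_of_conj_mem
  intro y' hy' n hn
  have hle : (⨆ y ∈ Y, MulAut.conj (y * g) • Z : Subgroup G) ≤
      (⨆ y ∈ Y, MulAut.conj (y * g) • Z : Subgroup G).comap (MulAut.conj y').toMonoidHom := by
    apply iSup₂_le
    intro y hy x hx
    rw [Subgroup.mem_comap]
    have h1 := conj_mem_conj_smul y' (y * g) Z x hx
    rw [← mul_assoc] at h1
    exact (le_iSup₂_of_le (y' * y) (Y.mul_mem hy' hy) le_rfl :
      MulAut.conj (y' * y * g) • Z ≤ ⨆ y ∈ Y, MulAut.conj (y * g) • Z) h1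
  exact hle hn

/-- Let Z and Y be subgroups of a finite group G and p a prime. Suppose that for every g in G the subgroup generated by the conjugates of g Z g⁻¹ under Y is a p-group. Then there is a Sylow p-subgroup P of G such that Y normalizes the subgroup generated by all conjugates of Z contained in P. -/
theorem result {G : Type*} [Group G] [Finite G] (p : ℕ) [Fact p.Prime] (Z Y : Subgroup G) (h : ∀ g : G, IsPGroup p ↥(⨆ y ∈ Y, MulAut.conj (y * g) • Z)) : ∃ P : Sylow p G, Y ≤ Subgroup.normalizer ((⨆ g ∈ {g : G | MulAut.conj g • Z ≤ (P : Subgroup G)}, MulAut.conj g • Z : Subgroup G) : Set G) := by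
  classical
  have hgood0 : IsPGroup p ↥(⨆ y ∈ Y, MulAut.conj (y * 1) • Z) ∧
      Y ≤ Subgroup.normalizer ((⨆ y ∈ Y, MulAut.conj (y * 1) • Z : Subgroup G) : Set G) ∧
      (⨆ y ∈ Y, MulAut.conj (y * 1) • Z : Subgroup G) ≤
        ⨆ g ∈ {g : G | MulAut.conj g • Z ≤ (⨆ y ∈ Y, MulAut.conj (y * 1) • Z : Subgroup G)},
          MulAut.conj g • Z := by
    refine ⟨h 1, le_normalizer_iSup_conj Y Z 1, ?_⟩
    exact iSup₂_le (fun y hy => le_iSup₂_of_le (y * 1)
      (show MulAut.conj (y * 1) • Z ≤ ⨆ y ∈ Y, MulAut.conj (y * 1) • Z from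
        le_iSup₂_of_le y hy le_rfl) le_rfl)
  obtain ⟨T, -, hT⟩ := Finite.exists_le_maximal
    (p := fun T : Subgroup G => IsPGroup p T ∧ Y ≤ Subgroup.normalizer (T : Set G) ∧
      T ≤ ⨆ g ∈ {g : G | MulAut.conj g • Z ≤ T}, MulAut.conj g • Z) hgood0
  obtain ⟨⟨hTp, hYT, hTgen⟩, hTmax⟩ := hT
  obtain ⟨P, hTP⟩ := hTp.exists_le_sylow
  refine ⟨P, ?_⟩
  obtain ⟨W, hWdef⟩ : ∃ W : Subgroup G,
      W = ⨆ g ∈ {g : G | MulAut.conj g • Z ≤ (P : Subgroup G)}, MulAut.conj g • Z := ⟨_, rfl⟩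
  rw [← hWdef]
  have hTW : T ≤ W := by
    rw [hWdef]
    exact hTgen.trans (iSup₂_le (fun g hg => le_iSup₂_of_le g (le_trans hg hTP) le_rfl))
  have hWT : W ≤ T := by
    by_contra hWT
    have h₀ : {B : Subgroup G | (∃ g : G, B = MulAut.conj g • Z) ∧ B ≤ T} ⊂
        {B : Subgroup G | (∃ g : G, B = MulAut.conj g • Z) ∧ B ≤ (P : Subgroup G)} := by
      refine Set.ssubset_def.mpr ⟨fun B hB => ⟨hB.1, hB.2.trans hTP⟩, ?_⟩
      intro hsub
      apply hWT
      rw [hWdef]
      exact iSup₂_le (fun g hg => (hsub ⟨⟨g, rfl⟩, hg⟩).2)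
    have hsSup : sSup {B : Subgroup G | (∃ g : G, B = MulAut.conj g • Z) ∧ B ≤ T} = T := by
      apply le_antisymm (sSup_le (fun B hB => hB.2))
      exact hTgen.trans (iSup₂_le (fun g hg => le_sSup ⟨⟨g, rfl⟩, hg⟩))
    have hnc : NormalizerCondition (P : Subgroup G) := by
      have : Group.IsNilpotent (P : Subgroup G) := P.isPGroup'.isNilpotent
      exact Group.normalizerCondition_of_isNilpotent
    obtain ⟨B, ⟨⟨g, rfl⟩, hBP⟩, hB₀, hBN⟩ := Cfsg.Agent.S0540.zipper_rel (P : Subgroup G)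
      {B : Subgroup G | (∃ g : G, B = MulAut.conj g • Z) ∧ B ≤ (P : Subgroup G)}
      {B : Subgroup G | (∃ g : G, B = MulAut.conj g • Z) ∧ B ≤ T}
      (fun B hB => hB.2)
      (fun B _ => subnormal_of_normalizerCondition hnc _)
      (by
        rintro B ⟨⟨g, rfl⟩, hBP⟩ v hv
        refine ⟨⟨v * g, ?_⟩, Subgroup.conj_smul_le_of_le hBP ⟨v, hv⟩⟩
        rw [map_mul, mul_smul])
      h₀
    rw [hsSup] at hBN
    have hBT : ¬ MulAut.conj g • Z ≤ T := fun hle => hB₀ ⟨⟨g, rfl⟩, hle⟩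
    have hRT : (⨆ y ∈ Y, MulAut.conj (y * g) • Z : Subgroup G) ≤
        Subgroup.normalizer (T : Set G) := by
      apply iSup₂_le
      intro y hy
      rw [map_mul, mul_smul]
      exact Subgroup.conj_smul_le_of_le hBN ⟨y, hYT hy⟩
    have hgood : IsPGroup p ↥(T ⊔ ⨆ y ∈ Y, MulAut.conj (y * g) • Z) ∧
        Y ≤ Subgroup.normalizer ((T ⊔ ⨆ y ∈ Y, MulAut.conj (y * g) • Z : Subgroup G) : Set G) ∧
        (T ⊔ ⨆ y ∈ Y, MulAut.conj (y * g) • Z : Subgroup G) ≤
          ⨆ g' ∈ {g' : G | MulAut.conj g' • Z ≤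
            (T ⊔ ⨆ y ∈ Y, MulAut.conj (y * g) • Z : Subgroup G)}, MulAut.conj g' • Z := by
      refine ⟨IsPGroup.to_sup_of_normal_left' hTp (h g) hRT,
        Cfsg.Agent.S0538.le_normalizer_sup Y _ _ hYT (le_normalizer_iSup_conj Y Z g), ?_⟩
      apply sup_le
      · exact hTgen.trans
          (iSup₂_le (fun g' hg' => le_iSup₂_of_le g'
            (show MulAut.conj g' • Z ≤ T ⊔ ⨆ y ∈ Y, MulAut.conj (y * g) • Z from
              le_trans hg' le_sup_left) le_rfl))
      · exact iSup₂_le (fun y hy => le_iSup₂_of_le (y * g)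
          (show MulAut.conj (y * g) • Z ≤ T ⊔ ⨆ y ∈ Y, MulAut.conj (y * g) • Z from
            le_sup_of_le_right (le_iSup₂_of_le y hy le_rfl)) le_rfl)
    have hle := hTmax hgood le_sup_left
    apply hBT
    have h1 : MulAut.conj g • Z ≤ ⨆ y ∈ Y, MulAut.conj (y * g) • Z :=
      le_iSup₂_of_le 1 Y.one_mem (by rw [one_mul])
    exact h1.trans (le_sup_right.trans hle)
  rw [le_antisymm hWT hTW]
  exact hYT

end Cfsg.Agent.S0541
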