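import Cfsg.Statements.S0547
import Cfsg.Agent.Helper4.MinNormal
import Mathlib

set_option autoImplicit false
open Cfsg

namespace Cfsg.Agent.S0547

open Subgroup MulAction Cfsg.Agent.Helper4

/-- A nontrivial normal subgroup of a faithful primitive group is transitive. -/
theorem pretransitive_of_normal {G : Type*} [Group G] {Ω : Type*} [MulAction G Ω]
    [FaithfulSMul G Ω] (hprim : MulAction.IsPreprimitive G Ω) (M : Subgroup G) [M.Normal]
    (hM : M ≠ ⊥) : MulAction.IsPretransitive M Ω := by
  apply IsQuasiPreprimitive.isPretransitive_of_normal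
  intro h
  apply hM
  rw [Subgroup.eq_bot_iff_forall]
  intro m hm
  apply FaithfulSMul.eq_of_smul_eq_smul (α := Ω)
  intro ω
  have : ω ∈ fixedPoints M Ω := by rw [h]; trivial
  rw [one_smul]
  exact this ⟨m, hm⟩

/-- In an abelian transitive subgroup of a faithful action, point stabilizers are trivial. -/
theorem stabilizer_eq_bot {G : Type*} [Group G] {Ω : Type*} [MulAction G Ω]
    [FaithfulSMul G Ω] (M : Subgroup G) [MulAction.IsPretransitive M Ω]
    (hab : ∀ x ∈ M, ∀ y ∈ M, x * y = y * x) (ω : Ω) (m : G) (hm : m ∈ M) (hfix : m • ω = ω) :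
    m = 1 := by
  apply FaithfulSMul.eq_of_smul_eq_smul (α := Ω)
  intro ω'
  obtain ⟨m', hm'⟩ := MulAction.exists_smul_eq M ω ω'
  have h1 : (m' : G) • ω = ω' := hm'
  rw [one_smul, ← h1, ← mul_smul, hab m hm m' m'.2, mul_smul, hfix]

/-- Let a finite solvable group G act faithfully and primitively on a set, and let M be a minimal normal subgroup of G. Then M is transitive with trivial point stabilizers, and the number of points equals the order of M, which is a prime power p ^ d with d ≥ 1. -/
theorem result {G : Type*} [Group G] [Finite G] [Group.IsSolvable G] {Ω : Type*} [Nonempty Ω] [MulAction G Ω] [FaithfulSMul G Ω] (hprim : MulAction.IsPreprimitive G Ω) (M : Subgroup G) [M.Normal] (hM : M ≠ ⊥) (hmin : ∀ K : Subgroup G, K.Normal → K ≤ M → K = ⊥ ∨ K = M) : MulAction.IsPretransitive M Ω ∧ (∀ ω : Ω, MulAction.stabilizer M ω = ⊥) ∧ ∃ p d : ℕ, p.Prime ∧ 0 < d ∧ Nat.card Ω = p ^ d ∧ Nat.card M = p ^ d := by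
  have htrans : MulAction.IsPretransitive M Ω := pretransitive_of_normal hprim M hM
  have hab := abelian_of_min_normal M hM hmin
  have hstab : ∀ ω : Ω, MulAction.stabilizer M ω = ⊥ := by
    intro ω
    rw [Subgroup.eq_bot_iff_forall]
    intro m hm
    rw [MulAction.mem_stabilizer_iff] at hm
    apply Subtype.ext
    exact stabilizer_eq_bot M hab ω m m.2 hm
  refine ⟨htrans, hstab, ?_⟩
  obtain ⟨p, hp, hMp⟩ := isPGroup_of_min_normal M hM hmin
  have : Fact p.Prime := ⟨hp⟩
  obtain ⟨d, hd⟩ := IsPGroup.iff_card.mp hMp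
  obtain ⟨ω⟩ : Nonempty Ω := inferInstance
  have hcard : Nat.card Ω = Nat.card M := by
    have h1 := MulAction.index_stabilizer_of_transitive M ω
    rw [hstab ω, Subgroup.index_bot] at h1
    exact h1.symm
  have hd0 : 0 < d := by
    rcases Nat.eq_zero_or_pos d with h0 | h0
    · exfalso
      rw [h0, pow_zero] at hd
      exact hM (Subgroup.card_eq_one.mp hd)
    · exact h0
  exact ⟨p, d, hp, hd0, hcard.trans hd, hd⟩

end Cfsg.Agent.S0547
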