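import Cfsg.Statements.S0548
import Cfsg.Agent.Helper4.MinNormal
import Cfsg.Agent.S0547
import Mathlib

set_option autoImplicit false
open Cfsg

namespace Cfsg.Agent.S0548

open Subgroup MulAction Cfsg.Agent.Helper4
open scoped Pointwise

/-- Let a finite solvable group G act faithfully and primitively on a set, let M be a minimal normal subgroup and H the stabilizer of a point. Then H is a complement to M, no non-identity element of H centralizes M, and the only subgroups of M normalized by H are the trivial subgroup and M. -/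
theorem result {G : Type*} [Group G] [Finite G] [Group.IsSolvable G] {Ω : Type*} [MulAction G Ω] [FaithfulSMul G Ω] (hprim : MulAction.IsPreprimitive G Ω) (M : Subgroup G) [M.Normal] (hM : M ≠ ⊥) (hmin : ∀ K : Subgroup G, K.Normal → K ≤ M → K = ⊥ ∨ K = M) (ω : Ω) : Subgroup.IsComplement' M (MulAction.stabilizer G ω) ∧ MulAction.stabilizer G ω ⊓ Subgroup.centralizer (M : Set G) = ⊥ ∧ ∀ K : Subgroup G, K ≤ M → MulAction.stabilizer G ω ≤ Subgroup.normalizer (K : Set G) → K = ⊥ ∨ K = M := by
  have htrans : MulAction.IsPretransitive M Ω := Cfsg.Agent.S0547.pretransitive_of_normal hprim M hM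
  have hab := abelian_of_min_normal M hM hmin
  have hdec : ∀ g : G, ∃ m ∈ M, ∃ h ∈ MulAction.stabilizer G ω, g = m * h := by
    intro g
    obtain ⟨m, hm⟩ := MulAction.exists_smul_eq M ω (g • ω)
    have h1 : (m : G) • ω = g • ω := hm
    refine ⟨m, m.2, (m : G)⁻¹ * g, ?_, by group⟩
    rw [MulAction.mem_stabilizer_iff, mul_smul, ← h1, inv_smul_smul]
  refine ⟨?_, ?_, ?_⟩
  · apply Subgroup.isComplement'_of_disjoint_and_mul_eq_univ
    · rw [disjoint_iff, Subgroup.eq_bot_iff_forall]
      rintro x ⟨hxM, hxH⟩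
      exact Cfsg.Agent.S0547.stabilizer_eq_bot M hab ω x hxM (MulAction.mem_stabilizer_iff.mp hxH)
    · rw [Set.eq_univ_iff_forall]
      intro g
      obtain ⟨m, hm, h, hh, rfl⟩ := hdec g
      exact Set.mul_mem_mul hm hh
  · rw [Subgroup.eq_bot_iff_forall]
    rintro c ⟨hcH, hcC⟩
    apply FaithfulSMul.eq_of_smul_eq_smul (α := Ω)
    intro ω'
    obtain ⟨m, hm⟩ := MulAction.exists_smul_eq M ω ω'
    have h1 : (m : G) • ω = ω' := hm
    have h2 : (m : G) * c = c * (m : G) := (Subgroup.mem_centralizer_iff.mp hcC) m m.2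
    rw [one_smul, ← h1, ← mul_smul, ← h2, mul_smul, MulAction.mem_stabilizer_iff.mp hcH]
  · intro K hKM hKn
    apply hmin K _ hKM
    constructor
    intro k hk g
    obtain ⟨m, hm, h, hh, rfl⟩ := hdec g
    have h1 : h * k * h⁻¹ ∈ K := by
      have := hKn hh
      rw [Subgroup.mem_normalizer_iff] at this
      exact (this k).mp hk
    have h2 : m * (h * k * h⁻¹) = (h * k * h⁻¹) * m := hab m hm _ (hKM h1)
    have h3 : m * h * k * (m * h)⁻¹ = h * k * h⁻¹ := by
      calc m * h * k * (m * h)⁻¹ = (m * (h * k * h⁻¹)) * m⁻¹ := by group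
        _ = (h * k * h⁻¹) * m * m⁻¹ := by rw [h2]
        _ = h * k * h⁻¹ := by group
    rw [h3]
    exact h1

end Cfsg.Agent.S0548
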