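import Cfsg.Statements.S0550
import Cfsg.Agent.S0549
import Mathlib

set_option autoImplicit false
open Cfsg

namespace Cfsg.Agent.S0550

open Subgroup
open scoped Pointwise

theorem equiv_of_map_eq {G G' : Type*} [Group G] [Group G'] (f : G →* G') (A D : Subgroup G)
    (hA : A ⊓ f.ker = ⊥) (hD : D ⊓ f.ker = ⊥) (h : A.map f = D.map f) : Nonempty (A ≃* D) := by
  have inj : ∀ X : Subgroup G, X ⊓ f.ker = ⊥ → Function.Injective (f.subgroupMap X) := by
    intro X hX
    rw [injective_iff_map_eq_one]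
    intro x hx
    have h1 : f (x : G) = 1 := congrArg Subtype.val hx
    have h2 : (x : G) ∈ X ⊓ f.ker := ⟨x.2, h1⟩
    rw [hX, Subgroup.mem_bot] at h2
    exact Subtype.ext h2
  let eA : A ≃* A.map f := MulEquiv.ofBijective (f.subgroupMap A)
    ⟨inj A hA, f.subgroupMap_surjective A⟩
  let eD : D ≃* D.map f := MulEquiv.ofBijective (f.subgroupMap D)
    ⟨inj D hD, f.subgroupMap_surjective D⟩
  exact ⟨eA.trans ((MulEquiv.subgroupCongr h).trans eD.symm)⟩

theorem half {G : Type*} [Group G] [Finite G] (U : Subgroup G) (hU : IsCoatom U)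
    (hcore : U.normalCore = ⊥) (A B : Subgroup G) [A.Normal] [B.Normal] (hA : A ≠ ⊥) (hB : B ≠ ⊥)
    (hAmin : ∀ K : Subgroup G, K.Normal → K ≤ A → K = ⊥ ∨ K = A)
    (hBmin : ∀ K : Subgroup G, K.Normal → K ≤ B → K = ⊥ ∨ K = B) (hAB : A ≠ B) :
    A ⊓ B = ⊥ ∧ Subgroup.centralizer (B : Set G) = A ∧ Subgroup.IsComplement' A U ∧
      Nonempty (A ≃* ↥((A ⊔ B) ⊓ U)) := by
  have hinf : A ⊓ B = ⊥ := by
    rcases hAmin (A ⊓ B) inferInstance inf_le_left with h | h
    · exact h
    · exfalso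
      have hle : A ≤ B := by rw [← h]; exact inf_le_right
      rcases hBmin A inferInstance hle with h' | h'
      · exact hA h'
      · exact hAB h'
  have hcomm : ⁅A, B⁆ = ⊥ := by
    have h1 : ⁅A, B⁆ ≤ A ⊓ B := le_inf (Subgroup.commutator_le_left _ _) (Subgroup.commutator_le_right _ _)
    rw [hinf] at h1
    exact le_bot_iff.mp h1
  have hAC : A ≤ Subgroup.centralizer (B : Set G) :=
    Subgroup.commutator_eq_bot_iff_le_centralizer.mp hcomm
  obtain ⟨hCU, hC⟩ := Cfsg.Agent.S0549.result U hU hcore B hB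
  have hCA : Subgroup.centralizer (B : Set G) = A := by
    rcases hC with h | ⟨hne, hmin⟩
    · exfalso
      rw [h] at hAC
      exact hA (le_bot_iff.mp hAC)
    · rcases hmin A inferInstance hAC with h' | h'
      · exact absurd h' hA
      · exact h'.symm
  have hAU : A ⊓ U = ⊥ := by rw [← hCA]; exact hCU
  have hcompl : Subgroup.IsComplement' A U := by
    apply Subgroup.isComplement'_of_disjoint_and_mul_eq_univ (disjoint_iff.mpr hAU)
    rw [Set.eq_univ_iff_forall]
    intro g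
    obtain ⟨k, hk, u, hu, rfl⟩ := Cfsg.Agent.S0549.exists_mul_of_normal U hU hcore A hA g
    exact Set.mul_mem_mul hk hu
  refine ⟨hinf, hCA, hcompl, ?_⟩
  -- the isomorphism, via the quotient by B
  have hBU : B ⊓ U = ⊥ := by
    have hinf' : B ⊓ A = ⊥ := by rw [inf_comm]; exact hinf
    have hcomm' : ⁅B, A⁆ = ⊥ := by
      have h1 : ⁅B, A⁆ ≤ B ⊓ A := le_inf (Subgroup.commutator_le_left _ _) (Subgroup.commutator_le_right _ _)
      rw [hinf'] at h1
      exact le_bot_iff.mp h1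
    have hBC : B ≤ Subgroup.centralizer (A : Set G) :=
      Subgroup.commutator_eq_bot_iff_le_centralizer.mp hcomm'
    have := (Cfsg.Agent.S0549.result U hU hcore A hA).1
    exact le_bot_iff.mp (this ▸ inf_le_inf_right U hBC)
  apply equiv_of_map_eq (QuotientGroup.mk' B)
  · rw [QuotientGroup.ker_mk']; exact hinf
  · rw [QuotientGroup.ker_mk']
    have : (A ⊔ B) ⊓ U ⊓ B ≤ B ⊓ U := le_inf inf_le_right (inf_le_left.trans inf_le_right)
    rw [hBU] at this
    exact le_bot_iff.mp this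
  · apply le_antisymm
    · rintro _ ⟨a, ha, rfl⟩
      obtain ⟨b, hb, u, hu, rfl⟩ := Cfsg.Agent.S0549.exists_mul_of_normal U hU hcore B hB a
      have huD : u ∈ (A ⊔ B) ⊓ U := by
        refine ⟨?_, hu⟩
        have : u = b⁻¹ * (b * u) := by group
        rw [this]
        exact Subgroup.mul_mem _ ((le_sup_right : B ≤ A ⊔ B) (B.inv_mem hb))
          ((le_sup_left : A ≤ A ⊔ B) ha)
      refine ⟨u, huD, ?_⟩
      rw [map_mul]
      have : (QuotientGroup.mk' B) b = 1 := (QuotientGroup.eq_one_iff b).mpr hb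
      rw [this, one_mul]
    · have h1 : ((A ⊔ B) ⊓ U).map (QuotientGroup.mk' B) ≤ (A ⊔ B).map (QuotientGroup.mk' B) :=
        Subgroup.map_mono inf_le_left
      rw [Subgroup.map_sup, QuotientGroup.map_mk'_self, sup_bot_eq] at h1
      exact h1

/-- Let U be a maximal subgroup with trivial normal core in a finite group G, and A ≠ B two minimal normal subgroups. Then A is the centralizer of B and B that of A, U complements each of them, A and B are non-abelian, and A, B and (A ⊔ B) ∩ U are pairwise isomorphic. -/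
theorem result {G : Type*} [Group G] [Finite G] (U : Subgroup G) (hU : IsCoatom U) (hcore : U.normalCore = ⊥) (A B : Subgroup G) [A.Normal] [B.Normal] (hA : A ≠ ⊥) (hB : B ≠ ⊥) (hAmin : ∀ K : Subgroup G, K.Normal → K ≤ A → K = ⊥ ∨ K = A) (hBmin : ∀ K : Subgroup G, K.Normal → K ≤ B → K = ⊥ ∨ K = B) (hAB : A ≠ B) : Subgroup.centralizer (B : Set G) = A ∧ Subgroup.centralizer (A : Set G) = B ∧ Subgroup.IsComplement' A U ∧ Subgroup.IsComplement' B U ∧ ¬ IsMulCommutative A ∧ Nonempty (A ≃* B) ∧ Nonempty (A ≃* ↥((A ⊔ B) ⊓ U)) := by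
  obtain ⟨hinf, hCB, hcA, ⟨e1⟩⟩ := half U hU hcore A B hA hB hAmin hBmin hAB
  obtain ⟨-, hCA, hcB, ⟨e2⟩⟩ := half U hU hcore B A hB hA hBmin hAmin (Ne.symm hAB)
  have e2' : B ≃* ↥((A ⊔ B) ⊓ U) := e2.trans (MulEquiv.subgroupCongr (by rw [sup_comm]))
  refine ⟨hCB, hCA, hcA, hcB, ?_, ⟨e1.trans e2'.symm⟩, ⟨e1⟩⟩
  intro hcomm
  apply hA
  have hle : A ≤ Subgroup.centralizer (A : Set G) := by
    intro a ha
    rw [Subgroup.mem_centralizer_iff]
    intro h hh
    have := hcomm.is_comm.comm (⟨h, hh⟩ : A) ⟨a, ha⟩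
    exact congrArg Subtype.val this
  rw [hCA] at hle
  have : A ≤ A ⊓ B := le_inf le_rfl hle
  rw [hinf] at this
  exact le_bot_iff.mp this

end Cfsg.Agent.S0550
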