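import Cfsg.Statements.S0553
import Cfsg.Agent.S0551
import Cfsg.Agent.S0533
import Cfsg.Agent.Helper4.MinNormal
import Mathlib

set_option autoImplicit false
open Cfsg

namespace Cfsg.Agent.S0553

open scoped Pointwise

universe u

theorem isCoatom_comap_mk' {G : Type*} [Group G] (N : Subgroup G) [N.Normal]
    (M' : Subgroup (G ⧸ N)) (hM' : IsCoatom M') : IsCoatom (M'.comap (QuotientGroup.mk' N)) := by
  have hs := QuotientGroup.mk'_surjective N
  refine ⟨?_, fun B hB => ?_⟩
  · intro h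
    apply hM'.1
    rw [← Subgroup.map_comap_eq_self_of_surjective hs M', h, Subgroup.map_top_of_surjective _ hs]
  · have hNB : N ≤ B := by
      have : N ≤ M'.comap (QuotientGroup.mk' N) := by
        intro x hx
        rw [Subgroup.mem_comap]
        have : (QuotientGroup.mk' N) x = 1 := (QuotientGroup.eq_one_iff x).mpr hx
        rw [this]
        exact M'.one_mem
      exact this.trans hB.le
    have hcm : (B.map (QuotientGroup.mk' N)).comap (QuotientGroup.mk' N) = B := by
      rw [Subgroup.comap_map_eq, QuotientGroup.ker_mk', sup_of_le_left hNB]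
    have h1 : M' ≤ B.map (QuotientGroup.mk' N) := by
      rw [← Subgroup.map_comap_eq_self_of_surjective hs M']
      exact Subgroup.map_mono hB.le
    have h2 : M' ≠ B.map (QuotientGroup.mk' N) := by
      intro h
      rw [h, hcm] at hB
      exact lt_irrefl _ hB
    have h3 := hM'.2 _ (lt_of_le_of_ne h1 h2)
    rw [← hcm, h3, Subgroup.comap_top]

theorem exists_mul_of_sup_eq_top {G : Type*} [Group G] (A M : Subgroup G) [A.Normal]
    (h : A ⊔ M = ⊤) (g : G) : ∃ a ∈ A, ∃ m ∈ M, g = a * m := by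
  have hg : g ∈ A ⊔ M := by rw [h]; exact Subgroup.mem_top g
  have e : ((A ⊔ M : Subgroup G) : Set G) = (A : Set G) * (M : Set G) := Subgroup.normal_mul A M
  have hg' : g ∈ (A : Set G) * (M : Set G) := by rw [← e]; exact hg
  obtain ⟨a, ha, m, hm, rfl⟩ := Set.mem_mul.mp hg'
  exact ⟨a, ha, m, hm, rfl⟩

theorem all_sylow_normal {G : Type*} [Group G] [Finite G] (p : ℕ) [Fact p.Prime] (P : Sylow p G)
    (hP : (P : Subgroup G).Normal) : ∀ Q : Sylow p G, (Q : Subgroup G).Normal := by
  intro Q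
  obtain ⟨g, rfl⟩ := MulAction.exists_smul_eq G P Q
  rw [Sylow.smul_eq_of_normal]
  exact hP

theorem case1 {G : Type*} [Group G] [Finite G] [Group.IsSolvable G]
    (h : ∀ M : Subgroup G, IsCoatom M → (Nat.card M).Coprime M.index)
    (A : Subgroup G) [hAn : A.Normal] (hA : A ≠ ⊥)
    (hAmin : ∀ K : Subgroup G, K.Normal → K ≤ A → K = ⊥ ∨ K = A)
    (M : Subgroup G) (hM : IsCoatom M) (hAM : ¬ A ≤ M) :
    ∃ p : ℕ, p.Prime ∧ p ∣ Nat.card G ∧ ∀ P : Sylow p G, (P : Subgroup G).Normal := by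
  have hab := Cfsg.Agent.Helper4.abelian_of_min_normal A hA hAmin
  obtain ⟨p, hp, hAp⟩ := Cfsg.Agent.Helper4.isPGroup_of_min_normal A hA hAmin
  have hpf : Fact p.Prime := ⟨hp⟩
  have hsup : A ⊔ M = ⊤ := by
    apply hM.2
    refine lt_of_le_of_ne le_sup_right ?_
    intro h'
    apply hAM
    rw [h']
    exact le_sup_left
  have hinfn : (A ⊓ M).Normal := by
    constructor
    intro c hc g
    obtain ⟨a, ha, m, hm, rfl⟩ := exists_mul_of_sup_eq_top A M hsup g
    have h1 : m * c * m⁻¹ ∈ A := hAn.conj_mem c hc.1 m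
    have e : a * m * c * (a * m)⁻¹ = m * c * m⁻¹ := by
      calc a * m * c * (a * m)⁻¹ = (a * (m * c * m⁻¹)) * a⁻¹ := by group
        _ = ((m * c * m⁻¹) * a) * a⁻¹ := by rw [hab a ha _ h1]
        _ = m * c * m⁻¹ := by group
    rw [e]
    exact ⟨h1, M.mul_mem (M.mul_mem hm hc.2) (M.inv_mem hm)⟩
  have hinf : A ⊓ M = ⊥ := by
    rcases hAmin _ hinfn inf_le_left with h' | h'
    · exact h'
    · exfalso
      apply hAM
      rw [← h']
      exact inf_le_right
  have hcard := Cfsg.Agent.S0551.card_sup_of_disjoint A M hinf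
  rw [hsup, Subgroup.card_top] at hcard
  have hidxM : M.index = Nat.card A := by
    have h1 := M.card_mul_index
    rw [hcard] at h1
    exact Nat.eq_of_mul_eq_mul_left Nat.card_pos h1
  have hidxA : A.index = Nat.card M := by
    have h1 := A.card_mul_index
    rw [hcard, mul_comm] at h1
    exact Nat.eq_of_mul_eq_mul_right Nat.card_pos h1
  have hnt : Nontrivial A := (Subgroup.nontrivial_iff_ne_bot A).mpr hA
  obtain ⟨n, hn0, hn⟩ := hAp.nontrivial_iff_card.mp hnt
  have hcop := h M hM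
  rw [hidxM, hn] at hcop
  have hpM : ¬ p ∣ Nat.card M := by
    intro hd
    have h1 : p ∣ Nat.gcd (Nat.card M) (p ^ n) := Nat.dvd_gcd hd (dvd_pow_self p hn0.ne')
    rw [Nat.Coprime.gcd_eq_one hcop] at h1
    exact hp.one_lt.ne' (Nat.dvd_one.mp h1)
  refine ⟨p, hp, ?_, ?_⟩
  · rw [hcard, hn]
    exact Dvd.dvd.mul_left (dvd_pow_self p hn0.ne') _
  · apply all_sylow_normal p (hAp.toSylow (by rw [hidxA]; exact hpM))
    exact hAn

theorem aux : ∀ (n : ℕ) (G : Type u) [Group G] [Finite G] [Group.IsSolvable G] [Nontrivial G],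
    Nat.card G = n → (∀ M : Subgroup G, IsCoatom M → (Nat.card M).Coprime M.index) →
    ∃ p : ℕ, p.Prime ∧ p ∣ Nat.card G ∧ ∀ P : Sylow p G, (P : Subgroup G).Normal := by
  intro n
  induction n using Nat.strong_induction_on with
  | _ n ih =>
  intro G _ _ _ _ hn h
  obtain ⟨A, hAn, hA, hAmin⟩ := Cfsg.Agent.S0048.exists_minimal_normal (G := G)
  by_cases hcase : ∃ M : Subgroup G, IsCoatom M ∧ ¬ A ≤ M
  · obtain ⟨M, hM, hAM⟩ := hcase
    exact case1 h A hA hAmin M hM hAM
  push Not at hcase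
  have hAtop : A ≠ ⊤ := by
    intro hAt
    obtain ⟨M, hM⟩ : ∃ M : Subgroup G, IsCoatom M := by
      rcases eq_top_or_exists_le_coatom (⊥ : Subgroup G) with h0 | ⟨M, hM, -⟩
      · exact absurd h0 bot_ne_top
      · exact ⟨M, hM⟩
    have := hcase M hM
    rw [hAt] at this
    exact hM.1 (top_le_iff.mp this)
  have hQnt : Nontrivial (G ⧸ A) := by
    rw [← Finite.one_lt_card_iff_nontrivial]
    have h1 : Nat.card (G ⧸ A) ≠ 1 := by
      intro h1
      exact hAtop (Subgroup.index_eq_one.mp h1)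
    have h0 : 0 < Nat.card (G ⧸ A) := Nat.card_pos
    omega
  have hlt : Nat.card (G ⧸ A) < n := by
    rw [← hn]
    exact Cfsg.Agent.S0001.card_quotient_lt hA
  have hQ : ∀ M' : Subgroup (G ⧸ A), IsCoatom M' → (Nat.card M').Coprime M'.index := by
    intro M' hM'
    have h1 := h _ (isCoatom_comap_mk' A M' hM')
    rw [Cfsg.Agent.S0533.card_comap_mk',
      Subgroup.index_comap_of_surjective _ (QuotientGroup.mk'_surjective A)] at h1
    exact Nat.Coprime.coprime_mul_right h1
  obtain ⟨r, hr, hrdvd, hrn⟩ := ih _ hlt (G ⧸ A) rfl hQ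
  have hrf : Fact r.Prime := ⟨hr⟩
  obtain ⟨R₀⟩ := (inferInstance : Nonempty (Sylow r G))
  have hRn : ((R₀ : Subgroup G) ⊔ A).Normal := by
    have h1 := hrn (R₀.mapSurjective (QuotientGroup.mk'_surjective A))
    have h2 : (((R₀ : Subgroup G).map (QuotientGroup.mk' A)).comap (QuotientGroup.mk' A)).Normal := by
      have : ((R₀ : Subgroup G).map (QuotientGroup.mk' A)).Normal := h1
      exact Subgroup.Normal.comap this _
    rw [Subgroup.comap_map_eq, QuotientGroup.ker_mk'] at h2
    exact h2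
  have hfr : Subgroup.normalizer ((R₀ : Subgroup G) : Set G) ⊔ ((R₀ : Subgroup G) ⊔ A) = ⊤ :=
    Sylow.normalizer_sup_eq_top' R₀ le_sup_left
  by_cases hN : Subgroup.normalizer ((R₀ : Subgroup G) : Set G) = ⊤
  · refine ⟨r, hr, ?_, all_sylow_normal r R₀ (Subgroup.normalizer_eq_top_iff.mp hN)⟩
    exact hrdvd.trans (Subgroup.card_quotient_dvd_card A)
  · exfalso
    obtain ⟨M, hM, hNM⟩ := (eq_top_or_exists_le_coatom _).resolve_left hN
    have hAM := hcase M hM
    have hR₀M : (R₀ : Subgroup G) ≤ M := Subgroup.le_normalizer.trans hNM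
    have : (⊤ : Subgroup G) ≤ M := by
      rw [← hfr]
      exact sup_le hNM (sup_le hR₀M hAM)
    exact hM.1 (top_le_iff.mp this)

/-- Let G be a nontrivial finite solvable group in which every maximal subgroup has order coprime to its index. Then for some prime p dividing the order of G the Sylow p-subgroups of G are normal. -/
theorem result {G : Type*} [Group G] [Finite G] [Group.IsSolvable G] [Nontrivial G] (h : ∀ M : Subgroup G, IsCoatom M → (Nat.card M).Coprime M.index) : ∃ p : ℕ, p.Prime ∧ p ∣ Nat.card G ∧ ∀ P : Sylow p G, (P : Subgroup G).Normal :=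
  aux _ G rfl h

end Cfsg.Agent.S0553
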