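import Cfsg.Statements.S0554
import Cfsg.Agent.S0048
import Cfsg.Agent.S0001
import Cfsg.Agent.Helper4.MinNormal
import Mathlib

set_option autoImplicit false
open Cfsg

namespace Cfsg.Agent.S0554

open scoped Pointwise

universe u

theorem list_prod_mul_normal {G : Type*} [Group G] (N : Subgroup G) [N.Normal] :
    ∀ l : List (Set G), (∃ A ∈ l, A * (N : Set G) = A) → l.prod * (N : Set G) = l.prod := by
  intro l
  induction l with
  | nil =>
    rintro ⟨A, hA, -⟩
    simp at hA
  | cons a l ih =>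
    rintro ⟨A, hA, hAN⟩
    rw [List.prod_cons, mul_assoc]
    rcases List.mem_cons.mp hA with rfl | hA'
    · rw [Subgroup.set_mul_normal_comm, ← mul_assoc, hAN]
    · rw [ih ⟨A, hA', hAN⟩]

theorem aux (t : ℕ) (p : Fin t → ℕ) (hp : ∀ i, (p i).Prime) :
    ∀ (n : ℕ) (G : Type u) [Group G] [Finite G] [Group.IsSolvable G], Nat.card G = n →
    (∀ q : ℕ, q.Prime → q ∣ Nat.card G → ∃ i, p i = q) →
    ∀ S : (i : Fin t) → Sylow (p i) G,
      (List.ofFn (fun i => ((S i : Subgroup G) : Set G))).prod = Set.univ := by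
  intro n
  induction n using Nat.strong_induction_on with
  | _ n ih =>
  intro G _ _ _ hn hall S
  have hfact : ∀ i, Fact (p i).Prime := fun i => ⟨hp i⟩
  by_cases hnt : Nontrivial G
  · obtain ⟨N, hNn, hN, hNmin⟩ := Cfsg.Agent.S0048.exists_minimal_normal (G := G)
    obtain ⟨q, hq, hNq⟩ := Cfsg.Agent.Helper4.isPGroup_of_min_normal N hN hNmin
    have hqf : Fact q.Prime := ⟨hq⟩
    have hqdvd : q ∣ Nat.card G := by
      have hntN : Nontrivial N := (Subgroup.nontrivial_iff_ne_bot N).mpr hN
      obtain ⟨k, hk0, hk⟩ := hNq.nontrivial_iff_card.mp hntN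
      exact (dvd_pow_self q hk0.ne').trans (hk ▸ Subgroup.card_subgroup_dvd_card N)
    obtain ⟨j, hj⟩ := hall q hq hqdvd
    have hNS : N ≤ (S j : Subgroup G) := by
      have hNpj : IsPGroup (p j) N := hj ▸ hNq
      exact hNpj.le_sylow_of_normal (S j)
    have hlt : Nat.card (G ⧸ N) < n := hn ▸ Cfsg.Agent.S0001.card_quotient_lt hN
    have hallQ : ∀ q' : ℕ, q'.Prime → q' ∣ Nat.card (G ⧸ N) → ∃ i, p i = q' :=
      fun q' hq' hd => hall q' hq' (hd.trans (Subgroup.card_quotient_dvd_card N))
    have hQ := ih _ hlt (G ⧸ N) rfl hallQ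
      (fun i => (S i).mapSurjective (QuotientGroup.mk'_surjective N))
    have himg : (QuotientGroup.mk' N : G → G ⧸ N) ''
        (List.ofFn (fun i => ((S i : Subgroup G) : Set G))).prod = Set.univ := by
      rw [Set.image_list_prod, List.map_ofFn]
      exact hQ
    rw [Set.eq_univ_iff_forall]
    intro g
    have hg : (QuotientGroup.mk' N) g ∈ (QuotientGroup.mk' N : G → G ⧸ N) ''
        (List.ofFn (fun i => ((S i : Subgroup G) : Set G))).prod := by
      rw [himg]
      exact Set.mem_univ _
    obtain ⟨g', hg', hgg'⟩ := hg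
    have hSN : ((S j : Subgroup G) : Set G) * (N : Set G) = ((S j : Subgroup G) : Set G) := by
      ext x
      constructor
      · rintro ⟨a, ha, b, hb, rfl⟩
        exact Subgroup.mul_mem _ ha (hNS hb)
      · intro hx
        exact ⟨x, hx, 1, N.one_mem, mul_one x⟩
    have hmulN := list_prod_mul_normal N (List.ofFn (fun i => ((S i : Subgroup G) : Set G)))
      ⟨((S j : Subgroup G) : Set G), List.mem_ofFn.mpr ⟨j, rfl⟩, hSN⟩
    rw [← hmulN]
    refine ⟨g', hg', g'⁻¹ * g, ?_, by group⟩
    exact QuotientGroup.eq.mp hgg'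
  · rw [not_nontrivial_iff_subsingleton] at hnt
    rw [Set.eq_univ_iff_forall]
    intro g
    exact Set.mem_prod_list_ofFn.mpr ⟨fun i => ⟨1, (S i).one_mem⟩, Subsingleton.elim _ _⟩

/-- Let G be a finite solvable group and let S assign to each of t distinct primes, including every prime divisor of the order of G, a Sylow subgroup of G. Then every element of G is a product s_0 s_1 ⋯ s_(t-1) with s_i in S i, the factors taken in the given order. -/
theorem result {G : Type*} [Group G] [Finite G] [Group.IsSolvable G] (t : ℕ) (p : Fin t → ℕ) (hp : ∀ i, (p i).Prime) (hinj : Function.Injective p) (hall : ∀ q : ℕ, q.Prime → q ∣ Nat.card G → ∃ i, p i = q) (S : (i : Fin t) → Sylow (p i) G) : ∀ g : G, ∃ s : (i : Fin t) → G, (∀ i, s i ∈ (S i : Subgroup G)) ∧ g = (List.ofFn s).prod := by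
  intro g
  have h := aux t p hp _ G rfl hall S
  have hg : g ∈ (List.ofFn (fun i => ((S i : Subgroup G) : Set G))).prod := by
    rw [h]
    exact Set.mem_univ g
  obtain ⟨f, hf⟩ := Set.mem_prod_list_ofFn.mp hg
  exact ⟨fun i => (f i : G), fun i => (f i).2, hf.symm⟩

end Cfsg.Agent.S0554
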