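import Cfsg.Statements.S0555
import Cfsg.Agent.Helper4.Supersolvable
import Mathlib

set_option autoImplicit false
open Cfsg

namespace Cfsg.Agent.S0555

open Subgroup Cfsg.Agent.Helper4
open scoped commutatorElement

theorem exists_gen {G : Type*} [Group G] (D A : Subgroup G) [hn : (A.subgroupOf D).Normal]
    (h : IsCyclic (D ⧸ A.subgroupOf D)) :
    ∃ d ∈ D, ∀ x ∈ D, ∃ j : ℤ, d ^ (-j) * x ∈ A := by
  obtain ⟨q, hq⟩ := h.exists_generator
  obtain ⟨d, rfl⟩ := QuotientGroup.mk_surjective q
  refine ⟨d, d.2, fun x hx => ?_⟩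
  obtain ⟨j, hj⟩ := Subgroup.mem_zpowers_iff.mp (hq (QuotientGroup.mk ⟨x, hx⟩))
  refine ⟨j, ?_⟩
  have h3 : ((d ^ j : D) : D ⧸ A.subgroupOf D) = ((⟨x, hx⟩ : D) : D ⧸ A.subgroupOf D) := by
    rw [QuotientGroup.mk_zpow]; exact hj
  have h4 := QuotientGroup.eq.mp h3
  rw [Subgroup.mem_subgroupOf] at h4
  simpa [zpow_neg] using h4

/-- Let i ≥ 1. If in the derived series of a group the quotient of the i-th term by the (i+1)-st and the quotient of the (i+1)-st by the (i+2)-nd are both cyclic, then the (i+1)-st and (i+2)-nd terms coincide. -/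
theorem result {G : Type*} [Group G] (i : ℕ) (hi : 1 ≤ i) (h₁ : IsCyclic (↥(derivedSeries G i) ⧸ (derivedSeries G (i + 1)).subgroupOf (derivedSeries G i))) (h₂ : IsCyclic (↥(derivedSeries G (i + 1)) ⧸ (derivedSeries G (i + 2)).subgroupOf (derivedSeries G (i + 1)))) : derivedSeries G (i + 1) = derivedSeries G (i + 2) := by
  have hBn : (derivedSeries G (i + 2)).Normal := derivedSeries_normal G _
  have hAn : (derivedSeries G (i + 1)).Normal := derivedSeries_normal G _
  obtain ⟨d, hd, hdgen⟩ := exists_gen _ _ h₁
  obtain ⟨a, ha, hagen⟩ := exists_gen _ _ h₂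
  have hAD : derivedSeries G (i + 1) ≤ derivedSeries G i := derivedSeries_antitone G (Nat.le_succ i)
  have hBA : derivedSeries G (i + 2) ≤ derivedSeries G (i + 1) :=
    derivedSeries_antitone G (Nat.le_succ (i + 1))
  apply le_antisymm _ hBA
  -- the image of A in G/B is generated by the image of a
  have hmapA : (derivedSeries G (i + 1)).map (QuotientGroup.mk' (derivedSeries G (i + 2))) =
      zpowers ((QuotientGroup.mk' (derivedSeries G (i + 2))) a) := by
    apply le_antisymm
    · rintro _ ⟨x, hx, rfl⟩
      obtain ⟨j, hj⟩ := hagen x hx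
      rw [Subgroup.mem_zpowers_iff]
      refine ⟨j, ?_⟩
      rw [← map_zpow]
      show ((a ^ j : G) : G ⧸ derivedSeries G (i + 2)) = (x : G ⧸ derivedSeries G (i + 2))
      rw [QuotientGroup.eq, ← zpow_neg]
      exact hj
    · rw [Subgroup.zpowers_le]
      exact Subgroup.mem_map_of_mem _ ha
  have hnz : (zpowers ((QuotientGroup.mk' (derivedSeries G (i + 2))) a)).Normal := by
    rw [← hmapA]
    exact hAn.map _ (QuotientGroup.mk'_surjective _)
  have hcent := commutator_le_centralizer_of_normal_zpowers _ hnz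
  -- D maps into the commutator subgroup of the quotient
  have hDcomm : derivedSeries G i ≤ commutator G := by
    rw [← derivedSeries_one]
    exact derivedSeries_antitone G hi
  have hDmap : ∀ x ∈ derivedSeries G i, ∀ y ∈ derivedSeries G (i + 1),
      Commute ((QuotientGroup.mk' (derivedSeries G (i + 2))) x)
        ((QuotientGroup.mk' (derivedSeries G (i + 2))) y) := by
    intro x hx y hy
    have h1 : (QuotientGroup.mk' (derivedSeries G (i + 2))) x ∈
        commutator (G ⧸ derivedSeries G (i + 2)) := by
      have h3 : (commutator G).map (QuotientGroup.mk' (derivedSeries G (i + 2))) ≤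
          commutator (G ⧸ derivedSeries G (i + 2)) := by
        rw [commutator_def, commutator_def, Subgroup.map_commutator]
        exact Subgroup.commutator_mono le_top le_top
      exact h3 (Subgroup.mem_map_of_mem _ (hDcomm hx))
    have h2 := hcent h1
    rw [Subgroup.mem_centralizer_iff] at h2
    have h4 : (QuotientGroup.mk' (derivedSeries G (i + 2))) y ∈
        zpowers ((QuotientGroup.mk' (derivedSeries G (i + 2))) a) := by
      rw [← hmapA]; exact Subgroup.mem_map_of_mem _ hy
    exact (h2 _ h4).symm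
  rw [derivedSeries_succ, Subgroup.commutator_le]
  intro x hx y hy
  obtain ⟨j, hj⟩ := hdgen x hx
  obtain ⟨k, hk⟩ := hdgen y hy
  -- x = d^j * a1, y = d^k * a2
  have hxq : (QuotientGroup.mk' (derivedSeries G (i + 2))) x =
      ((QuotientGroup.mk' (derivedSeries G (i + 2))) d) ^ j *
        (QuotientGroup.mk' (derivedSeries G (i + 2))) (d ^ (-j) * x) := by
    rw [← map_zpow, ← map_mul]; congr 1; group
  have hyq : (QuotientGroup.mk' (derivedSeries G (i + 2))) y =
      ((QuotientGroup.mk' (derivedSeries G (i + 2))) d) ^ k *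
        (QuotientGroup.mk' (derivedSeries G (i + 2))) (d ^ (-k) * y) := by
    rw [← map_zpow, ← map_mul]; congr 1; group
  have c1 : Commute ((QuotientGroup.mk' (derivedSeries G (i + 2))) d)
      ((QuotientGroup.mk' (derivedSeries G (i + 2))) (d ^ (-j) * x)) := hDmap d hd _ hj
  have c2 : Commute ((QuotientGroup.mk' (derivedSeries G (i + 2))) d)
      ((QuotientGroup.mk' (derivedSeries G (i + 2))) (d ^ (-k) * y)) := hDmap d hd _ hk
  have c3 : Commute ((QuotientGroup.mk' (derivedSeries G (i + 2))) (d ^ (-j) * x))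
      ((QuotientGroup.mk' (derivedSeries G (i + 2))) (d ^ (-k) * y)) := hDmap _ (hAD hj) _ hk
  have hcomm : Commute ((QuotientGroup.mk' (derivedSeries G (i + 2))) x)
      ((QuotientGroup.mk' (derivedSeries G (i + 2))) y) := by
    rw [hxq, hyq]
    apply Commute.mul_left
    · apply Commute.mul_right
      · exact (Commute.refl _).zpow_zpow j k
      · exact c2.zpow_left j
    · apply Commute.mul_right
      · exact (c1.zpow_left k).symm
      · exact c3
  rw [← QuotientGroup.eq_one_iff]
  have h5 : ((⁅x, y⁆ : G) : G ⧸ derivedSeries G (i + 2)) =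
      ⁅(QuotientGroup.mk' (derivedSeries G (i + 2))) x,
        (QuotientGroup.mk' (derivedSeries G (i + 2))) y⁆ := by
    rw [commutatorElement_def, commutatorElement_def]; rfl
  rw [h5, commutatorElement_eq_one_iff_commute]
  exact hcomm

end Cfsg.Agent.S0555
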