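import Cfsg.Statements.S0562
import Mathlib

set_option autoImplicit false
open Cfsg

namespace Cfsg.Agent.S0562

theorem conj_mem_of_normal_subgroupOf {G : Type*} [Group G] {H A : Subgroup G} (hA : A ≤ H)
    (hAn : (A.subgroupOf H).Normal) {h a : G} (hh : h ∈ H) (ha : a ∈ A) : h * a * h⁻¹ ∈ A := by
  have h1 : (⟨a, hA ha⟩ : H) ∈ A.subgroupOf H := by
    rw [Subgroup.mem_subgroupOf]; exact ha
  have h2 := hAn.conj_mem _ h1 ⟨h, hh⟩
  rw [Subgroup.mem_subgroupOf] at h2
  exact h2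

/-- Let the finite group G be the product HK of subgroups, A normal in H, B normal in K, and L the normalizer of the subgroup generated by A and B. Then every element of L is a product of an element of L ∩ H and an element of L ∩ K. -/
theorem result {G : Type*} [Group G] [Finite G] (H K A B : Subgroup G) (hHK : ∀ g : G, ∃ h ∈ H, ∃ k ∈ K, g = h * k) (hA : A ≤ H) (hAn : (A.subgroupOf H).Normal) (hB : B ≤ K) (hBn : (B.subgroupOf K).Normal) : ∀ g ∈ Subgroup.normalizer ((A ⊔ B : Subgroup G) : Set G), ∃ h ∈ Subgroup.normalizer ((A ⊔ B : Subgroup G) : Set G) ⊓ H, ∃ k ∈ Subgroup.normalizer ((A ⊔ B : Subgroup G) : Set G) ⊓ K, g = h * k := by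
  intro g hg
  obtain ⟨h, hh, k, hk, rfl⟩ := hHK g
  have hle : A ⊔ B ≤ (A ⊔ B).comap (MulAut.conj h).toMonoidHom := by
    apply sup_le
    · intro a ha
      rw [Subgroup.mem_comap]
      simp only [MulEquiv.toMonoidHom_eq_coe, MonoidHom.coe_coe, MulAut.conj_apply]
      exact (le_sup_left : A ≤ A ⊔ B) (conj_mem_of_normal_subgroupOf hA hAn hh ha)
    · intro b hb
      rw [Subgroup.mem_comap]
      simp only [MulEquiv.toMonoidHom_eq_coe, MonoidHom.coe_coe, MulAut.conj_apply]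
      have h1 : k⁻¹ * b * k⁻¹⁻¹ ∈ B := conj_mem_of_normal_subgroupOf hB hBn (K.inv_mem hk) hb
      have h2 : k⁻¹ * b * k⁻¹⁻¹ ∈ A ⊔ B := (le_sup_right : B ≤ A ⊔ B) h1
      have h3 := (Subgroup.mem_normalizer_iff.mp hg _).mp h2
      have h4 : h * k * (k⁻¹ * b * k⁻¹⁻¹) * (h * k)⁻¹ = h * b * h⁻¹ := by group
      rw [h4] at h3
      exact h3
  have hhN : h ∈ Subgroup.normalizer ((A ⊔ B : Subgroup G) : Set G) := by
    apply Subgroup.mem_normalizer_fintype
    intro n hn
    have := hle hn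
    rw [Subgroup.mem_comap] at this
    simp only [MulEquiv.toMonoidHom_eq_coe, MonoidHom.coe_coe, MulAut.conj_apply] at this
    exact this
  have hkN : k ∈ Subgroup.normalizer ((A ⊔ B : Subgroup G) : Set G) := by
    have : k = h⁻¹ * (h * k) := by group
    rw [this]
    exact Subgroup.mul_mem _ (Subgroup.inv_mem _ hhN) hg
  exact ⟨h, ⟨hhN, hh⟩, k, ⟨hkN, hk⟩, rfl⟩

end Cfsg.Agent.S0562
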