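import Cfsg.Statements.S0572
import Mathlib.Tactic.Group

set_option autoImplicit false
open Cfsg
open scoped commutatorElement

namespace Cfsg.Agent.S0572

theorem comm_left {G : Type*} [Group G] (x y z : G) (h : y * z = z * y) : ⁅x * y, z⁆ = ⁅x, z⁆ := by
  have h' : y * z * y⁻¹ = z := by rw [h]; group
  calc ⁅x * y, z⁆ = x * (y * z * y⁻¹) * x⁻¹ * z⁻¹ := by rw [commutatorElement_def]; group
    _ = ⁅x, z⁆ := by rw [h', commutatorElement_def]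

theorem comm_right {G : Type*} [Group G] (x y z : G) (h : x * z = z * x) : ⁅x, y * z⁆ = ⁅x, y⁆ := by
  have h' : z * x⁻¹ * z⁻¹ = x⁻¹ := by
    have : z * x⁻¹ = x⁻¹ * z := by
      calc z * x⁻¹ = x⁻¹ * (x * z) * x⁻¹ := by group
        _ = x⁻¹ * (z * x) * x⁻¹ := by rw [h]
        _ = x⁻¹ * z := by group
    rw [this]; group
  calc ⁅x, y * z⁆ = x * y * (z * x⁻¹ * z⁻¹) * y⁻¹ := by rw [commutatorElement_def]; group
    _ = ⁅x, y⁆ := by rw [h', commutatorElement_def]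

theorem star {G : Type*} [Group G] (A B : Subgroup G) [IsMulCommutative A] [IsMulCommutative B]
    (hAB : ∀ g : G, ∃ a ∈ A, ∃ b ∈ B, g = a * b) (a a₁ : G) (ha : a ∈ A) (ha₁ : a₁ ∈ A)
    (b b₁ : G) (hb : b ∈ B) (hb₁ : b₁ ∈ B) :
    (a₁ * b₁) * ⁅a, b⁆ * (a₁ * b₁)⁻¹ = (b₁ * a₁) * ⁅a, b⁆ * (b₁ * a₁)⁻¹ := by
  obtain ⟨a₂, ha₂, b₂, hb₂, h2⟩ := hAB (b₁ * a * b₁⁻¹)
  obtain ⟨a', ha', b', hb', h3⟩ := hAB (a₁ * b * a₁⁻¹)⁻¹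
  have h3' : a₁ * b * a₁⁻¹ = b'⁻¹ * a'⁻¹ := by rw [← mul_inv_rev, ← h3, inv_inv]
  have e1 : b₁ * b * b₁⁻¹ = b := by rw [setLike_mul_comm hb₁ hb]; group
  have e2 : a₁ * a * a₁⁻¹ = a := by rw [setLike_mul_comm ha₁ ha]; group
  have e3 : a₁ * a₂ * a₁⁻¹ = a₂ := by rw [setLike_mul_comm ha₁ ha₂]; group
  have e4 : b₁ * b'⁻¹ * b₁⁻¹ = b'⁻¹ := by rw [setLike_mul_comm hb₁ (B.inv_mem hb')]; group
  have lhs : (a₁ * b₁) * ⁅a, b⁆ * (a₁ * b₁)⁻¹ = ⁅a₂, b'⁻¹⁆ := by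
    calc (a₁ * b₁) * ⁅a, b⁆ * (a₁ * b₁)⁻¹
        = a₁ * ⁅b₁ * a * b₁⁻¹, b₁ * b * b₁⁻¹⁆ * a₁⁻¹ := by
          simp only [commutatorElement_def]; group
      _ = a₁ * ⁅a₂ * b₂, b⁆ * a₁⁻¹ := by rw [e1, h2]
      _ = a₁ * ⁅a₂, b⁆ * a₁⁻¹ := by rw [comm_left _ _ _ (setLike_mul_comm hb₂ hb)]
      _ = ⁅a₁ * a₂ * a₁⁻¹, a₁ * b * a₁⁻¹⁆ := by simp only [commutatorElement_def]; group
      _ = ⁅a₂, b'⁻¹ * a'⁻¹⁆ := by rw [e3, h3']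
      _ = ⁅a₂, b'⁻¹⁆ := comm_right _ _ _ (setLike_mul_comm ha₂ (A.inv_mem ha'))
  have rhs : (b₁ * a₁) * ⁅a, b⁆ * (b₁ * a₁)⁻¹ = ⁅a₂, b'⁻¹⁆ := by
    calc (b₁ * a₁) * ⁅a, b⁆ * (b₁ * a₁)⁻¹
        = b₁ * ⁅a₁ * a * a₁⁻¹, a₁ * b * a₁⁻¹⁆ * b₁⁻¹ := by
          simp only [commutatorElement_def]; group
      _ = b₁ * ⁅a, b'⁻¹ * a'⁻¹⁆ * b₁⁻¹ := by rw [e2, h3']
      _ = b₁ * ⁅a, b'⁻¹⁆ * b₁⁻¹ := by
          rw [comm_right _ _ _ (setLike_mul_comm ha (A.inv_mem ha'))]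
      _ = ⁅b₁ * a * b₁⁻¹, b₁ * b'⁻¹ * b₁⁻¹⁆ := by simp only [commutatorElement_def]; group
      _ = ⁅a₂ * b₂, b'⁻¹⁆ := by rw [e4, h2]
      _ = ⁅a₂, b'⁻¹⁆ := comm_left _ _ _ (setLike_mul_comm hb₂ (B.inv_mem hb'))
  rw [lhs, rhs]

theorem gens_comm {G : Type*} [Group G] (A B : Subgroup G) [IsMulCommutative A]
    [IsMulCommutative B] (hAB : ∀ g : G, ∃ a ∈ A, ∃ b ∈ B, g = a * b) (a a₁ : G) (ha : a ∈ A)
    (ha₁ : a₁ ∈ A) (b b₁ : G) (hb : b ∈ B) (hb₁ : b₁ ∈ B) :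
    ⁅a, b⁆ * ⁅a₁, b₁⁆ = ⁅a₁, b₁⁆ * ⁅a, b⁆ := by
  have h := star A B hAB a a₁⁻¹ ha (A.inv_mem ha₁) b b₁⁻¹ hb (B.inv_mem hb₁)
  have h2 : ⁅a, b⁆ = ⁅a₁, b₁⁆ * ⁅a, b⁆ * ⁅a₁, b₁⁆⁻¹ := by
    calc ⁅a, b⁆ = (a₁ * b₁) * ((b₁⁻¹ * a₁⁻¹) * ⁅a, b⁆ * (b₁⁻¹ * a₁⁻¹)⁻¹) * (a₁ * b₁)⁻¹ := by
          group
      _ = (a₁ * b₁) * ((a₁⁻¹ * b₁⁻¹) * ⁅a, b⁆ * (a₁⁻¹ * b₁⁻¹)⁻¹) * (a₁ * b₁)⁻¹ := by rw [h]
      _ = ⁅a₁, b₁⁆ * ⁅a, b⁆ * ⁅a₁, b₁⁆⁻¹ := by rw [commutatorElement_def a₁ b₁]; group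
  calc ⁅a, b⁆ * ⁅a₁, b₁⁆ = (⁅a₁, b₁⁆ * ⁅a, b⁆ * ⁅a₁, b₁⁆⁻¹) * ⁅a₁, b₁⁆ := by rw [← h2]
    _ = ⁅a₁, b₁⁆ * ⁅a, b⁆ := by group

/-- Itô's Theorem: if a group G is the product AB of two abelian subgroups, then the commutator subgroup of G is abelian, i.e. the second term of the derived series is trivial. -/
theorem result {G : Type*} [Group G] (A B : Subgroup G) [IsMulCommutative A] [IsMulCommutative B] (hAB : ∀ g : G, ∃ a ∈ A, ∃ b ∈ B, g = a * b) : derivedSeries G 2 = ⊥ := by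
  set N : Subgroup G := Subgroup.closure {x | ∃ a ∈ A, ∃ b ∈ B, ⁅a, b⁆ = x} with hN
  have hNc : IsMulCommutative N := Subgroup.isMulCommutative_closure (by
    rintro _ ⟨a, ha, b, hb, rfl⟩ _ ⟨a₁, ha₁, b₁, hb₁, rfl⟩
    exact gens_comm A B hAB a a₁ ha ha₁ b b₁ hb hb₁)
  have hconjA : ∀ a' ∈ A, ∀ n ∈ N, a' * n * a'⁻¹ ∈ N := by
    intro a' ha' n hn
    induction hn using Subgroup.closure_induction with
    | mem y hy =>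
      obtain ⟨a, ha, b, hb, rfl⟩ := hy
      have : a' * ⁅a, b⁆ * a'⁻¹ = ⁅a' * a, b⁆ * ⁅a', b⁆⁻¹ := by
        rw [commutatorElement_mul_left_eq_conj_mul]; group
      rw [this]
      exact N.mul_mem (Subgroup.subset_closure ⟨a' * a, A.mul_mem ha' ha, b, hb, rfl⟩)
        (N.inv_mem (Subgroup.subset_closure ⟨a', ha', b, hb, rfl⟩))
    | one => simp
    | mul y z hy hz ihy ihz =>
      have : a' * (y * z) * a'⁻¹ = (a' * y * a'⁻¹) * (a' * z * a'⁻¹) := by group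
      rw [this]; exact N.mul_mem ihy ihz
    | inv y hy ih =>
      have : a' * y⁻¹ * a'⁻¹ = (a' * y * a'⁻¹)⁻¹ := by group
      rw [this]; exact N.inv_mem ih
  have hconjB : ∀ b' ∈ B, ∀ n ∈ N, b' * n * b'⁻¹ ∈ N := by
    intro b' hb' n hn
    induction hn using Subgroup.closure_induction with
    | mem y hy =>
      obtain ⟨a, ha, b, hb, rfl⟩ := hy
      have : b' * ⁅a, b⁆ * b'⁻¹ = ⁅a, b'⁆⁻¹ * ⁅a, b' * b⁆ := by
        simp only [commutatorElement_def]; group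
      rw [this]
      exact N.mul_mem (N.inv_mem (Subgroup.subset_closure ⟨a, ha, b', hb', rfl⟩))
        (Subgroup.subset_closure ⟨a, ha, b' * b, B.mul_mem hb' hb, rfl⟩)
    | one => simp
    | mul y z hy hz ihy ihz =>
      have : b' * (y * z) * b'⁻¹ = (b' * y * b'⁻¹) * (b' * z * b'⁻¹) := by group
      rw [this]; exact N.mul_mem ihy ihz
    | inv y hy ih =>
      have : b' * y⁻¹ * b'⁻¹ = (b' * y * b'⁻¹)⁻¹ := by group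
      rw [this]; exact N.inv_mem ih
  have hNn : N.Normal := ⟨fun n hn g => by
    obtain ⟨a', ha', b', hb', rfl⟩ := hAB g
    have : a' * b' * n * (a' * b')⁻¹ = a' * (b' * n * b'⁻¹) * a'⁻¹ := by group
    rw [this]; exact hconjA a' ha' _ (hconjB b' hb' n hn)⟩
  have hcomm : ⁅(⊤ : Subgroup G), ⊤⁆ ≤ N := by
    rw [Subgroup.commutator_le]
    intro g _ h _
    rw [← QuotientGroup.eq_one_iff (N := N)]
    have hmap : ((⁅g, h⁆ : G) : G ⧸ N) = ⁅(g : G ⧸ N), (h : G ⧸ N)⁆ :=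
      map_commutatorElement (QuotientGroup.mk' N) g h
    rw [hmap, commutatorElement_eq_one_iff_commute]
    obtain ⟨a, ha, b, hb, rfl⟩ := hAB g
    obtain ⟨a', ha', b', hb', rfl⟩ := hAB h
    have haa : Commute (a : G ⧸ N) (a' : G ⧸ N) := by
      have := setLike_mul_comm ha ha'
      exact congrArg (QuotientGroup.mk' N) this
    have hbb : Commute (b : G ⧸ N) (b' : G ⧸ N) := by
      have := setLike_mul_comm hb hb'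
      exact congrArg (QuotientGroup.mk' N) this
    have hab : ∀ x ∈ A, ∀ y ∈ B, Commute (x : G ⧸ N) (y : G ⧸ N) := by
      intro x hx y hy
      rw [← commutatorElement_eq_one_iff_commute]
      have h1 : ((⁅x, y⁆ : G) : G ⧸ N) = ⁅(x : G ⧸ N), (y : G ⧸ N)⁆ :=
        map_commutatorElement (QuotientGroup.mk' N) x y
      rw [← h1, QuotientGroup.eq_one_iff]
      exact Subgroup.subset_closure ⟨x, hx, y, hy, rfl⟩
    have e : ((a * b : G) : G ⧸ N) = (a : G ⧸ N) * (b : G ⧸ N) := rfl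
    have e' : ((a' * b' : G) : G ⧸ N) = (a' : G ⧸ N) * (b' : G ⧸ N) := rfl
    rw [e, e']
    exact Commute.mul_left (Commute.mul_right haa (hab a ha b' hb'))
      (Commute.mul_right (hab a' ha' b hb).symm hbb)
  have h2 : derivedSeries G 2 = ⁅⁅(⊤ : Subgroup G), ⊤⁆, ⁅(⊤ : Subgroup G), ⊤⁆⁆ := rfl
  rw [h2, Subgroup.commutator_eq_bot_iff_le_centralizer]
  intro x hx
  rw [Subgroup.mem_centralizer_iff]
  intro y hy
  exact setLike_mul_comm (hcomm hy) (hcomm hx)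

end Cfsg.Agent.S0572
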