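import Cfsg.Statements.S0573
import Cfsg.Agent.S0001
import Cfsg.Agent.S0572
import Cfsg.Agent.Lead.Quat
import Cfsg.Agent.Helper22.ConjClass

set_option autoImplicit false
open Cfsg

namespace Cfsg.Agent.S0573


open scoped commutatorElement

universe u

/-- An element commuting with `A` and `B` is central in `G = AB`. -/
theorem mem_center_of_comm {G : Type*} [Group G] (A B : Subgroup G)
    (hAB : ∀ g : G, ∃ a ∈ A, ∃ b ∈ B, g = a * b) (x : G)
    (hxA : ∀ a ∈ A, a * x = x * a) (hxB : ∀ b ∈ B, b * x = x * b) : x ∈ Subgroup.center G := by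
  rw [Subgroup.mem_center_iff]
  intro g
  obtain ⟨a, ha, b, hb, rfl⟩ := hAB g
  rw [mul_assoc, hxB b hb, ← mul_assoc, hxA a ha, mul_assoc]

theorem center_trivial {G : Type*} [Group G] (A B : Subgroup G)
    (hA : ∀ a ∈ A, ∀ a' ∈ A, a * a' = a' * a) (hB : ∀ b ∈ B, ∀ b' ∈ B, b * b' = b' * b)
    (hAB : ∀ g : G, ∃ a ∈ A, ∃ b ∈ B, g = a * b)
    (hnoA : ∀ M : Subgroup G, M.Normal → M ≤ A → M = ⊥)
    (hnoB : ∀ M : Subgroup G, M.Normal → M ≤ B → M = ⊥) :
    ∀ z ∈ Subgroup.center G, z = 1 := by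
  have hnorm : ∀ X : Subgroup G, (X ⊓ Subgroup.center G).Normal := by
    intro X
    constructor
    intro x hx g
    have h1 : g * x * g⁻¹ = x := by
      rw [Subgroup.mem_center_iff.mp hx.2 g]; group
    rw [h1]; exact hx
  have hcA : A ⊓ Subgroup.center G = ⊥ := hnoA _ (hnorm A) inf_le_left
  have hcB : B ⊓ Subgroup.center G = ⊥ := hnoB _ (hnorm B) inf_le_left
  intro z hz
  obtain ⟨a, ha, b, hb, hab⟩ := hAB z
  have hb' : b = a⁻¹ * z := by rw [hab]; group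
  have hzc := Subgroup.mem_center_iff.mp hz
  have hbc : b ∈ Subgroup.center G := by
    apply mem_center_of_comm A B hAB
    · intro a' ha'
      rw [hb']
      have h1 : a' * z = z * a' := hzc a'
      have h2 : a' * a⁻¹ = a⁻¹ * a' := hA a' ha' a⁻¹ (A.inv_mem ha)
      calc a' * (a⁻¹ * z) = (a' * a⁻¹) * z := by group
        _ = (a⁻¹ * a') * z := by rw [h2]
        _ = a⁻¹ * (a' * z) := by group
        _ = a⁻¹ * (z * a') := by rw [h1]
        _ = a⁻¹ * z * a' := by group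
    · intro b' hb'
      exact hB b' hb' b hb
  have hb1 : b = 1 := by
    have : b ∈ B ⊓ Subgroup.center G := ⟨hb, hbc⟩
    rw [hcB] at this
    exact Subgroup.mem_bot.mp this
  rw [hb1, mul_one] at hab
  have : z ∈ A ⊓ Subgroup.center G := ⟨by rw [hab]; exact ha, hz⟩
  rw [hcA] at this
  exact Subgroup.mem_bot.mp this

/-- In a minimal counterexample, `A G' = G`. -/
theorem side (n : ℕ)
    (ih : ∀ m < n, ∀ (G : Type u) [Group G] [Finite G], Nat.card G = m → Nontrivial G →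
      ∀ (A B : Subgroup G), (∀ a ∈ A, ∀ a' ∈ A, a * a' = a' * a) →
      (∀ b ∈ B, ∀ b' ∈ B, b * b' = b' * b) → (∀ g : G, ∃ a ∈ A, ∃ b ∈ B, g = a * b) →
      ∃ M : Subgroup G, M.Normal ∧ M ≠ ⊥ ∧ (M ≤ A ∨ M ≤ B))
    (G : Type u) [Group G] [Finite G] (hcard : Nat.card G = n) (A B : Subgroup G)
    (hA : ∀ a ∈ A, ∀ a' ∈ A, a * a' = a' * a) (hB : ∀ b ∈ B, ∀ b' ∈ B, b * b' = b' * b)
    (hAB : ∀ g : G, ∃ a ∈ A, ∃ b ∈ B, g = a * b)
    (hnoA : ∀ M : Subgroup G, M.Normal → M ≤ A → M = ⊥)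
    (hnoB : ∀ M : Subgroup G, M.Normal → M ≤ B → M = ⊥)
    (hZ : ∀ z ∈ Subgroup.center G, z = 1)
    (N : Subgroup G) (hN : N = commutator G) (hNab : ∀ x ∈ N, ∀ y ∈ N, x * y = y * x)
    (hNne : N ≠ ⊥) : A ⊔ N = ⊤ := by
  have hNn : N.Normal := by rw [hN]; infer_instance
  obtain ⟨H, hH⟩ : ∃ H : Subgroup G, H = A ⊔ N := ⟨_, rfl⟩
  have hAH : A ≤ H := by rw [hH]; exact le_sup_left
  have hNH : N ≤ H := by rw [hH]; exact le_sup_right
  have hHn : H.Normal := by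
    constructor
    intro h hh g
    have e : g * h * g⁻¹ = ⁅g, h⁆ * h := by simp [commutatorElement_def]
    rw [e]
    refine H.mul_mem (hNH ?_) hh
    rw [hN]
    exact Subgroup.commutator_mem_commutator (Subgroup.mem_top g) (Subgroup.mem_top h)
  have hZH : ∀ z ∈ H, (∀ h ∈ H, h * z = z * h) → z = 1 := by
    intro z hzH hzc
    obtain ⟨Z, hZdef⟩ : ∃ Z : Subgroup G, Z = H ⊓ Subgroup.centralizer (H : Set G) := ⟨_, rfl⟩
    have hZn : Z.Normal := by rw [hZdef]; infer_instance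
    have hZA : Z ≤ A := by
      intro w hw
      rw [hZdef] at hw
      obtain ⟨hwH, hwC⟩ := Subgroup.mem_inf.mp hw
      rw [Subgroup.mem_centralizer_iff] at hwC
      obtain ⟨a, ha, b, hb, hab⟩ := hAB w
      have hb' : b = a⁻¹ * w := by rw [hab]; group
      have hbc : b ∈ Subgroup.center G := by
        apply mem_center_of_comm A B hAB
        · intro a' ha'
          rw [hb']
          have h1 : a' * w = w * a' := hwC a' (hAH ha')
          have h2 : a' * a⁻¹ = a⁻¹ * a' := hA a' ha' a⁻¹ (A.inv_mem ha)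
          calc a' * (a⁻¹ * w) = (a' * a⁻¹) * w := by group
            _ = (a⁻¹ * a') * w := by rw [h2]
            _ = a⁻¹ * (a' * w) := by group
            _ = a⁻¹ * (w * a') := by rw [h1]
            _ = a⁻¹ * w * a' := by group
        · intro b' hb'
          exact hB b' hb' b hb
      have hb1 := hZ b hbc
      rw [hb1, mul_one] at hab
      rw [hab]; exact ha
    have hZbot := hnoA Z hZn hZA
    have hzZ : z ∈ Z := by
      rw [hZdef]
      exact ⟨hzH, Subgroup.mem_centralizer_iff.mpr hzc⟩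
    rw [hZbot] at hzZ
    exact Subgroup.mem_bot.mp hzZ
  have hAN : ∀ x ∈ A, x ∈ N → x = 1 := by
    intro x hxA hxN
    apply hZH x (hAH hxA)
    intro h hh
    have hle : H ≤ Subgroup.centralizer ({x} : Set G) := by
      rw [hH]
      apply sup_le
      · intro a ha
        rw [Subgroup.mem_centralizer_singleton_iff]
        exact hA a ha x hxA
      · intro y hy
        rw [Subgroup.mem_centralizer_singleton_iff]
        exact hNab y hy x hxN
    exact Subgroup.mem_centralizer_singleton_iff.mp (hle hh)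
  by_contra hne
  rw [← hH] at hne
  have hlt : Nat.card H < n := by rw [← hcard]; exact S0001.card_lt_of_ne_top hne
  have hHnt : Nontrivial ↥H := by
    rw [Subgroup.nontrivial_iff_ne_bot]
    intro e
    apply hNne
    rw [eq_bot_iff, ← e]; exact hNH
  obtain ⟨M', hM'n, hM'ne, hM'⟩ := ih _ hlt ↥H rfl hHnt (A.subgroupOf H) (B.subgroupOf H)
    (fun a ha a' ha' => Subtype.ext (hA _ (Subgroup.mem_subgroupOf.mp ha) _
      (Subgroup.mem_subgroupOf.mp ha')))
    (fun b hb b' hb' => Subtype.ext (hB _ (Subgroup.mem_subgroupOf.mp hb) _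
      (Subgroup.mem_subgroupOf.mp hb')))
    (by
      intro h
      obtain ⟨a, ha, b, hb, hab⟩ := hAB (h : G)
      have hbH : b ∈ H := by
        have e : b = a⁻¹ * h := by rw [hab]; group
        rw [e]; exact H.mul_mem (H.inv_mem (hAH ha)) h.2
      exact ⟨⟨a, hAH ha⟩, Subgroup.mem_subgroupOf.mpr ha, ⟨b, hbH⟩,
        Subgroup.mem_subgroupOf.mpr hb, Subtype.ext hab⟩)
  obtain ⟨M, hM⟩ : ∃ M : Subgroup G, M = M'.map H.subtype := ⟨_, rfl⟩
  have hMH : M ≤ H := by rw [hM]; exact Subgroup.map_subtype_le _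
  have hMne : M ≠ ⊥ := by
    rw [hM]
    intro e
    exact hM'ne ((Subgroup.map_eq_bot_iff_of_injective _ H.subtype_injective).mp e)
  have hMconj : ∀ h ∈ H, ∀ m ∈ M, h * m * h⁻¹ ∈ M := by
    intro h hh m hm
    rw [hM] at hm ⊢
    obtain ⟨m', hm', rfl⟩ := hm
    exact ⟨⟨h, hh⟩ * m' * ⟨h, hh⟩⁻¹, hM'n.conj_mem m' hm' ⟨h, hh⟩, rfl⟩
  rcases hM' with hMA | hMB
  · have hMA' : M ≤ A := by
      rw [hM]; rintro _ ⟨m', hm', rfl⟩; exact Subgroup.mem_subgroupOf.mp (hMA hm')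
    apply hMne
    rw [eq_bot_iff]
    intro m hm
    rw [Subgroup.mem_bot]
    apply hZH m (hMH hm)
    intro h hh
    have hle : H ≤ Subgroup.centralizer ({m} : Set G) := by
      rw [hH]
      apply sup_le
      · intro a ha
        rw [Subgroup.mem_centralizer_singleton_iff]
        exact hA a ha m (hMA' hm)
      · intro y hy
        rw [Subgroup.mem_centralizer_singleton_iff]
        have h1 : y * m * y⁻¹ * m⁻¹ ∈ M := M.mul_mem (hMconj y (hNH hy) m hm) (M.inv_mem hm)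
        have h2 : y * m * y⁻¹ * m⁻¹ ∈ N := by
          have e : y * m * y⁻¹ * m⁻¹ = y * (m * y⁻¹ * m⁻¹) := by group
          rw [e]
          exact N.mul_mem hy (hNn.conj_mem _ (N.inv_mem hy) m)
        have h3 := hAN _ (hMA' h1) h2
        calc y * m = (y * m * y⁻¹ * m⁻¹) * (m * y) := by group
          _ = m * y := by rw [h3, one_mul]
    exact Subgroup.mem_centralizer_singleton_iff.mp (hle hh)
  · have hMB' : M ≤ B := by
      rw [hM]; rintro _ ⟨m', hm', rfl⟩; exact Subgroup.mem_subgroupOf.mp (hMB hm')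
    have hMn : M.Normal := by
      constructor
      intro m hm g
      obtain ⟨a, ha, b, hb, rfl⟩ := hAB g
      have h1 : b * m * b⁻¹ = m := by
        have h2 := hB b hb m (hMB' hm)
        rw [h2]; group
      have e : a * b * m * (a * b)⁻¹ = a * (b * m * b⁻¹) * a⁻¹ := by group
      rw [e, h1]
      exact hMconj a (hAH ha) m hm
    exact hMne (hnoB M hMn hMB')

theorem aux : ∀ (n : ℕ) (G : Type u) [Group G] [Finite G], Nat.card G = n → Nontrivial G →
      ∀ (A B : Subgroup G), (∀ a ∈ A, ∀ a' ∈ A, a * a' = a' * a) →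
      (∀ b ∈ B, ∀ b' ∈ B, b * b' = b' * b) → (∀ g : G, ∃ a ∈ A, ∃ b ∈ B, g = a * b) →
      ∃ M : Subgroup G, M.Normal ∧ M ≠ ⊥ ∧ (M ≤ A ∨ M ≤ B) := by
  intro n
  induction n using Nat.strong_induction_on with
  | _ n ih =>
  intro G _ _ hcard hnt A B hA hB hAB
  by_contra hcon
  have hnoA : ∀ M : Subgroup G, M.Normal → M ≤ A → M = ⊥ := by
    intro M hMn hMA
    by_contra hne
    exact hcon ⟨M, hMn, hne, Or.inl hMA⟩
  have hnoB : ∀ M : Subgroup G, M.Normal → M ≤ B → M = ⊥ := by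
    intro M hMn hMB
    by_contra hne
    exact hcon ⟨M, hMn, hne, Or.inr hMB⟩
  have hBA : ∀ g : G, ∃ b ∈ B, ∃ a ∈ A, g = b * a := by
    intro g
    obtain ⟨a, ha, b, hb, hab⟩ := hAB g⁻¹
    refine ⟨b⁻¹, B.inv_mem hb, a⁻¹, A.inv_mem ha, ?_⟩
    rw [← mul_inv_rev, ← hab, inv_inv]
  have hZ := center_trivial A B hA hB hAB hnoA hnoB
  obtain ⟨N, hN⟩ : ∃ N : Subgroup G, N = commutator G := ⟨_, rfl⟩
  have hNn : N.Normal := by rw [hN]; infer_instance
  have hNab : ∀ x ∈ N, ∀ y ∈ N, x * y = y * x := by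
    haveI : IsMulCommutative A := IsMulCommutative.of_setLike_mul_comm fun a ha b hb => hA a ha b hb
    haveI : IsMulCommutative B := IsMulCommutative.of_setLike_mul_comm fun a ha b hb => hB a ha b hb
    have h2 := S0572.result A B hAB
    intro x hx y hy
    have h3 : ⁅x, y⁆ ∈ derivedSeries G 2 := by
      rw [derivedSeries_succ]
      apply Subgroup.commutator_mem_commutator
      · rw [derivedSeries_one, ← hN]; exact hx
      · rw [derivedSeries_one, ← hN]; exact hy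
    rw [h2, Subgroup.mem_bot] at h3
    exact commutatorElement_eq_one_iff_mul_comm.mp h3
  have hNne : N ≠ ⊥ := by
    intro e
    obtain ⟨g, hg⟩ := exists_ne (1 : G)
    apply hg
    apply hZ
    rw [Subgroup.mem_center_iff]
    intro h
    have h3 : ⁅h, g⁆ ∈ N := by
      rw [hN]; exact Subgroup.commutator_mem_commutator (Subgroup.mem_top h) (Subgroup.mem_top g)
    rw [e, Subgroup.mem_bot] at h3
    exact commutatorElement_eq_one_iff_mul_comm.mp h3
  have hAN := side n ih G hcard A B hA hB hAB hnoA hnoB hZ N hN hNab hNne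
  have hBN := side n ih G hcard B A hB hA hBA hnoB hnoA hZ N hN hNab hNne
  have hi : ∀ x ∈ N, ∃ a ∈ A, x * a ∈ B := by
    intro x hx
    obtain ⟨b, hb, a, ha, hab⟩ := hBA x
    refine ⟨a⁻¹, A.inv_mem ha, ?_⟩
    rw [hab, mul_inv_cancel_right]; exact hb
  have hii : ∀ a ∈ A, ∃ x ∈ N, x * a ∈ B := by
    intro a ha
    have h1 : a ∈ N ⊔ B := by rw [sup_comm, hBN]; exact Subgroup.mem_top a
    obtain ⟨y, hy, b, hb, hyb⟩ := Subgroup.mem_sup_of_normal_left.mp h1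
    refine ⟨y⁻¹, N.inv_mem hy, ?_⟩
    rw [← hyb, inv_mul_cancel_left]; exact hb
  have hstar : ∀ a ∈ A, ∀ x ∈ N, x * a ∈ B → ∀ a' ∈ A, ∀ x' ∈ N, x' * a' ∈ B →
      a' * x * a'⁻¹ = x * (x'⁻¹ * (a * x' * a⁻¹)) := by
    intro a ha x hx hxa a' ha' x' hx' hxa'
    have h1 := hB _ hxa _ hxa'
    have h2 := hA a ha a' ha'
    have h3 : x * (a * x' * a⁻¹) = x' * (a' * x * a'⁻¹) := by
      have e1 : x * (a * x' * a⁻¹) = (x * a * (x' * a')) * (a * a')⁻¹ := by group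
      have e2 : x' * (a' * x * a'⁻¹) = (x' * a' * (x * a)) * (a' * a)⁻¹ := by group
      rw [e1, e2, h1, h2]
    have h4 : a' * x * a'⁻¹ = x'⁻¹ * (x * (a * x' * a⁻¹)) := by rw [h3]; group
    rw [h4]
    have h5 := hNab x'⁻¹ (N.inv_mem hx') x hx
    rw [← mul_assoc, h5, mul_assoc]
  have hN1 : Nat.card N ≠ 1 := fun h => hNne (Subgroup.card_eq_one.mp h)
  obtain ⟨p, hp, hpN⟩ := Nat.exists_prime_and_dvd hN1
  haveI : Fact p.Prime := ⟨hp⟩
  let V : Subgroup G :=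
    { carrier := {x | x ∈ N ∧ x ^ p = 1}
      mul_mem' := fun {x y} hx hy => ⟨N.mul_mem hx.1 hy.1, by
        rw [(show Commute x y from hNab x hx.1 y hy.1).mul_pow, hx.2, hy.2, one_mul]⟩
      one_mem' := ⟨N.one_mem, one_pow p⟩
      inv_mem' := fun {x} hx => ⟨N.inv_mem hx.1, by rw [inv_pow, hx.2, inv_one]⟩ }
  have hVmem : ∀ x : G, x ∈ V ↔ x ∈ N ∧ x ^ p = 1 := fun x => Iff.rfl
  have hVN : V ≤ N := fun x hx => ((hVmem x).mp hx).1
  have hVn : V.Normal := by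
    constructor
    intro x hx g
    rw [hVmem] at hx ⊢
    exact ⟨hNn.conj_mem x hx.1 g, by rw [conj_pow, hx.2]; group⟩
  have hVp : IsPGroup p V := by
    intro v
    refine ⟨1, ?_⟩
    rw [pow_one]
    apply Subtype.ext
    rw [Subgroup.coe_pow]
    exact ((hVmem _).mp v.2).2
  have hVne : V ≠ ⊥ := by
    obtain ⟨x, hx⟩ := exists_prime_orderOf_dvd_card' p hpN
    intro e
    have hxV : (x : G) ∈ V := by
      rw [hVmem]
      refine ⟨x.2, ?_⟩
      have h1 := pow_orderOf_eq_one x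
      rw [hx] at h1
      have h2 := congrArg Subtype.val h1
      simpa only [Subgroup.coe_pow, Subgroup.coe_one] using h2
    rw [e, Subgroup.mem_bot] at hxV
    have hx1 : x = 1 := Subtype.ext hxV
    rw [hx1, orderOf_one] at hx
    exact hp.one_lt.ne hx
  obtain ⟨P, hVP⟩ := hVp.exists_le_sylow
  haveI : (V.subgroupOf (P : Subgroup G)).Normal := hVn.subgroupOf _
  have hVPne : V.subgroupOf (P : Subgroup G) ≠ ⊥ := by
    intro e
    apply hVne
    rw [eq_bot_iff]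
    intro v hv
    have h1 : (⟨v, hVP hv⟩ : ↥(P : Subgroup G)) ∈ V.subgroupOf (P : Subgroup G) :=
      Subgroup.mem_subgroupOf.mpr hv
    rw [e, Subgroup.mem_bot] at h1
    rw [Subgroup.mem_bot]
    exact congrArg Subtype.val h1
  obtain ⟨b, hbV, hb1, hbc⟩ :=
    Lead.normal_inf_center_ne_bot' p P.2 (V.subgroupOf (P : Subgroup G)) hVPne
  obtain ⟨v₀, hv₀⟩ : ∃ v₀ : G, v₀ = (b : G) := ⟨_, rfl⟩
  have hv₀V : v₀ ∈ V := by rw [hv₀]; exact Subgroup.mem_subgroupOf.mp hbV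
  have hv₀1 : v₀ ≠ 1 := by
    rw [hv₀]; intro e; exact hb1 (Subtype.ext e)
  have hPC : (P : Subgroup G) ≤ Subgroup.centralizer ({v₀} : Set G) := by
    intro y hy
    rw [Subgroup.mem_centralizer_singleton_iff, hv₀]
    have h1 := Subgroup.mem_center_iff.mp hbc ⟨y, hy⟩
    exact congrArg Subtype.val h1
  obtain ⟨a₀, ha₀, hva₀⟩ := hi v₀ (hVN hv₀V)
  let ψ : ↥N →* G := MonoidHom.mk' (fun x => (x : G)⁻¹ * (a₀ * x * a₀⁻¹)) (by
    intro x y
    have hu : a₀ * (x : G) * a₀⁻¹ ∈ N := hNn.conj_mem _ x.2 a₀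
    have hc : (y : G)⁻¹ * ((x : G)⁻¹ * (a₀ * x * a₀⁻¹)) =
        ((x : G)⁻¹ * (a₀ * x * a₀⁻¹)) * (y : G)⁻¹ :=
      hNab _ (N.inv_mem y.2) _ (N.mul_mem (N.inv_mem x.2) hu)
    show ((x * y : ↥N) : G)⁻¹ * (a₀ * ((x * y : ↥N) : G) * a₀⁻¹) =
      (x : G)⁻¹ * (a₀ * x * a₀⁻¹) * ((y : G)⁻¹ * (a₀ * y * a₀⁻¹))
    rw [Subgroup.coe_mul]
    calc ((x : G) * y)⁻¹ * (a₀ * ((x : G) * y) * a₀⁻¹)
        = ((y : G)⁻¹ * ((x : G)⁻¹ * (a₀ * x * a₀⁻¹))) * (a₀ * y * a₀⁻¹) := by group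
      _ = (x : G)⁻¹ * (a₀ * x * a₀⁻¹) * ((y : G)⁻¹ * (a₀ * y * a₀⁻¹)) := by rw [hc]; group)
  have hψ : ∀ x : ↥N, ψ x = (x : G)⁻¹ * (a₀ * x * a₀⁻¹) := fun x => rfl
  have horb : ∀ a' ∈ A, ∀ x' (hx' : x' ∈ N), x' * a' ∈ B →
      a' * v₀ * a'⁻¹ = v₀ * ψ ⟨x', hx'⟩ := by
    intro a' ha' x' hx' hxa'
    rw [hψ]
    exact hstar a₀ ha₀ v₀ (hVN hv₀V) hva₀ a' ha' x' hx' hxa'
  have hrange : ψ.range ≤ V := by
    rintro _ ⟨x, rfl⟩
    obtain ⟨a', ha', hxa'⟩ := hi x x.2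
    have h1 := horb a' ha' x x.2 hxa'
    have h2 : ψ x = v₀⁻¹ * (a' * v₀ * a'⁻¹) := by rw [h1]; group
    rw [h2]
    exact V.mul_mem (V.inv_mem hv₀V) (hVn.conj_mem v₀ hv₀V a')
  have hcarrier : (ConjClasses.mk v₀).carrier = (fun y => v₀ * y) '' (ψ.range : Set G) := by
    ext y
    rw [ConjClasses.mem_carrier_iff_mk_eq, ConjClasses.mk_eq_mk_iff_isConj, isConj_comm,
      isConj_iff]
    constructor
    · rintro ⟨g, rfl⟩
      have h1 : g ∈ N ⊔ A := by rw [sup_comm, hAN]; exact Subgroup.mem_top g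
      obtain ⟨y', hy', a', ha', rfl⟩ := Subgroup.mem_sup_of_normal_left.mp h1
      obtain ⟨x', hx', hxa'⟩ := hii a' ha'
      refine ⟨ψ ⟨x', hx'⟩, MonoidHom.mem_range.mpr ⟨⟨x', hx'⟩, rfl⟩, ?_⟩
      show v₀ * ψ ⟨x', hx'⟩ = y' * a' * v₀ * (y' * a')⁻¹
      rw [← horb a' ha' x' hx' hxa']
      have hw : a' * v₀ * a'⁻¹ ∈ N := hNn.conj_mem _ (hVN hv₀V) a'
      have h2 := hNab y' hy' _ hw
      calc a' * v₀ * a'⁻¹ = (a' * v₀ * a'⁻¹) * y' * y'⁻¹ := by group
        _ = y' * (a' * v₀ * a'⁻¹) * y'⁻¹ := by rw [← h2]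
        _ = y' * a' * v₀ * (y' * a')⁻¹ := by group
    · rintro ⟨_, ⟨x, rfl⟩, rfl⟩
      obtain ⟨a', ha', hxa'⟩ := hi x x.2
      exact ⟨a', horb a' ha' x x.2 hxa'⟩
  have hidx : (Subgroup.centralizer ({v₀} : Set G)).index ∣ Nat.card V := by
    rw [Helper22.index_centralizer_eq_ncard_carrier, hcarrier,
      Set.ncard_image_of_injective _ (mul_right_injective v₀)]
    rw [← Nat.card_coe_set_eq]
    exact Subgroup.card_dvd_of_le hrange
  obtain ⟨k, hk⟩ := IsPGroup.iff_card.mp hVp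
  rw [hk] at hidx
  obtain ⟨j, -, hj⟩ := (Nat.dvd_prime_pow hp).mp hidx
  have hj0 : j = 0 := by
    by_contra hne
    have h1 : p ∣ (Subgroup.centralizer ({v₀} : Set G)).index := by
      rw [hj]; exact dvd_pow_self p hne
    exact P.not_dvd_index (h1.trans (Subgroup.index_dvd_of_le hPC))
  rw [hj0, pow_zero, Subgroup.index_eq_one] at hj
  apply hv₀1
  apply hZ
  rw [Subgroup.mem_center_iff]
  intro g
  have hg : g ∈ Subgroup.centralizer ({v₀} : Set G) := by rw [hj]; exact Subgroup.mem_top g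
  exact Subgroup.mem_centralizer_singleton_iff.mp hg

/-- If a nontrivial finite group G is the product AB of abelian subgroups A and B, then some nontrivial normal subgroup of G is contained in A or in B. -/
theorem result {G : Type*} [Group G] [Finite G] [Nontrivial G] (A B : Subgroup G) [IsMulCommutative A] [IsMulCommutative B] (hAB : ∀ g : G, ∃ a ∈ A, ∃ b ∈ B, g = a * b) : ∃ N : Subgroup G, N.Normal ∧ N ≠ ⊥ ∧ (N ≤ A ∨ N ≤ B) := by
  obtain ⟨M, h1, h2, h3⟩ := aux _ G rfl inferInstance A B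
    (fun a ha a' ha' => setLike_mul_comm ha ha') (fun b hb b' hb' => setLike_mul_comm hb hb') hAB
  exact ⟨M, h1, h2, h3⟩

end Cfsg.Agent.S0573
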