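import Cfsg.Statements.S0571
import Cfsg.Agent.S0573
import Cfsg.Agent.S0528
import Cfsg.Agent.Helper4.Supersolvable

set_option autoImplicit false
open Cfsg

namespace Cfsg.Agent.S0571


universe u

theorem aux : ∀ (n : ℕ) (G : Type u) [Group G] [Finite G], Nat.card G = n →
    ∀ A B : Subgroup G, IsCyclic A → IsCyclic B → (∀ g : G, ∃ a ∈ A, ∃ b ∈ B, g = a * b) →
    Cfsg.IsSupersolvable G := by
  intro n
  induction n using Nat.strong_induction_on with
  | _ n ih =>
  intro G _ _ hcard A B hA hB hAB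
  by_cases htriv : Subsingleton G
  · exact Cfsg.Agent.Helper4.isSupersolvable_of_isCyclic
  haveI hnt : Nontrivial G := not_subsingleton_iff_nontrivial.mp htriv
  haveI hAc : IsMulCommutative A := by
    refine ⟨⟨fun a b => ?_⟩⟩
    obtain ⟨g, hg⟩ := hA.exists_generator
    obtain ⟨i, rfl⟩ := Subgroup.mem_zpowers_iff.mp (hg a)
    obtain ⟨j, rfl⟩ := Subgroup.mem_zpowers_iff.mp (hg b)
    rw [← zpow_add, ← zpow_add, add_comm]
  haveI hBc : IsMulCommutative B := by
    refine ⟨⟨fun a b => ?_⟩⟩
    obtain ⟨g, hg⟩ := hB.exists_generator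
    obtain ⟨i, rfl⟩ := Subgroup.mem_zpowers_iff.mp (hg a)
    obtain ⟨j, rfl⟩ := Subgroup.mem_zpowers_iff.mp (hg b)
    rw [← zpow_add, ← zpow_add, add_comm]
  obtain ⟨N, hNn, hN1, hNle⟩ := Cfsg.Agent.S0573.result A B hAB
  haveI : IsCyclic N := by
    rcases hNle with h | h
    · exact Subgroup.isCyclic_of_le h
    · exact Subgroup.isCyclic_of_le h
  have hlt : Nat.card (G ⧸ N) < n := by
    rw [← hcard, ← Subgroup.index_eq_card, ← Subgroup.card_mul_index N]
    have h1 : 1 < Nat.card N := (Subgroup.one_lt_card_iff_ne_bot (H := N)).mpr hN1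
    have h2 : 0 < N.index := Nat.pos_of_ne_zero Subgroup.index_ne_zero_of_finite
    nlinarith
  have hAq : IsCyclic (A.map (QuotientGroup.mk' N)) :=
    isCyclic_of_surjective ((QuotientGroup.mk' N).subgroupMap A)
      ((QuotientGroup.mk' N).subgroupMap_surjective A)
  have hBq : IsCyclic (B.map (QuotientGroup.mk' N)) :=
    isCyclic_of_surjective ((QuotientGroup.mk' N).subgroupMap B)
      ((QuotientGroup.mk' N).subgroupMap_surjective B)
  have hq := ih _ hlt (G ⧸ N) rfl (A.map (QuotientGroup.mk' N)) (B.map (QuotientGroup.mk' N))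
    hAq hBq (by
      intro g
      obtain ⟨g, rfl⟩ := QuotientGroup.mk'_surjective N g
      obtain ⟨a, ha, b, hb, rfl⟩ := hAB g
      exact ⟨_, Subgroup.mem_map_of_mem _ ha, _, Subgroup.mem_map_of_mem _ hb, map_mul _ a b⟩)
  exact Cfsg.Agent.S0528.result N hq

/-- If a finite group G is the product AB of two cyclic subgroups (every element is a product ab), then G is supersolvable. -/
theorem result {G : Type*} [Group G] [Finite G] (A B : Subgroup G) [IsCyclic A] [IsCyclic B] (hAB : ∀ g : G, ∃ a ∈ A, ∃ b ∈ B, g = a * b) : Cfsg.IsSupersolvable G := aux _ G rfl A B inferInstance inferInstance hAB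

end Cfsg.Agent.S0571
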