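import Cfsg.Statements.S0576

set_option autoImplicit false
open Cfsg

namespace Cfsg.Agent.S0576

/-- Let H be a normal subgroup of a finite group G with H contained in the Frattini subgroup of G. Then the group of inner automorphisms of H is contained in the Frattini subgroup of the automorphism group of H. -/
theorem result {G : Type*} [Group G] [Finite G] (H : Subgroup G) [H.Normal] (hH : H ≤ frattini G) : (MulAut.conj : ↥H →* MulAut ↥H).range ≤ frattini (MulAut ↥H) := by
  unfold frattini Order.radical
  rw [le_iInf_iff]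
  intro M
  rw [le_iInf_iff]
  intro hM
  by_contra hcon
  -- the conjugation map
  let c : G →* MulAut H := MulAut.conjNormal
  have hnormal : ((MulAut.conj : ↥H →* MulAut ↥H).range).Normal := by
    constructor
    rintro _ ⟨h, rfl⟩ φ
    refine ⟨φ h, ?_⟩
    ext x
    simp [MulAut.conj_apply]
  have htop : (MulAut.conj : ↥H →* MulAut ↥H).range ⊔ M = ⊤ := by
    by_contra hne
    have h1 : M ≤ (MulAut.conj : ↥H →* MulAut ↥H).range ⊔ M := le_sup_right
    rcases eq_or_lt_of_le h1 with h2 | h2
    · exact hcon (h2 ▸ le_sup_left)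
    · exact hne (hM.2 _ h2)
  have hK : M.comap c ⊔ frattini G = ⊤ := by
    rw [eq_top_iff]
    intro g _
    have hg : c g ∈ (MulAut.conj : ↥H →* MulAut ↥H).range ⊔ M := by rw [htop]; trivial
    rw [Subgroup.mem_sup_of_normal_left] at hg
    obtain ⟨_, ⟨h, rfl⟩, m, hm, hgm⟩ := hg
    have hc : c (h : G) = MulAut.conj h := MulAut.conjNormal_val
    have h3 : ((h : G))⁻¹ * g ∈ M.comap c := by
      rw [Subgroup.mem_comap, map_mul, map_inv, hc, ← hgm]
      simpa using hm
    have h4 : g = (h : G) * ((h : G)⁻¹ * g) := by group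
    rw [h4]
    exact Subgroup.mul_mem _ (Subgroup.mem_sup_right (hH h.2)) (Subgroup.mem_sup_left h3)
  have hK' : M.comap c = ⊤ := frattini_nongenerating hK
  apply hcon
  rintro _ ⟨h, rfl⟩
  have hc : c (h : G) = MulAut.conj h := MulAut.conjNormal_val
  rw [← hc]
  have : (h : G) ∈ M.comap c := by rw [hK']; trivial
  exact this

end Cfsg.Agent.S0576
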