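import Cfsg.Statements.S0578
import Mathlib.GroupTheory.Sylow
import Mathlib.GroupTheory.Nilpotent
import Mathlib.Tactic.Group

set_option autoImplicit false
open Cfsg
open scoped commutatorElement

namespace Cfsg.Agent.S0578

theorem adjoin_comm {S : Type*} [Group S] (A : Subgroup S) (hA : IsMulCommutative A) (x : S)
    (hx : ∀ a ∈ A, a * x = x * a) :
    IsMulCommutative (Subgroup.closure ((A : Set S) ∪ {x})) := by
  apply Subgroup.isMulCommutative_closure
  intro y hy z hz
  rcases hy with hy | hy <;> rcases hz with hz | hz
  · exact setLike_mul_comm hy hz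
  · rw [Set.mem_singleton_iff] at hz; subst hz; exact hx y hy
  · rw [Set.mem_singleton_iff] at hy; subst hy; exact (hx z hz).symm
  · rw [Set.mem_singleton_iff] at hy hz; subst hy; subst hz; rfl

theorem abelian_of_nilpotent {G : Type*} [Group G] [Finite G]
    (h : ∀ A : Subgroup G, IsMulCommutative A →
      Subgroup.normalizer (A : Set G) = Subgroup.centralizer (A : Set G))
    (P : Subgroup G) (hP : Group.IsNilpotent P) : IsMulCommutative P := by
  obtain ⟨A, hA⟩ := Set.Finite.exists_maximal
    (s := {A : Subgroup G | A ≤ P ∧ IsMulCommutative A}) (Set.toFinite _)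
    ⟨⊥, bot_le, inferInstance⟩
  obtain ⟨⟨hAP, hAc⟩, hmax⟩ := hA
  by_cases hAeq : A = P
  · rw [← hAeq]; exact hAc
  exfalso
  have hnc : NormalizerCondition P := Group.normalizerCondition_of_isNilpotent
  have hlt : A.subgroupOf P < ⊤ := by
    rw [lt_top_iff_ne_top]
    intro h1
    rw [Subgroup.subgroupOf_eq_top] at h1
    exact hAeq (le_antisymm hAP h1)
  obtain ⟨x, hx1, hx2⟩ := SetLike.exists_of_lt (hnc _ hlt)
  have hxN : (x : G) ∈ Subgroup.normalizer (A : Set G) := by
    rw [Subgroup.mem_normalizer_iff]
    intro g
    rw [Subgroup.mem_normalizer_iff] at hx1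
    constructor
    · intro hg
      have := (hx1 ⟨g, hAP hg⟩).1 (by rw [Subgroup.mem_subgroupOf]; exact hg)
      rw [Subgroup.mem_subgroupOf] at this
      simpa using this
    · intro hg
      have hgT : g ∈ P := by
        have : g = (x:G)⁻¹ * ((x:G) * g * (x:G)⁻¹) * (x:G) := by group
        rw [this]
        exact P.mul_mem (P.mul_mem (P.inv_mem x.2) (hAP hg)) x.2
      have := (hx1 ⟨g, hgT⟩).2 (by rw [Subgroup.mem_subgroupOf]; simpa using hg)
      rw [Subgroup.mem_subgroupOf] at this
      exact this
  rw [h A hAc] at hxN
  have hxA : ∀ a ∈ A, a * (x : G) = (x : G) * a := fun a ha => hxN a ha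
  have hB := adjoin_comm A hAc (x : G) hxA
  have hBP : Subgroup.closure ((A : Set G) ∪ {(x : G)}) ≤ P := by
    rw [Subgroup.closure_le]
    rintro y (hy | hy)
    · exact hAP hy
    · rw [Set.mem_singleton_iff] at hy; rw [hy]; exact x.2
  have hle : A ≤ Subgroup.closure ((A : Set G) ∪ {(x : G)}) := fun a ha =>
    Subgroup.subset_closure (Or.inl ha)
  have hge := hmax ⟨hBP, hB⟩ hle
  apply hx2
  rw [Subgroup.mem_subgroupOf]
  exact hge (Subgroup.subset_closure (Or.inr rfl))

/-- If in a finite group the normalizer of each abelian subgroup coincides with its centralizer, then the group is abelian. -/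
theorem result {G : Type*} [Group G] [Finite G] (h : ∀ A : Subgroup G, IsMulCommutative A → Subgroup.normalizer (A : Set G) = Subgroup.centralizer (A : Set G)) : IsMulCommutative G := by
  have hD : ∀ p : ℕ, p.Prime → ¬ p ∣ Nat.card (commutator G) := by
    intro p hp
    haveI : Fact p.Prime := ⟨hp⟩
    obtain ⟨P⟩ : Nonempty (Sylow p G) := inferInstance
    have hPnil : Group.IsNilpotent (P : Subgroup G) := P.isPGroup'.isNilpotent
    have hPc : IsMulCommutative (P : Subgroup G) := abelian_of_nilpotent h _ hPnil
    have hP : Subgroup.normalizer ((P : Subgroup G) : Set G) ≤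
        Subgroup.centralizer ((P : Subgroup G) : Set G) := (h _ hPc).le
    have hcompl := MonoidHom.ker_transferSylow_isComplement' P hP
    have hle : commutator G ≤ (MonoidHom.transferSylow P hP).ker := by
      rw [commutator_def, Subgroup.commutator_le]
      intro g _ k _
      rw [MonoidHom.mem_ker, map_commutatorElement, commutatorElement_eq_one_iff_mul_comm]
      exact mul_comm' _ _
    have hcard := hcompl.card_mul_card
    have hidx := (P : Subgroup G).card_mul_index
    have hdvd : Nat.card (commutator G) ∣ Nat.card (MonoidHom.transferSylow P hP).ker :=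
      Subgroup.card_dvd_of_le hle
    have hpos : 0 < Nat.card (P : Subgroup G) := Nat.card_pos
    have heq : Nat.card (MonoidHom.transferSylow P hP).ker = (P : Subgroup G).index := by
      have : Nat.card (MonoidHom.transferSylow P hP).ker * Nat.card (P : Subgroup G) =
          (P : Subgroup G).index * Nat.card (P : Subgroup G) := by
        rw [hcard, mul_comm, hidx]
      exact Nat.eq_of_mul_eq_mul_right hpos this
    intro hpd
    exact P.not_dvd_index (heq ▸ hpd.trans hdvd)
  have hone : Nat.card (commutator G) = 1 := by
    by_contra hne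
    obtain ⟨p, hp, hpd⟩ := Nat.exists_prime_and_dvd hne
    exact hD p hp hpd
  have hbot : commutator G = ⊥ := Subgroup.card_eq_one.mp hone
  rw [isMulCommutative_iff]
  intro a b
  have hab : ⁅a, b⁆ ∈ commutator G := by
    rw [commutator_def]
    exact Subgroup.commutator_mem_commutator (Subgroup.mem_top a) (Subgroup.mem_top b)
  rw [hbot, Subgroup.mem_bot, commutatorElement_eq_one_iff_mul_comm] at hab
  exact hab

end Cfsg.Agent.S0578
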