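import Cfsg.Statements.S0588
import Mathlib.GroupTheory.Sylow
import Mathlib.GroupTheory.PGroup
import Mathlib.Tactic.Group

set_option autoImplicit false
open Cfsg

namespace Cfsg.Agent.S0588

/-- If a subgroup H of a finite group G contains the centralizer of every non-identity element of H, then the order of H is coprime to its index. -/
theorem result {G : Type*} [Group G] [Finite G] (H : Subgroup G) (h : ∀ x ∈ H, x ≠ 1 → Subgroup.centralizer ({x} : Set G) ≤ H) : (Nat.card H).Coprime H.index := by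
  by_contra hcop
  obtain ⟨p, hp, hpH, hpi⟩ := Nat.Prime.not_coprime_iff_dvd.mp hcop
  haveI : Fact p.Prime := ⟨hp⟩
  obtain ⟨P⟩ : Nonempty (Sylow p H) := inferInstance
  have hPne : (P : Subgroup H) ≠ ⊥ := P.ne_bot_of_dvd_card hpH
  obtain ⟨x', hx1⟩ := (Subgroup.ne_bot_iff_exists_ne_one).mp hPne
  obtain ⟨x, hxP⟩ := x'
  have hPG : IsPGroup p ((P : Subgroup H).map H.subtype) := P.isPGroup'.map _
  obtain ⟨S, hPS⟩ := hPG.exists_le_sylow
  have hxS : ((x : H) : G) ∈ S := hPS ⟨x, hxP, rfl⟩
  have hxG : ((x : H) : G) ≠ 1 := by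
    intro h1
    apply hx1
    apply Subtype.ext
    apply Subtype.ext
    simpa using h1
  haveI : Nontrivial (S : Subgroup G) := ⟨⟨⟨_, hxS⟩, 1, fun h1 => hxG (congrArg Subtype.val h1)⟩⟩
  haveI := S.isPGroup'.center_nontrivial
  obtain ⟨z, hz1⟩ := exists_ne (1 : Subgroup.center (S : Subgroup G))
  have hzc : ∀ s : (S : Subgroup G), s * (z : (S : Subgroup G)) = (z : (S : Subgroup G)) * s :=
    fun s => Subgroup.mem_center_iff.mp z.2 s
  have hzG1 : (((z : (S : Subgroup G)) : G)) ≠ 1 := by
    intro h1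
    apply hz1
    apply Subtype.ext
    apply Subtype.ext
    simpa using h1
  have hzH : (((z : (S : Subgroup G)) : G)) ∈ H := by
    apply h _ x.2 hxG
    rw [Subgroup.mem_centralizer_iff]
    intro y hy
    rw [Set.mem_singleton_iff] at hy
    subst hy
    exact congrArg Subtype.val (hzc ⟨_, hxS⟩)
  have hSH : (S : Subgroup G) ≤ H := by
    intro s hs
    apply h _ hzH hzG1
    rw [Subgroup.mem_centralizer_iff]
    intro y hy
    rw [Set.mem_singleton_iff] at hy
    subst hy
    exact (congrArg Subtype.val (hzc ⟨s, hs⟩)).symm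
  have hdvd : H.index ∣ (S : Subgroup G).index := Subgroup.index_dvd_of_le hSH
  exact S.not_dvd_index (hpi.trans hdvd)

end Cfsg.Agent.S0588
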