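import Cfsg.Statements.S0589


set_option autoImplicit false
open Pointwise
open Cfsg

namespace Cfsg.Agent.S0589


theorem card_free_dvd {L X : Type*} [Group L] [MulAction L X]
    (h : ∀ (l : L) (x : X), l • x = x → l = 1) : Nat.card L ∣ Nat.card X := by
  have e := MulAction.selfEquivOrbitsQuotientProd (G := L) (X := X) (fun b => by
    rw [eq_bot_iff]; intro l hl; rw [Subgroup.mem_bot]
    exact h l b (MulAction.mem_stabilizer_iff.mp hl))
  rw [Nat.card_congr e, Nat.card_prod]
  exact dvd_mul_left _ _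

theorem exists_fixed {L X : Type*} [Group L] [Finite L] [MulAction L X] [Finite X]
    (hL : 1 < Nat.card L) (hcard : Nat.card X % Nat.card L = 1)
    (hfix : ∀ l : L, l ≠ 1 → ∀ x y : X, l • x = x → l • y = y → x = y) :
    ∃ x : X, ∀ l : L, l • x = x := by
  classical
  let Tc : SubMulAction L X :=
    { carrier := {x | ∀ l : L, l • x = x → l = 1}
      smul_mem' := by
        intro c x hx l hl
        have h1 : (c⁻¹ * l * c) • x = x := by
          rw [mul_smul, mul_smul, hl, inv_smul_smul]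
        have h2 := hx _ h1
        have h3 : l = c * (c⁻¹ * l * c) * c⁻¹ := by group
        rw [h3, h2]; group }
  have hdvd : Nat.card L ∣ Nat.card Tc :=
    card_free_dvd (fun l x h => x.2 l (congrArg Subtype.val h))
  set A : Set X := {x | ∀ l : L, l • x = x → l = 1} with hA
  have hTcA : Nat.card Tc = A.ncard := Nat.card_coe_set_eq A
  have hsum := Set.ncard_add_ncard_compl A
  have hinj : Aᶜ.ncard ≤ Nat.card L - 1 := by
    have hch : ∀ x : ↥Aᶜ, ∃ l : L, l ≠ 1 ∧ l • (x : X) = x := by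
      intro x
      have hx := x.2
      simp only [hA, Set.mem_compl_iff, Set.mem_ofPred_eq, not_forall] at hx
      obtain ⟨l, h1, h2⟩ := hx
      exact ⟨l, h2, h1⟩
    choose f hf1 hf2 using hch
    have hfi : Function.Injective (fun x : ↥Aᶜ => (⟨f x, hf1 x⟩ : ↥({1}ᶜ : Set L))) := by
      intro x y hxy
      have hxy' : f x = f y := congrArg Subtype.val hxy
      apply Subtype.ext
      exact hfix (f x) (hf1 x) _ _ (hf2 x) (by rw [hxy']; exact hf2 y)
    have h1 := Nat.card_le_card_of_injective _ hfi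
    rw [Nat.card_coe_set_eq, Nat.card_coe_set_eq] at h1
    have h2 : ({1}ᶜ : Set L).ncard = Nat.card L - 1 := by
      rw [Set.ncard_compl, Set.ncard_singleton]
    rw [h2] at h1
    exact h1
  have ht : Aᶜ.ncard = 1 := by
    obtain ⟨k, hk⟩ := hdvd
    rw [hTcA] at hk
    have h2 : Nat.card X = Nat.card L * k + Aᶜ.ncard := by omega
    rw [h2, Nat.mul_add_mod] at hcard
    have h3 : Aᶜ.ncard < Nat.card L := by omega
    rw [Nat.mod_eq_of_lt h3] at hcard
    exact hcard
  obtain ⟨x₀, hx₀⟩ := Set.ncard_eq_one.mp ht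
  refine ⟨x₀, fun l => ?_⟩
  have hmem : l • x₀ ∈ Aᶜ := by
    intro hc
    have h1 : x₀ ∈ A := by
      have := Tc.smul_mem' l⁻¹ hc
      rwa [inv_smul_smul] at this
    have hx : x₀ ∈ Aᶜ := by rw [hx₀]; rfl
    exact hx h1
  rw [hx₀] at hmem
  exact hmem

theorem conj_mem_of_fix {G : Type*} [Group G] (H : Subgroup G) (a g : G)
    (h : ((a * g : G) : G ⧸ H) = (g : G ⧸ H)) : g⁻¹ * a * g ∈ H := by
  rw [QuotientGroup.eq] at h
  have := H.inv_mem h
  have e : ((a * g)⁻¹ * g)⁻¹ = g⁻¹ * a * g := by group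
  rwa [e] at this

/-- Let H be a Frobenius complement in a finite group G and L a subgroup of G whose order divides the order of H. Then L is contained in some conjugate of H. -/
theorem result {G : Type*} [Group G] [Finite G] (H : Subgroup G) (hH : Cfsg.IsFrobeniusComplement H) (L : Subgroup G) (hL : Nat.card L ∣ Nat.card H) : ∃ x : G, L ≤ MulAut.conj x • H := by
  obtain ⟨hne, hnt, hfr⟩ := hH
  by_cases hL1 : Nat.card L = 1
  · refine ⟨1, ?_⟩
    rw [(Subgroup.card_eq_one).mp hL1]
    exact bot_le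
  have hL2 : 1 < Nat.card L := by have := Nat.card_pos (α := L); omega
  have key : ∀ g : G, ∀ h ∈ H, h ≠ 1 → g⁻¹ * h * g ∈ H → g ∈ H := by
    intro g h hh h1 hg
    by_contra hgH
    have := hfr g hgH
    have hmem : h ∈ H ⊓ MulAut.conj g • H := by
      refine Subgroup.mem_inf.mpr ⟨hh, ?_⟩
      rw [Subgroup.mem_pointwise_smul_iff_inv_smul_mem]
      simpa [MulAut.smul_def] using hg
    rw [this, Subgroup.mem_bot] at hmem
    exact h1 hmem
  have hidx : Nat.card (G ⧸ H) % Nat.card L = 1 := by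
    let T : SubMulAction H (G ⧸ H) :=
      { carrier := {x | x ≠ ((1 : G) : G ⧸ H)}
        smul_mem' := by
          intro c x hx hc
          apply hx
          have h1 : x = c⁻¹ • (c • x) := by rw [inv_smul_smul]
          rw [h1, hc]
          show ((((c⁻¹ : H) : G) * 1 : G) : G ⧸ H) = _
          rw [QuotientGroup.eq]
          simp }
    have hdvd : Nat.card H ∣ Nat.card T := by
      apply card_free_dvd
      rintro h ⟨x, hx⟩ hfix
      have hfix' : h • x = x := congrArg Subtype.val hfix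
      obtain ⟨g, rfl⟩ := QuotientGroup.mk_surjective x
      have hg : g ∉ H := by
        intro hg; apply hx
        show (g : G ⧸ H) = ((1 : G) : G ⧸ H)
        rw [QuotientGroup.eq]
        simpa using hg
      by_contra h1
      have h2 : g⁻¹ * (h : G) * g ∈ H := conj_mem_of_fix H (h : G) g hfix'
      exact hg (key g h h.2 (fun hh => h1 (Subtype.ext hh)) h2)
    have hT : Nat.card T + 1 = Nat.card (G ⧸ H) := by
      have h1 : Nat.card T = ({((1 : G) : G ⧸ H)}ᶜ : Set (G ⧸ H)).ncard := Nat.card_coe_set_eq _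
      rw [h1, Set.ncard_compl, Set.ncard_singleton]
      have := Nat.card_pos (α := G ⧸ H)
      omega
    obtain ⟨k, hk⟩ := hdvd
    obtain ⟨j, hj⟩ := hL
    rw [← hT, hk, hj, mul_assoc, Nat.mul_add_mod]
    exact Nat.mod_eq_of_lt hL2
  obtain ⟨x, hx⟩ := exists_fixed (L := L) (X := G ⧸ H) hL2 hidx (by
    intro l hl x y hx hy
    obtain ⟨g₁, rfl⟩ := QuotientGroup.mk_surjective x
    obtain ⟨g₂, rfl⟩ := QuotientGroup.mk_surjective y
    have h1 : g₁⁻¹ * (l : G) * g₁ ∈ H := conj_mem_of_fix H (l : G) g₁ hx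
    have h2 : g₂⁻¹ * (l : G) * g₂ ∈ H := conj_mem_of_fix H (l : G) g₂ hy
    rw [QuotientGroup.eq]
    apply key (g₁⁻¹ * g₂) (g₁⁻¹ * (l : G) * g₁) h1
    · intro h; apply hl; apply Subtype.ext
      have h3 : (l : G) = g₁ * (g₁⁻¹ * (l : G) * g₁) * g₁⁻¹ := by group
      rw [h3, h]; simp
    · have e : (g₁⁻¹ * g₂)⁻¹ * (g₁⁻¹ * (l : G) * g₁) * (g₁⁻¹ * g₂) = g₂⁻¹ * (l : G) * g₂ := by
        group
      rw [e]; exact h2)
  obtain ⟨g, rfl⟩ := QuotientGroup.mk_surjective x
  refine ⟨g, fun l hl => ?_⟩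
  have h1 := conj_mem_of_fix H l g (hx ⟨l, hl⟩)
  rw [Subgroup.mem_pointwise_smul_iff_inv_smul_mem]
  simpa [MulAut.smul_def] using h1

end Cfsg.Agent.S0589
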