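import Cfsg.Statements.S0590

set_option autoImplicit false
open Cfsg
open scoped commutatorElement

namespace Cfsg.Agent.S0590

/-- Quadratic action on an elementary abelian p-group forces the acting group modulo the kernel of the action to be elementary abelian. -/
theorem result {G : Type*} [Group G] [Finite G] {p : ℕ} [Fact p.Prime] (V H : Subgroup G) (hV : Cfsg.IsElementaryAbelian p V) (hHV : H ≤ Subgroup.normalizer (V : Set G)) (hq : ⁅⁅V, H⁆, H⁆ = ⊥) : ⁅H, H⁆ ≤ Subgroup.centralizer (V : Set G) ∧ ∀ a ∈ H, a ^ p ∈ Subgroup.centralizer (V : Set G) := by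
  have hVc := hV.1
  -- Lemma B
  have hB : ∀ v ∈ V, ∀ a ∈ H, ⁅v, a⁆ ∈ V := by
    intro v hv a ha
    have h1 : a * v⁻¹ * a⁻¹ ∈ V := ((Subgroup.mem_normalizer_iff.mp (hHV ha)) v⁻¹).1 (V.inv_mem hv)
    have : ⁅v, a⁆ = v * (a * v⁻¹ * a⁻¹) := by rw [commutatorElement_def]; group
    rw [this]
    exact V.mul_mem hv h1
  -- Lemma C
  have hC : ∀ v ∈ V, ∀ a ∈ H, ∀ b ∈ H, b * ⁅v, a⁆ = ⁅v, a⁆ * b := by
    intro v hv a ha b hb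
    have h1 : ⁅V, H⁆ ≤ Subgroup.centralizer (H : Set G) :=
      Subgroup.commutator_eq_bot_iff_le_centralizer.mp hq
    have h2 := h1 (Subgroup.commutator_mem_commutator hv ha)
    exact (Subgroup.mem_centralizer_iff.mp h2) b hb
  -- Lemma A
  have hA : ∀ (v a : G), a * v * a⁻¹ = ⁅v, a⁆⁻¹ * v := by
    intro v a
    rw [commutatorElement_def]; group
  have hC' : ∀ v ∈ V, ∀ a ∈ H, ∀ b ∈ H, b * ⁅v, a⁆⁻¹ * b⁻¹ = ⁅v, a⁆⁻¹ := by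
    intro v hv a ha b hb
    have := hC v hv a ha b hb
    have h2 : b * ⁅v, a⁆⁻¹ = ⁅v, a⁆⁻¹ * b := by
      have h3 : ⁅v, a⁆⁻¹ * (b * ⁅v, a⁆) * ⁅v, a⁆⁻¹ = ⁅v, a⁆⁻¹ * (⁅v, a⁆ * b) * ⁅v, a⁆⁻¹ := by rw [this]
      have h4 : ⁅v, a⁆⁻¹ * (⁅v, a⁆ * b) * ⁅v, a⁆⁻¹ = b * ⁅v, a⁆⁻¹ := by group
      have h5 : ⁅v, a⁆⁻¹ * (b * ⁅v, a⁆) * ⁅v, a⁆⁻¹ = ⁅v, a⁆⁻¹ * b := by group
      rw [← h4, ← h5, h3]
    rw [h2]; group
  have main : ∀ v ∈ V, ∀ a ∈ H, ∀ b ∈ H, a * b * v * b⁻¹ * a⁻¹ = ⁅v, b⁆⁻¹ * ⁅v, a⁆⁻¹ * v := by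
    intro v hv a ha b hb
    calc a * b * v * b⁻¹ * a⁻¹ = a * (b * v * b⁻¹) * a⁻¹ := by group
      _ = a * (⁅v, b⁆⁻¹ * v) * a⁻¹ := by rw [hA v b]
      _ = (a * ⁅v, b⁆⁻¹ * a⁻¹) * (a * v * a⁻¹) := by group
      _ = ⁅v, b⁆⁻¹ * ⁅v, a⁆⁻¹ * v := by rw [hC' v hv b hb a ha, hA v a]; group
  have star : ∀ v ∈ V, ∀ a ∈ H, ∀ b ∈ H, a * b * v * b⁻¹ * a⁻¹ = b * a * v * a⁻¹ * b⁻¹ := by
    intro v hv a ha b hb
    rw [main v hv a ha b hb, main v hv b hb a ha]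
    have : ⁅v, b⁆⁻¹ * ⁅v, a⁆⁻¹ = ⁅v, a⁆⁻¹ * ⁅v, b⁆⁻¹ :=
      setLike_mul_comm (V.inv_mem (hB v hv b hb)) (V.inv_mem (hB v hv a ha))
    rw [this]
  constructor
  · rw [Subgroup.commutator_le]
    intro a ha b hb
    rw [Subgroup.mem_centralizer_iff]
    intro v hv
    have hba : b * a ∈ Subgroup.normalizer (V : Set G) := hHV (H.mul_mem hb ha)
    have hw : (b * a)⁻¹ * v * (b * a) ∈ V := by
      have := ((Subgroup.mem_normalizer_iff.mp (Subgroup.inv_mem _ hba)) v).1 hv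
      simpa using this
    have h1 := star _ hw a ha b hb
    have h2 : b * a * ((b * a)⁻¹ * v * (b * a)) * a⁻¹ * b⁻¹ = v := by group
    rw [h2] at h1
    have h3 : a * b * ((b * a)⁻¹ * v * (b * a)) * b⁻¹ * a⁻¹ = ⁅a, b⁆ * v * ⁅a, b⁆⁻¹ := by
      rw [commutatorElement_def]; group
    rw [h3] at h1
    calc v * ⁅a, b⁆ = (⁅a, b⁆ * v * ⁅a, b⁆⁻¹) * ⁅a, b⁆ := by rw [h1]
      _ = ⁅a, b⁆ * v := by group
  · intro a ha
    rw [Subgroup.mem_centralizer_iff]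
    intro v hv
    have hpow : ∀ n : ℕ, a ^ n * v * (a ^ n)⁻¹ = (⁅v, a⁆⁻¹) ^ n * v := by
      intro n
      induction n with
      | zero => simp
      | succ n ih =>
        have hcn : a * (⁅v, a⁆⁻¹) ^ n * a⁻¹ = (⁅v, a⁆⁻¹) ^ n := by
          have h1 : a * ⁅v, a⁆⁻¹ * a⁻¹ = ⁅v, a⁆⁻¹ := hC' v hv a ha a ha
          have h2 : a * (⁅v, a⁆⁻¹) ^ n * a⁻¹ = (a * ⁅v, a⁆⁻¹ * a⁻¹) ^ n := by
            rw [conj_pow]
          rw [h2, h1]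
        calc a ^ (n + 1) * v * (a ^ (n + 1))⁻¹ = a * (a ^ n * v * (a ^ n)⁻¹) * a⁻¹ := by
              rw [pow_succ']; group
          _ = a * ((⁅v, a⁆⁻¹) ^ n * v) * a⁻¹ := by rw [ih]
          _ = (a * (⁅v, a⁆⁻¹) ^ n * a⁻¹) * (a * v * a⁻¹) := by group
          _ = (⁅v, a⁆⁻¹) ^ n * (⁅v, a⁆⁻¹ * v) := by rw [hcn, hA v a]
          _ = (⁅v, a⁆⁻¹) ^ (n + 1) * v := by rw [pow_succ]; group
    have h1 := hpow p
    have h2 : (⁅v, a⁆⁻¹) ^ p = 1 := hV.2 _ (V.inv_mem (hB v hv a ha))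
    rw [h2, one_mul] at h1
    calc v * a ^ p = (a ^ p * v * (a ^ p)⁻¹) * a ^ p := by rw [h1]
      _ = a ^ p * v := by group

end Cfsg.Agent.S0590
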