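import Cfsg.Statements.S0591
import Mathlib.GroupTheory.Index
import Mathlib.Tactic.Group

set_option autoImplicit false
open Cfsg
open scoped commutatorElement

namespace Cfsg.Agent.S0591

/-- For a quadratically acting element a on an elementary abelian p-group V, the fixed points C_V(a) have order at least the square root of the order of V. -/
theorem result {G : Type*} [Group G] [Finite G] {p : ℕ} [Fact p.Prime] (V : Subgroup G) (hV : Cfsg.IsElementaryAbelian p V) (a : G) (ha : a ∈ Subgroup.normalizer (V : Set G)) (hq : ⁅⁅V, Subgroup.zpowers a⁆, Subgroup.zpowers a⁆ = ⊥) : Nat.card V ≤ Nat.card ↥(V ⊓ Subgroup.centralizer (Subgroup.zpowers a : Set G)) ^ 2 := by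
  have hVc := hV.1
  set C := V ⊓ Subgroup.centralizer (Subgroup.zpowers a : Set G) with hC
  have hB : ∀ v ∈ V, ⁅v, a⁆ ∈ V := by
    intro v hv
    have h1 : a * v⁻¹ * a⁻¹ ∈ V := ((Subgroup.mem_normalizer_iff.mp ha) v⁻¹).1 (V.inv_mem hv)
    have : ⁅v, a⁆ = v * (a * v⁻¹ * a⁻¹) := by rw [commutatorElement_def]; group
    rw [this]
    exact V.mul_mem hv h1
  have hcent : ∀ v ∈ V, ⁅v, a⁆ ∈ Subgroup.centralizer (Subgroup.zpowers a : Set G) := by
    intro v hv
    have h1 : ⁅V, Subgroup.zpowers a⁆ ≤ Subgroup.centralizer (Subgroup.zpowers a : Set G) :=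
      Subgroup.commutator_eq_bot_iff_le_centralizer.mp hq
    exact h1 (Subgroup.commutator_mem_commutator hv (Subgroup.mem_zpowers a))
  have hmul : ∀ v w : V, (⟨⁅((v * w : V) : G), a⁆, hB _ (v * w).2⟩ : V) =
      ⟨⁅(v : G), a⁆, hB _ v.2⟩ * ⟨⁅(w : G), a⁆, hB _ w.2⟩ := by
    intro v w
    apply Subtype.ext
    show ⁅(v : G) * (w : G), a⁆ = ⁅(v : G), a⁆ * ⁅(w : G), a⁆
    rw [commutatorElement_mul_left_eq_conj_mul]
    have h1 : (v : G) * ⁅(w : G), a⁆ = ⁅(w : G), a⁆ * (v : G) := setLike_mul_comm v.2 (hB _ w.2)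
    have h2 : ⁅(w : G), a⁆ * ⁅(v : G), a⁆ = ⁅(v : G), a⁆ * ⁅(w : G), a⁆ :=
      setLike_mul_comm (hB _ w.2) (hB _ v.2)
    rw [h1, mul_assoc, mul_assoc, mul_inv_cancel_left, h2]
  let f : V →* V := MonoidHom.mk' (fun v => ⟨⁅(v : G), a⁆, hB _ v.2⟩) hmul
  have hker : f.ker.map V.subtype ≤ C := by
    rintro _ ⟨v, hv, rfl⟩
    refine ⟨v.2, Subgroup.mem_centralizer_iff.mpr ?_⟩
    intro y hy
    have h1 : ⁅(v : G), a⁆ = 1 := congrArg Subtype.val (MonoidHom.mem_ker.mp hv)
    have h2 : Commute (v : G) a := commutatorElement_eq_one_iff_commute.mp h1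
    obtain ⟨k, rfl⟩ := Subgroup.mem_zpowers_iff.mp hy
    exact (h2.zpow_right k).symm
  have hrange : f.range.map V.subtype ≤ C := by
    rintro _ ⟨w, ⟨v, rfl⟩, rfl⟩
    exact ⟨hB _ v.2, hcent _ v.2⟩
  have h1 : Nat.card f.ker ≤ Nat.card C := by
    rw [← Subgroup.card_map_of_injective V.subtype_injective]
    exact Subgroup.card_le_of_le hker
  have h2 : Nat.card f.range ≤ Nat.card C := by
    rw [← Subgroup.card_map_of_injective V.subtype_injective]
    exact Subgroup.card_le_of_le hrange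
  have h3 : Nat.card f.ker * Nat.card f.range = Nat.card V := by
    rw [← Subgroup.index_ker]
    exact Subgroup.card_mul_index f.ker
  calc Nat.card V = Nat.card f.ker * Nat.card f.range := h3.symm
    _ ≤ Nat.card C * Nat.card C := Nat.mul_le_mul h1 h2
    _ = Nat.card C ^ 2 := by ring

end Cfsg.Agent.S0591
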