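import Cfsg.Statements.S0592
import Cfsg.Agent.Helper5.RedSL2

set_option autoImplicit false
open Cfsg

namespace Cfsg.Agent.S0592


/-- Two quadratically acting generators of a linear group that is not a p-group, with the p'-part of the order of their product dividing q - 1, give a homomorphism onto a subgroup of SL(2, q) that is not a p-group. -/
theorem result {K : Type*} [Field K] [Fintype K] {p : ℕ} [Fact p.Prime] [CharP K p] {W : Type*} [AddCommGroup W] [Module K W] [FiniteDimensional K W] [Finite W] [Nontrivial W] (H : Subgroup (W ≃ₗ[K] W)) (a b : W ≃ₗ[K] W) (hH : H = Subgroup.closure {a, b}) (ha : ∀ w : W, a (a w - w) = a w - w) (hb : ∀ w : W, b (b w - w) = b w - w) (hnp : ¬ IsPGroup p H) (hk : ∃ e k : ℕ, orderOf (a * b) = p ^ e * k ∧ k ∣ Fintype.card K - 1) : ∃ φ : H →* Matrix.SpecialLinearGroup (Fin 2) K, ¬ IsPGroup p φ.range := by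
  subst hH
  have haI : a ∈ Subgroup.closure {a, b} := Subgroup.subset_closure (by simp)
  have hbI : b ∈ Subgroup.closure {a, b} := Subgroup.subset_closure (by simp)
  have hD : Subgroup.closure ({⟨a, haI⟩, ⟨b, hbI⟩} : Set ↥(Subgroup.closure {a, b})) = ⊤ := by
    rw [← Subgroup.closure_closure_coe_preimage (k := ({a, b} : Set (W ≃ₗ[K] W)))]
    congr 1
    ext z
    simp only [Set.mem_insert_iff, Set.mem_singleton_iff, Set.mem_preimage, Subtype.ext_iff]
  obtain ⟨e, k, hord, hk'⟩ := hk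
  have hxy : ∃ e k : ℕ, ((⟨a, haI⟩ : ↥(Subgroup.closure {a, b})) * ⟨b, hbI⟩) ^ (p ^ e * k) = 1 ∧
      k ∣ Fintype.card K - 1 := by
    refine ⟨e, k, ?_, hk'⟩
    apply Subtype.ext
    rw [Subgroup.coe_pow]
    show (a * b) ^ (p ^ e * k) = 1
    rw [← hord, pow_orderOf_eq_one]
  refine Cfsg.Agent.Helper5.SL2.red_SL2 (⟨a, haI⟩ : ↥(Subgroup.closure {a, b})) ⟨b, hbI⟩ hD hxy
    (Subgroup.closure {a, b}).subtype ha hb ?_
  rw [Subgroup.range_subtype]
  exact hnp

end Cfsg.Agent.S0592
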