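import Cfsg.Statements.S0599
import Cfsg.Agent.S0598
import Mathlib.GroupTheory.Perm.Cycle.Type
import Mathlib.GroupTheory.Index
import Mathlib.Tactic.Group
import Mathlib.Tactic.Ring
import Mathlib.Tactic.Linarith

set_option autoImplicit false
open Cfsg
open scoped commutatorElement

namespace Cfsg.Agent.S0599

variable {G : Type*} [Group G]

section
variable (V A : Subgroup G) (hVc : IsMulCommutative V)
  (hAV : A ≤ Subgroup.normalizer (V : Set G))
  (hab : ⁅A, A⁆ ≤ Subgroup.centralizer (V : Set G))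
include hVc hAV hab

theorem comm_mul {a : G} (ha : a ∈ A) {x y : G} (hx : x ∈ V) (hy : y ∈ V) :
    ⁅x * y, a⁆ = ⁅x, a⁆ * ⁅y, a⁆ := by
  have h1 : ⁅y, a⁆ ∈ V := Cfsg.Agent.S0598.comm_mem V A hVc hAV hab ha hy
  have h3 : ⁅x, a⁆ ∈ V := Cfsg.Agent.S0598.comm_mem V A hVc hAV hab ha hx
  have e : ⁅x * y, a⁆ = x * ⁅y, a⁆ * x⁻¹ * ⁅x, a⁆ := by
    simp only [commutatorElement_def]; group
  have h2 : x * ⁅y, a⁆ = ⁅y, a⁆ * x := setLike_mul_comm hx h1
  rw [e, h2, mul_inv_cancel_right]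
  exact setLike_mul_comm h1 h3

theorem comm_inv {a : G} (ha : a ∈ A) {x : G} (hx : x ∈ V) :
    ⁅x⁻¹, a⁆ = ⁅x, a⁆⁻¹ := by
  have h := comm_mul V A hVc hAV hab ha (V.inv_mem hx) hx
  rw [inv_mul_cancel] at h
  have h1 : ⁅(1 : G), a⁆ = 1 := by simp
  rw [h1] at h
  exact eq_inv_of_mul_eq_one_left h.symm

theorem exists_cimg {a : G} (ha : a ∈ A) (X : Subgroup G) (hX : X ≤ V) :
    ∃ Y : Subgroup G, ∀ y, y ∈ Y ↔ ∃ x ∈ X, ⁅x, a⁆ = y := by
  refine ⟨{ carrier := {y | ∃ x ∈ X, ⁅x, a⁆ = y}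
            mul_mem' := ?_
            one_mem' := ?_
            inv_mem' := ?_ }, fun y => Iff.rfl⟩
  · rintro _ _ ⟨x, hx, rfl⟩ ⟨x', hx', rfl⟩
    exact ⟨x * x', X.mul_mem hx hx', comm_mul V A hVc hAV hab ha (hX hx) (hX hx')⟩
  · exact ⟨1, X.one_mem, by simp⟩
  · rintro _ ⟨x, hx, rfl⟩
    exact ⟨x⁻¹, X.inv_mem hx, comm_inv V A hVc hAV hab ha (hX hx)⟩

theorem no_surj [Finite G] {p : ℕ} [Fact p.Prime] (hVp : ∀ v ∈ V, v ^ p = 1)
    (hpp : ∀ a ∈ A, a ^ p ∈ Subgroup.centralizer (V : Set G))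
    {a : G} (ha : a ∈ A) (X : Subgroup G) (hX : X ≤ V) (hinv : ∀ x ∈ X, a * x * a⁻¹ ∈ X)
    (hsurj : ∀ x ∈ X, ∃ x' ∈ X, ⁅x', a⁆ = x) : X = ⊥ := by
  classical
  have : Fintype X := Fintype.ofFinite X
  have hcX : ∀ x ∈ X, ⁅x, a⁆ ∈ X := by
    intro x hx
    have e : ⁅x, a⁆ = x * (a * x⁻¹ * a⁻¹) := by rw [commutatorElement_def]; group
    rw [e]
    exact X.mul_mem hx (hinv _ (X.inv_mem hx))
  let c : X → X := fun x => ⟨⁅(x : G), a⁆, hcX x x.2⟩
  have hcs : Function.Surjective c := by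
    intro x
    obtain ⟨x', hx', h⟩ := hsurj x x.2
    exact ⟨⟨x', hx'⟩, Subtype.ext h⟩
  have hci : Function.Injective c := Finite.injective_iff_surjective.mpr hcs
  let f : Function.End X := fun x => ⟨a * (x : G) * a⁻¹, hinv x x.2⟩
  have hpow : ∀ n : ℕ, ∀ x : X, (((f ^ n) x : X) : G) = a ^ n * (x : G) * (a ^ n)⁻¹ := by
    intro n
    induction n with
    | zero =>
      intro x
      rw [pow_zero, pow_zero]
      show (x : G) = 1 * (x : G) * 1⁻¹
      group
    | succ n ih =>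
      intro x
      rw [pow_succ]
      have : (f ^ n * f) x = (f ^ n) (f x) := rfl
      rw [this, ih]
      show a ^ n * (a * (x : G) * a⁻¹) * (a ^ n)⁻¹ = _
      rw [pow_succ]; group
  have hfp : f ^ p ^ 1 = 1 := by
    rw [pow_one]
    funext x
    apply Subtype.ext
    rw [hpow]
    have h1 := (Subgroup.mem_centralizer_iff.mp (hpp a ha)) (x : G) (hX x.2)
    show a ^ p * (x : G) * (a ^ p)⁻¹ = (x : G)
    rw [← h1, mul_inv_cancel_right]
  have hfix : ∀ x : X, x ∈ Function.fixedPoints f → x = 1 := by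
    intro x hx
    have h1 : a * (x : G) * a⁻¹ = (x : G) := congrArg Subtype.val hx
    apply hci
    apply Subtype.ext
    show ⁅(x : G), a⁆ = ⁅((1 : X) : G), a⁆
    have e : ⁅(x : G), a⁆ = (x : G) * (a * (x : G) * a⁻¹)⁻¹ := by
      rw [commutatorElement_def]; group
    rw [e, h1]
    simp
  have hmod0 := Equiv.Perm.card_fixedPoints_modEq (f := f) (p := p) (n := 1) hfp
  have hmod : Nat.card X ≡ Nat.card (Function.fixedPoints f) [MOD p] := by
    rw [Nat.card_eq_fintype_card, Nat.card_eq_fintype_card]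
    exact hmod0
  have hone : Nat.card (Function.fixedPoints f) = 1 := by
    rw [Nat.card_eq_one_iff_unique]
    refine ⟨⟨?_⟩, ⟨⟨1, ?_⟩⟩⟩
    · rintro ⟨x, hx⟩ ⟨y, hy⟩
      apply Subtype.ext
      show x = y
      rw [hfix x hx, hfix y hy]
    · show f 1 = 1
      apply Subtype.ext
      show a * ((1 : X) : G) * a⁻¹ = ((1 : X) : G)
      simp
  rw [hone] at hmod
  have hpg : IsPGroup p X := by
    intro x
    refine ⟨1, ?_⟩
    rw [pow_one]
    apply Subtype.ext
    have := hVp (x : G) (hX x.2)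
    simpa using this
  obtain ⟨k, hk⟩ := IsPGroup.iff_card.mp hpg
  rw [hk] at hmod
  have hp := (Fact.out : p.Prime)
  rcases Nat.eq_zero_or_pos k with h0 | hpos
  · rw [h0, pow_zero] at hk
    exact Subgroup.card_eq_one.mp hk
  · exfalso
    have hdvd : p ∣ p ^ k := dvd_pow_self p hpos.ne'
    have h0 : p ^ k ≡ 0 [MOD p] := (Nat.modEq_zero_iff_dvd).mpr hdvd
    have h1 : 1 ≡ 0 [MOD p] := hmod.symm.trans h0
    have : p ∣ 1 := (Nat.modEq_zero_iff_dvd).mp h1
    exact hp.one_lt.ne' (Nat.dvd_one.mp this)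

theorem nil_act [Finite G] {p : ℕ} [Fact p.Prime] (hVp : ∀ v ∈ V, v ^ p = 1)
    (hpp : ∀ a ∈ A, a ^ p ∈ Subgroup.centralizer (V : Set G)) :
    ∀ n : ℕ, ∀ X : Subgroup G, Nat.card X ≤ n → X ≤ V → ⁅X, A⁆ ≤ X → X ≤ ⁅X, A⁆ → X = ⊥ := by
  intro n
  induction n with
  | zero =>
    intro X hn
    exfalso
    have := Nat.card_pos (α := X)
    omega
  | succ n ih =>
    intro X hn hXV h1 h2
    by_contra hne
    have hex : ∃ a ∈ A, ∃ x ∈ X, ⁅x, a⁆ ≠ 1 := by
      by_contra hcon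
      push Not at hcon
      apply hne
      have hb : ⁅X, A⁆ = ⊥ := by
        rw [Subgroup.commutator_eq_bot_iff_le_centralizer]
        intro x hx
        rw [Subgroup.mem_centralizer_iff]
        intro b hb
        have := hcon b hb x hx
        exact (commutatorElement_eq_one_iff_mul_comm.mp this).symm
      rw [hb] at h2
      exact le_bot_iff.mp h2
    obtain ⟨a, ha, x₀, hx₀, hx₀a⟩ := hex
    obtain ⟨Y, hY⟩ := exists_cimg V A hVc hAV hab ha X hXV
    have hYX : Y ≤ X := by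
      intro y hy
      obtain ⟨x, hx, rfl⟩ := (hY y).1 hy
      exact h1 (Subgroup.commutator_mem_commutator hx ha)
    have hYV : Y ≤ V := hYX.trans hXV
    have hY1 : ⁅Y, A⁆ ≤ Y := by
      rw [Subgroup.commutator_le]
      intro y hy b hb
      obtain ⟨x, hx, rfl⟩ := (hY y).1 hy
      rw [Cfsg.Agent.S0598.symm_comm V A hVc hAV hab ha hb (hXV hx)]
      exact (hY _).2 ⟨⁅x, b⁆, h1 (Subgroup.commutator_mem_commutator hx hb), rfl⟩
    have hY2 : Y ≤ ⁅Y, A⁆ := by
      intro y hy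
      obtain ⟨x, hx, rfl⟩ := (hY y).1 hy
      have hx' : x ∈ ⁅X, A⁆ := h2 hx
      have key : ∀ z ∈ ⁅X, A⁆, z ∈ V ∧ ⁅z, a⁆ ∈ ⁅Y, A⁆ := by
        intro z hz
        rw [Subgroup.commutator_def] at hz
        induction hz using Subgroup.closure_induction with
        | mem z hz =>
          obtain ⟨x', hx', b, hb, rfl⟩ := hz
          refine ⟨hXV (h1 (Subgroup.commutator_mem_commutator hx' hb)), ?_⟩
          rw [Cfsg.Agent.S0598.symm_comm V A hVc hAV hab hb ha (hXV hx')]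
          exact Subgroup.commutator_mem_commutator ((hY _).2 ⟨x', hx', rfl⟩) hb
        | one => exact ⟨V.one_mem, by simp⟩
        | mul z z' _ _ ihz ihz' =>
          refine ⟨V.mul_mem ihz.1 ihz'.1, ?_⟩
          rw [comm_mul V A hVc hAV hab ha ihz.1 ihz'.1]
          exact Subgroup.mul_mem _ ihz.2 ihz'.2
        | inv z _ ihz =>
          refine ⟨V.inv_mem ihz.1, ?_⟩
          rw [comm_inv V A hVc hAV hab ha ihz.1]
          exact Subgroup.inv_mem _ ihz.2
      exact (key x hx').2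
    have hYne : Y ≠ ⊥ := by
      intro hbot
      have : ⁅x₀, a⁆ ∈ Y := (hY _).2 ⟨x₀, hx₀, rfl⟩
      rw [hbot, Subgroup.mem_bot] at this
      exact hx₀a this
    have hYneX : Y ≠ X := by
      intro hYX'
      apply hne
      apply no_surj V A hVc hAV hab hVp hpp ha X hXV
      · intro x hx
        have h3 : ⁅x⁻¹, a⁆ ∈ X := h1 (Subgroup.commutator_mem_commutator (X.inv_mem hx) ha)
        have e : a * x * a⁻¹ = x * ⁅x⁻¹, a⁆ := by rw [commutatorElement_def]; group
        rw [e]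
        exact X.mul_mem hx h3
      · intro x hx
        rw [← hYX'] at hx
        exact (hY x).1 hx
    have hlt : Nat.card Y < Nat.card X := by
      rcases lt_or_ge (Nat.card Y) (Nat.card X) with h | h
      · exact h
      · exact absurd (Subgroup.eq_of_le_of_card_ge hYX h) hYneX
    exact hYne (ih Y (by omega) hYV hY1 hY2)

end

/-- The Timmesfeld replacement Theorem: replacing a best offender A by C_A([U, A]) gives a best offender with fixed points [U, A]C_V(A), still nontrivial on V if A was. -/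
theorem result {G : Type*} [Group G] [Finite G] {p : ℕ} [Fact p.Prime] (V A : Subgroup G) (hV : Cfsg.IsElementaryAbelian p V) (hAV : A ≤ Subgroup.normalizer (V : Set G)) (hA : Cfsg.IsBestOffenderOn p V A) (U : Subgroup G) (hU : U ≤ V) : Cfsg.IsBestOffenderOn p V (A ⊓ Subgroup.centralizer ((⁅U, A⁆ : Subgroup G) : Set G)) ∧ V ⊓ Subgroup.centralizer ((A ⊓ Subgroup.centralizer ((⁅U, A⁆ : Subgroup G) : Set G) : Subgroup G) : Set G) = ⁅U, A⁆ ⊔ (V ⊓ Subgroup.centralizer (A : Set G)) ∧ (⁅V, A⁆ ≠ ⊥ → ⁅V, A ⊓ Subgroup.centralizer ((⁅U, A⁆ : Subgroup G) : Set G)⁆ ≠ ⊥) := by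
  have hVc := hV.1
  obtain ⟨hbest, hab, hpp⟩ := hA
  obtain ⟨B, hBA, hB⟩ := Cfsg.Agent.S0598.result V A hV hAV hab U hU
  rcases hB with hlt | ⟨rfl, hcv, hprod⟩
  · exact absurd (hbest B hBA) (not_le.mpr hlt)
  · refine ⟨⟨?_, ?_, ?_⟩, hcv, ?_⟩
    · intro B hB
      rw [← hprod]
      exact hbest B (hB.trans inf_le_left)
    · exact (Subgroup.commutator_mono inf_le_left inf_le_left).trans hab
    · intro a ha
      exact hpp a ha.1
    · intro hne hbot
      apply hne
      rw [Subgroup.commutator_eq_bot_iff_le_centralizer] at hbot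
      have hVeq : V = ⁅U, A⁆ ⊔ (V ⊓ Subgroup.centralizer (A : Set G)) := by
        rw [← hcv]
        exact (inf_eq_left.mpr hbot).symm
      have hXV : ⁅V, A⁆ ≤ V := by
        rw [Subgroup.commutator_le]
        intro v hv a ha
        exact Cfsg.Agent.S0598.comm_mem V A hVc hAV hab ha hv
      have h1 : ⁅⁅V, A⁆, A⁆ ≤ ⁅V, A⁆ := Subgroup.commutator_mono hXV le_rfl
      have h2 : ⁅V, A⁆ ≤ ⁅⁅V, A⁆, A⁆ := by
        let S : Subgroup G :=
          { carrier := {v | v ∈ V ∧ ∀ a ∈ A, ⁅v, a⁆ ∈ ⁅⁅V, A⁆, A⁆}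
            mul_mem' := by
              rintro x y ⟨hx, hx'⟩ ⟨hy, hy'⟩
              refine ⟨V.mul_mem hx hy, fun a ha => ?_⟩
              rw [comm_mul V A hVc hAV hab ha hx hy]
              exact Subgroup.mul_mem _ (hx' a ha) (hy' a ha)
            one_mem' := ⟨V.one_mem, fun a _ => by simp⟩
            inv_mem' := by
              rintro x ⟨hx, hx'⟩
              refine ⟨V.inv_mem hx, fun a ha => ?_⟩
              rw [comm_inv V A hVc hAV hab ha hx]
              exact Subgroup.inv_mem _ (hx' a ha) }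
        have hS : ⁅U, A⁆ ⊔ (V ⊓ Subgroup.centralizer (A : Set G)) ≤ S := by
          apply sup_le
          · intro x hx
            have hxVA : x ∈ ⁅V, A⁆ := Subgroup.commutator_mono hU le_rfl hx
            exact ⟨hXV hxVA, fun a ha => Subgroup.commutator_mem_commutator hxVA ha⟩
          · intro x hx
            refine ⟨hx.1, fun a ha => ?_⟩
            have : ⁅x, a⁆ = 1 := by
              rw [commutatorElement_eq_one_iff_mul_comm]
              exact ((Subgroup.mem_centralizer_iff.mp hx.2) a ha).symm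
            rw [this]
            exact Subgroup.one_mem _
        rw [Subgroup.commutator_le]
        intro v hv a ha
        rw [hVeq] at hv
        exact (hS hv).2 a ha
      exact nil_act V A hVc hAV hab hV.2 hpp (Nat.card (⁅V, A⁆ : Subgroup G)) ⁅V, A⁆ le_rfl hXV h1 h2

end Cfsg.Agent.S0599
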