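import Cfsg.Statements.S0600
import Mathlib

set_option autoImplicit false
open Cfsg

namespace Cfsg.Agent.S0600

/-- A normal elementary abelian p-subgroup generated by the fixed points of the Sylow p-subgroups admits no nontrivial normal p-subgroup of G modulo its centralizer. -/
theorem result {G : Type*} [Group G] [Finite G] {p : ℕ} [Fact p.Prime] (V : Subgroup G) [V.Normal] (hV : Cfsg.IsElementaryAbelian p V) (hgen : V = ⨆ S : Sylow p G, V ⊓ Subgroup.centralizer ((S : Subgroup G) : Set G)) : Cfsg.pCore p (G ⧸ Subgroup.centralizer (V : Set G)) = ⊥ := by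
  unfold Cfsg.pCore
  rw [eq_bot_iff]
  apply sSup_le
  rintro N ⟨hNn, hNp⟩
  intro xbar hx
  obtain ⟨x, rfl⟩ := QuotientGroup.mk'_surjective _ xbar
  rw [Subgroup.mem_bot]
  have hπ : Function.Surjective (QuotientGroup.mk' (Subgroup.centralizer (V : Set G))) :=
    QuotientGroup.mk'_surjective _
  have key : ∀ S : Sylow p G, V ⊓ Subgroup.centralizer ((S : Subgroup G) : Set G) ≤
      Subgroup.centralizer ({x} : Set G) := by
    intro S
    have hNS : N ≤ ((S.mapSurjective hπ : Sylow p (G ⧸ Subgroup.centralizer (V : Set G))) :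
        Subgroup (G ⧸ Subgroup.centralizer (V : Set G))) := by
      have hp : IsPGroup p (N ⊔ ((S.mapSurjective hπ :
          Sylow p (G ⧸ Subgroup.centralizer (V : Set G))) :
          Subgroup (G ⧸ Subgroup.centralizer (V : Set G))) : Subgroup _) :=
        IsPGroup.to_sup_of_normal_left hNp (S.mapSurjective hπ).isPGroup'
      have h1 := (S.mapSurjective hπ).is_maximal' hp le_sup_right
      rw [← h1]
      exact le_sup_left
    have hx' := hNS hx
    rw [Sylow.coe_mapSurjective] at hx'
    obtain ⟨s, hs, hsx⟩ := hx'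
    have hc : s⁻¹ * x ∈ Subgroup.centralizer (V : Set G) := by
      rw [← QuotientGroup.eq]
      exact hsx
    intro v hv
    rw [Subgroup.mem_centralizer_iff]
    intro y hy
    rw [Set.mem_singleton_iff] at hy
    subst hy
    have h1 : s * v = v * s := Subgroup.mem_centralizer_iff.mp hv.2 s hs
    have h2 : (s⁻¹ * y) * v = v * (s⁻¹ * y) := (Subgroup.mem_centralizer_iff.mp hc v hv.1).symm
    calc y * v = s * ((s⁻¹ * y) * v) := by group
      _ = s * (v * (s⁻¹ * y)) := by rw [h2]
      _ = (s * v) * (s⁻¹ * y) := by group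
      _ = v * s * (s⁻¹ * y) := by rw [h1]
      _ = v * y := by group
  have hVx : V ≤ Subgroup.centralizer ({x} : Set G) := by
    calc V = ⨆ S : Sylow p G, V ⊓ Subgroup.centralizer ((S : Subgroup G) : Set G) := hgen
      _ ≤ _ := iSup_le key
  show ((x : G) : G ⧸ Subgroup.centralizer (V : Set G)) = 1
  rw [QuotientGroup.eq_one_iff, Subgroup.mem_centralizer_iff]
  intro v hv
  exact ((Subgroup.mem_centralizer_iff.mp (hVx hv)) x rfl).symm

end Cfsg.Agent.S0600
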