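import Cfsg.Statements.S0601
import Cfsg.Agent.S0600
import Mathlib

set_option autoImplicit false
open Cfsg
open scoped Pointwise

namespace Cfsg.Agent.S0601

theorem mem_smul_sylow {G : Type*} [Group G] {p : ℕ} (g : G) (S : Sylow p G) (x : G) :
    x ∈ ((g • S : Sylow p G) : Subgroup G) ↔ g⁻¹ * x * g ∈ (S : Subgroup G) := by
  rw [Sylow.coe_subgroup_smul, Subgroup.mem_pointwise_smul_iff_inv_smul_mem]
  simp [MulAut.smul_def]

theorem elab_closure {G : Type*} [Group G] (p : ℕ) (T : Set G)
    (hcomm : ∀ x ∈ T, ∀ y ∈ T, x * y = y * x) (hp : ∀ x ∈ T, x ^ p = 1) :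
    Cfsg.IsElementaryAbelian p (Subgroup.closure T) := by
  have hc : IsMulCommutative (Subgroup.closure T) := Subgroup.isMulCommutative_closure hcomm
  refine ⟨hc, ?_⟩
  intro b hb
  induction hb using Subgroup.closure_induction with
  | mem y hy => exact hp y hy
  | one => simp
  | mul y z hy hz ihy ihz =>
    have hcomm' : Commute y z := setLike_mul_comm hy hz
    rw [hcomm'.mul_pow, ihy, ihz, one_mul]
  | inv y hy ih => rw [inv_pow, ih, inv_one]

theorem elab_le {G : Type*} [Group G] {p : ℕ} {B A : Subgroup G} (h : B ≤ A)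
    (hA : Cfsg.IsElementaryAbelian p A) : Cfsg.IsElementaryAbelian p B :=
  have := hA.1
  ⟨IsMulCommutative.of_setLike_mul_comm fun _ ha _ hb => setLike_mul_comm (h ha) (h hb),
    fun a ha => hA.2 a (h ha)⟩

/-- When O_p(G) contains its centralizer, the normal closure of Ω₁(Z(S)) is elementary abelian and G has no nontrivial normal p-subgroup modulo its centralizer. -/
theorem result {G : Type*} [Group G] [Finite G] {p : ℕ} [Fact p.Prime] (hc : Subgroup.centralizer (Cfsg.pCore p G : Set G) ≤ Cfsg.pCore p G) : (⨆ S : Sylow p G, Cfsg.omegaOne p (((S : Subgroup G)) ⊓ Subgroup.centralizer ((S : Subgroup G) : Set G))).Normal ∧ Cfsg.IsElementaryAbelian p (⨆ S : Sylow p G, Cfsg.omegaOne p (((S : Subgroup G)) ⊓ Subgroup.centralizer ((S : Subgroup G) : Set G))) ∧ ∀ D : Subgroup G, D.Normal → Subgroup.centralizer ((⨆ S : Sylow p G, Cfsg.omegaOne p (((S : Subgroup G)) ⊓ Subgroup.centralizer ((S : Subgroup G) : Set G)) : Subgroup G) : Set G) ≤ D → (∃ k : ℕ, (Subgroup.centralizer ((⨆ S : Sylow p G, Cfsg.omegaOne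 p (((S : Subgroup G)) ⊓ Subgroup.centralizer ((S : Subgroup G) : Set G)) : Subgroup G) : Set G)).relIndex D = p ^ k) → D = Subgroup.centralizer ((⨆ S : Sylow p G, Cfsg.omegaOne p (((S : Subgroup G)) ⊓ Subgroup.centralizer ((S : Subgroup G) : Set G)) : Subgroup G) : Set G) := by
  set V : Subgroup G := ⨆ S : Sylow p G, Cfsg.omegaOne p (((S : Subgroup G)) ⊓
    Subgroup.centralizer ((S : Subgroup G) : Set G)) with hVdef
  have hQn : (Cfsg.pCore p G).Normal := Subgroup.sSup_normal _ (fun _ h => h.1)
  have hQp : IsPGroup p (Cfsg.pCore p G) := Sylow.sSup_of_normal _ (fun _ h => h.2) (fun _ h => h.1)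
  have hQS : ∀ S : Sylow p G, Cfsg.pCore p G ≤ (S : Subgroup G) := fun S => hQp.le_sylow_of_normal S
  -- normality
  have hVn : V.Normal := by
    constructor
    intro v hv g
    have hle : V ≤ V.comap (MulAut.conj g).toMonoidHom := by
      apply iSup_le
      intro S
      unfold Cfsg.omegaOne
      rw [Subgroup.closure_le]
      intro x hx
      show g * x * g⁻¹ ∈ V
      have hmem : g * x * g⁻¹ ∈ Cfsg.omegaOne p ((((g • S : Sylow p G) : Subgroup G)) ⊓
          Subgroup.centralizer (((g • S : Sylow p G) : Subgroup G) : Set G)) := by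
        apply Subgroup.subset_closure
        refine ⟨⟨?_, ?_⟩, ?_⟩
        · show g * x * g⁻¹ ∈ ((g • S : Sylow p G) : Subgroup G)
          rw [mem_smul_sylow]
          have e : g⁻¹ * (g * x * g⁻¹) * g = x := by group
          rw [e]
          exact hx.1.1
        · show g * x * g⁻¹ ∈ Subgroup.centralizer (((g • S : Sylow p G) : Subgroup G) : Set G)
          rw [Subgroup.mem_centralizer_iff]
          intro h hh
          rw [SetLike.mem_coe, mem_smul_sylow] at hh
          have h1 := (Subgroup.mem_centralizer_iff.mp hx.1.2) _ hh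
          calc h * (g * x * g⁻¹) = g * ((g⁻¹ * h * g) * x) * g⁻¹ := by group
            _ = g * (x * (g⁻¹ * h * g)) * g⁻¹ := by rw [h1]
            _ = g * x * g⁻¹ * h := by group
        · rw [conj_pow, hx.2]
          group
      exact (le_iSup (fun S : Sylow p G => Cfsg.omegaOne p (((S : Subgroup G)) ⊓
        Subgroup.centralizer ((S : Subgroup G) : Set G))) (g • S)) hmem
    exact hle hv
  -- elementary abelian
  have hVel : Cfsg.IsElementaryAbelian p V := by
    have hT := elab_closure p {x : G | x ∈ Cfsg.pCore p G ⊓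
        Subgroup.centralizer (Cfsg.pCore p G : Set G) ∧ x ^ p = 1}
      (fun x hx y hy => (Subgroup.mem_centralizer_iff.mp hy.1.2) x hx.1.1)
      (fun x hx => hx.2)
    refine elab_le ?_ hT
    apply iSup_le
    intro S
    apply Subgroup.closure_mono
    intro x hx
    have hxc : x ∈ Subgroup.centralizer (Cfsg.pCore p G : Set G) :=
      Subgroup.centralizer_le (hQS S) hx.1.2
    exact ⟨⟨hc hxc, hxc⟩, hx.2⟩
  refine ⟨hVn, hVel, ?_⟩
  intro D hDn hCD hk
  obtain ⟨k, hk⟩ := hk
  have hgen : V = ⨆ S : Sylow p G, V ⊓ Subgroup.centralizer ((S : Subgroup G) : Set G) := by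
    apply le_antisymm
    · apply iSup_le
      intro S
      refine le_trans ?_ (le_iSup (fun S : Sylow p G => V ⊓
        Subgroup.centralizer ((S : Subgroup G) : Set G)) S)
      refine le_inf (le_iSup (fun S : Sylow p G => Cfsg.omegaOne p (((S : Subgroup G)) ⊓
        Subgroup.centralizer ((S : Subgroup G) : Set G))) S) ?_
      unfold Cfsg.omegaOne
      rw [Subgroup.closure_le]
      intro x hx
      exact hx.1.2
    · exact iSup_le (fun S => inf_le_left)
  have h600 := Cfsg.Agent.S0600.result V hVel hgen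
  apply le_antisymm ?_ hCD
  have hDbar_n : (D.map (QuotientGroup.mk' (Subgroup.centralizer (V : Set G)))).Normal :=
    Subgroup.Normal.map hDn _ (QuotientGroup.mk'_surjective _)
  have hDbar_p : IsPGroup p (D.map (QuotientGroup.mk' (Subgroup.centralizer (V : Set G)))) := by
    apply IsPGroup.of_card (n := k)
    rw [← hk, ← Subgroup.relIndex_ker, QuotientGroup.ker_mk']
  have hle : D.map (QuotientGroup.mk' (Subgroup.centralizer (V : Set G))) ≤
      Cfsg.pCore p (G ⧸ Subgroup.centralizer (V : Set G)) := le_sSup ⟨hDbar_n, hDbar_p⟩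
  rw [h600, le_bot_iff, Subgroup.map_eq_bot_iff, QuotientGroup.ker_mk'] at hle
  exact hle

end Cfsg.Agent.S0601
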