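import Cfsg.Statements.S0603

set_option autoImplicit false
open Cfsg

namespace Cfsg.Agent.S0603

theorem exists_max (p : ℕ) (G : Type*) [Group G] [Finite G] :
    (Cfsg.maxElementaryAbelianSubgroups p G).Nonempty := by
  obtain ⟨A, hA⟩ := Set.Finite.exists_maximalFor (fun A : Subgroup G => Nat.card A)
    {A : Subgroup G | Cfsg.IsElementaryAbelian p A} (Set.toFinite _)
    ⟨⊥, ⟨inferInstance, fun a ha => by rw [Subgroup.mem_bot.mp ha, one_pow]⟩⟩
  refine ⟨A, hA.1, fun B hB => ?_⟩
  rcases le_total (Nat.card B) (Nat.card A) with h | h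
  · exact h
  · exact hA.2 hB h

theorem elab_map {G G' : Type*} [Group G] [Group G'] (p : ℕ) (φ : G →* G') (A : Subgroup G)
    (hA : Cfsg.IsElementaryAbelian p A) : Cfsg.IsElementaryAbelian p (A.map φ) := by
  have := hA.1
  refine ⟨inferInstance, ?_⟩
  rintro _ ⟨a, ha, rfl⟩
  rw [← map_pow, hA.2 a ha, map_one]

theorem elab_subgroupOf {G : Type*} [Group G] (p : ℕ) (A U : Subgroup G)
    (hA : Cfsg.IsElementaryAbelian p A) : Cfsg.IsElementaryAbelian p (A.subgroupOf U) := by
  have := hA.1
  refine ⟨inferInstance, ?_⟩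
  intro x hx
  apply Subtype.ext
  rw [Subgroup.coe_pow]
  exact hA.2 _ (Subgroup.mem_subgroupOf.mp hx)

theorem card_subgroupOf {G : Type*} [Group G] {A U : Subgroup G} (h : A ≤ U) :
    Nat.card (A.subgroupOf U) = Nat.card A :=
  Nat.card_congr (Subgroup.subgroupOfEquivOfLe h).toEquiv

/-- The Thompson subgroup of any subgroup containing J(G) is J(G) itself. -/
theorem result {G : Type*} [Group G] [Finite G] {p : ℕ} [Fact p.Prime] (U : Subgroup G) (hU : Cfsg.thompsonSubgroup p G ≤ U) : Cfsg.thompsonSubgroupOf p U = Cfsg.thompsonSubgroup p G := by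
  unfold Cfsg.thompsonSubgroupOf
  apply le_antisymm
  · rw [Subgroup.map_le_iff_le_comap]
    apply sSup_le
    intro B' hB'
    rw [← Subgroup.map_le_iff_le_comap]
    apply le_sSup
    refine ⟨elab_map p _ B' hB'.1, fun D hD => ?_⟩
    obtain ⟨A, hA⟩ := exists_max p G
    have hAU : A ≤ U := (le_sSup hA).trans hU
    have h1 := hB'.2 _ (elab_subgroupOf p A U hA.1)
    rw [card_subgroupOf hAU] at h1
    rw [Subgroup.card_map_of_injective U.subtype_injective]
    exact (hA.2 D hD).trans h1
  · apply sSup_le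
    intro A hA
    have hAU : A ≤ U := (le_sSup hA).trans hU
    have hmax : A.subgroupOf U ∈ Cfsg.maxElementaryAbelianSubgroups p U := by
      refine ⟨elab_subgroupOf p A U hA.1, fun B' hB' => ?_⟩
      have h1 := hA.2 _ (elab_map p U.subtype B' hB')
      rw [Subgroup.card_map_of_injective U.subtype_injective] at h1
      rw [card_subgroupOf hAU]
      exact h1
    have h2 : A.subgroupOf U ≤ Cfsg.thompsonSubgroup p U := le_sSup hmax
    have h3 := Subgroup.map_mono (f := U.subtype) h2
    rw [Subgroup.map_subgroupOf_eq_of_le hAU] at h3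
    exact h3

end Cfsg.Agent.S0603
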