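import Cfsg.Statements.S0604

set_option autoImplicit false
open Cfsg
open scoped Pointwise

namespace Cfsg.Agent.S0604

theorem exists_max (p : ℕ) (G : Type*) [Group G] [Finite G] :
    (Cfsg.maxElementaryAbelianSubgroups p G).Nonempty := by
  obtain ⟨A, hA⟩ := Set.Finite.exists_maximalFor (fun A : Subgroup G => Nat.card A)
    {A : Subgroup G | Cfsg.IsElementaryAbelian p A} (Set.toFinite _)
    ⟨⊥, ⟨inferInstance, fun a ha => by rw [Subgroup.mem_bot.mp ha, one_pow]⟩⟩
  refine ⟨A, hA.1, fun B hB => ?_⟩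
  rcases le_total (Nat.card B) (Nat.card A) with h | h
  · exact h
  · exact hA.2 hB h

theorem elab_map {G G' : Type*} [Group G] [Group G'] (p : ℕ) (φ : G →* G') (A : Subgroup G)
    (hA : Cfsg.IsElementaryAbelian p A) : Cfsg.IsElementaryAbelian p (A.map φ) := by
  have := hA.1
  refine ⟨inferInstance, ?_⟩
  rintro _ ⟨a, ha, rfl⟩
  rw [← map_pow, hA.2 a ha, map_one]

theorem elab_subgroupOf {G : Type*} [Group G] (p : ℕ) (A U : Subgroup G)
    (hA : Cfsg.IsElementaryAbelian p A) : Cfsg.IsElementaryAbelian p (A.subgroupOf U) := by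
  have := hA.1
  refine ⟨inferInstance, ?_⟩
  intro x hx
  apply Subtype.ext
  rw [Subgroup.coe_pow]
  exact hA.2 _ (Subgroup.mem_subgroupOf.mp hx)

theorem card_subgroupOf {G : Type*} [Group G] {A U : Subgroup G} (h : A ≤ U) :
    Nat.card (A.subgroupOf U) = Nat.card A :=
  Nat.card_congr (Subgroup.subgroupOfEquivOfLe h).toEquiv

theorem elab_isPGroup {G : Type*} [Group G] (p : ℕ) (A : Subgroup G)
    (hA : Cfsg.IsElementaryAbelian p A) : IsPGroup p A := by
  intro g
  refine ⟨1, ?_⟩
  apply Subtype.ext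
  rw [pow_one, Subgroup.coe_pow]
  exact hA.2 _ g.2

/-- The Thompson subgroup of G is the join of the Thompson subgroups of its Sylow p-subgroups. -/
theorem result {G : Type*} [Group G] [Finite G] {p : ℕ} [Fact p.Prime] : Cfsg.thompsonSubgroup p G = ⨆ S : Sylow p G, Cfsg.thompsonSubgroupOf p (S : Subgroup G) := by
  apply le_antisymm
  · apply sSup_le
    intro A hA
    obtain ⟨S, hAS⟩ := (elab_isPGroup p A hA.1).exists_le_sylow
    have hmax : A.subgroupOf (S : Subgroup G) ∈
        Cfsg.maxElementaryAbelianSubgroups p (S : Subgroup G) := by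
      refine ⟨elab_subgroupOf p A _ hA.1, fun B' hB' => ?_⟩
      have h1 := hA.2 _ (elab_map p (S : Subgroup G).subtype B' hB')
      rw [Subgroup.card_map_of_injective (S : Subgroup G).subtype_injective] at h1
      rw [card_subgroupOf hAS]
      exact h1
    have h2 : A.subgroupOf (S : Subgroup G) ≤ Cfsg.thompsonSubgroup p (S : Subgroup G) :=
      le_sSup hmax
    have h3 := Subgroup.map_mono (f := (S : Subgroup G).subtype) h2
    rw [Subgroup.map_subgroupOf_eq_of_le hAS] at h3
    exact h3.trans (le_iSup (fun S : Sylow p G => Cfsg.thompsonSubgroupOf p (S : Subgroup G)) S)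
  · apply iSup_le
    intro S
    unfold Cfsg.thompsonSubgroupOf
    rw [Subgroup.map_le_iff_le_comap]
    apply sSup_le
    intro B' hB'
    rw [← Subgroup.map_le_iff_le_comap]
    apply le_sSup
    refine ⟨elab_map p _ B' hB'.1, fun D hD => ?_⟩
    obtain ⟨A, hA⟩ := exists_max p G
    obtain ⟨S', hAS'⟩ := (elab_isPGroup p A hA.1).exists_le_sylow
    obtain ⟨g, hg⟩ := MulAction.exists_smul_eq G S' S
    have hA'S : A.map (MulAut.conj g).toMonoidHom ≤ (S : Subgroup G) := by
      rintro _ ⟨x, hx, rfl⟩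
      have h1 : MulAut.conj g • x ∈ MulAut.conj g • (S' : Subgroup G) :=
        Subgroup.smul_mem_pointwise_smul _ _ _ (hAS' hx)
      rw [← Sylow.coe_subgroup_smul, hg] at h1
      exact h1
    have hA'el := elab_map p (MulAut.conj g).toMonoidHom A hA.1
    have h1 := hB'.2 _ (elab_subgroupOf p _ (S : Subgroup G) hA'el)
    rw [card_subgroupOf hA'S, Subgroup.card_map_of_injective (MulAut.conj g).injective] at h1
    rw [Subgroup.card_map_of_injective (S : Subgroup G).subtype_injective]
    exact (hA.2 D hD).trans h1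

end Cfsg.Agent.S0604
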