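import Cfsg.Statements.S0606
import Mathlib.GroupTheory.Index
import Mathlib.Tactic.Group

set_option autoImplicit false
open Cfsg
open scoped commutatorElement

namespace Cfsg.Agent.S0606

theorem card_mul_relIndex {G : Type*} [Group G] {H K : Subgroup G} (h : H ≤ K) :
    Nat.card H * H.relIndex K = Nat.card K := by
  have h1 := Subgroup.card_mul_index (H.subgroupOf K)
  have h2 : Nat.card (H.subgroupOf K) = Nat.card H :=
    Nat.card_congr (Subgroup.subgroupOfEquivOfLe h).toEquiv
  rw [h2] at h1
  exact h1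

theorem card_mul_le {G : Type*} [Group G] [Finite G] (H K : Subgroup G) :
    Nat.card H * Nat.card K ≤ Nat.card (H ⊔ K : Subgroup G) * Nat.card (H ⊓ K : Subgroup G) := by
  have h1 : Nat.card (H ⊓ K : Subgroup G) * H.relIndex K = Nat.card K := by
    rw [← Subgroup.inf_relIndex_right]
    exact card_mul_relIndex inf_le_right
  have h2 : Nat.card H * H.relIndex (H ⊔ K) = Nat.card (H ⊔ K : Subgroup G) :=
    card_mul_relIndex le_sup_left
  have hne : H.relIndex (H ⊔ K) ≠ 0 := by
    intro h0
    rw [h0, mul_zero] at h2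
    exact (Nat.card_pos (α := (H ⊔ K : Subgroup G))).ne h2
  have h3 : H.relIndex K ≤ H.relIndex (H ⊔ K) := Subgroup.relIndex_le_of_le_right le_sup_right hne
  calc Nat.card H * Nat.card K = Nat.card H * (Nat.card (H ⊓ K : Subgroup G) * H.relIndex K) := by
        rw [h1]
    _ ≤ Nat.card H * (Nat.card (H ⊓ K : Subgroup G) * H.relIndex (H ⊔ K)) :=
        Nat.mul_le_mul_left _ (Nat.mul_le_mul_left _ h3)
    _ = Nat.card (H ⊔ K : Subgroup G) * Nat.card (H ⊓ K : Subgroup G) := by
        rw [← h2]; ring

theorem elab_sup {G : Type*} [Group G] (p : ℕ) (B C : Subgroup G)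
    (hB : Cfsg.IsElementaryAbelian p B) (hC : Cfsg.IsElementaryAbelian p C)
    (hcomm : ∀ b ∈ B, ∀ c ∈ C, b * c = c * b) : Cfsg.IsElementaryAbelian p (B ⊔ C) := by
  have hBc := hB.1
  have hCc := hC.1
  have hcl : B ⊔ C = Subgroup.closure ((B : Set G) ∪ C) := by
    rw [Subgroup.closure_union, Subgroup.closure_eq, Subgroup.closure_eq]
  rw [hcl]
  have hc : IsMulCommutative (Subgroup.closure ((B : Set G) ∪ C)) := by
    apply Subgroup.isMulCommutative_closure
    intro y hy z hz
    rcases hy with hy | hy <;> rcases hz with hz | hz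
    · exact setLike_mul_comm hy hz
    · exact hcomm y hy z hz
    · exact (hcomm z hz y hy).symm
    · exact setLike_mul_comm hy hz
  refine ⟨hc, ?_⟩
  intro b hb
  induction hb using Subgroup.closure_induction with
  | mem y hy =>
    rcases hy with hy | hy
    · exact hB.2 y hy
    · exact hC.2 y hy
  | one => simp
  | mul y z hy hz ihy ihz =>
    have hcomm' : Commute y z := setLike_mul_comm hy hz
    rw [hcomm'.mul_pow, ihy, ihz, one_mul]
  | inv y hy ih => rw [inv_pow, ih, inv_one]

/-- Elementary abelian p-subgroups of maximal order are best offenders on any normal elementary abelian p-subgroup. -/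
theorem result {G : Type*} [Group G] [Finite G] {p : ℕ} [Fact p.Prime] (V : Subgroup G) [V.Normal] (hV : Cfsg.IsElementaryAbelian p V) (A : Subgroup G) (hA : A ∈ Cfsg.maxElementaryAbelianSubgroups p G) : Cfsg.IsBestOffenderOn p V A := by
  have hAc := hA.1.1
  have hVc := hV.1
  refine ⟨?_, ?_, ?_⟩
  · intro B hBA
    have hBel : Cfsg.IsElementaryAbelian p B :=
      ⟨IsMulCommutative.of_setLike_mul_comm fun a ha b hb => setLike_mul_comm (hBA ha) (hBA hb),
        fun a ha => hA.1.2 a (hBA ha)⟩
    have hCel : Cfsg.IsElementaryAbelian p (V ⊓ Subgroup.centralizer (B : Set G)) :=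
      ⟨IsMulCommutative.of_setLike_mul_comm fun a ha b hb => setLike_mul_comm ha.1 hb.1,
        fun a ha => hV.2 a ha.1⟩
    have hE := elab_sup p B (V ⊓ Subgroup.centralizer (B : Set G)) hBel hCel
      (fun b hb c hc => (Subgroup.mem_centralizer_iff.mp hc.2) b hb)
    have h1 := hA.2 _ hE
    have h2 := card_mul_le B (V ⊓ Subgroup.centralizer (B : Set G))
    have h3 : B ⊓ (V ⊓ Subgroup.centralizer (B : Set G)) ≤ V ⊓ Subgroup.centralizer (A : Set G) := by
      intro x hx
      refine ⟨hx.2.1, Subgroup.mem_centralizer_iff.mpr ?_⟩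
      intro y hy
      exact setLike_mul_comm hy (hBA hx.1)
    have h4 := Subgroup.card_le_of_le h3
    calc Nat.card B * Nat.card (V ⊓ Subgroup.centralizer (B : Set G) : Subgroup G)
        ≤ Nat.card (B ⊔ (V ⊓ Subgroup.centralizer (B : Set G)) : Subgroup G) *
          Nat.card (B ⊓ (V ⊓ Subgroup.centralizer (B : Set G)) : Subgroup G) := h2
      _ ≤ Nat.card A * Nat.card (V ⊓ Subgroup.centralizer (A : Set G) : Subgroup G) :=
          Nat.mul_le_mul h1 h4
  · rw [Subgroup.commutator_le]
    intro a ha b hb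
    have : ⁅a, b⁆ = 1 := commutatorElement_eq_one_iff_mul_comm.mpr (setLike_mul_comm ha hb)
    rw [this]
    exact Subgroup.one_mem _
  · intro a ha
    rw [hA.1.2 a ha]
    exact Subgroup.one_mem _

end Cfsg.Agent.S0606
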