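import Cfsg.Statements.S0607
import Cfsg.Agent.S0598
import Cfsg.Agent.S0599
import Cfsg.Agent.S0606
import Mathlib.GroupTheory.Index
import Mathlib.Tactic.Group
import Mathlib.Tactic.Ring
import Mathlib.Tactic.Linarith

set_option autoImplicit false
open Cfsg
open scoped commutatorElement

namespace Cfsg.Agent.S0607

theorem elab_le {G : Type*} [Group G] {p : ℕ} {B A : Subgroup G} (h : B ≤ A)
    (hA : Cfsg.IsElementaryAbelian p A) : Cfsg.IsElementaryAbelian p B :=
  have := hA.1
  ⟨IsMulCommutative.of_setLike_mul_comm fun _ ha _ hb => setLike_mul_comm (h ha) (h hb),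
    fun a ha => hA.2 a (h ha)⟩

/-- The replacement Theorem for the Thompson subgroup: from A of maximal order among elementary abelian p-subgroups one obtains A₀ = [V, A] C_A([V, A]) of the same kind, quadratic on V and nontrivial on V when A is. -/
theorem result {G : Type*} [Group G] [Finite G] {p : ℕ} [Fact p.Prime] (V : Subgroup G) [V.Normal] (hV : Cfsg.IsElementaryAbelian p V) (A : Subgroup G) (hA : A ∈ Cfsg.maxElementaryAbelianSubgroups p G) : (⁅V, A⁆ ⊔ (A ⊓ Subgroup.centralizer ((⁅V, A⁆ : Subgroup G) : Set G))) ∈ Cfsg.maxElementaryAbelianSubgroups p G ∧ ⁅⁅V, ⁅V, A⁆ ⊔ (A ⊓ Subgroup.centralizer ((⁅V, A⁆ : Subgroup G) : Set G))⁆, ⁅V, A⁆ ⊔ (A ⊓ Subgroup.centralizer ((⁅V, A⁆ : Subgroup G) : Set G))⁆ = ⊥ ∧ (⁅V, A⁆ ≠ ⊥ → ⁅V, ⁅V, A⁆ ⊔ (A ⊓ Subgroup.centralizer ((⁅V, A⁆ : Subgroup G) : Set G))⁆ ≠ ⊥) := by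
  have hVc := hV.1
  have hAel := hA.1
  have hAc := hA.1.1
  have hAV : A ≤ Subgroup.normalizer (V : Set G) := by
    rw [Subgroup.normalizer_eq_top]; exact le_top
  have hbo := Cfsg.Agent.S0606.result V hV A hA
  have hbest := hbo.1
  have hab := hbo.2.1
  have hWV : ⁅V, A⁆ ≤ V := Subgroup.commutator_le_left V A
  obtain ⟨h599a, h599b, h599c⟩ := Cfsg.Agent.S0599.result V A hV hAV hbo V le_rfl
  obtain ⟨B, hBA, hB⟩ := Cfsg.Agent.S0598.result V A hV hAV hab V le_rfl
  rcases hB with hlt | ⟨rfl, hcv, hprod⟩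
  · exact absurd (hbest B hBA) (not_le.mpr hlt)
  set W := ⁅V, A⁆ with hW
  set As := A ⊓ Subgroup.centralizer (W : Set G) with hAs
  set CVA := V ⊓ Subgroup.centralizer (A : Set G) with hCVA
  set CVs := V ⊓ Subgroup.centralizer (As : Set G) with hCVs
  have hWel : Cfsg.IsElementaryAbelian p W := elab_le hWV hV
  have hAsel : Cfsg.IsElementaryAbelian p As := elab_le inf_le_left hAel
  have hCVAel : Cfsg.IsElementaryAbelian p CVA := elab_le inf_le_left hV
  have hCVsel : Cfsg.IsElementaryAbelian p CVs := elab_le inf_le_left hV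
  -- C_V(A) ≤ A
  have hCA : CVA ≤ A := by
    have hE := Cfsg.Agent.S0606.elab_sup p A CVA hAel hCVAel
      (fun a ha c hc => (Subgroup.mem_centralizer_iff.mp hc.2) a ha)
    have h1 := hA.2 _ hE
    have h2 : A = A ⊔ CVA := Subgroup.eq_of_le_of_card_ge le_sup_left h1
    rw [h2]
    exact le_sup_right
  have hCAs : CVA ≤ As := by
    intro x hx
    refine ⟨hCA hx, Subgroup.mem_centralizer_iff.mpr ?_⟩
    intro w hw
    exact setLike_mul_comm (hWV hw) hx.1
  have hE : Cfsg.IsElementaryAbelian p (As ⊔ CVs) :=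
    Cfsg.Agent.S0606.elab_sup p As CVs hAsel hCVsel
      (fun a ha c hc => (Subgroup.mem_centralizer_iff.mp hc.2) a ha)
  have hEeq : As ⊔ CVs = W ⊔ As := by
    rw [hcv]
    apply le_antisymm
    · exact sup_le le_sup_right (sup_le le_sup_left (hCAs.trans le_sup_right))
    · exact sup_le (le_sup_of_le_right le_sup_left) le_sup_left
  have hcard : Nat.card A ≤ Nat.card (As ⊔ CVs : Subgroup G) := by
    have h1 := Cfsg.Agent.S0606.card_mul_le As CVs
    have h2 : As ⊓ CVs ≤ CVA := by
      intro x hx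
      refine ⟨hx.2.1, Subgroup.mem_centralizer_iff.mpr ?_⟩
      intro a ha
      exact setLike_mul_comm ha hx.1.1
    have h3 := Subgroup.card_le_of_le h2
    have hpos : 0 < Nat.card CVA := Nat.card_pos
    have h4 : Nat.card A * Nat.card CVA ≤ Nat.card (As ⊔ CVs : Subgroup G) * Nat.card CVA := by
      calc Nat.card A * Nat.card CVA = Nat.card As * Nat.card CVs := hprod
        _ ≤ Nat.card (As ⊔ CVs : Subgroup G) * Nat.card (As ⊓ CVs : Subgroup G) := h1
        _ ≤ Nat.card (As ⊔ CVs : Subgroup G) * Nat.card CVA := Nat.mul_le_mul_left _ h3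
    exact Nat.le_of_mul_le_mul_right h4 hpos
  rw [hEeq] at hE hcard
  -- A₀ centralizes W
  have hcent : W ⊔ As ≤ Subgroup.centralizer (W : Set G) := by
    apply sup_le
    · intro w hw
      rw [Subgroup.mem_centralizer_iff]
      intro w' hw'
      exact setLike_mul_comm (hWV hw') (hWV hw)
    · exact inf_le_right
  -- [V, A₀] ≤ W
  have hVA0 : ⁅V, W ⊔ As⁆ ≤ W := by
    let S : Subgroup G :=
      { carrier := {x | x ∈ Subgroup.normalizer (W : Set G) ∧ ∀ v ∈ V, ⁅v, x⁆ ∈ W}
        mul_mem' := by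
          rintro x y ⟨hx, hx'⟩ ⟨hy, hy'⟩
          refine ⟨Subgroup.mul_mem _ hx hy, fun v hv => ?_⟩
          have e : ⁅v, x * y⁆ = ⁅v, x⁆ * (x * ⁅v, y⁆ * x⁻¹) := by
            simp only [commutatorElement_def]; group
          rw [e]
          exact W.mul_mem (hx' v hv) (((Subgroup.mem_normalizer_iff.mp hx) _).1 (hy' v hv))
        one_mem' := ⟨Subgroup.one_mem _, fun v _ => by simp⟩
        inv_mem' := by
          rintro x ⟨hx, hx'⟩
          refine ⟨Subgroup.inv_mem _ hx, fun v hv => ?_⟩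
          have e : ⁅v, x⁻¹⁆ = x⁻¹ * (⁅v, x⁆)⁻¹ * x⁻¹⁻¹ := by
            simp only [commutatorElement_def]; group
          rw [e]
          exact ((Subgroup.mem_normalizer_iff.mp (Subgroup.inv_mem _ hx)) _).1
            (W.inv_mem (hx' v hv)) }
    have hS : W ⊔ As ≤ S := by
      apply sup_le
      · intro w hw
        refine ⟨Subgroup.le_normalizer hw, fun v hv => ?_⟩
        have : ⁅v, w⁆ = 1 := by
          rw [commutatorElement_eq_one_iff_mul_comm]
          exact setLike_mul_comm hv (hWV hw)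
        rw [this]
        exact W.one_mem
      · intro a ha
        refine ⟨?_, fun v hv => Subgroup.commutator_mem_commutator hv ha.1⟩
        rw [Subgroup.mem_normalizer_iff]
        intro w
        have hc := Subgroup.mem_centralizer_iff.mp ha.2
        constructor
        · intro hw
          rw [← hc w hw, mul_inv_cancel_right]
          exact hw
        · intro hw
          have h1 := hc _ hw
          have h2 : w = a * w * a⁻¹ := by
            calc w = a⁻¹ * ((a * w * a⁻¹) * a) := by group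
              _ = a⁻¹ * (a * (a * w * a⁻¹)) := by rw [h1]
              _ = a * w * a⁻¹ := by group
          rw [h2]
          exact hw
    rw [Subgroup.commutator_le]
    intro v hv x hx
    exact (hS hx).2 v hv
  refine ⟨⟨hE, fun B hB => (hA.2 B hB).trans hcard⟩, ?_, ?_⟩
  · rw [Subgroup.commutator_eq_bot_iff_le_centralizer]
    intro x hx
    have hxW : x ∈ W := hVA0 hx
    rw [Subgroup.mem_centralizer_iff]
    intro y hy
    exact ((Subgroup.mem_centralizer_iff.mp (hcent hy)) x hxW).symm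
  · intro hne hbot
    apply h599c hne
    exact le_bot_iff.mp (hbot ▸ Subgroup.commutator_mono le_rfl le_sup_right)

end Cfsg.Agent.S0607
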