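import Cfsg.Statements.S0610
import Mathlib
import Cfsg.Agent.Helper21.Offender

set_option autoImplicit false
set_option linter.style.haveILetI false
open Cfsg

namespace Cfsg.Agent.S0610

/-- In a faithful group generated by best offenders with a self-centralizing p'-core, every nontrivial best offender A has order exactly |V : C_V(A)|. -/
theorem result {G : Type*} [Group G] [Finite G] {p : ℕ} [Fact p.Prime] (V H : Subgroup G) (hV : Cfsg.IsElementaryAbelian p V) (hHV : H ≤ Subgroup.normalizer (V : Set G)) (hf : H ⊓ Subgroup.centralizer (V : Set G) = ⊥) (hS1 : Subgroup.centralizer (Cfsg.pPrimeCore p ↥H : Set ↥H) ≤ Cfsg.pPrimeCore p ↥H) (hS3 : H = ⨆ A : {A : Subgroup G // A ≤ H ∧ Cfsg.IsBestOffenderOn p V A}, (A : Subgroup G)) (hH1 : H ≠ ⊥) (A : Subgroup G) (hAH : A ≤ H) (hA : Cfsg.IsBestOffenderOn p V A) (hA1 : A ≠ ⊥) : Nat.card A * Nat.card ↥(V ⊓ Subgroup.centralizer (A : Set G)) = Nat.card V := by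
  have hp := (Fact.out : p.Prime)
  obtain ⟨K, hKH, hKc, hHK, hKf, hKA⟩ := Cfsg.Agent.Helper21.ppc_setup V H hf hS1
  have hVp : IsPGroup p V := Cfsg.Agent.Helper21.isPGroup_of_pow_p V hV.2
  obtain ⟨hAcomm, hApow⟩ := Cfsg.Agent.Helper21.bo_elem_ab V H A hf hAH hA
  have hApg : IsPGroup p A := Cfsg.Agent.Helper21.isPGroup_of_pow_p A hApow
  have h1 := Cfsg.Agent.Helper21.offender_bound V K hVp hKc (hKH.trans hHV) hKf (Nat.card A) A
    le_rfl hAcomm hApow (hAH.trans hHK) (hAH.trans hHV) (hKA A hAH hApg)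
  have h2 := hA.1 ⊥ bot_le
  rw [Subgroup.card_bot, one_mul, Cfsg.Agent.Helper21.inf_centralizer_bot] at h2
  omega

end Cfsg.Agent.S0610
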