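import Cfsg.Statements.S0611
import Mathlib
import Cfsg.Agent.Helper21.Offender

set_option autoImplicit false
set_option linter.style.haveILetI false
open Cfsg

namespace Cfsg.Agent.S0611

/-- Minimal nontrivially-acting best offenders in such a faithful group have order p, commutator [V, B] of order p and fixed points of index p. -/
theorem result {G : Type*} [Group G] [Finite G] {p : ℕ} [Fact p.Prime] (V H : Subgroup G) (hV : Cfsg.IsElementaryAbelian p V) (hHV : H ≤ Subgroup.normalizer (V : Set G)) (hf : H ⊓ Subgroup.centralizer (V : Set G) = ⊥) (hS1 : Subgroup.centralizer (Cfsg.pPrimeCore p ↥H : Set ↥H) ≤ Cfsg.pPrimeCore p ↥H) (hS3 : H = ⨆ A : {A : Subgroup G // A ≤ H ∧ Cfsg.IsBestOffenderOn p V A}, (A : Subgroup G)) (hH1 : H ≠ ⊥) (A : Subgroup G) (hAH : A ≤ H) (hA : Cfsg.IsBestOffenderOn p V A) (hAV : ⁅V, A⁆ ≠ ⊥) (hmin : ∀ B : Subgroup G, B ≤ A → Cfsg.IsBestOffenderOn p V B → ⁅V, B⁆ ≠ ⊥ → B = A) : Nat.card A = p ∧ Nat.card ↥(⁅V,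 A⁆) = p ∧ ((V ⊓ Subgroup.centralizer (A : Set G))).relIndex V = p := by
  classical
  have hp := (Fact.out : p.Prime)
  obtain ⟨K, hKH, hKc, hHK, hKf, hKA⟩ := Cfsg.Agent.Helper21.ppc_setup V H hf hS1
  have hVp : IsPGroup p V := Cfsg.Agent.Helper21.isPGroup_of_pow_p V hV.2
  obtain ⟨hAcomm, hApow⟩ := Cfsg.Agent.Helper21.bo_elem_ab V H A hf hAH hA
  have hApg : IsPGroup p A := Cfsg.Agent.Helper21.isPGroup_of_pow_p A hApow
  have hA1 : A ≠ ⊥ := by
    rintro rfl
    exact hAV (Subgroup.commutator_bot_right V)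
  have hAf := hKA A hAH hApg
  obtain ⟨B, hBA, a, haA, hBa, haB, hc1, hc2⟩ := Cfsg.Agent.Helper21.offender_step V K hVp hKc
    (hKH.trans hHV) hKf A hAcomm hApow (hAH.trans hHK) (hAH.trans hHV) hAf hA1
  have hbound : ∀ B' : Subgroup G, B' ≤ A →
      Nat.card B' * Nat.card ↥(V ⊓ Subgroup.centralizer (B' : Set G)) ≤ Nat.card V := by
    intro B' hB'
    exact Cfsg.Agent.Helper21.offender_bound V K hVp hKc (hKH.trans hHV) hKf (Nat.card B') B'
      le_rfl (fun x hx y hy => hAcomm x (hB' hx) y (hB' hy)) (fun x hx => hApow x (hB' hx))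
      (hB'.trans (hAH.trans hHK)) (hB'.trans (hAH.trans hHV))
      (le_bot_iff.mp ((inf_le_inf_right _ hB').trans (le_of_eq hAf)))
  have h2 := hA.1 ⊥ bot_le
  rw [Subgroup.card_bot, one_mul, Cfsg.Agent.Helper21.inf_centralizer_bot] at h2
  have hB := hbound B hBA
  have hch1 : Nat.card A * Nat.card ↥(V ⊓ Subgroup.centralizer (A : Set G))
      ≤ (p * Nat.card B) * Nat.card ↥(V ⊓ Subgroup.centralizer (A : Set G)) :=
    Nat.mul_le_mul_right _ hc1
  have hch2 : Nat.card B * (p * Nat.card ↥(V ⊓ Subgroup.centralizer (A : Set G)))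
      ≤ Nat.card B * Nat.card ↥(V ⊓ Subgroup.centralizer (B : Set G)) :=
    Nat.mul_le_mul_left _ hc2
  have hch3 : (p * Nat.card B) * Nat.card ↥(V ⊓ Subgroup.centralizer (A : Set G))
      = Nat.card B * (p * Nat.card ↥(V ⊓ Subgroup.centralizer (A : Set G))) := by ring
  have e1 : Nat.card B * Nat.card ↥(V ⊓ Subgroup.centralizer (B : Set G)) = Nat.card V := by
    omega
  have e2 : Nat.card A * Nat.card ↥(V ⊓ Subgroup.centralizer (A : Set G)) = Nat.card V := by
    omega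
  have hBbo : Cfsg.IsBestOffenderOn p V B :=
    ⟨fun B' hB' => by rw [e1]; exact hbound B' (hB'.trans hBA),
      (Subgroup.commutator_mono hBA hBA).trans hA.2.1, fun b hb => hA.2.2 b (hBA hb)⟩
  have hVB : ⁅V, B⁆ = ⊥ := by
    by_contra h
    exact haB ((hmin B hBA hBbo h) ▸ haA)
  have hB1 : B = ⊥ := by
    have h1 : V ≤ Subgroup.centralizer (B : Set G) :=
      Subgroup.commutator_eq_bot_iff_le_centralizer.mp hVB
    have h3 : B ≤ Subgroup.centralizer (V : Set G) := Subgroup.le_centralizer_iff.mp h1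
    exact le_bot_iff.mp ((le_inf (hBA.trans hAH) h3).trans (le_of_eq hf))
  subst hB1
  rw [Subgroup.card_bot, mul_one] at hc1
  have hAp : Nat.card A = p := by
    obtain ⟨k, hk⟩ := IsPGroup.iff_card.mp hApg
    have hk0 : k ≠ 0 := by
      rintro rfl
      rw [pow_zero] at hk
      exact hA1 (Subgroup.card_eq_one.mp hk)
    have : p ≤ p ^ k := Nat.le_self_pow hk0 p
    omega
  have hidx : (V ⊓ Subgroup.centralizer (A : Set G)).relIndex V = p := by
    have hmul := Subgroup.relIndex_mul_relIndex ⊥ (V ⊓ Subgroup.centralizer (A : Set G)) V bot_le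
      inf_le_left
    rw [Subgroup.relIndex_bot_left, Subgroup.relIndex_bot_left, ← e2, hAp, mul_comm p] at hmul
    exact Nat.eq_of_mul_eq_mul_left Nat.card_pos hmul
  refine ⟨hAp, ?_, hidx⟩
  have hAz : A = Subgroup.zpowers a := by rw [← hBa, bot_sup_eq]
  have hVcomm : ∀ u ∈ V, ∀ v ∈ V, u * v = v * u := by
    intro u hu v hv
    exact congrArg Subtype.val (hV.1.is_comm.comm ⟨u, hu⟩ ⟨v, hv⟩)
  have haV : ∀ v ∈ V, a * v * a⁻¹ ∈ V := fun v hv =>
    (Subgroup.mem_normalizer_iff.mp (hHV (hAH haA)) v).mp hv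
  obtain ⟨κ, hκ⟩ : ∃ κ : ↥V →* G, ∀ v : ↥V, κ v = (v : G) * (a * (v : G)⁻¹ * a⁻¹) :=
    ⟨MonoidHom.mk' (fun v => (v : G) * (a * (v : G)⁻¹ * a⁻¹)) (by
      rintro ⟨u, hu⟩ ⟨v, hv⟩
      show u * v * (a * (u * v)⁻¹ * a⁻¹) = u * (a * u⁻¹ * a⁻¹) * (v * (a * v⁻¹ * a⁻¹))
      have e1 := hVcomm v hv _ (haV _ (V.inv_mem hu))
      have e2 := hVcomm _ (haV _ (V.inv_mem hv)) _ (haV _ (V.inv_mem hu))
      calc u * v * (a * (u * v)⁻¹ * a⁻¹)
          = u * v * ((a * v⁻¹ * a⁻¹) * (a * u⁻¹ * a⁻¹)) := by group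
        _ = u * (v * (a * u⁻¹ * a⁻¹)) * (a * v⁻¹ * a⁻¹) := by rw [e2]; group
        _ = u * (a * u⁻¹ * a⁻¹) * (v * (a * v⁻¹ * a⁻¹)) := by rw [e1]; group), fun _ => rfl⟩
  have hκconj : ∀ w ∈ κ.range, a * w * a⁻¹ ∈ κ.range := by
    rintro _ ⟨v, rfl⟩
    refine ⟨⟨a * v * a⁻¹, haV v v.2⟩, ?_⟩
    rw [hκ, hκ]
    show a * ↑v * a⁻¹ * (a * (a * ↑v * a⁻¹)⁻¹ * a⁻¹) = a * (↑v * (a * (↑v)⁻¹ * a⁻¹)) * a⁻¹
    group
  have hcomm_eq : ⁅V, A⁆ = κ.range := by
    apply le_antisymm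
    · rw [Subgroup.commutator_le]
      intro v hv g hg
      rw [hAz] at hg
      rw [← mem_powers_iff_mem_zpowers] at hg
      obtain ⟨n, rfl⟩ := hg
      rw [commutatorElement_def]
      induction n with
      | zero => simpa using κ.range.one_mem
      | succ n ih =>
        have h1 : κ ⟨v, hv⟩ ∈ κ.range := ⟨_, rfl⟩
        rw [hκ] at h1
        have h2 := κ.range.mul_mem h1 (hκconj _ ih)
        have h3 : v * a ^ (n + 1) * v⁻¹ * (a ^ (n + 1))⁻¹
            = v * (a * v⁻¹ * a⁻¹) * (a * (v * a ^ n * v⁻¹ * (a ^ n)⁻¹) * a⁻¹) := by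
          rw [pow_succ']; group
        rw [h3]; exact h2
    · rintro _ ⟨v, rfl⟩
      have h1 := Subgroup.commutator_mem_commutator v.2 haA
      rw [commutatorElement_def] at h1
      rw [hκ]
      have h2 : (v : G) * (a * (v : G)⁻¹ * a⁻¹) = (v : G) * a * (v : G)⁻¹ * a⁻¹ := by group
      rw [h2]; exact h1
  have hker : κ.ker = (Subgroup.centralizer (A : Set G)).subgroupOf V := by
    ext v
    rw [MonoidHom.mem_ker, hκ, Subgroup.mem_subgroupOf, Subgroup.mem_centralizer_iff]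
    constructor
    · intro h g hg
      have h1 : (v : G) * a = a * (v : G) := by
        calc (v : G) * a = ((v : G) * (a * (v : G)⁻¹ * a⁻¹)) * (a * (v : G)) := by group
          _ = a * (v : G) := by rw [h, one_mul]
      have h2 : a ∈ Subgroup.centralizer ({(v : G)} : Set G) := by
        rw [Subgroup.mem_centralizer_singleton_iff]; exact h1.symm
      have h3 : g ∈ Subgroup.centralizer ({(v : G)} : Set G) := by
        have hg' : g ∈ Subgroup.zpowers a := by rw [← hAz]; exact hg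
        exact (Subgroup.zpowers_le.mpr h2) hg'
      rw [Subgroup.mem_centralizer_singleton_iff] at h3
      exact h3
    · intro h
      have h1 := h a haA
      calc (v : G) * (a * (v : G)⁻¹ * a⁻¹) = ((v : G) * a) * (v : G)⁻¹ * a⁻¹ := by group
        _ = 1 := by rw [← h1]; group
  have h1 : Nat.card ↥(⁅V, A⁆) = Nat.card κ.range := by rw [hcomm_eq]
  rw [h1, ← Subgroup.index_ker κ, hker]
  have h2 : ((Subgroup.centralizer (A : Set G)).subgroupOf V).index
      = (Subgroup.centralizer (A : Set G)).relIndex V := rfl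
  rw [h2, ← Subgroup.inf_relIndex_right, inf_comm]
  exact hidx

end Cfsg.Agent.S0611
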