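import Cfsg.Statements.S0612
import Mathlib
import Cfsg.Agent.Helper21.Offender2

set_option autoImplicit false
set_option linter.style.haveILetI false
open Cfsg

namespace Cfsg.Agent.S0612

/-- In such a faithful group every nontrivial best offender decomposes as a direct product of minimal nontrivially-acting best offenders. -/
theorem result {G : Type*} [Group G] [Finite G] {p : ℕ} [Fact p.Prime] (V H : Subgroup G) (hV : Cfsg.IsElementaryAbelian p V) (hHV : H ≤ Subgroup.normalizer (V : Set G)) (hf : H ⊓ Subgroup.centralizer (V : Set G) = ⊥) (hS1 : Subgroup.centralizer (Cfsg.pPrimeCore p ↥H : Set ↥H) ≤ Cfsg.pPrimeCore p ↥H) (hS3 : H = ⨆ A : {A : Subgroup G // A ≤ H ∧ Cfsg.IsBestOffenderOn p V A}, (A : Subgroup G)) (hH1 : H ≠ ⊥) (A : Subgroup G) (hAH : A ≤ H) (hA : Cfsg.IsBestOffenderOn p V A) (hA1 : A ≠ ⊥) : ∃ (k : ℕ) (B : Fin k → Subgroup G), (∀ i, B i ≤ A ∧ Cfsg.IsBestOffenderOn p V (B i) ∧ ⁅V, B i⁆ ≠ ⊥ ∧ ∀ C : Subgroup G, C ≤ B i → Cfsg.IsBestOffenderOn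 p V C → ⁅V, C⁆ ≠ ⊥ → C = B i) ∧ iSupIndep B ∧ ⨆ i, B i = A := by
  classical
  have hp := (Fact.out : p.Prime)
  obtain ⟨K, hKH, hKc, hHK, hKf, hKA⟩ := Cfsg.Agent.Helper21.ppc_setup V H hf hS1
  have hVp : IsPGroup p V := Cfsg.Agent.Helper21.isPGroup_of_pow_p V hV.2
  obtain ⟨hAcomm, hApow⟩ := Cfsg.Agent.Helper21.bo_elem_ab V H A hf hAH hA
  have hApg : IsPGroup p A := Cfsg.Agent.Helper21.isPGroup_of_pow_p A hApow
  have hAf := hKA A hAH hApg
  have hbound : ∀ B' : Subgroup G, B' ≤ A →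
      Nat.card B' * Nat.card ↥(V ⊓ Subgroup.centralizer (B' : Set G)) ≤ Nat.card V := by
    intro B' hB'
    exact Cfsg.Agent.Helper21.offender_bound V K hVp hKc (hKH.trans hHV) hKf (Nat.card B') B'
      le_rfl (fun x hx y hy => hAcomm x (hB' hx) y (hB' hy)) (fun x hx => hApow x (hB' hx))
      (hB'.trans (hAH.trans hHK)) (hB'.trans (hAH.trans hHV))
      (le_bot_iff.mp ((inf_le_inf_right _ hB').trans (le_of_eq hAf)))
  have h2 := hA.1 ⊥ bot_le
  rw [Subgroup.card_bot, one_mul, Cfsg.Agent.Helper21.inf_centralizer_bot] at h2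
  have h1 := hbound A le_rfl
  have hD : Nat.card A * Nat.card ↥(V ⊓ Subgroup.centralizer (A : Set G)) = Nat.card V := by
    omega
  obtain ⟨k, B, hB, hind, hsup⟩ := Cfsg.Agent.Helper21.offender_decomp V K hVp hKc
    (hKH.trans hHV) hKf (Nat.card A) A le_rfl hAcomm hApow (hAH.trans hHK) (hAH.trans hHV)
    hAf hD hA1
  refine ⟨k, B, ?_, ?_, hsup⟩
  · intro i
    obtain ⟨hBA, hBp, hBe⟩ := hB i
    have hBbo : Cfsg.IsBestOffenderOn p V (B i) :=
      ⟨fun B' hB' => by rw [hBe]; exact hbound B' (hB'.trans hBA),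
        (Subgroup.commutator_mono hBA hBA).trans hA.2.1, fun b hb => hA.2.2 b (hBA hb)⟩
    refine ⟨hBA, hBbo, ?_, ?_⟩
    · intro hVB
      have h1 : V ≤ Subgroup.centralizer (B i : Set G) :=
        Subgroup.commutator_eq_bot_iff_le_centralizer.mp hVB
      have h3 : B i ≤ Subgroup.centralizer (V : Set G) := Subgroup.le_centralizer_iff.mp h1
      have h4 : B i = ⊥ := le_bot_iff.mp ((le_inf (hBA.trans hAH) h3).trans (le_of_eq hf))
      rw [h4, Subgroup.card_bot] at hBp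
      exact hp.one_lt.ne hBp
    · intro C hC hCbo hVC
      have hC1 : C ≠ ⊥ := by
        rintro rfl
        exact hVC (Subgroup.commutator_bot_right V)
      have hdvd : Nat.card C ∣ p := hBp ▸ Subgroup.card_dvd_of_le hC
      have hCp : Nat.card C = p := by
        rcases (Nat.dvd_prime hp).mp hdvd with h | h
        · exact absurd (Subgroup.card_eq_one.mp h) hC1
        · exact h
      exact Subgroup.eq_of_le_of_card_ge hC (by rw [hCp, hBp])
  · rw [iSupIndep_def]
    intro i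
    obtain ⟨Hi, -, hj, h0⟩ := hind i
    rw [disjoint_iff]
    exact le_bot_iff.mp ((inf_le_inf_left _ (iSup₂_le hj)).trans (le_of_eq h0))

end Cfsg.Agent.S0612
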