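import Cfsg.Statements.S0622
import Cfsg.Agent.S0602
import Cfsg.Agent.S0605
import Mathlib

set_option autoImplicit false
open Cfsg

namespace Cfsg.Agent.S0622

universe u

theorem map_eq_of_map_le (F : ∀ (S : Type u) [Group S], Subgroup S)
    (h : ∀ (S S' : Type u) [Group S] [Group S'] (η : S ≃* S'), (F S).map η.toMonoidHom ≤ F S')
    (S S' : Type u) [Group S] [Group S'] (η : S ≃* S') : (F S).map η.toMonoidHom = F S' := by
  apply le_antisymm (h S S' η)
  have h2 := Subgroup.map_mono (f := η.toMonoidHom) (h S' S η.symm)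
  rw [Subgroup.map_map] at h2
  have e : η.toMonoidHom.comp η.symm.toMonoidHom = MonoidHom.id S' := by ext x; simp
  rw [e, Subgroup.map_id] at h2
  exact h2

theorem J_map_le (p : ℕ) (S S' : Type u) [Group S] [Group S'] (η : S ≃* S') :
    (Cfsg.thompsonSubgroup p S).map η.toMonoidHom ≤ Cfsg.thompsonSubgroup p S' := by
  rw [Subgroup.map_le_iff_le_comap]
  apply sSup_le
  intro A hA
  rw [← Subgroup.map_le_iff_le_comap]
  exact le_sSup (Cfsg.Agent.S0602.max_map p η A hA)

theorem J_map (p : ℕ) (S S' : Type u) [Group S] [Group S'] (η : S ≃* S') :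
    (Cfsg.thompsonSubgroup p S).map η.toMonoidHom = Cfsg.thompsonSubgroup p S' :=
  map_eq_of_map_le (fun S _ => Cfsg.thompsonSubgroup p S) (J_map_le p) S S' η

theorem OZJ_map_le (p : ℕ) (S S' : Type u) [Group S] [Group S'] (η : S ≃* S') :
    (Cfsg.omegaCenterThompson p S).map η.toMonoidHom ≤ Cfsg.omegaCenterThompson p S' := by
  unfold Cfsg.omegaCenterThompson Cfsg.omegaOne
  rw [Subgroup.map_le_iff_le_comap, Subgroup.closure_le]
  intro x hx
  apply Subgroup.subset_closure
  have hJ := J_map p S S' η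
  refine ⟨⟨?_, ?_⟩, ?_⟩
  · rw [← hJ]
    exact Subgroup.mem_map_of_mem _ hx.1.1
  · show η.toMonoidHom x ∈ Subgroup.centralizer (Cfsg.thompsonSubgroup p S' : Set S')
    rw [Subgroup.mem_centralizer_iff]
    intro y hy
    rw [SetLike.mem_coe, ← hJ] at hy
    obtain ⟨j, hj, rfl⟩ := hy
    have h1 := (Subgroup.mem_centralizer_iff.mp hx.1.2) j hj
    show η j * η x = η x * η j
    rw [← map_mul, ← map_mul, h1]
  · show (η x) ^ p = 1
    rw [← map_pow, hx.2, map_one]

theorem OZJ_map (p : ℕ) (S S' : Type u) [Group S] [Group S'] (η : S ≃* S') :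
    (Cfsg.omegaCenterThompson p S).map η.toMonoidHom = Cfsg.omegaCenterThompson p S' :=
  map_eq_of_map_le (fun S _ => Cfsg.omegaCenterThompson p S) (OZJ_map_le p) S S' η

theorem OZ_map_le (p : ℕ) (S S' : Type u) [Group S] [Group S'] (η : S ≃* S') :
    (Cfsg.omegaOne p (Subgroup.center S)).map η.toMonoidHom ≤
      Cfsg.omegaOne p (Subgroup.center S') := by
  unfold Cfsg.omegaOne
  rw [Subgroup.map_le_iff_le_comap, Subgroup.closure_le]
  intro x hx
  apply Subgroup.subset_closure
  refine ⟨?_, ?_⟩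
  · rw [Subgroup.mem_center_iff]
    intro g
    obtain ⟨g', rfl⟩ := η.surjective g
    have h1 := (Subgroup.mem_center_iff.mp hx.1) g'
    show η g' * η x = η x * η g'
    rw [← map_mul, ← map_mul, h1]
  · show (η x) ^ p = 1
    rw [← map_pow, hx.2, map_one]

theorem closure_normal_of_conj {H : Type*} [Group H] (T : Set H)
    (hT : ∀ y ∈ T, ∀ g : H, g * y * g⁻¹ ∈ T) : (Subgroup.closure T).Normal := by
  constructor
  intro n hn g
  induction hn using Subgroup.closure_induction with
  | mem y hy => exact Subgroup.subset_closure (hT y hy g)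
  | one => simp
  | mul x y _ _ ihx ihy =>
    have e : g * (x * y) * g⁻¹ = (g * x * g⁻¹) * (g * y * g⁻¹) := by group
    rw [e]
    exact Subgroup.mul_mem _ ihx ihy
  | inv x _ ih =>
    have e : g * x⁻¹ * g⁻¹ = (g * x * g⁻¹)⁻¹ := by group
    rw [e]
    exact Subgroup.inv_mem _ ih

theorem W_map_le (p : ℕ) (S S' : Type u) [Group S] [Group S'] (η : S ≃* S') :
    (Cfsg.stableNormalClosure p S).map η.toMonoidHom ≤ Cfsg.stableNormalClosure p S' := by
  unfold Cfsg.stableNormalClosure
  apply le_sInf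
  rintro W' ⟨hW'1, hW'2⟩
  rw [Subgroup.map_le_iff_le_comap]
  apply sInf_le
  refine ⟨?_, ?_⟩
  · rw [← Subgroup.map_le_iff_le_comap]
    exact (OZ_map_le p S S' η).trans hW'1
  · intro H _ τ hτ
    obtain ⟨hinj, hfin, ⟨P, hP⟩, hc, hJ, hst⟩ := hτ
    have hrange : (τ.comp η.symm.toMonoidHom).range = τ.range := by
      ext x
      constructor
      · rintro ⟨y, rfl⟩
        exact ⟨η.symm y, rfl⟩
      · rintro ⟨y, rfl⟩
        exact ⟨η y, by simp⟩
    have hτ' : Cfsg.IsStableEmbedding p (τ.comp η.symm.toMonoidHom) := by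
      refine ⟨hinj.comp η.symm.injective, hfin, ⟨P, by rw [hrange]; exact hP⟩, hc, ?_, ?_⟩
      · rw [← Subgroup.map_map, J_map p S' S η.symm]
        exact hJ
      · intro V hVn hV
        rw [← Subgroup.map_map, OZJ_map p S' S η.symm] at hV
        exact hst V hV
    have h := hW'2 H (τ.comp η.symm.toMonoidHom) hτ'
    have e : W'.map (τ.comp η.symm.toMonoidHom) = (W'.comap η.toMonoidHom).map τ := by
      rw [← Subgroup.map_map]
      congr 1
      exact Subgroup.map_equiv_eq_comap_symm' η.symm W'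
    rw [e] at h
    exact h

theorem W_map (p : ℕ) (S S' : Type u) [Group S] [Group S'] (η : S ≃* S') :
    (Cfsg.stableNormalClosure p S).map η.toMonoidHom = Cfsg.stableNormalClosure p S' :=
  map_eq_of_map_le (fun S _ => Cfsg.stableNormalClosure p S) (W_map_le p) S S' η

/-- Basic properties of the stable normal closure W(S) of Ω₁(Z(S)) in a finite p-group: characteristic, squeezed between Ω₁(Z(S)) and Ω₁(Z(J(S))), nontrivial for S ≠ 1, and transported by group isomorphisms. -/
theorem result {S : Type u} [Group S] [Finite S] {p : ℕ} [Fact p.Prime] (hS : IsPGroup p S) : (Cfsg.stableNormalClosure p S).Characteristic ∧ Cfsg.omegaOne p (Subgroup.center S) ≤ Cfsg.stableNormalClosure p S ∧ Cfsg.stableNormalClosure p S ≤ Cfsg.omegaCenterThompson p S ∧ (Nontrivial S → Cfsg.stableNormalClosure p S ≠ ⊥) ∧ ∀ (S' : Type u) [Group S'] (η : S ≃* S'), (Cfsg.stableNormalClosure p S).map η.toMonoidHom = Cfsg.stableNormalClosure p S' := by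
  have h2 : Cfsg.omegaOne p (Subgroup.center S) ≤ Cfsg.stableNormalClosure p S := by
    unfold Cfsg.stableNormalClosure
    apply le_sInf
    rintro W ⟨hW, -⟩
    exact hW
  refine ⟨?_, h2, ?_, ?_, fun S' _ η => W_map p S S' η⟩
  · rw [Subgroup.characteristic_iff_map_eq]
    intro φ
    exact W_map p S S φ
  · unfold Cfsg.stableNormalClosure
    apply sInf_le
    refine ⟨?_, ?_⟩
    · unfold Cfsg.omegaOne
      rw [Subgroup.closure_le]
      intro x hx
      have hxc : x ∈ Subgroup.centralizer (Cfsg.thompsonSubgroup p S : Set S) := by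
        rw [Subgroup.mem_centralizer_iff]
        intro h _
        exact (Subgroup.mem_center_iff.mp hx.1) h
      by_cases hx1 : x = 1
      · rw [hx1]
        exact Subgroup.one_mem _
      · have ho : orderOf x = p := orderOf_eq_prime hx.2 hx1
        have hxJ := Cfsg.Agent.S0605.result x hxc ho
        exact Subgroup.subset_closure ⟨⟨hxJ, hxc⟩, hx.2⟩
    · intro H _ τ hτ
      obtain ⟨hinj, hfin, -, -, hJ, -⟩ := hτ
      unfold Cfsg.omegaCenterThompson Cfsg.omegaOne
      rw [MonoidHom.map_closure]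
      apply closure_normal_of_conj
      rintro _ ⟨x, hx, rfl⟩ g
      have h1 : g * τ x * g⁻¹ ∈ (Cfsg.thompsonSubgroup p S).map τ :=
        hJ.conj_mem _ (Subgroup.mem_map_of_mem τ hx.1.1) g
      obtain ⟨x', hx', hx'eq⟩ := h1
      refine ⟨x', ⟨⟨hx', ?_⟩, ?_⟩, hx'eq⟩
      · show x' ∈ Subgroup.centralizer (Cfsg.thompsonSubgroup p S : Set S)
        rw [Subgroup.mem_centralizer_iff]
        intro j hj
        have h2 : g⁻¹ * τ j * g⁻¹⁻¹ ∈ (Cfsg.thompsonSubgroup p S).map τ :=
          hJ.conj_mem _ (Subgroup.mem_map_of_mem τ hj) g⁻¹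
        obtain ⟨j', hj', hj'eq⟩ := h2
        have h3 := (Subgroup.mem_centralizer_iff.mp hx.1.2) j' hj'
        apply hinj
        rw [map_mul, map_mul, hx'eq]
        have h4 : τ j = g * τ j' * g⁻¹ := by rw [hj'eq]; group
        rw [h4]
        have h5 : τ j' * τ x = τ x * τ j' := by rw [← map_mul, ← map_mul, h3]
        calc g * τ j' * g⁻¹ * (g * τ x * g⁻¹) = g * (τ j' * τ x) * g⁻¹ := by group
          _ = g * (τ x * τ j') * g⁻¹ := by rw [h5]
          _ = g * τ x * g⁻¹ * (g * τ j' * g⁻¹) := by group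
      · apply hinj
        rw [map_pow, hx'eq, conj_pow, ← map_pow, hx.2, map_one]
        simp
  · intro hnt hbot
    have hcn : Nontrivial (Subgroup.center S) := hS.center_nontrivial
    have hcp : IsPGroup p (Subgroup.center S) := hS.to_subgroup _
    have hdvd : p ∣ Nat.card (Subgroup.center S) := by
      rcases hcp.card_eq_or_dvd with h | h
      · exfalso
        have := Finite.one_lt_card (α := Subgroup.center S)
        omega
      · exact h
    obtain ⟨z, hz⟩ := exists_prime_orderOf_dvd_card' p hdvd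
    have hz1 : (z : S) ∈ Cfsg.omegaOne p (Subgroup.center S) := by
      apply Subgroup.subset_closure
      refine ⟨z.2, ?_⟩
      have : z ^ p = 1 := by rw [← hz]; exact pow_orderOf_eq_one z
      have h3 := congrArg Subtype.val this
      simpa using h3
    have hz2 := h2 hz1
    rw [hbot, Subgroup.mem_bot] at hz2
    have hz3 : z = 1 := Subtype.ext hz2
    rw [hz3, orderOf_one] at hz
    exact (Fact.out : p.Prime).one_lt.ne hz

end Cfsg.Agent.S0622
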