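import Cfsg.Statements.S0630
import Cfsg.Agent.Helper10.PCons
import Mathlib

set_option autoImplicit false
open Cfsg

universe u

namespace Cfsg.Agent.S0630

theorem layer_eq_bot_of_mulEquiv {X Y : Type*} [Group X] [Group Y] (e : X ≃* Y)
    (h : layer X = ⊥) : layer Y = ⊥ := by
  rw [eq_bot_iff]
  apply sSup_le
  intro L hL
  exfalso
  rcases Cfsg.Agent.Helper10.comp_map_of_surjective (e.symm : Y →* X) e.symm.surjective hL
    with h1 | h1
  · exact Cfsg.Agent.Helper10.comp_ne_bot hL
      ((Subgroup.map_eq_bot_iff_of_injective _ e.symm.injective).mp h1)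
  · have h2 : L.map (e.symm : Y →* X) ≤ layer X := le_sSup h1
    rw [h] at h2
    exact Cfsg.Agent.Helper10.comp_ne_bot h1 (le_bot_iff.mp h2)

/-- p-constraint passes to and from the quotient by the largest normal subgroup of order prime to p. -/
theorem result {G : Type*} [Group G] [Finite G] {p : ℕ} [Fact p.Prime] : Cfsg.IsPConstrained p G ↔ Cfsg.IsPConstrained p (G ⧸ Cfsg.pPrimeCore p G) := by
  rw [Cfsg.Agent.Helper10.pConstrained_iff, Cfsg.Agent.Helper10.pLayer_eq_bot_iff,
    Cfsg.Agent.Helper10.pConstrained_iff, Cfsg.Agent.Helper10.pLayer_eq_bot_iff]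
  have hb := Cfsg.Agent.Helper10.pPrimeCore_quotient p G
  exact ⟨layer_eq_bot_of_mulEquiv
      ((QuotientGroup.quotientMulEquivOfEq hb).trans QuotientGroup.quotientBot).symm,
    layer_eq_bot_of_mulEquiv
      ((QuotientGroup.quotientMulEquivOfEq hb).trans QuotientGroup.quotientBot)⟩

end Cfsg.Agent.S0630
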