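import Cfsg.Statements.S0642
import Cfsg.Agent.S0012
import Mathlib

set_option autoImplicit false
open Cfsg
open scoped commutatorElement

namespace Cfsg.Agent.S0642

/-- Among finite 2-groups the regular ones are exactly the abelian ones. -/
theorem result {G : Type*} [Group G] [Finite G] (hG : IsPGroup 2 G) : Cfsg.IsRegularPGroup 2 G ↔ ∀ a b : G, a * b = b * a := by
  constructor
  · rintro ⟨-, hreg⟩
    have hD2 : IsPGroup 2 (commutator G) := hG.to_subgroup _
    have hfr := (Cfsg.Agent.S0012.result 2 hD2).2
    have hpc : ∀ H : Subgroup G, Cfsg.powerClosure 2 1 ⁅H, H⁆ ≤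
        (frattini (commutator G)).map (commutator G).subtype := by
      intro H
      unfold Cfsg.powerClosure
      rw [Subgroup.closure_le]
      rintro y ⟨x, hx, rfl⟩
      have hxD : x ∈ commutator G := by
        rw [commutator_def]
        exact Subgroup.commutator_mono le_top le_top hx
      refine ⟨⟨x, hxD⟩ ^ 2, hfr ⟨x, hxD⟩, ?_⟩
      simp
    have hcomm : ∀ x y : G, ⁅x, y⁆ ∈ (frattini (commutator G)).map (commutator G).subtype := by
      intro x y
      obtain ⟨c, hc, hc'⟩ := hreg (x⁻¹ * y⁻¹ * x) x⁻¹ 1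
      have hc2 : c = ⁅x, y⁆ := by
        rw [pow_one, pow_two, pow_two, pow_two] at hc'
        rw [commutatorElement_def]
        have h3 : c = ((x⁻¹ * y⁻¹ * x) * (x⁻¹ * y⁻¹ * x) * (x⁻¹ * x⁻¹))⁻¹ *
            ((x⁻¹ * y⁻¹ * x) * x⁻¹ * ((x⁻¹ * y⁻¹ * x) * x⁻¹)) := by
          rw [hc']; group
        rw [h3]; group
      rw [← hc2]
      exact hpc _ hc
    have hDle : commutator G ≤ (frattini (commutator G)).map (commutator G).subtype := by
      rw [commutator_def, Subgroup.commutator_le]
      intro x _ y _
      exact hcomm x y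
    have htop : frattini (commutator G) = ⊤ := by
      rw [eq_top_iff]
      intro d _
      obtain ⟨z, hz, hzd⟩ := hDle d.2
      have : z = d := Subtype.ext hzd
      rw [← this]
      exact hz
    have hbot : (⊥ : Subgroup (commutator G)) = ⊤ := by
      apply frattini_nongenerating
      rw [htop, bot_sup_eq]
    intro a b
    have hab : ⁅a, b⁆ ∈ commutator G := by
      rw [commutator_def]
      exact Subgroup.commutator_mem_commutator (Subgroup.mem_top a) (Subgroup.mem_top b)
    have h1 : (⟨⁅a, b⁆, hab⟩ : commutator G) ∈ (⊥ : Subgroup (commutator G)) := by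
      rw [hbot]; exact Subgroup.mem_top _
    rw [Subgroup.mem_bot] at h1
    have h2 : ⁅a, b⁆ = 1 := congrArg Subtype.val h1
    exact commutatorElement_eq_one_iff_mul_comm.mp h2
  · intro hab
    refine ⟨hG, fun a b n => ⟨1, Subgroup.one_mem _, ?_⟩⟩
    rw [mul_one]
    exact (Commute.mul_pow (hab a b) _)

end Cfsg.Agent.S0642
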