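import Cfsg.Statements.S0645
import Cfsg.Agent.Helper1.CycIdx

set_option autoImplicit false
open Cfsg

namespace Cfsg.Agent.S0645


theorem one_add_pow_modEq (s j : ℕ) : (1 + s) ^ j ≡ 1 + j * s [MOD s * s] := by
  induction j with
  | zero => simp [Nat.ModEq]
  | succ j ih =>
    have h1 : (1 + s) ^ (j + 1) ≡ (1 + j * s) * (1 + s) [MOD s * s] := by
      rw [pow_succ]; exact ih.mul_right _
    have h2 : (1 + j * s) * (1 + s) = 1 + (j + 1) * s + s * s * j := by ring
    rw [h2] at h1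
    refine h1.trans ?_
    show (1 + (j + 1) * s + s * s * j) % (s * s) = (1 + (j + 1) * s) % (s * s)
    exact Nat.add_mul_mod_self_left _ _ _

/-- The number theory behind the presentation: an exponent `k` of multiplicative order `p`
modulo `p^(n-1)` has a power congruent to `1 + p^(n-2)`. -/
theorem nt (p : ℕ) [hp : Fact p.Prime] (hp2 : p ≠ 2) (n : ℕ) (hn : 3 ≤ n) (k : ℕ)
    (hk1 : k ≡ 1 [MOD p]) (hkp : k ^ p ≡ 1 [MOD p ^ (n - 1)])
    (hk : ¬ k ≡ 1 [MOD p ^ (n - 1)]) :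
    ∃ j, ¬ p ∣ j ∧ k ^ j ≡ 1 + p ^ (n - 2) [MOD p ^ (n - 1)] := by
  have hpp := hp.out
  have hodd : Odd p := hpp.odd_of_ne_two hp2
  have hk0 : k ≠ 0 := by
    rintro rfl
    have h1 := (Nat.modEq_iff_dvd' (Nat.zero_le 1)).mp hk1
    exact hpp.one_lt.ne' (Nat.dvd_one.mp (by simpa using h1))
  have hk1' : k ≠ 1 := by rintro rfl; exact hk rfl
  have hkgt : 1 < k := by omega
  have hdvd1 : p ∣ k - 1 := (Nat.modEq_iff_dvd' hkgt.le).mp hk1.symm
  have hpk : ¬ p ∣ k := by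
    intro h
    have h1 : p ∣ k - (k - 1) := Nat.dvd_sub h hdvd1
    rw [show k - (k - 1) = 1 by omega] at h1
    exact hpp.one_lt.ne' (Nat.dvd_one.mp h1)
  have hlte := padicValNat.pow_sub_pow hodd hkgt hdvd1 hpk hpp.ne_zero
  rw [one_pow, padicValNat_self] at hlte
  have hdvd2 : p ^ (n - 1) ∣ k ^ p - 1 :=
    (Nat.modEq_iff_dvd' (Nat.one_le_pow _ _ (by omega))).mp hkp.symm
  have hne : k ^ p - 1 ≠ 0 := by
    have h1 : 1 < k ^ p := Nat.one_lt_pow hpp.ne_zero hkgt
    omega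
  have h3 := (padicValNat_dvd_iff_le hne).mp hdvd2
  have h4 : n - 2 ≤ padicValNat p (k - 1) := by omega
  have hdvd3 : p ^ (n - 2) ∣ k - 1 := (padicValNat_dvd_iff_le (by omega)).mpr h4
  obtain ⟨t, ht⟩ := hdvd3
  have e2 : p ^ (n - 1) = p ^ (n - 2) * p := by rw [← pow_succ]; congr 1; omega
  have hpt : ¬ p ∣ t := by
    rintro ⟨u, rfl⟩
    apply hk
    apply Nat.ModEq.symm
    apply (Nat.modEq_iff_dvd' hkgt.le).mpr
    rw [ht, e2]
    exact ⟨u, by ring⟩
  obtain ⟨j, -, hj⟩ := Nat.exists_mul_mod_eq_one_of_coprime (k := p) (n := t)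
    ((Nat.Prime.coprime_iff_not_dvd hpp).mpr hpt).symm hpp.one_lt
  refine ⟨j, ?_, ?_⟩
  · intro hd
    have h5 : t * j % p = 0 := Nat.mod_eq_zero_of_dvd (Dvd.dvd.mul_left hd t)
    omega
  · obtain ⟨s, hs⟩ : ∃ s, s = p ^ (n - 2) * t := ⟨_, rfl⟩
    have hks : k = 1 + s := by omega
    rw [hks]
    have h5 := one_add_pow_modEq s j
    have h6 : p ^ (n - 1) ∣ s * s := by
      have h7 : p ^ (n - 1) ∣ p ^ (n - 2) * p ^ (n - 2) := by
        rw [← pow_add]; exact pow_dvd_pow p (by omega)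
      exact h7.trans ⟨t * t, by rw [hs]; ring⟩
    have h7 := Nat.ModEq.of_dvd h6 h5
    refine h7.trans ?_
    obtain ⟨q, h8⟩ : ∃ q, t * j = p * q + 1 := by
      refine ⟨t * j / p, ?_⟩
      have h9 := Nat.div_add_mod (t * j) p
      omega
    have h9 : 1 + j * s = 1 + p ^ (n - 2) + p ^ (n - 1) * q := by
      have e : j * s = p ^ (n - 2) * (t * j) := by rw [hs]; ring
      rw [e, h8, e2]; ring
    rw [h9]
    show (1 + p ^ (n - 2) + p ^ (n - 1) * q) % (p ^ (n - 1)) =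
      (1 + p ^ (n - 2)) % (p ^ (n - 1))
    exact Nat.add_mul_mod_self_left _ _ _

/-- Classification of p-groups with a cyclic maximal subgroup, odd p: a non-abelian one of order p^n has generators a of order p^(n-1) and b of order p, b outside the cyclic subgroup generated by a, with b a b⁻¹ = a^(1 + p^(n-2)). -/
theorem result {G : Type*} [Group G] [Finite G] {p : ℕ} [Fact p.Prime] (hp : p ≠ 2) (n : ℕ) (hn : 3 ≤ n) (hG : Nat.card G = p ^ n) (C : Subgroup G) (hC : IsCyclic C) (hCi : C.index = p) (hna : ∃ x y : G, x * y ≠ y * x) : ∃ a b : G, orderOf a = p ^ (n - 1) ∧ orderOf b = p ∧ b ∉ Subgroup.zpowers a ∧ b * a * b⁻¹ = a ^ (1 + p ^ (n - 2)) := by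
  have hp2 : p ≠ 2 := hp
  have hp := (Fact.out : p.Prime)
  have hR : IsPGroup p G := IsPGroup.of_card hG
  have hnc : ¬ IsCyclic G := by
    intro hc
    obtain ⟨x, y, hxy⟩ := hna
    obtain ⟨g, hg⟩ := hc.exists_generator
    obtain ⟨i, rfl⟩ := hg x
    obtain ⟨j, rfl⟩ := hg y
    exact hxy (Commute.zpow_zpow_self g i j).eq
  obtain ⟨hΩc, hΩp, hΩcard⟩ := Helper1.omega_cyclic_index hp2 hR hnc C hC hCi
  have hCn : C.Normal := by
    apply Subgroup.normal_of_index_eq_minFac_card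
    rw [hG, Nat.pow_minFac (by omega), Nat.Prime.minFac_eq hp]
    exact hCi
  obtain ⟨g, hg⟩ := hC.exists_generator
  obtain ⟨a₀, ha₀⟩ : ∃ a₀ : G, a₀ = (g : G) := ⟨_, rfl⟩
  have ha₀C : a₀ ∈ C := by rw [ha₀]; exact g.2
  have e2 : p ^ (n - 1) = p ^ (n - 2) * p := by rw [← pow_succ]; congr 1; omega
  have hCcard : Nat.card C = p ^ (n - 1) := by
    have h1 := C.card_mul_index
    rw [hCi, hG] at h1
    have h2 : p ^ n = p ^ (n - 1) * p := by rw [← pow_succ]; congr 1; omega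
    rw [h2] at h1
    exact Nat.eq_of_mul_eq_mul_right hp.pos h1
  have hord : orderOf a₀ = p ^ (n - 1) := by
    rw [ha₀, Subgroup.orderOf_coe, orderOf_eq_card_of_forall_mem_zpowers hg, hCcard]
  have hCpow : ∀ c ∈ C, ∃ i : ℕ, c = a₀ ^ i := by
    intro c hc
    have h1 : (⟨c, hc⟩ : ↥C) ∈ Submonoid.powers g := by
      rw [mem_powers_iff_mem_zpowers]; exact hg _
    obtain ⟨i, hi⟩ := h1
    refine ⟨i, ?_⟩
    rw [ha₀]
    have h2 := congrArg Subtype.val hi
    simpa only [Subgroup.coe_pow] using h2.symm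
  obtain ⟨z₀, hz₀⟩ : ∃ z₀ : G, z₀ = a₀ ^ (p ^ (n - 2)) := ⟨_, rfl⟩
  have hz₀ord : orderOf z₀ = p := by
    rw [hz₀, orderOf_pow_of_dvd (pow_pos hp.pos _).ne' (by rw [hord]; exact pow_dvd_pow p (by omega)),
      hord, e2, Nat.mul_div_cancel_left _ (pow_pos hp.pos _)]
  obtain ⟨Ω, hΩ⟩ : ∃ Ω : Subgroup G, Ω = Subgroup.closure {x : G | x ^ p = 1} := ⟨_, rfl⟩
  rw [← hΩ] at hΩc hΩp hΩcard
  have hnle : ¬ Ω ≤ Subgroup.zpowers z₀ := by
    intro hle
    have h1 := Subgroup.card_le_of_le hle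
    rw [hΩcard, Nat.card_zpowers, hz₀ord] at h1
    have h2 : p < p ^ 2 := by nlinarith [hp.one_lt]
    omega
  obtain ⟨b₀, hb₀Ω, hb₀Z⟩ := SetLike.not_le_iff_exists.mp hnle
  have hb₀p : b₀ ^ p = 1 := hΩp b₀ hb₀Ω
  have hb₀C : b₀ ∉ C := by
    intro hc
    obtain ⟨i, hi⟩ := hCpow b₀ hc
    apply hb₀Z
    have h1 : a₀ ^ (i * p) = 1 := by rw [pow_mul, ← hi, hb₀p]
    have h2 : p ^ (n - 1) ∣ i * p := by rw [← hord]; exact orderOf_dvd_of_pow_eq_one h1
    have h3 : p ^ (n - 2) ∣ i := by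
      rw [e2] at h2
      exact Nat.dvd_of_mul_dvd_mul_right hp.pos h2
    obtain ⟨m, hm⟩ := h3
    rw [hi, hm, pow_mul, ← hz₀]
    exact Subgroup.pow_mem _ (Subgroup.mem_zpowers z₀) m
  have hb₀ord : orderOf b₀ = p := by
    apply orderOf_eq_prime hb₀p
    intro e; apply hb₀C; rw [e]; exact C.one_mem
  obtain ⟨k, hk⟩ := Helper1.conj_pow_of_cyclic C hCn hC b₀
  have hka : b₀ * a₀ * b₀⁻¹ = a₀ ^ k := hk a₀ ha₀C
  have ha₀1 : a₀ ≠ 1 := by
    intro e
    rw [e, orderOf_one] at hord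
    have h1 : 1 < p ^ (n - 1) := Nat.one_lt_pow (by omega) hp.one_lt
    omega
  have hkp : a₀ ^ (k ^ p) = a₀ := by
    have h1 := Helper1.conj_pow_iter b₀ a₀ k hka p
    rw [hb₀p, one_mul, inv_one, mul_one] at h1
    exact h1.symm
  have hk1 : k ≡ 1 [MOD p] := Helper1.modEq_one_of_pow hR a₀ ha₀1 k hkp
  have hkp' : k ^ p ≡ 1 [MOD p ^ (n - 1)] := by
    rw [← hord, ← pow_eq_pow_iff_modEq, hkp, pow_one]
  have hkne : ¬ k ≡ 1 [MOD p ^ (n - 1)] := by
    intro hmod
    rw [← hord, ← pow_eq_pow_iff_modEq, pow_one] at hmod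
    rw [hmod] at hka
    have hcomm : b₀ * a₀ = a₀ * b₀ := by
      calc b₀ * a₀ = (b₀ * a₀ * b₀⁻¹) * b₀ := by group
        _ = a₀ * b₀ := by rw [hka]
    have htop : C ⊔ Subgroup.zpowers b₀ = ⊤ := by
      have hlt : C < C ⊔ Subgroup.zpowers b₀ := by
        refine lt_of_le_of_ne le_sup_left ?_
        intro e
        apply hb₀C
        rw [e]
        exact (le_sup_right : Subgroup.zpowers b₀ ≤ C ⊔ Subgroup.zpowers b₀)
          (Subgroup.mem_zpowers b₀)
      have h1 := Subgroup.relIndex_mul_index (le_of_lt hlt)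
      rw [hCi] at h1
      have h2 : (C ⊔ Subgroup.zpowers b₀).index ∣ p := Dvd.intro_left _ h1
      rcases (Nat.dvd_prime hp).mp h2 with h3 | h3
      · exact Subgroup.index_eq_one.mp h3
      · exfalso
        rw [h3] at h1
        have h4 : C.relIndex (C ⊔ Subgroup.zpowers b₀) = 1 :=
          Nat.eq_of_mul_eq_mul_right hp.pos (by rw [one_mul]; exact h1)
        exact (not_le_of_gt hlt) (Subgroup.relIndex_eq_one.mp h4)
    obtain ⟨x, y, hxy⟩ := hna
    apply hxy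
    have hb₀cen : b₀ ∈ Subgroup.center G := by
      rw [Subgroup.mem_center_iff]
      intro g
      have hle : C ⊔ Subgroup.zpowers b₀ ≤ Subgroup.centralizer ({b₀} : Set G) := by
        apply sup_le
        · intro c hc
          obtain ⟨i, rfl⟩ := hCpow c hc
          rw [Subgroup.mem_centralizer_singleton_iff]
          exact (Commute.pow_left (show Commute a₀ b₀ from hcomm.symm) i).eq
        · rw [Subgroup.zpowers_le]; exact Subgroup.mem_centralizer_singleton_iff.mpr rfl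
      have hgc : g ∈ Subgroup.centralizer ({b₀} : Set G) :=
        hle (by rw [htop]; exact Subgroup.mem_top g)
      exact Subgroup.mem_centralizer_singleton_iff.mp hgc
    have ha₀cen : a₀ ∈ Subgroup.center G := by
      rw [Subgroup.mem_center_iff]
      intro g
      have hle : C ⊔ Subgroup.zpowers b₀ ≤ Subgroup.centralizer ({a₀} : Set G) := by
        apply sup_le
        · intro c hc
          obtain ⟨i, rfl⟩ := hCpow c hc
          rw [Subgroup.mem_centralizer_singleton_iff]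
          exact (Commute.pow_left (Commute.refl a₀) i).eq
        · rw [Subgroup.zpowers_le]; exact Subgroup.mem_centralizer_singleton_iff.mpr hcomm
      have hgc : g ∈ Subgroup.centralizer ({a₀} : Set G) :=
        hle (by rw [htop]; exact Subgroup.mem_top g)
      exact Subgroup.mem_centralizer_singleton_iff.mp hgc
    have hle : C ⊔ Subgroup.zpowers b₀ ≤ Subgroup.center G := by
      apply sup_le
      · intro c hc
        obtain ⟨i, rfl⟩ := hCpow c hc
        exact Subgroup.pow_mem _ ha₀cen i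
      · rw [Subgroup.zpowers_le]; exact hb₀cen
    have hx : x ∈ Subgroup.center G := hle (by rw [htop]; exact Subgroup.mem_top x)
    exact (Subgroup.mem_center_iff.mp hx y).symm
  obtain ⟨j, hpj, hj⟩ := nt p hp2 n hn k hk1 hkp' hkne
  have hcopj : Nat.Coprime p j := (Nat.Prime.coprime_iff_not_dvd hp).mpr hpj
  refine ⟨a₀, b₀ ^ j, hord, ?_, ?_, ?_⟩
  · rw [orderOf_pow, hb₀ord, hcopj, Nat.div_one]
  · intro hmem
    apply hb₀C
    have hle : Subgroup.zpowers a₀ ≤ C := by rw [Subgroup.zpowers_le]; exact ha₀C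
    have h1 : b₀ ^ j ∈ C := hle hmem
    obtain ⟨j', -, hj'⟩ := Nat.exists_mul_mod_eq_one_of_coprime (k := p) (n := j) hcopj.symm
      hp.one_lt
    have h2 : (b₀ ^ j) ^ j' = b₀ := by
      rw [← pow_mul]
      have h3 : b₀ ^ (j * j') = b₀ ^ (j * j' % p) := by
        rw [← hb₀ord]; exact (pow_mod_orderOf b₀ _).symm
      rw [h3, hj', pow_one]
    rw [← h2]; exact C.pow_mem h1 j'
  · have h1 := Helper1.conj_pow_iter b₀ a₀ k hka j
    rw [h1, pow_eq_pow_iff_modEq, hord]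
    exact hj

end Cfsg.Agent.S0645
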