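import Cfsg.Statements.S0660
import Mathlib

set_option autoImplicit false
open Cfsg
open scoped IsMulCommutative

namespace Cfsg.Agent.S0660

theorem mem_sup_comm {M : Type*} [Group M] [IsMulCommutative M] {s t : Subgroup M} {x : M} :
    x ∈ s ⊔ t ↔ ∃ y ∈ s, ∃ z ∈ t, y * z = x :=
  Subgroup.mem_sup

theorem proj_exists {M : Type*} [Group M] [IsMulCommutative M] (U W : Subgroup M)
    (hinf : U ⊓ W = ⊥) (hsup : U ⊔ W = ⊤) :
    ∃ π : M →* M, (∀ m, π m ∈ U) ∧ ∀ u ∈ U, π u = u := by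
  let φ : U × W →* M := U.subtype.coprod W.subtype
  have hφ : ∀ x : U × W, φ x = (x.1 : M) * (x.2 : M) := fun x => rfl
  have hinj : Function.Injective φ := by
    rw [injective_iff_map_eq_one]
    rintro ⟨u, w⟩ h
    rw [hφ] at h
    have h1 : (u : M) = (w : M)⁻¹ := eq_inv_of_mul_eq_one_left h
    have h2 : (u : M) ∈ U ⊓ W := ⟨u.2, by rw [h1]; exact W.inv_mem w.2⟩
    rw [hinf, Subgroup.mem_bot] at h2
    have h3 : (w : M) = 1 := by rw [h2, one_mul] at h; exact h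
    exact Prod.ext (Subtype.ext h2) (Subtype.ext h3)
  have hsurj : Function.Surjective φ := by
    intro m
    have hm : m ∈ U ⊔ W := by rw [hsup]; trivial
    obtain ⟨u, hu, w, hw, rfl⟩ := mem_sup_comm.mp hm
    exact ⟨(⟨u, hu⟩, ⟨w, hw⟩), rfl⟩
  let e : U × W ≃* M := MulEquiv.ofBijective φ ⟨hinj, hsurj⟩
  refine ⟨U.subtype.comp ((MonoidHom.fst U W).comp e.symm.toMonoidHom), ?_, ?_⟩
  · intro m
    exact (e.symm m).1.2
  · intro u hu
    have h1 : e.symm u = (⟨u, hu⟩, 1) := by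
      rw [MulEquiv.symm_apply_eq]
      show u = φ (⟨u, hu⟩, 1)
      rw [hφ]
      simp
    show ((e.symm u).1 : M) = u
    rw [h1]

theorem avg {M : Type*} [Group M] [IsMulCommutative M] [Finite M] {A : Type*} [Group A] [Finite A]
    (cj : A → (M →* M)) (hmul : ∀ a b, cj (a * b) = (cj a).comp (cj b))
    (hone : cj 1 = MonoidHom.id M)
    (U : Subgroup M) (hU : ∀ a, ∀ u ∈ U, cj a u ∈ U)
    (π : M →* M) (hπU : ∀ m, π m ∈ U) (hπ : ∀ u ∈ U, π u = u)
    (hcop : (Nat.card A).Coprime (Nat.card M)) :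
    ∃ K : Subgroup M, (∀ a, ∀ k ∈ K, cj a k ∈ K) ∧ U ⊓ K = ⊥ ∧ U ⊔ K = ⊤ := by
  classical
  have : Fintype A := Fintype.ofFinite A
  let θ : M →* M := ∏ a : A, (cj a).comp (π.comp (cj a⁻¹))
  have hθ : ∀ m, θ m = ∏ a : A, cj a (π (cj a⁻¹ m)) := by
    intro m
    simp [θ]
  have hinv : ∀ a m, cj a (cj a⁻¹ m) = m := by
    intro a m
    have h := hmul a a⁻¹
    rw [mul_inv_cancel, hone] at h
    exact (DFunLike.congr_fun h m).symm
  have hθU : ∀ m, θ m ∈ U := by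
    intro m
    rw [hθ]
    exact Subgroup.prod_mem _ (fun a _ => hU a _ (hπU _))
  have hθu : ∀ u ∈ U, θ u = u ^ Nat.card A := by
    intro u hu
    rw [hθ]
    have h1 : ∀ a : A, cj a (π (cj a⁻¹ u)) = u := by
      intro a
      rw [hπ _ (hU a⁻¹ u hu), hinv]
    simp only [h1, Finset.prod_const, Finset.card_univ, Nat.card_eq_fintype_card]
  have hθeq : ∀ b m, θ (cj b m) = cj b (θ m) := by
    intro b m
    rw [hθ, hθ, map_prod]
    rw [← Equiv.prod_comp (Equiv.mulLeft b)]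
    apply Finset.prod_congr rfl
    intro a _
    simp only [Equiv.coe_mulLeft]
    have h1 : cj (b * a)⁻¹ (cj b m) = cj a⁻¹ m := by
      rw [mul_inv_rev, hmul]
      simp only [MonoidHom.comp_apply]
      have h2 := hinv b⁻¹ m
      rw [inv_inv] at h2
      rw [h2]
    rw [h1, hmul]
    rfl
  refine ⟨θ.ker, ?_, ?_, ?_⟩
  · intro a k hk
    rw [MonoidHom.mem_ker] at hk ⊢
    rw [hθeq, hk, map_one]
  · rw [eq_bot_iff]
    rintro x ⟨hxU, hxK⟩
    have hxK' : θ x = 1 := hxK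
    rw [hθu x hxU] at hxK'
    rw [Subgroup.mem_bot]
    have h1 : orderOf x ∣ Nat.card A := orderOf_dvd_of_pow_eq_one hxK'
    have h2 : orderOf x ∣ Nat.card M := orderOf_dvd_natCard x
    have h3 : orderOf x ∣ 1 := by
      have h4 := Nat.dvd_gcd h1 h2
      rwa [Nat.Coprime.gcd_eq_one hcop] at h4
    exact orderOf_eq_one_iff.mp (Nat.dvd_one.mp h3)
  · rw [eq_top_iff]
    intro m _
    have hcopU : (Nat.card U).Coprime (Nat.card A) :=
      (Nat.Coprime.coprime_dvd_right (Subgroup.card_subgroup_dvd_card U) hcop).symm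
    obtain ⟨u, hu⟩ := (powCoprime hcopU).surjective ⟨θ m, hθU m⟩
    have hu' : (u : M) ^ Nat.card A = θ m := congrArg Subtype.val hu
    have hk : m * (u : M)⁻¹ ∈ θ.ker := by
      rw [MonoidHom.mem_ker, map_mul, map_inv, hθu _ u.2, hu', mul_inv_cancel]
    have hm : m = (u : M) * (m * (u : M)⁻¹) := by
      rw [mul_comm' (u : M), inv_mul_cancel_right]
    rw [hm]
    exact Subgroup.mul_mem_sup u.2 hk

/-- Under a coprime action on an abelian group, an invariant subgroup that is complemented admits an invariant complement. -/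
theorem result {G : Type*} [Group G] [Finite G] (V A U : Subgroup G) (hVab : IsMulCommutative V) (hAV : A ≤ Subgroup.normalizer (V : Set G)) (hcop : (Nat.card A).Coprime (Nat.card V)) (hUV : U ≤ V) (hAU : A ≤ Subgroup.normalizer (U : Set G)) (W : Subgroup G) (hWV : W ≤ V) (hUW : U ⊓ W = ⊥) (hUWV : U ⊔ W = V) : ∃ W' : Subgroup G, W' ≤ V ∧ A ≤ Subgroup.normalizer (W' : Set G) ∧ U ⊓ W' = ⊥ ∧ U ⊔ W' = V := by
  have hAV' : ∀ a : A, ∀ v : V, (a : G) * v * (a : G)⁻¹ ∈ V :=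
    fun a v => ((Subgroup.mem_normalizer_iff.mp (hAV a.2)) v).1 v.2
  let cj : A → (V →* V) := fun a =>
    { toFun := fun v => ⟨(a : G) * v * (a : G)⁻¹, hAV' a v⟩
      map_one' := by apply Subtype.ext; simp
      map_mul' := by intro x y; apply Subtype.ext; simp [mul_assoc] }
  have hcj : ∀ (a : A) (v : V), ((cj a v : V) : G) = (a : G) * v * (a : G)⁻¹ := fun a v => rfl
  have hmul : ∀ a b, cj (a * b) = (cj a).comp (cj b) := by
    intro a b
    ext v
    rw [MonoidHom.comp_apply, hcj, hcj, hcj]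
    simp [mul_assoc]
  have hone : cj 1 = MonoidHom.id V := by
    ext v
    rw [hcj]
    simp
  have hU' : ∀ a, ∀ u ∈ U.subgroupOf V, cj a u ∈ U.subgroupOf V := by
    intro a u hu
    rw [Subgroup.mem_subgroupOf] at hu ⊢
    exact ((Subgroup.mem_normalizer_iff.mp (hAU a.2)) _).1 hu
  have hinf : U.subgroupOf V ⊓ W.subgroupOf V = ⊥ := by
    rw [eq_bot_iff]
    rintro x ⟨h1, h2⟩
    rw [Subgroup.mem_bot]
    apply Subtype.ext
    have h3 : (x : G) ∈ U ⊓ W := ⟨h1, h2⟩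
    rw [hUW] at h3
    exact h3
  have hsup : U.subgroupOf V ⊔ W.subgroupOf V = ⊤ := by
    rw [← Subgroup.subgroupOf_sup hUV hWV, hUWV, Subgroup.subgroupOf_self]
  obtain ⟨π, hπU, hπ⟩ := proj_exists (U.subgroupOf V) (W.subgroupOf V) hinf hsup
  obtain ⟨K, hK1, hK2, hK3⟩ := avg cj hmul hone (U.subgroupOf V) hU' π hπU hπ hcop
  refine ⟨K.map V.subtype, Subgroup.map_subtype_le K, ?_, ?_, ?_⟩
  · intro a ha
    rw [Subgroup.mem_normalizer_iff]
    intro h
    constructor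
    · rintro ⟨k, hk, rfl⟩
      exact ⟨cj ⟨a, ha⟩ k, hK1 ⟨a, ha⟩ k hk, rfl⟩
    · rintro ⟨k, hk, hkeq⟩
      refine ⟨cj (⟨a, ha⟩ : A)⁻¹ k, hK1 _ k hk, ?_⟩
      show ((cj (⟨a, ha⟩ : A)⁻¹ k : V) : G) = h
      rw [hcj]
      have hk' : (k : G) = a * h * a⁻¹ := hkeq
      rw [hk']
      simp [mul_assoc]
  · rw [eq_bot_iff]
    rintro x ⟨hxU, k, hk, rfl⟩
    have h1 : k ∈ U.subgroupOf V ⊓ K := ⟨hxU, hk⟩
    rw [hK2, Subgroup.mem_bot] at h1
    rw [h1]
    simp
  · apply le_antisymm (sup_le hUV (Subgroup.map_subtype_le K))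
    intro x hx
    have h1 : (⟨x, hx⟩ : V) ∈ U.subgroupOf V ⊔ K := by rw [hK3]; trivial
    obtain ⟨u, hu, k, hk, huk⟩ := mem_sup_comm.mp h1
    have h2 : x = (u : G) * (k : G) := by
      have := congrArg Subtype.val huk
      exact this.symm
    rw [h2]
    exact Subgroup.mul_mem_sup hu (Subgroup.mem_map_of_mem V.subtype hk)

end Cfsg.Agent.S0660
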