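import Cfsg.Statements.S0666
import Cfsg.Agent.Lead.FrobAvg

set_option autoImplicit false
set_option linter.style.haveILetI false
open Cfsg
open scoped Pointwise

namespace Cfsg.Agent.S0666

/-- A Frobenius group acting on a nontrivial abelian group of order prime to that of its kernel, with the kernel acting without nontrivial fixed points, has a complement with a nontrivial fixed point. -/
theorem result {G : Type*} [Group G] [Finite G] (V F : Subgroup G) (hVab : IsMulCommutative V) (hV1 : V ≠ ⊥) (hFV : F ≤ Subgroup.normalizer (V : Set G)) (H : Subgroup ↥F) (hH : Cfsg.IsFrobeniusComplement H) (hcop : (Nat.card V).Coprime (Nat.card (Cfsg.frobeniusKernel H))) (hCK : V ⊓ Subgroup.centralizer (Subtype.val '' Cfsg.frobeniusKernel H : Set G) = ⊥) : V ⊓ Subgroup.centralizer ((H.map F.subtype : Subgroup G) : Set G) ≠ ⊥ := by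
  intro hCH
  obtain ⟨N, hNset, hNn, hNc⟩ := Cfsg.Agent.S0035.result H hH
  haveI := hNn
  letI : CommGroup V :=
    { (inferInstance : Group V) with mul_comm := fun a b => hVab.is_comm.comm a b }
  have hcard : Nat.card N = Nat.card (Cfsg.frobeniusKernel H) := by
    show Nat.card ((N : Set F) : Type _) = _
    rw [hNset]
  have key : ∀ a : V, a ^ Nat.card N = 1 := by
    intro a
    refine Cfsg.Agent.Lead.FrobAvg.frob_avg (Cfsg.Agent.Lead.FrobAvg.conjAut V F hFV) N H ?_ ?_ ?_ ?_ a
    · intro h _ k hk
      exact hNn.conj_mem k hk h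
    · intro h hh hh1 k hk hcomm
      by_contra hk1
      have hkH : k ∉ H := by
        intro hkH
        have h1 : k ∈ N ⊓ H := ⟨hk, hkH⟩
        rw [hNc.disjoint.eq_bot, Subgroup.mem_bot] at h1
        exact hk1 h1
      have h2 := hH.2.2 k hkH
      have h3 : h ∈ H ⊓ (MulAut.conj k • H) := by
        refine Subgroup.mem_inf.mpr ⟨hh, Cfsg.Agent.Lead.mem_conj_smul'.mpr ?_⟩
        have e : k⁻¹ * h * k = h := by
          rw [mul_assoc, hcomm, inv_mul_cancel_left]
        rw [e]
        exact hh
      rw [h2, Subgroup.mem_bot] at h3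
      exact hh1 h3
    · intro a ha
      have h1 : (a : G) ∈ V ⊓ Subgroup.centralizer (Subtype.val '' Cfsg.frobeniusKernel H : Set G) := by
        refine Subgroup.mem_inf.mpr ⟨a.2, Subgroup.mem_centralizer_iff.mpr ?_⟩
        rintro _ ⟨k, hk, rfl⟩
        have hkN : k ∈ N := by
          have : k ∈ (N : Set F) := by rw [hNset]; exact hk
          exact this
        have h2 := congrArg Subtype.val (ha k hkN)
        rw [Cfsg.Agent.Lead.FrobAvg.conjAut_apply] at h2
        calc (k : G) * a = ((k : G) * a * (k : G)⁻¹) * k := by group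
          _ = a * k := by rw [h2]
      rw [hCK, Subgroup.mem_bot] at h1
      exact Subtype.ext h1
    · intro a ha
      have h1 : (a : G) ∈ V ⊓ Subgroup.centralizer ((H.map F.subtype : Subgroup G) : Set G) := by
        refine Subgroup.mem_inf.mpr ⟨a.2, Subgroup.mem_centralizer_iff.mpr ?_⟩
        rintro _ ⟨h, hh, rfl⟩
        have h2 := congrArg Subtype.val (ha h hh)
        rw [Cfsg.Agent.Lead.FrobAvg.conjAut_apply] at h2
        show (h : G) * a = a * h
        calc (h : G) * a = ((h : G) * a * (h : G)⁻¹) * h := by group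
          _ = a * h := by rw [h2]
      rw [hCH, Subgroup.mem_bot] at h1
      exact Subtype.ext h1
  apply hV1
  rw [eq_bot_iff]
  intro v hv
  have h1 := key ⟨v, hv⟩
  have h2 : orderOf (⟨v, hv⟩ : V) ∣ Nat.card N := orderOf_dvd_of_pow_eq_one h1
  have h3 : orderOf (⟨v, hv⟩ : V) ∣ Nat.card V := orderOf_dvd_natCard _
  rw [hcard] at h2
  have h4 : orderOf (⟨v, hv⟩ : V) = 1 := Nat.eq_one_of_dvd_coprimes hcop h3 h2
  have h5 := orderOf_eq_one_iff.mp h4
  exact Subgroup.mem_bot.mpr (congrArg Subtype.val h5)

end Cfsg.Agent.S0666
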