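import Cfsg.Statements.S0668


set_option autoImplicit false
open Cfsg

namespace Cfsg.Agent.S0668


section
variable {G : Type*} [Group G] {K : Type*} [Field K] {Ω₁ Ω₂ : Type*} [Fintype Ω₁] [Fintype Ω₂]
  [MulAction G Ω₁] [MulAction G Ω₂] [DecidableEq Ω₁]

theorem toMatrix_linHom (g : G) (f : (Ω₁ → K) →ₗ[K] (Ω₂ → K)) (y : Ω₂) (x : Ω₁) :
    LinearMap.toMatrix' (((Cfsg.permRep K G Ω₁).linHom (Cfsg.permRep K G Ω₂)) g f) y x =
      LinearMap.toMatrix' f (g⁻¹ • y) (g⁻¹ • x) := by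
  rw [LinearMap.toMatrix'_apply, LinearMap.toMatrix'_apply, Representation.linHom_apply]
  show f ((Cfsg.permRep K G Ω₁) g⁻¹ (Pi.single x 1)) (g⁻¹ • y) = _
  have h1 : (Cfsg.permRep K G Ω₁) g⁻¹ (Pi.single x 1) =
      (Pi.single (g⁻¹ • x) (1 : K) : Ω₁ → K) := by
    funext z
    show (Pi.single x (1 : K) : Ω₁ → K) (g⁻¹⁻¹ • z) = (Pi.single (g⁻¹ • x) (1 : K) : Ω₁ → K) z
    rw [inv_inv, Pi.single_apply, Pi.single_apply]
    by_cases h : g • z = x
    · rw [if_pos h, if_pos (eq_inv_smul_iff.mpr h)]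
    · rw [if_neg h, if_neg (fun h' => h (eq_inv_smul_iff.mp h'))]
  rw [h1]

theorem mem_inv_iff (f : (Ω₁ → K) →ₗ[K] (Ω₂ → K)) :
    f ∈ ((Cfsg.permRep K G Ω₁).linHom (Cfsg.permRep K G Ω₂)).invariants ↔
      ∀ (g : G) (y : Ω₂) (x : Ω₁),
        LinearMap.toMatrix' f (g • y) (g • x) = LinearMap.toMatrix' f y x := by
  rw [Representation.mem_invariants]
  constructor
  · intro h g y x
    have h1 := toMatrix_linHom g⁻¹ f y x
    rw [h g⁻¹, inv_inv] at h1
    exact h1.symm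
  · intro h g
    apply LinearMap.toMatrix'.injective
    ext y x
    rw [toMatrix_linHom]
    exact h g⁻¹ y x

noncomputable def Psi (G : Type*) [Group G] (K : Type*) [Field K] (Ω₁ Ω₂ : Type*)
    [MulAction G Ω₁] [MulAction G Ω₂] :
    (MulAction.orbitRel.Quotient G (Ω₁ × Ω₂) → K) →ₗ[K] Matrix Ω₂ Ω₁ K where
  toFun c := fun y x => c (Quotient.mk (MulAction.orbitRel G (Ω₁ × Ω₂)) (x, y))
  map_add' _ _ := rfl
  map_smul' _ _ := rfl

theorem Psi_injective : Function.Injective (Psi G K Ω₁ Ω₂) := by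
  intro c c' h
  funext q
  induction q using Quotient.ind with
  | _ a =>
    obtain ⟨x, y⟩ := a
    exact congrFun (congrFun h y) x

theorem map_eq_range :
    (((Cfsg.permRep K G Ω₁).linHom (Cfsg.permRep K G Ω₂)).invariants).map
      (LinearMap.toMatrix' (R := K) (m := Ω₂) (n := Ω₁)).toLinearMap =
      LinearMap.range (Psi G K Ω₁ Ω₂) := by
  ext A
  constructor
  · rintro ⟨f, hf, rfl⟩
    have hf' := (mem_inv_iff f).mp hf
    refine ⟨fun q => LinearMap.toMatrix' f q.out.2 q.out.1, ?_⟩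
    ext y x
    show LinearMap.toMatrix' f
      (Quotient.mk (MulAction.orbitRel G (Ω₁ × Ω₂)) (x, y)).out.2
      (Quotient.mk (MulAction.orbitRel G (Ω₁ × Ω₂)) (x, y)).out.1 = LinearMap.toMatrix' f y x
    have h1 : (Quotient.mk (MulAction.orbitRel G (Ω₁ × Ω₂)) (x, y)).out ∈
        MulAction.orbit G (x, y) := Quotient.mk_out (s := MulAction.orbitRel G (Ω₁ × Ω₂)) (x, y)
    obtain ⟨g, hg⟩ := h1
    rw [← hg]
    exact hf' g y x
  · rintro ⟨c, rfl⟩
    refine ⟨LinearMap.toMatrix'.symm (Psi G K Ω₁ Ω₂ c), ?_, ?_⟩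
    · rw [SetLike.mem_coe, mem_inv_iff]
      intro g y x
      rw [LinearEquiv.apply_symm_apply]
      show c _ = c _
      congr 1
      apply Quotient.sound
      exact ⟨g, rfl⟩
    · exact LinearEquiv.apply_symm_apply _ _

end

/-- The equivariant linear maps between the permutation modules of two finite `G`-sets form a space whose dimension is the number of `G`-orbits on the product of the two sets. -/
theorem result {G : Type*} [Group G] {K : Type*} [Field K] {Ω₁ Ω₂ : Type*} [Fintype Ω₁] [Fintype Ω₂] [MulAction G Ω₁] [MulAction G Ω₂] : Module.finrank K ((Cfsg.permRep K G Ω₁).linHom (Cfsg.permRep K G Ω₂)).invariants = Nat.card (MulAction.orbitRel.Quotient G (Ω₁ × Ω₂)) := by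
  classical
  have e := (LinearMap.toMatrix' (R := K) (m := Ω₂) (n := Ω₁)).submoduleMap
    (((Cfsg.permRep K G Ω₁).linHom (Cfsg.permRep K G Ω₂)).invariants)
  rw [e.finrank_eq, map_eq_range, LinearMap.finrank_range_of_inj Psi_injective]
  haveI : Fintype (MulAction.orbitRel.Quotient G (Ω₁ × Ω₂)) := Fintype.ofFinite _
  rw [Module.finrank_fintype_fun_eq_card, Nat.card_eq_fintype_card]

end Cfsg.Agent.S0668
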