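import Cfsg.Statements.S0669
import Mathlib

set_option autoImplicit false
open Cfsg

namespace Cfsg.Agent.S0669

/-- The rank of a transitive action: orbits on ordered pairs correspond to orbits of a point stabiliser. -/
theorem result {G : Type*} [Group G] {Ω : Type*} [Finite Ω] [MulAction G Ω] [MulAction.IsPretransitive G Ω] (a : Ω) : Nat.card (MulAction.orbitRel.Quotient G (Ω × Ω)) = Nat.card (MulAction.orbitRel.Quotient (MulAction.stabilizer G a) Ω) := by
  symm
  let f : MulAction.orbitRel.Quotient (MulAction.stabilizer G a) Ω →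
      MulAction.orbitRel.Quotient G (Ω × Ω) :=
    Quotient.map' (fun b => (a, b)) (by
      intro b b' h
      rw [MulAction.orbitRel_apply] at h ⊢
      obtain ⟨s, hs⟩ := h
      refine ⟨(s : G), ?_⟩
      show ((s : G) • a, (s : G) • b') = (a, b)
      have h1 : (s : G) • a = a := s.2
      have h2 : (s : G) • b' = b := hs
      rw [h1, h2])
  apply Nat.card_congr (Equiv.ofBijective f ⟨?_, ?_⟩)
  · intro x y
    induction x using Quotient.inductionOn' with
    | h b =>
      induction y using Quotient.inductionOn' with
      | h b' =>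
        intro h
        have h' : (Quotient.mk'' ((a, b) : Ω × Ω) : MulAction.orbitRel.Quotient G (Ω × Ω)) =
            Quotient.mk'' (a, b') := h
        rw [Quotient.eq''] at h' ⊢
        rw [MulAction.orbitRel_apply] at h' ⊢
        obtain ⟨g, hg⟩ := h'
        have h1 : g • a = a := congrArg Prod.fst hg
        have h2 : g • b' = b := congrArg Prod.snd hg
        exact ⟨⟨g, h1⟩, h2⟩
  · intro x
    induction x using Quotient.inductionOn' with
    | h xy =>
      obtain ⟨x, y⟩ := xy
      obtain ⟨g, hg⟩ := MulAction.exists_smul_eq G x a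
      refine ⟨Quotient.mk'' (g • y), ?_⟩
      show (Quotient.mk'' ((a, g • y) : Ω × Ω) : MulAction.orbitRel.Quotient G (Ω × Ω)) =
        Quotient.mk'' (x, y)
      rw [Quotient.eq'', MulAction.orbitRel_apply]
      refine ⟨g, ?_⟩
      show (g • x, g • y) = (a, g • y)
      rw [hg]

end Cfsg.Agent.S0669
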