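import Cfsg.Statements.S0670
import Cfsg.Agent.Helper20.PermMod

set_option autoImplicit false
open Cfsg

namespace Cfsg.Agent.S0670

/-- In characteristic `p`, the permutation module of a transitive action of degree `p ^ f` has the line of constant functions as its only irreducible submodule: every non-zero subrepresentation contains it. -/
theorem result {G : Type*} [Group G] [Finite G] {K : Type*} [Field K] {p f : ℕ} [Fact p.Prime] [CharP K p] {Ω : Type*} [Fintype Ω] [MulAction G Ω] [MulAction.IsPretransitive G Ω] (hf : 1 ≤ f) (hcard : Fintype.card Ω = p ^ f) (W : Subrepresentation (Cfsg.permRep K G Ω)) (hW : W.toSubmodule ≠ ⊥) : (Cfsg.permConstants K G Ω).toSubmodule ≤ W.toSubmodule := by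
  have h1 : (fun _ : Ω => (1 : K)) ∈ W.toSubmodule :=
    Cfsg.Agent.Helper20.one_mem_of_invariant hcard W.toSubmodule
      (fun g v hv => W.apply_mem_toSubmodule g hv) hW
  show Submodule.span K {fun _ => 1} ≤ W.toSubmodule
  rw [Submodule.span_le]
  intro x hx
  rw [Set.mem_singleton_iff] at hx
  rw [hx]
  exact h1

end Cfsg.Agent.S0670
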