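import Cfsg.Statements.S0671
import Cfsg.Agent.Helper20.PermMod

set_option autoImplicit false
open Cfsg

namespace Cfsg.Agent.S0671

open Cfsg.Agent.Helper20

/-- If the heart of the permutation module in characteristic `p` of a transitive action of degree `p ^ f` has no trivial composition factor, the action is doubly transitive. The hypothesis is phrased without composition series: no invariant subspaces `W < W'` between the constants and the sum-zero functions with trivial action on the quotient. -/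
theorem result {G : Type*} [Group G] [Finite G] {K : Type*} [Field K] {p f : ℕ} [Fact p.Prime] [CharP K p] {Ω : Type*} [Fintype Ω] [MulAction G Ω] [MulAction.IsPretransitive G Ω] (hf : 1 ≤ f) (hcard : Fintype.card Ω = p ^ f) (h : ∀ W W' : Subrepresentation (Cfsg.permRep K G Ω), (Cfsg.permConstants K G Ω).toSubmodule ≤ W.toSubmodule → W.toSubmodule < W'.toSubmodule → W'.toSubmodule ≤ (Cfsg.permSumZero K G Ω).toSubmodule → ∃ g : G, ∃ v ∈ W'.toSubmodule, Cfsg.permRep K G Ω g v - v ∉ W.toSubmodule) : MulAction.IsMultiplyPretransitive G Ω 2 := by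
  classical
  rw [MulAction.is_two_pretransitive_iff]
  intro a b c d hab hcd
  by_contra hno
  push Not at hno
  -- the orbital of (a, b)
  let R : Ω → Ω → Prop := fun x y => ∃ g : G, g • a = x ∧ g • b = y
  have hR : ∀ (g : G) x y, R x y → R (g • x) (g • y) := by
    rintro g x y ⟨g0, rfl, rfl⟩
    exact ⟨g * g0, mul_smul _ _ _, mul_smul _ _ _⟩
  let D : Ω → Finset Ω := fun x => Finset.univ.filter (fun y => R x y)
  have hD : ∀ x y, y ∈ D x ↔ R x y := by
    intro x y
    simp [D]
  let φ : (Ω → K) →ₗ[K] (Ω → K) :=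
    { toFun := fun v x => ∑ y ∈ D x, (v y - v x)
      map_add' := by
        intro v w
        funext x
        simp only [Pi.add_apply]
        rw [← Finset.sum_add_distrib]
        apply Finset.sum_congr rfl
        intro y _
        ring
      map_smul' := by
        intro c v
        funext x
        simp only [Pi.smul_apply, smul_eq_mul, RingHom.id_apply]
        rw [Finset.mul_sum]
        apply Finset.sum_congr rfl
        intro y _
        ring }
  have hφapp : ∀ v x, φ v x = ∑ y ∈ D x, (v y - v x) := fun v x => rfl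
  have hρ : ∀ (g : G) (v : Ω → K) x, Cfsg.permRep K G Ω g v x = v (g⁻¹ • x) := fun g v x => rfl
  have hφeq : ∀ (g : G) (v : Ω → K), φ (Cfsg.permRep K G Ω g v) = Cfsg.permRep K G Ω g (φ v) := by
    intro g v
    funext x
    show ∑ y ∈ D x, (v (g⁻¹ • y) - v (g⁻¹ • x)) = ∑ y ∈ D (g⁻¹ • x), (v y - v (g⁻¹ • x))
    apply Finset.sum_nbij' (fun y => g⁻¹ • y) (fun y => g • y)
    · intro y hy
      rw [hD] at hy ⊢
      exact hR g⁻¹ x y hy
    · intro y hy
      rw [hD] at hy ⊢
      have := hR g _ _ hy
      rwa [smul_inv_smul] at this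
    · intro y _
      simp
    · intro y _
      simp
    · intro y _
      rfl
  have hφconst : ∀ c : K, φ (fun _ => c) = 0 := by
    intro c
    funext x
    rw [hφapp]
    simp
  have hcardK : (Fintype.card Ω : K) = 0 := by
    rw [hcard, Nat.cast_pow, CharP.cast_eq_zero K p, zero_pow (by omega)]
  have hconst_le : (Cfsg.permConstants K G Ω).toSubmodule ≤ (Cfsg.permSumZero K G Ω).toSubmodule := by
    show Submodule.span K {fun _ => 1} ≤ _
    rw [Submodule.span_le]
    intro x hx
    rw [Set.mem_singleton_iff] at hx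
    show ∑ y, x y = 0
    rw [hx]
    simp [hcardK]
  have hconst_mem : ∀ v : Ω → K, v ∈ (Cfsg.permConstants K G Ω).toSubmodule ↔ ∃ c : K, v = fun _ => c := by
    intro v
    show v ∈ Submodule.span K {fun _ => 1} ↔ _
    rw [Submodule.mem_span_singleton]
    constructor
    · rintro ⟨c, rfl⟩
      exact ⟨c, by funext x; simp⟩
    · rintro ⟨c, rfl⟩
      exact ⟨c, by funext x; simp⟩
  let W's : Submodule K (Ω → K) := (Cfsg.permSumZero K G Ω).toSubmodule ⊓
        ((Cfsg.permConstants K G Ω).toSubmodule).comap φ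
  let Ws : Submodule K (Ω → K) := (Cfsg.permSumZero K G Ω).toSubmodule ⊓ LinearMap.ker φ
  have hW's : ∀ v, v ∈ W's ↔ v ∈ (Cfsg.permSumZero K G Ω).toSubmodule ∧
      φ v ∈ (Cfsg.permConstants K G Ω).toSubmodule := by
    intro v
    simp only [W's, Submodule.mem_inf, Submodule.mem_comap]
  have hWs : ∀ v, v ∈ Ws ↔ v ∈ (Cfsg.permSumZero K G Ω).toSubmodule ∧ φ v = 0 := by
    intro v
    simp only [Ws, Submodule.mem_inf, LinearMap.mem_ker]
  let W' : Subrepresentation (Cfsg.permRep K G Ω) :=
    { toSubmodule := W's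
      apply_mem_toSubmodule := by
        intro g v hv
        rw [hW's] at hv ⊢
        refine ⟨(Cfsg.permSumZero K G Ω).apply_mem_toSubmodule g hv.1, ?_⟩
        rw [hφeq]
        exact (Cfsg.permConstants K G Ω).apply_mem_toSubmodule g hv.2 }
  let W : Subrepresentation (Cfsg.permRep K G Ω) :=
    { toSubmodule := Ws
      apply_mem_toSubmodule := by
        intro g v hv
        rw [hWs] at hv ⊢
        refine ⟨(Cfsg.permSumZero K G Ω).apply_mem_toSubmodule g hv.1, ?_⟩
        rw [hφeq, hv.2, map_zero] }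
  have hW'm : ∀ v, v ∈ W'.toSubmodule ↔ v ∈ (Cfsg.permSumZero K G Ω).toSubmodule ∧
      φ v ∈ (Cfsg.permConstants K G Ω).toSubmodule := hW's
  have hWm : ∀ v, v ∈ W.toSubmodule ↔ v ∈ (Cfsg.permSumZero K G Ω).toSubmodule ∧ φ v = 0 := hWs
  have hWW' : W.toSubmodule ≤ W'.toSubmodule := by
    intro v hv
    rw [hWm] at hv
    rw [hW'm]
    refine ⟨hv.1, ?_⟩
    rw [hv.2]
    exact Submodule.zero_mem _
  have hcW : (Cfsg.permConstants K G Ω).toSubmodule ≤ W.toSubmodule := by
    intro v hv
    rw [hWm]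
    refine ⟨hconst_le hv, ?_⟩
    obtain ⟨c, rfl⟩ := (hconst_mem v).mp hv
    exact hφconst c
  have hEq : W.toSubmodule = W'.toSubmodule := by
    by_contra hne
    obtain ⟨g, v, hv, hgv⟩ := h W W' hcW (lt_of_le_of_ne hWW' hne)
      (fun v hv => ((hW'm v).mp hv).1)
    apply hgv
    rw [hW'm] at hv
    rw [hWm]
    refine ⟨Submodule.sub_mem _ ((Cfsg.permSumZero K G Ω).apply_mem_toSubmodule g hv.1) hv.1, ?_⟩
    rw [map_sub, hφeq]
    obtain ⟨c, hc⟩ := (hconst_mem (φ v)).mp hv.2
    rw [hc]
    funext x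
    simp [hρ]
  -- φ kills the sum-zero functions
  have hkill : ∀ v ∈ (Cfsg.permSumZero K G Ω).toSubmodule, φ v = 0 := by
    intro v hv
    by_contra hne
    let U : Submodule K (Ω → K) := ((Cfsg.permSumZero K G Ω).toSubmodule).map φ
    have hU0 : U ≠ ⊥ := by
      intro hbot
      apply hne
      have : φ v ∈ U := Submodule.mem_map_of_mem hv
      rw [hbot] at this
      exact (Submodule.mem_bot K).mp this
    have hUinv : ∀ g : G, ∀ w ∈ U, (fun x => w (g⁻¹ • x)) ∈ U := by
      rintro g w ⟨v', hv', rfl⟩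
      refine ⟨Cfsg.permRep K G Ω g v', (Cfsg.permSumZero K G Ω).apply_mem_toSubmodule g hv', ?_⟩
      rw [hφeq]
      rfl
    obtain ⟨v1, hv1, hv1φ⟩ := one_mem_of_invariant hcard U hUinv hU0
    have hv1W' : v1 ∈ W'.toSubmodule := by
      rw [hW'm]
      refine ⟨hv1, ?_⟩
      rw [hv1φ, hconst_mem]
      exact ⟨1, rfl⟩
    rw [← hEq, hWm] at hv1W'
    have := hv1W'.2
    rw [hv1φ] at this
    have h10 := congrFun this a
    simp at h10
  -- hence the orbital is everything
  have hall : ∀ x y y', y ≠ x → y' ≠ x → y ≠ y' → R x y → R x y' := by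
    intro x y y' hyx hy'x hyy' hRxy
    let v : Ω → K := fun z => (if z = y then 1 else 0) - (if z = y' then 1 else 0)
    have hv : v ∈ (Cfsg.permSumZero K G Ω).toSubmodule := by
      show ∑ z, v z = 0
      simp [v, Finset.sum_sub_distrib]
    have h0 := congrFun (hkill v hv) x
    rw [hφapp] at h0
    have hvx : v x = 0 := by
      simp [v, Ne.symm hyx, Ne.symm hy'x]
    simp only [hvx, sub_zero, Pi.zero_apply] at h0
    have hsum : ∑ z ∈ D x, v z = (if y ∈ D x then 1 else 0) - (if y' ∈ D x then 1 else 0) := by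
      simp only [v]
      rw [Finset.sum_sub_distrib, Finset.sum_ite_eq' (D x) y, Finset.sum_ite_eq' (D x) y']
    rw [hsum, if_pos ((hD x y).mpr hRxy)] at h0
    by_contra hcon
    rw [if_neg (fun hmem => hcon ((hD x y').mp hmem))] at h0
    simp at h0
  obtain ⟨g0, hg0⟩ := MulAction.exists_smul_eq G a c
  have hRc : R c (g0 • b) := ⟨g0, hg0, rfl⟩
  have hne1 : g0 • b ≠ c := by
    intro h1
    apply hab
    rw [← hg0] at h1
    exact (MulAction.injective g0 h1).symm
  by_cases hdb : g0 • b = d
  · exact hno g0 hg0 hdb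
  · obtain ⟨g1, hg1a, hg1b⟩ := hall c (g0 • b) d hne1 (Ne.symm hcd) hdb hRc
    exact hno g1 hg1a hg1b

end Cfsg.Agent.S0671
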