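import Cfsg.Statements.S0672
import Mathlib

set_option autoImplicit false
open Cfsg

namespace Cfsg.Agent.S0672

open scoped Pointwise

section
variable {G : Type*} [Group G] {K : Type*} [Field K] {Ω : Type*} [Fintype Ω] [DecidableEq Ω]
  [MulAction G Ω]

/-- the linear map `v ↦ (s ↦ Σ_{x ∈ Γ s} (α v(x) + β Σ_{y ∈ s} v(y)))`. -/
noncomputable def mkLin (Γ : Set.powersetCard Ω 2 → Finset Ω) (α β : K) :
    (Cfsg.permSumZero K G Ω).toSubmodule →ₗ[K] (Set.powersetCard Ω 2 → K) where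
  toFun := fun v s => ∑ x ∈ Γ s, (α * (v : Ω → K) x + β * ∑ y ∈ (s : Finset Ω), (v : Ω → K) y)
  map_add' := by
    intro v w
    funext s
    simp only [Submodule.coe_add, Pi.add_apply]
    rw [← Finset.sum_add_distrib]
    apply Finset.sum_congr rfl
    intro x _
    rw [Finset.sum_add_distrib]
    ring
  map_smul' := by
    intro c v
    funext s
    show ∑ x ∈ Γ s, (α * (c * (v : Ω → K) x) + β * ∑ y ∈ (s : Finset Ω), c * (v : Ω → K) y)
      = c * ∑ x ∈ Γ s, (α * (v : Ω → K) x + β * ∑ y ∈ (s : Finset Ω), (v : Ω → K) y)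
    have e : ∀ x, α * (c * (v : Ω → K) x) + β * ∑ y ∈ (s : Finset Ω), c * (v : Ω → K) y
        = c * (α * (v : Ω → K) x + β * ∑ y ∈ (s : Finset Ω), (v : Ω → K) y) := by
      intro x
      rw [← Finset.mul_sum]
      ring
    rw [Finset.sum_congr rfl (fun x _ => e x), ← Finset.mul_sum]

theorem mkLin_apply (Γ : Set.powersetCard Ω 2 → Finset Ω) (α β : K)
    (v : (Cfsg.permSumZero K G Ω).toSubmodule) (s : Set.powersetCard Ω 2) :
    mkLin (G := G) Γ α β v s
      = ∑ x ∈ Γ s, (α * (v : Ω → K) x + β * ∑ y ∈ (s : Finset Ω), (v : Ω → K) y) := rfl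

theorem mkLin_equivariant (Γ : Set.powersetCard Ω 2 → Finset Ω)
    (hΓ : ∀ (g : G) (s : Set.powersetCard Ω 2) (x : Ω), x ∈ Γ s → g • x ∈ Γ (g • s)) (α β : K)
    (g : G) (v : (Cfsg.permSumZero K G Ω).toSubmodule) :
    mkLin (G := G) Γ α β ((Cfsg.permSumZero K G Ω).toRepresentation g v)
      = Cfsg.permRep K G (Set.powersetCard Ω 2) g (mkLin (G := G) Γ α β v) := by
  funext s
  show ∑ x ∈ Γ s, (α * (v : Ω → K) (g⁻¹ • x) + β * ∑ y ∈ (s : Finset Ω), (v : Ω → K) (g⁻¹ • y))
    = ∑ x ∈ Γ (g⁻¹ • s), (α * (v : Ω → K) x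
        + β * ∑ y ∈ ((g⁻¹ • s : Set.powersetCard Ω 2) : Finset Ω), (v : Ω → K) y)
  have hinner : ∑ y ∈ ((g⁻¹ • s : Set.powersetCard Ω 2) : Finset Ω), (v : Ω → K) y
      = ∑ y ∈ (s : Finset Ω), (v : Ω → K) (g⁻¹ • y) := by
    rw [Set.powersetCard.coe_smul, Finset.smul_finset_def,
      Finset.sum_image (fun x _ y _ hxy => MulAction.injective g⁻¹ hxy)]
  rw [hinner]
  apply Finset.sum_nbij' (fun x => g⁻¹ • x) (fun x => g • x)
  · intro x hx
    exact hΓ g⁻¹ s x hx
  · intro x hx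
    have := hΓ g _ x hx
    rwa [smul_inv_smul] at this
  · intro x _
    simp
  · intro x _
    simp
  · intro x _
    rfl

/-- the intertwining map. -/
noncomputable def mkMap (Γ : Set.powersetCard Ω 2 → Finset Ω)
    (hΓ : ∀ (g : G) (s : Set.powersetCard Ω 2) (x : Ω), x ∈ Γ s → g • x ∈ Γ (g • s)) (α β : K) :
    Representation.IntertwiningMap (Cfsg.permSumZero K G Ω).toRepresentation
      (Cfsg.permRep K G (Set.powersetCard Ω 2)) :=
  LinearMap.intertwiningMap_of_isIntertwiningMap _ _ (mkLin (G := G) Γ α β)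
    (mkLin_equivariant Γ hΓ α β)

theorem mkMap_apply (Γ : Set.powersetCard Ω 2 → Finset Ω)
    (hΓ : ∀ (g : G) (s : Set.powersetCard Ω 2) (x : Ω), x ∈ Γ s → g • x ∈ Γ (g • s)) (α β : K)
    (v : (Cfsg.permSumZero K G Ω).toSubmodule) (s : Set.powersetCard Ω 2) :
    mkMap Γ hΓ α β v s
      = ∑ x ∈ Γ s, (α * (v : Ω → K) x + β * ∑ y ∈ (s : Finset Ω), (v : Ω → K) y) := rfl

theorem mkMap_kills (Γ : Set.powersetCard Ω 2 → Finset Ω)
    (hΓ : ∀ (g : G) (s : Set.powersetCard Ω 2) (x : Ω), x ∈ Γ s → g • x ∈ Γ (g • s)) (α β : K)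
    (hkill : ∀ s, ((Γ s).card : K) * (α + 2 * β) = 0)
    (v : (Cfsg.permSumZero K G Ω).toSubmodule)
    (hv : (v : Ω → K) ∈ (Cfsg.permConstants K G Ω).toSubmodule) : mkMap Γ hΓ α β v = 0 := by
  have hv' : (v : Ω → K) ∈ Submodule.span K {fun _ => (1 : K)} := hv
  rw [Submodule.mem_span_singleton] at hv'
  obtain ⟨c, hc⟩ := hv'
  funext s
  rw [mkMap_apply, ← hc]
  simp only [Pi.smul_apply, smul_eq_mul, mul_one, Finset.sum_const, nsmul_eq_mul]
  rw [Set.powersetCard.card_eq s]
  have := hkill s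
  push_cast
  show ((Γ s).card : K) * (α * c + β * (2 * c)) = 0
  linear_combination c * this

end

/-- Let a finite group act faithfully and doubly transitively with point stabilisers of even order, and let `K` have characteristic `p` dividing the degree. If the heart of the permutation module admits no non-zero equivariant map to the permutation module on unordered pairs (phrased: every intertwining map from the sum-zero functions vanishing on the constants is zero), the action is triply transitive. -/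
theorem result {G : Type*} [Group G] [Finite G] {K : Type*} [Field K] {p : ℕ} [Fact p.Prime] [CharP K p] {Ω : Type*} [Fintype Ω] [DecidableEq Ω] [MulAction G Ω] [FaithfulSMul G Ω] (h2 : MulAction.IsMultiplyPretransitive G Ω 2) (hp : p ∣ Fintype.card Ω) (heven : ∀ a : Ω, Even (Nat.card (MulAction.stabilizer G a))) (h : ∀ f : Representation.IntertwiningMap (Cfsg.permSumZero K G Ω).toRepresentation (Cfsg.permRep K G (Set.powersetCard Ω 2)), (∀ v : (Cfsg.permSumZero K G Ω).toSubmodule, (v : Ω → K) ∈ (Cfsg.permConstants K G Ω).toSubmodule → f v = 0) → f = 0) : MulAction.IsMultiplyPretransitive G Ω 3 := by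
  classical
  refine ⟨fun x y => ?_⟩
  by_contra hno
  push Not at hno
  have h2' := fun {a b c d : Ω} (h1 : a ≠ b) (h3 : c ≠ d) =>
    (MulAction.is_two_pretransitive_iff.mp h2) h1 h3
  have hx01 : x 0 ≠ x 1 := fun h => by simpa using x.injective h
  have hx02 : x 0 ≠ x 2 := fun h => by simpa using x.injective h
  have hx12 : x 1 ≠ x 2 := fun h => by simpa using x.injective h
  have hy01 : y 0 ≠ y 1 := fun h => by simpa using y.injective h
  have hy02 : y 0 ≠ y 2 := fun h => by simpa using y.injective h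
  have hy12 : y 1 ≠ y 2 := fun h => by simpa using y.injective h
  obtain ⟨g0, hg0a, hg0b⟩ := h2' hx01 hy01
  obtain ⟨a, ha⟩ : ∃ a, a = y 0 := ⟨_, rfl⟩
  obtain ⟨b, hb⟩ : ∃ b, b = y 1 := ⟨_, rfl⟩
  obtain ⟨c, hc⟩ : ∃ c, c = g0 • x 2 := ⟨_, rfl⟩
  obtain ⟨c', hc'⟩ : ∃ c', c' = y 2 := ⟨_, rfl⟩
  rw [← ha] at hg0a hy01 hy02
  rw [← hb] at hg0b hy01 hy12
  rw [← hc'] at hy02 hy12
  have hab : a ≠ b := hy01
  have hca : c ≠ a := by
    rw [hc, ← hg0a]
    exact fun h => hx02 (MulAction.injective g0 h).symm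
  have hcb : c ≠ b := by
    rw [hc, ← hg0b]
    exact fun h => hx12 (MulAction.injective g0 h).symm
  have hc'a : c' ≠ a := Ne.symm hy02
  have hc'b : c' ≠ b := Ne.symm hy12
  have hstar : ∀ g : G, g • a = a → g • b = b → g • c ≠ c' := by
    intro g hga hgb hgc
    apply hno (g * g0)
    ext i
    fin_cases i
    · show (g * g0) • x 0 = y 0
      rw [mul_smul, hg0a, hga, ha]
    · show (g * g0) • x 1 = y 1
      rw [mul_smul, hg0b, hgb, hb]
    · show (g * g0) • x 2 = y 2
      rw [mul_smul, ← hc, hgc, hc']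
  by_cases h2K : (2 : K) = 0
  · -- characteristic 2: the map v ↦ (s ↦ Σ_{x ∈ s} v x)
    let Γ : Set.powersetCard Ω 2 → Finset Ω := fun s => (s : Finset Ω)
    have hΓ : ∀ (g : G) (s : Set.powersetCard Ω 2) (x : Ω), x ∈ Γ s → g • x ∈ Γ (g • s) := by
      intro g s x hx
      show g • x ∈ ((g • s : Set.powersetCard Ω 2) : Finset Ω)
      rw [Set.powersetCard.coe_smul]
      exact Finset.smul_mem_smul_finset hx
    have hkill : ∀ s, ((Γ s).card : K) * ((1 : K) + 2 * 0) = 0 := by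
      intro s
      show (((s : Finset Ω).card : ℕ) : K) * ((1 : K) + 2 * 0) = 0
      rw [Set.powersetCard.card_eq s]
      push_cast
      rw [h2K]
      ring
    have hF := h (mkMap Γ hΓ 1 0) (mkMap_kills Γ hΓ 1 0 hkill)
    let v0 : Ω → K := fun z => (if z = a then 1 else 0) - (if z = c then 1 else 0)
    have hv0 : v0 ∈ (Cfsg.permSumZero K G Ω).toSubmodule := by
      show ∑ z, v0 z = 0
      simp [v0, Finset.sum_sub_distrib]
    let s0 : Set.powersetCard Ω 2 := ⟨{a, b}, Set.powersetCard.mem_iff.mpr (Finset.card_pair hab)⟩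
    have h0 : mkMap Γ hΓ (1 : K) 0 ⟨v0, hv0⟩ s0 = 0 := by
      rw [hF]
      rfl
    rw [mkMap_apply] at h0
    have hsum : ∑ x ∈ Γ s0, ((1 : K) * v0 x + 0 * ∑ y ∈ (s0 : Finset Ω), v0 y) = 1 := by
      show ∑ x ∈ ({a, b} : Finset Ω), ((1 : K) * v0 x + 0 * ∑ y ∈ ({a, b} : Finset Ω), v0 y) = 1
      rw [Finset.sum_pair hab]
      simp [v0, hab.symm, hca.symm, hcb.symm]
    have h0' : ∑ x ∈ Γ s0, ((1 : K) * v0 x + 0 * ∑ y ∈ (s0 : Finset Ω), v0 y) = 0 := h0
    rw [hsum] at h0'
    exact one_ne_zero h0'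
  · -- odd characteristic
    let Stab : G → Prop := fun g => (g • a = a ∧ g • b = b) ∨ (g • a = b ∧ g • b = a)
    have hex : ∃ c0 c1 : Ω, c0 ≠ a ∧ c0 ≠ b ∧ c1 ≠ a ∧ c1 ≠ b ∧ ∀ g : G, Stab g → g • c0 ≠ c1 := by
      by_contra hcon
      push Not at hcon
      -- an involution fixing c
      have h2dvd : 2 ∣ Nat.card (MulAction.stabilizer G c) := (heven c).two_dvd
      haveI : Fact (Nat.Prime 2) := ⟨Nat.prime_two⟩
      obtain ⟨t, ht⟩ := exists_prime_orderOf_dvd_card' 2 h2dvd
      have htc : (t : G) • c = c := t.2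
      have ht1 : (t : G) ≠ 1 := by
        intro h1
        have : t = 1 := Subtype.ext h1
        rw [this, orderOf_one] at ht
        omega
      have htt : (t : G) * (t : G) = 1 := by
        have := pow_orderOf_eq_one t
        rw [ht, pow_two] at this
        exact congrArg Subtype.val this
      obtain ⟨u, hu⟩ : ∃ u : Ω, (t : G) • u ≠ u := by
        by_contra hall
        push Not at hall
        apply ht1
        apply FaithfulSMul.eq_of_smul_eq_smul (α := Ω)
        intro u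
        rw [hall u, one_smul]
      obtain ⟨w, hw⟩ : ∃ w, w = (t : G) • u := ⟨_, rfl⟩
      have htw : (t : G) • w = u := by rw [hw, ← mul_smul, htt, one_smul]
      have huw : u ≠ w := by rw [hw]; exact Ne.symm hu
      have huc : u ≠ c := by
        rintro rfl
        exact hu htc
      have hwc : w ≠ c := by
        intro h1
        apply huc
        rw [← htw, h1, htc]
      obtain ⟨g1, hg1u, hg1w⟩ := h2' huw hab
      obtain ⟨z, hz⟩ : ∃ z, z = g1 • c := ⟨_, rfl⟩
      have hza : z ≠ a := by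
        rw [hz, ← hg1u]
        exact fun h => huc (MulAction.injective g1 h).symm
      have hzb : z ≠ b := by
        rw [hz, ← hg1w]
        exact fun h => hwc (MulAction.injective g1 h).symm
      obtain ⟨gt, hgt⟩ : ∃ gt : G, gt = g1 * (t : G) * g1⁻¹ := ⟨_, rfl⟩
      have hgta : gt • a = b := by
        rw [hgt, mul_smul, mul_smul, ← hg1u, inv_smul_smul, ← hw, hg1w]
      have hgtb : gt • b = a := by
        rw [hgt, mul_smul, mul_smul, ← hg1w, inv_smul_smul, htw, hg1u]
      have hgtz : gt • z = z := by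
        rw [hgt, hz, mul_smul, mul_smul, inv_smul_smul, htc]
      obtain ⟨h1, hS1, h1z⟩ := hcon z c hza hzb hca hcb
      obtain ⟨hh, hSh, hhc⟩ := hcon c c' hca hcb hc'a hc'b
      rcases hSh with ⟨hha, hhb⟩ | ⟨hha, hhb⟩
      · exact hstar hh hha hhb hhc
      · -- hh swaps a and b
        obtain ⟨g', hg'⟩ : ∃ g' : G, g' = h1 * gt * h1⁻¹ := ⟨_, rfl⟩
        have hg'c : g' • c = c := by
          rw [hg', mul_smul, mul_smul, ← h1z, inv_smul_smul, hgtz]
        have hg'ab : g' • a = b ∧ g' • b = a := by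
          rcases hS1 with ⟨h1a, h1b⟩ | ⟨h1a, h1b⟩
          · have e1 : h1⁻¹ • a = a := by rw [inv_smul_eq_iff, h1a]
            have e2 : h1⁻¹ • b = b := by rw [inv_smul_eq_iff, h1b]
            constructor
            · rw [hg', mul_smul, mul_smul, e1, hgta, h1b]
            · rw [hg', mul_smul, mul_smul, e2, hgtb, h1a]
          · have e1 : h1⁻¹ • a = b := by rw [inv_smul_eq_iff, h1b]
            have e2 : h1⁻¹ • b = a := by rw [inv_smul_eq_iff, h1a]
            constructor
            · rw [hg', mul_smul, mul_smul, e1, hgtb, h1a]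
            · rw [hg', mul_smul, mul_smul, e2, hgta, h1b]
        apply hstar (hh * g')
        · rw [mul_smul, hg'ab.1, hhb]
        · rw [mul_smul, hg'ab.2, hha]
        · rw [mul_smul, hg'c, hhc]
    obtain ⟨c0, c1, hc0a, hc0b, hc1a, hc1b, hnot⟩ := hex
    let Γ : Set.powersetCard Ω 2 → Finset Ω := fun s =>
      Finset.univ.filter (fun x => ∃ g : G, g • a ∈ (s : Finset Ω) ∧ g • b ∈ (s : Finset Ω) ∧ g • c0 = x)
    have hΓmem : ∀ s x, x ∈ Γ s ↔ ∃ g : G, g • a ∈ (s : Finset Ω) ∧ g • b ∈ (s : Finset Ω) ∧ g • c0 = x := by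
      intro s x
      simp [Γ]
    have hΓ : ∀ (g : G) (s : Set.powersetCard Ω 2) (x : Ω), x ∈ Γ s → g • x ∈ Γ (g • s) := by
      intro g s x hx
      rw [hΓmem] at hx ⊢
      obtain ⟨g', h1, h3, h4⟩ := hx
      refine ⟨g * g', ?_, ?_, ?_⟩
      · rw [Set.powersetCard.coe_smul, mul_smul]
        exact Finset.smul_mem_smul_finset h1
      · rw [Set.powersetCard.coe_smul, mul_smul]
        exact Finset.smul_mem_smul_finset h3
      · rw [mul_smul, h4]
    have hkill : ∀ s, ((Γ s).card : K) * ((2 : K) + 2 * (-1)) = 0 := by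
      intro s
      ring
    have hF := h (mkMap Γ hΓ 2 (-1)) (mkMap_kills Γ hΓ 2 (-1) hkill)
    let v0 : Ω → K := fun z => (if z = c0 then 1 else 0) - (if z = c1 then 1 else 0)
    have hv0 : v0 ∈ (Cfsg.permSumZero K G Ω).toSubmodule := by
      show ∑ z, v0 z = 0
      simp [v0, Finset.sum_sub_distrib]
    let s0 : Set.powersetCard Ω 2 := ⟨{a, b}, Set.powersetCard.mem_iff.mpr (Finset.card_pair hab)⟩
    have h0 : mkMap Γ hΓ (2 : K) (-1) ⟨v0, hv0⟩ s0 = 0 := by
      rw [hF]
      rfl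
    rw [mkMap_apply] at h0
    have hc0Γ : c0 ∈ Γ s0 := by
      rw [hΓmem]
      refine ⟨1, ?_, ?_, one_smul _ _⟩
      · show (1 : G) • a ∈ ({a, b} : Finset Ω)
        simp
      · show (1 : G) • b ∈ ({a, b} : Finset Ω)
        simp
    have hc1Γ : c1 ∉ Γ s0 := by
      rw [hΓmem]
      rintro ⟨g, hga, hgb, hgc⟩
      have hga' : g • a ∈ ({a, b} : Finset Ω) := hga
      have hgb' : g • b ∈ ({a, b} : Finset Ω) := hgb
      rw [Finset.mem_insert, Finset.mem_singleton] at hga' hgb'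
      have hgab : g • a ≠ g • b := fun h => hab (MulAction.injective g h)
      apply hnot g _ hgc
      rcases hga' with h1 | h1 <;> rcases hgb' with h3 | h3
      · exact absurd (h1.trans h3.symm) hgab
      · exact Or.inl ⟨h1, h3⟩
      · exact Or.inr ⟨h1, h3⟩
      · exact absurd (h1.trans h3.symm) hgab
    have hinner : ∑ y ∈ (s0 : Finset Ω), v0 y = 0 := by
      show ∑ y ∈ ({a, b} : Finset Ω), v0 y = 0
      rw [Finset.sum_pair hab]
      simp [v0, hc0a.symm, hc0b.symm, hc1a.symm, hc1b.symm]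
    have hsum : ∑ x ∈ Γ s0, ((2 : K) * v0 x + (-1) * ∑ y ∈ (s0 : Finset Ω), v0 y) = 2 := by
      rw [hinner]
      simp only [mul_zero, add_zero]
      rw [← Finset.mul_sum]
      have : ∑ x ∈ Γ s0, v0 x = 1 := by
        simp only [v0]
        rw [Finset.sum_sub_distrib, Finset.sum_ite_eq' (Γ s0) c0, Finset.sum_ite_eq' (Γ s0) c1,
          if_pos hc0Γ, if_neg hc1Γ, sub_zero]
      rw [this, mul_one]
    have h0' : ∑ x ∈ Γ s0, ((2 : K) * v0 x + (-1) * ∑ y ∈ (s0 : Finset Ω), v0 y) = 0 := h0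
    rw [hsum] at h0'
    exact h2K h0'

end Cfsg.Agent.S0672
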