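import Cfsg.Statements.S0673
import Cfsg.Agent.Helper20.ShiftInv

set_option autoImplicit false
open Cfsg Polynomial

namespace Cfsg.Agent.S0673

open Cfsg.Agent.Helper20

/-- In characteristic `p`, the translation-invariant subspaces of the space of functions on `ZMod p` are exactly the spaces of polynomial functions of degree less than `r`, one for each `r ≤ p`, of dimension `r`. -/
theorem result {p : ℕ} [Fact p.Prime] {K : Type*} [Field K] [CharP K p] (W : Submodule K (ZMod p → K)) (hW : ∀ f ∈ W, (fun j => f (j - 1)) ∈ W) : ∃ r : ℕ, r ≤ p ∧ Module.finrank K W = r ∧ ∀ f : ZMod p → K, f ∈ W ↔ ∃ P : Polynomial K, P.degree < r ∧ ∀ j : ZMod p, f j = P.eval (ZMod.cast j : K) := by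
  classical
  have hp : p.Prime := Fact.out
  let ι : ZMod p →+* K := ZMod.castHom (dvd_refl p) K
  have hι : ∀ j : ZMod p, ι j = (ZMod.cast j : K) := fun j => rfl
  by_cases hbot : W = ⊥
  · refine ⟨0, Nat.zero_le _, ?_, ?_⟩
    · rw [hbot]
      simp
    · intro f
      rw [hbot, Submodule.mem_bot]
      constructor
      · rintro rfl
        exact ⟨0, by simp, fun j => by simp⟩
      · rintro ⟨P, hP, hf⟩
        have hP0 : P = 0 := by
          rw [← degree_eq_bot]
          exact Nat.WithBot.lt_zero_iff.mp hP
        funext j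
        rw [hf j, hP0]
        simp
  · have hshift : ∀ (n : ℕ) (f : ZMod p → K), f ∈ W → (fun j => f (j - (n : ZMod p))) ∈ W := by
      intro n
      induction n with
      | zero =>
        intro f hf
        simpa using hf
      | succ n ih =>
        intro f hf
        have := hW _ (ih f hf)
        have e : (fun j => f (j - ((n + 1 : ℕ) : ZMod p))) = fun j => f (j - 1 - (n : ZMod p)) := by
          funext j
          congr 1
          push_cast
          ring
        rw [e]
        exact this
    have hΔ : ∀ h ∈ W, deltaOp h ∈ W := by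
      intro h hh
      have h1 := hshift (p - 1) h hh
      have hcast : ((p - 1 : ℕ) : ZMod p) = -1 := by
        rw [Nat.cast_sub hp.pos, Nat.cast_one, ZMod.natCast_self, zero_sub]
      have : deltaOp h = (fun j => h (j - ((p - 1 : ℕ) : ZMod p))) - h := by
        funext j
        rw [hcast]
        simp [deltaOp_apply]
      rw [this]
      exact W.sub_mem h1 hh
    obtain ⟨d, hdp, hd⟩ := invariant_eq_V ι W hΔ hbot
    have hW' : ∀ h : ZMod p → K, h ∈ W ↔
        ∃ Q : K[X], Q.degree < ((d + 1 : ℕ) : WithBot ℕ) ∧ h = evf ι Q := by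
      intro h
      rw [hd]
      constructor
      · rintro ⟨Q, hQ, rfl⟩
        refine ⟨Q, ?_, rfl⟩
        rw [degree_lt_iff_coeff_zero]
        intro m hm
        exact coeff_eq_zero_of_natDegree_lt (by omega)
      · rintro ⟨Q, hQ, rfl⟩
        refine ⟨Q, ?_, rfl⟩
        rw [natDegree_le_iff_coeff_eq_zero]
        intro N hN
        exact (degree_lt_iff_coeff_zero _ _).mp hQ N (by omega)
    refine ⟨d + 1, by omega, finrank_of_eq_V ι W (d + 1) (by omega) hW', ?_⟩
    intro f
    rw [hW']
    constructor
    · rintro ⟨Q, hQ, rfl⟩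
      exact ⟨Q, hQ, fun j => rfl⟩
    · rintro ⟨P, hP, hf⟩
      exact ⟨P, hP, funext hf⟩

end Cfsg.Agent.S0673
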