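import Cfsg.Statements.S0674
import Cfsg.Agent.Helper20.PrimeDegDual

set_option autoImplicit false
open Cfsg Polynomial

namespace Cfsg.Agent.S0674

open Cfsg.Agent.Helper20

/-- Let `G` be a non-solvable transitive permutation group of prime degree `p` and `K` a field of characteristic `p`. Then the heart of the permutation module is irreducible: an invariant subspace containing the constants and contained in the sum-zero functions is one or the other. -/
theorem result {α : Type*} [Fintype α] [DecidableEq α] {p : ℕ} [Fact p.Prime] (hα : Fintype.card α = p) (G : Subgroup (Equiv.Perm α)) [MulAction.IsPretransitive G α] (hG : ¬ Group.IsSolvable G) {K : Type*} [Field K] [CharP K p] (W : Subrepresentation (Cfsg.permRep K G α)) (h₁ : (Cfsg.permConstants K G α).toSubmodule ≤ W.toSubmodule) (h₂ : W.toSubmodule ≤ (Cfsg.permSumZero K G α).toSubmodule) : W = Cfsg.permConstants K G α ∨ W = Cfsg.permSumZero K G α := by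
  classical
  have hp : p.Prime := Fact.out
  have hp2 : 2 ≤ p := hp.two_le
  obtain ⟨e, t, htG, ht⟩ := exists_coord hα G
  let ι : ZMod p →+* K := ZMod.castHom (dvd_refl p) K
  let W' : Submodule K (ZMod p → K) := W.toSubmodule.comap (LinearMap.funLeft K K e.symm)
  have hW' : ∀ h : ZMod p → K, h ∈ W' ↔ h ∘ e.symm ∈ W.toSubmodule := fun h => Iff.rfl
  have hinvW : ∀ g ∈ G, ∀ h ∈ W', h ∘ (conjHom e g) ∈ W' := by
    intro g hg h hh
    rw [hW'] at hh ⊢
    have := W.apply_mem_toSubmodule (⟨g, hg⟩⁻¹ : G) hh
    convert this using 1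
    funext y
    simp [Cfsg.permRep, conjHom_apply, Subgroup.smul_def]
    rfl
  have hshift : ∀ h ∈ W', deltaOp h ∈ W' := by
    intro h hh
    have h1 : deltaOp h = h ∘ (conjHom e t) - h := by
      funext x
      simp [deltaOp_apply, conjHom_apply, ht]
    rw [h1]
    exact W'.sub_mem (hinvW t htG h hh) hh
  have hshiftpow : ∀ (n : ℕ) (h : ZMod p → K), h ∈ W' → (deltaOp ^ n) h ∈ W' := by
    intro n
    induction n with
    | zero => intro h hh; simpa using hh
    | succ n ih =>
      intro h hh
      rw [pow_succ, Module.End.mul_apply]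
      exact ih _ (hshift h hh)
  have hconst : ∀ a : K, evf ι (C a) ∈ W' := by
    intro a
    rw [hW']
    apply h₁
    show _ ∈ Submodule.span K {fun _ => 1}
    rw [Submodule.mem_span_singleton]
    refine ⟨a, ?_⟩
    funext y
    simp [evf]
  have hsumW : ∀ h ∈ W', ∑ x : ZMod p, h x = 0 := by
    intro h hh
    rw [hW'] at hh
    have h3 : ∑ y : α, (h ∘ e.symm) y = 0 := h₂ hh
    rw [← h3]
    exact (Equiv.sum_comp e.symm h).symm
  -- the degree of W'
  let D : Set ℕ := {n | ∃ P : K[X], P.natDegree = n ∧ n < p ∧ evf ι P ∈ W'}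
  have hDne : D.Nonempty := ⟨0, C 1, natDegree_C 1, hp.pos, hconst 1⟩
  have hDbdd : BddAbove D := ⟨p, fun n hn => by
    obtain ⟨P, -, hlt, -⟩ := hn
    exact hlt.le⟩
  obtain ⟨P0, hP0d, hdp, hP0W⟩ := Nat.sSup_mem hDne hDbdd
  set d := sSup D with hd
  have hmax : ∀ Q : K[X], Q.natDegree < p → evf ι Q ∈ W' → Q.natDegree ≤ d :=
    fun Q hQ hQW => le_csSup hDbdd ⟨Q, rfl, hQ, hQW⟩
  have hP0p : P0.natDegree < p := by rw [hP0d]; exact hdp
  -- Claim A
  have hA : ∀ n, n ≤ d → ∀ Q : K[X], Q.natDegree ≤ n → evf ι Q ∈ W' := by
    intro n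
    induction n with
    | zero =>
      intro _ Q hQ
      rw [eq_C_of_natDegree_le_zero hQ]
      exact hconst _
    | succ n ih =>
      intro hn Q hQ
      by_cases hQn : Q.natDegree ≤ n
      · exact ih (by omega) Q hQn
      · have hQdeg : Q.natDegree = n + 1 := by omega
        set R := dpoly^[d - (n + 1)] P0 with hR
        have hRdeg : R.natDegree = n + 1 := by
          rw [hR, natDegree_dpoly_iterate P0 hP0p (d - (n + 1)) (by omega), hP0d]
          omega
        have hRW : evf ι R ∈ W' := by
          rw [hR, ← deltaOp_pow_evf]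
          exact hshiftpow _ _ hP0W
        have hR0 : R ≠ 0 := by
          intro h0
          rw [h0, natDegree_zero] at hRdeg
          omega
        have hQ0 : Q ≠ 0 := by
          intro h0
          rw [h0, natDegree_zero] at hQdeg
          omega
        set c := Q.leadingCoeff / R.leadingCoeff with hc
        have hc0 : c ≠ 0 :=
          div_ne_zero (leadingCoeff_ne_zero.mpr hQ0) (leadingCoeff_ne_zero.mpr hR0)
        have hdegeq : Q.degree = (C c * R).degree := by
          rw [degree_C_mul hc0, degree_eq_natDegree hQ0, degree_eq_natDegree hR0, hQdeg, hRdeg]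
        have hlc : Q.leadingCoeff = (C c * R).leadingCoeff := by
          rw [leadingCoeff_mul, leadingCoeff_C, hc,
            div_mul_cancel₀ _ (leadingCoeff_ne_zero.mpr hR0)]
        have hlt := degree_sub_lt_left hdegeq hQ0 hlc
        have hQ'deg : (Q - C c * R).natDegree ≤ n := by
          by_cases hz : Q - C c * R = 0
          · rw [hz, natDegree_zero]; omega
          · have := natDegree_lt_natDegree hz hlt
            omega
        have hsplit : evf ι Q = evf ι (Q - C c * R) + c • evf ι R := by
          funext x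
          simp [evf]
        rw [hsplit]
        exact W'.add_mem (ih (by omega) _ hQ'deg) (W'.smul_mem c hRW)
  -- Claim B
  have hB : ∀ h ∈ W', ∃ Q : K[X], Q.natDegree ≤ d ∧ h = evf ι Q := by
    intro h hh
    obtain ⟨Q, hQ, rfl⟩ := exists_evf ι h
    exact ⟨Q, hmax Q hQ hh, rfl⟩
  -- d ≤ p - 2
  have hd2 : d ≤ p - 2 := by
    by_contra hcon
    have hd1 : P0.natDegree = p - 1 := by omega
    have h0 := hsumW _ hP0W
    rw [sum_evf ι P0 hP0p, neg_eq_zero, ← hd1] at h0
    have hP00 : P0 ≠ 0 := by
      intro h
      rw [h, natDegree_zero] at hd1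
      omega
    exact (leadingCoeff_ne_zero.mpr hP00) h0
  rcases Nat.eq_zero_or_pos d with hd0 | hdpos
  · -- W = constants
    left
    apply Subrepresentation.toSubmodule_injective
    apply le_antisymm _ h₁
    intro f hf
    have hfe : f ∘ e ∈ W' := by
      rw [hW']
      have : (f ∘ e) ∘ e.symm = f := by
        funext y
        simp
      rw [this]
      exact hf
    obtain ⟨Q, hQ, hfQ⟩ := hB _ hfe
    rw [hd0] at hQ
    show f ∈ Submodule.span K {fun _ => 1}
    rw [Submodule.mem_span_singleton]
    refine ⟨Q.coeff 0, ?_⟩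
    funext y
    have h3 := congrFun hfQ (e.symm y)
    rw [eq_C_of_natDegree_le_zero hQ] at h3
    simp [evf] at h3
    simp [h3]
  · rcases Nat.lt_or_ge d (p - 2) with hlt | hge
    · -- contradiction with non-solvability
      exfalso
      apply hG
      apply isSolvable_of_conj_affine e G
      intro g hg
      apply affine_of_invariant' ι d hdpos (by omega)
      · intro P hP
        exact hB _ (hinvW g hg _ (hA d le_rfl P hP))
      · intro P hP
        have hsymm : (conjHom e g).symm = conjHom e g⁻¹ := by
          rw [map_inv]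
          rfl
        rw [hsymm]
        exact hB _ (hinvW g⁻¹ (G.inv_mem hg) _ (hA d le_rfl P hP))
    · -- W = sum zero
      right
      apply Subrepresentation.toSubmodule_injective
      apply le_antisymm h₂
      intro f hf
      have hf0 : ∑ y : α, f y = 0 := hf
      obtain ⟨Q, hQ, hfQ⟩ := exists_evf ι (f ∘ e)
      have hsum : ∑ x : ZMod p, evf ι Q x = 0 := by
        rw [← hfQ, ← hf0]
        exact Equiv.sum_comp e f
      rw [sum_evf ι Q hQ, neg_eq_zero] at hsum
      have hQd : Q.natDegree ≤ d := by
        by_contra hcon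
        have hQ1 : Q.natDegree = p - 1 := by omega
        have hQ0 : Q ≠ 0 := by
          intro h
          rw [h, natDegree_zero] at hQ1
          omega
        rw [← hQ1] at hsum
        exact (leadingCoeff_ne_zero.mpr hQ0) hsum
      have hfe : f ∘ e ∈ W' := by
        rw [hfQ]
        exact hA d le_rfl Q hQd
      rw [hW'] at hfe
      have : (f ∘ e) ∘ e.symm = f := by
        funext y
        simp
      rw [this] at hfe
      exact hfe

end Cfsg.Agent.S0674
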