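import Cfsg.Statements.S0676
import Cfsg.Agent.Helper20.Dihedral
import Cfsg.Agent.S0672
import Cfsg.Agent.S0674

set_option autoImplicit false
open Cfsg

namespace Cfsg.Agent.S0676

open Cfsg.Agent.Helper20
open scoped Pointwise

/-- A non-solvable transitive permutation group of prime degree `p` whose Sylow `p`-normaliser has even order is triply transitive. -/
theorem result {α : Type*} [Fintype α] [DecidableEq α] {p : ℕ} [Fact p.Prime] (hα : Fintype.card α = p) (G : Subgroup (Equiv.Perm α)) [MulAction.IsPretransitive G α] (hG : ¬ Group.IsSolvable G) (P : Sylow p G) (heven : Even (Nat.card (Subgroup.normalizer ((P : Subgroup G) : Set G)))) : MulAction.IsMultiplyPretransitive G α 3 := by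
  have hprime : p.Prime := Fact.out
  by_cases hp3 : p < 3
  · refine ⟨fun x y => ?_⟩
    exfalso
    have := Fintype.card_le_of_embedding x
    rw [Fintype.card_fin, hα] at this
    omega
  have hp2 : p ≠ 2 := by omega
  have h2 : MulAction.IsMultiplyPretransitive G α 2 := by
    by_contra h
    exact hG (isSolvable_of_not_two_transitive hα G h)
  obtain ⟨e, t, r, htG, hrG, het, her⟩ := exists_dihedral_coord hα hp2 G P heven
  have h2ne : (2 : ZMod p) ≠ 0 := by
    intro h
    have h' : ((2 : ℕ) : ZMod p) = 0 := by exact_mod_cast h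
    rw [ZMod.natCast_eq_zero_iff] at h'
    exact hp2 ((Nat.prime_dvd_prime_iff_eq hprime Nat.prime_two).mp h')
  have hpowt : ∀ (n : ℕ) (y : ZMod p), (t ^ n) (e y) = e (y + (n : ZMod p)) := by
    intro n
    induction n with
    | zero => intro y; simp
    | succ n ih =>
      intro y
      rw [pow_succ, Equiv.Perm.mul_apply, het, ih, Nat.cast_succ]
      congr 1
      ring
  apply Cfsg.Agent.S0672.result (K := ZMod p) (p := p) h2 (by rw [hα]) ?_ ?_
  · intro a
    have h1 := Subgroup.card_mul_index (MulAction.stabilizer G a)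
    have hΩ : Nat.card α = p := by rw [Nat.card_eq_fintype_card, hα]
    rw [MulAction.index_stabilizer_of_transitive, hΩ] at h1
    have h2' : 2 ∣ Nat.card G := heven.two_dvd.trans (Subgroup.card_subgroup_dvd_card _)
    rw [← h1] at h2'
    have : 2 ∣ Nat.card (MulAction.stabilizer G a) := by
      rcases (Nat.Prime.dvd_mul Nat.prime_two).mp h2' with h | h
      · exact h
      · exfalso
        exact hp2 ((Nat.prime_dvd_prime_iff_eq Nat.prime_two hprime).mp h).symm
    exact even_iff_two_dvd.mpr this
  · intro f hf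
    have hcardK : (Fintype.card α : ZMod p) = 0 := by
      rw [hα]
      exact ZMod.natCast_self p
    have hconst_le : (Cfsg.permConstants (ZMod p) G α).toSubmodule
        ≤ (Cfsg.permSumZero (ZMod p) G α).toSubmodule := by
      show Submodule.span (ZMod p) {fun _ => 1} ≤ _
      rw [Submodule.span_le]
      intro x hx
      rw [Set.mem_singleton_iff] at hx
      show ∑ y, x y = 0
      rw [hx]
      simp [hcardK]
    let W : Subrepresentation (Cfsg.permRep (ZMod p) G α) :=
      { toSubmodule := (LinearMap.ker f.toLinearMap).map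
          (Cfsg.permSumZero (ZMod p) G α).toSubmodule.subtype
        apply_mem_toSubmodule := by
          rintro g v ⟨w, hw, rfl⟩
          refine ⟨(Cfsg.permSumZero (ZMod p) G α).toRepresentation g w, ?_, rfl⟩
          have hw' : f w = 0 := hw
          show f ((Cfsg.permSumZero (ZMod p) G α).toRepresentation g w) = 0
          rw [f.isIntertwining, hw', map_zero] }
    have hWmem : ∀ v, v ∈ W.toSubmodule ↔
        ∃ w : (Cfsg.permSumZero (ZMod p) G α).toSubmodule, f w = 0 ∧ (w : α → ZMod p) = v := by
      intro v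
      constructor
      · rintro ⟨w, hw, rfl⟩
        exact ⟨w, hw, rfl⟩
      · rintro ⟨w, hw, rfl⟩
        exact ⟨w, hw, rfl⟩
    have h₁ : (Cfsg.permConstants (ZMod p) G α).toSubmodule ≤ W.toSubmodule := by
      intro v hv
      rw [hWmem]
      exact ⟨⟨v, hconst_le hv⟩, hf ⟨v, hconst_le hv⟩ hv, rfl⟩
    have h₂ : W.toSubmodule ≤ (Cfsg.permSumZero (ZMod p) G α).toSubmodule := by
      intro v hv
      rw [hWmem] at hv
      obtain ⟨w, -, rfl⟩ := hv
      exact w.2
    -- the coordinate function lies in W
    let v1 : α → ZMod p := fun a => e.symm a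
    have hv1 : v1 ∈ (Cfsg.permSumZero (ZMod p) G α).toSubmodule := by
      show ∑ a, v1 a = 0
      have h1 : ∑ a, v1 a = ∑ i : ZMod p, i := Equiv.sum_comp e.symm (fun i => i)
      have h3 : ∑ i : ZMod p, i = ∑ i : ZMod p, -i :=
        (Equiv.sum_comp (Equiv.neg (ZMod p)) (fun i => i)).symm
      rw [Finset.sum_neg_distrib] at h3
      have h4 : (2 : ZMod p) * ∑ i : ZMod p, i = 0 := by linear_combination h3
      rw [h1]
      rcases mul_eq_zero.mp h4 with h | h
      · exact absurd h h2ne
      · exact h
    have hone : (fun _ : α => (1 : ZMod p)) ∈ (Cfsg.permConstants (ZMod p) G α).toSubmodule :=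
      Submodule.subset_span rfl
    have hfw1 : f ⟨v1, hv1⟩ = 0 := by
      funext s
      obtain ⟨a1, a2, hne, hs⟩ := Finset.card_eq_two.mp (Set.powersetCard.card_eq s)
      obtain ⟨c, hc⟩ : ∃ c : ZMod p, c = e.symm a1 + e.symm a2 := ⟨_, rfl⟩
      obtain ⟨g, hgdef⟩ : ∃ g : Equiv.Perm α, g = t ^ c.val * r := ⟨_, rfl⟩
      have hgG : g ∈ G := by rw [hgdef]; exact G.mul_mem (G.pow_mem htG _) hrG
      have hg : ∀ x, g (e x) = e (-x + c) := by
        intro x
        rw [hgdef, Equiv.Perm.mul_apply, her, hpowt, ZMod.natCast_zmod_val]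
      have hginv : ∀ a, g⁻¹ a = e (-(e.symm a) + c) := by
        intro a
        apply g.injective
        rw [hg, ← Equiv.Perm.mul_apply, mul_inv_cancel, Equiv.Perm.one_apply]
        have : -(-e.symm a + c) + c = e.symm a := by ring
        rw [this, Equiv.apply_symm_apply]
      have hρ : (Cfsg.permSumZero (ZMod p) G α).toRepresentation ⟨g, hgG⟩ ⟨v1, hv1⟩
          = -(⟨v1, hv1⟩ : (Cfsg.permSumZero (ZMod p) G α).toSubmodule)
            + c • (⟨fun _ => 1, hconst_le hone⟩ : (Cfsg.permSumZero (ZMod p) G α).toSubmodule) := by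
        apply Subtype.ext
        funext a
        show v1 ((⟨g, hgG⟩ : G)⁻¹ • a) = -v1 a + c • (1 : ZMod p)
        have : (⟨g, hgG⟩ : G)⁻¹ • a = g⁻¹ a := rfl
        rw [this, hginv]
        simp [v1]
      have h1 := f.isIntertwining _ _ ⟨g, hgG⟩ ⟨v1, hv1⟩
      have hfone : f (⟨fun _ => 1, hconst_le hone⟩ :
          (Cfsg.permSumZero (ZMod p) G α).toSubmodule) = 0 := hf _ hone
      rw [hρ, map_add, map_neg, map_smul, hfone, smul_zero, add_zero] at h1
      have h3 := congrFun h1 s
      have h3' : (-(f ⟨v1, hv1⟩)) s = f ⟨v1, hv1⟩ ((g⁻¹ : Equiv.Perm α) • s) := h3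
      have hs' : (g⁻¹ : Equiv.Perm α) • s = s := by
        apply Subtype.ext
        rw [Set.powersetCard.coe_smul, hs, Finset.smul_finset_def, Finset.image_insert,
          Finset.image_singleton]
        have e1 : (g⁻¹ : Equiv.Perm α) • a1 = a2 := by
          show g⁻¹ a1 = a2
          rw [hginv, hc]
          have : -e.symm a1 + (e.symm a1 + e.symm a2) = e.symm a2 := by ring
          rw [this, Equiv.apply_symm_apply]
        have e2 : (g⁻¹ : Equiv.Perm α) • a2 = a1 := by
          show g⁻¹ a2 = a1
          rw [hginv, hc]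
          have : -e.symm a2 + (e.symm a1 + e.symm a2) = e.symm a1 := by ring
          rw [this, Equiv.apply_symm_apply]
        rw [e1, e2, Finset.pair_comm]
      rw [hs'] at h3'
      have h5 : (2 : ZMod p) * f ⟨v1, hv1⟩ s = 0 := by
        have h6 : (-(f ⟨v1, hv1⟩)) s = -(f ⟨v1, hv1⟩ s) := rfl
        rw [h6] at h3'
        linear_combination -h3'
      rcases mul_eq_zero.mp h5 with h | h
      · exact absurd h h2ne
      · exact h
    rcases Cfsg.Agent.S0674.result hα G hG W h₁ h₂ with hW | hW
    · exfalso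
      have hv1W : v1 ∈ W.toSubmodule := (hWmem v1).mpr ⟨⟨v1, hv1⟩, hfw1, rfl⟩
      rw [hW] at hv1W
      have hv1c : v1 ∈ Submodule.span (ZMod p) {fun _ : α => (1 : ZMod p)} := hv1W
      rw [Submodule.mem_span_singleton] at hv1c
      obtain ⟨c, hc⟩ := hv1c
      have h0 := congrFun hc (e 0)
      have h1 := congrFun hc (e 1)
      simp only [Pi.smul_apply, smul_eq_mul, mul_one, v1, Equiv.symm_apply_apply] at h0 h1
      rw [h0] at h1
      exact zero_ne_one h1
    · apply DFunLike.ext
      intro w
      have hw : (w : α → ZMod p) ∈ W.toSubmodule := by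
        rw [hW]
        exact w.2
      rw [hWmem] at hw
      obtain ⟨w', hw', hww'⟩ := hw
      have : w' = w := Subtype.ext hww'
      rw [← this, hw']
      rfl

end Cfsg.Agent.S0676
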