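import Cfsg.Statements.S0677
import Cfsg.Agent.Helper20.IndexP

set_option autoImplicit false
open Cfsg

namespace Cfsg.Agent.S0677

open Cfsg.Agent.Helper20

/-- The doubly transitive case: a `p'`-subgroup `H'` containing the reflection `x ↦ -x`, whose
translates under the `p`-cycle cover `G`, fixes the point `0`. -/
theorem fixes_of_two_transitive {p : ℕ} [Fact p.Prime] {α : Type*} [Fintype α] [DecidableEq α]
    (hα : Fintype.card α = p) (hp2 : p ≠ 2)
    (G : Subgroup (Equiv.Perm α)) [MulAction.IsPretransitive G α]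
    (h2 : MulAction.IsMultiplyPretransitive G α 2)
    (e : ZMod p ≃ α) (t r : Equiv.Perm α) (htG : t ∈ G) (het : ∀ i, t (e i) = e (i + 1))
    (her : ∀ i, r (e i) = e (-i))
    (H' : Subgroup (Equiv.Perm α)) (hrH : r ∈ H') (hnd : ¬ p ∣ Nat.card H')
    (hcos : ∀ g ∈ G, ∃ c : ZMod p, (t ^ c.val)⁻¹ * g ∈ H') :
    ∀ h ∈ H', h (e 0) = e 0 := by
  classical
  have hprime : p.Prime := Fact.out
  have h2ne : (2 : ZMod p) ≠ 0 := by
    intro h
    have h' : ((2 : ℕ) : ZMod p) = 0 := by exact_mod_cast h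
    rw [ZMod.natCast_eq_zero_iff] at h'
    exact hp2 ((Nat.prime_dvd_prime_iff_eq hprime Nat.prime_two).mp h')
  have hconj : ∀ (g : Equiv.Perm α) (x : ZMod p), e (conjHom e g x) = g (e x) := by
    intro g x
    rw [conjHom_apply, Equiv.apply_symm_apply]
  have hpowt : ∀ (n : ℕ) (x : ZMod p), conjHom e (t ^ n) x = x + (n : ZMod p) := by
    intro n
    induction n with
    | zero => intro x; simp
    | succ n ih =>
      intro x
      rw [pow_succ, map_mul, Equiv.Perm.mul_apply, ih, conjHom_apply, het, Equiv.symm_apply_apply,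
        Nat.cast_succ]
      ring
  let D : Finset (ZMod p) := Finset.univ.filter (fun x => ∃ h ∈ H', h (e 0) = e x)
  have hD : ∀ x, x ∈ D ↔ ∃ h ∈ H', h (e 0) = e x := by
    intro x
    simp [D]
  have hD0 : (0 : ZMod p) ∈ D := (hD 0).mpr ⟨1, H'.one_mem, rfl⟩
  have hDneg : ∀ x, x ∈ D → -x ∈ D := by
    intro x hx
    obtain ⟨h, hh, hx'⟩ := (hD x).mp hx
    exact (hD _).mpr ⟨r * h, H'.mul_mem hrH hh, by rw [Equiv.Perm.mul_apply, hx', her]⟩
  have hDH1 : ∀ h ∈ H', ∀ x, x ∈ D → conjHom e h x ∈ D := by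
    intro h hh x hx
    obtain ⟨h1, hh1, hx'⟩ := (hD x).mp hx
    exact (hD _).mpr ⟨h * h1, H'.mul_mem hh hh1, by rw [Equiv.Perm.mul_apply, hx', hconj]⟩
  have hDH : ∀ h ∈ H', ∀ x, x ∈ D ↔ conjHom e h x ∈ D := by
    intro h hh x
    refine ⟨hDH1 h hh x, fun hx => ?_⟩
    have := hDH1 h⁻¹ (H'.inv_mem hh) _ hx
    rwa [← Equiv.Perm.mul_apply, ← map_mul, inv_mul_cancel, map_one, Equiv.Perm.one_apply] at this
  have hDne : ¬ (∀ x, x ∈ D) := by
    intro hall
    apply hnd
    have horb : MulAction.orbit H' (e 0) = Set.univ := by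
      ext a
      simp only [Set.mem_univ, iff_true]
      obtain ⟨h, hh, hx⟩ := (hD (e.symm a)).mp (hall _)
      rw [Equiv.apply_symm_apply] at hx
      exact ⟨⟨h, hh⟩, hx⟩
    have h1 := MulAction.index_stabilizer (G := H') (x := e 0)
    rw [horb, Set.ncard_univ, Nat.card_eq_fintype_card, hα] at h1
    rw [← h1]
    exact Subgroup.index_dvd_card _
  have hTS : ∀ z : ZMod p, (∀ d, d ∈ D ↔ d + z ∈ D) → z = 0 := by
    intro z hz
    by_contra hz0
    apply hDne
    have hn : ∀ n : ℕ, (n : ZMod p) * z ∈ D := by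
      intro n
      induction n with
      | zero => simpa using hD0
      | succ n ih =>
        have := (hz _).mp ih
        have e1 : ((n + 1 : ℕ) : ZMod p) * z = (n : ZMod p) * z + z := by push_cast; ring
        rw [e1]
        exact this
    intro x
    have := hn (x / z).val
    rwa [ZMod.natCast_zmod_val, div_mul_cancel₀ _ hz0] at this
  have hT : ∀ g ∈ G, ∃ c : ZMod p, ∀ u, u ∈ D ↔ conjHom e g u - c ∈ D := by
    intro g hg
    obtain ⟨c, hc⟩ := hcos g hg
    refine ⟨c, fun u => ?_⟩
    rw [hDH _ hc u]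
    have hinv : ∀ y, conjHom e (t ^ c.val)⁻¹ y = y - c := by
      intro y
      have h1 := hpowt c.val (conjHom e (t ^ c.val)⁻¹ y)
      rw [← Equiv.Perm.mul_apply, ← map_mul, mul_inv_cancel, map_one, Equiv.Perm.one_apply,
        ZMod.natCast_zmod_val] at h1
      linear_combination -h1
    rw [map_mul, Equiv.Perm.mul_apply, hinv]
  have hγ : ∀ g ∈ G, ∃ γ : ZMod p → ZMod p, Function.Injective γ ∧
      ∀ w c, w - c ∈ D ↔ conjHom e g w - γ c ∈ D := by
    intro g hg
    have h1 : ∀ c : ZMod p, ∃ c' : ZMod p, ∀ u, u ∈ D ↔ conjHom e g (u + c) - c' ∈ D := by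
      intro c
      obtain ⟨c', hc'⟩ := hT (g * t ^ c.val) (G.mul_mem hg (G.pow_mem htG _))
      refine ⟨c', fun u => ?_⟩
      rw [hc' u, map_mul, Equiv.Perm.mul_apply, hpowt, ZMod.natCast_zmod_val]
    choose γ hγ' using h1
    have hγ2 : ∀ w c, w - c ∈ D ↔ conjHom e g w - γ c ∈ D := by
      intro w c
      have := hγ' c (w - c)
      rwa [sub_add_cancel] at this
    refine ⟨γ, ?_, hγ2⟩
    intro c1 c2 hc
    have hz : ∀ d, d ∈ D ↔ d + (c1 - c2) ∈ D := by
      intro d
      have e1 := hγ2 (d + c1) c1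
      have e2 := hγ2 (d + c1) c2
      rw [add_sub_cancel_right, hc] at e1
      rw [e1, ← e2]
      have : d + c1 - c2 = d + (c1 - c2) := by ring
      rw [this]
    exact sub_eq_zero.mp (hTS _ hz)
  let S : ZMod p → ZMod p → Finset (ZMod p) := fun x y =>
    Finset.univ.filter (fun c => x - c ∈ D ∧ y - c ∈ D)
  have hS : ∀ x y c, c ∈ S x y ↔ x - c ∈ D ∧ y - c ∈ D := by
    intro x y c
    simp [S]
  have hle : ∀ g ∈ G, ∀ x y, (S x y).card ≤ (S (conjHom e g x) (conjHom e g y)).card := by
    intro g hg x y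
    obtain ⟨γ, hγinj, hγ2⟩ := hγ g hg
    apply Finset.card_le_card_of_injOn γ
    · intro c hc
      have hc' := (hS x y c).mp (Finset.mem_coe.mp hc)
      exact Finset.mem_coe.mpr ((hS _ _ _).mpr ⟨(hγ2 x c).mp hc'.1, (hγ2 y c).mp hc'.2⟩)
    · exact hγinj.injOn
  have hpar : ∀ x y, Even (S x y).card ↔ (x - y) / 2 ∉ D := by
    intro x y
    let σ : ZMod p → ZMod p := fun c => x + y - c
    have hσσ : ∀ c, σ (σ c) = c := by
      intro c
      simp only [σ]
      ring
    have hσS : ∀ c, c ∈ S x y → σ c ∈ S x y := by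
      intro c hc
      rw [hS] at hc ⊢
      constructor
      · have := hDneg _ hc.2
        have e1 : x - σ c = -(y - c) := by simp only [σ]; ring
        rw [e1]; exact this
      · have := hDneg _ hc.1
        have e1 : y - σ c = -(x - c) := by simp only [σ]; ring
        rw [e1]; exact this
    have hfixσ : ∀ c, σ c = c ↔ c = (x + y) / 2 := by
      intro c
      simp only [σ]
      rw [eq_div_iff h2ne]
      constructor
      · intro h; linear_combination -h
      · intro h; linear_combination -h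
    have hsplit := Finset.card_filter_add_card_filter_not (s := S x y) (fun c => σ c = c)
    have heven : Even ((S x y).filter (fun c => ¬ σ c = c)).card := by
      have hsum : ∑ c ∈ (S x y).filter (fun c => ¬ σ c = c), (1 : ZMod 2) = 0 := by
        apply Finset.sum_involution (fun c _ => σ c)
        · intro c _
          decide
        · intro c hc _
          exact (Finset.mem_filter.mp hc).2
        · intro c hc
          rw [Finset.mem_filter] at hc ⊢
          refine ⟨hσS c hc.1, ?_⟩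
          rw [hσσ]
          exact fun h => hc.2 h.symm
        · intro c _
          exact hσσ c
      rw [Finset.sum_const, nsmul_one, ZMod.natCast_eq_zero_iff] at hsum
      exact even_iff_two_dvd.mpr hsum
    have hF : ((S x y).filter (fun c => σ c = c)).card = if (x - y) / 2 ∈ D then 1 else 0 := by
      have hc0 : (x + y) / 2 ∈ S x y ↔ (x - y) / 2 ∈ D := by
        rw [hS]
        have e1 : x - (x + y) / 2 = (x - y) / 2 := by field_simp; ring
        have e2 : y - (x + y) / 2 = -((x - y) / 2) := by field_simp; ring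
        rw [e1, e2]
        constructor
        · intro h; exact h.1
        · intro h; exact ⟨h, hDneg _ h⟩
      split_ifs with hmem
      · rw [Finset.card_eq_one]
        refine ⟨(x + y) / 2, ?_⟩
        ext c
        rw [Finset.mem_filter, Finset.mem_singleton, hfixσ]
        constructor
        · intro h; exact h.2
        · intro h; rw [h]; exact ⟨hc0.mpr hmem, rfl⟩
      · rw [Finset.card_eq_zero]
        ext c
        rw [Finset.mem_filter, hfixσ]
        simp only [Finset.notMem_empty, iff_false, not_and]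
        intro h1 h3
        rw [h3] at h1
        exact hmem (hc0.mp h1)
    rw [← hsplit, hF, Nat.even_add]
    split_ifs with hmem
    · simp [hmem, heven]
    · simp [hmem, heven]
  have hiff : ∀ w w', w ≠ 0 → w' ≠ 0 → (w ∈ D ↔ w' ∈ D) := by
    intro w w' hw hw'
    have hne1 : e (2 * w) ≠ e 0 := fun h => mul_ne_zero h2ne hw (e.injective h)
    have hne2 : e (2 * w') ≠ e 0 := fun h => mul_ne_zero h2ne hw' (e.injective h)
    obtain ⟨g, hg1, hg2⟩ := (MulAction.is_two_pretransitive_iff.mp h2) hne1 hne2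
    have hg1' : (g : Equiv.Perm α) (e (2 * w)) = e (2 * w') := hg1
    have hg2' : (g : Equiv.Perm α) (e 0) = e 0 := hg2
    have e1 : conjHom e (g : Equiv.Perm α) (2 * w) = 2 * w' := by
      rw [conjHom_apply, hg1', Equiv.symm_apply_apply]
    have e2 : conjHom e (g : Equiv.Perm α) 0 = 0 := by
      rw [conjHom_apply, hg2', Equiv.symm_apply_apply]
    have e3 : conjHom e (g : Equiv.Perm α)⁻¹ (2 * w') = 2 * w := by
      rw [← e1, ← Equiv.Perm.mul_apply, ← map_mul, inv_mul_cancel, map_one, Equiv.Perm.one_apply]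
    have e4 : conjHom e (g : Equiv.Perm α)⁻¹ 0 = 0 := by
      conv_lhs => rw [← e2]
      rw [← Equiv.Perm.mul_apply, ← map_mul, inv_mul_cancel, map_one, Equiv.Perm.one_apply]
    have le1 := hle (g : Equiv.Perm α) g.2 (2 * w) 0
    rw [e1, e2] at le1
    have le2 := hle (g : Equiv.Perm α)⁻¹ (G.inv_mem g.2) (2 * w') 0
    rw [e3, e4] at le2
    have heq : (S (2 * w) 0).card = (S (2 * w') 0).card := le_antisymm le1 le2
    have p1 := hpar (2 * w) 0
    have p2 := hpar (2 * w') 0
    rw [sub_zero, mul_div_cancel_left₀ _ h2ne] at p1 p2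
    rw [heq] at p1
    exact not_iff_not.mp (p1.symm.trans p2)
  intro h hh
  by_contra hne
  have hx : e.symm (h (e 0)) ∈ D := (hD _).mpr ⟨h, hh, by rw [Equiv.apply_symm_apply]⟩
  have hx0 : e.symm (h (e 0)) ≠ 0 := by
    intro h0
    apply hne
    have := congrArg e h0
    rwa [Equiv.apply_symm_apply] at this
  apply hDne
  intro y
  by_cases hy : y = 0
  · rw [hy]; exact hD0
  · exact (hiff _ y hx0 hy).mp hx

/-- In a transitive permutation group of prime degree `p` whose Sylow `p`-normaliser has even order, the point stabilisers are the only subgroups of index `p`. -/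
theorem result {α : Type*} [Fintype α] [DecidableEq α] {p : ℕ} [Fact p.Prime] (hα : Fintype.card α = p) (G : Subgroup (Equiv.Perm α)) [MulAction.IsPretransitive G α] (P : Sylow p G) (heven : Even (Nat.card (Subgroup.normalizer ((P : Subgroup G) : Set G)))) (H : Subgroup G) (hH : H.index = p) : ∃ a : α, H = MulAction.stabilizer G a := by
  have hprime : p.Prime := Fact.out
  have hpos : 0 < Fintype.card α := by rw [hα]; exact hprime.pos
  obtain ⟨a0⟩ : Nonempty α := Fintype.card_pos_iff.mp hpos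
  suffices hfix : ∃ a : α, ∀ h ∈ H, h • a = a by
    obtain ⟨a, ha⟩ := hfix
    exact ⟨a, eq_stabilizer_of_fixes hα G H hH a ha⟩
  by_cases hp2 : p = 2
  · refine ⟨a0, fun h hh => ?_⟩
    have hcardG : Nat.card G ∣ 2 := by
      have := Subgroup.card_subgroup_dvd_card G
      have hperm : Nat.card (Equiv.Perm α) = 2 := by
        rw [Nat.card_eq_fintype_card, Fintype.card_perm, hα, hp2]; rfl
      rwa [hperm] at this
    have h2 := Subgroup.card_mul_index H
    rw [hH, hp2] at h2
    have hH1 : Nat.card H = 1 := by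
      have hpos : 0 < Nat.card H := Nat.card_pos
      have hle := Nat.le_of_dvd (by norm_num) hcardG
      omega
    have hbot := Subgroup.card_eq_one.mp hH1
    rw [hbot] at hh
    rw [Subgroup.mem_bot.mp hh, one_smul]
  have hH'mem : ∀ k : Equiv.Perm α, k ∈ H.map G.subtype ↔ ∃ h ∈ H, (h : Equiv.Perm α) = k :=
    fun k => Subgroup.mem_map
  have hnd : ¬ p ∣ Nat.card (H.map G.subtype) := by
    rw [Subgroup.card_map_of_injective G.subtype_injective]
    exact not_dvd_card_of_index hα G H hH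
  suffices hfix' : ∃ a : α, ∀ k ∈ H.map G.subtype, k a = a by
    obtain ⟨a, ha⟩ := hfix'
    exact ⟨a, fun h hh => ha _ ((hH'mem _).mpr ⟨h, hh, rfl⟩)⟩
  by_cases h2 : MulAction.IsMultiplyPretransitive G α 2
  · obtain ⟨e, t, r, htG, hrG, het, her⟩ := exists_dihedral_coord hα hp2 G P heven
    have h2ne : (2 : ZMod p) ≠ 0 := by
      intro h
      have h' : ((2 : ℕ) : ZMod p) = 0 := by exact_mod_cast h
      rw [ZMod.natCast_eq_zero_iff] at h'
      exact hp2 ((Nat.prime_dvd_prime_iff_eq hprime Nat.prime_two).mp h')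
    have hr2 : r * r = 1 := by
      ext a
      obtain ⟨i, rfl⟩ := e.surjective a
      rw [Equiv.Perm.mul_apply, her, her, neg_neg, Equiv.Perm.one_apply]
    have hr1 : r ≠ 1 := by
      intro h
      have h1 := her 1
      rw [h, Equiv.Perm.one_apply] at h1
      have h3 := e.injective h1
      apply h2ne
      linear_combination h3
    obtain ⟨rG, hrGdef⟩ : ∃ rG : G, rG = ⟨r, hrG⟩ := ⟨_, rfl⟩
    have hrGord : orderOf rG = 2 := by
      apply orderOf_eq_prime
      · rw [hrGdef]
        apply Subtype.ext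
        rw [pow_two]
        exact hr2
      · rw [hrGdef]
        intro h
        exact hr1 (congrArg Subtype.val h)
    have hZ : IsPGroup 2 (Subgroup.zpowers rG) :=
      IsPGroup.of_card (n := 1) (by rw [Nat.card_zpowers, hrGord, pow_one])
    have hnd2 : ¬ 2 ∣ Nat.card (G ⧸ H) := by
      rw [← Subgroup.index_eq_card, hH]
      intro h
      exact hp2 ((Nat.prime_dvd_prime_iff_eq Nat.prime_two hprime).mp h).symm
    haveI : Fact (Nat.Prime 2) := ⟨Nat.prime_two⟩
    obtain ⟨q, hq⟩ := hZ.nonempty_fixed_point_of_prime_not_dvd_card (G ⧸ H) hnd2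
    obtain ⟨g, rfl⟩ := QuotientGroup.mk_surjective q
    have hq' := hq ⟨rG, Subgroup.mem_zpowers rG⟩
    have hmem : g⁻¹ * rG * g ∈ H := by
      have h1 : ((rG * g : G) : G ⧸ H) = (g : G ⧸ H) := hq'
      rw [QuotientGroup.eq] at h1
      have := H.inv_mem h1
      have e1 : ((rG * g)⁻¹ * g)⁻¹ = g⁻¹ * rG * g := by group
      rwa [e1] at this
    -- new coordinates
    obtain ⟨g0, hg0⟩ : ∃ g0 : Equiv.Perm α, g0 = (g : Equiv.Perm α) := ⟨_, rfl⟩
    have hg0G : g0 ∈ G := by rw [hg0]; exact g.2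
    have ht2G : g0⁻¹ * t * g0 ∈ G := G.mul_mem (G.mul_mem (G.inv_mem hg0G) htG) hg0G
    have hr2H : g0⁻¹ * r * g0 ∈ H.map G.subtype := by
      rw [hH'mem]
      refine ⟨g⁻¹ * rG * g, hmem, ?_⟩
      rw [hrGdef, hg0]
      rfl
    have het2 : ∀ i, (g0⁻¹ * t * g0) ((e.trans g0⁻¹) i) = (e.trans g0⁻¹) (i + 1) := by
      intro i
      simp [het]
    have her2 : ∀ i, (g0⁻¹ * r * g0) ((e.trans g0⁻¹) i) = (e.trans g0⁻¹) (-i) := by
      intro i
      simp [her]
    have hpow2 : ∀ (n : ℕ) (x : ZMod p),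
        conjHom (e.trans g0⁻¹) ((g0⁻¹ * t * g0) ^ n) x = x + (n : ZMod p) := by
      intro n
      induction n with
      | zero => intro x; simp
      | succ n ih =>
        intro x
        rw [pow_succ, map_mul, Equiv.Perm.mul_apply, ih, conjHom_apply, het2,
          Equiv.symm_apply_apply, Nat.cast_succ]
        ring
    have hcos : ∀ g' ∈ G, ∃ c : ZMod p, ((g0⁻¹ * t * g0) ^ c.val)⁻¹ * g' ∈ H.map G.subtype := by
      obtain ⟨tG, htGdef⟩ : ∃ tG : G, tG = ⟨g0⁻¹ * t * g0, ht2G⟩ := ⟨_, rfl⟩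
      let φ : ZMod p → G ⧸ H := fun c => ((tG ^ c.val : G) : G ⧸ H)
      have hinj : Function.Injective φ := by
        intro c c' hcc
        have h1 : ((tG ^ c.val : G) : G ⧸ H) = ((tG ^ c'.val : G) : G ⧸ H) := hcc
        rw [QuotientGroup.eq] at h1
        have h3 : ((g0⁻¹ * t * g0) ^ c.val)⁻¹ * (g0⁻¹ * t * g0) ^ c'.val ∈ H.map G.subtype := by
          rw [hH'mem]
          refine ⟨_, h1, ?_⟩
          rw [htGdef]
          rfl
        have h4 := no_translation (e.trans g0⁻¹) _ hnd _ h3 (c' - c) (fun x => by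
          have hinv : ∀ y, conjHom (e.trans g0⁻¹) ((g0⁻¹ * t * g0) ^ c.val)⁻¹ y = y - c := by
            intro y
            have h5 := hpow2 c.val (conjHom (e.trans g0⁻¹) ((g0⁻¹ * t * g0) ^ c.val)⁻¹ y)
            rw [← Equiv.Perm.mul_apply, ← map_mul, mul_inv_cancel, map_one, Equiv.Perm.one_apply,
              ZMod.natCast_zmod_val] at h5
            linear_combination -h5
          rw [map_mul, Equiv.Perm.mul_apply, hinv, hpow2, ZMod.natCast_zmod_val]
          ring)
        exact (sub_eq_zero.mp h4).symm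
      have hcard : Nat.card (G ⧸ H) ≤ Nat.card (ZMod p) := by
        rw [← Subgroup.index_eq_card, hH, Nat.card_eq_fintype_card, ZMod.card]
      have hbij := hinj.bijective_of_nat_card_le hcard
      intro g' hg'
      obtain ⟨c, hc⟩ := hbij.2 ((⟨g', hg'⟩ : G) : G ⧸ H)
      have h1 : ((tG ^ c.val : G) : G ⧸ H) = ((⟨g', hg'⟩ : G) : G ⧸ H) := hc
      rw [QuotientGroup.eq] at h1
      refine ⟨c, ?_⟩
      rw [hH'mem]
      refine ⟨_, h1, ?_⟩
      rw [htGdef]
      rfl
    exact ⟨(e.trans g0⁻¹) 0, fixes_of_two_transitive hα hp2 G h2 (e.trans g0⁻¹) _ _ ht2G het2 her2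
      (H.map G.subtype) hr2H hnd hcos⟩
  · obtain ⟨e, haff⟩ := affine_of_not_two_transitive hα G h2
    apply fixes_of_affine e (H.map G.subtype) hnd
    intro k hk
    obtain ⟨h, hh, rfl⟩ := (hH'mem k).mp hk
    exact haff _ h.2

end Cfsg.Agent.S0677
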