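import Cfsg.Statements.S1013
import Mathlib
import Cfsg.Agent.Lead.Transfer
import Cfsg.Agent.S0988
import Cfsg.Agent.Helper4.SylowExtra

set_option autoImplicit false
open Cfsg

namespace Cfsg.Agent.S1013

open Cfsg.Agent

theorem prime_dvd_card_normal {H α : Type*} [Group H] [Finite H] [MulAction H α]
    [FaithfulSMul H α] [MulAction.IsPretransitive H α] {p : ℕ} (hp : p.Prime)
    (hα : Nat.card α = p) (K : Subgroup H) [hKn : K.Normal] (hK : K ≠ ⊥) : p ∣ Nat.card K := by
  have hpos : 0 < Nat.card α := by rw [hα]; exact hp.pos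
  haveI : Nonempty α := (Nat.card_pos_iff.mp hpos).1
  haveI : Finite α := (Nat.card_pos_iff.mp hpos).2
  obtain ⟨a⟩ := ‹Nonempty α›
  have hSidx : (MulAction.stabilizer H a).index = p := by
    rw [MulAction.index_stabilizer_of_transitive, hα]
  have hdvd : (K ⊔ MulAction.stabilizer H a).index ∣ p :=
    hSidx ▸ Subgroup.index_dvd_of_le le_sup_right
  rcases (Nat.dvd_prime hp).mp hdvd with h1 | h1
  · have htop : K ⊔ MulAction.stabilizer H a = ⊤ := Subgroup.index_eq_one.mp h1
    have horb : MulAction.orbit K a = Set.univ := by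
      ext b
      simp only [Set.mem_univ, iff_true]
      obtain ⟨g, hg⟩ := MulAction.exists_smul_eq H a b
      have hg' : g ∈ (↑(K ⊔ MulAction.stabilizer H a) : Set H) := by rw [htop]; trivial
      rw [Subgroup.normal_mul] at hg'
      obtain ⟨k, hk, s, hs, rfl⟩ := Set.mem_mul.mp hg'
      refine ⟨⟨k, hk⟩, ?_⟩
      rw [← hg, mul_smul]
      have : s • a = a := hs
      rw [this]
      rfl
    have h2 : (MulAction.stabilizer K a).index = p := by
      rw [MulAction.index_stabilizer, horb, Set.ncard_univ, hα]
    rw [← h2]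
    exact Subgroup.index_dvd_card _
  · exfalso
    apply hK
    have hrel : (MulAction.stabilizer H a).relIndex (K ⊔ MulAction.stabilizer H a) = 1 := by
      have := Subgroup.relIndex_mul_index
        (le_sup_right : MulAction.stabilizer H a ≤ K ⊔ MulAction.stabilizer H a)
      rw [h1, hSidx] at this
      exact Nat.eq_of_mul_eq_mul_right hp.pos (by rw [this, one_mul])
    have hKS : K ≤ MulAction.stabilizer H a :=
      le_sup_left.trans (Subgroup.relIndex_eq_one.mp hrel)
    rw [eq_bot_iff]
    intro k hk
    rw [Subgroup.mem_bot]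
    apply FaithfulSMul.eq_of_smul_eq_smul (α := α)
    intro b
    rw [one_smul]
    obtain ⟨g, rfl⟩ := MulAction.exists_smul_eq H a b
    have h3 : g⁻¹ * k * g ∈ K := by
      have := hKn.conj_mem k hk g⁻¹
      simpa using this
    have h4 : (g⁻¹ * k * g) • a = a := hKS h3
    calc k • g • a = g • (g⁻¹ * k * g) • a := by simp [mul_smul]
      _ = g • a := by rw [h4]

theorem card_perm_sub {α : Type*} [Fintype α] [DecidableEq α] {p : ℕ} (hp : p.Prime)
    (hα : Fintype.card α = p) (G : Subgroup (Equiv.Perm α)) [MulAction.IsPretransitive ↥G α] :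
    ∃ c, Nat.card G = p * c ∧ ¬ p ∣ c := by
  have hperm : Nat.card (Equiv.Perm α) = p.factorial := by
    rw [Nat.card_eq_fintype_card, Fintype.card_perm, hα]
  have h1 : Nat.card G ∣ p.factorial := by
    have := Subgroup.card_subgroup_dvd_card G
    rwa [hperm] at this
  have h2 : p ∣ Nat.card G := by
    obtain ⟨a⟩ : Nonempty α := by
      rw [← Fintype.card_pos_iff, hα]; exact hp.pos
    have : (MulAction.stabilizer G a).index = p := by
      rw [MulAction.index_stabilizer_of_transitive, Nat.card_eq_fintype_card, hα]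
    rw [← this]; exact Subgroup.index_dvd_card _
  obtain ⟨c, hc⟩ := h2
  refine ⟨c, hc, ?_⟩
  intro hpc
  obtain ⟨k, rfl⟩ : ∃ k, p = k + 1 := ⟨p - 1, by have := hp.pos; omega⟩
  rw [hc, Nat.factorial_succ] at h1
  have h3 : c ∣ k.factorial := Nat.dvd_of_mul_dvd_mul_left (Nat.succ_pos k) h1
  have h4 := (hp.dvd_factorial).mp (hpc.trans h3)
  omega

theorem exists_normal_compl {H : Type*} [Group H] [Finite H] {p : ℕ} [Fact p.Prime]
    (K : Subgroup H) [hKn : K.Normal] (P : Sylow p H) (hP : Nat.card P = p)
    (hPK : (P : Subgroup H) ≤ K)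
    (hNK : Subgroup.normalizer ((P : Subgroup H) : Set H) ⊓ K ≤ P) :
    ∃ M : Subgroup H, M.Normal ∧ ¬ p ∣ Nat.card M ∧ (M = ⊥ → K ≤ P) := by
  have hp : p.Prime := Fact.out
  have hP'card : Nat.card ((P.subtype hPK : Sylow p K) : Subgroup K) = p := by
    rw [Sylow.coe_subtype, Nat.card_congr (Subgroup.subgroupOfEquivOfLe hPK).toEquiv]
    exact hP
  have hnorm : Subgroup.normalizer (((P.subtype hPK : Sylow p K) : Subgroup K) : Set K) ≤
      ((P.subtype hPK : Sylow p K) : Subgroup K) := by
    have h1 := Subgroup.comap_normalizer_eq_of_le_range (H := (P : Subgroup H))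
      (f := K.subtype) (by rw [Subgroup.range_subtype]; exact hPK)
    intro x hx
    rw [Sylow.coe_subtype] at hx ⊢
    have hx' : x ∈ (Subgroup.normalizer ((P : Subgroup H) : Set H)).comap K.subtype := by
      rw [h1]; exact hx
    rw [Subgroup.mem_subgroupOf]
    exact hNK ⟨hx', x.2⟩
  have hNcard : Nat.card (Subgroup.normalizer
      (((P.subtype hPK : Sylow p K) : Subgroup K) : Set K)) = p := by
    have : Subgroup.normalizer (((P.subtype hPK : Sylow p K) : Subgroup K) : Set K) =
        ((P.subtype hPK : Sylow p K) : Subgroup K) := le_antisymm hnorm Subgroup.le_normalizer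
    rw [this, hP'card]
  have hNC : Subgroup.normalizer (((P.subtype hPK : Sylow p K) : Subgroup K) : Set K) ≤
      Subgroup.centralizer (((P.subtype hPK : Sylow p K) : Subgroup K) : Set K) := by
    apply Lead.normalizer_le_centralizer_of_coprime
    rw [hNcard, Lead.card_mulAut_of_prime_card hP'card]
    exact (Nat.coprime_self_sub_right hp.one_lt.le).mpr (Nat.coprime_one_right p)
  have hcompl := MonoidHom.ker_transferSylow_isComplement' (P.subtype hPK) hNC
  have hcard := hcompl.card_mul_card
  have hkcop : (Nat.card (MonoidHom.transferSylow (P.subtype hPK) hNC).ker).Coprime p := by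
    have h1 := Subgroup.card_mul_index ((P.subtype hPK : Sylow p K) : Subgroup K)
    have h2 : Nat.card (MonoidHom.transferSylow (P.subtype hPK) hNC).ker =
        ((P.subtype hPK : Sylow p K) : Subgroup K).index := by
      rw [← hcard, mul_comm] at h1
      exact (Nat.eq_of_mul_eq_mul_right (Nat.card_pos) h1).symm
    rw [h2, Nat.coprime_comm]
    exact (Nat.Prime.coprime_iff_not_dvd hp).mpr (Sylow.not_dvd_index _)
  have hchar : ∀ y : K, y ∈ (MonoidHom.transferSylow (P.subtype hPK) hNC).ker ↔
      (orderOf y).Coprime p := by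
    intro y
    constructor
    · intro hy
      have h1 : orderOf y ∣ Nat.card (MonoidHom.transferSylow (P.subtype hPK) hNC).ker := by
        have := orderOf_dvd_natCard
          (⟨y, hy⟩ : (MonoidHom.transferSylow (P.subtype hPK) hNC).ker)
        rwa [← Subgroup.orderOf_coe] at this
      exact Nat.Coprime.coprime_dvd_left h1 hkcop
    · intro hy
      rw [MonoidHom.mem_ker]
      have h1 : orderOf ((MonoidHom.transferSylow (P.subtype hPK) hNC) y) ∣ orderOf y :=
        orderOf_map_dvd _ y
      have h2 : orderOf ((MonoidHom.transferSylow (P.subtype hPK) hNC) y) ∣ p := by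
        have := orderOf_dvd_natCard ((MonoidHom.transferSylow (P.subtype hPK) hNC) y)
        rwa [hP'card] at this
      have h3 := Nat.eq_one_of_dvd_coprimes hy h1 h2
      exact orderOf_eq_one_iff.mp h3
  refine ⟨(MonoidHom.transferSylow (P.subtype hPK) hNC).ker.map K.subtype, ?_, ?_, ?_⟩
  · constructor
    intro x hx g
    obtain ⟨y, hy, rfl⟩ := hx
    have hconj : g * (y : H) * g⁻¹ ∈ K := hKn.conj_mem y.1 y.2 g
    refine ⟨⟨g * (y : H) * g⁻¹, hconj⟩, ?_, rfl⟩
    rw [SetLike.mem_coe, hchar]
    have h1 := (hchar y).mp hy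
    have h2 : orderOf (⟨g * (y : H) * g⁻¹, hconj⟩ : K) = orderOf y := by
      rw [← Subgroup.orderOf_coe, ← Subgroup.orderOf_coe]
      exact MulEquiv.orderOf_eq (MulAut.conj g) (y : H)
    rw [h2]
    exact h1
  · rw [Nat.card_congr (Subgroup.equivMapOfInjective _ K.subtype K.subtype_injective).toEquiv.symm]
    exact (Nat.Prime.coprime_iff_not_dvd hp).mp hkcop.symm
  · intro hbot
    have hker : (MonoidHom.transferSylow (P.subtype hPK) hNC).ker = ⊥ :=
      (Subgroup.map_eq_bot_iff_of_injective _ K.subtype_injective).mp hbot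
    rw [hker] at hcompl
    have htop := Subgroup.isComplement'_bot_left.mp hcompl
    rw [Sylow.coe_subtype] at htop
    exact Subgroup.subgroupOf_eq_top.mp htop

/-- Let G be a transitive permutation group of prime degree p having more than one Sylow p-subgroup, and suppose a Sylow p-subgroup P has prime index in its normalizer. Then G is simple. -/
theorem result {α : Type*} [Fintype α] [DecidableEq α] {p : ℕ} [Fact p.Prime] (hα : Fintype.card α = p) (G : Subgroup (Equiv.Perm α)) [MulAction.IsPretransitive ↥G α] (P : Sylow p ↥G) (hn : 1 < Nat.card (Sylow p ↥G)) (ht : (((P : Subgroup ↥G).subgroupOf (Subgroup.normalizer ((P : Subgroup ↥G) : Set ↥G))).index).Prime) : IsSimpleGroup ↥G := by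
  have hp : p.Prime := Fact.out
  have hα' : Nat.card α = p := by rw [Nat.card_eq_fintype_card, hα]
  obtain ⟨c, hc, hpc⟩ := card_perm_sub hp hα G
  have hPcard : Nat.card P = p := by
    have := S0988.sylow_card P 1 c (by rw [hc, pow_one]) hpc
    simpa using this
  refine { toNontrivial := ?_, eq_bot_or_eq_top_of_normal := ?_ }
  · apply (Finite.one_lt_card_iff_nontrivial).mp
    rw [hc]
    have h0 : 0 < c := Nat.pos_of_ne_zero (fun h => hpc (h ▸ dvd_zero p))
    have h2 := hp.two_le
    nlinarith
  · intro K hKn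
    by_contra hcon
    rw [not_or] at hcon
    obtain ⟨hK0, hK1⟩ := hcon
    have hpK : p ∣ Nat.card K := prime_dvd_card_normal hp hα' K hK0
    have hidx : ¬ p ∣ K.index := by
      intro h
      have h1 := Subgroup.card_mul_index K
      rw [hc] at h1
      obtain ⟨x, hx⟩ := hpK
      obtain ⟨y, hy⟩ := h
      rw [hx, hy] at h1
      apply hpc
      refine ⟨x * y, ?_⟩
      have : p * (p * (x * y)) = p * c := by rw [← h1]; ring
      exact (Nat.eq_of_mul_eq_mul_left hp.pos this).symm
    have hPK : (P : Subgroup G) ≤ K := Helper4.sylow_le_normal_of_not_dvd_index P K hidx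
    have hfrat : Subgroup.normalizer ((P : Subgroup G) : Set G) ⊔ K = ⊤ :=
      Sylow.normalizer_sup_eq_top' P hPK
    have hPN : (P : Subgroup G) ≤ Subgroup.normalizer ((P : Subgroup G) : Set G) :=
      Subgroup.le_normalizer
    have hmul := Subgroup.relIndex_mul_relIndex (P : Subgroup G)
      (Subgroup.normalizer ((P : Subgroup G) : Set G) ⊓ K)
      (Subgroup.normalizer ((P : Subgroup G) : Set G)) (le_inf hPN hPK) inf_le_left
    have ht' : ((P : Subgroup G).relIndex
        (Subgroup.normalizer ((P : Subgroup G) : Set G))).Prime := ht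
    rw [← hmul] at ht'
    rcases (Nat.prime_mul_iff.mp ht') with ⟨_, h1⟩ | ⟨_, h1⟩
    · have hNK : Subgroup.normalizer ((P : Subgroup G) : Set G) ≤ K :=
        (Subgroup.relIndex_eq_one.mp h1).trans inf_le_right
      apply hK1
      rw [eq_top_iff, ← hfrat]
      exact sup_le hNK le_rfl
    · have hNKP : Subgroup.normalizer ((P : Subgroup G) : Set G) ⊓ K ≤ (P : Subgroup G) :=
        Subgroup.relIndex_eq_one.mp h1
      obtain ⟨M, hMn, hMp, hMbot⟩ := exists_normal_compl K P hPcard hPK hNKP
      by_cases hM : M = ⊥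
      · have hKP : K = (P : Subgroup G) := le_antisymm (hMbot hM) hPK
        have hPn : (P : Subgroup G).Normal := hKP ▸ hKn
        haveI := Sylow.unique_of_normal P hPn
        rw [Nat.card_unique] at hn
        exact lt_irrefl 1 hn
      · exact hMp (prime_dvd_card_normal hp hα' M hM)

end Cfsg.Agent.S1013
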