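import Cfsg.Statements.S0678
import Mathlib
import Cfsg.Agent.Helper23.FixTools
import Cfsg.Agent.S0989
import Cfsg.Agent.S0990
import Cfsg.Agent.S1013
import Cfsg.Agent.S4304
import Cfsg.Agent.S0144

set_option autoImplicit false
open Cfsg

namespace Cfsg.Agent.S0678

open Cfsg.Agent.Helper23.SimpleOrd Cfsg.Agent.Helper23.FixTools

variable {α : Type*} [Fintype α] [DecidableEq α]

lemma card_perm7 (hα : Fintype.card α = 7) : Nat.card (Equiv.Perm α) = 5040 := by
  rw [Nat.card_perm, Nat.card_eq_fintype_card, hα]
  rfl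

lemma card_dvd (hα : Fintype.card α = 7) (H : Subgroup (Equiv.Perm α)) : Nat.card H ∣ 5040 := by
  rw [← card_perm7 hα]
  exact Subgroup.card_subgroup_dvd_card H

lemma seven_dvd (hα : Fintype.card α = 7) (H : Subgroup (Equiv.Perm α))
    [MulAction.IsPretransitive H α] : 7 ∣ Nat.card H := by
  have hne : Nonempty α := by
    rw [← Fintype.card_pos_iff, hα]; norm_num
  obtain ⟨a⟩ := hne
  have h1 := MulAction.index_stabilizer_of_transitive H a
  rw [Nat.card_eq_fintype_card, hα] at h1
  rw [← h1]
  exact Subgroup.index_dvd_card _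

/-- A nontrivial normal subgroup of a transitive group of degree 7 is transitive. -/
lemma normal_pretransitive (hα : Fintype.card α = 7) (H : Subgroup (Equiv.Perm α))
    [MulAction.IsPretransitive H α] (K : Subgroup H) [K.Normal] (hK : K ≠ ⊥) :
    MulAction.IsPretransitive K α := by
  haveI : MulAction.IsPreprimitive H α := MulAction.IsPreprimitive.of_prime_card (by
    rw [Nat.card_eq_fintype_card, hα]; norm_num)
  have hfix : MulAction.fixedPoints K α ≠ Set.univ := by
    intro h
    apply hK
    rw [eq_bot_iff]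
    intro k hk
    rw [Subgroup.mem_bot]
    apply Subtype.ext
    ext a
    have h1 : a ∈ MulAction.fixedPoints K α := h ▸ Set.mem_univ a
    exact h1 ⟨k, hk⟩
  exact MulAction.IsQuasiPreprimitive.isPretransitive_of_normal hfix

/-- A nontrivial normal subgroup of a transitive group of degree 7 has order divisible by 7. -/
lemma normal_seven_dvd (hα : Fintype.card α = 7) (H : Subgroup (Equiv.Perm α))
    [MulAction.IsPretransitive H α] (K : Subgroup H) [K.Normal] (hK : K ≠ ⊥) :
    7 ∣ Nat.card K := by
  haveI : MulAction.IsPretransitive K α := normal_pretransitive hα H K hK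
  have hne : Nonempty α := by
    rw [← Fintype.card_pos_iff, hα]; norm_num
  obtain ⟨a⟩ := hne
  have h1 := MulAction.index_stabilizer_of_transitive K a
  rw [Nat.card_eq_fintype_card, hα] at h1
  rw [← h1]
  exact Subgroup.index_dvd_card _

lemma sylow7 (hα : Fintype.card α = 7) (H : Subgroup (Equiv.Perm α))
    [MulAction.IsPretransitive H α] [Fact (Nat.Prime 7)] (P : Sylow 7 H) :
    Nat.card (P : Subgroup H) = 7 := by
  obtain ⟨m, hm⟩ := seven_dvd hα H
  have h1 := card_dvd hα H
  apply sylow_card_eq P hm
  intro h7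
  obtain ⟨m', rfl⟩ := h7
  rw [hm] at h1
  have h49 : 49 ∣ 5040 := Dvd.dvd.trans ⟨m', by ring⟩ h1
  omega

/-- The normaliser in `H` of a subgroup of order 7 has order dividing 42. -/
lemma normalizer_dvd42 (hα : Fintype.card α = 7) (H : Subgroup (Equiv.Perm α))
    [Fact (Nat.Prime 7)] (P : Subgroup H) (hP : Nat.card P = 7) :
    Nat.card (Subgroup.normalizer (P : Set H)) ∣ 42 := by
  obtain ⟨P'', hP''⟩ : ∃ P'' : Subgroup (Equiv.Perm α), P'' = P.map H.subtype := ⟨_, rfl⟩
  have hP''card : Nat.card P'' = 7 := by
    rw [hP'', Subgroup.card_map_of_injective (Subgroup.subtype_injective _), hP]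
  have hfac : (Nat.card (Equiv.Perm α)).factorization 7 = 1 := by
    rw [card_perm7 hα]
    have e : (5040 : ℕ) = 7 * 720 := by norm_num
    rw [e, Nat.factorization_mul (by norm_num) (by norm_num), Finsupp.add_apply,
      Nat.Prime.factorization_self (by norm_num),
      Nat.factorization_eq_zero_of_not_dvd (by norm_num)]
  obtain ⟨S, hS⟩ : ∃ S : Sylow 7 (Equiv.Perm α), (S : Subgroup _) = P'' :=
    ⟨Sylow.ofCard P'' (by rw [hP''card, hfac, pow_one]), rfl⟩
  have h1 := S0989.result (α := α) 7 (Or.inl hα) S
  have h5 : (Subgroup.normalizer (P : Set H)).map H.subtype ≤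
      Subgroup.normalizer ((S : Subgroup (Equiv.Perm α)) : Set (Equiv.Perm α)) := by
    rw [hS, hP'']
    exact Subgroup.le_normalizer_map H.subtype
  have h6 := Subgroup.card_dvd_of_le h5
  rw [Subgroup.card_map_of_injective (Subgroup.subtype_injective _), h1] at h6
  exact h6

/-- If `H` consists of even permutations, the normaliser in `H` of a subgroup of order 7 has
order dividing 21. -/
lemma normalizer_dvd21 (hα : Fintype.card α = 7) (H : Subgroup (Equiv.Perm α))
    (hH : H ≤ alternatingGroup α) [Fact (Nat.Prime 7)] (P : Subgroup H) (hP : Nat.card P = 7) :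
    Nat.card (Subgroup.normalizer (P : Set H)) ∣ 21 := by
  obtain ⟨P'', hP''⟩ : ∃ P'' : Subgroup (Equiv.Perm α), P'' = P.map H.subtype := ⟨_, rfl⟩
  have hP''card : Nat.card P'' = 7 := by
    rw [hP'', Subgroup.card_map_of_injective (Subgroup.subtype_injective _), hP]
  have hfac : (Nat.card (Equiv.Perm α)).factorization 7 = 1 := by
    rw [card_perm7 hα]
    have e : (5040 : ℕ) = 7 * 720 := by norm_num
    rw [e, Nat.factorization_mul (by norm_num) (by norm_num), Finsupp.add_apply,
      Nat.Prime.factorization_self (by norm_num),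
      Nat.factorization_eq_zero_of_not_dvd (by norm_num)]
  obtain ⟨S, hS⟩ : ∃ S : Sylow 7 (Equiv.Perm α), (S : Subgroup _) = P'' :=
    ⟨Sylow.ofCard P'' (by rw [hP''card, hfac, pow_one]), rfl⟩
  have h1 := S0989.result (α := α) 7 (Or.inl hα) S
  have h2 := (S0990.result (α := α) (by rw [hα]; norm_num) 7 (by norm_num) S).2
  rw [h1] at h2
  obtain ⟨P', hP'⟩ : ∃ P' : Subgroup ↥(alternatingGroup α),
      P' = P.map (Subgroup.inclusion hH) := ⟨_, rfl⟩
  have h3 : (S : Subgroup (Equiv.Perm α)).subgroupOf (alternatingGroup α) = P' := by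
    rw [hS, hP'', hP']
    ext x
    rw [Subgroup.mem_subgroupOf, Subgroup.mem_map, Subgroup.mem_map]
    constructor
    · rintro ⟨u, hu, hux⟩
      exact ⟨u, hu, Subtype.ext hux⟩
    · rintro ⟨u, hu, hux⟩
      exact ⟨u, hu, congrArg Subtype.val hux⟩
  rw [h3] at h2
  have h4 : Nat.card (Subgroup.normalizer (P' : Set ↥(alternatingGroup α))) = 21 := by
    omega
  have h5 : (Subgroup.normalizer (P : Set H)).map (Subgroup.inclusion hH) ≤
      Subgroup.normalizer (P' : Set ↥(alternatingGroup α)) := by
    rw [hP']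
    exact Subgroup.le_normalizer_map _
  have h6 := Subgroup.card_dvd_of_le h5
  rw [Subgroup.card_map_of_injective (Subgroup.inclusion_injective hH), h4] at h6
  exact h6

/-- A transitive group of degree 7 in which a Sylow 7-subgroup is self-normalising has
order 7. -/
lemma card_eq_seven (hα : Fintype.card α = 7) (H : Subgroup (Equiv.Perm α))
    [MulAction.IsPretransitive H α] [Fact (Nat.Prime 7)] (P : Sylow 7 H)
    (hN : Nat.card (Subgroup.normalizer ((P : Subgroup H) : Set H)) = 7) : Nat.card H = 7 := by
  have hP := sylow7 hα H P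
  have hNC := Lead.normalizer_le_centralizer_of_coprime (P : Subgroup H) (by
    rw [hN, Lead.card_mulAut_of_prime_card hP]; norm_num)
  have hc := MonoidHom.ker_transferSylow_isComplement' P hNC
  have h1 := hc.card_mul_card
  rw [hP] at h1
  by_cases hK : (MonoidHom.transferSylow P hNC).ker = ⊥
  · rw [hK, Subgroup.card_bot, one_mul] at h1
    exact h1.symm
  · exfalso
    obtain ⟨k, hk⟩ := normal_seven_dvd hα H (MonoidHom.transferSylow P hNC).ker hK
    rw [hk] at h1
    have h2 := card_dvd hα H
    rw [← h1] at h2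
    have h49 : 49 ∣ 5040 := Dvd.dvd.trans ⟨k, by ring⟩ h2
    omega

/-- A transitive group of degree 7 whose order is divisible by 16 is the symmetric group. -/
lemma eq_top_of_sixteen (hα : Fintype.card α = 7) (H : Subgroup (Equiv.Perm α))
    [MulAction.IsPretransitive H α] (h16 : 16 ∣ Nat.card H) : H = ⊤ := by
  classical
  haveI : Fact (Nat.Prime 2) := ⟨Nat.prime_two⟩
  have h16' : 2 ^ 4 ∣ Nat.card H := by
    have e : (2 : ℕ) ^ 4 = 16 := by norm_num
    rw [e]; exact h16
  obtain ⟨T', hT'⟩ := Sylow.exists_subgroup_card_pow_prime (G := H) 2 (n := 4) h16'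
  obtain ⟨T, hT⟩ : ∃ T : Subgroup (Equiv.Perm α), T = T'.map H.subtype := ⟨_, rfl⟩
  have hTcard : Nat.card T = 2 ^ 4 := by
    rw [hT, Subgroup.card_map_of_injective (Subgroup.subtype_injective _), hT']
  have hTH : T ≤ H := hT ▸ Subgroup.map_subtype_le T'
  have hfac : (Nat.card (Equiv.Perm α)).factorization 2 = 4 := by
    rw [card_perm7 hα]
    have e : (5040 : ℕ) = 2 ^ 4 * 315 := by norm_num
    rw [e, Nat.factorization_mul (by norm_num) (by norm_num), Finsupp.add_apply,
      Nat.Prime.factorization_pow Nat.prime_two, Finsupp.single_eq_same,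
      Nat.factorization_eq_zero_of_not_dvd (by norm_num)]
  obtain ⟨S, hS⟩ : ∃ S : Sylow 2 (Equiv.Perm α), (S : Subgroup _) = T :=
    ⟨Sylow.ofCard T (by rw [hTcard, hfac]), rfl⟩
  obtain ⟨a, b, hab⟩ := Fintype.exists_pair_of_one_lt_card (α := α) (by rw [hα]; norm_num)
  have hsw : IsPGroup 2 (Subgroup.zpowers (Equiv.swap a b)) := by
    apply IsPGroup.of_card (n := 1)
    rw [Nat.card_zpowers, Equiv.Perm.IsSwap.orderOf ⟨a, b, hab, rfl⟩, pow_one]
  obtain ⟨Q, hQ⟩ := hsw.exists_le_sylow
  obtain ⟨g, hg⟩ := MulAction.exists_smul_eq (Equiv.Perm α) Q S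
  have hmem : g * Equiv.swap a b * g⁻¹ ∈ (S : Subgroup (Equiv.Perm α)) := by
    rw [← hg, Sylow.coe_subgroup_smul]
    have h1 := Subgroup.smul_mem_pointwise_smul (Equiv.swap a b) (MulAut.conj g) (Q : Subgroup _)
      (hQ (Subgroup.mem_zpowers _))
    rw [MulAut.smul_def, MulAut.conj_apply] at h1
    exact h1
  have hswap : g * Equiv.swap a b * g⁻¹ = Equiv.swap (g a) (g b) := by
    rw [Equiv.mul_swap_eq_swap_mul, mul_assoc, mul_inv_cancel, mul_one]
  rw [hswap, hS] at hmem
  apply Equiv.Perm.subgroup_eq_top_of_swap_mem (τ := Equiv.swap (g a) (g b))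
  · rw [hα]; norm_num
  · rw [hα, ← Nat.card_eq_fintype_card]; exact seven_dvd hα H
  · exact hTH hmem
  · exact ⟨g a, g b, g.injective.ne hab, rfl⟩

/-- A subgroup of order at least 840 contains the alternating group. -/
lemma alt_le_of_large (hα : Fintype.card α = 7) (H : Subgroup (Equiv.Perm α))
    (h : 840 ≤ Nat.card H) : alternatingGroup α ≤ H := by
  by_contra hA
  haveI : Nontrivial α := Fintype.one_lt_card_iff_nontrivial.mp (by rw [hα]; norm_num)
  have hAcard : Nat.card (alternatingGroup α) = 2520 := by
    have := two_mul_nat_card_alternatingGroup (α := α)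
    rw [card_perm7 hα] at this
    omega
  haveI : IsSimpleGroup (alternatingGroup α) :=
    alternatingGroup.isSimpleGroup (by rw [Nat.card_eq_fintype_card, hα]; norm_num)
  have hrel : (alternatingGroup α).relIndex H ∣ 2 := by
    have := Subgroup.relIndex_dvd_index_of_normal (alternatingGroup α) H
    rw [alternatingGroup.index_eq_two] at this
    exact this
  have h1 : Nat.card ((alternatingGroup α) ⊓ H : Subgroup (Equiv.Perm α)) *
      (alternatingGroup α).relIndex H = Nat.card H := by
    rw [← Subgroup.inf_relIndex_right]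
    exact card_mul_relIndex inf_le_right
  have hrel2 : (alternatingGroup α).relIndex H ≤ 2 := Nat.le_of_dvd (by norm_num) hrel
  have h420 : 420 ≤ Nat.card ((alternatingGroup α) ⊓ H : Subgroup (Equiv.Perm α)) := by
    nlinarith
  have hne : (H.subgroupOf (alternatingGroup α)) ≠ ⊤ := by
    intro h0
    exact hA (Subgroup.subgroupOf_eq_top.mp h0)
  have h2 := card_dvd_factorial_index (H.subgroupOf (alternatingGroup α)) hne
  have h3 : Nat.card (H ⊓ alternatingGroup α : Subgroup (Equiv.Perm α)) *
      H.relIndex (alternatingGroup α) = Nat.card (alternatingGroup α) := by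
    rw [← Subgroup.inf_relIndex_right]
    exact card_mul_relIndex inf_le_right
  rw [inf_comm, hAcard] at h3
  have hidx : H.relIndex (alternatingGroup α) ≤ 6 := by
    by_contra hgt
    push Not at hgt
    nlinarith
  have h4 : Nat.card (alternatingGroup α) ∣ Nat.factorial 6 :=
    h2.trans (Nat.factorial_dvd_factorial hidx)
  rw [hAcard] at h4
  revert h4
  decide

/-- A transitive group of degree 7 with a normal Sylow 7-subgroup is solvable. -/
lemma solvable_of_card_sylow_one (hα : Fintype.card α = 7) (H : Subgroup (Equiv.Perm α))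
    [MulAction.IsPretransitive H α] [Fact (Nat.Prime 7)] (P : Sylow 7 H)
    (hn : Nat.card (Sylow 7 H) = 1) : Group.IsSolvable H := by
  have hP := sylow7 hα H P
  haveI : Subsingleton (Sylow 7 H) := (Nat.card_eq_one_iff_unique.mp hn).1
  haveI hnorm : (P : Subgroup H).Normal := Sylow.normal_of_subsingleton P
  have hN42 := normalizer_dvd42 hα H (P : Subgroup H) hP
  rw [Subgroup.normalizer_eq_top_iff.mpr hnorm, Subgroup.card_top] at hN42
  have hq : Nat.card (H ⧸ (P : Subgroup H)) * 7 = Nat.card H := by
    have := (P : Subgroup H).card_mul_index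
    rw [hP] at this
    rw [← this, Subgroup.index, mul_comm]
  have hq6 : Nat.card (H ⧸ (P : Subgroup H)) ∣ 6 := by
    obtain ⟨k, hk⟩ := hN42
    rw [← hq] at hk
    rw [show Nat.card (H ⧸ (P : Subgroup H)) * 7 * k =
      7 * (Nat.card (H ⧸ (P : Subgroup H)) * k) by ring] at hk
    exact ⟨k, by omega⟩
  haveI hs1 : Group.IsSolvable (P : Subgroup H) :=
    S0144.result 7 2 1 0 (by norm_num) (by norm_num) (by rw [hP]; norm_num)
  haveI hs2 : Group.IsSolvable (H ⧸ (P : Subgroup H)) := by
    have hle : Nat.card (H ⧸ (P : Subgroup H)) ≤ 6 := Nat.le_of_dvd (by norm_num) hq6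
    have hpos : 0 < Nat.card (H ⧸ (P : Subgroup H)) := Nat.card_pos
    have hc : ∃ a b : ℕ, Nat.card (H ⧸ (P : Subgroup H)) = 2 ^ a * 3 ^ b := by
      generalize Nat.card (H ⧸ (P : Subgroup H)) = c at *
      interval_cases c
      · exact ⟨0, 0, by norm_num⟩
      · exact ⟨1, 0, by norm_num⟩
      · exact ⟨0, 1, by norm_num⟩
      · omega
      · omega
      · exact ⟨1, 1, by norm_num⟩
    obtain ⟨a, b, hab⟩ := hc
    exact S0144.result 2 3 a b (by norm_num) (by norm_num) hab
  exact Group.isSolvable_of_ker_le_range (P : Subgroup H).subtype (QuotientGroup.mk' (P : Subgroup H))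
    (by simp)

/-- A transitive non-solvable subgroup of the symmetric group of degree 7 that does not contain the alternating group has order 168 and is simple. -/
theorem result {α : Type*} [Fintype α] [DecidableEq α] (hα : Fintype.card α = 7) (G : Subgroup (Equiv.Perm α)) [MulAction.IsPretransitive G α] (hG : ¬ Group.IsSolvable G) (hA : ¬ alternatingGroup α ≤ G) : Nat.card G = 168 ∧ IsSimpleGroup G := by
  haveI : Fact (Nat.Prime 7) := ⟨by norm_num⟩
  obtain ⟨P⟩ : Nonempty (Sylow 7 G) := inferInstance
  have hP := sylow7 hα G P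
  have hN42 := normalizer_dvd42 hα G (P : Subgroup G) hP
  have hNn := Lead.card_normalizer_mul_card_sylow P
  have hmod : Nat.card (Sylow 7 G) ≡ 1 [MOD 7] := card_sylow_modEq_one 7 G
  have h7N : 7 ∣ Nat.card (Subgroup.normalizer ((P : Subgroup G) : Set G)) := by
    have h0 := Subgroup.card_dvd_of_le (Subgroup.le_normalizer (H := (P : Subgroup G)))
    rw [hP] at h0
    exact h0
  have hdvd := card_dvd hα G
  obtain ⟨j, hj⟩ := h7N
  have hj6 : j = 1 ∨ j = 2 ∨ j = 3 ∨ j = 6 := by
    rw [hj] at hN42
    have h0 : j ∣ 6 := Nat.dvd_of_mul_dvd_mul_left (by norm_num : 0 < 7) hN42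
    have hle : j ≤ 6 := Nat.le_of_dvd (by norm_num) h0
    interval_cases j <;> omega
  have hnd : Nat.card (Sylow 7 G) * j ∣ 720 := by
    rw [← hNn, hj] at hdvd
    have h0 : 7 * (Nat.card (Sylow 7 G) * j) ∣ 7 * 720 := by
      have e : 7 * (Nat.card (Sylow 7 G) * j) = 7 * j * Nat.card (Sylow 7 G) := by ring
      rw [e]; exact hdvd
    exact Nat.dvd_of_mul_dvd_mul_left (by norm_num : 0 < 7) h0
  have hn : Nat.card (Sylow 7 G) = 1 ∨ Nat.card (Sylow 7 G) = 8 ∨ Nat.card (Sylow 7 G) = 15 ∨
      Nat.card (Sylow 7 G) = 36 ∨ Nat.card (Sylow 7 G) = 120 := by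
    have h0 : Nat.card (Sylow 7 G) ∣ 720 := (Dvd.intro _ rfl).trans hnd
    have hle : Nat.card (Sylow 7 G) ≤ 720 := Nat.le_of_dvd (by norm_num) h0
    generalize Nat.card (Sylow 7 G) = n at *
    unfold Nat.ModEq at hmod
    obtain ⟨t, ht⟩ : ∃ t, n = 7 * t + 1 := ⟨n / 7, by omega⟩
    have ht6 : t ≤ 102 := by omega
    subst ht
    interval_cases t <;> omega
  rcases hn with hn | hn | hn | hn | hn
  · exact absurd (solvable_of_card_sylow_one hα G P hn) hG
  · -- eight Sylow 7-subgroups
    rw [hn, hj] at hNn
    rcases hj6 with rfl | rfl | rfl | rfl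
    · have h0 := card_eq_seven hα G P hj
      omega
    · have htop := eq_top_of_sixteen hα G (by rw [← hNn]; norm_num)
      exact absurd (htop ▸ le_top) hA
    · refine ⟨by omega, ?_⟩
      apply S1013.result hα G P (by rw [hn]; norm_num)
      have h3 : (P : Subgroup G).relIndex (Subgroup.normalizer ((P : Subgroup G) : Set G)) = 3 := by
        have h0 := card_mul_relIndex (Subgroup.le_normalizer (H := (P : Subgroup G)))
        rw [hP, hj] at h0
        omega
      change ((P : Subgroup G).relIndex (Subgroup.normalizer ((P : Subgroup G) : Set G))).Prime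
      rw [h3]
      norm_num
    · have htop := eq_top_of_sixteen hα G (by rw [← hNn]; norm_num)
      exact absurd (htop ▸ le_top) hA
  · exact absurd hn S4304.result
  · -- thirty-six Sylow 7-subgroups
    rw [hn] at hnd
    rw [hn, hj] at hNn
    rcases hj6 with rfl | rfl | rfl | rfl
    · have h0 := card_eq_seven hα G P hj
      omega
    · -- order 504: pass to the even permutations
      exfalso
      have hGA : ¬ G ≤ alternatingGroup α := by
        intro hle
        have h0 := normalizer_dvd21 hα G hle (P : Subgroup G) hP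
        rw [hj] at h0
        omega
      haveI : Nontrivial α := Fintype.one_lt_card_iff_nontrivial.mp (by rw [hα]; norm_num)
      obtain ⟨K, hK⟩ : ∃ K : Subgroup G, K = (alternatingGroup α).subgroupOf G := ⟨_, rfl⟩
      haveI hKn : K.Normal := by rw [hK]; infer_instance
      have hKidx : K.index = 2 := by
        have h1 := Subgroup.relIndex_dvd_index_of_normal (alternatingGroup α) G
        rw [alternatingGroup.index_eq_two] at h1
        rw [hK]
        rcases (Nat.dvd_prime Nat.prime_two).mp h1 with h2 | h2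
        · exact absurd (Subgroup.relIndex_eq_one.mp h2) hGA
        · exact h2
      have hKcard : Nat.card K = 252 := by
        have h1 := K.card_mul_index
        rw [hKidx] at h1
        omega
      have hKne : K ≠ ⊥ := by
        intro h0
        rw [h0, Subgroup.card_bot] at hKcard
        omega
      haveI hKt : MulAction.IsPretransitive K α := normal_pretransitive hα G K hKne
      obtain ⟨H, hH⟩ : ∃ H : Subgroup (Equiv.Perm α), H = K.map G.subtype := ⟨_, rfl⟩
      have hHcard : Nat.card H = 252 := by
        rw [hH, Subgroup.card_map_of_injective (Subgroup.subtype_injective _), hKcard]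
      have hHA : H ≤ alternatingGroup α := by
        rw [hH]
        rintro x ⟨k, hk, rfl⟩
        rw [hK] at hk
        exact hk
      haveI : MulAction.IsPretransitive H α := by
        constructor
        intro x y
        obtain ⟨k, hk⟩ := MulAction.exists_smul_eq K x y
        refine ⟨⟨((k : G) : Equiv.Perm α), ?_⟩, hk⟩
        rw [hH]
        exact Subgroup.mem_map_of_mem _ k.2
      obtain ⟨PH⟩ : Nonempty (Sylow 7 H) := inferInstance
      have hPH := sylow7 hα H PH
      have h21 := normalizer_dvd21 hα H hHA (PH : Subgroup H) hPH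
      have h7' : 7 ∣ Nat.card (Subgroup.normalizer ((PH : Subgroup H) : Set H)) := by
        have h0 := Subgroup.card_dvd_of_le (Subgroup.le_normalizer (H := (PH : Subgroup H)))
        rw [hPH] at h0
        exact h0
      have hNn' := Lead.card_normalizer_mul_card_sylow PH
      have hmod' : Nat.card (Sylow 7 H) ≡ 1 [MOD 7] := card_sylow_modEq_one 7 H
      rw [hHcard] at hNn'
      have hN7 : Nat.card (Subgroup.normalizer ((PH : Subgroup H) : Set H)) = 7 := by
        have hle : Nat.card (Subgroup.normalizer ((PH : Subgroup H) : Set H)) ≤ 21 :=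
          Nat.le_of_dvd (by norm_num) h21
        unfold Nat.ModEq at hmod'
        generalize Nat.card (Subgroup.normalizer ((PH : Subgroup H) : Set H)) = c at *
        generalize Nat.card (Sylow 7 H) = n' at *
        interval_cases c <;> omega
      have h0 := card_eq_seven hα H PH hN7
      omega
    · exfalso
      revert hnd
      decide
    · exfalso
      revert hnd
      decide
  · -- 120 Sylow 7-subgroups
    have h840 : 840 ≤ Nat.card G := by
      rw [← hNn, hn, hj]
      rcases hj6 with rfl | rfl | rfl | rfl <;> norm_num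
    exact absurd (alt_le_of_large hα G h840) hA

end Cfsg.Agent.S0678
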