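import Mathlib
import Cfsg.Statements.S0680
import Cfsg.Agent.Helper6.Sharp2
import Cfsg.Agent.Helper6.FreeAct

set_option autoImplicit false
open Cfsg

namespace Cfsg.Agent.S0680

/-- A finite sharply doubly transitive permutation group has degree a prime power `p ^ j`; a Sylow `p`-subgroup is normal, elementary abelian and regular, and consists of the identity together with the elements without fixed points. (Frobenius' Theorem is not needed.) -/
theorem result {α : Type*} [Fintype α] [DecidableEq α] (G : Subgroup (Equiv.Perm α)) [MulAction.IsMultiplyPretransitive G α 2] (hsharp : ∀ x : Fin 2 ↪ α, MulAction.stabilizer G x = ⊥) (h2 : 2 ≤ Fintype.card α) : ∃ p j : ℕ, p.Prime ∧ 1 ≤ j ∧ Fintype.card α = p ^ j ∧ ∀ (hp : Fact p.Prime) (P : Sylow p G), (P : Subgroup G).Normal ∧ IsMulCommutative (P : Subgroup G) ∧ (∀ x ∈ (P : Subgroup G), x ^ p = 1) ∧ MulAction.IsPretransitive (P : Subgroup G) α ∧ (∀ a : α, MulAction.stabilizer (P : Subgroup G) a = ⊥) ∧ ∀ g : G, g ∈ (P : Subgroup G) ↔ g = 1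 ∨ ∀ a : α, g • a ≠ a := by
  classical
  obtain ⟨N, hNn, hNtr, hNmem⟩ := Helper6.sharp2_regular_normal G hsharp h2
  obtain ⟨a₀, a₁, h01⟩ := Fintype.one_lt_card_iff.1 (show 1 < Fintype.card α by omega)
  have hNuniq : ∀ n ∈ N, ∀ a : α, n • a = a → n = 1 := by
    intro n hn a ha
    rcases (hNmem n).1 hn with h | h
    · exact h
    · exact absurd ha (h a)
  letI inst : MulDistribMulAction ↥(MulAction.stabilizer G a₀) ↥N :=
    { smul := fun h u => ⟨(h : G) * (u : G) * (h : G)⁻¹, hNn.conj_mem u.1 u.2 h.1⟩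
      one_smul := fun u => by
        apply Subtype.ext
        show ((1 : ↥(MulAction.stabilizer G a₀)) : G) * (u : G)
          * ((1 : ↥(MulAction.stabilizer G a₀)) : G)⁻¹ = (u : G)
        simp
      mul_smul := fun h h' u => by
        apply Subtype.ext
        show ((h * h' : ↥(MulAction.stabilizer G a₀)) : G) * (u : G)
          * ((h * h' : ↥(MulAction.stabilizer G a₀)) : G)⁻¹
          = (h : G) * ((h' : G) * (u : G) * (h' : G)⁻¹) * (h : G)⁻¹
        simp [mul_assoc]
      smul_mul := fun h u v => by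
        apply Subtype.ext
        show (h : G) * ((u * v : N) : G) * (h : G)⁻¹
          = ((h : G) * (u : G) * (h : G)⁻¹) * ((h : G) * (v : G) * (h : G)⁻¹)
        simp [mul_assoc]
      smul_one := fun h => by
        apply Subtype.ext
        show (h : G) * ((1 : N) : G) * (h : G)⁻¹ = ((1 : N) : G)
        simp }
  have hsm : ∀ (h : ↥(MulAction.stabilizer G a₀)) (u : ↥N),
      ((h • u : ↥N) : G) = (h : G) * (u : G) * (h : G)⁻¹ := fun h u => rfl
  have hfree : ∀ (h : ↥(MulAction.stabilizer G a₀)) (u : ↥N), u ≠ 1 → h • u = u → h = 1 := by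
    intro h u hu hfix
    have hu1 : (u : G) ≠ 1 := fun e => hu (Subtype.ext e)
    have hha : (h : G) • a₀ = a₀ := MulAction.mem_stabilizer_iff.1 h.2
    have e1 : (h : G) * (u : G) * (h : G)⁻¹ = (u : G) := by
      rw [← hsm, hfix]
    have e2 : (h : G) * (u : G) = (u : G) * (h : G) := by
      calc (h : G) * (u : G) = (h : G) * (u : G) * (h : G)⁻¹ * (h : G) := by group
        _ = (u : G) * (h : G) := by rw [e1]
    have hua : (u : G) • a₀ ≠ a₀ := fun e => hu1 (hNuniq _ u.2 a₀ e)
    have hfix2 : (h : G) • ((u : G) • a₀) = (u : G) • a₀ := by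
      rw [← mul_smul, e2, mul_smul, hha]
    have := Helper6.sharp2_fix G hsharp (h : G) (Ne.symm hua) hha hfix2
    exact Subtype.ext this
  have hcardN : Nat.card N = Fintype.card α := by
    rw [← Nat.card_eq_fintype_card]
    apply Nat.card_congr
    refine Equiv.ofBijective (fun n : N => (n : G) • a₀) ⟨?_, ?_⟩
    · intro n n' hnn
      have hnn' : (n : G) • a₀ = (n' : G) • a₀ := hnn
      have h1 : ((n : G)⁻¹ * (n' : G)) • a₀ = a₀ := by
        rw [mul_smul, ← hnn', inv_smul_smul]
      have h2 := hNuniq _ (N.mul_mem (N.inv_mem n.2) n'.2) a₀ h1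
      apply Subtype.ext
      exact inv_mul_eq_one.1 h2
    · intro b
      obtain ⟨n, hn, hnb⟩ := hNtr a₀ b
      exact ⟨⟨n, hn⟩, hnb⟩
  have hcardK : Nat.card (MulAction.stabilizer G a₀) = Fintype.card α - 1 := by
    have e : ↥(MulAction.stabilizer G a₀) ≃ {b : α // b ≠ a₀} := by
      refine Equiv.ofBijective (fun k => ⟨(k : G) • a₁, ?_⟩) ⟨?_, ?_⟩
      · intro hk
        have hk0 : (k : G) • a₀ = a₀ := MulAction.mem_stabilizer_iff.1 k.2
        exact h01 (MulAction.injective (k : G) (hk0.trans hk.symm))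
      · intro k k' hkk
        have hkk' : (k : G) • a₁ = (k' : G) • a₁ := congrArg Subtype.val hkk
        have hk0 : (k : G) • a₀ = a₀ := MulAction.mem_stabilizer_iff.1 k.2
        have hk0' : (k' : G) • a₀ = a₀ := MulAction.mem_stabilizer_iff.1 k'.2
        have h1 : ((k : G)⁻¹ * (k' : G)) • a₁ = a₁ := by
          rw [mul_smul, ← hkk', inv_smul_smul]
        have h0 : ((k : G)⁻¹ * (k' : G)) • a₀ = a₀ := by
          rw [mul_smul, hk0', inv_smul_eq_iff, hk0]
        have h2 := Helper6.sharp2_fix G hsharp _ h01 h0 h1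
        apply Subtype.ext
        exact inv_mul_eq_one.1 h2
      · rintro ⟨b, hb⟩
        obtain ⟨g, hg0, hg1⟩ := Helper6.sharp2_trans G h01 (Ne.symm hb)
        exact ⟨⟨g, MulAction.mem_stabilizer_iff.2 hg0⟩, Subtype.ext hg1⟩
    rw [Nat.card_congr e, Nat.card_eq_fintype_card, Fintype.card_subtype_compl,
      Fintype.card_subtype_eq]
  obtain ⟨hcomm, p, f, hp, hexp, hNpf⟩ := Helper6.fa_main hfree (by rw [hcardN, hcardK]; omega)
  have hf : 1 ≤ f := by
    rcases Nat.eq_zero_or_pos f with h | h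
    · rw [h, pow_zero, hcardN] at hNpf; omega
    · exact h
  refine ⟨p, f, hp, hf, by rw [← hcardN, hNpf], ?_⟩
  intro hpF P
  haveI := hpF
  have hidx : N.index = Fintype.card α - 1 := by
    have h1 := Subgroup.card_mul_index N
    have h2 := Subgroup.card_mul_index (MulAction.stabilizer G a₀)
    have h3 : (MulAction.stabilizer G a₀).index = Fintype.card α := by
      rw [MulAction.index_stabilizer]
      have : MulAction.orbit G a₀ = Set.univ := by
        ext b
        simp only [Set.mem_univ, iff_true]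
        obtain ⟨n, hn, hnb⟩ := hNtr a₀ b
        exact ⟨n, hnb⟩
      rw [this, Set.ncard_univ, Nat.card_eq_fintype_card]
    rw [hcardN] at h1
    rw [hcardK, h3] at h2
    have hpos : 0 < Fintype.card α := by omega
    have : Fintype.card α * N.index = Fintype.card α * (Fintype.card α - 1) := by
      rw [h1, ← h2, mul_comm]
    exact Nat.eq_of_mul_eq_mul_left hpos this
  have hNp : IsPGroup p N := IsPGroup.of_card hNpf
  have hnd : ¬ p ∣ N.index := by
    rw [hidx, ← hcardN, hNpf]
    intro hdvd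
    have h1 : p ∣ p ^ f := dvd_pow_self p (by omega)
    have h2 : 1 ≤ p ^ f := Nat.one_le_pow _ _ hp.pos
    have h3 : p ∣ 1 := by
      have := Nat.dvd_sub h1 hdvd
      rwa [show p ^ f - (p ^ f - 1) = 1 by omega] at this
    exact hp.one_lt.ne' (Nat.dvd_one.1 h3)
  have hPN : (P : Subgroup G) = N := by
    haveI := hNn
    have hle : N ≤ (P : Subgroup G) := IsPGroup.le_sylow_of_normal hNp P
    exact (hNp.toSylow hnd).is_maximal' P.isPGroup' hle
  rw [hPN]
  refine ⟨hNn, ⟨⟨fun u v => hcomm u v⟩⟩, ?_, ?_, ?_, hNmem⟩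
  · intro x hx
    have := hexp ⟨x, hx⟩
    exact congrArg Subtype.val this
  · refine ⟨fun a b => ?_⟩
    obtain ⟨n, hn, hnb⟩ := hNtr a b
    exact ⟨⟨n, hn⟩, hnb⟩
  · intro a
    rw [eq_bot_iff]
    intro n hn
    rw [Subgroup.mem_bot]
    have := hNuniq (n : G) n.2 a (MulAction.mem_stabilizer_iff.1 hn)
    exact Subtype.ext this

end Cfsg.Agent.S0680
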