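import Cfsg.Statements.S0681
import Mathlib

set_option autoImplicit false
open Cfsg

namespace Cfsg.Agent.S0681

section
variable {F : Type*} [Cfsg.NearField F]

theorem rd (a b c : F) : (a + b) * c = a * c + b * c := Cfsg.NearField.right_distrib a b c

theorem mz (a : F) : a * 0 = 0 := Cfsg.NearField.mul_zero a

theorem zm (c : F) : (0 : F) * c = 0 := by
  have h := rd (0 : F) 0 c
  rw [add_zero] at h
  have h2 : (0 : F) * c + 0 = 0 * c + 0 * c := by rw [add_zero]; exact h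
  exact (add_left_cancel h2).symm

theorem neg_mul' (a c : F) : (-a) * c = -(a * c) := by
  have h := rd (-a) a c
  rw [neg_add_cancel, zm] at h
  exact eq_neg_of_add_eq_zero_left h.symm

theorem sub_mul' (a b c : F) : (a - b) * c = a * c - b * c := by
  rw [sub_eq_add_neg, rd, neg_mul', ← sub_eq_add_neg]

theorem mul_ne_zero' {a b : F} (ha : a ≠ 0) (hb : b ≠ 0) : a * b ≠ 0 := by
  intro h
  obtain ⟨b', hb1, -⟩ := Cfsg.NearField.exists_inv b hb
  apply ha
  calc a = a * (b * b') := by rw [hb1, mul_one]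
    _ = (a * b) * b' := by rw [mul_assoc]
    _ = 0 := by rw [h, zm]

theorem one_ne_zero' : (1 : F) ≠ 0 := fun h => Cfsg.NearField.zero_ne_one h.symm

theorem inv_ne_zero' {a b : F} (h : a * b = 1) : b ≠ 0 := by
  intro hb
  rw [hb, mz] at h
  exact Cfsg.NearField.zero_ne_one h

/-- the affine permutation `x ↦ x * a + b` -/
noncomputable def aff (a b : F) (ha : a ≠ 0) : Equiv.Perm F where
  toFun x := x * a + b
  invFun y := (y - b) * (Cfsg.NearField.exists_inv a ha).choose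
  left_inv x := by
    have h := (Cfsg.NearField.exists_inv a ha).choose_spec.1
    show (x * a + b - b) * _ = x
    rw [add_sub_cancel_right, mul_assoc, h, mul_one]
  right_inv y := by
    have h := (Cfsg.NearField.exists_inv a ha).choose_spec.2
    show (y - b) * _ * a + b = y
    rw [mul_assoc, h, mul_one, sub_add_cancel]

theorem aff_apply (a b : F) (ha : a ≠ 0) (x : F) : aff a b ha x = x * a + b := rfl

end

/-- The affine maps `x ↦ x * a + b`, `a ≠ 0`, of a near-field form a sharply doubly transitive permutation group. -/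
theorem result {F : Type*} [Cfsg.NearField F] : ∃ H : Subgroup (Equiv.Perm F), (∀ σ : Equiv.Perm F, σ ∈ H ↔ ∃ a b : F, a ≠ 0 ∧ ∀ x : F, σ x = x * a + b) ∧ MulAction.IsMultiplyPretransitive H F 2 ∧ ∀ x : Fin 2 ↪ F, MulAction.stabilizer H x = ⊥ := by
  let H : Subgroup (Equiv.Perm F) :=
    { carrier := {σ | ∃ a b : F, a ≠ 0 ∧ ∀ x : F, σ x = x * a + b}
      mul_mem' := by
        rintro σ τ ⟨a, b, ha, hσ⟩ ⟨c, d, hc, hτ⟩
        refine ⟨c * a, d * a + b, mul_ne_zero' hc ha, fun x => ?_⟩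
        rw [Equiv.Perm.mul_apply, hτ, hσ, rd, mul_assoc, add_assoc]
      one_mem' := ⟨1, 0, one_ne_zero', fun x => by simp⟩
      inv_mem' := by
        rintro σ ⟨a, b, ha, hσ⟩
        obtain ⟨a', h1, h2⟩ := Cfsg.NearField.exists_inv a ha
        refine ⟨a', -(b * a'), inv_ne_zero' h1, fun y => ?_⟩
        rw [Equiv.Perm.inv_def, Equiv.symm_apply_eq, hσ, rd, mul_assoc, h2, mul_one, neg_mul',
          mul_assoc, h2, mul_one, neg_add_cancel_right] }
  have hmem : ∀ σ : Equiv.Perm F, σ ∈ H ↔ ∃ a b : F, a ≠ 0 ∧ ∀ x : F, σ x = x * a + b :=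
    fun σ => Iff.rfl
  refine ⟨H, hmem, ?_, ?_⟩
  · rw [MulAction.is_two_pretransitive_iff]
    intro x₁ x₂ y₁ y₂ hx hy
    have hx' : x₁ - x₂ ≠ 0 := sub_ne_zero.mpr hx
    have hy' : y₁ - y₂ ≠ 0 := sub_ne_zero.mpr hy
    obtain ⟨d, hd1, hd2⟩ := Cfsg.NearField.exists_inv (x₁ - x₂) hx'
    have ha : d * (y₁ - y₂) ≠ 0 := mul_ne_zero' (inv_ne_zero' hd1) hy'
    have hkey : (x₁ - x₂) * (d * (y₁ - y₂)) = y₁ - y₂ := by
      rw [← mul_assoc, hd1, one_mul]
    refine ⟨⟨aff (d * (y₁ - y₂)) (-(x₁ * (d * (y₁ - y₂))) + y₁) ha,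
      ⟨d * (y₁ - y₂), -(x₁ * (d * (y₁ - y₂))) + y₁, ha, fun x => rfl⟩⟩, ?_, ?_⟩
    · show x₁ * (d * (y₁ - y₂)) + (-(x₁ * (d * (y₁ - y₂))) + y₁) = y₁
      rw [← add_assoc, add_neg_cancel, zero_add]
    · show x₂ * (d * (y₁ - y₂)) + (-(x₁ * (d * (y₁ - y₂))) + y₁) = y₂
      rw [← add_assoc, ← sub_eq_add_neg, ← sub_mul']
      have h1 : x₂ - x₁ = -(x₁ - x₂) := (neg_sub x₁ x₂).symm
      rw [h1, neg_mul', hkey, neg_sub, sub_add_cancel]
  · intro x
    rw [eq_bot_iff]
    rintro ⟨σ, a, b, ha, hσ⟩ hstab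
    rw [MulAction.mem_stabilizer_iff] at hstab
    have h0 : σ (x 0) = x 0 := by
      have := congrArg (fun e : Fin 2 ↪ F => e 0) hstab
      exact this
    have h1 : σ (x 1) = x 1 := by
      have := congrArg (fun e : Fin 2 ↪ F => e 1) hstab
      exact this
    rw [hσ] at h0 h1
    have hne : x 0 - x 1 ≠ 0 := sub_ne_zero.mpr (x.injective.ne_iff.mpr Fin.zero_ne_one)
    obtain ⟨d, hd1, hd2⟩ := Cfsg.NearField.exists_inv (x 0 - x 1) hne
    have h2 : (x 0 - x 1) * a = x 0 - x 1 := by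
      rw [sub_mul']
      have e0 : x 0 * a = x 0 - b := eq_sub_of_add_eq h0
      have e1 : x 1 * a = x 1 - b := eq_sub_of_add_eq h1
      rw [e0, e1, sub_sub_sub_cancel_right]
    have ha1 : a = 1 := by
      calc a = (d * (x 0 - x 1)) * a := by rw [hd2, one_mul]
        _ = d * ((x 0 - x 1) * a) := by rw [mul_assoc]
        _ = 1 := by rw [h2, hd2]
    have hb0 : b = 0 := by
      rw [ha1, mul_one] at h0
      exact add_eq_left.mp h0
    rw [Subgroup.mem_bot]
    apply Subtype.ext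
    show σ = 1
    ext y
    rw [hσ, ha1, hb0, mul_one, add_zero, Equiv.Perm.one_apply]

end Cfsg.Agent.S0681
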