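import Mathlib
import Cfsg.Statements.S0682

set_option autoImplicit false
open Cfsg

namespace Cfsg.Agent.S0682

variable {F : Type*} [Cfsg.NearField F]

theorem nf_zero_mul (a : F) : (0 : F) * a = 0 := by
  have h := Cfsg.NearField.right_distrib (0 : F) 0 a
  rw [add_zero] at h
  have h2 : (0 : F) * a + 0 = 0 * a + 0 * a := by rw [add_zero]; exact h
  exact (add_left_cancel h2).symm

theorem nf_nsmul_mul (n : ℕ) (x a : F) : (n • x) * a = n • (x * a) := by
  induction n with
  | zero => rw [zero_nsmul, zero_nsmul, nf_zero_mul]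
  | succ n ih => rw [succ_nsmul, succ_nsmul, Cfsg.NearField.right_distrib, ih]

/-- A finite near-field has prime-power order; its additive group is commutative of prime exponent. -/
theorem result {F : Type*} [Cfsg.NearField F] [Finite F] : ∃ p j : ℕ, p.Prime ∧ 1 ≤ j ∧ Nat.card F = p ^ j ∧ (∀ x y : F, x + y = y + x) ∧ ∀ x : F, p • x = 0 := by
  classical
  have h01 : (0 : F) ≠ 1 := Cfsg.NearField.zero_ne_one
  set p := addOrderOf (1 : F) with hp
  have hppos : 0 < p := addOrderOf_pos (1 : F)
  have hp1 : p ≠ 1 := by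
    intro h
    rw [hp, AddMonoid.addOrderOf_eq_one_iff] at h
    exact h01 h.symm
  have hpx : ∀ x : F, p • x = 0 := by
    intro x
    have : p • x = (p • (1 : F)) * x := by rw [nf_nsmul_mul, one_mul]
    rw [this, hp, addOrderOf_nsmul_eq_zero, nf_zero_mul]
  have hprime : p.Prime := by
    by_contra hnp
    have h2 : 2 ≤ p := by omega
    obtain ⟨r, hrd, hr2, hrp⟩ := (Nat.not_prime_iff_exists_dvd_lt h2).mp hnp
    obtain ⟨s, hs⟩ := hrd
    have hs_pos : 0 < s := by
      rcases Nat.eq_zero_or_pos s with h | h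
      · rw [h, mul_zero] at hs; omega
      · exact h
    have hsp : s < p := by
      rw [hs]
      nlinarith
    have hy : r • (1 : F) ≠ 0 := nsmul_ne_zero_of_lt_addOrderOf (by omega) hrp
    obtain ⟨b, hb, -⟩ := Cfsg.NearField.exists_inv _ hy
    have hsy : s • (r • (1 : F)) = 0 := by
      rw [← mul_nsmul, ← hs, hp, addOrderOf_nsmul_eq_zero]
    have hs1 : s • (1 : F) = 0 := by
      rw [← hb, ← nf_nsmul_mul, hsy, nf_zero_mul]
    exact nsmul_ne_zero_of_lt_addOrderOf (by omega) hsp hs1
  have : Fact p.Prime := ⟨hprime⟩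
  have hPG : IsPGroup p (Multiplicative F) := by
    intro g
    refine ⟨1, ?_⟩
    rw [pow_one]
    exact congrArg Multiplicative.ofAdd (hpx (Multiplicative.toAdd g))
  obtain ⟨j, hj⟩ := IsPGroup.iff_card.mp hPG
  have hcard : Nat.card F = p ^ j := by
    rw [← hj]
    exact Nat.card_congr Multiplicative.ofAdd
  have hj1 : 1 ≤ j := by
    rcases Nat.eq_zero_or_pos j with h | h
    · rw [h, pow_zero] at hcard
      have hsub : Subsingleton F := (Nat.card_eq_one_iff_unique.mp hcard).1
      exact absurd (Subsingleton.elim (0 : F) 1) h01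
    · exact h
  have hnt : Nontrivial (Multiplicative F) := ⟨⟨Multiplicative.ofAdd 0, Multiplicative.ofAdd 1,
    fun h => h01 (Multiplicative.ofAdd.injective h)⟩⟩
  have hcenter := hPG.center_nontrivial
  obtain ⟨⟨z, hz⟩, hz1⟩ := exists_ne (1 : Subgroup.center (Multiplicative F))
  have hz0 : Multiplicative.toAdd z ≠ 0 := by
    intro h
    apply hz1
    ext
    exact Multiplicative.toAdd.injective h
  have hzc : ∀ y : F, y + Multiplicative.toAdd z = Multiplicative.toAdd z + y := by
    intro y
    have := (Subgroup.mem_center_iff.mp hz) (Multiplicative.ofAdd y)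
    exact congrArg Multiplicative.toAdd this
  set z' := Multiplicative.toAdd z with hz'
  obtain ⟨b, hzb, -⟩ := Cfsg.NearField.exists_inv _ hz0
  have hcomm0 : ∀ a y : F, a ≠ 0 → a + y = y + a := by
    intro a y ha
    set c := b * a with hc
    have hzc' : z' * c = a := by rw [hc, ← mul_assoc, hzb, one_mul]
    have hc0 : c ≠ 0 := by
      intro h
      rw [h, Cfsg.NearField.mul_zero] at hzc'
      exact ha hzc'.symm
    obtain ⟨d, hcd, hdc⟩ := Cfsg.NearField.exists_inv _ hc0
    have hy : y = (y * d) * c := by rw [mul_assoc, hdc, mul_one]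
    calc a + y = z' * c + (y * d) * c := by rw [hzc', ← hy]
      _ = (z' + y * d) * c := (Cfsg.NearField.right_distrib _ _ _).symm
      _ = (y * d + z') * c := by rw [hzc]
      _ = (y * d) * c + z' * c := Cfsg.NearField.right_distrib _ _ _
      _ = y + a := by rw [hzc', ← hy]
  refine ⟨p, j, hprime, hj1, hcard, ?_, hpx⟩
  intro x y
  by_cases hx : x = 0
  · rw [hx, zero_add, add_zero]
  · exact hcomm0 x y hx

end Cfsg.Agent.S0682
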