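import Mathlib
import Cfsg.Statements.S0683
import Cfsg.Agent.Helper6.Sharp2

set_option autoImplicit false
open Cfsg

namespace Cfsg.Agent.S0683

/-- A finite sharply doubly transitive permutation group is the affine group of a near-field: the permuted set carries a near-field structure for which the group consists exactly of the maps `x ↦ x * a + b` with `a ≠ 0`. -/
theorem result {α : Type*} [Fintype α] [DecidableEq α] (H : Subgroup (Equiv.Perm α)) [MulAction.IsMultiplyPretransitive H α 2] (hsharp : ∀ x : Fin 2 ↪ α, MulAction.stabilizer H x = ⊥) (h2 : 2 ≤ Fintype.card α) : ∃ _ : Cfsg.NearField α, ∀ σ : Equiv.Perm α, σ ∈ H ↔ ∃ a b : α, a ≠ 0 ∧ ∀ x : α, σ x = x * a + b := by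
  obtain ⟨N, hNn, hNtr, hNmem⟩ := Helper6.sharp2_regular_normal H hsharp h2
  obtain ⟨o, e, hoe⟩ := Fintype.one_lt_card_iff.1 (show 1 < Fintype.card α by omega)
  have hNuniq : ∀ n ∈ N, ∀ a : α, n • a = a → n = 1 := by
    intro n hn a ha
    rcases (hNmem n).1 hn with h | h
    · exact h
    · exact absurd ha (h a)
  have hτex : ∀ b : α, ∃ n : H, n ∈ N ∧ n • o = b := fun b => hNtr o b
  choose τ hτN hτ using hτex
  have hτuniq : ∀ (n : H), n ∈ N → ∀ b : α, n • o = b → n = τ b := by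
    intro n hn b hb
    have h1 : (n⁻¹ * τ b) • o = o := by rw [mul_smul, hτ, ← hb, inv_smul_smul]
    have h2 := hNuniq _ (N.mul_mem (N.inv_mem hn) (hτN b)) o h1
    exact inv_mul_eq_one.1 h2
  have hμex : ∀ a : α, ∃ g : H, a ≠ o → (g • o = o ∧ g • e = a) := by
    intro a
    by_cases ha : a = o
    · exact ⟨1, fun h => absurd ha h⟩
    · obtain ⟨g, h1, h2⟩ := Helper6.sharp2_trans H hoe (Ne.symm ha)
      exact ⟨g, fun _ => ⟨h1, h2⟩⟩
  choose μ hμ using hμex
  have hμuniq : ∀ (g : H) (a : α), a ≠ o → g • o = o → g • e = a → g = μ a := by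
    intro g a ha h1 h2
    obtain ⟨h3, h4⟩ := hμ a ha
    have h5 : (g⁻¹ * μ a) • o = o := by rw [mul_smul, h3, inv_smul_eq_iff, h1]
    have h6 : (g⁻¹ * μ a) • e = e := by rw [mul_smul, h4, inv_smul_eq_iff, h2]
    exact inv_mul_eq_one.1 (Helper6.sharp2_fix H hsharp (g⁻¹ * μ a) hoe h5 h6)
  have hμo : ∀ a : α, a ≠ o → μ a • o = o := fun a ha => (hμ a ha).1
  have hμe : ∀ a : α, a ≠ o → μ a • e = a := fun a ha => (hμ a ha).2
  have hμne : ∀ a x : α, a ≠ o → x ≠ o → μ a • x ≠ o := by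
    intro a x ha hx h
    apply hx
    have : μ a • x = μ a • o := by rw [h, hμo a ha]
    exact MulAction.injective (μ a) this
  have hT1 : ∀ b c : α, τ c * τ b = τ (τ c • b) := by
    intro b c
    exact hτuniq _ (N.mul_mem (hτN c) (hτN b)) _ (by rw [mul_smul, hτ])
  have hT0 : τ o = 1 := (hτuniq 1 N.one_mem o (one_smul _ _)).symm
  have hM1 : ∀ b c : α, b ≠ o → c ≠ o → μ c * μ b = μ (μ c • b) := by
    intro b c hb hc
    exact hμuniq _ _ (hμne c b hc hb) (by rw [mul_smul, hμo b hb, hμo c hc])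
      (by rw [mul_smul, hμe b hb])
  have hM0 : μ e = 1 := (hμuniq 1 e (Ne.symm hoe) (one_smul _ _) (one_smul _ _)).symm
  have hD : ∀ b c : α, c ≠ o → μ c * τ b = τ (μ c • b) * μ c := by
    intro b c hc
    have h1 : μ c * τ b * (μ c)⁻¹ = τ (μ c • b) := by
      refine hτuniq _ (hNn.conj_mem _ (hτN b) _) _ ?_
      rw [mul_smul, mul_smul, inv_smul_eq_iff.2 (hμo c hc).symm, hτ]
    rw [← h1]
    group
  have hassoc : ∀ x y z : α, τ z • (τ y • x) = τ (τ z • y) • x := by
    intro x y z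
    rw [← hT1, mul_smul]
  have haz : ∀ x : α, τ o • x = x := by
    intro x
    rw [hT0, one_smul]
  have hneg : ∀ b : α, τ b • ((τ b)⁻¹ • o) = o := fun b => smul_inv_smul _ _
  have hmassoc : ∀ x y z : α, (if z = o then o else μ z • (if y = o then o else μ y • x))
      = (if (if z = o then o else μ z • y) = o then o
          else μ (if z = o then o else μ z • y) • x) := by
    intro x y z
    by_cases hz : z = o
    · rw [if_pos hz, if_pos hz, if_pos rfl]
    · by_cases hy : y = o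
      · rw [if_neg hz, if_pos hy, if_neg hz, hy, hμo z hz, if_pos rfl]
      · rw [if_neg hz, if_neg hy, if_neg hz, if_neg (hμne z y hz hy), ← hM1 y z hy hz, mul_smul]
  have hom : ∀ a : α, (if a = o then o else μ a • e) = a := by
    intro a
    by_cases ha : a = o
    · rw [if_pos ha, ha]
    · rw [if_neg ha, hμe a ha]
  have hmo : ∀ x : α, (if e = o then o else μ e • x) = x := by
    intro x
    rw [if_neg (Ne.symm hoe), hM0, one_smul]
  have hrd : ∀ a b c : α, (if c = o then o else μ c • (τ b • a))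
      = τ (if c = o then o else μ c • b) • (if c = o then o else μ c • a) := by
    intro a b c
    by_cases hc : c = o
    · rw [if_pos hc, if_pos hc, if_pos hc, hτ]
    · rw [if_neg hc, if_neg hc, if_neg hc, ← mul_smul, hD b c hc, mul_smul]
  have hmz : ∀ a : α, (if o = o then o else μ o • a) = o := fun a => if_pos rfl
  have hinv : ∀ a : α, a ≠ o → ∃ b : α, (if b = o then o else μ b • a) = e ∧
      (if a = o then o else μ a • b) = e := by
    intro a ha
    have hb : (μ a)⁻¹ • e ≠ o := by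
      intro h
      rw [inv_smul_eq_iff, hμo a ha] at h
      exact hoe h.symm
    have hμb : (μ a)⁻¹ = μ ((μ a)⁻¹ • e) :=
      hμuniq _ _ hb (inv_smul_eq_iff.2 (hμo a ha).symm) rfl
    refine ⟨(μ a)⁻¹ • e, ?_, ?_⟩
    · rw [if_neg hb, ← hμb, inv_smul_eq_iff, hμe a ha]
    · rw [if_neg ha, smul_inv_smul]
  letI instAG : AddGroup α :=
    @AddGroup.ofLeftAxioms α ⟨fun x b => τ b • x⟩ ⟨fun b => (τ b)⁻¹ • o⟩ ⟨o⟩ hassoc hτ hneg
  letI instM : Monoid α :=
    { mul := fun x a => if a = o then o else μ a • x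
      one := e
      mul_assoc := hmassoc
      one_mul := hom
      mul_one := hmo }
  refine ⟨{ toAddGroup := instAG
            toMonoid := instM
            right_distrib := hrd
            mul_zero := hmz
            zero_ne_one := hoe
            exists_inv := hinv }, ?_⟩
  show ∀ σ : Equiv.Perm α, σ ∈ H ↔
    ∃ a b : α, a ≠ o ∧ ∀ x : α, σ x = τ b • (if a = o then o else μ a • x)
  intro σ
  constructor
  · intro hσ
    have hg0 : ((τ (σ o))⁻¹ * (⟨σ, hσ⟩ : H)) • o = o := by
      rw [mul_smul, inv_smul_eq_iff, hτ]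
      rfl
    have ha : ((τ (σ o))⁻¹ * (⟨σ, hσ⟩ : H)) • e ≠ o := by
      intro h
      have : ((τ (σ o))⁻¹ * (⟨σ, hσ⟩ : H)) • e = ((τ (σ o))⁻¹ * (⟨σ, hσ⟩ : H)) • o := by
        rw [h, hg0]
      exact hoe (MulAction.injective _ this).symm
    have hgμ := hμuniq _ _ ha hg0 rfl
    refine ⟨((τ (σ o))⁻¹ * (⟨σ, hσ⟩ : H)) • e, σ o, ha, fun x => ?_⟩
    rw [if_neg ha, ← hgμ, mul_smul, smul_inv_smul]
    rfl
  · rintro ⟨a, b, ha, hx⟩
    have : σ = ((τ b * μ a : H) : Equiv.Perm α) := by
      ext x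
      rw [hx x, if_neg ha, ← mul_smul]
      rfl
    rw [this]
    exact (τ b * μ a).2

end Cfsg.Agent.S0683
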