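import Mathlib
import Cfsg.Statements.S0684
import Cfsg.Agent.Helper6.Trans

set_option autoImplicit false
open Cfsg

namespace Cfsg.Agent.S0684

open Cfsg.Agent.Helper6

theorem cyclic_of_irred {k : Type*} [Field k] {W : Type*} [AddCommGroup W] [Module k W] [Nontrivial W]
    {A : Type*} [Group A] [Finite A] (hcomm : ∀ a b : A, a * b = b * a)
    (ρ : A →* Module.End k W) (hinj : Function.Injective ρ)
    (hirr : ∀ U : Submodule k W, (∀ a : A, ∀ u ∈ U, ρ a u ∈ U) → U = ⊥ ∨ U = ⊤) : IsCyclic A := by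
  letI : CommGroup A := { ‹Group A› with mul_comm := hcomm }
  obtain ⟨φ, hφ⟩ : ∃ φ : MonoidAlgebra k A →+* Module.End k W,
      φ = (MonoidAlgebra.lift k (Module.End k W) A ρ).toRingHom := ⟨_, rfl⟩
  have hφof : ∀ a : A, φ (MonoidAlgebra.of k A a) = ρ a := by
    intro a
    rw [hφ]
    exact MonoidAlgebra.lift_of ρ a
  have hprime : (RingHom.ker φ).IsPrime := by
    constructor
    · intro htop
      have h0 : (1 : MonoidAlgebra k A) ∈ RingHom.ker φ := by rw [htop]; trivial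
      rw [RingHom.mem_ker, map_one] at h0
      exact one_ne_zero h0
    · intro x y hxy
      rw [RingHom.mem_ker] at hxy
      rw [RingHom.mem_ker, RingHom.mem_ker]
      by_cases hy : φ y = 0
      · exact Or.inr hy
      · left
        have hU := hirr (LinearMap.range (φ y)) (by
          rintro a u ⟨w, rfl⟩
          refine ⟨ρ a w, ?_⟩
          have h1 : φ y * ρ a = ρ a * φ y := by
            rw [← hφof, ← map_mul, ← map_mul, mul_comm]
          exact LinearMap.congr_fun h1 w)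
        rcases hU with hU | hU
        · exfalso; apply hy
          exact LinearMap.range_eq_bot.1 hU
        · apply LinearMap.ext
          intro w
          have hw : w ∈ LinearMap.range (φ y) := by rw [hU]; trivial
          obtain ⟨w', rfl⟩ := hw
          have h2 : (φ x * φ y) w' = 0 := by
            rw [← map_mul, hxy]; rfl
          exact h2
  haveI := hprime
  obtain ⟨f, hf⟩ : ∃ f : A →* (MonoidAlgebra k A ⧸ RingHom.ker φ),
      f = (Ideal.Quotient.mk (RingHom.ker φ)).toMonoidHom.comp (MonoidAlgebra.of k A) := ⟨_, rfl⟩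
  have hfinj : Function.Injective f := by
    intro a b hab
    apply hinj
    have h1 : Ideal.Quotient.mk (RingHom.ker φ) (MonoidAlgebra.of k A a) =
        Ideal.Quotient.mk (RingHom.ker φ) (MonoidAlgebra.of k A b) := by
      rw [hf] at hab; exact hab
    rw [Ideal.Quotient.eq, RingHom.mem_ker, map_sub, sub_eq_zero, hφof, hφof] at h1
    exact h1
  exact isCyclic_of_subgroup_isDomain f hfinj

theorem exists_min_inv {k V : Type*} [Field k] [AddCommGroup V] [Module k V] [FiniteDimensional k V]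
    (P : Submodule k V → Prop) (W0 : Submodule k V) (hW0 : W0 ≠ ⊥) (hP0 : P W0) :
    ∃ W : Submodule k V, W ≠ ⊥ ∧ W ≤ W0 ∧ P W ∧
      ∀ W' : Submodule k V, W' ≤ W → P W' → W' = ⊥ ∨ W' = W := by
  classical
  have hex : ∃ d : ℕ, ∃ W : Submodule k V, W ≠ ⊥ ∧ W ≤ W0 ∧ P W ∧ Module.finrank k W = d :=
    ⟨_, W0, hW0, le_rfl, hP0, rfl⟩
  obtain ⟨W, hW, hWle, hPW, hd⟩ := Nat.find_spec hex
  refine ⟨W, hW, hWle, hPW, fun W' hW'le hPW' => ?_⟩
  by_cases hW'0 : W' = ⊥
  · exact Or.inl hW'0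
  · right
    apply Submodule.eq_of_le_of_finrank_le hW'le
    by_contra hlt
    push Not at hlt
    exact Nat.find_min hex (hd ▸ hlt) ⟨W', hW'0, hW'le.trans hWle, hPW', rfl⟩

theorem orbit_stab {K α : Type*} [Group K] [MulAction K α] (y : α) :
    Nat.card (MulAction.orbit K y) * Nat.card (MulAction.stabilizer K y) = Nat.card K := by
  rw [Nat.card_congr (MulAction.orbitEquivQuotientStabilizer K y)]
  exact (Subgroup.card_eq_card_quotient_mul_card_subgroup _).symm

theorem cyclic_aux {p : ℕ} [Fact p.Prime] {V : Type*} [AddCommGroup V] [Module (ZMod p) V] [Finite V]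
    (H : Subgroup (V ≃ₗ[ZMod p] V)) (A : Subgroup H) (hcomm : ∀ a b : A, a * b = b * a)
    (hinjA : ∀ a b : A, ∀ v : V, v ≠ 0 →
      ((a : H) : V ≃ₗ[ZMod p] V) v = ((b : H) : V ≃ₗ[ZMod p] V) v → a = b)
    (W : Submodule (ZMod p) V) (hW : W ≠ ⊥)
    (hinv : ∀ a ∈ A, ∀ v ∈ W, ((a : H) : V ≃ₗ[ZMod p] V) v ∈ W)
    (hmin : ∀ W' : Submodule (ZMod p) V, W' ≤ W →
      (∀ a ∈ A, ∀ v ∈ W', ((a : H) : V ≃ₗ[ZMod p] V) v ∈ W') → W' = ⊥ ∨ W' = W) :
    IsCyclic A := by
  haveI : Finite (V ≃ₗ[ZMod p] V) :=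
    Finite.of_injective (fun f : V ≃ₗ[ZMod p] V => (f : V → V)) DFunLike.coe_injective
  obtain ⟨w0, hw0W, hw0⟩ := (Submodule.ne_bot_iff W).1 hW
  haveI : Nontrivial W := ⟨⟨⟨w0, hw0W⟩, 0, fun h => hw0 (congrArg Subtype.val h)⟩⟩
  let ρ : A →* Module.End (ZMod p) W :=
    { toFun := fun a => (((a : H) : V ≃ₗ[ZMod p] V) : V →ₗ[ZMod p] V).restrict
        (fun v hv => hinv a a.2 v hv)
      map_one' := by ext v; rfl
      map_mul' := by intro a b; ext v; rfl }
  apply cyclic_of_irred hcomm ρ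
  · intro a b hab
    apply hinjA a b w0 hw0
    have h1 := congrArg (fun f : Module.End (ZMod p) W => ((f ⟨w0, hw0W⟩ : W) : V)) hab
    exact h1
  · intro U hU
    have h1 := hmin (U.map W.subtype) (Submodule.map_subtype_le W U) (by
      rintro a ha v ⟨u, hu, rfl⟩
      exact ⟨ρ ⟨a, ha⟩ u, hU ⟨a, ha⟩ u hu, rfl⟩)
    rcases h1 with h1 | h1
    · left
      apply Submodule.map_injective_of_injective W.injective_subtype
      rw [h1, Submodule.map_bot]
    · right
      apply Submodule.map_injective_of_injective W.injective_subtype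
      rw [h1, Submodule.map_subtype_top]

theorem result {p : ℕ} [Fact p.Prime] {V : Type*} [AddCommGroup V] [Module (ZMod p) V] [Finite V] (H : Subgroup (V ≃ₗ[ZMod p] V)) (hreg : ∀ v w : V, v ≠ 0 → w ≠ 0 → ∃! h : H, (h : V ≃ₗ[ZMod p] V) v = w) (hI : ∀ A : Subgroup H, A.Normal → IsCyclic A → ∃ W : Submodule (ZMod p) V, W ≠ ⊥ ∧ W ≠ ⊤ ∧ ∀ a ∈ A, ∀ v ∈ W, ((a : H) : V ≃ₗ[ZMod p] V) v ∈ W) (A : Subgroup H) (hAn : A.Normal) (hAc : IsMulCommutative A) (hAmax : ∀ B : Subgroup H, B.Normal → IsMulCommutative B → A ≤ B → B = A) : IsCyclic A ∧ ∃ W : Submodule (ZMod p) V, W ≠ ⊥ ∧ W ≠ ⊤ ∧ (∀ a ∈ A, ∀ v ∈ W, ((a : H) : V ≃ₗ[ZMod p] V) v ∈ W) ∧ (∀ W' : Submodule (ZMod p) V, W' ≤ W → (∀ a ∈ A, ∀ v ∈ W', ((a : H) : V ≃ₗ[ZMod p] V) v ∈ W') → W' = ⊥ ∨ W' = W) ∧ Nat.card A ∣ p ^ Module.finrank (ZMod p) W - 1 := by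
  classical
  haveI : Finite (V ≃ₗ[ZMod p] V) :=
    Finite.of_injective (fun f : V ≃ₗ[ZMod p] V => (f : V → V)) DFunLike.coe_injective
  have hinjA : ∀ a b : A, ∀ v : V, v ≠ 0 →
      ((a : H) : V ≃ₗ[ZMod p] V) v = ((b : H) : V ≃ₗ[ZMod p] V) v → a = b := by
    intro a b v hv hab
    have hne : ((b : H) : V ≃ₗ[ZMod p] V) v ≠ 0 := by
      intro h; exact hv ((LinearEquiv.map_eq_zero_iff _).1 h)
    obtain ⟨h0, -, huniq⟩ := hreg v _ hv hne
    exact Subtype.ext ((huniq (a : H) hab).trans (huniq (b : H) rfl).symm)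
  have hcomm : ∀ a b : A, a * b = b * a := fun a b => hAc.is_comm.comm a b
  have hcyc : IsCyclic A := by
    rcases subsingleton_or_nontrivial V with hV | hV
    · haveI : Subsingleton A := by
        constructor
        intro a b
        apply Subtype.ext
        apply Subtype.ext
        ext v
        exact Subsingleton.elim _ _
      exact isCyclic_of_subsingleton
    · have htop : (⊤ : Submodule (ZMod p) V) ≠ ⊥ := by
        obtain ⟨v, hv⟩ := exists_ne (0 : V)
        intro h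
        have : v ∈ (⊥ : Submodule (ZMod p) V) := by rw [← h]; trivial
        exact hv ((Submodule.mem_bot _).1 this)
      obtain ⟨W1, hW1b, -, hW1inv, hW1min⟩ := exists_min_inv
        (fun W : Submodule (ZMod p) V => ∀ a ∈ A, ∀ v ∈ W, ((a : H) : V ≃ₗ[ZMod p] V) v ∈ W) ⊤ htop
        (fun _ _ _ _ => trivial)
      exact cyclic_aux H A hcomm hinjA W1 hW1b hW1inv hW1min
  obtain ⟨W0, hW0b, hW0t, hW0inv⟩ := hI A hAn hcyc
  obtain ⟨W, hWb, hWle, hWinv, hWmin⟩ := exists_min_inv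
    (fun W : Submodule (ZMod p) V => ∀ a ∈ A, ∀ v ∈ W, ((a : H) : V ≃ₗ[ZMod p] V) v ∈ W) W0 hW0b hW0inv
  refine ⟨hcyc, W, hWb, ?_, hWinv, hWmin, ?_⟩
  · intro h
    apply hW0t
    rw [h] at hWle
    exact top_le_iff.1 hWle
  · haveI : Fintype V := Fintype.ofFinite V
    have hcardW : Nat.card W = p ^ Module.finrank (ZMod p) W := by
      rw [Module.natCard_eq_pow_finrank (K := ZMod p) (V := W), Nat.card_zmod]
    obtain ⟨S, hS⟩ : ∃ S : Finset V, S = (Finset.univ.filter (fun v => v ∈ W)).erase 0 := ⟨_, rfl⟩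
    have hScard : S.card = p ^ Module.finrank (ZMod p) W - 1 := by
      rw [hS, Finset.card_erase_of_mem (by simp), ← hcardW, Nat.card_eq_fintype_card,
        Fintype.card_subtype]
    have hdvd : Nat.card A ∣ S.card := by
      apply dvd_card_of_orbits (H := A) (Nat.card A) S
      · intro a v hv
        rw [hS, Finset.mem_erase, Finset.mem_filter] at hv ⊢
        refine ⟨?_, Finset.mem_univ _, hWinv a a.2 v hv.2.2⟩
        intro h
        exact hv.1 ((LinearEquiv.map_eq_zero_iff ((a : H) : V ≃ₗ[ZMod p] V)).1 h)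
      · intro v hv
        rw [hS, Finset.mem_erase] at hv
        have hstab : MulAction.stabilizer A v = ⊥ := by
          rw [Subgroup.eq_bot_iff_forall]
          intro a ha
          exact hinjA a 1 v hv.1 ha
        have h1 := orbit_stab (K := A) v
        rw [hstab, Subgroup.card_bot, mul_one] at h1
        rw [h1]
    rw [hScard] at hdvd
    exact hdvd

end Cfsg.Agent.S0684
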