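import Mathlib
import Cfsg.Statements.S0685
import Cfsg.Agent.S0684

set_option autoImplicit false
open Cfsg

namespace Cfsg.Agent.S0685

theorem result {p : ℕ} [Fact p.Prime] {V : Type*} [AddCommGroup V] [Module (ZMod p) V] [Finite V] (H : Subgroup (V ≃ₗ[ZMod p] V)) (hreg : ∀ v w : V, v ≠ 0 → w ≠ 0 → ∃! h : H, (h : V ≃ₗ[ZMod p] V) v = w) (hI : ∀ A : Subgroup H, A.Normal → IsCyclic A → ∃ W : Submodule (ZMod p) V, W ≠ ⊥ ∧ W ≠ ⊤ ∧ ∀ a ∈ A, ∀ v ∈ W, ((a : H) : V ≃ₗ[ZMod p] V) v ∈ W) (A : Subgroup H) (hAn : A.Normal) (hAc : IsMulCommutative A) (hAmax : ∀ B : Subgroup H, B.Normal → IsMulCommutative B → A ≤ B → B = A) : A < Subgroup.centralizer (A : Set H) ∧ ¬ IsMulCommutative (Subgroup.centralizer (A : Set H)) := by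
  classical
  haveI : Finite (V ≃ₗ[ZMod p] V) :=
    Finite.of_injective (fun f : V ≃ₗ[ZMod p] V => (f : V → V)) DFunLike.coe_injective
  have hp := (Fact.out : p.Prime)
  obtain ⟨hcyc, W, hWb, hWt, hWinv, hWmin, hdvd⟩ := Cfsg.Agent.S0684.result H hreg hI A hAn hAc hAmax
  have hAle : A ≤ Subgroup.centralizer (A : Set H) := by
    intro a ha
    rw [Subgroup.mem_centralizer_iff]
    intro b hb
    have h1 := hAc.is_comm.comm (⟨b, hb⟩ : A) ⟨a, ha⟩
    exact congrArg Subtype.val h1
  have hne : A ≠ Subgroup.centralizer (A : Set H) := by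
    intro heq
    obtain ⟨d, hd⟩ : ∃ d, d = Module.finrank (ZMod p) W := ⟨_, rfl⟩
    obtain ⟨n, hn⟩ : ∃ n, n = Module.finrank (ZMod p) V := ⟨_, rfl⟩
    rw [← hd] at hdvd
    obtain ⟨w0, hw0W, hw0⟩ := (Submodule.ne_bot_iff W).1 hWb
    obtain ⟨v0, hv0⟩ : ∃ v0 : V, v0 ∉ W := by
      by_contra hall
      push Not at hall
      exact hWt (eq_top_iff.2 fun v _ => hall v)
    have hv00 : v0 ≠ 0 := fun h => hv0 (h ▸ W.zero_mem)
    obtain ⟨h0, hh0, -⟩ := hreg w0 v0 hw0 hv00
    obtain ⟨W2, hW2⟩ : ∃ W2 : Submodule (ZMod p) V,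
        W2 = W.map ((h0 : V ≃ₗ[ZMod p] V) : V →ₗ[ZMod p] V) := ⟨_, rfl⟩
    have hW2inv : ∀ a ∈ A, ∀ v ∈ W2, ((a : H) : V ≃ₗ[ZMod p] V) v ∈ W2 := by
      intro a ha v hv
      rw [hW2] at hv ⊢
      obtain ⟨w, hw, rfl⟩ := hv
      have hconj : h0⁻¹ * a * h0 ∈ A := by
        have h1 := hAn.conj_mem a ha h0⁻¹
        rwa [inv_inv] at h1
      refine ⟨((h0⁻¹ * a * h0 : H) : V ≃ₗ[ZMod p] V) w, hWinv _ hconj w hw, ?_⟩
      have e : h0 * (h0⁻¹ * a * h0) = a * h0 := by group
      have e2 := congrArg (fun g : H => (g : V ≃ₗ[ZMod p] V) w) e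
      simp only [Subgroup.coe_mul, LinearEquiv.mul_apply] at e2
      exact e2
    have hfr : Module.finrank (ZMod p) W2 = Module.finrank (ZMod p) W := by
      rw [hW2]; exact LinearEquiv.finrank_map_eq _ _
    have hinf : W ⊓ W2 = ⊥ := by
      have h1 := hWmin (W ⊓ W2) inf_le_left
        (fun a ha v hv => ⟨hWinv a ha v hv.1, hW2inv a ha v hv.2⟩)
      rcases h1 with h1 | h1
      · exact h1
      · exfalso
        have hle : W ≤ W2 := inf_eq_left.1 h1
        have heq2 : W = W2 := Submodule.eq_of_le_of_finrank_le hle (le_of_eq hfr)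
        apply hv0
        rw [heq2, hW2, ← hh0]
        exact Submodule.mem_map_of_mem hw0W
    have h2d : 2 * d ≤ n := by
      have h1 := Submodule.finrank_sup_add_finrank_inf_eq W W2
      rw [hinf, finrank_bot, add_zero] at h1
      have h3 := Submodule.finrank_le (W ⊔ W2)
      rw [hd, hn]; omega
    have hcardH : Nat.card H = p ^ n - 1 := by
      have hbij : Function.Bijective (fun h : H =>
          (⟨(h : V ≃ₗ[ZMod p] V) w0, fun hz => hw0 ((LinearEquiv.map_eq_zero_iff _).1 hz)⟩ :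
            {v : V // v ≠ 0})) := by
        constructor
        · intro a b hab
          have hab' : (a : V ≃ₗ[ZMod p] V) w0 = (b : V ≃ₗ[ZMod p] V) w0 := congrArg Subtype.val hab
          obtain ⟨h', -, huniq⟩ := hreg w0 ((b : V ≃ₗ[ZMod p] V) w0) hw0
            (fun hz => hw0 ((LinearEquiv.map_eq_zero_iff _).1 hz))
          exact (huniq a hab').trans (huniq b rfl).symm
        · rintro ⟨v, hv⟩
          obtain ⟨h', hh', -⟩ := hreg w0 v hw0 hv
          exact ⟨h', Subtype.ext hh'⟩
      rw [Nat.card_congr (Equiv.ofBijective _ hbij)]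
      haveI : Fintype V := Fintype.ofFinite V
      rw [Nat.card_eq_fintype_card, Fintype.card_subtype, Finset.filter_ne',
        Finset.card_erase_of_mem (Finset.mem_univ _), Finset.card_univ, ← Nat.card_eq_fintype_card,
        Module.natCard_eq_pow_finrank (K := ZMod p) (V := V), Nat.card_zmod, hn]
    haveI := hAn
    haveI := hcyc
    have hker : (MulAut.conjNormal : H →* MulAut A).ker = A := by
      ext h
      rw [MonoidHom.mem_ker]
      constructor
      · intro hh
        rw [heq, Subgroup.mem_centralizer_iff]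
        intro a ha
        have h1 := congrArg (fun f : MulAut A => ((f ⟨a, ha⟩ : A) : H)) hh
        simp only [MulAut.conjNormal_apply, MulAut.one_apply] at h1
        calc a * h = h * a * h⁻¹ * h := by rw [h1]
          _ = h * a := by group
      · intro hh
        rw [heq, Subgroup.mem_centralizer_iff] at hh
        apply MulEquiv.ext
        intro a
        apply Subtype.ext
        rw [MulAut.conjNormal_apply]
        show h * a * h⁻¹ = a
        rw [← hh a a.2]; group
    haveI : Finite (MulAut A) :=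
      Finite.of_injective (fun f : MulAut A => (f : A → A)) DFunLike.coe_injective
    have hcardle : Nat.card H ≤ Nat.card A * Nat.card A := by
      have h1 := Subgroup.card_mul_index (MulAut.conjNormal : H →* MulAut A).ker
      rw [Subgroup.index_ker, hker] at h1
      rw [← h1]
      apply Nat.mul_le_mul_left
      have h2 : Nat.card (MulAut.conjNormal : H →* MulAut A).range ≤ Nat.card (MulAut A) :=
        Subgroup.card_le_card_group _
      have h3 : Nat.card (MulAut A) = Nat.totient (Nat.card A) := IsCyclic.card_mulAut (G := A)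
      rw [h3] at h2
      exact h2.trans (Nat.totient_le _)
    have hd1 : 1 ≤ d := by
      rw [hd]
      exact Nat.one_le_iff_ne_zero.2 (fun h0 => hWb (Submodule.finrank_eq_zero.1 h0))
    have hpd : 2 ≤ p ^ d := by
      calc 2 ≤ p := hp.two_le
        _ = p ^ 1 := (pow_one p).symm
        _ ≤ p ^ d := Nat.pow_le_pow_right hp.pos hd1
    have hAle' : Nat.card A ≤ p ^ d - 1 := Nat.le_of_dvd (by omega) hdvd
    have hpn : p ^ (2 * d) ≤ p ^ n := Nat.pow_le_pow_right hp.pos h2d
    have hsq : p ^ (2 * d) = p ^ d * p ^ d := by rw [two_mul, pow_add]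
    have h5 : p ^ n - 1 ≤ (p ^ d - 1) * (p ^ d - 1) := by
      rw [← hcardH]; exact hcardle.trans (Nat.mul_le_mul hAle' hAle')
    obtain ⟨x', hx'⟩ : ∃ x', p ^ d = x' + 2 := ⟨p ^ d - 2, by omega⟩
    rw [hsq, hx'] at hpn
    rw [hx'] at h5
    have h6 : x' + 2 - 1 = x' + 1 := by omega
    rw [h6] at h5
    have h7 : p ^ n ≤ (x' + 1) * (x' + 1) + 1 := by omega
    nlinarith
  have hlt : A < Subgroup.centralizer (A : Set H) := lt_of_le_of_ne hAle hne
  refine ⟨hlt, fun hC => ?_⟩
  haveI := hAn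
  have hCn : (Subgroup.centralizer (A : Set H)).Normal := Subgroup.normal_centralizer
  exact hne (hAmax _ hCn hC hAle).symm

end Cfsg.Agent.S0685
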