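import Mathlib
import Cfsg.Statements.S0691
import Cfsg.Agent.Helper6.Enum2

set_option autoImplicit false
open Cfsg

namespace Cfsg.Agent.S0691

open Cfsg.Agent.Helper6

def eL : List T4 :=
  [(1, 0, 0, 1), (2, 0, 0, 3), (0, 4, 1, 0), (1, 2, 1, 3), (4, 0, 0, 4), (0, 2, 2, 0), (2, 1, 2,
    4), (0, 3, 3, 0), (2, 4, 3, 4), (4, 2, 1, 2), (3, 3, 4, 1), (3, 0, 0, 2), (0, 1, 4, 0), (4, 3,
    4, 2), (3, 1, 2, 1), (1, 4, 3, 3), (1, 3, 4, 3), (3, 2, 1, 1), (3, 4, 3, 1), (1, 1, 2, 3), (2,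
    2, 1, 4), (2, 3, 4, 4), (4, 4, 3, 2), (4, 1, 2, 2)]

def eW : List (List ℕ) :=
  [[], [0], [1], [2], [0, 0], [1, 0], [2, 0], [0, 1], [2, 1], [1, 2], [2, 2], [0, 0, 0], [1, 0, 0],
    [2, 0, 0], [1, 2, 0], [2, 2, 0], [2, 0, 1], [2, 2, 1], [0, 1, 2], [2, 1, 2], [2, 2, 0, 0], [2,
    1, 2, 0], [2, 2, 0, 1], [2, 0, 1, 2]]

def eG : List T4 :=
  [(2, 0, 0, 3), (0, 4, 1, 0), (1, 2, 1, 3)]


theorem chk : t4check 5 eG eL eW = true := by decide +kernel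

theorem nd : t4nodup 5 eL = true := by decide +kernel

theorem fr : t4free 5 eL = true := by decide +kernel

theorem mA : (!![2, 0; 0, -2] : Matrix (Fin 2) (Fin 2) (ZMod 5)) = t4mat 5 (2, 0, 0, 3) := by
  unfold t4mat; decide +kernel

theorem mB : (!![0, -1; 1, 0] : Matrix (Fin 2) (Fin 2) (ZMod 5)) = t4mat 5 (0, 4, 1, 0) := by
  unfold t4mat; decide +kernel

theorem mC : (!![1, 2; 1, -2] : Matrix (Fin 2) (Fin 2) (ZMod 5)) = t4mat 5 (1, 2, 1, 3) := by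
  unfold t4mat; decide +kernel

/-- An exceptional sharply doubly transitive group of degree 5^2: the listed matrices generate a subgroup of GL(2,5) of order 24 acting regularly on the non-zero vectors. -/
theorem result (A : Matrix.GeneralLinearGroup (Fin 2) (ZMod 5)) (B : Matrix.GeneralLinearGroup (Fin 2) (ZMod 5)) (C : Matrix.GeneralLinearGroup (Fin 2) (ZMod 5)) (hA : (A : Matrix (Fin 2) (Fin 2) (ZMod 5)) = !![2, 0; 0, -2]) (hB : (B : Matrix (Fin 2) (Fin 2) (ZMod 5)) = !![0, -1; 1, 0]) (hC : (C : Matrix (Fin 2) (Fin 2) (ZMod 5)) = !![1, 2; 1, -2]) : Nat.card (Subgroup.closure ({A, B, C} : Set (Matrix.GeneralLinearGroup (Fin 2) (ZMod 5)))) = 24 ∧ ∀ v w : Fin 2 → ZMod 5, v ≠ 0 → w ≠ 0 → ∃! h : Subgroup.closure ({A, B, C} : Set (Matrix.GeneralLinearGroup (Fin 2) (ZMod 5))), Matrix.mulVec ((h : Matrix.GeneralLinearGroup (Fin 2) (ZMod 5)) : Matrix (Fin 2) (Fin 2) (ZMod 5)) v = w :=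 by
  haveI : Fact (Nat.Prime 5) := ⟨by norm_num⟩
  have hS : ∀ s ∈ ({A, B, C} : Set (Matrix.GeneralLinearGroup (Fin 2) (ZMod 5))), ∃ t ∈ eG,
      (s : Matrix (Fin 2) (Fin 2) (ZMod 5)) = t4mat 5 t := by
    rintro s (rfl | rfl | rfl)
    · exact ⟨(2, 0, 0, 3), by simp [eG], hA.trans mA⟩
    · exact ⟨(0, 4, 1, 0), by simp [eG], hB.trans mB⟩
    · exact ⟨(1, 2, 1, 3), by simp [eG], hC.trans mC⟩
  have hgs : ∀ t ∈ eG, ∃ s ∈ ({A, B, C} : Set (Matrix.GeneralLinearGroup (Fin 2) (ZMod 5))),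
      (s : Matrix (Fin 2) (Fin 2) (ZMod 5)) = t4mat 5 t := by
    intro t ht
    simp only [eG, List.mem_cons, List.not_mem_nil, or_false] at ht
    rcases ht with rfl | rfl | rfl
    · exact ⟨A, by simp, hA.trans mA⟩
    · exact ⟨B, by simp, hB.trans mB⟩
    · exact ⟨C, by simp, hC.trans mC⟩
  have hcard := t4_card _ eG eL eW hS hgs chk nd
  have hfree := t4_free _ eG eL eW hS hgs chk fr
  have hreg := regular_of_free (Subgroup.closure
    ({A, B, C} : Set (Matrix.GeneralLinearGroup (Fin 2) (ZMod 5)))) (by rw [hcard]; decide) hfree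
  exact ⟨hreg.1.trans (by norm_num), hreg.2⟩

end Cfsg.Agent.S0691
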