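import Cfsg.Statements.S0694
import Mathlib

set_option autoImplicit false
open Cfsg

namespace Cfsg.Agent.S0694

theorem dp_step (s x a : ℕ) (ha : 1 ≤ a) (hx : 1 ≤ x) (h : s ^ a ∣ x - 1) :
    s ^ (a + 1) ∣ x ^ s - 1 := by
  have hxs : 1 ≤ x ^ s := Nat.one_le_pow _ _ hx
  have h1 : ((s : ℤ)) ^ a ∣ (x : ℤ) - 1 := by
    have := Int.natCast_dvd_natCast.mpr h
    rw [Nat.cast_sub hx] at this
    simpa using this
  have h2 : (s : ℤ) ∣ (x : ℤ) - 1 := dvd_trans (dvd_pow_self _ (by omega)) h1
  have h3 := dvd_geom_sum₂_self (x := (x : ℤ)) (y := 1) (n := s) h2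
  simp only [one_pow, mul_one] at h3
  have h4 : (x : ℤ) ^ s - 1 = (∑ i ∈ Finset.range s, (x : ℤ) ^ i) * ((x : ℤ) - 1) :=
    (geom_sum_mul _ _).symm
  have h5 : ((s : ℤ)) ^ (a + 1) ∣ (x : ℤ) ^ s - 1 := by
    rw [h4, pow_succ, mul_comm]
    exact mul_dvd_mul h3 h1
  have h6 : ((s ^ (a + 1) : ℕ) : ℤ) ∣ ((x ^ s - 1 : ℕ) : ℤ) := by
    rw [Nat.cast_sub hxs]
    simpa using h5
  exact Int.natCast_dvd_natCast.mp h6

theorem dp_lower (s : ℕ) (b : ℕ) : ∀ (x a : ℕ), 1 ≤ a → 1 ≤ x → s ^ a ∣ x - 1 →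
    s ^ (a + b) ∣ x ^ (s ^ b) - 1 := by
  induction b with
  | zero =>
    intro x a _ _ h
    simpa using h
  | succ b ih =>
    intro x a ha hx h
    have h1 := dp_step s x a ha hx h
    have h2 := ih (x ^ s) (a + 1) (by omega) (Nat.one_le_pow _ _ hx) h1
    have e1 : a + (b + 1) = a + 1 + b := by omega
    have e2 : x ^ s ^ (b + 1) = (x ^ s) ^ s ^ b := by rw [pow_succ, mul_comm, pow_mul]
    rw [e1, e2]
    exact h2

theorem dp_lower' (s x a : ℕ) (ha : 1 ≤ a) (hx : 1 ≤ x) (h : s ^ a ∣ x - 1) (b m : ℕ)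
    (hm : s ^ b ∣ m) : s ^ (a + b) ∣ x ^ m - 1 :=
  (dp_lower s b x a ha hx h).trans (Nat.pow_sub_one_dvd_pow_sub_one x hm)

theorem dp_pp (q m : ℕ) (hq : 1 < q) (s k : ℕ) (hs : s.Prime) (hsq : s ∣ q - 1) (c : ℕ)
    (hk : k ≤ padicValNat s (q - 1) + c) (hc : s ^ c ∣ m) : s ^ k ∣ q ^ m - 1 := by
  haveI : Fact s.Prime := ⟨hs⟩
  have hq0 : q - 1 ≠ 0 := by omega
  have ha : 1 ≤ padicValNat s (q - 1) := one_le_padicValNat_of_dvd hq0 hsq
  exact (pow_dvd_pow s hk).trans
    (dp_lower' s q (padicValNat s (q - 1)) ha (by omega) pow_padicValNat_dvd c m hc)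

theorem dp_upper_odd (r : ℕ) (hr : r.Prime) (hodd : Odd r) (q : ℕ) (hq : 1 < q)
    (hrq : r ∣ q - 1) (i : ℕ) (hi : i ≠ 0) (c : ℕ) (hc : r ^ c ∣ q ^ i - 1) :
    c ≤ padicValNat r (q - 1) + padicValNat r i := by
  haveI : Fact r.Prime := ⟨hr⟩
  have hnd : ¬ r ∣ q := by
    intro h
    have h1 : r ∣ q - (q - 1) := Nat.dvd_sub h hrq
    have h2 : q - (q - 1) = 1 := by omega
    rw [h2] at h1
    exact hr.one_lt.ne' (Nat.dvd_one.mp h1)
  have h1 := padicValNat.pow_sub_pow hodd hq hrq hnd hi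
  rw [one_pow] at h1
  rw [← h1]
  have hne : q ^ i - 1 ≠ 0 := by
    have := Nat.one_lt_pow hi hq
    omega
  exact (padicValNat_dvd_iff_le hne).mp hc

theorem dp_upper_two (q : ℕ) (hq : 1 < q) (h4 : 4 ∣ q - 1) (i : ℕ) (hi : i ≠ 0) (c : ℕ)
    (hc : 2 ^ c ∣ q ^ i - 1) : c ≤ padicValNat 2 (q - 1) + padicValNat 2 i := by
  haveI : Fact (2 : ℕ).Prime := ⟨Nat.prime_two⟩
  have hnd : ¬ 2 ∣ q := by omega
  have hqodd : Odd q := by
    rw [← Nat.not_even_iff_odd, even_iff_two_dvd]; exact hnd
  have hqi : 1 < q ^ i := Nat.one_lt_pow hi hq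
  have hev : 2 ∣ q ^ i + 1 := by
    have : Odd (q ^ i) := hqodd.pow
    obtain ⟨t, ht⟩ := this
    exact ⟨t + 1, by omega⟩
  have hfac : q ^ (2 * i) - 1 = (q ^ i + 1) * (q ^ i - 1) := by
    have := Nat.pow_two_sub_pow_two (q ^ i) 1
    rw [one_pow, ← pow_mul, mul_comm i 2] at this
    exact this
  have hdvd : 2 ^ (c + 1) ∣ q ^ (2 * i) - 1 := by
    rw [hfac, pow_succ, mul_comm]
    exact mul_dvd_mul hev hc
  have hne : q ^ (2 * i) - 1 ≠ 0 := by
    have := Nat.one_lt_pow (show 2 * i ≠ 0 by omega) hq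
    omega
  have h1 := (padicValNat_dvd_iff_le hne).mp hdvd
  have h2 := padicValNat.pow_two_sub_one hq hnd (show 2 * i ≠ 0 by omega) (even_two_mul i)
  have h3 : padicValNat 2 (2 * i) = 1 + padicValNat 2 i := by
    rw [padicValNat.mul (by norm_num) hi, padicValNat_self]
  have h4' : padicValNat 2 (q + 1) = 1 := by
    have ha : 2 ^ 1 ∣ q + 1 := by omega
    have hb : ¬ 2 ^ 2 ∣ q + 1 := by omega
    have ha' := (padicValNat_dvd_iff_le (show q + 1 ≠ 0 by omega)).mp ha
    have hb' : ¬ 2 ≤ padicValNat 2 (q + 1) := fun h =>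
      hb ((padicValNat_dvd_iff_le (show q + 1 ≠ 0 by omega)).mpr h)
    omega
  omega

theorem dp_three_pow (j : ℕ) : 3 ^ (2 * j + 1) % 4 = 3 := by
  induction j with
  | zero => norm_num
  | succ j ih =>
    have e : 3 ^ (2 * (j + 1) + 1) = 3 ^ (2 * j + 1) * 9 := by ring
    rw [e, Nat.mul_mod, ih]

/-- The Dickson pair condition: for a prime power `q` and `n > 1`, (every prime factor of `n` divides `q - 1`, and `4 ∣ n → 4 ∣ q - 1`) holds exactly when `q ^ n ≡ 1` modulo `n * (q - 1)` but `q ^ i` is not, for `0 < i < n`. -/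
theorem result (q n : ℕ) (hq : IsPrimePow q) (hn : 1 < n) : ((∀ r : ℕ, r.Prime → r ∣ n → r ∣ q - 1) ∧ (4 ∣ n → 4 ∣ q - 1)) ↔ (q ^ n ≡ 1 [MOD n * (q - 1)] ∧ ∀ i : ℕ, 0 < i → i < n → ¬ q ^ i ≡ 1 [MOD n * (q - 1)]) := by
  have hq1 : 1 < q := hq.one_lt
  have hq0 : q - 1 ≠ 0 := by omega
  have hn0 : n ≠ 0 := by omega
  have hM0 : n * (q - 1) ≠ 0 := Nat.mul_ne_zero hn0 hq0
  have hconv : ∀ i : ℕ, (q ^ i ≡ 1 [MOD n * (q - 1)]) ↔ n * (q - 1) ∣ q ^ i - 1 := by
    intro i
    rw [Nat.ModEq.comm, Nat.modEq_iff_dvd' (Nat.one_le_pow _ _ (by omega))]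
  simp only [hconv]
  constructor
  · rintro ⟨h1, h2⟩
    constructor
    · rw [Nat.dvd_iff_prime_pow_dvd_dvd]
      intro s k hs hk
      rcases Nat.eq_zero_or_pos k with rfl | hk0
      · simp
      have hsM : s ∣ n * (q - 1) := (dvd_pow_self s hk0.ne').trans hk
      have hsq : s ∣ q - 1 := by
        rcases (Nat.Prime.dvd_mul hs).mp hsM with h | h
        · exact h1 s hs h
        · exact h
      haveI : Fact s.Prime := ⟨hs⟩
      have hle := (padicValNat_dvd_iff_le hM0).mp hk
      rw [padicValNat.mul hn0 hq0] at hle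
      exact dp_pp q n hq1 s k hs hsq (padicValNat s n) (by omega) pow_padicValNat_dvd
    · intro i hi hin hdvd
      have hni : n ∣ i := by
        rw [Nat.dvd_iff_prime_pow_dvd_dvd]
        intro r k hr hk
        rcases Nat.eq_zero_or_pos k with rfl | hk0
        · simp
        haveI : Fact r.Prime := ⟨hr⟩
        have hrn : r ∣ n := (dvd_pow_self r hk0.ne').trans hk
        have hrq : r ∣ q - 1 := h1 r hr hrn
        have hpow : r ^ (k + padicValNat r (q - 1)) ∣ q ^ i - 1 := by
          rw [pow_add]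
          exact (mul_dvd_mul hk pow_padicValNat_dvd).trans hdvd
        by_cases hr2 : r = 2
        · subst hr2
          by_cases h4 : 4 ∣ q - 1
          · have := dp_upper_two q hq1 h4 i hi.ne' _ hpow
            exact (padicValNat_dvd_iff_le hi.ne').mpr (by omega)
          · have h4n : ¬ 4 ∣ n := fun h => h4 (h2 h)
            have hk1 : k = 1 := by
              by_contra hne
              apply h4n
              have : 2 ^ 2 ∣ 2 ^ k := pow_dvd_pow 2 (by omega)
              exact this.trans hk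
            subst hk1
            have ha : 1 ≤ padicValNat 2 (q - 1) := one_le_padicValNat_of_dvd hq0 hrq
            have h4d : 4 ∣ q ^ i - 1 := by
              have : 2 ^ 2 ∣ 2 ^ (1 + padicValNat 2 (q - 1)) := pow_dvd_pow 2 (by omega)
              exact this.trans hpow
            have hqm : q % 4 = 3 := by omega
            by_contra hodd
            rw [pow_one] at hodd
            obtain ⟨j, hj⟩ : ∃ j, i = 2 * j + 1 := ⟨i / 2, by omega⟩
            have hmod : q ^ i % 4 = 3 := by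
              rw [Nat.pow_mod, hqm, hj]
              exact dp_three_pow j
            have hge : 1 ≤ q ^ i := Nat.one_le_pow _ _ (by omega)
            omega
        · have hodd : Odd r := hr.odd_of_ne_two hr2
          have := dp_upper_odd r hr hodd q hq1 hrq i hi.ne' _ hpow
          exact (padicValNat_dvd_iff_le hi.ne').mpr (by omega)
      exact absurd (Nat.le_of_dvd hi hni) (by omega)
  · rintro ⟨hM, hord⟩
    have claim1 : ∀ r : ℕ, r.Prime → r ∣ n → r ∣ q - 1 := by
      by_contra hcon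
      push_neg at hcon
      obtain ⟨r0, hr0, hr0n, hr0q⟩ := hcon
      obtain ⟨S, hS⟩ : ∃ S : Finset ℕ, S = n.primeFactors.filter (fun r => ¬ r ∣ q - 1) :=
        ⟨_, rfl⟩
      have hmemS : ∀ r, r ∈ S ↔ r.Prime ∧ r ∣ n ∧ ¬ r ∣ q - 1 := by
        intro r
        rw [hS, Finset.mem_filter, Nat.mem_primeFactors]
        constructor
        · rintro ⟨⟨h1, h2, _⟩, h3⟩; exact ⟨h1, h2, h3⟩
        · rintro ⟨h1, h2, h3⟩; exact ⟨⟨h1, h2, hn0⟩, h3⟩
      have hSne : S.Nonempty := ⟨r0, (hmemS r0).mpr ⟨hr0, hr0n, hr0q⟩⟩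
      obtain ⟨s0, hs0⟩ : ∃ s0, s0 = S.max' hSne := ⟨_, rfl⟩
      have hs0S : s0 ∈ S := hs0 ▸ Finset.max'_mem S hSne
      obtain ⟨hs0p, hs0n, hs0q⟩ := (hmemS s0).mp hs0S
      have hmax : ∀ r, r.Prime → r ∣ n → ¬ r ∣ q - 1 → r ≤ s0 := by
        intro r h1 h2 h3
        rw [hs0]
        exact Finset.le_max' S r ((hmemS r).mpr ⟨h1, h2, h3⟩)
      obtain ⟨n', hn'⟩ := hs0n
      have hn'0 : n' ≠ 0 := by
        rintro rfl
        rw [mul_zero] at hn'
        exact hn0 hn'
      have hs02 : 2 ≤ s0 := hs0p.two_le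
      have hn'lt : n' < n := by
        rw [hn']; nlinarith [Nat.pos_of_ne_zero hn'0]
      apply hord n' (Nat.pos_of_ne_zero hn'0) hn'lt
      rw [Nat.dvd_iff_prime_pow_dvd_dvd]
      intro s k hs hk
      rcases Nat.eq_zero_or_pos k with rfl | hk0
      · simp
      haveI : Fact s.Prime := ⟨hs⟩
      haveI : Fact s0.Prime := ⟨hs0p⟩
      by_cases hsq : s ∣ q - 1
      · have hne : s ≠ s0 := fun h => hs0q (h ▸ hsq)
        have hle := (padicValNat_dvd_iff_le hM0).mp hk
        have hvn : padicValNat s n = padicValNat s n' := by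
          rw [hn', padicValNat.mul (a := s0) (b := n') hs0p.ne_zero hn'0,
            padicValNat_primes hne, zero_add]
        rw [padicValNat.mul hn0 hq0, hvn] at hle
        exact dp_pp q n' hq1 s k hs hsq (padicValNat s n') (by omega) pow_padicValNat_dvd
      · have hcop : Nat.Coprime (s ^ k) (q - 1) :=
          Nat.Coprime.pow_left k ((Nat.Prime.coprime_iff_not_dvd hs).mpr hsq)
        have hkn : s ^ k ∣ n := hcop.dvd_of_dvd_mul_right hk
        have hsn : s ∣ n := (dvd_pow_self s hk0.ne').trans hkn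
        have hsle : s ≤ s0 := hmax s hs hsn hsq
        have hqn1 : 1 ≤ q ^ n := Nat.one_le_pow _ _ (by omega)
        have hkqn : s ^ k ∣ q ^ n - 1 := (hkn.trans (dvd_mul_right n (q - 1))).trans hM
        have hsq' : ¬ s ∣ q := by
          intro h
          have h1 : s ∣ q ^ n := dvd_pow h hn0
          have h2 : s ∣ q ^ n - (q ^ n - 1) :=
            Nat.dvd_sub h1 ((dvd_pow_self s hk0.ne').trans hkqn)
          have h3 : q ^ n - (q ^ n - 1) = 1 := by omega
          rw [h3] at h2
          exact hs.one_lt.ne' (Nat.dvd_one.mp h2)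
        have hcopq : Nat.Coprime q (s ^ k) :=
          Nat.Coprime.pow_right k
            (Nat.Coprime.symm ((Nat.Prime.coprime_iff_not_dvd hs).mpr hsq'))
        have heuler : s ^ k ∣ q ^ Nat.totient (s ^ k) - 1 :=
          (Nat.modEq_iff_dvd' (Nat.one_le_pow _ _ (by omega))).mp
            (Nat.ModEq.pow_totient hcopq).symm
        have hgcd : s ^ k ∣ q ^ Nat.gcd n (Nat.totient (s ^ k)) - 1 := by
          rw [← Nat.pow_sub_one_gcd_pow_sub_one]
          exact Nat.dvd_gcd hkqn heuler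
        have hgn' : Nat.gcd n (Nat.totient (s ^ k)) ∣ n' := by
          have hg1 : Nat.gcd n (Nat.totient (s ^ k)) ∣ n := Nat.gcd_dvd_left _ _
          have hg2 : Nat.gcd n (Nat.totient (s ^ k)) ∣ s ^ (k - 1) * (s - 1) := by
            rw [← Nat.totient_prime_pow hs hk0]
            exact Nat.gcd_dvd_right _ _
          obtain ⟨g, hg⟩ : ∃ g, g = Nat.gcd n (Nat.totient (s ^ k)) := ⟨_, rfl⟩
          rw [← hg] at hg1 hg2 ⊢
          rcases Nat.lt_or_ge s s0 with hlt | hge
          · have hc1 : Nat.Coprime s0 (s ^ (k - 1) * (s - 1)) := by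
              apply Nat.Coprime.mul_right
              · apply Nat.Coprime.pow_right
                rw [Nat.Prime.coprime_iff_not_dvd hs0p]
                intro h
                exact absurd (Nat.le_of_dvd hs.pos h) (by omega)
              · rw [Nat.Prime.coprime_iff_not_dvd hs0p]
                intro h
                have := Nat.le_of_dvd (by have := hs.two_le; omega) h
                omega
            have hc2 : Nat.Coprime g s0 := (Nat.Coprime.coprime_dvd_right hg2 hc1).symm
            rw [hn', mul_comm] at hg1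
            exact hc2.dvd_of_dvd_mul_right hg1
          · have hss : s = s0 := le_antisymm hsle hge
            obtain ⟨c, hc⟩ := hg1
            have hsc : s ∣ c := by
              by_contra hnsc
              have hcop2 : Nat.Coprime (s ^ k) c :=
                Nat.Coprime.pow_left k ((Nat.Prime.coprime_iff_not_dvd hs).mpr hnsc)
              have h1 : s ^ k ∣ g := by
                rw [hc] at hkn
                exact hcop2.dvd_of_dvd_mul_right hkn
              have h2 : s ^ (k - 1) * s ∣ s ^ (k - 1) * (s - 1) := by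
                rw [← pow_succ, Nat.sub_add_cancel hk0]
                exact h1.trans hg2
              have h3 : s ∣ s - 1 := Nat.dvd_of_mul_dvd_mul_left (pow_pos hs.pos _) h2
              have h4 := Nat.le_of_dvd (by have := hs.two_le; omega) h3
              have h5 := hs.two_le
              omega
            obtain ⟨c', hc'⟩ := hsc
            refine ⟨c', ?_⟩
            have h5 : s0 * n' = s0 * (g * c') := by
              rw [← hn', hc, hc', ← hss]; ring
            exact Nat.eq_of_mul_eq_mul_left hs0p.pos h5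
        exact hgcd.trans (Nat.pow_sub_one_dvd_pow_sub_one q hgn')
    refine ⟨claim1, ?_⟩
    intro h4n
    by_contra h4q
    have h2n : 2 ∣ n := (show 2 ∣ 4 by norm_num).trans h4n
    have h2q : 2 ∣ q - 1 := claim1 2 Nat.prime_two h2n
    obtain ⟨n'', hn''⟩ := h4n
    have hn''0 : n'' ≠ 0 := by
      rintro rfl; omega
    apply hord (2 * n'') (by omega) (by omega)
    rw [Nat.dvd_iff_prime_pow_dvd_dvd]
    intro s k hs hk
    rcases Nat.eq_zero_or_pos k with rfl | hk0
    · simp
    haveI : Fact s.Prime := ⟨hs⟩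
    have hsM : s ∣ n * (q - 1) := (dvd_pow_self s hk0.ne').trans hk
    have hsq : s ∣ q - 1 := by
      rcases (Nat.Prime.dvd_mul hs).mp hsM with h | h
      · exact claim1 s hs h
      · exact h
    have hle := (padicValNat_dvd_iff_le hM0).mp hk
    rw [padicValNat.mul hn0 hq0] at hle
    by_cases hs2 : s = 2
    · subst hs2
      have hv1 : padicValNat 2 (q - 1) = 1 := by
        have ha := (padicValNat_dvd_iff_le hq0).mp (show 2 ^ 1 ∣ q - 1 by simpa using h2q)
        have hb : ¬ 2 ≤ padicValNat 2 (q - 1) := fun h =>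
          h4q (by simpa using (padicValNat_dvd_iff_le hq0).mpr h)
        omega
      have hv4 : padicValNat 2 4 = 2 := by
        have : (4 : ℕ) = 2 ^ 2 := by norm_num
        rw [this, padicValNat.prime_pow]
      have hvn : padicValNat 2 n = 2 + padicValNat 2 n'' := by
        rw [hn'', padicValNat.mul (a := 4) (b := n'') (by norm_num) hn''0, hv4]
      have hqodd : Odd q := by
        rw [← Nat.not_even_iff_odd, even_iff_two_dvd]; omega
      have h8 : 2 ^ 3 ∣ q ^ 2 - 1 := by
        have := Nat.eight_dvd_sq_sub_one_of_odd hqodd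
        simpa using this
      have h9 := dp_lower' 2 (q ^ 2) 3 (by norm_num) (Nat.one_le_pow _ _ (by omega)) h8
        (padicValNat 2 n'') n'' pow_padicValNat_dvd
      rw [← pow_mul] at h9
      exact (pow_dvd_pow 2 (by omega)).trans h9
    · have hv : padicValNat s n = padicValNat s (2 * n'') := by
        have e : n = 2 * (2 * n'') := by omega
        haveI : Fact (2 : ℕ).Prime := ⟨Nat.prime_two⟩
        rw [e, padicValNat.mul (a := 2) (b := 2 * n'') (by norm_num) (by omega),
          padicValNat_primes hs2, zero_add]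
      rw [hv] at hle
      exact dp_pp q (2 * n'') hq1 s k hs hsq (padicValNat s (2 * n'')) (by omega)
        pow_padicValNat_dvd

end Cfsg.Agent.S0694
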