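import Mathlib
import Cfsg.Statements.S0695

set_option autoImplicit false
open Cfsg

namespace Cfsg.Agent.S0695

open MulAction
open scoped Pointwise

theorem result {G : Type*} [Group G] {X : Type*} [Fintype X] [MulAction G X] (hX : 2 ≤ Fintype.card X) (h2 : MulAction.IsMultiplyPreprimitive G X 2) (N : Subgroup G) [N.Normal] (htrans : MulAction.IsPretransitive N X) (hreg : ∀ x : X, MulAction.stabilizer N x = ⊥) : Fintype.card X = 3 ∨ (IsMulCommutative N ∧ (∀ n ∈ N, n ^ 2 = 1) ∧ ∃ m : ℕ, Fintype.card X = 2 ^ m) := by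
  classical
  obtain ⟨x⟩ : Nonempty X := Fintype.card_pos_iff.1 (by omega)
  have hfree : ∀ (y : X) (n n' : G), n ∈ N → n' ∈ N → n • y = n' • y → n = n' := by
    intro y n n' hn hn' h
    have h1 : (⟨n'⁻¹ * n, N.mul_mem (N.inv_mem hn') hn⟩ : N) ∈ MulAction.stabilizer N y := by
      rw [MulAction.mem_stabilizer_iff]
      show (n'⁻¹ * n) • y = y
      rw [mul_smul, h, inv_smul_smul]
    rw [hreg y, Subgroup.mem_bot] at h1
    have h2 : n'⁻¹ * n = 1 := congrArg Subtype.val h1
    exact (inv_mul_eq_one.1 h2).symm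
  by_cases hall : ∀ n ∈ N, n ^ 2 = 1
  · right
    refine ⟨⟨⟨fun a b => ?_⟩⟩, hall, ?_⟩
    · have hsq : ∀ n : N, n * n = 1 := fun n => Subtype.ext (by
        have h3 := hall n n.2
        rwa [pow_two] at h3)
      calc a * b = (a * b)⁻¹ := (inv_eq_of_mul_eq_one_right (hsq (a * b))).symm
        _ = b⁻¹ * a⁻¹ := mul_inv_rev _ _
        _ = b * a := by rw [inv_eq_of_mul_eq_one_right (hsq a), inv_eq_of_mul_eq_one_right (hsq b)]
    · have hbij : Function.Bijective (fun n : N => n • x) := by
        constructor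
        · intro a b hab
          exact Subtype.ext (hfree x a b a.2 b.2 hab)
        · intro y
          obtain ⟨n, hn⟩ := htrans.exists_smul_eq x y
          exact ⟨n, hn⟩
      have hcard : Nat.card N = Fintype.card X := by
        rw [Nat.card_congr (Equiv.ofBijective _ hbij), Nat.card_eq_fintype_card]
      haveI : Finite N := Finite.of_injective _ hbij.1
      have hpg : IsPGroup 2 N := by
        intro n
        refine ⟨1, ?_⟩
        rw [pow_one]
        exact Subtype.ext (hall n n.2)
      haveI : Fact (Nat.Prime 2) := ⟨Nat.prime_two⟩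
      obtain ⟨m, hm⟩ := IsPGroup.iff_card.1 hpg
      exact ⟨m, by rw [← hcard, hm]⟩
  · left
    push Not at hall
    obtain ⟨n, hn, hn2⟩ := hall
    have hn1 : n ≠ 1 := by rintro rfl; exact hn2 (one_pow 2)
    have hninv : n ≠ n⁻¹ := by
      intro h
      apply hn2
      rw [pow_two]
      nth_rewrite 2 [h]
      exact mul_inv_cancel n
    have hy1 : n • x ≠ x := fun h => hn1 (hfree x n 1 hn N.one_mem (by rw [h, one_smul]))
    have hy2 : n⁻¹ • x ≠ x := fun h =>
      hn1 (inv_eq_one.1 (hfree x n⁻¹ 1 (N.inv_mem hn) N.one_mem (by rw [h, one_smul])))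
    have hy12 : n • x ≠ n⁻¹ • x := fun h => hninv (hfree x n n⁻¹ hn (N.inv_mem hn) h)
    haveI := h2
    have hprim : IsPreprimitive (fixingSubgroup G ({x} : Set X))
        (SubMulAction.ofFixingSubgroup G ({x} : Set X)) :=
      IsMultiplyPreprimitive.isPreprimitive_ofFixingSubgroup G 2 (s := ({x} : Set X))
        (by rw [Set.encard_singleton]; rfl)
    obtain ⟨B, hB⟩ : ∃ B : Set (SubMulAction.ofFixingSubgroup G ({x} : Set X)),
        B = {y : SubMulAction.ofFixingSubgroup G ({x} : Set X) |
          (y : X) = n • x ∨ (y : X) = n⁻¹ • x} := ⟨_, rfl⟩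
    have hmemB : ∀ y : SubMulAction.ofFixingSubgroup G ({x} : Set X),
        y ∈ B ↔ ((y : X) = n • x ∨ (y : X) = n⁻¹ • x) := by
      intro y; rw [hB]; rfl
    have hblock : IsBlock (fixingSubgroup G ({x} : Set X)) B := by
      rw [isBlock_iff_smul_eq_of_nonempty]
      rintro g ⟨z, hz1, hz2⟩
      have hgx : (g : G) • x = x := (mem_fixingSubgroup_iff G).1 g.2 x (Set.mem_singleton x)
      obtain ⟨c, hc⟩ : ∃ c : G, c = (g : G) * n * (g : G)⁻¹ := ⟨_, rfl⟩
      have hcN : c ∈ N := by rw [hc]; exact (inferInstance : N.Normal).conj_mem n hn _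
      have hgn : ∀ w : X, (g : G) • (n • w) = c • ((g : G) • w) := by
        intro w; rw [hc, mul_smul, mul_smul, inv_smul_smul]
      have hgn' : ∀ w : X, (g : G) • (n⁻¹ • w) = c⁻¹ • ((g : G) • w) := by
        intro w
        have hcinv : c⁻¹ = (g : G) * n⁻¹ * (g : G)⁻¹ := by rw [hc]; group
        rw [hcinv, mul_smul, mul_smul, inv_smul_smul]
      have hcn : c = n ∨ c = n⁻¹ := by
        obtain ⟨b, hb, hbz⟩ := hz1
        have hzval : (z : X) = (g : G) • (b : X) := by rw [← hbz]; rfl
        rw [hmemB] at hb hz2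
        rcases hb with hb | hb <;> rcases hz2 with hz2 | hz2
        · left; apply hfree x c n hcN hn
          rw [← hz2, hzval, hb, hgn, hgx]
        · right; apply hfree x c n⁻¹ hcN (N.inv_mem hn)
          rw [← hz2, hzval, hb, hgn, hgx]
        · right
          have h3 : c⁻¹ = n := by
            apply hfree x c⁻¹ n (N.inv_mem hcN) hn
            rw [← hz2, hzval, hb, hgn', hgx]
          rw [← h3, inv_inv]
        · left
          have h3 : c⁻¹ = n⁻¹ := by
            apply hfree x c⁻¹ n⁻¹ (N.inv_mem hcN) (N.inv_mem hn)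
            rw [← hz2, hzval, hb, hgn', hgx]
          exact inv_injective h3
      ext w
      rw [Set.mem_smul_set_iff_inv_smul_mem, hmemB, hmemB]
      have hval : ((g⁻¹ • w : SubMulAction.ofFixingSubgroup G ({x} : Set X)) : X) =
          (g : G)⁻¹ • (w : X) := rfl
      rw [hval, inv_smul_eq_iff, inv_smul_eq_iff, hgn, hgn', hgx]
      rcases hcn with h | h
      · rw [h]
      · rw [h, inv_inv]; exact or_comm
    have htriv := hprim.isTrivialBlock_of_isBlock hblock
    rcases htriv with hsub | huniv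
    · exfalso
      have hm1 : (⟨n • x, hy1⟩ : SubMulAction.ofFixingSubgroup G ({x} : Set X)) ∈ B := by
        rw [hmemB]; exact Or.inl rfl
      have hm2 : (⟨n⁻¹ • x, hy2⟩ : SubMulAction.ofFixingSubgroup G ({x} : Set X)) ∈ B := by
        rw [hmemB]; exact Or.inr rfl
      have h3 := hsub hm1 hm2
      exact hy12 (congrArg Subtype.val h3)
    · have huniv' : (Finset.univ : Finset X) = {x, n • x, n⁻¹ • x} := by
        ext y
        simp only [Finset.mem_univ, Finset.mem_insert, Finset.mem_singleton, true_iff]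
        by_cases hyx : y = x
        · exact Or.inl hyx
        · right
          have h3 : (⟨y, hyx⟩ : SubMulAction.ofFixingSubgroup G ({x} : Set X)) ∈ B := by
            rw [huniv]; exact Set.mem_univ _
          rw [hmemB] at h3
          exact h3
      rw [← Finset.card_univ, huniv']
      rw [Finset.card_eq_three]
      exact ⟨x, n • x, n⁻¹ • x, Ne.symm hy1, Ne.symm hy2, hy12, rfl⟩

end Cfsg.Agent.S0695
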