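import Mathlib
import Cfsg.Statements.S0696
import Cfsg.Agent.S0695

set_option autoImplicit false
open Cfsg

namespace Cfsg.Agent.S0696

open MulAction
open scoped Pointwise

theorem result {G : Type*} [Group G] {X : Type*} [Fintype X] [MulAction G X] (hX : 3 ≤ Fintype.card X) (h3 : MulAction.IsMultiplyPreprimitive G X 3) (N : Subgroup G) [N.Normal] (htrans : MulAction.IsPretransitive N X) (hreg : ∀ x : X, MulAction.stabilizer N x = ⊥) : Fintype.card X = 3 ∨ Fintype.card X = 4 := by
  classical
  have h2 : MulAction.IsMultiplyPreprimitive G X 2 :=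
    MulAction.isMultiplyPreprimitive_of_le G X h3 (by norm_num)
      (by rw [ENat.card_eq_coe_fintype_card]; exact_mod_cast hX)
  rcases Cfsg.Agent.S0695.result (by omega) h2 N htrans hreg with h | ⟨-, hsq, -⟩
  · exact Or.inl h
  · right
    have hfree : ∀ (y : X) (n n' : G), n ∈ N → n' ∈ N → n • y = n' • y → n = n' := by
      intro y n n' hn hn' h
      have h1 : (⟨n'⁻¹ * n, N.mul_mem (N.inv_mem hn') hn⟩ : N) ∈ MulAction.stabilizer N y := by
        rw [MulAction.mem_stabilizer_iff]
        show (n'⁻¹ * n) • y = y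
        rw [mul_smul, h, inv_smul_smul]
      rw [hreg y, Subgroup.mem_bot] at h1
      have h2 : n'⁻¹ * n = 1 := congrArg Subtype.val h1
      exact (inv_mul_eq_one.1 h2).symm
    obtain ⟨x, y1, y2, hxy1, hxy2, hy12⟩ := Fintype.two_lt_card_iff.1 (by omega : 2 < Fintype.card X)
    obtain ⟨n', hn'⟩ := htrans.exists_smul_eq x y1
    obtain ⟨m', hm'⟩ := htrans.exists_smul_eq x y2
    obtain ⟨n, hnN, hnx⟩ : ∃ n ∈ N, n • x = y1 := ⟨n', n'.2, hn'⟩
    obtain ⟨m, hmN, hmx⟩ : ∃ m ∈ N, m • x = y2 := ⟨m', m'.2, hm'⟩
    have hnn : n * n = 1 := by rw [← pow_two]; exact hsq n hnN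
    have hninv : n⁻¹ = n := inv_eq_of_mul_eq_one_right hnn
    have hmnN : m * n ∈ N := N.mul_mem hmN hnN
    have hmnx1 : (m * n) • x ≠ x := by
      intro h
      have h4 : m * n = 1 := hfree x _ _ hmnN N.one_mem (by rw [h, one_smul])
      have h5 : m = n := by
        have h6 : m = n⁻¹ := eq_inv_of_mul_eq_one_left h4
        rw [h6, hninv]
      apply hy12
      rw [← hnx, ← hmx, h5]
    have hmnx2 : (m * n) • x ≠ n • x := by
      intro h
      have h4 : m * n = n := hfree x _ _ hmnN hnN h
      have h5 : m = 1 := by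
        have h6 : m * n = 1 * n := by rw [h4, one_mul]
        exact mul_right_cancel h6
      apply hxy2
      rw [← hmx, h5, one_smul]
    have hmnx3 : (m * n) • x ≠ m • x := by
      intro h
      have h4 : m * n = m := hfree x _ _ hmnN hmN h
      have h5 : n = 1 := by
        have h6 : m * n = m * 1 := by rw [h4, mul_one]
        exact mul_left_cancel h6
      apply hxy1
      rw [← hnx, h5, one_smul]
    have hmx1 : m • x ≠ x := by rw [hmx]; exact Ne.symm hxy2
    have hmx2 : m • x ≠ n • x := by rw [hmx, hnx]; exact Ne.symm hy12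
    have hnx1 : n • x ≠ x := by rw [hnx]; exact Ne.symm hxy1
    haveI := h3
    have hprim : IsPreprimitive (fixingSubgroup G ({x, n • x} : Set X))
        (SubMulAction.ofFixingSubgroup G ({x, n • x} : Set X)) :=
      IsMultiplyPreprimitive.isPreprimitive_ofFixingSubgroup G 3 (s := ({x, n • x} : Set X))
        (by rw [Set.encard_pair (Ne.symm hnx1)]; rfl)
    obtain ⟨B, hB⟩ : ∃ B : Set (SubMulAction.ofFixingSubgroup G ({x, n • x} : Set X)),
        B = {y : SubMulAction.ofFixingSubgroup G ({x, n • x} : Set X) |
          (y : X) = m • x ∨ (y : X) = (m * n) • x} := ⟨_, rfl⟩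
    have hmemB : ∀ y : SubMulAction.ofFixingSubgroup G ({x, n • x} : Set X),
        y ∈ B ↔ ((y : X) = m • x ∨ (y : X) = (m * n) • x) := by
      intro y; rw [hB]; rfl
    have hblock : IsBlock (fixingSubgroup G ({x, n • x} : Set X)) B := by
      rw [isBlock_iff_smul_eq_of_nonempty]
      rintro g ⟨z, hz1, hz2⟩
      obtain ⟨g0, hg0⟩ : ∃ g0 : G, g0 = (g : G) := ⟨_, rfl⟩
      have hgx : g0 • x = x := by
        rw [hg0]; exact (mem_fixingSubgroup_iff G).1 g.2 x (by simp)
      have hgnx : g0 • (n • x) = n • x := by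
        rw [hg0]; exact (mem_fixingSubgroup_iff G).1 g.2 (n • x) (by simp)
      obtain ⟨c, hc⟩ : ∃ c : G, c = g0 * m * g0⁻¹ := ⟨_, rfl⟩
      have hcN : c ∈ N := by rw [hc]; exact (inferInstance : N.Normal).conj_mem m hmN _
      have hgm : g0 • (m • x) = c • x := by
        have h4 : g0⁻¹ • x = x := by rw [inv_smul_eq_iff, hgx]
        rw [hc, mul_smul, mul_smul, h4]
      have hgmn : g0 • ((m * n) • x) = (c * n) • x := by
        calc g0 • ((m * n) • x) = (g0 * m * g0⁻¹) • (g0 • (n • x)) := by simp [mul_smul]
          _ = (c * n) • x := by rw [hgnx, ← hc, mul_smul]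
      have hcn : c = m ∨ c = m * n := by
        obtain ⟨b, hb, hbz⟩ := hz1
        have hzval : (z : X) = g0 • (b : X) := by rw [← hbz, hg0]; rfl
        rw [hmemB] at hb hz2
        rcases hb with hb | hb <;> rcases hz2 with hz2 | hz2
        · left; apply hfree x c m hcN hmN
          rw [← hz2, hzval, hb, hgm]
        · right; apply hfree x c (m * n) hcN hmnN
          rw [← hz2, hzval, hb, hgm]
        · right
          have h4 : c * n = m := by
            apply hfree x (c * n) m (N.mul_mem hcN hnN) hmN
            rw [← hz2, hzval, hb, hgmn]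
          rw [← h4, mul_assoc, hnn, mul_one]
        · left
          have h4 : c * n = m * n := by
            apply hfree x (c * n) (m * n) (N.mul_mem hcN hnN) hmnN
            rw [← hz2, hzval, hb, hgmn]
          exact mul_right_cancel h4
      ext w
      rw [Set.mem_smul_set_iff_inv_smul_mem, hmemB, hmemB]
      have hval : ((g⁻¹ • w : SubMulAction.ofFixingSubgroup G ({x, n • x} : Set X)) : X) =
          g0⁻¹ • (w : X) := by rw [hg0]; rfl
      rw [hval, inv_smul_eq_iff, inv_smul_eq_iff, hgm, hgmn]
      rcases hcn with h | h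
      · rw [h]
      · rw [h, mul_assoc, hnn, mul_one]; exact or_comm
    have htriv := hprim.isTrivialBlock_of_isBlock hblock
    have hnotmem1 : m • x ∉ ({x, n • x} : Set X) := by
      simp only [Set.mem_insert_iff, Set.mem_singleton_iff, not_or]
      exact ⟨hmx1, hmx2⟩
    have hnotmem2 : (m * n) • x ∉ ({x, n • x} : Set X) := by
      simp only [Set.mem_insert_iff, Set.mem_singleton_iff, not_or]
      exact ⟨hmnx1, hmnx2⟩
    rcases htriv with hsub | huniv
    · exfalso
      have hm1 : (⟨m • x, hnotmem1⟩ : SubMulAction.ofFixingSubgroup G ({x, n • x} : Set X)) ∈ B := by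
        rw [hmemB]; exact Or.inl rfl
      have hm2 : (⟨(m * n) • x, hnotmem2⟩ : SubMulAction.ofFixingSubgroup G ({x, n • x} : Set X)) ∈ B := by
        rw [hmemB]; exact Or.inr rfl
      have h4 := hsub hm2 hm1
      exact hmnx3 (congrArg Subtype.val h4)
    · have huniv' : (Finset.univ : Finset X) = {x, n • x, m • x, (m * n) • x} := by
        ext y
        simp only [Finset.mem_univ, Finset.mem_insert, Finset.mem_singleton, true_iff]
        by_cases hyx : y = x
        · exact Or.inl hyx
        · by_cases hyn : y = n • x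
          · exact Or.inr (Or.inl hyn)
          · right; right
            have hy : y ∉ ({x, n • x} : Set X) := by
              simp only [Set.mem_insert_iff, Set.mem_singleton_iff, not_or]
              exact ⟨hyx, hyn⟩
            have h4 : (⟨y, hy⟩ : SubMulAction.ofFixingSubgroup G ({x, n • x} : Set X)) ∈ B := by
              rw [huniv]; exact Set.mem_univ _
            rw [hmemB] at h4
            exact h4
      rw [← Finset.card_univ, huniv']
      rw [Finset.card_insert_of_notMem, Finset.card_insert_of_notMem, Finset.card_insert_of_notMem,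
        Finset.card_singleton]
      · simp only [Finset.mem_singleton]; exact Ne.symm hmnx3
      · simp only [Finset.mem_insert, Finset.mem_singleton, not_or]
        exact ⟨Ne.symm hmx2, Ne.symm hmnx2⟩
      · simp only [Finset.mem_insert, Finset.mem_singleton, not_or]
        exact ⟨Ne.symm hnx1, Ne.symm hmx1, Ne.symm hmnx1⟩

end Cfsg.Agent.S0696
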