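import Mathlib
import Cfsg.Statements.S0698
import Cfsg.Agent.Helper6.Trans

set_option autoImplicit false
open Cfsg

namespace Cfsg.Agent.S0698

open Cfsg.Agent.Helper6

theorem exists_notMem {α : Type*} [Fintype α] [DecidableEq α] (s : Finset α)
    (h : s.card < Fintype.card α) : ∃ z, z ∉ s := by
  by_contra hc
  push Not at hc
  have h1 : (Finset.univ : Finset α) ⊆ s := fun x _ => hc x
  have h2 := Finset.card_le_card h1
  rw [Finset.card_univ] at h2
  omega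

theorem exists_agree {α : Type*} [Fintype α] [DecidableEq α] (G : Subgroup (Equiv.Perm α)) {k : ℕ}
    (hG : MulAction.IsMultiplyPretransitive G α k) (hkn : k ≤ Fintype.card α)
    (T : Finset α) (hT : T.card ≤ k) (σ : Equiv.Perm α) : ∃ g ∈ G, ∀ t ∈ T, g t = σ t := by
  haveI := hG
  have hm : MulAction.IsMultiplyPretransitive G α T.card :=
    MulAction.isMultiplyPretransitive_of_le hT (by rw [Nat.card_eq_fintype_card]; exact hkn)
  obtain ⟨e1, he1⟩ : ∃ e1 : Fin T.card ↪ α,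
      e1 = (T.equivFin).symm.toEmbedding.trans (Function.Embedding.subtype _) := ⟨_, rfl⟩
  obtain ⟨g, hg⟩ := hm.exists_smul_eq e1 (e1.trans σ.toEmbedding)
  refine ⟨g.1, g.2, fun t ht => ?_⟩
  have h1 : e1 (T.equivFin ⟨t, ht⟩) = t := by rw [he1]; simp
  have h2 := congrArg (fun e : Fin T.card ↪ α => e (T.equivFin ⟨t, ht⟩)) hg
  simp only [Function.Embedding.smul_apply, Function.Embedding.trans_apply,
    Equiv.coe_toEmbedding] at h2
  rw [h1] at h2
  exact h2

theorem move_one {α : Type*} [Fintype α] [DecidableEq α] (G : Subgroup (Equiv.Perm α)) {k : ℕ}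
    (hG : MulAction.IsMultiplyPretransitive G α k) (hkn : k ≤ Fintype.card α)
    (T : Finset α) (hT : T.card + 1 ≤ k) (u z : α) (hu : u ∉ T) (hz : z ∉ T) :
    ∃ g ∈ G, (∀ t ∈ T, g t = t) ∧ g u = z := by
  obtain ⟨g, hg, hgt⟩ := exists_agree G hG hkn (insert u T)
    (by rw [Finset.card_insert_of_notMem hu]; exact hT) (Equiv.swap u z)
  refine ⟨g, hg, fun t ht => ?_, ?_⟩
  · rw [hgt t (Finset.mem_insert_of_mem ht)]
    exact Equiv.swap_apply_of_ne_of_ne (fun h : t = u => hu (h ▸ ht)) (fun h : t = z => hz (h ▸ ht))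
  · rw [hgt u (Finset.mem_insert_self u T)]
    exact Equiv.swap_apply_left u z

theorem two_pt {α : Type*} [Fintype α] [DecidableEq α] (G : Subgroup (Equiv.Perm α)) {k : ℕ}
    (hG : MulAction.IsMultiplyPretransitive G α k) (hkn : k ≤ Fintype.card α)
    (Δ : Finset α) (hΔ : Δ.card + 2 ≤ k) (x x' y z : α) (hx : x ∉ Δ) (hx' : x' ∉ Δ) (hy : y ∉ Δ)
    (hz : z ∉ Δ) (hxx' : x ≠ x') (hyz : y ≠ z) :
    ∃ h ∈ G, (∀ w ∈ Δ, h w = w) ∧ h x = y ∧ h x' = z := by
  obtain ⟨g1, hg1, hg1fix, hg1x⟩ := move_one G hG hkn Δ (by omega) x y hx hy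
  have hg1x'Δ : g1 x' ∉ Δ := by
    intro h
    have h1 := hg1fix (g1 x') h
    have h2 : g1 x' = x' := g1.injective h1
    rw [h2] at h
    exact hx' h
  have hg1x'y : g1 x' ≠ y := by
    intro h
    rw [← hg1x] at h
    exact hxx' (g1.injective h).symm
  obtain ⟨g2, hg2, hg2fix, hg2x⟩ := move_one G hG hkn (insert y Δ)
    (by rw [Finset.card_insert_of_notMem hy]; omega) (g1 x') z
    (by
      rw [Finset.mem_insert]; rintro (h | h)
      · exact hg1x'y h
      · exact hg1x'Δ h)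
    (by
      rw [Finset.mem_insert]; rintro (h | h)
      · exact hyz h.symm
      · exact hz h)
  refine ⟨g2 * g1, G.mul_mem hg2 hg1, fun w hw => ?_, ?_, ?_⟩
  · rw [Equiv.Perm.mul_apply, hg1fix w hw]; exact hg2fix w (Finset.mem_insert_of_mem hw)
  · rw [Equiv.Perm.mul_apply, hg1x]; exact hg2fix y (Finset.mem_insert_self y Δ)
  · rw [Equiv.Perm.mul_apply]; exact hg2x

theorem F1 {α : Type*} [Fintype α] [DecidableEq α] (G : Subgroup (Equiv.Perm α)) {k : ℕ}
    (hG : MulAction.IsMultiplyPretransitive G α k) (hkn : k ≤ Fintype.card α)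
    (N' : Subgroup (Equiv.Perm α)) (hconj : ∀ g ∈ G, ∀ n ∈ N', g * n * g⁻¹ ∈ N')
    (Δ : Finset α) (hΔ : Δ.card + 2 ≤ k) (hex : ∃ n ∈ N', (∀ x ∈ Δ, n x = x) ∧ n ≠ 1) :
    ∀ y z, y ∉ Δ → z ∉ Δ → ∃ n ∈ N', (∀ x ∈ Δ, n x = x) ∧ n y = z := by
  obtain ⟨n, hn, hnfix, hn1⟩ := hex
  intro y z hy hz
  by_cases hyz : y = z
  · exact ⟨1, N'.one_mem, fun _ _ => rfl, hyz⟩
  · obtain ⟨x, hx⟩ : ∃ x, n x ≠ x := by
      by_contra h
      push Not at h
      exact hn1 (Equiv.ext h)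
    have hxΔ : x ∉ Δ := fun h => hx (hnfix x h)
    have hnxΔ : n x ∉ Δ := by
      intro h
      have h1 := hnfix (n x) h
      exact hx (n.injective h1)
    obtain ⟨h, hh, hhfix, hhx, hhx'⟩ := two_pt G hG hkn Δ hΔ x (n x) y z hxΔ hnxΔ hy hz
      (Ne.symm hx) hyz
    refine ⟨h * n * h⁻¹, hconj h hh n hn, fun w hw => ?_, ?_⟩
    · have h1 : h⁻¹ w = w := by rw [Equiv.Perm.inv_eq_iff_eq]; exact (hhfix w hw).symm
      simp only [Equiv.Perm.mul_apply]
      rw [h1, hnfix w hw, hhfix w hw]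
    · have h1 : h⁻¹ y = x := by rw [Equiv.Perm.inv_eq_iff_eq]; exact hhx.symm
      simp only [Equiv.Perm.mul_apply]
      rw [h1, hhx']

theorem reg_eq {α : Type*} (N' : Subgroup (Equiv.Perm α)) (Δ' : Finset α)
    (hreg : ∀ n ∈ N', (∀ x ∈ Δ', n x = x) → ∀ u, u ∉ Δ' → n u = u → n = 1)
    (r s : Equiv.Perm α) (hr : r ∈ N') (hs : s ∈ N') (hrfix : ∀ x ∈ Δ', r x = x)
    (hsfix : ∀ x ∈ Δ', s x = x) (b : α) (hb : b ∉ Δ') (h : r b = s b) : r = s := by
  have h1 : r⁻¹ * s = 1 := by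
    refine hreg _ (N'.mul_mem (N'.inv_mem hr) hs) ?_ b hb ?_
    · intro x hx
      rw [Equiv.Perm.mul_apply, hsfix x hx, Equiv.Perm.inv_eq_iff_eq]; exact (hrfix x hx).symm
    · rw [Equiv.Perm.mul_apply, ← h, Equiv.Perm.inv_eq_iff_eq]
  exact inv_mul_eq_one.1 h1

theorem sq_one {α : Type*} [Fintype α] [DecidableEq α] (G : Subgroup (Equiv.Perm α)) {k : ℕ}
    (hG : MulAction.IsMultiplyPretransitive G α k) (hkn : k ≤ Fintype.card α)
    (N' : Subgroup (Equiv.Perm α)) (hconj : ∀ g ∈ G, ∀ n ∈ N', g * n * g⁻¹ ∈ N')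
    (Δ' : Finset α) (hΔk : Δ'.card + 3 ≤ k) (hΔn : Δ'.card + 4 ≤ Fintype.card α)
    (hreg : ∀ n ∈ N', (∀ x ∈ Δ', n x = x) → ∀ u, u ∉ Δ' → n u = u → n = 1) :
    ∀ r ∈ N', (∀ x ∈ Δ', r x = x) → r * r = 1 := by
  intro r hr hrfix
  by_contra hr2
  obtain ⟨b, hb⟩ := exists_notMem Δ' (by omega)
  have hfixinj : ∀ w, w ∉ Δ' → r w ∉ Δ' := by
    intro w hw h
    have h1 := hrfix (r w) h
    have h2 : r w = w := r.injective h1
    rw [h2] at h; exact hw h
  have hr1 : r ≠ 1 := by rintro rfl; exact hr2 (one_mul 1)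
  have hmove : ∀ w, w ∉ Δ' → r w ≠ w := fun w hw h => hr1 (hreg r hr hrfix w hw h)
  obtain ⟨c, hc⟩ : ∃ c, c = r b := ⟨_, rfl⟩
  obtain ⟨e, he⟩ : ∃ e, e = r c := ⟨_, rfl⟩
  have hcΔ : c ∉ Δ' := hc ▸ hfixinj b hb
  have heΔ : e ∉ Δ' := he ▸ hfixinj c hcΔ
  have hcb : c ≠ b := hc ▸ hmove b hb
  have hec : e ≠ c := he ▸ hmove c hcΔ
  have heb : e ≠ b := by
    intro h
    apply hr2
    refine hreg (r * r) (N'.mul_mem hr hr) (fun x hx => ?_) b hb ?_
    · rw [Equiv.Perm.mul_apply, hrfix x hx, hrfix x hx]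
    · rw [Equiv.Perm.mul_apply, ← hc, ← he]; exact h
  obtain ⟨z, hz⟩ := exists_notMem (insert b (insert c (insert e Δ'))) (by
    have h1 := Finset.card_insert_le b (insert c (insert e Δ'))
    have h2 := Finset.card_insert_le c (insert e Δ')
    have h3 := Finset.card_insert_le e Δ'
    omega)
  simp only [Finset.mem_insert, not_or] at hz
  obtain ⟨hzb, hzc, hze, hzΔ⟩ := hz
  obtain ⟨h, hh, hhfix, hhe⟩ := move_one G hG hkn (insert c (insert b Δ')) (by
      have h1 := Finset.card_insert_le c (insert b Δ')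
      have h2 := Finset.card_insert_le b Δ'
      omega) e z
    (by simp only [Finset.mem_insert, not_or]; exact ⟨hec, heb, heΔ⟩)
    (by simp only [Finset.mem_insert, not_or]; exact ⟨hzc, hzb, hzΔ⟩)
  have hhb : h b = b := hhfix b (by simp)
  have hhc : h c = c := hhfix c (by simp)
  have hhΔ : ∀ x ∈ Δ', h x = x := fun x hx => hhfix x (by simp [hx])
  have hinvfix : ∀ x, h x = x → h⁻¹ x = x := fun x hx => by
    rw [Equiv.Perm.inv_eq_iff_eq]; exact hx.symm
  have hr' : h * r * h⁻¹ ∈ N' := hconj h hh r hr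
  have hr'fix : ∀ x ∈ Δ', (h * r * h⁻¹) x = x := by
    intro x hx
    simp only [Equiv.Perm.mul_apply]
    rw [hinvfix x (hhΔ x hx), hrfix x hx, hhΔ x hx]
  have hr'b : (h * r * h⁻¹) b = r b := by
    simp only [Equiv.Perm.mul_apply]
    rw [hinvfix b hhb, ← hc, hhc]
  have heq : h * r * h⁻¹ = r := reg_eq N' Δ' hreg _ _ hr' hr hr'fix hrfix b hb hr'b
  have h3 : (h * r * h⁻¹) c = z := by
    simp only [Equiv.Perm.mul_apply]
    rw [hinvfix c hhc, ← he, hhe]
  rw [heq, ← he] at h3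
  exact hze h3.symm

theorem no_four {α : Type*} [Fintype α] [DecidableEq α] (G : Subgroup (Equiv.Perm α)) {k : ℕ}
    (hG : MulAction.IsMultiplyPretransitive G α k) (hkn : k ≤ Fintype.card α)
    (N' : Subgroup (Equiv.Perm α)) (hconj : ∀ g ∈ G, ∀ n ∈ N', g * n * g⁻¹ ∈ N')
    (Δ' : Finset α) (hΔk : Δ'.card + 4 ≤ k) (hΔn : Δ'.card + 5 ≤ Fintype.card α)
    (hreg : ∀ n ∈ N', (∀ x ∈ Δ', n x = x) → ∀ u, u ∉ Δ' → n u = u → n = 1)
    (hsq : ∀ r ∈ N', (∀ x ∈ Δ', r x = x) → r * r = 1)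
    (htrans : ∀ y z, y ∉ Δ' → z ∉ Δ' → ∃ n ∈ N', (∀ x ∈ Δ', n x = x) ∧ n y = z) : False := by
  obtain ⟨b, hb⟩ := exists_notMem Δ' (by omega)
  obtain ⟨c, hc⟩ := exists_notMem (insert b Δ') (by
    have h1 := Finset.card_insert_le b Δ'
    omega)
  simp only [Finset.mem_insert, not_or] at hc
  obtain ⟨hcb, hcΔ⟩ := hc
  obtain ⟨e, he⟩ := exists_notMem (insert b (insert c Δ')) (by
    have h1 := Finset.card_insert_le b (insert c Δ')
    have h2 := Finset.card_insert_le c Δ'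
    omega)
  simp only [Finset.mem_insert, not_or] at he
  obtain ⟨heb, hec, heΔ⟩ := he
  obtain ⟨r, hr, hrfix, hrb⟩ := htrans b c hb hcΔ
  obtain ⟨f, hf⟩ : ∃ f, f = r e := ⟨_, rfl⟩
  have hfΔ : f ∉ Δ' := by
    intro h
    rw [hf] at h
    have h1 := hrfix (r e) h
    have h2 : r e = e := r.injective h1
    rw [h2] at h; exact heΔ h
  have hfc : f ≠ c := by
    intro h; rw [hf, ← hrb] at h; exact heb (r.injective h)
  have hr1 : r ≠ 1 := by
    rintro rfl
    exact hcb hrb.symm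
  have hfe : f ≠ e := by
    intro h; rw [hf] at h; exact hr1 (hreg r hr hrfix e heΔ h)
  have hfb : f ≠ b := by
    intro h
    have h1 := hsq r hr hrfix
    have h2 : (r * r) e = e := by rw [h1]; rfl
    rw [Equiv.Perm.mul_apply, ← hf, h, hrb] at h2
    exact hec h2.symm
  obtain ⟨z, hz⟩ := exists_notMem (insert b (insert c (insert e (insert f Δ')))) (by
    have h1 := Finset.card_insert_le b (insert c (insert e (insert f Δ')))
    have h2 := Finset.card_insert_le c (insert e (insert f Δ'))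
    have h3 := Finset.card_insert_le e (insert f Δ')
    have h4 := Finset.card_insert_le f Δ'
    omega)
  simp only [Finset.mem_insert, not_or] at hz
  obtain ⟨hzb, hzc, hze, hzf, hzΔ⟩ := hz
  obtain ⟨h, hh, hhfix, hhf⟩ := move_one G hG hkn (insert e (insert c (insert b Δ'))) (by
      have h1 := Finset.card_insert_le e (insert c (insert b Δ'))
      have h2 := Finset.card_insert_le c (insert b Δ')
      have h3 := Finset.card_insert_le b Δ'
      omega) f z
    (by simp only [Finset.mem_insert, not_or]; exact ⟨hfe, hfc, hfb, hfΔ⟩)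
    (by simp only [Finset.mem_insert, not_or]; exact ⟨hze, hzc, hzb, hzΔ⟩)
  have hhb : h b = b := hhfix b (by simp)
  have hhc : h c = c := hhfix c (by simp)
  have hhe : h e = e := hhfix e (by simp)
  have hhΔ : ∀ x ∈ Δ', h x = x := fun x hx => hhfix x (by simp [hx])
  have hinvfix : ∀ x, h x = x → h⁻¹ x = x := fun x hx => by
    rw [Equiv.Perm.inv_eq_iff_eq]; exact hx.symm
  have hr' : h * r * h⁻¹ ∈ N' := hconj h hh r hr
  have hr'fix : ∀ x ∈ Δ', (h * r * h⁻¹) x = x := by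
    intro x hx
    simp only [Equiv.Perm.mul_apply]
    rw [hinvfix x (hhΔ x hx), hrfix x hx, hhΔ x hx]
  have hr'b : (h * r * h⁻¹) b = r b := by
    simp only [Equiv.Perm.mul_apply]
    rw [hinvfix b hhb, hrb, hhc]
  have heq : h * r * h⁻¹ = r := reg_eq N' Δ' hreg _ _ hr' hr hr'fix hrfix b hb hr'b
  have h3 : (h * r * h⁻¹) e = z := by
    simp only [Equiv.Perm.mul_apply]
    rw [hinvfix e hhe, ← hf, hhf]
  rw [heq, ← hf] at h3
  exact hzf h3.symm

theorem no_sharp {α : Type*} [Fintype α] [DecidableEq α] (N' : Subgroup (Equiv.Perm α))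
    (Δ : Finset α) (hΔn : Δ.card + 4 ≤ Fintype.card α)
    (hM : ∀ u, u ∉ Δ →
      (∀ n ∈ N', (∀ x ∈ Δ, n x = x) → n u = u → n * n = 1) ∧
      (∀ n ∈ N', (∀ x ∈ Δ, n x = x) → n u = u → ∀ x, x ∉ Δ → x ≠ u → n x = x → n = 1) ∧
      (∀ x y, x ∉ Δ → x ≠ u → y ∉ Δ → y ≠ u →
        ∃ n ∈ N', (∀ w ∈ Δ, n w = w) ∧ n u = u ∧ n x = y)) : False := by
  obtain ⟨a, ha⟩ := exists_notMem Δ (by omega)
  obtain ⟨c, hc⟩ := exists_notMem (insert a Δ) (by
    have h1 := Finset.card_insert_le a Δ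
    omega)
  simp only [Finset.mem_insert, not_or] at hc
  obtain ⟨hca, hcΔ⟩ := hc
  obtain ⟨d, hd⟩ := exists_notMem (insert a (insert c Δ)) (by
    have h1 := Finset.card_insert_le a (insert c Δ)
    have h2 := Finset.card_insert_le c Δ
    omega)
  simp only [Finset.mem_insert, not_or] at hd
  obtain ⟨hda, hdc, hdΔ⟩ := hd
  obtain ⟨b, hb⟩ := exists_notMem (insert a (insert c (insert d Δ))) (by
    have h1 := Finset.card_insert_le a (insert c (insert d Δ))
    have h2 := Finset.card_insert_le c (insert d Δ)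
    have h3 := Finset.card_insert_le d Δ
    omega)
  simp only [Finset.mem_insert, not_or] at hb
  obtain ⟨hba, hbc, hbd, hbΔ⟩ := hb
  obtain ⟨t, ht, htfix, hta, htc⟩ := (hM a ha).2.2 c d hcΔ hca hdΔ hda
  obtain ⟨s, hs, hsfix, hsb, hsc⟩ := (hM b hbΔ).2.2 c d hcΔ (Ne.symm hbc) hdΔ (Ne.symm hbd)
  have ht2 := (hM a ha).1 t ht htfix hta
  have hs2 := (hM b hbΔ).1 s hs hsfix hsb
  have htd : t d = c := by
    have h1 : (t * t) c = c := by rw [ht2]; rfl
    rw [Equiv.Perm.mul_apply, htc] at h1; exact h1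
  have hsd : s d = c := by
    have h1 : (s * s) c = c := by rw [hs2]; rfl
    rw [Equiv.Perm.mul_apply, hsc] at h1; exact h1
  have hst : s * t = 1 := by
    refine (hM c hcΔ).2.1 (s * t) (N'.mul_mem hs ht) (fun x hx => ?_) ?_ d hdΔ hdc ?_
    · rw [Equiv.Perm.mul_apply, htfix x hx, hsfix x hx]
    · rw [Equiv.Perm.mul_apply, htc, hsd]
    · rw [Equiv.Perm.mul_apply, htd, hsc]
  have hts : t = s := by
    have h1 : s * t = s * s := by rw [hst, hs2]
    exact mul_left_cancel h1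
  have ht1 : t = 1 := by
    refine (hM a ha).2.1 t ht htfix hta b hbΔ hba ?_
    rw [hts]; exact hsb
  rw [ht1] at htc
  exact hdc htc.symm

theorem result {α : Type*} [Fintype α] [DecidableEq α] (G : Subgroup (Equiv.Perm α)) {k : ℕ} (hk : 1 < k) (hdeg : k < Fintype.card α) (hG : MulAction.IsMultiplyPretransitive G α k) (N : Subgroup G) [N.Normal] (hN : N ≠ ⊥) : MulAction.IsMultiplyPretransitive N α (k - 1) ∨ (k = 3 ∧ IsMulCommutative N ∧ ∀ n ∈ N, n ^ 2 = 1) := by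
  classical
  have hkn : k ≤ Fintype.card α := hdeg.le
  obtain ⟨N', hN'⟩ : ∃ N' : Subgroup (Equiv.Perm α), N' = N.map G.subtype := ⟨_, rfl⟩
  have hN'G : N' ≤ G := by rw [hN']; exact Subgroup.map_subtype_le N
  have hmemN' : ∀ g : G, (g : Equiv.Perm α) ∈ N' ↔ g ∈ N := by
    intro g
    rw [hN']
    constructor
    · rintro ⟨g', hg', h⟩
      have h1 : g' = g := Subtype.ext h
      rw [← h1]; exact hg'
    · intro h; exact ⟨g, h, rfl⟩
  have hconj : ∀ g ∈ G, ∀ n ∈ N', g * n * g⁻¹ ∈ N' := by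
    intro g hg n hn
    have hnG := hN'G hn
    have h1 : (⟨n, hnG⟩ : G) ∈ N := (hmemN' ⟨n, hnG⟩).1 hn
    have h2 := (inferInstance : N.Normal).conj_mem ⟨n, hnG⟩ h1 ⟨g, hg⟩
    exact (hmemN' _).2 h2
  obtain ⟨n0, hn0N, hn0⟩ : ∃ n0 ∈ N', n0 ≠ 1 := by
    obtain ⟨a, ha⟩ := (Subgroup.ne_bot_iff_exists_ne_one).1 hN
    refine ⟨((a : G) : Equiv.Perm α), (hmemN' a).2 a.2, fun h => ha ?_⟩
    apply Subtype.ext
    apply Subtype.ext
    exact h
  by_cases hA : ∃ Γ : Finset α, Γ.card = k - 2 ∧ ∀ n ∈ N', (∀ x ∈ Γ, n x = x) → n = 1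
  · right
    obtain ⟨Γ0, hΓ0, hΓ0triv⟩ := hA
    have hPex : ∃ m, ∃ Δ : Finset α, Δ.card = m ∧ ∀ n ∈ N', (∀ x ∈ Δ, n x = x) → n = 1 :=
      ⟨k - 2, Γ0, hΓ0, hΓ0triv⟩
    obtain ⟨m, hm⟩ : ∃ m, m = Nat.find hPex := ⟨_, rfl⟩
    have hmle : m ≤ k - 2 := by rw [hm]; exact Nat.find_min' hPex ⟨Γ0, hΓ0, hΓ0triv⟩
    obtain ⟨Δ0, hΔ0card, hΔ0triv⟩ := Nat.find_spec hPex
    rw [← hm] at hΔ0card
    have hm1 : 1 ≤ m := by
      by_contra h0
      have hm0 : m = 0 := by omega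
      rw [hm0, Finset.card_eq_zero] at hΔ0card
      apply hn0
      apply hΔ0triv n0 hn0N
      intro x hx
      rw [hΔ0card] at hx
      exact absurd hx (Finset.notMem_empty x)
    obtain ⟨a0, ha0⟩ : Δ0.Nonempty := Finset.card_pos.1 (by omega)
    obtain ⟨Δ', hΔ'⟩ : ∃ Δ' : Finset α, Δ' = Δ0.erase a0 := ⟨_, rfl⟩
    have hΔ'card : Δ'.card = m - 1 := by rw [hΔ', Finset.card_erase_of_mem ha0, hΔ0card]
    have ha0Δ' : a0 ∉ Δ' := by rw [hΔ']; exact Finset.notMem_erase a0 Δ0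
    have hΔ'nt : ∃ n ∈ N', (∀ x ∈ Δ', n x = x) ∧ n ≠ 1 := by
      by_contra h
      push Not at h
      exact Nat.find_min hPex (by rw [← hm]; omega : m - 1 < Nat.find hPex) ⟨Δ', hΔ'card, h⟩
    have htrans := F1 G hG hkn N' hconj Δ' (by omega) hΔ'nt
    have hreg : ∀ n ∈ N', (∀ x ∈ Δ', n x = x) → ∀ u, u ∉ Δ' → n u = u → n = 1 := by
      intro n hn hnfix u hu hnu
      obtain ⟨g, hg, hgfix, hga⟩ := htrans a0 u ha0Δ' hu
      have h1 : g⁻¹ * n * g = 1 := by
        apply hΔ0triv _ (N'.mul_mem (N'.mul_mem (N'.inv_mem hg) hn) hg)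
        intro x hx
        simp only [Equiv.Perm.mul_apply]
        by_cases hxa : x = a0
        · rw [hxa, hga, hnu, Equiv.Perm.inv_eq_iff_eq]; exact hga.symm
        · have hx' : x ∈ Δ' := by rw [hΔ']; exact Finset.mem_erase.2 ⟨hxa, hx⟩
          rw [hgfix x hx', hnfix x hx', Equiv.Perm.inv_eq_iff_eq]; exact (hgfix x hx').symm
      have h2 : n = g * (g⁻¹ * n * g) * g⁻¹ := by group
      rw [h2, h1]; group
    have hsq := sq_one G hG hkn N' hconj Δ' (by omega) (by omega) hreg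
    have hm_eq : m = k - 2 := by
      by_contra hne
      exact no_four G hG hkn N' hconj Δ' (by omega) (by omega) hreg hsq htrans
    by_cases hk3 : k = 3
    · have hΔ'empty : Δ' = ∅ := by
        rw [← Finset.card_eq_zero, hΔ'card]; omega
      have hall : ∀ r ∈ N', r * r = 1 := fun r hr => hsq r hr (fun x hx => by
        rw [hΔ'empty] at hx
        exact absurd hx (Finset.notMem_empty x))
      have hsqN : ∀ n : N, n * n = 1 := by
        intro n
        apply Subtype.ext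
        apply Subtype.ext
        exact hall _ ((hmemN' n.1).2 n.2)
      refine ⟨hk3, ⟨⟨fun a b => ?_⟩⟩, fun n hn => ?_⟩
      · calc a * b = (a * b)⁻¹ := (inv_eq_of_mul_eq_one_right (hsqN (a * b))).symm
          _ = b⁻¹ * a⁻¹ := mul_inv_rev _ _
          _ = b * a := by
            rw [inv_eq_of_mul_eq_one_right (hsqN a), inv_eq_of_mul_eq_one_right (hsqN b)]
      · have h1 := hsqN ⟨n, hn⟩
        rw [pow_two]
        exact congrArg Subtype.val h1
    · exfalso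
      have hk4 : 4 ≤ k := by omega
      obtain ⟨a, ha⟩ : Δ'.Nonempty := Finset.card_pos.1 (by omega)
      obtain ⟨Δ'', hΔ''⟩ : ∃ Δ'' : Finset α, Δ'' = Δ'.erase a := ⟨_, rfl⟩
      have hΔ''card : Δ''.card = k - 4 := by
        rw [hΔ'', Finset.card_erase_of_mem ha, hΔ'card]; omega
      have haΔ'' : a ∉ Δ'' := by rw [hΔ'']; exact Finset.notMem_erase a Δ'
      have hsub : ∀ x ∈ Δ'', x ∈ Δ' := fun x hx => by
        rw [hΔ''] at hx; exact Finset.mem_of_mem_erase hx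
      have hmemΔ' : ∀ x, x ∈ Δ' → x ≠ a → x ∈ Δ'' := fun x hx hxa => by
        rw [hΔ'']; exact Finset.mem_erase.2 ⟨hxa, hx⟩
      have hΔ''nt : ∃ n ∈ N', (∀ x ∈ Δ'', n x = x) ∧ n ≠ 1 := by
        obtain ⟨n, hn, hnfix, hn1⟩ := hΔ'nt
        exact ⟨n, hn, fun x hx => hnfix x (hsub x hx), hn1⟩
      have htrans'' := F1 G hG hkn N' hconj Δ'' (by omega) hΔ''nt
      apply no_sharp N' Δ'' (by omega)
      intro u hu
      obtain ⟨g, hg, hgfix, hgau⟩ := htrans'' a u haΔ'' hu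
      have hginvfix : ∀ x ∈ Δ'', g⁻¹ x = x := fun x hx => by
        rw [Equiv.Perm.inv_eq_iff_eq]; exact (hgfix x hx).symm
      have hginvu : g⁻¹ u = a := by rw [Equiv.Perm.inv_eq_iff_eq]; exact hgau.symm
      -- conjugating into the stabiliser of a
      have hconjmem : ∀ n ∈ N', (∀ x ∈ Δ'', n x = x) → n u = u →
          g⁻¹ * n * g ∈ N' ∧ ∀ x ∈ Δ', (g⁻¹ * n * g) x = x := by
        intro n hn hnfix hnu
        refine ⟨N'.mul_mem (N'.mul_mem (N'.inv_mem hg) hn) hg, fun x hx => ?_⟩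
        simp only [Equiv.Perm.mul_apply]
        by_cases hxa : x = a
        · rw [hxa, hgau, hnu, hginvu]
        · have hx'' := hmemΔ' x hx hxa
          rw [hgfix x hx'', hnfix x hx'', hginvfix x hx'']
      have hnotΔ' : ∀ x, x ∉ Δ'' → x ≠ u → g⁻¹ x ∉ Δ' := by
        intro x hx hxu h
        by_cases hxa : g⁻¹ x = a
        · apply hxu
          rw [← hgau, ← hxa]; simp
        · have h1 := hmemΔ' _ h hxa
          have h2 := hgfix _ h1
          have h3 : g (g⁻¹ x) = x := by simp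
          rw [h3] at h2
          rw [← h2] at h1
          exact hx h1
      refine ⟨?_, ?_, ?_⟩
      · intro n hn hnfix hnu
        obtain ⟨h1, h2⟩ := hconjmem n hn hnfix hnu
        have h3 := hsq _ h1 h2
        have h4 : n * n = g * ((g⁻¹ * n * g) * (g⁻¹ * n * g)) * g⁻¹ := by group
        rw [h4, h3]; group
      · intro n hn hnfix hnu x hx hxu hnx
        obtain ⟨h1, h2⟩ := hconjmem n hn hnfix hnu
        have h3 : g⁻¹ * n * g = 1 := by
          refine hreg _ h1 h2 (g⁻¹ x) (hnotΔ' x hx hxu) ?_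
          simp only [Equiv.Perm.mul_apply]
          have h5 : g (g⁻¹ x) = x := by simp
          rw [h5, hnx]
        have h4 : n = g * (g⁻¹ * n * g) * g⁻¹ := by group
        rw [h4, h3]; group
      · intro x y hx hxu hy hyu
        obtain ⟨r, hr, hrfix, hrxy⟩ := htrans (g⁻¹ x) (g⁻¹ y) (hnotΔ' x hx hxu) (hnotΔ' y hy hyu)
        refine ⟨g * r * g⁻¹, N'.mul_mem (N'.mul_mem hg hr) (N'.inv_mem hg), fun w hw => ?_, ?_, ?_⟩
        · simp only [Equiv.Perm.mul_apply]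
          rw [hginvfix w hw, hrfix w (hsub w hw), hgfix w hw]
        · simp only [Equiv.Perm.mul_apply]
          rw [hginvu, hrfix a ha, hgau]
        · simp only [Equiv.Perm.mul_apply]
          rw [hrxy]; simp
  · left
    have hmp : MulAction.IsMultiplyPretransitive N' α (k - 2 + 1) := by
      apply multiplyPretransitive_of_fixing_transitive N' (k - 2) (by omega)
      intro Γ hΓ y z hy hz
      have hnt : ∃ n ∈ N', (∀ x ∈ Γ, n x = x) ∧ n ≠ 1 := by
        by_contra h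
        push Not at h
        exact hA ⟨Γ, hΓ, h⟩
      exact F1 G hG hkn N' hconj Γ (by omega) hnt y z hy hz
    have hk1 : k - 2 + 1 = k - 1 := by omega
    rw [hk1] at hmp
    refine ⟨fun x y => ?_⟩
    obtain ⟨g, hg⟩ := hmp.exists_smul_eq x y
    have hgG : (g : Equiv.Perm α) ∈ G := hN'G g.2
    refine ⟨⟨⟨g, hgG⟩, (hmemN' _).1 g.2⟩, ?_⟩
    rw [← hg]
    rfl

end Cfsg.Agent.S0698
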