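import Mathlib
import Cfsg.Statements.S0697
import Cfsg.Agent.Helper6.Trans
import Cfsg.Agent.S0698

set_option autoImplicit false
open Cfsg

namespace Cfsg.Agent.S0697

open Cfsg.Agent.Helper6
open scoped Pointwise

theorem eq_top_of_card {α : Type*} [Fintype α] [DecidableEq α] (G : Subgroup (Equiv.Perm α)) {k : ℕ}
    (hG : MulAction.IsMultiplyPretransitive G α k) (hkn : k ≤ Fintype.card α)
    (hn : Fintype.card α ≤ k + 1) : G = ⊤ := by
  rw [eq_top_iff]
  intro σ _
  rcases isEmpty_or_nonempty α with hα | ⟨⟨a⟩⟩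
  · have h1 : σ = 1 := Equiv.ext (fun x => (hα.false x).elim)
    rw [h1]; exact G.one_mem
  · obtain ⟨g, hg, hgt⟩ := Cfsg.Agent.S0698.exists_agree G hG hkn (Finset.univ.erase a)
      (by rw [Finset.card_erase_of_mem (Finset.mem_univ a), Finset.card_univ]; omega) σ
    have hgσ : g = σ := by
      ext x
      by_cases hx : x = a
      · by_contra hne
        have ht : σ⁻¹ (g x) ≠ a := by
          intro h
          apply hne
          rw [Equiv.Perm.inv_eq_iff_eq] at h
          rw [h, hx]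
        have h1 := hgt (σ⁻¹ (g x)) (Finset.mem_erase.2 ⟨ht, Finset.mem_univ _⟩)
        have h1' : σ (σ⁻¹ (g x)) = g x := by simp
        rw [h1'] at h1
        have h2 := g.injective h1
        rw [h2, hx] at ht
        exact ht rfl
      · exact hgt x (Finset.mem_erase.2 ⟨hx, Finset.mem_univ _⟩)
    rw [← hgσ]; exact hg

theorem sharp_contra {α : Type*} [Fintype α] [DecidableEq α] (G : Subgroup (Equiv.Perm α)) {k : ℕ}
    (hG : MulAction.IsMultiplyPretransitive G α k) (hkn : k ≤ Fintype.card α)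
    (N' : Subgroup (Equiv.Perm α)) (hconj : ∀ g ∈ G, ∀ n ∈ N', g * n * g⁻¹ ∈ N')
    (Δ' : Finset α) (a : α) (ha : a ∈ Δ') (hΔk : Δ'.card + 1 ≤ k)
    (hΔn : Δ'.card + 3 ≤ Fintype.card α)
    (hreg : ∀ n ∈ N', (∀ x ∈ Δ', n x = x) → ∀ u, u ∉ Δ' → n u = u → n = 1)
    (hsq : ∀ r ∈ N', (∀ x ∈ Δ', r x = x) → r * r = 1)
    (htrans : ∀ y z, y ∉ Δ' → z ∉ Δ' → ∃ n ∈ N', (∀ x ∈ Δ', n x = x) ∧ n y = z)
    (hΔ'nt : ∃ n ∈ N', (∀ x ∈ Δ', n x = x) ∧ n ≠ 1) : False := by
  obtain ⟨Δ'', hΔ''⟩ : ∃ Δ'' : Finset α, Δ'' = Δ'.erase a := ⟨_, rfl⟩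
  have hpos : 0 < Δ'.card := Finset.card_pos.2 ⟨a, ha⟩
  have hΔ''card : Δ''.card = Δ'.card - 1 := by
    rw [hΔ'', Finset.card_erase_of_mem ha]
  have haΔ'' : a ∉ Δ'' := by rw [hΔ'']; exact Finset.notMem_erase a Δ'
  have hsub : ∀ x ∈ Δ'', x ∈ Δ' := fun x hx => by
    rw [hΔ''] at hx; exact Finset.mem_of_mem_erase hx
  have hmemΔ' : ∀ x, x ∈ Δ' → x ≠ a → x ∈ Δ'' := fun x hx hxa => by
    rw [hΔ'']; exact Finset.mem_erase.2 ⟨hxa, hx⟩
  have hΔ''nt : ∃ n ∈ N', (∀ x ∈ Δ'', n x = x) ∧ n ≠ 1 := by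
    obtain ⟨n, hn, hnfix, hn1⟩ := hΔ'nt
    exact ⟨n, hn, fun x hx => hnfix x (hsub x hx), hn1⟩
  have htrans'' := Cfsg.Agent.S0698.F1 G hG hkn N' hconj Δ'' (by omega) hΔ''nt
  apply Cfsg.Agent.S0698.no_sharp N' Δ'' (by omega)
  intro u hu
  obtain ⟨g, hg, hgfix, hgau⟩ := htrans'' a u haΔ'' hu
  have hginvfix : ∀ x ∈ Δ'', g⁻¹ x = x := fun x hx => by
    rw [Equiv.Perm.inv_eq_iff_eq]; exact (hgfix x hx).symm
  have hginvu : g⁻¹ u = a := by rw [Equiv.Perm.inv_eq_iff_eq]; exact hgau.symm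
  have hconjmem : ∀ n ∈ N', (∀ x ∈ Δ'', n x = x) → n u = u →
      g⁻¹ * n * g ∈ N' ∧ ∀ x ∈ Δ', (g⁻¹ * n * g) x = x := by
    intro n hn hnfix hnu
    refine ⟨N'.mul_mem (N'.mul_mem (N'.inv_mem hg) hn) hg, fun x hx => ?_⟩
    simp only [Equiv.Perm.mul_apply]
    by_cases hxa : x = a
    · rw [hxa, hgau, hnu, hginvu]
    · have hx'' := hmemΔ' x hx hxa
      rw [hgfix x hx'', hnfix x hx'', hginvfix x hx'']
  have hnotΔ' : ∀ x, x ∉ Δ'' → x ≠ u → g⁻¹ x ∉ Δ' := by
    intro x hx hxu h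
    by_cases hxa : g⁻¹ x = a
    · apply hxu
      rw [← hgau, ← hxa]; simp
    · have h1 := hmemΔ' _ h hxa
      have h2 := hgfix _ h1
      have h3 : g (g⁻¹ x) = x := by simp
      rw [h3] at h2
      rw [← h2] at h1
      exact hx h1
  refine ⟨?_, ?_, ?_⟩
  · intro n hn hnfix hnu
    obtain ⟨h1, h2⟩ := hconjmem n hn hnfix hnu
    have h3 := hsq _ h1 h2
    have h4 : n * n = g * ((g⁻¹ * n * g) * (g⁻¹ * n * g)) * g⁻¹ := by group
    rw [h4, h3]; group
  · intro n hn hnfix hnu x hx hxu hnx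
    obtain ⟨h1, h2⟩ := hconjmem n hn hnfix hnu
    have h3 : g⁻¹ * n * g = 1 := by
      refine hreg _ h1 h2 (g⁻¹ x) (hnotΔ' x hx hxu) ?_
      simp only [Equiv.Perm.mul_apply]
      have h5 : g (g⁻¹ x) = x := by simp
      rw [h5, hnx]
    have h4 : n = g * (g⁻¹ * n * g) * g⁻¹ := by group
    rw [h4, h3]; group
  · intro x y hx hxu hy hyu
    obtain ⟨r, hr, hrfix, hrxy⟩ := htrans (g⁻¹ x) (g⁻¹ y) (hnotΔ' x hx hxu) (hnotΔ' y hy hyu)
    refine ⟨g * r * g⁻¹, N'.mul_mem (N'.mul_mem hg hr) (N'.inv_mem hg), fun w hw => ?_, ?_, ?_⟩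
    · simp only [Equiv.Perm.mul_apply]
      rw [hginvfix w hw, hrfix w (hsub w hw), hgfix w hw]
    · simp only [Equiv.Perm.mul_apply]
      rw [hginvu, hrfix a ha, hgau]
    · simp only [Equiv.Perm.mul_apply]
      rw [hrxy]; simp

/-- In a `k`-primitive permutation group which is not the whole symmetric group, a non-trivial non-regular normal subgroup is `k`-transitive. -/
theorem result {α : Type*} [Fintype α] [DecidableEq α] (G : Subgroup (Equiv.Perm α)) {k : ℕ} (hk : 1 ≤ k) (hkn : k ≤ Fintype.card α) (hG : MulAction.IsMultiplyPreprimitive G α k) (htop : G ≠ ⊤) (H : Subgroup G) [H.Normal] (hH : H ≠ ⊥) (hnr : ∃ a : α, MulAction.stabilizer H a ≠ ⊥) : MulAction.IsMultiplyPretransitive H α k := by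
  classical
  haveI := hG
  have hGt : MulAction.IsMultiplyPretransitive G α k :=
    MulAction.IsMultiplyPreprimitive.isMultiplyPretransitive G α k
  have hn : k + 2 ≤ Fintype.card α := by
    by_contra hlt
    exact htop (eq_top_of_card G hGt hkn (by omega))
  obtain ⟨N', hN'⟩ : ∃ N' : Subgroup (Equiv.Perm α), N' = H.map G.subtype := ⟨_, rfl⟩
  have hN'G : N' ≤ G := by rw [hN']; exact Subgroup.map_subtype_le H
  have hmemN' : ∀ g : G, (g : Equiv.Perm α) ∈ N' ↔ g ∈ H := by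
    intro g
    rw [hN']
    constructor
    · rintro ⟨g', hg', h⟩
      have h1 : g' = g := Subtype.ext h
      rw [← h1]; exact hg'
    · intro h; exact ⟨g, h, rfl⟩
  have hconj : ∀ g ∈ G, ∀ n ∈ N', g * n * g⁻¹ ∈ N' := by
    intro g hg n hn
    have hnG := hN'G hn
    have h1 : (⟨n, hnG⟩ : G) ∈ H := (hmemN' ⟨n, hnG⟩).1 hn
    have h2 := (inferInstance : H.Normal).conj_mem ⟨n, hnG⟩ h1 ⟨g, hg⟩
    exact (hmemN' _).2 h2
  have hpt : ∀ b : α, ∃ h ∈ N', h b = b ∧ h ≠ 1 := by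
    obtain ⟨a, ha⟩ := hnr
    obtain ⟨h0, hh0⟩ := (Subgroup.ne_bot_iff_exists_ne_one).1 ha
    intro b
    obtain ⟨g, hg, -, hgab⟩ := Cfsg.Agent.S0698.move_one G hGt hkn ∅
      (by rw [Finset.card_empty]; omega) a b (by simp) (by simp)
    obtain ⟨p0, hp0⟩ : ∃ p0 : Equiv.Perm α, p0 = (((h0 : H) : G) : Equiv.Perm α) := ⟨_, rfl⟩
    have hp0N : p0 ∈ N' := by rw [hp0]; exact (hmemN' _).2 (h0 : H).2
    have hp0a : p0 a = a := by
      rw [hp0]
      exact MulAction.mem_stabilizer_iff.1 h0.2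
    refine ⟨g * p0 * g⁻¹, hconj g hg _ hp0N, ?_, ?_⟩
    · simp only [Equiv.Perm.mul_apply]
      have h1 : g⁻¹ b = a := by rw [Equiv.Perm.inv_eq_iff_eq]; exact hgab.symm
      rw [h1, hp0a, hgab]
    · intro h1
      apply hh0
      have h2 : p0 = 1 := by
        have h3 : p0 = g⁻¹ * (g * p0 * g⁻¹) * g := by group
        rw [h3, h1]; group
      apply Subtype.ext; apply Subtype.ext; apply Subtype.ext
      rw [← hp0]; exact h2
  have hnt : ∀ Γ : Finset α, Γ.card = k - 1 → ∃ n ∈ N', (∀ x ∈ Γ, n x = x) ∧ n ≠ 1 := by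
    by_contra hcon
    push Not at hcon
    obtain ⟨Γ0, hΓ0, hΓ0triv⟩ := hcon
    have hPex : ∃ m, ∃ Δ : Finset α, Δ.card = m ∧ ∀ n ∈ N', (∀ x ∈ Δ, n x = x) → n = 1 :=
      ⟨k - 1, Γ0, hΓ0, hΓ0triv⟩
    obtain ⟨m, hm⟩ : ∃ m, m = Nat.find hPex := ⟨_, rfl⟩
    have hmle : m ≤ k - 1 := by rw [hm]; exact Nat.find_min' hPex ⟨Γ0, hΓ0, hΓ0triv⟩
    obtain ⟨Δ0, hΔ0card, hΔ0triv⟩ := Nat.find_spec hPex
    rw [← hm] at hΔ0card
    have hm2 : 2 ≤ m := by
      by_contra hlt
      have hm01 : m = 0 ∨ m = 1 := by omega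
      rcases hm01 with h0 | h1
      · rw [h0, Finset.card_eq_zero] at hΔ0card
        obtain ⟨b⟩ : Nonempty α := Fintype.card_pos_iff.1 (by omega)
        obtain ⟨h, hh, -, hh1⟩ := hpt b
        apply hh1
        apply hΔ0triv h hh
        intro x hx; rw [hΔ0card] at hx; exact absurd hx (Finset.notMem_empty x)
      · rw [h1, Finset.card_eq_one] at hΔ0card
        obtain ⟨b, hb⟩ := hΔ0card
        obtain ⟨h, hh, hhb, hh1⟩ := hpt b
        apply hh1
        apply hΔ0triv h hh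
        intro x hx; rw [hb, Finset.mem_singleton] at hx; rw [hx]; exact hhb
    obtain ⟨a0, ha0⟩ : Δ0.Nonempty := Finset.card_pos.1 (by omega)
    obtain ⟨Δ', hΔ'⟩ : ∃ Δ' : Finset α, Δ' = Δ0.erase a0 := ⟨_, rfl⟩
    have hΔ'card : Δ'.card = m - 1 := by rw [hΔ', Finset.card_erase_of_mem ha0, hΔ0card]
    have ha0Δ' : a0 ∉ Δ' := by rw [hΔ']; exact Finset.notMem_erase a0 Δ0
    have hΔ'nt : ∃ n ∈ N', (∀ x ∈ Δ', n x = x) ∧ n ≠ 1 := by
      by_contra h
      push Not at h
      exact Nat.find_min hPex (by rw [← hm]; omega : m - 1 < Nat.find hPex) ⟨Δ', hΔ'card, h⟩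
    have htrans := Cfsg.Agent.S0698.F1 G hGt hkn N' hconj Δ' (by omega) hΔ'nt
    have hmemΔ0 : ∀ x, x ∈ Δ0 ↔ x = a0 ∨ x ∈ Δ' := by
      intro x; rw [hΔ', Finset.mem_erase]
      constructor
      · intro hx
        by_cases hxa : x = a0
        · exact Or.inl hxa
        · exact Or.inr ⟨hxa, hx⟩
      · rintro (h | ⟨-, hx⟩)
        · rw [h]; exact ha0
        · exact hx
    have hreg : ∀ n ∈ N', (∀ x ∈ Δ', n x = x) → ∀ u, u ∉ Δ' → n u = u → n = 1 := by
      intro n hn hnfix u hu hnu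
      obtain ⟨g, hg, hgfix, hga⟩ := htrans a0 u ha0Δ' hu
      have h1 : g⁻¹ * n * g = 1 := by
        apply hΔ0triv _ (N'.mul_mem (N'.mul_mem (N'.inv_mem hg) hn) hg)
        intro x hx
        simp only [Equiv.Perm.mul_apply]
        rcases (hmemΔ0 x).1 hx with hxa | hx'
        · rw [hxa, hga, hnu, Equiv.Perm.inv_eq_iff_eq]; exact hga.symm
        · rw [hgfix x hx', hnfix x hx', Equiv.Perm.inv_eq_iff_eq]; exact (hgfix x hx').symm
      have h2 : n = g * (g⁻¹ * n * g) * g⁻¹ := by group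
      rw [h2, h1]; group
    obtain ⟨a1, ha1⟩ : Δ'.Nonempty := Finset.card_pos.1 (by omega)
    by_cases hmk : m + 2 ≤ k
    · have hsq := Cfsg.Agent.S0698.sq_one G hGt hkn N' hconj Δ' (by omega) (by omega) hreg
      by_cases hmk3 : m + 3 ≤ k
      · exact Cfsg.Agent.S0698.no_four G hGt hkn N' hconj Δ' (by omega) (by omega) hreg hsq htrans
      · exact sharp_contra G hGt hkn N' hconj Δ' a1 ha1 (by omega) (by omega) hreg hsq htrans hΔ'nt
    · have hmk1 : m = k - 1 := by omega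
      have hsq : ∀ r ∈ N', (∀ x ∈ Δ', r x = x) → r * r = 1 := by
        intro r hr hrfix
        by_contra hr2
        have hr1 : r ≠ 1 := by rintro rfl; exact hr2 (one_mul 1)
        have hfixinj : ∀ (s : Equiv.Perm α), (∀ x ∈ Δ', s x = x) → ∀ w, w ∉ Δ' → s w ∉ Δ' := by
          intro s hs w hw h
          have h1 := hs (s w) h
          have h2 : s w = w := s.injective h1
          rw [h2] at h; exact hw h
        have hrinvfix : ∀ x ∈ Δ', r⁻¹ x = x := fun x hx => by
          rw [Equiv.Perm.inv_eq_iff_eq]; exact (hrfix x hx).symm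
        have hrinv : r⁻¹ ∈ N' := N'.inv_mem hr
        have hy1a : r a0 ≠ a0 := fun h => hr1 (hreg r hr hrfix a0 ha0Δ' h)
        have hy2a : r⁻¹ a0 ≠ a0 := fun h =>
          hr1 (inv_eq_one.1 (hreg r⁻¹ hrinv hrinvfix a0 ha0Δ' h))
        have hy12 : r a0 ≠ r⁻¹ a0 := by
          intro h
          apply hr2
          refine hreg (r * r) (N'.mul_mem hr hr)
            (fun x hx => by rw [Equiv.Perm.mul_apply, hrfix x hx, hrfix x hx]) a0 ha0Δ' ?_
          rw [Equiv.Perm.mul_apply, h]; simp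
        have hy1Δ0 : r a0 ∉ (Δ0 : Set α) := by
          rw [Finset.mem_coe, hmemΔ0]; rintro (h | h)
          · exact hy1a h
          · exact hfixinj r hrfix a0 ha0Δ' h
        have hy2Δ0 : r⁻¹ a0 ∉ (Δ0 : Set α) := by
          rw [Finset.mem_coe, hmemΔ0]; rintro (h | h)
          · exact hy2a h
          · exact hfixinj r⁻¹ hrinvfix a0 ha0Δ' h
        have hprim : MulAction.IsPreprimitive (fixingSubgroup G (Δ0 : Set α))
            (SubMulAction.ofFixingSubgroup G (Δ0 : Set α)) :=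
          MulAction.IsMultiplyPreprimitive.isPreprimitive_ofFixingSubgroup G k (s := (Δ0 : Set α))
            (by rw [Set.encard_coe_eq_coe_finsetCard, hΔ0card]; norm_cast; omega)
        obtain ⟨B, hB⟩ : ∃ B : Set (SubMulAction.ofFixingSubgroup G (Δ0 : Set α)),
            B = {y : SubMulAction.ofFixingSubgroup G (Δ0 : Set α) |
              (y : α) = r a0 ∨ (y : α) = r⁻¹ a0} := ⟨_, rfl⟩
        have hmemB : ∀ y : SubMulAction.ofFixingSubgroup G (Δ0 : Set α),
            y ∈ B ↔ ((y : α) = r a0 ∨ (y : α) = r⁻¹ a0) := by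
          intro y; rw [hB]; rfl
        have hblock : MulAction.IsBlock (fixingSubgroup G (Δ0 : Set α)) B := by
          rw [MulAction.isBlock_iff_smul_eq_of_nonempty]
          rintro g ⟨z, hz1, hz2⟩
          obtain ⟨g0, hg0⟩ : ∃ g0 : Equiv.Perm α, g0 = ((g : G) : Equiv.Perm α) := ⟨_, rfl⟩
          have hg0G : g0 ∈ G := by rw [hg0]; exact (g : G).2
          have hg0fix : ∀ x ∈ Δ0, g0 x = x := by
            intro x hx
            rw [hg0]
            exact (mem_fixingSubgroup_iff G).1 g.2 x (Finset.mem_coe.2 hx)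
          have hg0a : g0 a0 = a0 := hg0fix a0 ha0
          have hg0inva : g0⁻¹ a0 = a0 := by rw [Equiv.Perm.inv_eq_iff_eq]; exact hg0a.symm
          obtain ⟨c, hc⟩ : ∃ c, c = g0 * r * g0⁻¹ := ⟨_, rfl⟩
          have hcN : c ∈ N' := by rw [hc]; exact hconj g0 hg0G r hr
          have hcfix : ∀ x ∈ Δ', c x = x := by
            intro x hx
            have hx0 : x ∈ Δ0 := (hmemΔ0 x).2 (Or.inr hx)
            have h1 : g0⁻¹ x = x := by rw [Equiv.Perm.inv_eq_iff_eq]; exact (hg0fix x hx0).symm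
            rw [hc]; simp only [Equiv.Perm.mul_apply]; rw [h1, hrfix x hx, hg0fix x hx0]
          have hcinvfix : ∀ x ∈ Δ', c⁻¹ x = x := fun x hx => by
            rw [Equiv.Perm.inv_eq_iff_eq]; exact (hcfix x hx).symm
          have hgr : g0 (r a0) = c a0 := by
            rw [hc]; simp only [Equiv.Perm.mul_apply]; rw [hg0inva]
          have hgr' : g0 (r⁻¹ a0) = c⁻¹ a0 := by
            have hcinv : c⁻¹ = g0 * r⁻¹ * g0⁻¹ := by rw [hc]; group
            rw [hcinv]; simp only [Equiv.Perm.mul_apply]; rw [hg0inva]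
          have hcn : c = r ∨ c = r⁻¹ := by
            obtain ⟨b, hb, hbz⟩ := hz1
            have hzval : (z : α) = g0 (b : α) := by rw [← hbz, hg0]; rfl
            rw [hmemB] at hb hz2
            have hzc : (z : α) = c a0 ∨ (z : α) = c⁻¹ a0 := by
              rcases hb with hb | hb
              · left; rw [hzval, hb, hgr]
              · right; rw [hzval, hb, hgr']
            rcases hzc with hzc | hzc <;> rcases hz2 with hz2 | hz2
            · left
              exact Cfsg.Agent.S0698.reg_eq N' Δ' hreg c r hcN hr hcfix hrfix a0 ha0Δ'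
                (hzc.symm.trans hz2)
            · right
              exact Cfsg.Agent.S0698.reg_eq N' Δ' hreg c r⁻¹ hcN hrinv hcfix hrinvfix a0 ha0Δ'
                (hzc.symm.trans hz2)
            · right
              have h3 : c⁻¹ = r := Cfsg.Agent.S0698.reg_eq N' Δ' hreg c⁻¹ r (N'.inv_mem hcN) hr
                hcinvfix hrfix a0 ha0Δ' (hzc.symm.trans hz2)
              rw [← h3, inv_inv]
            · left
              have h3 : c⁻¹ = r⁻¹ := Cfsg.Agent.S0698.reg_eq N' Δ' hreg c⁻¹ r⁻¹ (N'.inv_mem hcN)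
                hrinv hcinvfix hrinvfix a0 ha0Δ' (hzc.symm.trans hz2)
              exact inv_injective h3
          ext w
          rw [Set.mem_smul_set_iff_inv_smul_mem, hmemB, hmemB]
          have hval : ((g⁻¹ • w : SubMulAction.ofFixingSubgroup G (Δ0 : Set α)) : α) =
              g0⁻¹ (w : α) := by rw [hg0]; rfl
          rw [hval, Equiv.Perm.inv_eq_iff_eq, Equiv.Perm.inv_eq_iff_eq, hgr, hgr']
          rcases hcn with h | h
          · rw [h]
          · rw [h, inv_inv]; exact or_comm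
        rcases hprim.isTrivialBlock_of_isBlock hblock with hsub | huniv
        · have hm1 : (⟨r a0, hy1Δ0⟩ : SubMulAction.ofFixingSubgroup G (Δ0 : Set α)) ∈ B := by
            rw [hmemB]; exact Or.inl rfl
          have hm2 : (⟨r⁻¹ a0, hy2Δ0⟩ : SubMulAction.ofFixingSubgroup G (Δ0 : Set α)) ∈ B := by
            rw [hmemB]; exact Or.inr rfl
          exact hy12 (congrArg Subtype.val (hsub hm1 hm2))
        · have hsubs : (Finset.univ : Finset α) ⊆ insert (r a0) (insert (r⁻¹ a0) Δ0) := by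
            intro y _
            by_cases hy : y ∈ Δ0
            · simp [hy]
            · have h3 : (⟨y, fun h => hy (Finset.mem_coe.1 h)⟩ :
                  SubMulAction.ofFixingSubgroup G (Δ0 : Set α)) ∈ B := by
                rw [huniv]; exact Set.mem_univ _
              rw [hmemB] at h3
              rcases h3 with h3 | h3
              · simp [show y = r a0 from h3]
              · simp [show y = r⁻¹ a0 from h3]
          have h4 := Finset.card_le_card hsubs
          have h5 := Finset.card_insert_le (r a0) (insert (r⁻¹ a0) Δ0)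
          have h6 := Finset.card_insert_le (r⁻¹ a0) Δ0
          rw [Finset.card_univ] at h4
          omega
      exact sharp_contra G hGt hkn N' hconj Δ' a1 ha1 (by omega) (by omega) hreg hsq htrans hΔ'nt
  have hfin : ∀ Γ : Finset α, Γ.card = k - 1 → ∀ y z : α, y ∉ Γ → z ∉ Γ →
      ∃ g ∈ N', (∀ x ∈ Γ, g x = x) ∧ g y = z := by
    intro Γ hΓ y z hy hz
    obtain ⟨h0, hh0, hh0fix, hh01⟩ := hnt Γ hΓ
    have hprim : MulAction.IsPreprimitive (fixingSubgroup G (Γ : Set α))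
        (SubMulAction.ofFixingSubgroup G (Γ : Set α)) :=
      MulAction.IsMultiplyPreprimitive.isPreprimitive_ofFixingSubgroup G k (s := (Γ : Set α))
        (by rw [Set.encard_coe_eq_coe_finsetCard, hΓ]; norm_cast; omega)
    obtain ⟨M, hM⟩ : ∃ M : Subgroup (fixingSubgroup G (Γ : Set α)),
        M = H.subgroupOf (fixingSubgroup G (Γ : Set α)) := ⟨_, rfl⟩
    haveI hMn : M.Normal := by rw [hM]; infer_instance
    have hfp : MulAction.fixedPoints M (SubMulAction.ofFixingSubgroup G (Γ : Set α)) ≠ Set.univ := by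
      intro hall
      apply hh01
      ext w
      by_cases hw : w ∈ Γ
      · exact hh0fix w hw
      · have hh0G : h0 ∈ G := hN'G hh0
        have hmem1 : (⟨h0, hh0G⟩ : G) ∈ fixingSubgroup G (Γ : Set α) :=
          (mem_fixingSubgroup_iff G).2 (fun x hx => hh0fix x (Finset.mem_coe.1 hx))
        have hmem2 : (⟨⟨h0, hh0G⟩, hmem1⟩ : fixingSubgroup G (Γ : Set α)) ∈ M := by
          rw [hM, Subgroup.mem_subgroupOf]; exact (hmemN' _).1 hh0
        have h3 : (⟨w, fun h => hw (Finset.mem_coe.1 h)⟩ :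
            SubMulAction.ofFixingSubgroup G (Γ : Set α)) ∈
            MulAction.fixedPoints M (SubMulAction.ofFixingSubgroup G (Γ : Set α)) := by
          rw [hall]; exact Set.mem_univ _
        have h4 := h3 ⟨_, hmem2⟩
        exact congrArg Subtype.val h4
    haveI := hprim
    have hptr := MulAction.IsQuasiPreprimitive.isPretransitive_of_normal (N := M) hfp
    obtain ⟨n, hn⟩ := hptr.exists_smul_eq
      (⟨y, fun h => hy (Finset.mem_coe.1 h)⟩ : SubMulAction.ofFixingSubgroup G (Γ : Set α))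
      ⟨z, fun h => hz (Finset.mem_coe.1 h)⟩
    refine ⟨(((n : fixingSubgroup G (Γ : Set α)) : G) : Equiv.Perm α), ?_, ?_, ?_⟩
    · have h5 : ((n : fixingSubgroup G (Γ : Set α)) : G) ∈ H := by
        have h6 : (n : fixingSubgroup G (Γ : Set α)) ∈ H.subgroupOf (fixingSubgroup G (Γ : Set α)) :=
          hM ▸ n.2
        exact Subgroup.mem_subgroupOf.1 h6
      exact (hmemN' _).2 h5
    · intro x hx
      exact (mem_fixingSubgroup_iff G).1 (n : fixingSubgroup G (Γ : Set α)).2 x (Finset.mem_coe.2 hx)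
    · exact congrArg Subtype.val hn
  obtain ⟨r, hr⟩ : ∃ r, k = r + 1 := ⟨k - 1, by omega⟩
  have hmp : MulAction.IsMultiplyPretransitive N' α (r + 1) :=
    multiplyPretransitive_of_fixing_transitive N' r (by omega)
      (fun Γ hΓ => hfin Γ (by omega))
  rw [hr]
  refine ⟨fun x y => ?_⟩
  obtain ⟨g, hg⟩ := hmp.exists_smul_eq x y
  have hgG : (g : Equiv.Perm α) ∈ G := hN'G g.2
  refine ⟨⟨⟨g, hgG⟩, (hmemN' _).1 g.2⟩, ?_⟩
  rw [← hg]
  rfl

end Cfsg.Agent.S0697
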