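import Mathlib
import Cfsg.Statements.S0699
import Cfsg.Agent.Helper18.Wagner
import Cfsg.Agent.Helper18.Sharp3Perm
-- import your own Cfsg.Agent.* helpers here

set_option autoImplicit false
open Cfsg

namespace Cfsg.Agent.S0699

/-- Wagner's Theorem: a non-trivial normal subgroup of a triply transitive permutation group of odd degree at least 5 is triply transitive. -/
theorem result {α : Type*} [Fintype α] [DecidableEq α] (G : Subgroup (Equiv.Perm α)) (hodd : Odd (Fintype.card α)) (h5 : 5 ≤ Fintype.card α) (hG : MulAction.IsMultiplyPretransitive G α 3) (N : Subgroup G) [N.Normal] (hN : N ≠ ⊥) : MulAction.IsMultiplyPretransitive N α 3 := by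
  classical
  rw [MulAction.isMultiplyPretransitive_iff] at hG ⊢
  have h3t : ∀ a b c a' b' c' : α, a ≠ b → a ≠ c → b ≠ c → a' ≠ b' → a' ≠ c' → b' ≠ c' →
      ∃ g : G, g • a = a' ∧ g • b = b' ∧ g • c = c' := by
    intro a b c a' b' c' hab hac hbc hab' hac' hbc'
    obtain ⟨x, hx0, hx1, hx2⟩ := Cfsg.Agent.Helper18.exists_emb3 a b c hab hac hbc
    obtain ⟨y, hy0, hy1, hy2⟩ := Cfsg.Agent.Helper18.exists_emb3 a' b' c' hab' hac' hbc'
    obtain ⟨g, hg⟩ := hG x y
    refine ⟨g, ?_, ?_, ?_⟩
    · rw [← hx0, ← hy0, ← hg]; rfl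
    · rw [← hx1, ← hy1, ← hg]; rfl
    · rw [← hx2, ← hy2, ← hg]; rfl
  have hfaith : ∀ g : G, (∀ x : α, g • x = x) → g = 1 := by
    intro g hg
    apply Subtype.ext
    ext x
    exact hg x
  have core := Cfsg.Agent.Helper18.wagner_core hfaith
    (by rw [Nat.card_eq_fintype_card]; exact hodd) (by rw [Nat.card_eq_fintype_card]; exact h5)
    h3t N inferInstance hN
  intro x y
  obtain ⟨g, hgN, h0, h1, h2⟩ := core (x 0) (x 1) (x 2) (y 0) (y 1) (y 2)
    (x.injective.ne (by decide)) (x.injective.ne (by decide)) (x.injective.ne (by decide))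
    (y.injective.ne (by decide)) (y.injective.ne (by decide)) (y.injective.ne (by decide))
  refine ⟨⟨g, hgN⟩, ?_⟩
  ext i
  show g • x i = y i
  match i with
  | 0 => exact h0
  | 1 => exact h1
  | 2 => exact h2

end Cfsg.Agent.S0699
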