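import Mathlib
import Cfsg.Statements.S0701

set_option autoImplicit false
open Cfsg

namespace Cfsg.Agent.S0701

theorem semireg {α : Type*} (G : Subgroup (Equiv.Perm α)) [MulAction.IsPretransitive G α]
    (c : Equiv.Perm α) (hc : c ∈ Subgroup.centralizer (G : Set (Equiv.Perm α))) (a : α)
    (hca : c a = a) : c = 1 := by
  ext b
  obtain ⟨g, rfl⟩ := MulAction.exists_smul_eq G a b
  have hcomm : (g : Equiv.Perm α) * c = c * g := hc g g.2
  have h1 : c ((g : Equiv.Perm α) a) = (g : Equiv.Perm α) (c a) := by
    have := congrArg (fun σ : Equiv.Perm α => σ a) hcomm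
    simpa using this.symm
  rw [Subgroup.smul_def, Equiv.Perm.smul_def, h1, hca, Equiv.Perm.coe_one, id]

/-- The centraliser in the full symmetric group of a transitive permutation group `G` is semiregular, and it is transitive if and only if `G` is regular. -/
theorem result {α : Type*} (G : Subgroup (Equiv.Perm α)) [MulAction.IsPretransitive G α] : (∀ c ∈ Subgroup.centralizer (G : Set (Equiv.Perm α)), ∀ a : α, c a = a → c = 1) ∧ (MulAction.IsPretransitive (Subgroup.centralizer (G : Set (Equiv.Perm α))) α ↔ ∀ a : α, MulAction.stabilizer G a = ⊥) := by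
  refine ⟨fun c hc a hca => semireg G c hc a hca, ?_, ?_⟩
  · intro hC a
    rw [eq_bot_iff]
    intro g hg
    rw [MulAction.mem_stabilizer_iff] at hg
    rw [Subgroup.mem_bot]
    ext b
    obtain ⟨c, rfl⟩ := MulAction.exists_smul_eq (Subgroup.centralizer (G : Set (Equiv.Perm α))) a b
    have hcomm : (g : Equiv.Perm α) * c = c * g := c.2 g g.2
    have h1 : (g : Equiv.Perm α) ((c : Equiv.Perm α) a) = (c : Equiv.Perm α) ((g : Equiv.Perm α) a) := by
      have := congrArg (fun σ : Equiv.Perm α => σ a) hcomm
      simpa using this
    have hg' : (g : Equiv.Perm α) a = a := hg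
    simp only [Subgroup.smul_def, Equiv.Perm.smul_def, OneMemClass.coe_one, Equiv.Perm.coe_one, id]
    rw [h1, hg']
  · intro hreg
    have hbij : ∀ a : α, Function.Bijective (fun g : G => g • a) := by
      intro a
      constructor
      · intro g h hgh
        simp only at hgh
        have : g⁻¹ * h ∈ MulAction.stabilizer G a := by
          rw [MulAction.mem_stabilizer_iff, mul_smul, ← hgh, inv_smul_smul]
        rw [hreg a, Subgroup.mem_bot] at this
        exact inv_mul_eq_one.mp this
      · intro b
        exact MulAction.exists_smul_eq G a b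
    constructor
    intro a b
    let ea := Equiv.ofBijective _ (hbij a)
    let eb := Equiv.ofBijective _ (hbij b)
    have hea : ∀ g : G, ea g = g • a := fun g => rfl
    have heb : ∀ g : G, eb g = g • b := fun g => rfl
    let c : Equiv.Perm α := ea.symm.trans eb
    have hc : c ∈ Subgroup.centralizer (G : Set (Equiv.Perm α)) := by
      intro h hh
      ext x
      obtain ⟨g, rfl⟩ := ea.surjective x
      have e1 : (h * c) (ea g) = (⟨h, hh⟩ * g : G) • b := by
        simp only [Equiv.Perm.coe_mul, Function.comp_apply, c, Equiv.trans_apply,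
          Equiv.symm_apply_apply, heb, mul_smul]
        rfl
      have e2 : (c * h) (ea g) = (⟨h, hh⟩ * g : G) • b := by
        have : h (ea g) = ea (⟨h, hh⟩ * g) := by
          rw [hea, hea, mul_smul]
          rfl
        simp only [Equiv.Perm.coe_mul, Function.comp_apply, this, c, Equiv.trans_apply,
          Equiv.symm_apply_apply, heb]
      rw [e1, e2]
    refine ⟨⟨c, hc⟩, ?_⟩
    change c a = b
    have h1 : ea 1 = a := by rw [hea, one_smul]
    have h2 : eb 1 = b := by rw [heb, one_smul]
    simp only [c, Equiv.trans_apply]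
    rw [← h1, Equiv.symm_apply_apply, h2]

end Cfsg.Agent.S0701
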