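import Mathlib
import Cfsg.Statements.S0702

set_option autoImplicit false
open Cfsg

namespace Cfsg.Agent.S0702

open MulAction

section
variable {α : Type*} (G : Subgroup (Equiv.Perm α)) [MulAction.IsPretransitive G α] (a : α)

/-- A section of the orbit map. -/
noncomputable def sec (x : α) : G := Classical.choose (MulAction.exists_smul_eq G a x)

theorem sec_spec (x : α) : sec G a x • a = x :=
  Classical.choose_spec (MulAction.exists_smul_eq G a x)

/-- The map `g • a ↦ g • m • a`. -/
noncomputable def fm (m : G) (x : α) : α := sec G a x • (m • a)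

theorem fm_smul (m : G) (hm : ∀ k ∈ stabilizer G a, m⁻¹ * k * m ∈ stabilizer G a) (g : G) :
    fm G a m (g • a) = g • m • a := by
  unfold fm
  set s := sec G a (g • a) with hs
  have hsa : s • a = g • a := sec_spec G a (g • a)
  have hk : g⁻¹ * s ∈ stabilizer G a := by
    rw [mem_stabilizer_iff, mul_smul, hsa, inv_smul_smul]
  have h2 := hm _ hk
  rw [mem_stabilizer_iff, mul_smul, mul_smul, mul_smul] at h2
  rw [inv_smul_eq_iff, inv_smul_eq_iff] at h2
  exact h2

theorem cond1 {n : G} (hn : n ∈ Subgroup.normalizer (stabilizer G a : Set G)) :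
    ∀ k ∈ stabilizer G a, (n⁻¹)⁻¹ * k * n⁻¹ ∈ stabilizer G a := by
  intro k hk
  rw [inv_inv]
  exact (Subgroup.mem_normalizer_iff.mp hn k).mp hk

theorem cond2 {n : G} (hn : n ∈ Subgroup.normalizer (stabilizer G a : Set G)) :
    ∀ k ∈ stabilizer G a, n⁻¹ * k * n ∈ stabilizer G a := by
  intro k hk
  apply (Subgroup.mem_normalizer_iff.mp hn (n⁻¹ * k * n)).mpr
  have : n * (n⁻¹ * k * n) * n⁻¹ = k := by group
  rw [this]; exact hk

/-- The permutation attached to an element of the normaliser. -/
noncomputable def cperm (n : G) (hn : n ∈ Subgroup.normalizer (stabilizer G a : Set G)) :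
    Equiv.Perm α where
  toFun := fm G a n⁻¹
  invFun := fm G a n
  left_inv x := by
    obtain ⟨g, rfl⟩ := exists_smul_eq G a x
    rw [fm_smul G a n⁻¹ (cond1 G a hn) g, ← mul_smul, fm_smul G a n (cond2 G a hn), mul_smul,
      inv_smul_smul]
  right_inv x := by
    obtain ⟨g, rfl⟩ := exists_smul_eq G a x
    rw [fm_smul G a n (cond2 G a hn) g, ← mul_smul, fm_smul G a n⁻¹ (cond1 G a hn), mul_smul,
      smul_inv_smul]

theorem cperm_apply (n : G) (hn : n ∈ Subgroup.normalizer (stabilizer G a : Set G)) (g : G) :
    cperm G a n hn (g • a) = g • n⁻¹ • a :=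
  fm_smul G a n⁻¹ (cond1 G a hn) g

theorem cperm_mem (n : G) (hn : n ∈ Subgroup.normalizer (stabilizer G a : Set G)) :
    cperm G a n hn ∈ Subgroup.centralizer (G : Set (Equiv.Perm α)) := by
  rw [Subgroup.mem_centralizer_iff]
  intro h hh
  ext x
  obtain ⟨g, rfl⟩ := exists_smul_eq G a x
  have e1 : (h * cperm G a n hn) (g • a) = (⟨h, hh⟩ * g : G) • n⁻¹ • a := by
    rw [Equiv.Perm.coe_mul, Function.comp_apply, cperm_apply, mul_smul]
    rfl
  have e2 : (cperm G a n hn * h) (g • a) = (⟨h, hh⟩ * g : G) • n⁻¹ • a := by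
    rw [Equiv.Perm.coe_mul, Function.comp_apply, ← cperm_apply G a n hn (⟨h, hh⟩ * g), mul_smul]
    rfl
  rw [e1, e2]

/-- The homomorphism from the normaliser to the centraliser. -/
noncomputable def psi : Subgroup.normalizer (stabilizer G a : Set G) →*
    Subgroup.centralizer (G : Set (Equiv.Perm α)) :=
  MonoidHom.mk' (fun n => ⟨cperm G a n.1 n.2, cperm_mem G a n.1 n.2⟩) (by
    intro n n'
    apply Subtype.ext
    ext x
    obtain ⟨g, rfl⟩ := exists_smul_eq G a x
    change cperm G a (n.1 * n'.1) (Subgroup.mul_mem _ n.2 n'.2) (g • a) =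
      cperm G a n.1 n.2 (cperm G a n'.1 n'.2 (g • a))
    rw [cperm_apply, cperm_apply G a n'.1 n'.2, ← mul_smul g (n'.1)⁻¹ a,
      cperm_apply G a n.1 n.2, mul_inv_rev, mul_smul, mul_smul])

theorem psi_apply (n : Subgroup.normalizer (stabilizer G a : Set G)) (g : G) :
    ((psi G a n : Subgroup.centralizer (G : Set (Equiv.Perm α))) : Equiv.Perm α) (g • a) =
      g • (n : G)⁻¹ • a :=
  cperm_apply G a n.1 n.2 g

theorem cent_comm (c : Equiv.Perm α) (hc : c ∈ Subgroup.centralizer (G : Set (Equiv.Perm α)))
    (g : G) (x : α) : c (g • x) = g • c x := by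
  have h := Subgroup.mem_centralizer_iff.mp hc g g.2
  have := congrArg (fun σ : Equiv.Perm α => σ x) h
  simp only [Equiv.Perm.coe_mul, Function.comp_apply] at this
  exact this.symm

theorem inv_mem_normalizer_of_fixed [Finite α] (h : G)
    (hfix : ∀ k ∈ stabilizer G a, k • h • a = h • a) :
    h⁻¹ ∈ Subgroup.normalizer (stabilizer G a : Set G) := by
  have hmap : ∀ k ∈ stabilizer G a, h⁻¹ * k * h ∈ stabilizer G a := by
    intro k hk
    rw [mem_stabilizer_iff, mul_smul, mul_smul, hfix k hk, inv_smul_smul]
  let φ : stabilizer G a → stabilizer G a := fun k => ⟨h⁻¹ * k.1 * h, hmap k.1 k.2⟩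
  have hinj : Function.Injective φ := by
    intro k k' hkk
    have := congrArg Subtype.val hkk
    simp only [φ] at this
    apply Subtype.ext
    simpa using this
  have hsurj : Function.Surjective φ := Finite.injective_iff_surjective.mp hinj
  rw [Subgroup.mem_normalizer_iff]
  intro g
  rw [inv_inv]
  constructor
  · intro hg
    exact hmap g hg
  · intro hg
    obtain ⟨k, hk⟩ := hsurj ⟨h⁻¹ * g * h, hg⟩
    have := congrArg Subtype.val hk
    simp only [φ] at this
    have hkg : (k : G) = g := by simpa using this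
    rw [← hkg]; exact k.2

end

/-- For a transitive permutation group `G` on a finite set, the centraliser of `G` in the symmetric group is isomorphic to `N_G(G_ω)/G_ω`, and its orbit of `ω` is the set of fixed points of `G_ω`. -/
theorem result {α : Type*} [Finite α] (G : Subgroup (Equiv.Perm α)) [MulAction.IsPretransitive G α] (a : α) : Nonempty (Subgroup.centralizer (G : Set (Equiv.Perm α)) ≃* Subgroup.normalizer ((MulAction.stabilizer G a : Subgroup G) : Set G) ⧸ (MulAction.stabilizer G a).subgroupOf (Subgroup.normalizer ((MulAction.stabilizer G a : Subgroup G) : Set G))) ∧ MulAction.orbit (Subgroup.centralizer (G : Set (Equiv.Perm α))) a = MulAction.fixedPoints (MulAction.stabilizer G a) α := by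
  -- fixed points give normaliser elements
  have hfixN : ∀ b : α, b ∈ MulAction.fixedPoints (MulAction.stabilizer G a) α →
      ∃ n : Subgroup.normalizer ((MulAction.stabilizer G a : Subgroup G) : Set G),
        ((psi G a n : Subgroup.centralizer (G : Set (Equiv.Perm α))) : Equiv.Perm α) a = b := by
    intro b hb
    obtain ⟨h, rfl⟩ := exists_smul_eq G a b
    have hfix : ∀ k ∈ stabilizer G a, k • h • a = h • a := fun k hk => hb ⟨k, hk⟩
    refine ⟨⟨h⁻¹, inv_mem_normalizer_of_fixed G a h hfix⟩, ?_⟩
    have := psi_apply G a ⟨h⁻¹, inv_mem_normalizer_of_fixed G a h hfix⟩ 1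
    rw [one_smul, one_smul] at this
    rw [this, inv_inv]
  have horb : ∀ c : Subgroup.centralizer (G : Set (Equiv.Perm α)),
      (c : Equiv.Perm α) a ∈ MulAction.fixedPoints (MulAction.stabilizer G a) α := by
    intro c k
    have h1 := cent_comm G (c : Equiv.Perm α) c.2 (k : G) a
    have h2 : (k : G) • a = a := k.2
    rw [h2] at h1
    exact h1.symm
  constructor
  · have hsurj : Function.Surjective (psi G a) := by
      intro c
      obtain ⟨n, hn⟩ := hfixN _ (horb c)
      refine ⟨n, ?_⟩
      apply Subtype.ext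
      ext x
      obtain ⟨g, rfl⟩ := exists_smul_eq G a x
      rw [cent_comm G _ (psi G a n).2 g a, cent_comm G _ c.2 g a, hn]
    have hker : (psi G a).ker = (MulAction.stabilizer G a).subgroupOf
        (Subgroup.normalizer ((MulAction.stabilizer G a : Subgroup G) : Set G)) := by
      ext n
      rw [MonoidHom.mem_ker, Subgroup.mem_subgroupOf, mem_stabilizer_iff]
      constructor
      · intro h
        have h1 := psi_apply G a n 1
        rw [h, one_smul, one_smul] at h1
        have h2 : (n : G)⁻¹ • a = a := by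
          simpa using h1.symm
        rw [inv_smul_eq_iff] at h2
        exact h2.symm
      · intro h
        apply Subtype.ext
        ext x
        obtain ⟨g, rfl⟩ := exists_smul_eq G a x
        rw [psi_apply]
        have h2 : (n : G)⁻¹ • a = a := by
          rw [inv_smul_eq_iff]; exact h.symm
        rw [h2]
        rfl
    exact ⟨((QuotientGroup.quotientMulEquivOfEq hker).symm.trans
      (QuotientGroup.quotientKerEquivOfSurjective (psi G a) hsurj)).symm⟩
  · ext b
    constructor
    · rintro ⟨c, rfl⟩
      exact horb c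
    · intro hb
      obtain ⟨n, hn⟩ := hfixN b hb
      exact ⟨psi G a n, hn⟩

end Cfsg.Agent.S0702
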