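import Mathlib
import Cfsg.Statements.S0703

set_option autoImplicit false
open Cfsg

namespace Cfsg.Agent.S0703

open MulAction

/-- The centraliser of a transitive abelian normal subgroup is itself. -/
theorem cent_eq {α : Type*} (G : Subgroup (Equiv.Perm α)) (M : Subgroup G)
    (hab : IsMulCommutative M) (htrans : MulAction.IsPretransitive M α) (a : α) :
    Subgroup.centralizer ((M.map G.subtype : Subgroup (Equiv.Perm α)) : Set (Equiv.Perm α)) =
      M.map G.subtype := by
  have hcomm : ∀ x y : M, x * y = y * x := fun x y => hab.is_comm.comm x y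
  apply le_antisymm
  · intro c hc
    rw [Subgroup.mem_centralizer_iff] at hc
    obtain ⟨m, hm⟩ := htrans.exists_smul_eq a (c a)
    refine ⟨(m : G), m.2, ?_⟩
    ext x
    obtain ⟨m', rfl⟩ := htrans.exists_smul_eq a x
    have h1 : (((m' : G) : Equiv.Perm α)) * c = c * (((m' : G) : Equiv.Perm α)) :=
      hc _ ⟨(m' : G), m'.2, rfl⟩
    have h2 : c (m' • a) = m' • c a := by
      have := congrArg (fun σ : Equiv.Perm α => σ a) h1
      simp only [Equiv.Perm.coe_mul, Function.comp_apply] at this
      exact this.symm
    rw [h2, ← hm, ← mul_smul, ← hcomm, mul_smul]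
    rfl
  · rintro _ ⟨m, hm, rfl⟩
    rw [Subgroup.mem_centralizer_iff]
    rintro _ ⟨m', hm', rfl⟩
    have := hcomm ⟨m', hm'⟩ ⟨m, hm⟩
    have h2 : m' * m = m * m' := congrArg Subtype.val this
    have h3 := congrArg (G.subtype) h2
    simpa using h3

/-- An abelian transitive minimal normal subgroup `M` of a permutation group on a finite set is self-centralising in the symmetric group, regular, elementary abelian, and is the unique minimal normal subgroup. -/
theorem result {α : Type*} [Finite α] (G : Subgroup (Equiv.Perm α)) (M : Subgroup G) [M.Normal] (hM : M ≠ ⊥) (hmin : ∀ L : Subgroup G, L.Normal → L ≤ M → L = ⊥ ∨ L = M) (hab : IsMulCommutative M) (htrans : MulAction.IsPretransitive M α) : Subgroup.centralizer ((M.map G.subtype : Subgroup (Equiv.Perm α)) : Set (Equiv.Perm α)) = M.map G.subtype ∧ (∀ a : α, MulAction.stabilizer M a = ⊥) ∧ (∃ p : ℕ, p.Prime ∧ ∀ m ∈ M, m ^ p = 1) ∧ ∀ L : Subgroup G, L.Normal → L ≠ ⊥ → (∀ L' : Subgroup G, L'.Normal → L' ≤ L → L' = ⊥ ∨ L' = L) → L = M := by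
  classical
  have hcomm : ∀ x y : M, x * y = y * x := fun x y => hab.is_comm.comm x y
  have hcommG : ∀ x ∈ M, ∀ y ∈ M, x * y = y * x := fun x hx y hy =>
    congrArg Subtype.val (hcomm ⟨x, hx⟩ ⟨y, hy⟩)
  -- α is nonempty
  have hne : Nonempty α := by
    by_contra hemp
    rw [not_nonempty_iff] at hemp
    apply hM
    rw [eq_bot_iff]
    intro m _
    rw [Subgroup.mem_bot]
    apply Subtype.ext
    ext x
    exact (hemp.false x).elim
  obtain ⟨a₀⟩ := hne
  have hcent := cent_eq G M hab htrans a₀
  refine ⟨hcent, ?_, ?_, ?_⟩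
  · intro a
    rw [eq_bot_iff]
    intro m hm
    rw [mem_stabilizer_iff] at hm
    rw [Subgroup.mem_bot]
    apply Subtype.ext
    apply Subtype.ext
    ext x
    obtain ⟨m', rfl⟩ := htrans.exists_smul_eq a x
    change m • m' • a = m' • a
    rw [← mul_smul, hcomm, mul_smul, hm]
  · have hMfin : Finite M := inferInstance
    have hMnt : Nontrivial M := (Subgroup.nontrivial_iff_ne_bot M).mpr hM
    have hcard : Nat.card M ≠ 1 := by
      intro h
      have := (Nat.card_eq_one_iff_unique.mp h).1
      exact not_subsingleton M this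
    set p := (Nat.card M).minFac with hp
    have hpp : p.Prime := Nat.minFac_prime hcard
    haveI : Fact p.Prime := ⟨hpp⟩
    obtain ⟨x, hx⟩ := exists_prime_orderOf_dvd_card' (G := M) p (Nat.minFac_dvd _)
    let L : Subgroup G :=
      { carrier := {g | g ∈ M ∧ g ^ p = 1}
        mul_mem' := by
          rintro g h ⟨hg, hgp⟩ ⟨hh, hhp⟩
          refine ⟨M.mul_mem hg hh, ?_⟩
          have hc : Commute g h := hcommG g hg h hh
          rw [hc.mul_pow, hgp, hhp, one_mul]
        one_mem' := ⟨M.one_mem, one_pow _⟩
        inv_mem' := by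
          rintro g ⟨hg, hgp⟩
          exact ⟨M.inv_mem hg, by rw [inv_pow, hgp, inv_one]⟩ }
    have hLn : L.Normal := by
      constructor
      rintro g ⟨hg, hgp⟩ c
      refine ⟨Subgroup.Normal.conj_mem inferInstance g hg c, ?_⟩
      rw [conj_pow, hgp, mul_one, mul_inv_cancel]
    have hLle : L ≤ M := fun g hg => hg.1
    have hLne : L ≠ ⊥ := by
      intro hbot
      have hxL : (x : G) ∈ L := by
        refine ⟨x.2, ?_⟩
        have := pow_orderOf_eq_one x
        rw [hx] at this
        exact congrArg Subtype.val this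
      rw [hbot, Subgroup.mem_bot] at hxL
      have hx1 : x = 1 := Subtype.ext hxL
      rw [hx1, orderOf_one] at hx
      exact hpp.one_lt.ne hx
    have hLM : L = M := (hmin L hLn hLle).resolve_left hLne
    refine ⟨p, hpp, ?_⟩
    intro m hm
    rw [← hLM] at hm
    exact hm.2
  · intro L hLn hLne hLmin
    haveI := hLn
    rcases hLmin (L ⊓ M) inferInstance inf_le_left with h | h
    · exfalso
      apply hLne
      have hLM : L ≤ M := by
        intro l hl
        have hlc : ((l : Equiv.Perm α)) ∈ Subgroup.centralizer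
            ((M.map G.subtype : Subgroup (Equiv.Perm α)) : Set (Equiv.Perm α)) := by
          rw [Subgroup.mem_centralizer_iff]
          rintro _ ⟨m, hm, rfl⟩
          have hmem : l * m * l⁻¹ * m⁻¹ ∈ L ⊓ M := by
            refine ⟨?_, ?_⟩
            · have h1 : m * l⁻¹ * m⁻¹ ∈ L := hLn.conj_mem _ (L.inv_mem hl) m
              have h2 := L.mul_mem hl h1
              have e : l * m * l⁻¹ * m⁻¹ = l * (m * l⁻¹ * m⁻¹) := by group
              rw [e]; exact h2
            · have h1 : l * m * l⁻¹ ∈ M := Subgroup.Normal.conj_mem inferInstance m hm l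
              exact M.mul_mem h1 (M.inv_mem hm)
          rw [h, Subgroup.mem_bot] at hmem
          have hlm : m * l = l * m := by
            have e : l * m = (l * m * l⁻¹ * m⁻¹) * (m * l) := by group
            rw [e, hmem, one_mul]
          have h3 := congrArg (G.subtype) hlm
          simpa using h3
        rw [hcent] at hlc
        obtain ⟨m, hm, hml⟩ := hlc
        have : m = l := Subtype.ext hml
        rw [← this]; exact hm
      rw [← h]
      exact (inf_eq_left.mpr hLM).symm
    · have hLM : L ≤ M := inf_eq_left.mp h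
      exact (hmin L hLn hLM).resolve_left hLne

end Cfsg.Agent.S0703
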