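import Mathlib
import Cfsg.Statements.S0704

set_option autoImplicit false
open Cfsg

namespace Cfsg.Agent.S0704

open MulAction

section
variable {α : Type*} (G : Subgroup (Equiv.Perm α))

theorem commute_of_inf_bot (A B : Subgroup G) [hA : A.Normal] [hB : B.Normal] (h : A ⊓ B = ⊥) :
    ∀ x ∈ A, ∀ y ∈ B, x * y = y * x := by
  intro x hx y hy
  have hmem : x * y * x⁻¹ * y⁻¹ ∈ A ⊓ B := by
    refine ⟨?_, ?_⟩
    · have h1 : y * x⁻¹ * y⁻¹ ∈ A := hA.conj_mem _ (A.inv_mem hx) y
      have e : x * y * x⁻¹ * y⁻¹ = x * (y * x⁻¹ * y⁻¹) := by group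
      rw [e]; exact A.mul_mem hx h1
    · have h1 : x * y * x⁻¹ ∈ B := hB.conj_mem y hy x
      exact B.mul_mem h1 (B.inv_mem hy)
  rw [h, Subgroup.mem_bot] at hmem
  have e : x * y = (x * y * x⁻¹ * y⁻¹) * (y * x) := by group
  rw [e, hmem, one_mul]

theorem trans_elem (A : Subgroup G) (hA : MulAction.IsPretransitive A α) (a x : α) :
    ∃ m ∈ A, m • a = x := by
  obtain ⟨m, hm⟩ := hA.exists_smul_eq a x
  exact ⟨(m : G), m.2, hm⟩

theorem semireg (A B : Subgroup G) (hA : MulAction.IsPretransitive A α)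
    (hc : ∀ x ∈ A, ∀ y ∈ B, x * y = y * x) (a : α) : MulAction.stabilizer B a = ⊥ := by
  rw [eq_bot_iff]
  intro n hn
  rw [mem_stabilizer_iff] at hn
  rw [Subgroup.mem_bot]
  apply Subtype.ext
  apply Subtype.ext
  ext x
  obtain ⟨m, hm, rfl⟩ := trans_elem G A hA a x
  change (n : G) • m • a = m • a
  have hn' : (n : G) • a = a := hn
  rw [← mul_smul, ← hc m hm n n.2, mul_smul, hn']

theorem cent_eq (A B : Subgroup G) (hA : MulAction.IsPretransitive A α)
    (hB : MulAction.IsPretransitive B α) (hc : ∀ x ∈ A, ∀ y ∈ B, x * y = y * x) (a : α) :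
    Subgroup.centralizer ((A.map G.subtype : Subgroup (Equiv.Perm α)) : Set (Equiv.Perm α)) =
      B.map G.subtype := by
  apply le_antisymm
  · intro c hcc
    rw [Subgroup.mem_centralizer_iff] at hcc
    obtain ⟨b, hb, hba⟩ := trans_elem G B hB a (c a)
    refine ⟨b, hb, ?_⟩
    ext x
    obtain ⟨m, hm, rfl⟩ := trans_elem G A hA a x
    have h1 : ((m : Equiv.Perm α)) * c = c * ((m : Equiv.Perm α)) := hcc _ ⟨m, hm, rfl⟩
    have h2 : c (m • a) = m • c a := by
      have := congrArg (fun σ : Equiv.Perm α => σ a) h1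
      simp only [Equiv.Perm.coe_mul, Function.comp_apply] at this
      exact this.symm
    rw [h2, ← hba, ← mul_smul, hc m hm b hb, mul_smul]
    rfl
  · rintro _ ⟨b, hb, rfl⟩
    rw [Subgroup.mem_centralizer_iff]
    rintro _ ⟨m, hm, rfl⟩
    have h3 := congrArg (G.subtype) (hc m hm b hb)
    simpa using h3

end

/-- Two distinct transitive minimal normal subgroups `M`, `N` of a permutation group are regular, non-abelian, isomorphic, each other's centraliser in the symmetric group, and the only minimal normal subgroups. -/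
theorem result {α : Type*} (G : Subgroup (Equiv.Perm α)) (M N : Subgroup G) [M.Normal] [N.Normal] (hM : M ≠ ⊥) (hN : N ≠ ⊥) (hMmin : ∀ L : Subgroup G, L.Normal → L ≤ M → L = ⊥ ∨ L = M) (hNmin : ∀ L : Subgroup G, L.Normal → L ≤ N → L = ⊥ ∨ L = N) (hMN : M ≠ N) (hMt : MulAction.IsPretransitive M α) (hNt : MulAction.IsPretransitive N α) : (∀ a : α, MulAction.stabilizer M a = ⊥) ∧ (∀ a : α, MulAction.stabilizer N a = ⊥) ∧ ¬ IsMulCommutative M ∧ Nonempty (M ≃* N) ∧ Subgroup.centralizer ((M.map G.subtype : Subgroup (Equiv.Perm α)) : Set (Equiv.Perm α)) = N.map G.subtype ∧ Subgroup.centralizer ((N.map G.subtype : Subgroup (Equiv.Perm α)) : Set (Equiv.Perm α)) = M.map G.subtype ∧ ∀ L : Subgroup G, L.Normal → L ≠ ⊥ → (∀ L' : Subgroup G, L'.Normal → L' ≤ L → L' = ⊥ ∨ L' = L) → L = M ∨ L = N := by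
  classical
  have hinf : M ⊓ N = ⊥ := by
    rcases hMmin (M ⊓ N) inferInstance inf_le_left with h | h
    · exact h
    · exfalso
      have hle : M ≤ N := inf_eq_left.mp h
      rcases hNmin M inferInstance hle with h' | h'
      · exact hM h'
      · exact hMN h'
  have hinf' : N ⊓ M = ⊥ := by rw [inf_comm]; exact hinf
  have hc : ∀ x ∈ M, ∀ y ∈ N, x * y = y * x := commute_of_inf_bot G M N hinf
  have hc' : ∀ x ∈ N, ∀ y ∈ M, x * y = y * x := fun x hx y hy => (hc y hy x hx).symm
  have hne : Nonempty α := by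
    by_contra hemp
    rw [not_nonempty_iff] at hemp
    apply hM
    rw [eq_bot_iff]
    intro m _
    rw [Subgroup.mem_bot]
    apply Subtype.ext
    ext x
    exact (hemp.false x).elim
  obtain ⟨a⟩ := hne
  have hsM : ∀ a : α, MulAction.stabilizer M a = ⊥ := fun a => semireg G N M hNt hc' a
  have hsN : ∀ a : α, MulAction.stabilizer N a = ⊥ := fun a => semireg G M N hMt hc a
  have hCM := cent_eq G M N hMt hNt hc a
  have hCN := cent_eq G N M hNt hMt hc' a
  have huniqM : ∀ m m' : M, m • a = m' • a → m = m' := by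
    intro m m' h
    have : m⁻¹ * m' ∈ MulAction.stabilizer M a := by
      rw [mem_stabilizer_iff, mul_smul, ← h, inv_smul_smul]
    rw [hsM a, Subgroup.mem_bot] at this
    exact inv_mul_eq_one.mp this
  have huniqN : ∀ n n' : N, n • a = n' • a → n = n' := by
    intro n n' h
    have : n⁻¹ * n' ∈ MulAction.stabilizer N a := by
      rw [mem_stabilizer_iff, mul_smul, ← h, inv_smul_smul]
    rw [hsN a, Subgroup.mem_bot] at this
    exact inv_mul_eq_one.mp this
  refine ⟨hsM, hsN, ?_, ?_, hCM, hCN, ?_⟩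
  · intro hab
    have hcomm : ∀ x y : M, x * y = y * x := fun x y => hab.is_comm.comm x y
    have hle : M ≤ N := by
      intro m hm
      have hmc : ((m : Equiv.Perm α)) ∈ Subgroup.centralizer
          ((M.map G.subtype : Subgroup (Equiv.Perm α)) : Set (Equiv.Perm α)) := by
        rw [Subgroup.mem_centralizer_iff]
        rintro _ ⟨m', hm', rfl⟩
        have h2 : m' * m = m * m' := congrArg Subtype.val (hcomm ⟨m', hm'⟩ ⟨m, hm⟩)
        have h3 := congrArg (G.subtype) h2
        simpa using h3
      rw [hCM] at hmc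
      obtain ⟨n, hn, hnm⟩ := hmc
      have : n = m := Subtype.ext hnm
      rw [← this]; exact hn
    apply hM
    rw [← hinf]
    exact (inf_eq_left.mpr hle).symm
  · -- the isomorphism
    have hex : ∀ m : M, ∃ n : N, n • a = m⁻¹ • a := fun m => hNt.exists_smul_eq a (m⁻¹ • a)
    choose ψ hψ using hex
    have hmul : ∀ m m' : M, ψ (m * m') = ψ m * ψ m' := by
      intro m m'
      apply huniqN
      rw [hψ, mul_smul, hψ m']
      change ((m * m' : M) : G)⁻¹ • a = (ψ m : G) • ((m' : G)⁻¹ • a)
      have h1 : (ψ m : G) • a = (m : G)⁻¹ • a := hψ m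
      rw [← mul_smul, ← hc _ (M.inv_mem m'.2) _ (ψ m).2, mul_smul, h1, ← mul_smul]
      simp
    let f : M →* N := MonoidHom.mk' ψ hmul
    have hbij : Function.Bijective f := by
      constructor
      · intro m m' h
        have h1 : ψ m = ψ m' := h
        have h2 : m⁻¹ • a = m'⁻¹ • a := by rw [← hψ m, ← hψ m', h1]
        have := huniqM _ _ h2
        exact inv_injective this
      · intro n
        obtain ⟨m', hm'⟩ := hMt.exists_smul_eq a (n • a)
        refine ⟨m'⁻¹, ?_⟩
        apply huniqN
        change ψ m'⁻¹ • a = n • a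
        rw [hψ, inv_inv, hm']
    exact ⟨MulEquiv.ofBijective f hbij⟩
  · intro L hLn hLne hLmin
    haveI := hLn
    by_cases hLM : L = M
    · left; exact hLM
    · right
      have hinfL : L ⊓ M = ⊥ := by
        rcases hLmin (L ⊓ M) inferInstance inf_le_left with h | h
        · exact h
        · exfalso
          have hle : L ≤ M := inf_eq_left.mp h
          rcases hMmin L hLn hle with h' | h'
          · exact hLne h'
          · exact hLM h'
      have hcL : ∀ x ∈ L, ∀ y ∈ M, x * y = y * x := commute_of_inf_bot G L M hinfL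
      have hle : L ≤ N := by
        intro l hl
        have hlc : ((l : Equiv.Perm α)) ∈ Subgroup.centralizer
            ((M.map G.subtype : Subgroup (Equiv.Perm α)) : Set (Equiv.Perm α)) := by
          rw [Subgroup.mem_centralizer_iff]
          rintro _ ⟨m, hm, rfl⟩
          have h3 := congrArg (G.subtype) (hcL l hl m hm).symm
          simpa using h3
        rw [hCM] at hlc
        obtain ⟨n, hn, hnl⟩ := hlc
        have : n = l := Subtype.ext hnl
        rw [← this]; exact hn
      exact (hNmin L hLn hle).resolve_left hLne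

end Cfsg.Agent.S0704
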