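import Mathlib
import Cfsg.Statements.S0705
import Cfsg.Agent.Helper6.Trans

set_option autoImplicit false
open scoped Pointwise
open Cfsg

namespace Cfsg.Agent.S0705

open Cfsg.Agent.Helper6

theorem induce {α : Type*} [Fintype α] [DecidableEq α] (G : Subgroup (Equiv.Perm α)) {k : ℕ}
    (hgen : ∀ s : Finset α, s.card = k + 1 → ∀ σ : Equiv.Perm ↥s, ∃ g ∈ G, ∀ x : ↥s, g (x : α) = σ x)
    (t : Finset α) (ht : t.card = k + 1) (τ : Equiv.Perm α) (hτ : ∀ x ∈ t, τ x ∈ t) :
    ∃ g ∈ G, ∀ x ∈ t, g x = τ x := by
  obtain ⟨g, hg, hgx⟩ := hgen t ht (τ.subtypePermOfFintype (p := fun x => x ∈ t) hτ)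
  refine ⟨g, hg, fun x hx => ?_⟩
  have := hgx ⟨x, hx⟩
  rw [Equiv.Perm.subtypePermOfFintype_apply] at this
  exact this

/-- A generously `k`-transitive permutation group (every `(k+1)`-subset has its full symmetric group induced by the setwise stabiliser) of degree greater than `k` is `k`-transitive, and for a `k`-subset the setwise and pointwise stabilisers have the same orbits outside it. -/
theorem result {α : Type*} [Fintype α] [DecidableEq α] (G : Subgroup (Equiv.Perm α)) {k : ℕ} (hk : k < Fintype.card α) (hgen : ∀ s : Finset α, s.card = k + 1 → ∀ σ : Equiv.Perm ↥s, ∃ g ∈ G, ∀ x : ↥s, g (x : α) = σ x) : MulAction.IsMultiplyPretransitive G α k ∧ ∀ s : Finset α, s.card = k → ∀ a b : α, a ∉ s → b ∉ s → (∃ g ∈ G, g • s = s ∧ g a = b) → ∃ g ∈ G, (∀ x ∈ s, g x = x) ∧ g a = b := by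
  classical
  constructor
  · rcases Nat.eq_zero_or_pos k with rfl | hpos
    · exact MulAction.is_zero_pretransitive'
    · obtain ⟨r, rfl⟩ : ∃ r, k = r + 1 := ⟨k - 1, by omega⟩
      apply multiplyPretransitive_of_fixing_transitive G r (by omega)
      intro Γ hΓ y z hy hz
      by_cases hyz : y = z
      · exact ⟨1, G.one_mem, fun x _ => rfl, hyz⟩
      · have hy' : y ∉ insert z Γ := by
          rw [Finset.mem_insert]; rintro (h | h)
          · exact hyz h
          · exact hy h
        obtain ⟨g, hg, hgx⟩ := induce G hgen (insert y (insert z Γ))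
          (by rw [Finset.card_insert_of_notMem hy', Finset.card_insert_of_notMem hz, hΓ])
          (Equiv.swap y z) (by
            intro x hx
            rw [Equiv.swap_apply_def]
            split_ifs with h1 h2
            · simp
            · simp
            · exact hx)
        refine ⟨g, hg, fun x hx => ?_, ?_⟩
        · rw [hgx x (by simp [hx])]
          exact Equiv.swap_apply_of_ne_of_ne (fun h => hy (h ▸ hx)) (fun h => hz (h ▸ hx))
        · rw [hgx y (by simp)]
          exact Equiv.swap_apply_left y z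
  · intro s hs a b ha hb ⟨g, hg, hgs, hgab⟩
    have hginv : ∀ x ∈ s, g⁻¹ x ∈ s := by
      intro x hx
      rw [← hgs] at hx
      obtain ⟨y, hy, hyx⟩ := Finset.mem_smul_finset.1 hx
      have : g⁻¹ x = y := by
        rw [← hyx]; simp
      rw [this]; exact hy
    have hgmem : ∀ x ∈ s, g x ∈ s := by
      intro x hx
      have : g • x ∈ g • s := Finset.smul_mem_smul_finset hx
      rw [hgs] at this
      exact this
    have hga : g⁻¹ b = a := by rw [← hgab]; simp
    obtain ⟨h1, hh1, hh1x⟩ := induce G hgen (insert b s)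
      (by rw [Finset.card_insert_of_notMem hb, hs]) (Equiv.swap a b * g⁻¹) (by
        intro x hx
        rw [Equiv.Perm.mul_apply]
        rcases Finset.mem_insert.1 hx with rfl | hx
        · rw [hga, Equiv.swap_apply_left]; simp
        · have h2 := hginv x hx
          have hne1 : g⁻¹ x ≠ a := fun h => ha (h ▸ h2)
          have hne2 : g⁻¹ x ≠ b := fun h => hb (h ▸ h2)
          rw [Equiv.swap_apply_of_ne_of_ne hne1 hne2]
          exact Finset.mem_insert_of_mem h2)
    refine ⟨h1 * g, G.mul_mem hh1 hg, fun x hx => ?_, ?_⟩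
    · rw [Equiv.Perm.mul_apply, hh1x _ (Finset.mem_insert_of_mem (hgmem x hx)), Equiv.Perm.mul_apply]
      have : g⁻¹ (g x) = x := by simp
      rw [this]
      exact Equiv.swap_apply_of_ne_of_ne (fun h : x = a => ha (h ▸ hx)) (fun h : x = b => hb (h ▸ hx))
    · rw [Equiv.Perm.mul_apply, hgab, hh1x b (Finset.mem_insert_self b s), Equiv.Perm.mul_apply, hga,
        Equiv.swap_apply_left]

end Cfsg.Agent.S0705
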