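import Mathlib
import Cfsg.Statements.S0706
import Cfsg.Agent.Helper6.Trans
import Cfsg.Agent.S0705

set_option autoImplicit false
open scoped Pointwise
open Cfsg

namespace Cfsg.Agent.S0706

open Cfsg.Agent.Helper6

/-- pointwise stabiliser of a finset inside `G`, as a subgroup of `Perm α` -/
def fixP {α : Type*} (G : Subgroup (Equiv.Perm α)) (A : Finset α) : Subgroup (Equiv.Perm α) where
  carrier := {g | g ∈ G ∧ ∀ x ∈ A, g x = x}
  mul_mem' := by
    rintro a b ⟨ha, ha'⟩ ⟨hb, hb'⟩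
    exact ⟨G.mul_mem ha hb, fun x hx => by rw [Equiv.Perm.mul_apply, hb' x hx, ha' x hx]⟩
  one_mem' := ⟨G.one_mem, fun x _ => rfl⟩
  inv_mem' := by
    rintro a ⟨ha, ha'⟩
    exact ⟨G.inv_mem ha, fun x hx => by rw [Equiv.Perm.inv_eq_iff_eq]; exact (ha' x hx).symm⟩

theorem mem_fixP {α : Type*} (G : Subgroup (Equiv.Perm α)) (A : Finset α) (g : Equiv.Perm α) :
    g ∈ fixP G A ↔ g ∈ G ∧ ∀ x ∈ A, g x = x := Iff.rfl

theorem maps_inv {α : Type*} [DecidableEq α] (g : Equiv.Perm α) (A B : Finset α)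
    (h : ∀ x ∈ A, g x ∈ B) (hcard : B.card ≤ A.card) : ∀ y ∈ B, g⁻¹ y ∈ A := by
  have himg : A.image g = B := by
    apply Finset.eq_of_subset_of_card_le
    · intro y hy
      obtain ⟨x, hx, rfl⟩ := Finset.mem_image.1 hy
      exact h x hx
    · rw [Finset.card_image_of_injective _ g.injective]; exact hcard
  intro y hy
  rw [← himg] at hy
  obtain ⟨x, hx, rfl⟩ := Finset.mem_image.1 hy
  simpa using hx

/-- setwise stabiliser of a finset inside `G`, as a subgroup of `Perm α` -/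
def setP {α : Type*} [DecidableEq α] (G : Subgroup (Equiv.Perm α)) (A : Finset α) :
    Subgroup (Equiv.Perm α) where
  carrier := {g | g ∈ G ∧ ∀ x ∈ A, g x ∈ A}
  mul_mem' := by
    rintro a b ⟨ha, ha'⟩ ⟨hb, hb'⟩
    exact ⟨G.mul_mem ha hb, fun x hx => by rw [Equiv.Perm.mul_apply]; exact ha' _ (hb' x hx)⟩
  one_mem' := ⟨G.one_mem, fun x hx => hx⟩
  inv_mem' := by
    rintro a ⟨ha, ha'⟩
    exact ⟨G.inv_mem ha, maps_inv a A A ha' le_rfl⟩

theorem mem_setP {α : Type*} [DecidableEq α] (G : Subgroup (Equiv.Perm α)) (A : Finset α)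
    (g : Equiv.Perm α) : g ∈ setP G A ↔ g ∈ G ∧ ∀ x ∈ A, g x ∈ A := Iff.rfl

theorem card_mul_relIndex {S : Type*} [Group S] (A B : Subgroup S) (h : A ≤ B) :
    Nat.card A * A.relIndex B = Nat.card B := by
  have h1 := Subgroup.relIndex_mul_relIndex ⊥ A B bot_le h
  rwa [Subgroup.relIndex_bot_left, Subgroup.relIndex_bot_left] at h1

theorem sylow_inf_normal {S : Type*} [Group S] [Finite S] {p : ℕ} [Fact p.Prime] (Q : Sylow p S)
    (N : Subgroup S) [N.Normal] :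
    ∃ i, ¬ p ∣ i ∧ Nat.card ((Q : Subgroup S) ⊓ N : Subgroup S) * i = Nat.card N := by
  have h1 : Nat.card ((Q : Subgroup S) ⊓ N : Subgroup S) * (Q : Subgroup S).relIndex N = Nat.card N := by
    have := card_mul_relIndex ((Q : Subgroup S) ⊓ N) N inf_le_right
    rwa [Subgroup.inf_relIndex_right] at this
  refine ⟨(Q : Subgroup S).relIndex N, ?_, h1⟩
  have h2 := card_mul_relIndex N ((Q : Subgroup S) ⊔ N) le_sup_right
  have h3 : Nat.card ((Q : Subgroup S) ⊓ N : Subgroup S) * N.relIndex (Q : Subgroup S) =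
      Nat.card (Q : Subgroup S) := by
    have := card_mul_relIndex ((Q : Subgroup S) ⊓ N) (Q : Subgroup S) inf_le_left
    rwa [Subgroup.inf_relIndex_left] at this
  have h4 := card_mul_relIndex (Q : Subgroup S) ((Q : Subgroup S) ⊔ N) le_sup_left
  have h5 : N.relIndex ((Q : Subgroup S) ⊔ N) = N.relIndex (Q : Subgroup S) :=
    Subgroup.relIndex_sup_right (Q : Subgroup S) N
  rw [h5] at h2
  have hpos : 0 < Nat.card (Q : Subgroup S) := Nat.card_pos
  have heq : (Q : Subgroup S).relIndex ((Q : Subgroup S) ⊔ N) = (Q : Subgroup S).relIndex N := by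
    have h6 : Nat.card (Q : Subgroup S) * (Q : Subgroup S).relIndex ((Q : Subgroup S) ⊔ N) =
        Nat.card (Q : Subgroup S) * (Q : Subgroup S).relIndex N := by
      rw [h4, ← h2, ← h1, ← h3]; ring
    exact Nat.eq_of_mul_eq_mul_left hpos h6
  rw [← heq]
  intro hdvd
  exact Q.not_dvd_index (hdvd.trans (Subgroup.relIndex_dvd_index_of_le le_sup_left))

theorem setwise_to_pointwise {α : Type*} [Fintype α] [DecidableEq α] (G : Subgroup (Equiv.Perm α)) {k : ℕ}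
    (hgen : ∀ s : Finset α, s.card = k + 1 → ∀ σ : Equiv.Perm ↥s, ∃ g ∈ G, ∀ x : ↥s, g (x : α) = σ x)
    (s : Finset α) (hs : s.card = k) (a : α) (g : Equiv.Perm α) (hg : g ∈ G) (hgs : ∀ x ∈ s, g x ∈ s)
    (ha : a ∉ s) (hb : g a ∉ s) : ∃ h ∈ G, (∀ x ∈ s, h x = x) ∧ h a = g a := by
  have hginv := maps_inv g s s hgs le_rfl
  have hga : g⁻¹ (g a) = a := by simp
  obtain ⟨h1, hh1, hh1x⟩ := Cfsg.Agent.S0705.induce G hgen (insert (g a) s)
      (by rw [Finset.card_insert_of_notMem hb, hs]) (Equiv.swap a (g a) * g⁻¹) (by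
        intro x hx
        rw [Equiv.Perm.mul_apply]
        rcases Finset.mem_insert.1 hx with hx | hx
        · rw [hx, hga, Equiv.swap_apply_left]; simp
        · have h2 := hginv x hx
          have hne1 : g⁻¹ x ≠ a := fun h => ha (h ▸ h2)
          have hne2 : g⁻¹ x ≠ g a := fun h => hb (h ▸ h2)
          rw [Equiv.swap_apply_of_ne_of_ne hne1 hne2]
          exact Finset.mem_insert_of_mem h2)
  refine ⟨h1 * g, G.mul_mem hh1 hg, fun x hx => ?_, ?_⟩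
  · rw [Equiv.Perm.mul_apply, hh1x _ (Finset.mem_insert_of_mem (hgs x hx)), Equiv.Perm.mul_apply]
    have : g⁻¹ (g x) = x := by simp
    rw [this]
    exact Equiv.swap_apply_of_ne_of_ne (fun h : x = a => ha (h ▸ hx)) (fun h : x = g a => hb (h ▸ hx))
  · rw [Equiv.Perm.mul_apply, hh1x (g a) (Finset.mem_insert_self _ s), Equiv.Perm.mul_apply, hga,
      Equiv.swap_apply_left]

theorem card_fixP_le {α : Type*} [Fintype α] [DecidableEq α] (G : Subgroup (Equiv.Perm α))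
    (A B : Finset α) (g : Equiv.Perm α) (hg : g ∈ G) (h : ∀ y ∈ B, g⁻¹ y ∈ A) :
    Nat.card (fixP G A) ≤ Nat.card (fixP G B) := by
  have hmem : ∀ h' : fixP G A, g * h'.1 * g⁻¹ ∈ fixP G B := by
    intro h'
    refine ⟨G.mul_mem (G.mul_mem hg h'.2.1) (G.inv_mem hg), fun y hy => ?_⟩
    rw [Equiv.Perm.mul_apply, Equiv.Perm.mul_apply, h'.2.2 _ (h y hy)]
    simp
  apply Nat.card_le_card_of_injective (fun h' : fixP G A => (⟨g * h'.1 * g⁻¹, hmem h'⟩ : fixP G B))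
  intro a b hab
  have := congrArg Subtype.val hab
  simp only [mul_left_inj, mul_right_inj] at this
  exact Subtype.ext this

theorem exists_map {α : Type*} [Fintype α] [DecidableEq α] (G : Subgroup (Equiv.Perm α)) {k : ℕ}
    (hk : k < Fintype.card α)
    (hgen : ∀ s : Finset α, s.card = k + 1 → ∀ σ : Equiv.Perm ↥s, ∃ g ∈ G, ∀ x : ↥s, g (x : α) = σ x)
    (A B : Finset α) (hA : A.card = k) (hB : B.card = k) : ∃ g ∈ G, ∀ x ∈ A, g x ∈ B := by
  have htr := (Cfsg.Agent.S0705.result G hk hgen).1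
  obtain ⟨xa, hxa⟩ : ∃ xa : Fin k ↪ α, xa =
    (A.equivFinOfCardEq hA).symm.toEmbedding.trans (Function.Embedding.subtype _) := ⟨_, rfl⟩
  obtain ⟨xb, hxb⟩ : ∃ xb : Fin k ↪ α, xb =
    (B.equivFinOfCardEq hB).symm.toEmbedding.trans (Function.Embedding.subtype _) := ⟨_, rfl⟩
  obtain ⟨g, hg⟩ := htr.exists_smul_eq xa xb
  refine ⟨g.1, g.2, fun x hx => ?_⟩
  have h1 : xa (A.equivFinOfCardEq hA ⟨x, hx⟩) = x := by rw [hxa]; simp
  have h2 : (g • xa) (A.equivFinOfCardEq hA ⟨x, hx⟩) = xb (A.equivFinOfCardEq hA ⟨x, hx⟩) := by rw [hg]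
  rw [Function.Embedding.smul_apply, h1] at h2
  have h3 : xb (A.equivFinOfCardEq hA ⟨x, hx⟩) ∈ B := by rw [hxb]; simp
  rw [← h2] at h3
  exact h3

theorem card_fixP_eq {α : Type*} [Fintype α] [DecidableEq α] (G : Subgroup (Equiv.Perm α)) {k : ℕ}
    (hk : k < Fintype.card α)
    (hgen : ∀ s : Finset α, s.card = k + 1 → ∀ σ : Equiv.Perm ↥s, ∃ g ∈ G, ∀ x : ↥s, g (x : α) = σ x)
    (A B : Finset α) (hA : A.card = k) (hB : B.card = k) :
    Nat.card (fixP G A) = Nat.card (fixP G B) := by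
  obtain ⟨g, hg, hgAB⟩ := exists_map G hk hgen A B hA hB
  obtain ⟨g', hg', hgBA⟩ := exists_map G hk hgen B A hB hA
  exact le_antisymm (card_fixP_le G A B g hg (maps_inv g A B hgAB (by rw [hA, hB])))
    (card_fixP_le G B A g' hg' (maps_inv g' B A hgBA (by rw [hA, hB])))

theorem result {α : Type*} [Fintype α] [DecidableEq α] (G : Subgroup (Equiv.Perm α)) {k : ℕ} (hk : k < Fintype.card α) (hgen : ∀ s : Finset α, s.card = k + 1 → ∀ σ : Equiv.Perm ↥s, ∃ g ∈ G, ∀ x : ↥s, g (x : α) = σ x) {p : ℕ} (hp : p.Prime) (hpk : p ≤ k) (Γ : Finset α) (hΓ : Γ.card = k) (f : Fin p → α) (hf : ∀ i, f i ∉ Γ) (hdist : ∀ i j, i ≠ j → f j ∉ MulAction.orbit (fixingSubgroup G (Γ : Set α)) (f i)) : ∃ i, p ∣ Nat.card (MulAction.orbit (fixingSubgroup G (Γ : Set α)) (f i)) := by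
  classical
  have : Fact p.Prime := ⟨hp⟩
  by_contra hcon
  push Not at hcon
  obtain ⟨O, hO⟩ : ∃ O : Fin p → Finset α, O = fun i => Finset.univ.filter
      (fun w => ∃ g ∈ fixP G Γ, g (f i) = w) := ⟨_, rfl⟩
  have hmemO : ∀ i w, w ∈ O i ↔ ∃ g ∈ fixP G Γ, g (f i) = w := by intro i w; rw [hO]; simp
  have horb : ∀ i w, w ∈ MulAction.orbit (fixingSubgroup G (Γ : Set α)) (f i) ↔ w ∈ O i := by
    intro i w
    rw [hmemO]
    constructor
    · rintro ⟨g, hg⟩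
      exact ⟨(g : G).1, ⟨(g : G).2, fun x hx => (mem_fixingSubgroup_iff G).1 g.2 x (Finset.mem_coe.2 hx)⟩, hg⟩
    · rintro ⟨g, ⟨hgG, hgfix⟩, hg⟩
      exact ⟨⟨⟨g, hgG⟩, (mem_fixingSubgroup_iff G).2 fun x hx => hgfix x (Finset.mem_coe.1 hx)⟩, hg⟩
  have hOcard : ∀ i, Nat.card (MulAction.orbit (fixingSubgroup G (Γ : Set α)) (f i)) = (O i).card := by
    intro i
    rw [Nat.card_eq_fintype_card, ← Set.toFinset_card]
    congr 1
    ext w
    rw [Set.mem_toFinset, horb]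
  have hOΓ : ∀ i, ∀ w ∈ O i, w ∉ Γ := by
    intro i w hw hwΓ
    obtain ⟨g, ⟨-, hgfix⟩, rfl⟩ := (hmemO i w).1 hw
    have h1 : g (g (f i)) = g (f i) := hgfix _ hwΓ
    have h2 : g (f i) = f i := g.injective h1
    rw [h2] at hwΓ
    exact hf i hwΓ
  have hSinv : ∀ g ∈ setP G Γ, ∀ i, ∀ w ∈ O i, g w ∈ O i := by
    rintro g ⟨hgG, hgΓ⟩ i w hw
    have hw' : w ∉ Γ := hOΓ i w hw
    have hgw : g w ∉ Γ := by
      intro hc
      have := maps_inv g Γ Γ hgΓ le_rfl _ hc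
      rw [show g⁻¹ (g w) = w by simp] at this
      exact hw' this
    obtain ⟨h', hh', hfix', hmove'⟩ := setwise_to_pointwise G hgen Γ hΓ w g hgG hgΓ hw' hgw
    obtain ⟨h0, hh0, hw0⟩ := (hmemO i w).1 hw
    rw [hmemO]
    refine ⟨h' * h0, (fixP G Γ).mul_mem ⟨hh', hfix'⟩ hh0, ?_⟩
    rw [Equiv.Perm.mul_apply, hw0, hmove']
  -- the p-cycle
  obtain ⟨C, hCΓ, hCcard⟩ := Finset.exists_subset_card_eq (hΓ ▸ hpk : p ≤ Γ.card)
  obtain ⟨c, hc, hcsupp⟩ := Finset.exists_cycleOn C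
  have hcC : ∀ x ∈ C, c x ∈ C := fun x hx => Finset.mem_coe.1 (hc.1.mapsTo (Finset.mem_coe.2 hx))
  have hcfix : ∀ x, x ∉ C → c x = x := fun x hx => Equiv.Perm.notMem_support.1 (fun h => hx (hcsupp h))
  have hcΓ : ∀ x ∈ Γ, c x ∈ Γ := by
    intro x hx
    by_cases hxC : x ∈ C
    · exact hCΓ (hcC x hxC)
    · rw [hcfix x hxC]; exact hx
  have hp0 : 0 < p := hp.pos
  obtain ⟨y0, hy0⟩ : ∃ y0, y0 = f ⟨0, hp0⟩ := ⟨_, rfl⟩
  have hy0Γ : y0 ∉ Γ := hy0 ▸ hf _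
  obtain ⟨g0, hg0, hg0x⟩ := Cfsg.Agent.S0705.induce G hgen (insert y0 Γ)
    (by rw [Finset.card_insert_of_notMem hy0Γ, hΓ]) c (by
      intro x hx
      by_cases hxC : x ∈ C
      · exact Finset.mem_insert_of_mem (hCΓ (hcC x hxC))
      · rw [hcfix x hxC]; exact hx)
  have hg0Γ : ∀ x ∈ Γ, g0 x = c x := fun x hx => hg0x x (Finset.mem_insert_of_mem hx)
  have hpow : ∀ j : ℕ, ∀ x ∈ Γ, (g0 ^ j) x = (c ^ j) x ∧ (c ^ j) x ∈ Γ := by
    intro j
    induction j with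
    | zero => intro x hx; exact ⟨rfl, hx⟩
    | succ j ih =>
      intro x hx
      rw [pow_succ, pow_succ, Equiv.Perm.mul_apply, Equiv.Perm.mul_apply, hg0Γ x hx]
      exact ih (c x) (hcΓ x hx)
  obtain ⟨e, m, hm, hn⟩ := Nat.exists_eq_pow_mul_and_not_dvd (orderOf_pos g0).ne' p hp.ne_one
  obtain ⟨t, ht⟩ : ∃ t, t = g0 ^ m := ⟨_, rfl⟩
  have htpow : t ^ (p ^ e) = 1 := by
    rw [ht, ← pow_mul, mul_comm, ← hn, pow_orderOf_eq_one]
  have htS : t ∈ setP G Γ := by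
    rw [ht]; exact (setP G Γ).pow_mem ⟨hg0, fun x hx => by rw [hg0Γ x hx]; exact hcΓ x hx⟩ m
  have htfix : ∀ x ∈ Γ, x ∉ C → t x = x := by
    intro x hx hxC
    rw [ht, (hpow m x hx).1]
    exact Equiv.Perm.pow_apply_eq_self_of_apply_eq_self (hcfix x hxC) m
  obtain ⟨γ, hγ⟩ : C.Nonempty := Finset.card_pos.1 (by rw [hCcard]; exact hp0)
  have htγ : t γ ≠ γ := by
    rw [ht, (hpow m γ (hCΓ hγ)).1]
    intro hcontra
    rw [hc.pow_apply_eq hγ, hCcard] at hcontra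
    exact hm hcontra
  -- Sylow subgroup of the setwise stabiliser containing t
  obtain ⟨S, hS⟩ : ∃ S, S = setP G Γ := ⟨_, rfl⟩
  have htS' : t ∈ S := hS ▸ htS
  have hKS : fixP G Γ ≤ S := by
    rw [hS]; rintro g ⟨hg, hgfix⟩; exact ⟨hg, fun x hx => by rw [hgfix x hx]; exact hx⟩
  have hNn : ((fixP G Γ).subgroupOf S).Normal := by
    constructor
    intro n hn g
    rw [Subgroup.mem_subgroupOf] at hn ⊢
    have hg : (g : Equiv.Perm α) ∈ setP G Γ := hS ▸ g.2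
    refine ⟨G.mul_mem (G.mul_mem hg.1 hn.1) (G.inv_mem hg.1), fun x hx => ?_⟩
    have h1 : (g : Equiv.Perm α)⁻¹ x ∈ Γ := maps_inv _ Γ Γ hg.2 le_rfl x hx
    simp only [Subgroup.coe_mul, Subgroup.coe_inv, Equiv.Perm.mul_apply]
    rw [hn.2 _ h1]; simp
  have hzp : IsPGroup p (Subgroup.zpowers (⟨t, htS'⟩ : S)) := by
    rintro ⟨h, hh⟩
    obtain ⟨z, rfl⟩ := Subgroup.mem_zpowers_iff.1 hh
    refine ⟨e, Subtype.ext ?_⟩
    have h1 : (⟨t, htS'⟩ : S) ^ (p ^ e) = 1 := Subtype.ext (by simpa using htpow)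
    show ((⟨t, htS'⟩ : S) ^ z) ^ (p ^ e) = 1
    rw [← zpow_natCast, ← zpow_mul, mul_comm, zpow_mul, zpow_natCast, h1, one_zpow]
  obtain ⟨Q, hQ⟩ := hzp.exists_le_sylow
  obtain ⟨i, hi, hcardi⟩ := sylow_inf_normal Q ((fixP G Γ).subgroupOf S)
  obtain ⟨P, hP⟩ : ∃ P, P = (Q : Subgroup S).map S.subtype := ⟨_, rfl⟩
  have hPp : IsPGroup p P := by rw [hP]; exact Q.isPGroup'.map _
  have hPS : P ≤ S := by rw [hP]; exact Subgroup.map_subtype_le _
  have htP : t ∈ P := by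
    rw [hP]
    exact Subgroup.mem_map.2 ⟨⟨t, htS'⟩, hQ (Subgroup.mem_zpowers _), rfl⟩
  have hPK : Nat.card (P ⊓ fixP G Γ : Subgroup (Equiv.Perm α)) * i = Nat.card (fixP G Γ) := by
    have h1 : ((Q : Subgroup S) ⊓ (fixP G Γ).subgroupOf S).map S.subtype = P ⊓ fixP G Γ := by
      ext g
      rw [hP]
      simp only [Subgroup.mem_map, Subgroup.mem_inf, Subgroup.mem_subgroupOf, Subgroup.coe_subtype]
      constructor
      · rintro ⟨h, ⟨h1, h2⟩, rfl⟩
        exact ⟨⟨h, h1, rfl⟩, h2⟩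
      · rintro ⟨⟨h, h1, rfl⟩, h2⟩
        exact ⟨h, ⟨h1, h2⟩, rfl⟩
    rw [← h1, Subgroup.card_map_of_injective (Subgroup.subtype_injective _), hcardi]
    exact Nat.card_congr (Subgroup.subgroupOfEquivOfLe hKS).toEquiv
  have hfixpt : ∀ i, ∃ x ∈ O i, ∀ g ∈ P, g x = x := by
    intro i
    by_contra hno
    push Not at hno
    apply hcon i
    rw [hOcard]
    apply dvd_card_of_orbits (H := P) p
    · intro g w hw
      exact hSinv g.1 (by rw [← hS]; exact hPS g.2) i w hw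
    · intro w hw
      apply pgroup_dvd_card_orbit hPp
      intro hfp
      obtain ⟨g, hg, hgw⟩ := hno w hw
      exact hgw (hfp ⟨g, hg⟩)
  choose x hxO hxfix using hfixpt
  have hxΓ : ∀ i, x i ∉ Γ := fun i => hOΓ i _ (hxO i)
  have hxinj : Function.Injective x := by
    intro i j hij
    by_contra hne
    obtain ⟨g1, hg1, h1⟩ := (hmemO i _).1 (hxO i)
    obtain ⟨g2, hg2, h2⟩ := (hmemO j _).1 (hxO j)
    apply hdist i j hne
    rw [horb, hmemO]
    refine ⟨g2⁻¹ * g1, (fixP G Γ).mul_mem ((fixP G Γ).inv_mem hg2) hg1, ?_⟩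
    rw [Equiv.Perm.mul_apply, h1, hij, ← h2]; simp
  obtain ⟨Γ', hΓ'⟩ : ∃ Γ' : Finset α, Γ' = (Γ \ C) ∪ Finset.image x Finset.univ := ⟨_, rfl⟩
  have hΓ'card : Γ'.card = k := by
    rw [hΓ', Finset.card_union_of_disjoint, Finset.card_sdiff_of_subset hCΓ,
      Finset.card_image_of_injective _ hxinj, Finset.card_univ, Fintype.card_fin, hΓ, hCcard]
    · omega
    · rw [Finset.disjoint_left]
      intro w hw hw'
      obtain ⟨i, -, rfl⟩ := Finset.mem_image.1 hw'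
      exact hxΓ i (Finset.mem_sdiff.1 hw).1
  have hcardK : Nat.card (fixP G Γ') = Nat.card (fixP G Γ) := card_fixP_eq G hk hgen Γ' Γ hΓ'card hΓ
  have hle : P ⊓ fixP G Γ ≤ P ⊓ fixP G Γ' := by
    rintro g ⟨hgP, hgG, hgfix⟩
    refine ⟨hgP, hgG, fun w hw => ?_⟩
    rw [hΓ', Finset.mem_union] at hw
    rcases hw with hw | hw
    · exact hgfix w (Finset.mem_sdiff.1 hw).1
    · obtain ⟨i, -, rfl⟩ := Finset.mem_image.1 hw
      exact hxfix i g hgP
  have htK' : t ∈ P ⊓ fixP G Γ' := by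
    refine ⟨htP, htS.1, fun w hw => ?_⟩
    rw [hΓ', Finset.mem_union] at hw
    rcases hw with hw | hw
    · exact htfix w (Finset.mem_sdiff.1 hw).1 (Finset.mem_sdiff.1 hw).2
    · obtain ⟨i, -, rfl⟩ := Finset.mem_image.1 hw
      exact hxfix i t htP
  have hcardle : Nat.card (P ⊓ fixP G Γ' : Subgroup (Equiv.Perm α)) ≤
      Nat.card (P ⊓ fixP G Γ : Subgroup (Equiv.Perm α)) := by
    have hpg : IsPGroup p (P ⊓ fixP G Γ' : Subgroup (Equiv.Perm α)) := hPp.to_le inf_le_left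
    obtain ⟨n, hn⟩ := IsPGroup.iff_card.1 hpg
    have hdvd : Nat.card (P ⊓ fixP G Γ' : Subgroup (Equiv.Perm α)) ∣ Nat.card (fixP G Γ') :=
      Subgroup.card_dvd_of_le inf_le_right
    rw [hcardK, ← hPK, hn] at hdvd
    have hcop : Nat.Coprime (p ^ n) i := Nat.Coprime.pow_left n ((Nat.Prime.coprime_iff_not_dvd hp).2 hi)
    have := hcop.dvd_of_dvd_mul_right hdvd
    rw [hn]
    exact Nat.le_of_dvd Nat.card_pos this
  have heq := Subgroup.eq_of_le_of_card_ge hle hcardle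
  rw [← heq] at htK'
  exact htγ (((mem_fixP G Γ t).1 htK'.2).2 γ (hCΓ hγ))

end Cfsg.Agent.S0706
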