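import Mathlib
import Cfsg.Statements.S0707

set_option autoImplicit false
open Cfsg

namespace Cfsg.Agent.S0707

/-- In a primitive permutation group, distinct points have distinct stabilisers unless the group is regular of prime degree. -/
theorem result {α : Type*} (G : Subgroup (Equiv.Perm α)) [MulAction.IsPreprimitive G α] (h : ¬ (Nat.card α).Prime ∨ ∃ a : α, MulAction.stabilizer G a ≠ ⊥) {a b : α} (hab : a ≠ b) : MulAction.stabilizer G a ≠ MulAction.stabilizer G b := by
  intro heq
  have : Nontrivial α := ⟨⟨a, b, hab⟩⟩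
  have hco : IsCoatom (MulAction.stabilizer G a) :=
    (MulAction.isCoatom_stabilizer_iff_preprimitive G a).mpr inferInstance
  obtain ⟨g, hg⟩ := MulAction.exists_smul_eq G a b
  have hconj := MulAction.stabilizer_smul_eq_stabilizer_map_conj g a
  rw [hg, ← heq] at hconj
  -- g normalizes K
  have hgN : g ∈ Subgroup.normalizer (MulAction.stabilizer G a : Set G) := by
    rw [Subgroup.mem_normalizer_iff]
    intro k
    constructor
    · intro hk
      rw [hconj]
      exact ⟨k, hk, rfl⟩
    · intro hk
      rw [hconj] at hk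
      obtain ⟨k', hk', hkk⟩ := hk
      have : k' = k := by
        simpa using hkk
      rw [← this]; exact hk'
  have hgK : g ∉ MulAction.stabilizer G a := by
    intro hgK
    rw [MulAction.mem_stabilizer_iff] at hgK
    exact hab (hgK.symm.trans hg)
  have hNtop : Subgroup.normalizer (MulAction.stabilizer G a : Set G) = ⊤ := by
    apply hco.2
    refine lt_of_le_of_ne Subgroup.le_normalizer ?_
    intro hEq
    rw [← hEq] at hgN
    exact hgK hgN
  have hnormal : (MulAction.stabilizer G a).Normal := Subgroup.normalizer_eq_top_iff.mp hNtop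
  -- K = ⊥
  have hKbot : MulAction.stabilizer G a = ⊥ := by
    rw [eq_bot_iff]
    intro k hk
    rw [Subgroup.mem_bot]
    ext c
    obtain ⟨g', rfl⟩ := MulAction.exists_smul_eq G a c
    have h1 : g'⁻¹ * k * g' ∈ MulAction.stabilizer G a := by
      have := hnormal.conj_mem k hk g'⁻¹
      simpa using this
    rw [MulAction.mem_stabilizer_iff, mul_smul, mul_smul, inv_smul_eq_iff] at h1
    simp only [OneMemClass.coe_one, Equiv.Perm.coe_one, id]
    exact h1
  have hallbot : ∀ c : α, MulAction.stabilizer G c = ⊥ := by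
    intro c
    obtain ⟨g', rfl⟩ := MulAction.exists_smul_eq G a c
    rw [MulAction.stabilizer_smul_eq_stabilizer_map_conj, hKbot, Subgroup.map_bot]
  rcases h with h | ⟨c, hc⟩
  swap
  · exact hc (hallbot c)
  apply h
  rw [hKbot] at hco
  -- G is simple and cyclic
  have hsimple : IsSimpleGroup G := by
    have : Nontrivial G := by
      rw [← Subgroup.nontrivial_iff]
      exact ⟨⟨⊥, ⊤, hco.1⟩⟩
    refine ⟨fun H _ => ?_⟩
    rcases eq_or_ne H ⊥ with hH | hH
    · left; exact hH
    · right; exact hco.2 H (bot_lt_iff_ne_bot.mpr hH)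
  have hcyc : IsCyclic G := by
    have := hsimple.toNontrivial
    obtain ⟨g₀, hg₀⟩ := exists_ne (1 : G)
    have : Subgroup.zpowers g₀ = ⊤ :=
      hco.2 _ (bot_lt_iff_ne_bot.mpr (Subgroup.zpowers_ne_bot.2 hg₀))
    exact ⟨⟨g₀, (Subgroup.eq_top_iff' _).1 this⟩⟩
  have hprime : (Nat.card G).Prime := Group.is_simple_iff_prime_card.mp hsimple
  have hbij : Function.Bijective (fun g : G => g • a) := by
    constructor
    · intro g₁ g₂ hgg
      simp only at hgg
      have : g₁⁻¹ * g₂ ∈ MulAction.stabilizer G a := by
        rw [MulAction.mem_stabilizer_iff, mul_smul, ← hgg, inv_smul_smul]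
      rw [hKbot, Subgroup.mem_bot] at this
      exact inv_mul_eq_one.mp this
    · intro c
      exact MulAction.exists_smul_eq G a c
  rw [← Nat.card_congr (Equiv.ofBijective _ hbij)]
  exact hprime

end Cfsg.Agent.S0707
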