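import Cfsg.Statements.S0708
import Mathlib
import Cfsg.Agent.Helper4.Sharp

set_option autoImplicit false
open Cfsg

namespace Cfsg.Agent.S0708

open Cfsg.Agent.Helper4

section
variable {G Ω : Type*} [Group G] [MulAction G Ω]

theorem eq_of_agree (h : Sharp4 G Ω) (g g' : G) (a b c d : Ω) (hab : a ≠ b) (hac : a ≠ c)
    (had : a ≠ d) (hbc : b ≠ c) (hbd : b ≠ d) (hcd : c ≠ d) (ha : g • a = g' • a)
    (hb : g • b = g' • b) (hc : g • c = g' • c) (hd : g • d = g' • d) : g = g' := by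
  have h1 : g'⁻¹ * g = 1 := h.uniq (g'⁻¹ * g) a b c d hab hac had hbc hbd hcd
    (by rw [mul_smul, ha, inv_smul_smul]) (by rw [mul_smul, hb, inv_smul_smul])
    (by rw [mul_smul, hc, inv_smul_smul]) (by rw [mul_smul, hd, inv_smul_smul])
  exact (inv_mul_eq_one.mp h1).symm

/-- the data of the involution `v_b` -/
def IsV (t : G) (p1 p2 b : Ω) (v : G) : Prop :=
  v • p1 = p2 ∧ v • p2 = p1 ∧ v • b = b ∧ v • (t • b) = t • b

theorem exists_v (h : Sharp4 G Ω) {t : G} {p1 p2 : Ω} (h12 : p1 ≠ p2) (ht1 : t • p1 = p2)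
    (ht2 : t • p2 = p1) (htt : t * t = 1) (b : Ω) (hb : t • b ≠ b) (hb1 : b ≠ p1) (hb2 : b ≠ p2) :
    ∃ v : G, IsV t p1 p2 b v ∧ v * v = 1 ∧ (∀ x : Ω, t • x = x → t • (v • x) = v • x) ∧
      (∀ x y : Ω, t • x = x → t • y = y → x ≠ y → v • x = x → v • y = y → False) := by
  have htt' : ∀ x : Ω, t • t • x = x := fun x => by rw [smul_smul, htt, one_smul]
  have h1tb : p1 ≠ t • b := by
    intro hh
    apply hb2
    rw [← htt' b, ← hh, ht1]
  have h2tb : p2 ≠ t • b := by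
    intro hh
    apply hb1
    rw [← htt' b, ← hh, ht2]
  obtain ⟨v, hv1, hv2, hv3, hv4⟩ := h.ex p1 p2 b (t • b) p2 p1 b (t • b) h12 (Ne.symm hb1) h1tb
    (Ne.symm hb2) h2tb (Ne.symm hb) (Ne.symm h12) (Ne.symm hb2) h2tb (Ne.symm hb1) h1tb (Ne.symm hb)
  have hvv : v * v = 1 := h.uniq (v * v) p1 p2 b (t • b) h12 (Ne.symm hb1) h1tb
    (Ne.symm hb2) h2tb (Ne.symm hb) (by rw [mul_smul, hv1, hv2]) (by rw [mul_smul, hv2, hv1])
    (by rw [mul_smul, hv3, hv3]) (by rw [mul_smul, hv4, hv4])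
  have hcomm : t * v = v * t := by
    apply eq_of_agree h (t * v) (v * t) p1 p2 b (t • b) h12 (Ne.symm hb1) h1tb
      (Ne.symm hb2) h2tb (Ne.symm hb)
    · rw [mul_smul, mul_smul, hv1, ht1, ht2, hv2]
    · rw [mul_smul, mul_smul, hv2, ht2, ht1, hv1]
    · rw [mul_smul, mul_smul, hv3, hv4]
    · rw [mul_smul, mul_smul, hv4, htt', hv3]
  refine ⟨v, ⟨hv1, hv2, hv3, hv4⟩, hvv, ?_, ?_⟩
  · intro x hx
    rw [← mul_smul, hcomm, mul_smul, hx]
  · intro x y hx hy hxy hvx hvy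
    have hxb : x ≠ b := fun hh => hb (hh ▸ hx)
    have hyb : y ≠ b := fun hh => hb (hh ▸ hy)
    have hxtb : x ≠ t • b := by
      intro hh
      apply hb
      have : t • x = b := by rw [hh, htt']
      rw [hx] at this
      rw [← this, hx]
    have hytb : y ≠ t • b := by
      intro hh
      apply hb
      have : t • y = b := by rw [hh, htt']
      rw [hy] at this
      rw [← this, hy]
    have hv1' : v = 1 := h.uniq v x y b (t • b) hxy hxb hxtb hyb hytb (Ne.symm hb) hvx hvy hv3 hv4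
    rw [hv1', one_smul] at hv1
    exact h12 hv1

theorem same_v (h : Sharp4 G Ω) {t : G} {p1 p2 : Ω} (h12 : p1 ≠ p2)
    (htt : t * t = 1) (b b' : Ω) (hb : t • b ≠ b) (hb' : t • b' ≠ b') (v : G)
    (hv : IsV t p1 p2 b v) (hv' : IsV t p1 p2 b' v) : b' = b ∨ b' = t • b := by
  have htt' : ∀ x : Ω, t • t • x = x := fun x => by rw [smul_smul, htt, one_smul]
  by_contra hcon
  push Not at hcon
  obtain ⟨hne1, hne2⟩ := hcon
  have h3 : t • b' ≠ t • b := fun hh => hne1 (by rw [← htt' b', hh, htt'])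
  have h4 : t • b' ≠ b := fun hh => hne2 (by rw [← hh, htt'])
  have hv1' : v = 1 := h.uniq v b (t • b) b' (t • b') (Ne.symm hb) (Ne.symm hne1) (Ne.symm h4)
    (Ne.symm hne2) (Ne.symm h3) (Ne.symm hb') hv.2.2.1 hv.2.2.2 hv'.2.2.1 hv'.2.2.2
  have := hv.1
  rw [hv1', one_smul] at this
  exact h12 this

theorem card_of_forall_mem (S : Finset Ω) (hS : ∀ x, x ∈ S) : Finite Ω ∧ Nat.card Ω = S.card := by
  letI : Fintype Ω := ⟨S, hS⟩
  exact ⟨inferInstance, by rw [Nat.card_eq_fintype_card]; rfl⟩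

/-- a fibre: the `b` whose `v_b` satisfies a property determining it on four points -/
theorem fibre (h : Sharp4 G Ω) {t : G} {p1 p2 : Ω} (h12 : p1 ≠ p2)
    (htt : t * t = 1) (T : G → Prop)
    (hT : ∀ v v' : G, T v → T v' → v • p1 = v' • p1 → v • p2 = v' • p2 → v = v') [DecidableEq Ω] :
    ∃ S : Finset Ω, S.card ≤ 2 ∧ ∀ b v, t • b ≠ b → IsV t p1 p2 b v → T v → b ∈ S := by
  by_cases hex : ∃ b v, t • b ≠ b ∧ IsV t p1 p2 b v ∧ T v
  · obtain ⟨b₀, v₀, hb₀, hv₀, hT₀⟩ := hex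
    refine ⟨{b₀, t • b₀}, Finset.card_le_two, ?_⟩
    intro b v hb hv hTv
    have hvv : v = v₀ := hT v v₀ hTv hT₀ (by rw [hv.1, hv₀.1]) (by rw [hv.2.1, hv₀.2.1])
    rw [hvv] at hv
    rcases same_v h h12 htt b₀ b hb₀ hb v₀ hv₀ hv with h1 | h1
    · rw [h1]; simp
    · rw [h1]; simp
  · refine ⟨∅, by simp, ?_⟩
    intro b v hb hv hTv
    exact (hex ⟨b, v, hb, hv, hTv⟩).elim

end

/-- Tits' argument: a sharply 4-transitive group (no finiteness assumed) has finite degree at most 11, and at most 6 when the degree is even. -/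
theorem result {G : Type*} [Group G] {Ω : Type*} [MulAction G Ω] (h4 : MulAction.IsMultiplyPretransitive G Ω 4) (hsharp : ∀ x : Fin 4 ↪ Ω, MulAction.stabilizer G x = ⊥) (hne : Nonempty (Fin 4 ↪ Ω)) : Finite Ω ∧ Nat.card Ω ≤ 11 ∧ (Even (Nat.card Ω) → Nat.card Ω ≤ 6) := by
  classical
  have h := sharp4_of_emb hsharp
  obtain ⟨e⟩ := hne
  obtain ⟨p1, p2, p3, p4, h12, h13, h14, h23, h24, h34⟩ : ∃ p1 p2 p3 p4 : Ω,
      p1 ≠ p2 ∧ p1 ≠ p3 ∧ p1 ≠ p4 ∧ p2 ≠ p3 ∧ p2 ≠ p4 ∧ p3 ≠ p4 :=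
    ⟨e 0, e 1, e 2, e 3, e.injective.ne (by decide), e.injective.ne (by decide),
      e.injective.ne (by decide), e.injective.ne (by decide), e.injective.ne (by decide),
      e.injective.ne (by decide)⟩
  obtain ⟨t, ht1, ht2, ht3, ht4⟩ := h.ex p1 p2 p3 p4 p2 p1 p3 p4 h12 h13 h14 h23 h24 h34
    (Ne.symm h12) h23 h24 h13 h14 h34
  have htt : t * t = 1 := h.uniq (t * t) p1 p2 p3 p4 h12 h13 h14 h23 h24 h34
    (by rw [mul_smul, ht1, ht2]) (by rw [mul_smul, ht2, ht1]) (by rw [mul_smul, ht3, ht3])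
    (by rw [mul_smul, ht4, ht4])
  have htt' : ∀ x : Ω, t • t • x = x := fun x => by rw [smul_smul, htt, one_smul]
  have ht_ne : t ≠ 1 := by
    intro h1
    rw [h1, one_smul] at ht1
    exact h12 ht1
  have hF4 : ∀ x y z w : Ω, t • x = x → t • y = y → t • z = z → t • w = w →
      x ≠ y → x ≠ z → x ≠ w → y ≠ z → y ≠ w → z ≠ w → False := by
    intro x y z w hx hy hz hw hxy hxz hxw hyz hyw hzw
    exact ht_ne (h.uniq t x y z w hxy hxz hxw hyz hyw hzw hx hy hz hw)
  have hp1F : t • p1 ≠ p1 := by rw [ht1]; exact Ne.symm h12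
  -- every moved point other than p1, p2 has its involution
  have hV := fun b hb hb1 hb2 => exists_v h h12 ht1 ht2 htt b hb hb1 hb2
  by_cases h5 : ∃ p5, t • p5 = p5 ∧ p5 ≠ p3 ∧ p5 ≠ p4
  · obtain ⟨p5, ht5, h53, h54⟩ := h5
    have hF : ∀ x, t • x = x → x = p3 ∨ x = p4 ∨ x = p5 := by
      intro x hx
      by_contra hcon
      push Not at hcon
      exact hF4 x p3 p4 p5 hx ht3 ht4 ht5 hcon.1 hcon.2.1 hcon.2.2 h34 (Ne.symm h53) (Ne.symm h54)
    have h15 : p1 ≠ p5 := fun hh => hp1F (hh ▸ ht5)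
    -- the three types
    obtain ⟨S3, hS3c, hS3⟩ := fibre h h12 htt (fun v => v • p3 = p3 ∧ v • p4 = p5 ∧ v • p5 = p4)
      (fun v v' hv hv' h1 _ => eq_of_agree h v v' p1 p3 p4 p5 h13 h14 h15 h34 (Ne.symm h53)
        (Ne.symm h54) h1 (by rw [hv.1, hv'.1]) (by rw [hv.2.1, hv'.2.1]) (by rw [hv.2.2, hv'.2.2]))
    obtain ⟨S4, hS4c, hS4⟩ := fibre h h12 htt (fun v => v • p4 = p4 ∧ v • p3 = p5 ∧ v • p5 = p3)
      (fun v v' hv hv' h1 _ => eq_of_agree h v v' p1 p3 p4 p5 h13 h14 h15 h34 (Ne.symm h53)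
        (Ne.symm h54) h1 (by rw [hv.2.1, hv'.2.1]) (by rw [hv.1, hv'.1]) (by rw [hv.2.2, hv'.2.2]))
    obtain ⟨S5, hS5c, hS5⟩ := fibre h h12 htt (fun v => v • p5 = p5 ∧ v • p3 = p4 ∧ v • p4 = p3)
      (fun v v' hv hv' h1 _ => eq_of_agree h v v' p1 p3 p4 p5 h13 h14 h15 h34 (Ne.symm h53)
        (Ne.symm h54) h1 (by rw [hv.2.1, hv'.2.1]) (by rw [hv.2.2, hv'.2.2]) (by rw [hv.1, hv'.1]))
    have hall : ∀ x : Ω, x ∈ ({p1, p2, p3, p4, p5} : Finset Ω) ∪ S3 ∪ S4 ∪ S5 := by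
      intro x
      by_cases hx : t • x = x
      · rcases hF x hx with rfl | rfl | rfl <;> simp
      by_cases hx1 : x = p1
      · rw [hx1]; simp
      by_cases hx2 : x = p2
      · rw [hx2]; simp
      obtain ⟨v, hv, hvv, hvF, hv2⟩ := hV x hx hx1 hx2
      have hvv' : ∀ y : Ω, v • v • y = y := fun y => by rw [smul_smul, hvv, one_smul]
      have hinj : ∀ y z : Ω, v • y = v • z → y = z := fun y z hyz => by
        rw [← hvv' y, hyz, hvv']
      rcases hF (v • p3) (hvF p3 ht3) with h3 | h3 | h3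
      · -- type 3
        have h4' : v • p4 = p5 := by
          rcases hF (v • p4) (hvF p4 ht4) with h4 | h4 | h4
          · exact (h34 (hinj p3 p4 (by rw [h3, h4]))).elim
          · exact (hv2 p3 p4 ht3 ht4 h34 h3 h4).elim
          · exact h4
        have h5' : v • p5 = p4 := by rw [← h4', hvv']
        have := hS3 x v hx hv ⟨h3, h4', h5'⟩
        simp [this]
      · -- type 5
        have h4' : v • p4 = p3 := by rw [← h3, hvv']
        have h5' : v • p5 = p5 := by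
          rcases hF (v • p5) (hvF p5 ht5) with h5 | h5 | h5
          · exact (h54 (hinj p5 p4 (by rw [h5, h4']))).elim
          · exact (h53 (hinj p5 p3 (by rw [h5, h3]))).elim
          · exact h5
        have := hS5 x v hx hv ⟨h5', h3, h4'⟩
        simp [this]
      · -- type 4
        have h5' : v • p5 = p3 := by rw [← h3, hvv']
        have h4' : v • p4 = p4 := by
          rcases hF (v • p4) (hvF p4 ht4) with h4 | h4 | h4
          · exact (h54 (hinj p5 p4 (by rw [h5', h4]))).elim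
          · exact h4
          · exact (h34 (hinj p3 p4 (by rw [h3, h4]))).elim
        have := hS4 x v hx hv ⟨h4', h3, h5'⟩
        simp [this]
    obtain ⟨hfin, hcard⟩ := card_of_forall_mem _ hall
    have hle : (({p1, p2, p3, p4, p5} : Finset Ω) ∪ S3 ∪ S4 ∪ S5).card ≤ 11 := by
      have e1 := Finset.card_union_le (({p1, p2, p3, p4, p5} : Finset Ω) ∪ S3 ∪ S4) S5
      have e2 := Finset.card_union_le (({p1, p2, p3, p4, p5} : Finset Ω) ∪ S3) S4
      have e3 := Finset.card_union_le ({p1, p2, p3, p4, p5} : Finset Ω) S3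
      have e4 : ({p1, p2, p3, p4, p5} : Finset Ω).card ≤ 5 := Finset.card_le_five
      omega
    refine ⟨hfin, by rw [hcard]; exact hle, ?_⟩
    intro heven
    exfalso
    letI : Fintype Ω := Fintype.ofFinite Ω
    have hfix : fixS Ω t = {p3, p4, p5} := by
      ext x
      rw [mem_fixS]
      simp only [Finset.mem_insert, Finset.mem_singleton]
      constructor
      · exact hF x
      · rintro (rfl | rfl | rfl)
        · exact ht3
        · exact ht4
        · exact ht5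
    have hfc : (fixS Ω t).card = 3 := by
      rw [hfix]
      exact Finset.card_eq_three.mpr ⟨p3, p4, p5, h34, Ne.symm h53, Ne.symm h54, rfl⟩
    have hsum := fix_add_mov (α := Ω) t
    have hev := even_movS (α := Ω) htt
    rw [Nat.card_eq_fintype_card, ← hsum, hfc] at heven
    rw [Nat.even_add] at heven
    exact (by decide : ¬ Even 3) (heven.mpr hev)
  · push Not at h5
    have hF : ∀ x, t • x = x → x = p3 ∨ x = p4 := by
      intro x hx
      by_contra hcon
      push Not at hcon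
      exact hcon.2 (h5 x hx hcon.1)
    obtain ⟨S, hSc, hS⟩ := fibre h h12 htt (fun v => v • p3 = p4 ∧ v • p4 = p3)
      (fun v v' hv hv' h1 h2 => eq_of_agree h v v' p1 p2 p3 p4 h12 h13 h14 h23 h24 h34 h1 h2
        (by rw [hv.1, hv'.1]) (by rw [hv.2, hv'.2]))
    have hall : ∀ x : Ω, x ∈ ({p1, p2, p3, p4} : Finset Ω) ∪ S := by
      intro x
      by_cases hx : t • x = x
      · rcases hF x hx with rfl | rfl <;> simp
      by_cases hx1 : x = p1
      · rw [hx1]; simp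
      by_cases hx2 : x = p2
      · rw [hx2]; simp
      obtain ⟨v, hv, hvv, hvF, hv2⟩ := hV x hx hx1 hx2
      have hvv' : ∀ y : Ω, v • v • y = y := fun y => by rw [smul_smul, hvv, one_smul]
      have hinj : ∀ y z : Ω, v • y = v • z → y = z := fun y z hyz => by
        rw [← hvv' y, hyz, hvv']
      have h3 : v • p3 = p4 := by
        rcases hF (v • p3) (hvF p3 ht3) with h3 | h3
        · exfalso
          rcases hF (v • p4) (hvF p4 ht4) with h4 | h4
          · exact h34 (hinj p3 p4 (by rw [h3, h4]))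
          · exact hv2 p3 p4 ht3 ht4 h34 h3 h4
        · exact h3
      have h4 : v • p4 = p3 := by rw [← h3, hvv']
      have := hS x v hx hv ⟨h3, h4⟩
      simp [this]
    obtain ⟨hfin, hcard⟩ := card_of_forall_mem _ hall
    have hle : (({p1, p2, p3, p4} : Finset Ω) ∪ S).card ≤ 6 := by
      have e1 := Finset.card_union_le ({p1, p2, p3, p4} : Finset Ω) S
      have e2 : ({p1, p2, p3, p4} : Finset Ω).card ≤ 4 := Finset.card_le_four
      omega
    exact ⟨hfin, by rw [hcard]; omega, fun _ => by rw [hcard]; exact hle⟩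

end Cfsg.Agent.S0708
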