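import Mathlib
import Cfsg.Statements.S0709

set_option autoImplicit false
set_option maxHeartbeats 1600000
open Cfsg

namespace Cfsg.Agent.S0709

/-- Witt's Lemma for constructing transitive extensions. Points `q 1, …, q t` (`t ≥ 2`) of a finite set are given; `G` fixes `q i` for `i ≥ 3` and is doubly transitive on the remaining points; `s 1 ∈ G` swaps `q 1, q 2`; for `2 ≤ i ≤ t-1`, `s i` swaps `q i, q (i+1)` and fixes the other `q j`; with `H` the stabiliser of `q 1, q 2` in `G`: `s i ^ 2 ∈ H`, `(s i * s (i+1)) ^ 3 ∈ H`, `(s i * s j) ^ 2 ∈ H` for `j ≥ i + 2`, and `s i` (`i ≥ 2`) normalises the stabiliser of `q 2` in `G`. Then `G` and the `s i` generate a `t`-transitive group whose pointwise stabiliser of the `q`'s is `H`. -/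
theorem result {α : Type*} [Fintype α] [DecidableEq α] (t : ℕ) (ht : 2 ≤ t) (q : ℕ → α) (hq : ∀ i j : ℕ, 1 ≤ i → i ≤ t → 1 ≤ j → j ≤ t → q i = q j → i = j) (G : Subgroup (Equiv.Perm α)) (hfix : ∀ g ∈ G, ∀ i : ℕ, 3 ≤ i → i ≤ t → g (q i) = q i) (h2 : ∀ a b c d : α, (∀ i, 3 ≤ i → i ≤ t → a ≠ q i ∧ b ≠ q i ∧ c ≠ q i ∧ d ≠ q i) → a ≠ b → c ≠ d → ∃ g ∈ G, g a = c ∧ g b = d) (s : ℕ → Equiv.Perm α) (hs1 : s 1 ∈ G) (hs1q : s 1 (q 1) = q 2 ∧ s 1 (q 2) = q 1) (hsq : ∀ i : ℕ, 2 ≤ i → i + 1 ≤ t → s i (q i) = q (i + 1) ∧ s i (q (i + 1)) = q i ∧ ∀ j : ℕ, 1 ≤ j → j ≤ t → j ≠ i → j ≠ i + 1 → s i (q j) = q j) (H : Subgroup (Equiv.Perm α)) (hH : H = G ⊓ MulAction.stabilizer (Equiv.Perm α) (q 1) ⊓ MulAction.stabilizer (Equiv.Perm α) (q 2)) (hsq2 : ∀ i : ℕ, 1 ≤ i → i + 1 ≤ t → s i ^ 2 ∈ H) (hbraid : ∀ i : ℕ, 1 ≤ i → i + 2 ≤ t → (s i * s (i + 1)) ^ 3 ∈ H) (hcomm : ∀ i j : ℕ, 1 ≤ i → i + 2 ≤ j → j + 1 ≤ t → (s i * s j) ^ 2 ∈ H ∧ (s j * s i) ^ 2 ∈ H) (hnorm : ∀ i : ℕ, 2 ≤ i → i + 1 ≤ t → ∀ g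 ∈ G ⊓ MulAction.stabilizer (Equiv.Perm α) (q 2), s i * g * (s i)⁻¹ ∈ G ⊓ MulAction.stabilizer (Equiv.Perm α) (q 2)) : MulAction.IsMultiplyPretransitive ↥(Subgroup.closure ((G : Set (Equiv.Perm α)) ∪ {x | ∃ i : ℕ, 2 ≤ i ∧ i + 1 ≤ t ∧ x = s i})) α t ∧ Subgroup.closure ((G : Set (Equiv.Perm α)) ∪ {x | ∃ i : ℕ, 2 ≤ i ∧ i + 1 ≤ t ∧ x = s i}) ⊓ fixingSubgroup (Equiv.Perm α) {x | ∃ i : ℕ, 1 ≤ i ∧ i ≤ t ∧ x = q i} = H := by
  classical
  obtain ⟨K, hK⟩ : ∃ K : ℕ → Subgroup (Equiv.Perm α), ∀ i, K i = Subgroup.closure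
      ((G : Set (Equiv.Perm α)) ∪ {x | ∃ j : ℕ, 2 ≤ j ∧ j + 1 ≤ i ∧ x = s j}) :=
    ⟨_, fun i => rfl⟩
  have hGK : ∀ i, G ≤ K i := by
    intro i g hg
    rw [hK]
    exact Subgroup.subset_closure (Or.inl hg)
  have hsK : ∀ i j : ℕ, 2 ≤ j → j + 1 ≤ i → s j ∈ K i := by
    intro i j h1 h2
    rw [hK]
    exact Subgroup.subset_closure (Or.inr ⟨j, h1, h2, rfl⟩)
  have hK2 : K 2 = G := by
    apply le_antisymm
    · rw [hK, Subgroup.closure_le]
      rintro x (hx | ⟨j, h1, h2, _⟩)
      · exact hx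
      · omega
    · exact hGK 2
  have hHG : H ≤ G := by
    rw [hH]
    exact inf_le_left.trans inf_le_left
  have hHK : ∀ i, H ≤ K i := fun i => hHG.trans (hGK i)
  have hH1 : ∀ h ∈ H, h (q 1) = q 1 := by
    intro h hh
    rw [hH] at hh
    exact MulAction.mem_stabilizer_iff.mp hh.1.2
  have hH2 : ∀ h ∈ H, h (q 2) = q 2 := by
    intro h hh
    rw [hH] at hh
    exact MulAction.mem_stabilizer_iff.mp hh.2
  have hq12 : q 1 ≠ q 2 := by
    intro h
    have := hq 1 2 le_rfl (by omega) (by omega) ht h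
    omega
  -- the action of `s i` on the points
  have hsi : ∀ i : ℕ, 2 ≤ i → i + 1 ≤ t → s i (q i) = q (i + 1) := fun i h1 h2 => (hsq i h1 h2).1
  have hsi' : ∀ i : ℕ, 2 ≤ i → i + 1 ≤ t → s i (q (i + 1)) = q i := fun i h1 h2 => (hsq i h1 h2).2.1
  have hsj : ∀ i : ℕ, 2 ≤ i → i + 1 ≤ t → ∀ j : ℕ, 1 ≤ j → j ≤ t → j ≠ i → j ≠ i + 1 →
      s i (q j) = q j := fun i h1 h2 => (hsq i h1 h2).2.2
  -- inverse of `s i` in terms of `s i`
  have hsinv : ∀ i : ℕ, 1 ≤ i → i + 1 ≤ t → (s i)⁻¹ = (s i ^ 2)⁻¹ * s i := by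
    intro i _ _
    group
  -- decomposition of `G` with respect to `q 2`
  have hL0 : ∀ c ∈ G, c (q 2) = q 2 ∨ ∃ g₁ ∈ G, ∃ g₂ ∈ G, g₁ (q 2) = q 2 ∧ g₂ (q 2) = q 2 ∧
      c = g₁ * s 1 * g₂ := by
    intro c hc
    by_cases hx : c (q 2) = q 2
    · exact Or.inl hx
    · right
      have hxq : ∀ j, 3 ≤ j → j ≤ t → c (q 2) ≠ q j := by
        intro j h3 hjt h
        have h' : c (q 2) = c (q j) := by rw [hfix c hc j h3 hjt]; exact h
        have := hq 2 j (by omega) ht (by omega) hjt (c.injective h')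
        omega
      have hqq : ∀ i j, 1 ≤ i → i ≤ 2 → 3 ≤ j → j ≤ t → q i ≠ q j := by
        intro i j h1 h2 h3 h4 h
        have := hq i j h1 (by omega) (by omega) h4 h
        omega
      obtain ⟨g₁, hg₁, hg₁a, hg₁b⟩ := h2 (q 2) (q 1) (q 2) (c (q 2))
        (fun j h3 hjt => ⟨hqq 2 j (by omega) le_rfl h3 hjt, hqq 1 j le_rfl (by omega) h3 hjt,
          hqq 2 j (by omega) le_rfl h3 hjt, hxq j h3 hjt⟩) (Ne.symm hq12) (Ne.symm hx)
      refine ⟨g₁, hg₁, (s 1)⁻¹ * g₁⁻¹ * c, ?_, hg₁a, ?_, by group⟩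
      · exact G.mul_mem (G.mul_mem (G.inv_mem hs1) (G.inv_mem hg₁)) hc
      · have e1 : g₁⁻¹ (c (q 2)) = q 1 := by
          rw [Equiv.Perm.inv_eq_iff_eq]
          exact hg₁b.symm
        have e2 : (s 1)⁻¹ (q 1) = q 2 := by
          rw [Equiv.Perm.inv_eq_iff_eq]
          exact hs1q.2.symm
        simp only [Equiv.Perm.coe_mul, Function.comp_apply]
        rw [e1, e2]
  -- the main induction
  have hInv : ∀ i : ℕ, 2 ≤ i → i ≤ t →
      (∀ k ∈ K i, ∀ j, i < j → j ≤ t → k (q j) = q j) ∧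
      (∀ a b c d : α, (∀ j, i < j → j ≤ t → a ≠ q j ∧ b ≠ q j ∧ c ≠ q j ∧ d ≠ q j) → a ≠ b →
        c ≠ d → ∃ g ∈ K i, g a = c ∧ g b = d) ∧
      (∀ x y : Fin i → α, Function.Injective x → Function.Injective y →
        (∀ m j, i < j → j ≤ t → x m ≠ q j ∧ y m ≠ q j) → ∃ g ∈ K i, ∀ m, g (x m) = y m) ∧
      (∀ k ∈ K i, (∀ j, 1 ≤ j → j ≤ t → k (q j) = q j) → k ∈ H) ∧
      (3 ≤ i → ∀ k ∈ K i, k (q i) = q i → k ∈ K (i - 1)) := by
    intro i hi
    induction i, hi using Nat.le_induction with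
    | base =>
      intro _
      rw [hK2]
      refine ⟨fun k hk j hj hjt => hfix k hk j (by omega) hjt, ?_, ?_, ?_, ?_⟩
      · intro a b c d hcond hab hcd
        exact h2 a b c d (fun j h3 hjt => hcond j (by omega) hjt) hab hcd
      · intro x y hx hy hcond
        have h01 : (0 : Fin 2) ≠ 1 := by decide
        obtain ⟨g, hg, hg0, hg1⟩ := h2 (x 0) (x 1) (y 0) (y 1)
          (fun j h3 hjt => ⟨(hcond 0 j (by omega) hjt).1, (hcond 1 j (by omega) hjt).1,
            (hcond 0 j (by omega) hjt).2, (hcond 1 j (by omega) hjt).2⟩)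
          (fun h => h01 (hx h)) (fun h => h01 (hy h))
        refine ⟨g, hg, ?_⟩
        intro m
        fin_cases m
        · exact hg0
        · exact hg1
      · intro k hk hkq
        rw [hH]
        exact ⟨⟨hk, MulAction.mem_stabilizer_iff.mpr (hkq 1 le_rfl (by omega))⟩,
          MulAction.mem_stabilizer_iff.mpr (hkq 2 (by omega) ht)⟩
      · intro h3
        omega
    | succ i hi ih =>
      intro hit
      obtain ⟨hA, hB, hC, hD, hE⟩ := ih (by omega)
      have hi1 : i + 1 ≤ t := hit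
      -- basic facts
      have hqne : ∀ a b : ℕ, 1 ≤ a → a ≤ t → 1 ≤ b → b ≤ t → a ≠ b → q a ≠ q b := by
        intro a b h1 h2' h3 h4 hab h
        exact hab (hq a b h1 h2' h3 h4 h)
      have hs2H : s i ^ 2 ∈ H := hsq2 i (by omega) hi1
      have hs2K : s i ^ 2 ∈ K i := hHK i hs2H
      have hs2q : (s i ^ 2) (q i) = q i := by
        rw [pow_two, Equiv.Perm.coe_mul, Function.comp_apply, hsi i hi hi1, hsi' i hi hi1]
      -- the element s (i-1) of K i moving q i to q (i-1)
      have hprev : s (i - 1) ∈ K i ∧ s (i - 1) (q i) = q (i - 1) := by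
        by_cases h2i : i = 2
        · subst h2i
          exact ⟨hGK 2 hs1, hs1q.2⟩
        · refine ⟨hsK i (i - 1) (by omega) (by omega), ?_⟩
          have := hsi' (i - 1) (by omega) (by omega)
          rw [show i - 1 + 1 = i by omega] at this
          exact this
      obtain ⟨hprevK, hprevq⟩ := hprev
      -- normalisation
      have hN : ∀ g ∈ K i, g (q i) = q i → s i * g * (s i)⁻¹ ∈ K i := by
        intro g hg hgq
        by_cases h2i : i = 2
        · subst h2i
          rw [hK2] at hg ⊢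
          exact (hnorm 2 le_rfl hi1 g ⟨hg, MulAction.mem_stabilizer_iff.mpr hgq⟩).1
        · have h3i : 3 ≤ i := by omega
          have hg' : g ∈ K (i - 1) := hE h3i g hg hgq
          have hle : K (i - 1) ≤ (K (i - 1)).comap (MulAut.conj (s i)).toMonoidHom := by
            conv_lhs => rw [hK]
            rw [Subgroup.closure_le]
            rintro x (hx | ⟨j, hj1, hj2, rfl⟩)
            · show (MulAut.conj (s i)).toMonoidHom x ∈ K (i - 1)
              have e : (MulAut.conj (s i)).toMonoidHom x = s i * x * (s i)⁻¹ := rfl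
              rw [e]
              have hcm := (hcomm 1 i le_rfl (by omega) hi1).2
              have hs1c : s i * s 1 * (s i)⁻¹ ∈ G := by
                have e2 : s i * s 1 * (s i)⁻¹ = (s i * s 1) ^ 2 * (s 1)⁻¹ * (s i ^ 2)⁻¹ := by
                  rw [pow_two, pow_two]
                  group
                rw [e2]
                exact G.mul_mem (G.mul_mem (hHG hcm) (G.inv_mem hs1)) (G.inv_mem (hHG hs2H))
              rcases hL0 x hx with hxq | ⟨g₁, hg₁, g₂, hg₂, hg₁q, hg₂q, rfl⟩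
              · exact hGK _ (hnorm i hi hi1 x ⟨hx, MulAction.mem_stabilizer_iff.mpr hxq⟩).1
              · have e3 : s i * (g₁ * s 1 * g₂) * (s i)⁻¹ =
                    (s i * g₁ * (s i)⁻¹) * (s i * s 1 * (s i)⁻¹) * (s i * g₂ * (s i)⁻¹) := by
                  group
                rw [e3]
                exact hGK _ (G.mul_mem (G.mul_mem
                  (hnorm i hi hi1 g₁ ⟨hg₁, MulAction.mem_stabilizer_iff.mpr hg₁q⟩).1 hs1c)
                  (hnorm i hi hi1 g₂ ⟨hg₂, MulAction.mem_stabilizer_iff.mpr hg₂q⟩).1)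
            · show (MulAut.conj (s i)).toMonoidHom (s j) ∈ K (i - 1)
              have e : (MulAut.conj (s i)).toMonoidHom (s j) = s i * s j * (s i)⁻¹ := rfl
              rw [e]
              have hcm := (hcomm j i (by omega) (by omega) hi1).2
              have e2 : s i * s j * (s i)⁻¹ = (s i * s j) ^ 2 * (s j)⁻¹ * (s i ^ 2)⁻¹ := by
                rw [pow_two, pow_two]
                group
              rw [e2]
              exact (K (i - 1)).mul_mem ((K (i - 1)).mul_mem (hHK _ hcm)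
                ((K (i - 1)).inv_mem (hsK (i - 1) j hj1 hj2))) ((K (i - 1)).inv_mem (hHK _ hs2H))
          have h1 : s i * g * (s i)⁻¹ ∈ K (i - 1) := hle hg'
          have hmono : K (i - 1) ≤ K i := by
            conv_lhs => rw [hK]
            rw [Subgroup.closure_le]
            rintro x (hx | ⟨j, hj1, hj2, rfl⟩)
            · exact hGK i hx
            · exact hsK i j hj1 (by omega)
          exact hmono h1
      have hN' : ∀ g ∈ K i, g (q i) = q i → (s i)⁻¹ * g * s i ∈ K i := by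
        intro g hg hgq
        have e : (s i)⁻¹ * g * s i = (s i ^ 2)⁻¹ * (s i * g * (s i)⁻¹) * s i ^ 2 := by group
        rw [e]
        exact (K i).mul_mem ((K i).mul_mem ((K i).inv_mem hs2K) (hN g hg hgq)) hs2K
      -- decomposition of K i
      have hL : ∀ c ∈ K i, c (q i) = q i ∨ ∃ g₁ ∈ K i, ∃ g₂ ∈ K i, g₁ (q i) = q i ∧
          g₂ (q i) = q i ∧ c = g₁ * s (i - 1) * g₂ := by
        intro c hc
        by_cases hx : c (q i) = q i
        · exact Or.inl hx
        · right
          have hxq : ∀ j, i < j → j ≤ t → c (q i) ≠ q j := by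
            intro j h3 hjt h
            have h' : c (q i) = c (q j) := by rw [hA c hc j h3 hjt]; exact h
            exact hqne i j (by omega) (by omega) (by omega) hjt (by omega) (c.injective h')
          obtain ⟨g₁, hg₁, hg₁a, hg₁b⟩ := hB (q i) (q (i - 1)) (q i) (c (q i))
            (fun j h3 hjt => ⟨hqne i j (by omega) (by omega) (by omega) hjt (by omega),
              hqne (i - 1) j (by omega) (by omega) (by omega) hjt (by omega),
              hqne i j (by omega) (by omega) (by omega) hjt (by omega), hxq j h3 hjt⟩)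
            (hqne i (i - 1) (by omega) (by omega) (by omega) (by omega) (by omega)) (Ne.symm hx)
          refine ⟨g₁, hg₁, (s (i - 1))⁻¹ * g₁⁻¹ * c, ?_, hg₁a, ?_, by group⟩
          · exact (K i).mul_mem ((K i).mul_mem ((K i).inv_mem hprevK) ((K i).inv_mem hg₁)) hc
          · have e1 : g₁⁻¹ (c (q i)) = q (i - 1) := by
              rw [Equiv.Perm.inv_eq_iff_eq]
              exact hg₁b.symm
            have e2 : (s (i - 1))⁻¹ (q (i - 1)) = q i := by
              rw [Equiv.Perm.inv_eq_iff_eq]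
              exact hprevq.symm
            simp only [Equiv.Perm.coe_mul, Function.comp_apply]
            rw [e1, e2]
      -- the braid relation
      have hBr : ∃ A ∈ K i, ∃ B ∈ K i, s i * s (i - 1) * s i = A * s i * B := by
        have hb := hbraid (i - 1) (by omega) (by omega)
        rw [show i - 1 + 1 = i by omega] at hb
        have e3 : (s (i - 1) * s i) ^ 3 = (s (i - 1) * s i) * (s (i - 1) * s i) *
            (s (i - 1) * s i) := by rw [pow_succ, pow_two]
        refine ⟨(s (i - 1))⁻¹ * (s (i - 1) * s i) ^ 3 * (s i ^ 2)⁻¹, ?_, (s (i - 1))⁻¹,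
          (K i).inv_mem hprevK, by rw [e3, pow_two]; group⟩
        exact (K i).mul_mem ((K i).mul_mem ((K i).inv_mem hprevK) (hHK i hb))
          ((K i).inv_mem hs2K)
      -- the set K i ∪ K i s K i
      have hS1 : ∀ c ∈ K i, s i * c * s i ∈ K i ∨
          ∃ a ∈ K i, ∃ b ∈ K i, s i * c * s i = a * s i * b := by
        intro c hc
        rcases hL c hc with hcq | ⟨g₁, hg₁, g₂, hg₂, hg₁q, hg₂q, rfl⟩
        · left
          have e : s i * c * s i = (s i * c * (s i)⁻¹) * s i ^ 2 := by group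
          rw [e]
          exact (K i).mul_mem (hN c hc hcq) hs2K
        · right
          obtain ⟨A, hA', B, hB', hAB⟩ := hBr
          refine ⟨(s i * g₁ * (s i)⁻¹) * A, (K i).mul_mem (hN g₁ hg₁ hg₁q) hA',
            B * ((s i)⁻¹ * g₂ * s i), (K i).mul_mem hB' (hN' g₂ hg₂ hg₂q), ?_⟩
          calc s i * (g₁ * s (i - 1) * g₂) * s i
              = (s i * g₁ * (s i)⁻¹) * (s i * s (i - 1) * s i) * ((s i)⁻¹ * g₂ * s i) := by group
            _ = (s i * g₁ * (s i)⁻¹) * (A * s i * B) * ((s i)⁻¹ * g₂ * s i) := by rw [hAB]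
            _ = (s i * g₁ * (s i)⁻¹) * A * s i * (B * ((s i)⁻¹ * g₂ * s i)) := by group
      obtain ⟨S, hS⟩ : ∃ S : Set (Equiv.Perm α), S = {k | k ∈ K i ∨
          ∃ a ∈ K i, ∃ b ∈ K i, k = a * s i * b} := ⟨_, rfl⟩
      have hSmem : ∀ k, k ∈ S ↔ (k ∈ K i ∨ ∃ a ∈ K i, ∃ b ∈ K i, k = a * s i * b) := by
        intro k
        rw [hS]
        exact Iff.rfl
      have hSmul : ∀ x y, x ∈ S → y ∈ S → x * y ∈ S := by
        intro x y hx hy
        rw [hSmem] at hx hy ⊢
        rcases hx with hx | ⟨a, ha, b, hb, rfl⟩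
        · rcases hy with hy | ⟨a', ha', b', hb', rfl⟩
          · exact Or.inl ((K i).mul_mem hx hy)
          · exact Or.inr ⟨x * a', (K i).mul_mem hx ha', b', hb', by group⟩
        · rcases hy with hy | ⟨a', ha', b', hb', rfl⟩
          · exact Or.inr ⟨a, ha, b * y, (K i).mul_mem hb hy, by group⟩
          · rcases hS1 (b * a') ((K i).mul_mem hb ha') with h | ⟨a'', ha'', b'', hb'', h⟩
            · left
              have e : a * s i * b * (a' * s i * b') = a * (s i * (b * a') * s i) * b' := by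
                group
              rw [e]
              exact (K i).mul_mem ((K i).mul_mem ha h) hb'
            · right
              refine ⟨a * a'', (K i).mul_mem ha ha'', b'' * b', (K i).mul_mem hb'' hb', ?_⟩
              calc a * s i * b * (a' * s i * b') = a * (s i * (b * a') * s i) * b' := by group
                _ = a * (a'' * s i * b'') * b' := by rw [h]
                _ = a * a'' * s i * (b'' * b') := by group
      have hSone : (1 : Equiv.Perm α) ∈ S := by
        rw [hSmem]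
        exact Or.inl (K i).one_mem
      have hSinv : ∀ x, x ∈ S → x⁻¹ ∈ S := by
        intro x hx
        rw [hSmem] at hx ⊢
        rcases hx with hx | ⟨a, ha, b, hb, rfl⟩
        · exact Or.inl ((K i).inv_mem hx)
        · refine Or.inr ⟨b⁻¹ * (s i ^ 2)⁻¹, (K i).mul_mem ((K i).inv_mem hb) ((K i).inv_mem hs2K),
            a⁻¹, (K i).inv_mem ha, by group⟩
      obtain ⟨SS, hSS⟩ : ∃ SS : Subgroup (Equiv.Perm α), ∀ k, k ∈ SS ↔ k ∈ S :=
        ⟨⟨⟨⟨S, fun {x y} hx hy => hSmul x y hx hy⟩, hSone⟩, fun {x} hx => hSinv x hx⟩,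
          fun k => Iff.rfl⟩
      have hKS : ∀ k ∈ K (i + 1), k ∈ K i ∨ ∃ a ∈ K i, ∃ b ∈ K i, k = a * s i * b := by
        intro k hk
        have hle : K (i + 1) ≤ SS := by
          conv_lhs => rw [hK]
          rw [Subgroup.closure_le]
          rintro x (hx | ⟨j, hj1, hj2, rfl⟩)
          · exact (hSS x).mpr ((hSmem x).mpr (Or.inl (hGK i hx)))
          · apply (hSS _).mpr
            rw [hSmem]
            by_cases hji : j = i
            · subst hji
              exact Or.inr ⟨1, (K j).one_mem, 1, (K j).one_mem, by group⟩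
            · exact Or.inl (hsK i j hj1 (by omega))
        exact (hSmem k).mp ((hSS k).mp (hle hk))
      have hKle : K i ≤ K (i + 1) := by
        conv_lhs => rw [hK]
        rw [Subgroup.closure_le]
        rintro x (hx | ⟨j, hj1, hj2, rfl⟩)
        · exact hGK (i + 1) hx
        · exact hsK (i + 1) j hj1 (by omega)
      have hsiK : s i ∈ K (i + 1) := hsK (i + 1) i hi le_rfl
      -- (A)
      have hA1 : ∀ k ∈ K (i + 1), ∀ j, i + 1 < j → j ≤ t → k (q j) = q j := by
        intro k hk j hj hjt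
        rcases hKS k hk with h | ⟨a, ha, b, hb, rfl⟩
        · exact hA k h j (by omega) hjt
        · simp only [Equiv.Perm.coe_mul, Function.comp_apply]
          rw [hA b hb j (by omega) hjt, hsj i hi hi1 j (by omega) hjt (by omega) (by omega),
            hA a ha j (by omega) hjt]
      -- (E)
      have hE1 : ∀ k ∈ K (i + 1), k (q (i + 1)) = q (i + 1) → k ∈ K i := by
        intro k hk hkq
        rcases hKS k hk with h | ⟨a, ha, b, hb, rfl⟩
        · exact h
        · exfalso
          simp only [Equiv.Perm.coe_mul, Function.comp_apply] at hkq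
          rw [hA b hb (i + 1) (by omega) hi1, hsi' i hi hi1] at hkq
          have h' : a (q i) = a (q (i + 1)) := by rw [hA a ha (i + 1) (by omega) hi1]; exact hkq
          exact hqne i (i + 1) (by omega) (by omega) (by omega) hi1 (by omega) (a.injective h')
      -- transitivity of K i
      have hTr0 : ∀ a c : α, (∀ j, i < j → j ≤ t → a ≠ q j ∧ c ≠ q j) → ∃ k ∈ K i, k a = c := by
        intro a c hcond
        have hex : ∀ a : α, ∃ b : α, b ≠ a ∧ ∀ j, i < j → j ≤ t → b ≠ q j := by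
          intro a
          by_cases ha : a = q 1
          · exact ⟨q 2, by rw [ha]; exact Ne.symm hq12,
              fun j hj hjt => hqne 2 j (by omega) (by omega) (by omega) hjt (by omega)⟩
          · exact ⟨q 1, Ne.symm ha,
              fun j hj hjt => hqne 1 j le_rfl (by omega) (by omega) hjt (by omega)⟩
        obtain ⟨b, hba, hb⟩ := hex a
        obtain ⟨d, hdc, hd⟩ := hex c
        obtain ⟨g, hg, hga, _⟩ := hB a b c d
          (fun j hj hjt => ⟨(hcond j hj hjt).1, hb j hj hjt, (hcond j hj hjt).2, hd j hj hjt⟩)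
          (Ne.symm hba) (Ne.symm hdc)
        exact ⟨g, hg, hga⟩
      -- transitivity of K (i+1): move any point to q (i+1)
      have hTr : ∀ a : α, (∀ j, i + 1 < j → j ≤ t → a ≠ q j) →
          ∃ g ∈ K (i + 1), g a = q (i + 1) := by
        intro a hcond
        by_cases ha : a = q (i + 1)
        · exact ⟨1, (K (i + 1)).one_mem, by rw [ha]; rfl⟩
        · obtain ⟨g₀, hg₀, hg₀a⟩ := hTr0 a (q i) (fun j hj hjt => by
            refine ⟨?_, hqne i j (by omega) (by omega) (by omega) hjt (by omega)⟩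
            by_cases hj' : j = i + 1
            · rw [hj']; exact ha
            · exact hcond j (by omega) hjt)
          refine ⟨s i * g₀, (K (i + 1)).mul_mem hsiK (hKle hg₀), ?_⟩
          rw [Equiv.Perm.coe_mul, Function.comp_apply, hg₀a, hsi i hi hi1]
      -- images stay away from the later points
      have hStay : ∀ g ∈ K (i + 1), ∀ a b : α, g a = q (i + 1) → b ≠ a →
          (∀ j, i + 1 < j → j ≤ t → b ≠ q j) → ∀ j, i < j → j ≤ t → g b ≠ q j := by
        intro g hg a b hga hba hb j hj hjt h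
        by_cases hj' : j = i + 1
        · rw [hj', ← hga] at h
          exact hba (g.injective h)
        · have h' : g b = g (q j) := by rw [hA1 g hg j (by omega) hjt]; exact h
          exact hb j (by omega) hjt (g.injective h')
      refine ⟨hA1, ?_, ?_, ?_, ?_⟩
      · -- (B)
        intro a b c d hcond hab hcd
        obtain ⟨g₁, hg₁, hg₁a⟩ := hTr a (fun j hj hjt => (hcond j hj hjt).1)
        obtain ⟨g₂, hg₂, hg₂c⟩ := hTr c (fun j hj hjt => (hcond j hj hjt).2.2.1)
        obtain ⟨k, hk, hkb⟩ := hTr0 (g₁ b) (g₂ d) (fun j hj hjt =>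
          ⟨hStay g₁ hg₁ a b hg₁a (Ne.symm hab) (fun j hj hjt => (hcond j hj hjt).2.1) j hj hjt,
            hStay g₂ hg₂ c d hg₂c (Ne.symm hcd) (fun j hj hjt => (hcond j hj hjt).2.2.2)
              j hj hjt⟩)
        refine ⟨g₂⁻¹ * k * g₁, (K (i + 1)).mul_mem ((K (i + 1)).mul_mem
          ((K (i + 1)).inv_mem hg₂) (hKle hk)) hg₁, ?_, ?_⟩
        · simp only [Equiv.Perm.coe_mul, Function.comp_apply]
          rw [hg₁a, hA k hk (i + 1) (by omega) hi1, Equiv.Perm.inv_eq_iff_eq]
          exact hg₂c.symm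
        · simp only [Equiv.Perm.coe_mul, Function.comp_apply]
          rw [hkb, Equiv.Perm.inv_eq_iff_eq]
      · -- (C)
        intro x y hx hy hcond
        obtain ⟨g₁, hg₁, hg₁a⟩ := hTr (x (Fin.last i)) (fun j hj hjt => (hcond _ j hj hjt).1)
        obtain ⟨g₂, hg₂, hg₂c⟩ := hTr (y (Fin.last i)) (fun j hj hjt => (hcond _ j hj hjt).2)
        have hxinj : Function.Injective (fun m : Fin i => g₁ (x (Fin.castSucc m))) := by
          intro m m' h
          exact Fin.castSucc_injective i (hx (g₁.injective h))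
        have hyinj : Function.Injective (fun m : Fin i => g₂ (y (Fin.castSucc m))) := by
          intro m m' h
          exact Fin.castSucc_injective i (hy (g₂.injective h))
        obtain ⟨k, hk, hkm⟩ := hC (fun m : Fin i => g₁ (x (Fin.castSucc m)))
          (fun m : Fin i => g₂ (y (Fin.castSucc m))) hxinj hyinj (fun m j hj hjt =>
          ⟨hStay g₁ hg₁ (x (Fin.last i)) (x (Fin.castSucc m)) hg₁a
              (fun h => (Fin.castSucc_lt_last m).ne (hx h))
              (fun j hj hjt => (hcond _ j hj hjt).1) j hj hjt,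
            hStay g₂ hg₂ (y (Fin.last i)) (y (Fin.castSucc m)) hg₂c
              (fun h => (Fin.castSucc_lt_last m).ne (hy h))
              (fun j hj hjt => (hcond _ j hj hjt).2) j hj hjt⟩)
        refine ⟨g₂⁻¹ * k * g₁, (K (i + 1)).mul_mem ((K (i + 1)).mul_mem
          ((K (i + 1)).inv_mem hg₂) (hKle hk)) hg₁, ?_⟩
        intro m
        induction m using Fin.lastCases with
        | last =>
          simp only [Equiv.Perm.coe_mul, Function.comp_apply]
          rw [hg₁a, hA k hk (i + 1) (by omega) hi1, Equiv.Perm.inv_eq_iff_eq]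
          exact hg₂c.symm
        | cast m =>
          simp only [Equiv.Perm.coe_mul, Function.comp_apply]
          rw [hkm m, Equiv.Perm.inv_eq_iff_eq]
      · -- (D)
        intro k hk hkq
        exact hD k (hE1 k hk (hkq (i + 1) (by omega) hi1)) hkq
      · intro _ k hk hkq
        rw [show i + 1 - 1 = i by omega]
        exact hE1 k hk hkq
  obtain ⟨_, _, hC, hD, _⟩ := hInv t ht le_rfl
  rw [← hK t]
  constructor
  · rw [MulAction.isMultiplyPretransitive_iff]
    intro x y
    obtain ⟨g, hg, hgm⟩ := hC (fun m => x m) (fun m => y m) x.injective y.injective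
      (fun m j hj hjt => by omega)
    refine ⟨⟨g, hg⟩, ?_⟩
    ext m
    exact hgm m
  · ext k
    constructor
    · intro hk'
      obtain ⟨hk, hkf⟩ := Subgroup.mem_inf.mp hk'
      apply hD k hk
      intro j hj hjt
      have := (mem_fixingSubgroup_iff (Equiv.Perm α)).mp hkf (q j) ⟨j, hj, hjt, rfl⟩
      exact this
    · intro hk
      refine Subgroup.mem_inf.mpr ⟨hHK t hk, ?_⟩
      rw [mem_fixingSubgroup_iff]
      rintro y ⟨j, hj, hjt, rfl⟩
      show k (q j) = q j
      by_cases h1 : j = 1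
      · rw [h1]; exact hH1 k hk
      · by_cases h2' : j = 2
        · rw [h2']; exact hH2 k hk
        · exact hfix k (hHG hk) j (by omega) hjt

end Cfsg.Agent.S0709
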