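import Mathlib
import Cfsg.Statements.S0710

set_option autoImplicit false
open Cfsg

namespace Cfsg.Agent.S0710

/-- No transitive permutation group on 13 points has order `13 * 12 * 11 * 10 * 9 * 8`. -/
theorem result {α : Type*} [Fintype α] [DecidableEq α] (hα : Fintype.card α = 13) (G : Subgroup (Equiv.Perm α)) [MulAction.IsPretransitive G α] : Nat.card G ≠ 13 * 12 * 11 * 10 * 9 * 8 := by
  classical
  intro hcard
  have : Fact (Nat.Prime 13) := ⟨by norm_num⟩
  obtain ⟨P⟩ : Nonempty (Sylow 13 G) := inferInstance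
  have hPcard : Nat.card P = 13 := by
    rw [Sylow.card_eq_multiplicity, hcard]
    have : (13 * 12 * 11 * 10 * 9 * 8).factorization 13 = 1 := by
      rw [show 13 * 12 * 11 * 10 * 9 * 8 = 13 * 95040 by norm_num,
        Nat.factorization_mul (by norm_num) (by norm_num)]
      simp [Nat.factorization_eq_zero_of_not_dvd (show ¬ 13 ∣ 95040 by norm_num),
        Nat.Prime.factorization_self (by norm_num : Nat.Prime 13)]
    rw [this, pow_one]
  have hcyc : IsCyclic P := isCyclic_of_prime_card hPcard
  obtain ⟨c, hc⟩ := hcyc.exists_generator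
  have hcord : orderOf c = 13 := by rw [orderOf_eq_card_of_forall_mem_zpowers hc, hPcard]
  obtain ⟨cp, hcp⟩ : ∃ cp : Equiv.Perm α, cp = ((c : G) : Equiv.Perm α) := ⟨_, rfl⟩
  have hcpord : orderOf cp = 13 := by
    rw [hcp, Subgroup.orderOf_coe, Subgroup.orderOf_coe, hcord]
  have hcyc' : cp.IsCycle := Equiv.Perm.isCycle_of_prime_order' (by rw [hcpord]; norm_num)
    (by rw [hcpord, hα]; norm_num)
  have hsupp : ∀ x : α, cp x ≠ x := by
    have h1 : cp.support.card = 13 := by rw [← hcyc'.orderOf, hcpord]
    have h2 : cp.support = Finset.univ := Finset.eq_univ_of_card _ (by rw [h1, hα])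
    intro x
    rw [← Equiv.Perm.mem_support, h2]
    exact Finset.mem_univ x
  have hcent : ∀ x : Equiv.Perm α, x * cp = cp * x → x ∈ Subgroup.zpowers cp := by
    intro x hx
    obtain ⟨a⟩ : Nonempty α := by
      rw [← Fintype.card_pos_iff, hα]; norm_num
    obtain ⟨i, hi⟩ := hcyc'.exists_zpow_eq (hsupp a) (hsupp (x a))
    rw [Subgroup.mem_zpowers_iff]
    refine ⟨i, ?_⟩
    ext b
    obtain ⟨j, hj⟩ := hcyc'.exists_zpow_eq (hsupp a) (hsupp b)
    rw [← hj]
    have hcz : x * cp ^ j = cp ^ j * x := (Commute.zpow_right (show Commute x cp from hx) j)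
    have e1 := congrArg (fun f => f a) hcz
    simp only [Equiv.Perm.mul_apply] at e1
    rw [e1, ← hi, ← Equiv.Perm.mul_apply, ← Equiv.Perm.mul_apply, ← zpow_add, ← zpow_add,
      add_comm]
  -- the normalizer
  obtain ⟨N, hN⟩ : ∃ N : Subgroup G, N = Subgroup.normalizer ((P : Subgroup G) : Set G) :=
    ⟨_, rfl⟩
  have hidx : Nat.card (Sylow 13 G) = N.index := by
    rw [hN]; exact Sylow.card_eq_index_normalizer P
  have hmod : N.index % 13 = 1 := by
    have := card_sylow_modEq_one 13 G
    rw [hidx] at this
    exact this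
  have hNcard : Nat.card N * N.index = 13 * 12 * 11 * 10 * 9 * 8 := by
    rw [Subgroup.card_mul_index, hcard]
  subst hN
  obtain ⟨φ, hφ⟩ : ∃ φ : Subgroup.normalizer ((P : Subgroup G) : Set G) →* MulAut (P : Subgroup G),
      φ = (P : Subgroup G).normalizerMonoidHom := ⟨_, rfl⟩
  have hker : φ.ker = (Subgroup.centralizer ((P : Subgroup G) : Set G)).subgroupOf
      (Subgroup.normalizer ((P : Subgroup G) : Set G)) := by
    rw [hφ]; exact Subgroup.normalizerMonoidHom_ker (P : Subgroup G)
  have h1 : Nat.card φ.ker * Nat.card φ.range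
      = Nat.card (Subgroup.normalizer ((P : Subgroup G) : Set G)) := by
    have := Subgroup.card_mul_index φ.ker
    rwa [Subgroup.index_ker] at this
  have h2 : Nat.card φ.range ∣ 12 := by
    have hm : Nat.card (MulAut (P : Subgroup G)) = 12 := by
      rw [IsCyclic.card_mulAut (G := (P : Subgroup G)), hPcard, Nat.totient_prime (by norm_num)]
    have := Subgroup.card_subgroup_dvd_card φ.range
    rwa [hm] at this
  have h3 : Nat.card φ.ker ∣ 13 := by
    let ι : φ.ker →* Equiv.Perm α :=
      (G.subtype.comp (Subgroup.normalizer ((P : Subgroup G) : Set G)).subtype).comp φ.ker.subtype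
    have hιinj : Function.Injective ι := by
      intro x y hxy
      exact Subtype.ext (Subtype.ext (Subtype.ext hxy))
    have hle : (⊤ : Subgroup φ.ker).map ι ≤ Subgroup.zpowers cp := by
      rintro _ ⟨x, -, rfl⟩
      apply hcent
      have hx : (x : Subgroup.normalizer ((P : Subgroup G) : Set G)) ∈
          (Subgroup.centralizer ((P : Subgroup G) : Set G)).subgroupOf
            (Subgroup.normalizer ((P : Subgroup G) : Set G)) := by
        rw [← hker]; exact x.2
      rw [Subgroup.mem_subgroupOf, Subgroup.mem_centralizer_iff] at hx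
      have h5 := hx (c : G) c.2
      have h6 := congrArg (Subtype.val) h5
      rw [hcp]
      exact h6.symm
    have hc1 : Nat.card ((⊤ : Subgroup φ.ker).map ι) = Nat.card φ.ker := by
      rw [Subgroup.card_map_of_injective hιinj, Subgroup.card_top]
    have := Subgroup.card_dvd_of_le hle
    rw [hc1, Nat.card_zpowers, hcpord] at this
    exact this
  have hk : Nat.card φ.ker = 1 ∨ Nat.card φ.ker = 13 := (Nat.dvd_prime (by norm_num)).mp h3
  have hr : Nat.card φ.range ≤ 12 := Nat.le_of_dvd (by norm_num) h2
  have hrpos : 0 < Nat.card φ.range := Nat.card_pos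
  rw [← h1] at hNcard
  generalize Nat.card φ.range = r at *
  generalize (Subgroup.normalizer ((P : Subgroup G) : Set G)).index = idx at *
  rcases hk with hk | hk <;> rw [hk] at hNcard <;> interval_cases r <;>
    first | omega | (norm_num at h2)

end Cfsg.Agent.S0710
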