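import Mathlib
import Cfsg.Statements.S0711
import Cfsg.Agent.S0698

set_option autoImplicit false
open Cfsg

namespace Cfsg.Agent.S0711

open Cfsg.Agent.S0698

lemma supp_sub {α : Type*} [Fintype α] [DecidableEq α] (g x : Equiv.Perm α) (R : Finset α)
    (hR : R ⊆ g.support) (hx : ∀ p ∈ R, x p = p) :
    (g⁻¹ * (x * g * x⁻¹)).support ⊆
      (g.support \ R.filter (fun p => g p ∈ R)) ∪ (((g.support \ R).image x) \ g.support) := by
  intro p hp
  rw [Equiv.Perm.mem_support] at hp
  by_contra hnot
  apply hp
  rw [Finset.mem_union, not_or] at hnot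
  obtain ⟨h1, h2⟩ := hnot
  rw [Finset.mem_sdiff, not_and, not_not] at h1 h2
  show g⁻¹ (x (g (x⁻¹ p))) = p
  have hxx : ∀ p, x (x⁻¹ p) = p := fun p => by simp
  by_cases hpS : p ∈ g.support
  · have h3 := h1 hpS
    rw [Finset.mem_filter] at h3
    obtain ⟨hpR, hgpR⟩ := h3
    have e1 : x⁻¹ p = p := by rw [Equiv.Perm.inv_eq_iff_eq]; exact (hx p hpR).symm
    rw [e1, hx _ hgpR]
    simp
  · have e0 : g p = p := Equiv.Perm.notMem_support.1 hpS
    have h4 : x⁻¹ p ∉ g.support := by
      intro h5
      by_cases h6 : x⁻¹ p ∈ R
      · have h7 := hx _ h6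
        rw [hxx] at h7
        apply hpS
        have h8 : x⁻¹ p ∈ g.support := h5
        rw [← h7] at h8
        exact h8
      · apply hpS
        apply h2
        rw [Finset.mem_image]
        exact ⟨x⁻¹ p, Finset.mem_sdiff.2 ⟨h5, h6⟩, hxx p⟩
    have e2 : g (x⁻¹ p) = x⁻¹ p := Equiv.Perm.notMem_support.1 h4
    rw [e2, hxx, Equiv.Perm.inv_eq_iff_eq, e0]

lemma exists_R {α : Type*} [Fintype α] [DecidableEq α] (g : Equiv.Perm α) :
    ∀ m : ℕ, m ≤ g.support.card → ∃ R : Finset α, R ⊆ g.support ∧ R.card = m ∧
      (R.filter (fun p => g p ∉ R)).card ≤ 1 := by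
  intro m
  induction m with
  | zero =>
    intro _
    exact ⟨∅, Finset.empty_subset _, rfl, by simp⟩
  | succ m ih =>
    intro hm
    obtain ⟨R, hRS, hRc, hR1⟩ := ih (by omega)
    by_cases hex : ∃ e ∈ R, g e ∉ R
    · obtain ⟨e, heR, hge⟩ := hex
      refine ⟨insert (g e) R, ?_, ?_, ?_⟩
      · intro p hp
        rw [Finset.mem_insert] at hp
        rcases hp with rfl | hp
        · exact Equiv.Perm.apply_mem_support.2 (hRS heR)
        · exact hRS hp
      · rw [Finset.card_insert_of_notMem hge, hRc]
      · have hsub : (insert (g e) R).filter (fun p => g p ∉ insert (g e) R) ⊆ {g e} := by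
          intro p hp
          rw [Finset.mem_filter, Finset.mem_insert] at hp
          obtain ⟨hp1, hp2⟩ := hp
          rw [Finset.mem_singleton]
          rcases hp1 with h | h
          · exact h
          · exfalso
            have hgp : g p ∉ R := fun h' => hp2 (Finset.mem_insert_of_mem h')
            have hpe : p = e := Finset.card_le_one.1 hR1 p (Finset.mem_filter.2 ⟨h, hgp⟩) e
              (Finset.mem_filter.2 ⟨heR, hge⟩)
            apply hp2
            rw [hpe]
            exact Finset.mem_insert_self _ _
        exact (Finset.card_le_card hsub).trans (by simp)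
    · push Not at hex
      have hlt : R.card < g.support.card := by omega
      obtain ⟨p0, hp0S, hp0R⟩ := Finset.exists_mem_notMem_of_card_lt_card hlt
      refine ⟨insert p0 R, ?_, ?_, ?_⟩
      · intro p hp
        rw [Finset.mem_insert] at hp
        rcases hp with rfl | hp
        · exact hp0S
        · exact hRS hp
      · rw [Finset.card_insert_of_notMem hp0R, hRc]
      · have hsub : (insert p0 R).filter (fun p => g p ∉ insert p0 R) ⊆ {p0} := by
          intro p hp
          rw [Finset.mem_filter, Finset.mem_insert] at hp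
          obtain ⟨hp1, hp2⟩ := hp
          rw [Finset.mem_singleton]
          rcases hp1 with h | h
          · exact h
          · exact absurd (Finset.mem_insert_of_mem (hex p h)) hp2
        exact (Finset.card_le_card hsub).trans (by simp)

lemma reduce {α : Type*} [Fintype α] [DecidableEq α] (G : Subgroup (Equiv.Perm α)) {k : ℕ}
    (hk : 3 ≤ k) (hkn : k ≤ Fintype.card α) (hG : MulAction.IsMultiplyPretransitive G α k)
    (g : Equiv.Perm α) (hg : g ∈ G) (hs4 : 4 ≤ g.support.card)
    (hs : g.support.card ≤ 2 * k - 3) (d : α) (hd : d ∉ g.support) :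
    ∃ h ∈ G, h ≠ 1 ∧ h.support.card < g.support.card := by
  obtain ⟨s, hsdef⟩ : ∃ s, s = g.support.card := ⟨_, rfl⟩
  by_cases hsk : s ≤ k
  · -- Case A
    obtain ⟨c, hc⟩ : ∃ c, c ∈ g.support := Finset.card_pos.1 (by omega)
    have hRc : (g.support.erase c).card = s - 1 := by
      rw [Finset.card_erase_of_mem hc, hsdef]
    obtain ⟨x, hxG, hxfix, hxc⟩ := move_one G hG hkn (g.support.erase c) (by omega) c d
      (Finset.notMem_erase c _) (fun h => hd (Finset.mem_of_mem_erase h))
    refine ⟨g⁻¹ * (x * g * x⁻¹),
      G.mul_mem (G.inv_mem hg) (G.mul_mem (G.mul_mem hxG hg) (G.inv_mem hxG)), ?_, ?_⟩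
    · intro h1
      have h2 : (g⁻¹ * (x * g * x⁻¹)) d = d := by rw [h1]; rfl
      have h3 : (g⁻¹ * (x * g * x⁻¹)) d = c := by
        show g⁻¹ (x (g (x⁻¹ d))) = c
        have e1 : x⁻¹ d = c := by rw [Equiv.Perm.inv_eq_iff_eq]; exact hxc.symm
        have hgc : g c ∈ g.support.erase c :=
          Finset.mem_erase.2 ⟨Equiv.Perm.mem_support.1 hc, Equiv.Perm.apply_mem_support.2 hc⟩
        rw [e1, hxfix _ hgc]
        simp
      rw [h3] at h2
      rw [h2] at hc
      exact hd hc
    · have hsub := supp_sub g x (g.support.erase c) (Finset.erase_subset _ _) hxfix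
      have hb1 : (g.support \ (g.support.erase c).filter
          (fun p => g p ∈ g.support.erase c)).card ≤ 2 := by
        have hsub2 : g.support \ (g.support.erase c).filter (fun p => g p ∈ g.support.erase c) ⊆
            {c, g⁻¹ c} := by
          intro p hp
          rw [Finset.mem_sdiff, Finset.mem_filter, Finset.mem_erase, Finset.mem_erase] at hp
          obtain ⟨hpS, hp2⟩ := hp
          rw [Finset.mem_insert, Finset.mem_singleton]
          by_cases hpc : p = c
          · left; exact hpc
          · right
            rw [eq_comm, Equiv.Perm.inv_eq_iff_eq]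
            by_contra hne
            exact hp2 ⟨⟨hpc, hpS⟩, fun h => hne h.symm, Equiv.Perm.apply_mem_support.2 hpS⟩
        exact (Finset.card_le_card hsub2).trans Finset.card_le_two
      have hb2 : (((g.support \ (g.support.erase c)).image x) \ g.support).card ≤ 1 := by
        have h1 : g.support \ g.support.erase c ⊆ {c} := by
          intro p hp
          rw [Finset.mem_sdiff, Finset.mem_erase] at hp
          rw [Finset.mem_singleton]
          by_contra hne
          exact hp.2 ⟨hne, hp.1⟩
        calc (((g.support \ (g.support.erase c)).image x) \ g.support).card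
            ≤ ((g.support \ (g.support.erase c)).image x).card :=
              Finset.card_le_card Finset.sdiff_subset
          _ ≤ (g.support \ g.support.erase c).card := Finset.card_image_le
          _ ≤ ({c} : Finset α).card := Finset.card_le_card h1
          _ = 1 := Finset.card_singleton c
      have := (Finset.card_le_card hsub).trans (Finset.card_union_le _ _)
      omega
  · -- Case B
    have hsk' : k + 1 ≤ s := by omega
    obtain ⟨R, hRS, hRc, hR1⟩ := exists_R g (k - 1) (by omega)
    have hQc : (g.support \ R).card = s - (k - 1) := by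
      rw [Finset.card_sdiff_of_subset hRS, hRc, hsdef]
    by_cases hex : ∃ e ∈ R, g e ∉ R
    · obtain ⟨e, heR, hge⟩ := hex
      have hcS : g e ∈ g.support := Equiv.Perm.apply_mem_support.2 (hRS heR)
      have hcQ : g e ∈ g.support \ R := Finset.mem_sdiff.2 ⟨hcS, hge⟩
      obtain ⟨c', hc'Q, hc'ne⟩ : ∃ c' ∈ g.support \ R, c' ≠ g e :=
        Finset.exists_mem_ne (by omega) (g e)
      have hc'R : c' ∉ R := (Finset.mem_sdiff.1 hc'Q).2
      have hc'S : c' ∈ g.support := (Finset.mem_sdiff.1 hc'Q).1
      obtain ⟨x, hxG, hxfix, hxc⟩ := move_one G hG hkn R (by omega) (g e) c' hge hc'R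
      refine ⟨g⁻¹ * (x * g * x⁻¹),
        G.mul_mem (G.inv_mem hg) (G.mul_mem (G.mul_mem hxG hg) (G.inv_mem hxG)), ?_, ?_⟩
      · intro h1
        have h2 : (g⁻¹ * (x * g * x⁻¹)) e = e := by rw [h1]; rfl
        have h3 : (g⁻¹ * (x * g * x⁻¹)) e = g⁻¹ c' := by
          show g⁻¹ (x (g (x⁻¹ e))) = g⁻¹ c'
          have e1 : x⁻¹ e = e := by rw [Equiv.Perm.inv_eq_iff_eq]; exact (hxfix e heR).symm
          rw [e1, hxc]
        rw [h3, Equiv.Perm.inv_eq_iff_eq] at h2
        exact hc'ne h2
      · have hsub := supp_sub g x R hRS hxfix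
        have hR' : k - 2 ≤ (R.filter (fun p => g p ∈ R)).card := by
          have h1 := Finset.card_filter_add_card_filter_not (s := R) (fun p => g p ∈ R)
          omega
        have hb1 : (g.support \ R.filter (fun p => g p ∈ R)).card ≤ s - k + 2 := by
          rw [Finset.card_sdiff_of_subset ((Finset.filter_subset _ _).trans hRS)]
          omega
        have hb2 : (((g.support \ R).image x) \ g.support).card ≤ s - k := by
          have h1 : ((g.support \ R).image x) \ g.support ⊆
              ((g.support \ R).erase (g e)).image x := by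
            intro p hp
            rw [Finset.mem_sdiff, Finset.mem_image] at hp
            obtain ⟨⟨q, hq, rfl⟩, hp2⟩ := hp
            rw [Finset.mem_image]
            refine ⟨q, Finset.mem_erase.2 ⟨?_, hq⟩, rfl⟩
            intro hqe
            apply hp2
            rw [hqe, hxc]
            exact hc'S
          calc (((g.support \ R).image x) \ g.support).card
              ≤ (((g.support \ R).erase (g e)).image x).card := Finset.card_le_card h1
            _ ≤ ((g.support \ R).erase (g e)).card := Finset.card_image_le
            _ = s - k := by rw [Finset.card_erase_of_mem hcQ, hQc]; omega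
        have := (Finset.card_le_card hsub).trans (Finset.card_union_le _ _)
        omega
    · push Not at hex
      obtain ⟨c, hcQ⟩ : ∃ c, c ∈ g.support \ R := Finset.card_pos.1 (by omega)
      have hcS := (Finset.mem_sdiff.1 hcQ).1
      have hcR := (Finset.mem_sdiff.1 hcQ).2
      have hdR : d ∉ R := fun h => hd (hRS h)
      obtain ⟨x, hxG, hxfix, hxc⟩ := move_one G hG hkn R (by omega) c d hcR hdR
      refine ⟨g⁻¹ * (x * g * x⁻¹),
        G.mul_mem (G.inv_mem hg) (G.mul_mem (G.mul_mem hxG hg) (G.inv_mem hxG)), ?_, ?_⟩
      · intro h1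
        have h2 : (g⁻¹ * (x * g * x⁻¹)) d = d := by rw [h1]; rfl
        have h3 : (g⁻¹ * (x * g * x⁻¹)) d = g⁻¹ (x (g c)) := by
          show g⁻¹ (x (g (x⁻¹ d))) = g⁻¹ (x (g c))
          have e1 : x⁻¹ d = c := by rw [Equiv.Perm.inv_eq_iff_eq]; exact hxc.symm
          rw [e1]
        rw [h3, Equiv.Perm.inv_eq_iff_eq, Equiv.Perm.notMem_support.1 hd] at h2
        have h4 : x (g c) = x c := h2.trans hxc.symm
        exact (Equiv.Perm.mem_support.1 hcS) (x.injective h4)
      · have hsub := supp_sub g x R hRS hxfix
        have hfil : R.filter (fun p => g p ∈ R) = R := Finset.filter_true_of_mem hex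
        have hb1 : (g.support \ R.filter (fun p => g p ∈ R)).card = s - (k - 1) := by
          rw [hfil]; exact hQc
        have hb2 : (((g.support \ R).image x) \ g.support).card ≤ s - (k - 1) := by
          calc (((g.support \ R).image x) \ g.support).card
              ≤ ((g.support \ R).image x).card := Finset.card_le_card Finset.sdiff_subset
            _ ≤ (g.support \ R).card := Finset.card_image_le
            _ = s - (k - 1) := hQc
        have := (Finset.card_le_card hsub).trans (Finset.card_union_le _ _)
        omega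

/-- A `k`-transitive permutation group (`k ≥ 3`) with a non-identity element of support smaller than `2k - 2` contains a non-identity element of support at most 3, and therefore contains the alternating group. -/
theorem result {α : Type*} [Fintype α] [DecidableEq α] (G : Subgroup (Equiv.Perm α)) {k : ℕ} (hk : 3 ≤ k) (hkn : k ≤ Fintype.card α) (hG : MulAction.IsMultiplyPretransitive G α k) (g : Equiv.Perm α) (hg : g ∈ G) (hg1 : g ≠ 1) (hsupp : g.support.card < 2 * k - 2) : (∃ h : Equiv.Perm α, h ∈ G ∧ h ≠ 1 ∧ h.support.card ≤ 3) ∧ alternatingGroup α ≤ G := by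
  classical
  have main : ∀ s : ℕ, ∀ g : Equiv.Perm α, g ∈ G → g ≠ 1 → g.support.card = s → s ≤ 2 * k - 3 →
      (∃ d, d ∉ g.support) → ∃ h : Equiv.Perm α, h ∈ G ∧ h ≠ 1 ∧ h.support.card ≤ 3 := by
    intro s
    induction s using Nat.strong_induction_on with
    | _ s ih =>
      intro g hg hg1 hgs hs hd
      by_cases h3 : s ≤ 3
      · exact ⟨g, hg, hg1, by omega⟩
      · obtain ⟨d, hd⟩ := hd
        obtain ⟨h, hh, hh1, hhs⟩ := reduce G hk hkn hG g hg (by omega) (by omega) d hd
        have hlt : h.support.card < Fintype.card α :=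
          lt_of_lt_of_le hhs (Finset.card_le_univ _)
        exact ih h.support.card (by omega) h hh hh1 rfl (by omega) (exists_notMem _ hlt)
  have hex : ∃ h : Equiv.Perm α, h ∈ G ∧ h ≠ 1 ∧ h.support.card ≤ 3 := by
    by_cases hfull : ∃ d, d ∉ g.support
    · exact main _ g hg hg1 rfl (by omega) hfull
    · push Not at hfull
      have hn : Fintype.card α ≤ 2 * k - 3 := by
        have h1 : g.support = Finset.univ := Finset.eq_univ_iff_forall.2 hfull
        rw [h1, Finset.card_univ] at hsupp
        omega
      obtain ⟨a, b, c, hab, hac, hbc⟩ := Fintype.two_lt_card_iff.1 (by omega : 2 < Fintype.card α)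
      obtain ⟨g', hg'G, hg'fix, hg'b⟩ := move_one G hG hkn {a}
        (by rw [Finset.card_singleton]; omega) b c
        (by rw [Finset.mem_singleton]; exact hab.symm)
        (by rw [Finset.mem_singleton]; exact hac.symm)
      have hg'1 : g' ≠ 1 := by
        intro h
        rw [h] at hg'b
        exact hbc hg'b
      have ha : a ∉ g'.support :=
        Equiv.Perm.notMem_support.2 (hg'fix a (Finset.mem_singleton_self a))
      have hcard : g'.support.card ≤ Fintype.card α - 1 := by
        have h1 : g'.support ⊆ Finset.univ.erase a :=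
          fun p hp => Finset.mem_erase.2 ⟨fun h => ha (h ▸ hp), Finset.mem_univ _⟩
        have h2 := Finset.card_le_card h1
        rw [Finset.card_erase_of_mem (Finset.mem_univ a), Finset.card_univ] at h2
        exact h2
      exact main _ g' hg'G hg'1 rfl (by omega) ⟨a, ha⟩
  refine ⟨hex, ?_⟩
  obtain ⟨h, hh, hh1, hhs⟩ := hex
  haveI := hG
  have h2 : MulAction.IsMultiplyPretransitive G α 2 :=
    MulAction.isMultiplyPretransitive_of_le (n := k) (by omega)
      (by rw [Nat.card_eq_fintype_card]; exact hkn)
  have hprim : MulAction.IsPreprimitive G α := MulAction.isPreprimitive_of_is_two_pretransitive h2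
  have hc0 : h.support.card ≠ 0 := fun h0 => hh1 (Equiv.Perm.card_support_eq_zero.1 h0)
  have hc1 := Equiv.Perm.card_support_ne_one h
  have hc : h.support.card = 2 ∨ h.support.card = 3 := by omega
  rcases hc with hc | hc
  · have htop := Equiv.Perm.subgroup_eq_top_of_isPreprimitive_of_isSwap_mem hprim h
      (Equiv.Perm.card_support_eq_two.1 hc) hh
    rw [htop]
    exact le_top
  · exact Equiv.Perm.alternatingGroup_le_of_isPreprimitive_of_isThreeCycle_mem hprim
      (card_support_eq_three_iff.1 hc) hh

end Cfsg.Agent.S0711
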