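import Mathlib
import Cfsg.Statements.S0712

set_option autoImplicit false
open Cfsg

namespace Cfsg.Agent.S0712

open MulAction SubMulAction

universe u

theorem jordan_aux (m : ℕ) : ∀ {G α : Type u} [Group G] [MulAction G α] [Finite α]
    (_hG : IsPreprimitive G α) (s : Set α) (_hsm : s.ncard = m) (_hm : m + 2 ≤ Nat.card α)
    (_h2 : IsMultiplyPretransitive (fixingSubgroup G s) (ofFixingSubgroup G s) 2),
    IsMultiplyPretransitive G α (m + 2) := by
  induction m with
  | zero =>
    intro G α _ _ _ hG s hsm hm h2
    have hs : s = ∅ := by
      rwa [Set.ncard_eq_zero] at hsm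
    subst hs
    exact (IsPretransitive.of_embedding_congr
      (of_fixingSubgroupEmpty_mapScalars_surjective (M := G) (α := α))
      (ofFixingSubgroupEmpty_equivariantMap_bijective (M := G) (α := α))).mp h2
  | succ m ih =>
    intro G α _ _ _ hG s hsm hm h2
    have hne : s.Nonempty := by
      rw [← Set.ncard_pos, hsm]; exact Nat.succ_pos m
    obtain ⟨a, ha⟩ := hne
    have hprim : IsPreprimitive (fixingSubgroup G s) (ofFixingSubgroup G s) :=
      isPreprimitive_of_is_two_pretransitive h2
    have h2prim : IsMultiplyPreprimitive G α 2 :=
      hG.is_two_preprimitive hsm (by omega) hprim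
    have hpt : IsPretransitive G α := hG.toIsPretransitive
    have ht_prim : IsPreprimitive (stabilizer G a) (SubMulAction.ofStabilizer G a) := by
      rw [← is_one_preprimitive_iff]
      rw [← isMultiplyPreprimitive_succ_iff_ofStabilizer]
      · exact h2prim
      · norm_num
    obtain ⟨t, hst⟩ : ∃ t : Set (SubMulAction.ofStabilizer G a), s = insert a (Subtype.val '' t) := by
      refine ⟨Subtype.val ⁻¹' s, ?_⟩
      ext x
      by_cases hx : x = a <;> simp [hx, mem_ofStabilizer_iff, ha]
    subst hst
    have ha' : a ∉ Subtype.val '' t := by
      intro h; rw [Set.mem_image] at h; obtain ⟨x, hx⟩ := h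
      apply x.prop; rw [hx.right]; exact Set.mem_singleton a
    have h2' : IsMultiplyPretransitive (fixingSubgroup (stabilizer G a) t)
        (ofFixingSubgroup (stabilizer G a) t) 2 :=
      (IsPretransitive.of_embedding_congr (fixingSubgroupInsertEquiv a t).surjective
        ofFixingSubgroup_insert_map_bijective).mp h2
    have htm : t.ncard = m := by
      rw [← Set.ncard_image_of_injective t Subtype.val_injective]
      apply Nat.add_right_cancel
      rw [← Set.ncard_insert_of_notMem ha', hsm]
    have hcard : m + 2 ≤ Nat.card (SubMulAction.ofStabilizer G a) := by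
      have := nat_card_ofStabilizer_add_one_eq G a
      omega
    have key := ih ht_prim t htm hcard h2'
    exact ofStabilizer.isMultiplyPretransitive.mpr key

/-- Jordan: a primitive group in which the pointwise stabiliser of a set `s` is doubly transitive on the complement of `s` (which has at least 2 points) is `(|s| + 2)`-transitive. -/
theorem result {α : Type*} [Fintype α] [DecidableEq α] (G : Subgroup (Equiv.Perm α)) (hG : MulAction.IsPreprimitive G α) (s : Set α) {m : ℕ} (hsm : s.ncard = m) (hm : m + 2 ≤ Fintype.card α) (h2 : MulAction.IsMultiplyPretransitive (fixingSubgroup G s) (SubMulAction.ofFixingSubgroup G s) 2) : MulAction.IsMultiplyPretransitive G α (m + 2) := by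
  apply jordan_aux m hG s hsm _ h2
  rw [Nat.card_eq_fintype_card]
  exact hm

end Cfsg.Agent.S0712
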