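import Mathlib
import Cfsg.Statements.S0713

set_option autoImplicit false
open Cfsg

namespace Cfsg.Agent.S0713

open Equiv MulAction

section
variable {α : Type*} [Fintype α] [DecidableEq α]

/-- The subgroup of `G` fixing pointwise the fixed points of `g`. -/
def Lsub (G : Subgroup (Perm α)) (g : Perm α) : Subgroup (Perm α) where
  carrier := {x | x ∈ G ∧ ∀ y, g y = y → x y = y}
  mul_mem' := by
    rintro a b ⟨ha, ha'⟩ ⟨hb, hb'⟩
    refine ⟨G.mul_mem ha hb, fun y hy => ?_⟩
    rw [Perm.mul_apply, hb' y hy, ha' y hy]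
  one_mem' := ⟨G.one_mem, fun y _ => rfl⟩
  inv_mem' := by
    rintro a ⟨ha, ha'⟩
    refine ⟨G.inv_mem ha, fun y hy => ?_⟩
    rw [Perm.inv_eq_iff_eq]
    exact (ha' y hy).symm

/-- Restriction to the support of `g`. -/
def resHom (G : Subgroup (Perm α)) (g : Perm α) : Lsub G g →* Perm {y // g y ≠ y} where
  toFun x := Perm.subtypePerm (x : Perm α) (by
    intro y
    obtain ⟨_, hx⟩ := x.2
    constructor
    · intro h1 h2
      exact h1 (by rw [hx y h2]; exact h2)
    · intro h1 h2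
      have h3 := hx _ h2
      have h4 : (x : Perm α) y = y := (x : Perm α).injective h3
      rw [h4] at h2
      exact h1 h2)
  map_one' := by ext; rfl
  map_mul' x y := by ext; rfl

theorem resHom_injective (G : Subgroup (Perm α)) (g : Perm α) :
    Function.Injective (resHom G g) := by
  rw [injective_iff_map_eq_one]
  intro x hx
  apply Subtype.ext
  ext y
  by_cases hy : g y = y
  · exact x.2.2 y hy
  · have := congrArg (fun f => (f ⟨y, hy⟩ : α)) hx
    simpa [resHom] using this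

theorem card_Lsub_dvd (G : Subgroup (Perm α)) (g : Perm α) :
    Nat.card (Lsub G g) ∣ (g.support.card).factorial := by
  have h := Subgroup.card_dvd_of_injective (resHom G g) (resHom_injective G g)
  rw [Nat.card_perm] at h
  have : Nat.card {y // g y ≠ y} = g.support.card := by
    rw [Nat.card_eq_fintype_card, Fintype.card_subtype]
    rfl
  rwa [this] at h

theorem sylow_conj (G : Subgroup (Perm α)) {g : Perm α} {p : ℕ} (hp : p.Prime) (hgc : g.IsCycle)
    (hgp : g.support.card = p) (hg : g ∈ G)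
    (g1 : Perm α) (hg1 : g1 ∈ Lsub G g) (ho : orderOf g1 = p) :
    ∃ y ∈ Lsub G g, ∃ j : ℤ, y * g1 * y⁻¹ = g ^ j := by
  have : Fact p.Prime := ⟨hp⟩
  have hgL : g ∈ Lsub G g := ⟨hg, fun y hy => hy⟩
  have hog : orderOf g = p := by rw [hgc.orderOf, hgp]
  have hdvd := card_Lsub_dvd G g
  rw [hgp] at hdvd
  have hfact : (Nat.card (Lsub G g)).factorization p = 1 := by
    have hne : Nat.card (Lsub G g) ≠ 0 := Nat.card_pos.ne'
    have h1 : 1 ≤ (Nat.card (Lsub G g)).factorization p := by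
      rw [← hp.pow_dvd_iff_le_factorization hne, pow_one]
      have : orderOf (⟨g, hgL⟩ : Lsub G g) = p := by rw [Subgroup.orderOf_mk, hog]
      rw [← this]
      exact orderOf_dvd_natCard _
    have h2 : ¬ 2 ≤ (Nat.card (Lsub G g)).factorization p := by
      rw [← hp.pow_dvd_iff_le_factorization hne]
      intro h
      have h3 : p ^ 2 ∣ p.factorial := h.trans hdvd
      obtain ⟨q, rfl⟩ : ∃ q, p = q + 1 := ⟨p - 1, by have := hp.pos; omega⟩
      rw [Nat.factorial_succ, pow_two] at h3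
      have h4 : (q + 1) ∣ q.factorial := Nat.dvd_of_mul_dvd_mul_left (Nat.succ_pos q) h3
      have := (hp.dvd_factorial).mp h4
      omega
    omega
  let P : Sylow p (Lsub G g) := Sylow.ofCard (Subgroup.zpowers (⟨g, hgL⟩ : Lsub G g)) (by
    rw [Nat.card_zpowers, Subgroup.orderOf_mk, hog, hfact, pow_one])
  let Q : Sylow p (Lsub G g) := Sylow.ofCard (Subgroup.zpowers (⟨g1, hg1⟩ : Lsub G g)) (by
    rw [Nat.card_zpowers, Subgroup.orderOf_mk, ho, hfact, pow_one])
  obtain ⟨y, hy⟩ := MulAction.exists_smul_eq (Lsub G g) Q P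
  have hmem : y * ⟨g1, hg1⟩ * y⁻¹ ∈ (P : Subgroup (Lsub G g)) := by
    rw [← hy, Sylow.smul_def, Sylow.pointwise_smul_def]
    have : (⟨g1, hg1⟩ : Lsub G g) ∈ (Q : Subgroup (Lsub G g)) := Subgroup.mem_zpowers _
    have h5 := Subgroup.smul_mem_pointwise_smul _ (MulAut.conj y) _ this
    simpa [MulAut.smul_def] using h5
  change y * ⟨g1, hg1⟩ * y⁻¹ ∈ Subgroup.zpowers (⟨g, hgL⟩ : Lsub G g) at hmem
  obtain ⟨j, hj⟩ := Subgroup.mem_zpowers_iff.mp hmem
  refine ⟨y, y.2, j, ?_⟩
  have := congrArg Subtype.val hj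
  simpa using this.symm

end

/-- Jordan's Theorem: a primitive permutation group of degree `n ≥ 5` containing a `p`-cycle for a prime `p ≤ n - 3` contains the alternating group. -/
theorem result {α : Type*} [Fintype α] [DecidableEq α] (G : Subgroup (Equiv.Perm α)) (hG : MulAction.IsPreprimitive G α) {p : ℕ} (hp : p.Prime) (hn : 5 ≤ Fintype.card α) (hpn : p + 3 ≤ Fintype.card α) {g : Equiv.Perm α} (hgc : g.IsCycle) (hgp : g.support.card = p) (hg : g ∈ G) : alternatingGroup α ≤ G := by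
  classical
  have hog : orderOf g = p := by rw [hgc.orderOf, hgp]
  obtain ⟨m, hm⟩ : ∃ m, Fintype.card α = p + (m + 3) := ⟨Fintype.card α - p - 3, by omega⟩
  -- Step 0: multiple transitivity
  have hsc : Set.ncard ((g.support : Set α)ᶜ) = (m + 2) + 1 := by
    have h1 := Set.ncard_add_ncard_compl (g.support : Set α)
    rw [Set.ncard_coe_finset, hgp, Nat.card_eq_fintype_card, hm] at h1
    omega
  have hprim : IsPreprimitive (fixingSubgroup G ((g.support : Set α)ᶜ))
      (SubMulAction.ofFixingSubgroup G ((g.support : Set α)ᶜ)) := by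
    have := Equiv.Perm.isPretransitive_of_isCycle_mem hgc hg
    apply IsPreprimitive.of_prime_card
    convert! hp
    rw [Nat.card_eq_fintype_card, Fintype.card_subtype, ← hgp]
    apply congr_arg
    ext x
    simp [SubMulAction.mem_ofFixingSubgroup_iff]
  have hmp : IsMultiplyPreprimitive G α (m + 2 + 2) :=
    hG.isMultiplyPreprimitive hsc
      (by rw [Nat.card_eq_fintype_card, hm]; have := hp.two_le; omega) hprim
  have hmt : IsMultiplyPretransitive G α (m + 3) := by
    have := IsMultiplyPreprimitive.isMultiplyPretransitive G α (m + 2 + 2)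
    exact MulAction.isMultiplyPretransitive_of_le (n := m + 2 + 2) (by omega)
      (by rw [Nat.card_eq_fintype_card, hm]; have := hp.two_le; omega)
  -- enumerate the fixed points
  have hcardΓ : Fintype.card {y // g y = y} = m + 3 := by
    have h1 := Fintype.card_subtype_compl (fun y => g y ≠ y)
    have h2 : Fintype.card {y // g y ≠ y} = p := by
      rw [Fintype.card_subtype, ← hgp]
      rfl
    have h3 : Fintype.card {y // ¬ g y ≠ y} = Fintype.card {y // g y = y} :=
      Fintype.card_congr (Equiv.subtypeEquivRight (fun y => not_not))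
    rw [h2, h3, hm] at h1
    omega
  obtain ⟨e⟩ : Nonempty ({y // g y = y} ≃ Fin (m + 3)) := ⟨Fintype.equivFinOfCardEq hcardΓ⟩
  obtain ⟨ι, hιdef⟩ : ∃ ι : Fin (m + 3) ↪ α,
      ι = e.symm.toEmbedding.trans (Function.Embedding.subtype _) := ⟨_, rfl⟩
  have hιe : ∀ y (hy : g y = y), ι (e ⟨y, hy⟩) = y := by
    intro y hy
    rw [hιdef]
    simp
  have hιfix : ∀ i, g (ι i) = ι i := by
    intro i
    rw [hιdef]
    exact (e.symm i).2
  -- normalising elements inducing a given involution on the fixed points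
  have hnorm : ∀ σ : Perm α, (∀ y, σ (σ y) = y) → (∀ y, g y = y → g (σ y) = σ y) →
      ∃ n ∈ G, (∀ y, g y = y → n y = σ y) ∧ ∃ j : ℤ, n * g * n⁻¹ = g ^ j := by
    intro σ hσ2 hσΓ
    obtain ⟨x, hx⟩ := MulAction.exists_smul_eq G ι (ι.trans σ.toEmbedding)
    have hxΓ : ∀ y, g y = y → (x : Perm α) y = σ y := by
      intro y hy
      have := congrArg (fun f => f (e ⟨y, hy⟩)) hx
      simp only [Function.Embedding.smul_apply, Function.Embedding.trans_apply,
        Equiv.coe_toEmbedding, hιe y hy] at this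
      exact this
    have hxinv : ∀ y, g y = y → (x : Perm α)⁻¹ y = σ y := by
      intro y hy
      rw [Perm.inv_eq_iff_eq, hxΓ _ (hσΓ y hy), hσ2]
    obtain ⟨g1, hg1def⟩ : ∃ g1 : Perm α, g1 = (x : Perm α) * g * (x : Perm α)⁻¹ := ⟨_, rfl⟩
    have hg1L : g1 ∈ Lsub G g := by
      refine ⟨?_, fun y hy => ?_⟩
      · rw [hg1def]
        exact G.mul_mem (G.mul_mem x.2 hg) (G.inv_mem x.2)
      · rw [hg1def, Perm.mul_apply, Perm.mul_apply, hxinv y hy, hσΓ y hy, hxΓ _ (hσΓ y hy), hσ2]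
    have ho1 : orderOf g1 = p := by
      rw [← hog]
      symm
      apply SemiconjBy.orderOf_eq (x : Perm α)
      unfold SemiconjBy
      rw [hg1def]
      group
    obtain ⟨y, hyL, j, hj⟩ := sylow_conj G hp hgc hgp hg g1 hg1L ho1
    refine ⟨y * x, G.mul_mem hyL.1 x.2, ?_, j, ?_⟩
    · intro z hz
      rw [Perm.mul_apply, hxΓ z hz, hyL.2 _ (hσΓ z hz)]
    · rw [← hj, hg1def]
      group
  -- three fixed points
  obtain ⟨a, b, c, hab, hac, hbc, ha, hb, hc⟩ : ∃ a b c : α, a ≠ b ∧ a ≠ c ∧ b ≠ c ∧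
      g a = a ∧ g b = b ∧ g c = c := by
    refine ⟨ι ⟨0, by omega⟩, ι ⟨1, by omega⟩, ι ⟨2, by omega⟩, ?_, ?_, ?_,
      hιfix _, hιfix _, hιfix _⟩
    · intro h
      have := ι.injective h
      simp [Fin.ext_iff] at this
    · intro h
      have := ι.injective h
      simp [Fin.ext_iff] at this
    · intro h
      have := ι.injective h
      simp [Fin.ext_iff] at this
  have hswapΓ : ∀ u v : α, g u = u → g v = v → ∀ y, g y = y → g (swap u v y) = swap u v y := by
    intro u v hu hv y hy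
    by_cases h1 : y = u
    · rw [h1, swap_apply_left]; exact hv
    by_cases h2 : y = v
    · rw [h2, swap_apply_right]; exact hu
    · rw [swap_apply_of_ne_of_ne h1 h2]; exact hy
  obtain ⟨n1, hn1G, hn1Γ, j1, hj1⟩ :=
    hnorm (swap a b) (fun y => swap_apply_self a b y) (hswapΓ a b ha hb)
  obtain ⟨n2, hn2G, hn2Γ, j2, hj2⟩ :=
    hnorm (swap a c) (fun y => swap_apply_self a c y) (hswapΓ a c ha hc)
  have hn1inv : ∀ y, g y = y → n1⁻¹ y = swap a b y := by
    intro y hy
    rw [Perm.inv_eq_iff_eq, hn1Γ _ (hswapΓ a b ha hb y hy), swap_apply_self]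
  have hn2inv : ∀ y, g y = y → n2⁻¹ y = swap a c y := by
    intro y hy
    rw [Perm.inv_eq_iff_eq, hn2Γ _ (hswapΓ a c ha hc y hy), swap_apply_self]
  obtain ⟨h, hhdef⟩ : ∃ h : Perm α, h = n1⁻¹ * n2⁻¹ * n1 * n2 := ⟨_, rfl⟩
  have hhG : h ∈ G := by
    rw [hhdef]
    exact G.mul_mem (G.mul_mem (G.mul_mem (G.inv_mem hn1G) (G.inv_mem hn2G)) hn1G) hn2G
  have hcomm : h * g = g * h := by
    have e1 : n1 * n2 * g * (n1 * n2)⁻¹ = g ^ (j1 * j2) := by
      have : n1 * n2 * g * (n1 * n2)⁻¹ = n1 * (n2 * g * n2⁻¹) * n1⁻¹ := by group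
      rw [this, hj2, ← conj_zpow, hj1, ← zpow_mul]
    have e2 : n2 * n1 * g * (n2 * n1)⁻¹ = g ^ (j1 * j2) := by
      have : n2 * n1 * g * (n2 * n1)⁻¹ = n2 * (n1 * g * n1⁻¹) * n2⁻¹ := by group
      rw [this, hj1, ← conj_zpow, hj2, ← zpow_mul, mul_comm]
    have e3 : n1 * n2 * g * (n1 * n2)⁻¹ = n2 * n1 * g * (n2 * n1)⁻¹ := e1.trans e2.symm
    have : h = (n2 * n1)⁻¹ * (n1 * n2) := by rw [hhdef]; group
    rw [this]
    calc (n2 * n1)⁻¹ * (n1 * n2) * g
        = (n2 * n1)⁻¹ * (n1 * n2 * g * (n1 * n2)⁻¹) * (n1 * n2) := by group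
      _ = (n2 * n1)⁻¹ * (n2 * n1 * g * (n2 * n1)⁻¹) * (n1 * n2) := by rw [e3]
      _ = g * ((n2 * n1)⁻¹ * (n1 * n2)) := by group
  have hhΓ : ∀ y, g y = y → h y = (swap a b * swap a c * (swap a b * swap a c)) y := by
    intro y hy
    have h1 := hswapΓ a c ha hc y hy
    have h2 := hswapΓ a b ha hb _ h1
    have h3 := hswapΓ a c ha hc _ h2
    rw [hhdef]
    simp only [Perm.mul_apply]
    rw [hn2Γ y hy, hn1Γ _ h1, hn2inv _ h2, hn1inv _ h3]
  -- h on the support
  obtain ⟨d0, hd0⟩ : ∃ d0, g d0 ≠ d0 := by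
    have : g.support.Nonempty := by rw [← Finset.card_pos, hgp]; exact hp.pos
    obtain ⟨d0, hd0⟩ := this
    exact ⟨d0, Perm.mem_support.mp hd0⟩
  have hhsupp : ∀ y, g y ≠ y → g (h y) ≠ h y := by
    intro y hy hcon
    apply hy
    have : h (g y) = h y := by
      have := congrArg (fun f => f y) hcomm
      simp only [Perm.mul_apply] at this
      rw [this, hcon]
    exact h.injective this
  obtain ⟨i, hi⟩ := hgc.exists_zpow_eq hd0 (hhsupp d0 hd0)
  have hcommz : ∀ j : ℤ, h * g ^ j = g ^ j * h := fun j =>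
    (Commute.zpow_right (show Commute h g from hcomm) j)
  have hhΔ : ∀ y, g y ≠ y → h y = (g ^ i) y := by
    intro y hy
    obtain ⟨j, hj⟩ := hgc.exists_zpow_eq hd0 hy
    rw [← hj]
    have e1 := congrArg (fun f => f d0) (hcommz j)
    simp only [Perm.mul_apply] at e1
    rw [e1, ← hi, ← Perm.mul_apply, ← Perm.mul_apply, ← zpow_add, ← zpow_add, add_comm]
  -- the three-cycle
  obtain ⟨ρ, hρdef⟩ : ∃ ρ : Perm α, ρ = swap a b * swap a c * (swap a b * swap a c) := ⟨_, rfl⟩
  have hρ3 : ρ.IsThreeCycle := by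
    rw [hρdef]
    exact (Equiv.Perm.isThreeCycle_swap_mul_swap_same hab hac hbc).isThreeCycle_sq
  have hteq : (g ^ i)⁻¹ * h = ρ := by
    ext y
    rw [Perm.mul_apply]
    by_cases hy : g y = y
    · rw [hhΓ y hy, Perm.inv_eq_iff_eq]
      have h1 := hswapΓ a c ha hc y hy
      have h2 := hswapΓ a b ha hb _ h1
      have h3 := hswapΓ a c ha hc _ h2
      have h4 := hswapΓ a b ha hb _ h3
      rw [hρdef]
      simp only [Perm.mul_apply]
      exact (Equiv.Perm.zpow_apply_eq_self_of_apply_eq_self h4 i).symm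
    · rw [hhΔ y hy, Perm.inv_eq_iff_eq]
      have hya : y ≠ a := fun h => hy (h ▸ ha)
      have hyb : y ≠ b := fun h => hy (h ▸ hb)
      have hyc : y ≠ c := fun h => hy (h ▸ hc)
      have hρy : ρ y = y := by
        rw [hρdef]
        simp only [Perm.mul_apply]
        rw [swap_apply_of_ne_of_ne hya hyc, swap_apply_of_ne_of_ne hya hyb,
          swap_apply_of_ne_of_ne hya hyc, swap_apply_of_ne_of_ne hya hyb]
      rw [hρy]
  have hρG : ρ ∈ G := by
    rw [← hteq]
    exact G.mul_mem (G.inv_mem (G.zpow_mem hg i)) hhG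
  exact Equiv.Perm.alternatingGroup_le_of_isPreprimitive_of_isThreeCycle_mem hG hρ3 hρG

end Cfsg.Agent.S0713
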