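import Mathlib
import Cfsg.Statements.S0714

set_option autoImplicit false
open Cfsg

namespace Cfsg.Agent.S0714

open Equiv

/-- Over any field, the permutation module of the alternating group of degree at least 5 has exactly four invariant subspaces: zero, the constant functions, the functions with coordinate sum zero, and everything. -/
theorem result {α : Type*} [Fintype α] [DecidableEq α] (hα : 5 ≤ Fintype.card α) {K : Type*} [Field K] (W : Subrepresentation (Cfsg.permRep K (alternatingGroup α) α)) : W.toSubmodule = ⊥ ∨ W = Cfsg.permConstants K (alternatingGroup α) α ∨ W = Cfsg.permSumZero K (alternatingGroup α) α ∨ W.toSubmodule = ⊤ := by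
  classical
  obtain ⟨M, hMdef⟩ : ∃ M : Submodule K (α → K), M = W.toSubmodule := ⟨_, rfl⟩
  -- invariance in a convenient form
  have hinv : ∀ σ : Perm α, σ ∈ alternatingGroup α → ∀ v ∈ M, (fun x => v (σ x)) ∈ M := by
    intro σ hσ v hv
    rw [hMdef] at hv ⊢
    have h := W.apply_mem_toSubmodule (⟨σ, hσ⟩⁻¹ : alternatingGroup α) hv
    have heq : (Cfsg.permRep K (alternatingGroup α) α (⟨σ, hσ⟩⁻¹ : alternatingGroup α)) v
        = fun x => v (σ x) := by
      funext x
      change v ((⟨σ, hσ⟩⁻¹ : alternatingGroup α)⁻¹ • x) = v (σ x)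
      rw [inv_inv]
      rfl
    rw [heq] at h
    exact h
  have hsingle : ∀ (a : α) (σ : Perm α), (fun x => (Pi.single a (1 : K) : α → K) (σ x))
      = Pi.single (σ⁻¹ a) (1 : K) := by
    intro a σ
    funext x
    by_cases h : σ x = a
    · have : x = σ⁻¹ a := by rw [← h]; simp
      rw [h, this]; simp
    · have : x ≠ σ⁻¹ a := by
        intro hx
        apply h
        rw [hx]; simp
      rw [Pi.single_eq_of_ne h, Pi.single_eq_of_ne this]
  -- the basic vectors
  have h2t : MulAction.IsMultiplyPretransitive (alternatingGroup α) α 2 := by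
    have := alternatingGroup.isMultiplyPretransitive α
    have h2 : 2 ≤ Nat.card α - 2 := by rw [Nat.card_eq_fintype_card]; omega
    exact MulAction.isMultiplyPretransitive_of_le h2 (Nat.sub_le _ _)
  have hall : (∃ x d : α, x ≠ d ∧ (Pi.single x (1 : K) - Pi.single d (1 : K) : α → K) ∈ M) →
      ∀ y z : α, (Pi.single y (1 : K) - Pi.single z (1 : K) : α → K) ∈ M := by
    rintro ⟨x, d, hxd, hmem⟩ y z
    by_cases hyz : y = z
    · rw [hyz, sub_self]; exact M.zero_mem
    obtain ⟨g, hgx, hgd⟩ := (MulAction.is_two_pretransitive_iff.mp h2t) hxd hyz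
    have h := hinv ((g : Perm α)⁻¹) (inv_mem g.2) _ hmem
    have heq : (fun t => (Pi.single x (1 : K) - Pi.single d (1 : K) : α → K) ((g : Perm α)⁻¹ t))
        = Pi.single y (1 : K) - Pi.single z (1 : K) := by
      have h1 := hsingle x ((g : Perm α)⁻¹)
      have h2 := hsingle d ((g : Perm α)⁻¹)
      rw [inv_inv] at h1 h2
      have hgx' : (g : Perm α) x = y := hgx
      have hgd' : (g : Perm α) d = z := hgd
      rw [hgx'] at h1
      rw [hgd'] at h2
      rw [← h1, ← h2]
      rfl
    rw [heq] at h
    exact h
  have hsz : (∀ y z : α, (Pi.single y (1 : K) - Pi.single z (1 : K) : α → K) ∈ M) →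
      ∀ f : α → K, ∑ x, f x = 0 → f ∈ M := by
    intro hyz f hf
    obtain ⟨x0⟩ : Nonempty α := by
      rw [← Fintype.card_pos_iff]; omega
    have hdecomp : f = ∑ x, f x • (Pi.single x (1 : K) - Pi.single x0 (1 : K) : α → K) := by
      funext t
      simp only [Finset.sum_apply, Pi.smul_apply, Pi.sub_apply, smul_eq_mul, mul_sub,
        Finset.sum_sub_distrib, ← Finset.sum_mul, hf, zero_mul, sub_zero]
      simp [Pi.single_apply]
    rw [hdecomp]
    exact M.sum_mem (fun x _ => M.smul_mem _ (hyz x x0))
  -- main case distinction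
  by_cases hconst : ∀ w ∈ M, ∀ a b : α, w a = w b
  · -- M consists of constant functions
    by_cases hbot : M = ⊥
    · left; rw [← hMdef]; exact hbot
    · right; left
      apply Subrepresentation.toSubmodule_injective
      rw [← hMdef]
      change M = Submodule.span K {fun _ => 1}
      obtain ⟨w, hw, hw0⟩ := (Submodule.ne_bot_iff M).mp hbot
      obtain ⟨a, ha⟩ : ∃ a, w a ≠ 0 := by
        by_contra hcon
        push Not at hcon
        exact hw0 (funext hcon)
      have hwc : w = w a • (fun _ => (1 : K)) := by
        funext t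
        simp [hconst w hw t a]
      apply le_antisymm
      · intro v hv
        rw [Submodule.mem_span_singleton]
        obtain ⟨x0⟩ : Nonempty α := ⟨a⟩
        refine ⟨v x0, ?_⟩
        funext t
        simp [hconst v hv t x0]
      · rw [Submodule.span_singleton_le_iff_mem]
        have : (fun _ => (1 : K)) = (w a)⁻¹ • w := by
          funext t
          simp [hconst w hw t a, ha]
        rw [this]
        exact M.smul_mem _ hw
  · push Not at hconst
    obtain ⟨w, hw, a, b, hab⟩ := hconst
    have hab' : a ≠ b := fun h => hab (by rw [h])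
    right; right
    -- pick c, d, e
    obtain ⟨c, -, hc⟩ := Finset.exists_mem_notMem_of_card_lt_card
      (s := ({a, b} : Finset α)) (t := Finset.univ) (by
        have := Finset.card_le_two (a := a) (b := b)
        rw [Finset.card_univ]; omega)
    obtain ⟨d, -, hd⟩ := Finset.exists_mem_notMem_of_card_lt_card
      (s := ({a, b, c} : Finset α)) (t := Finset.univ) (by
        have := Finset.card_le_three (a := a) (b := b) (c := c)
        rw [Finset.card_univ]; omega)
    obtain ⟨e, -, he⟩ := Finset.exists_mem_notMem_of_card_lt_card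
      (s := ({a, b, c, d} : Finset α)) (t := Finset.univ) (by
        have := Finset.card_le_four (a := a) (b := b) (c := c) (d := d)
        rw [Finset.card_univ]; omega)
    simp only [Finset.mem_insert, Finset.mem_singleton, not_or] at hc hd he
    obtain ⟨hca, hcb⟩ := hc
    obtain ⟨hda, hdb, hdc⟩ := hd
    obtain ⟨hea, heb, hec, hed⟩ := he
    -- σ = swap a b * swap a c : a ↦ c, c ↦ b, b ↦ a
    have hσmem : swap a b * swap a c ∈ alternatingGroup α :=
      (Equiv.Perm.isThreeCycle_swap_mul_swap_same hab' (Ne.symm hca) (Ne.symm hcb)).mem_alternatingGroup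
    have hu := M.sub_mem hw (hinv _ hσmem w hw)
    obtain ⟨u, hudef⟩ : ∃ u : α → K, u = w - fun x => w ((swap a b * swap a c) x) := ⟨_, rfl⟩
    rw [← hudef] at hu
    have hub : u b ≠ 0 := by
      rw [hudef]
      simp only [Pi.sub_apply, Perm.mul_apply]
      rw [swap_apply_of_ne_of_ne (Ne.symm hab') (Ne.symm hcb), swap_apply_right]
      exact sub_ne_zero.mpr (Ne.symm hab)
    have hud : u d = 0 := by
      rw [hudef]
      simp only [Pi.sub_apply, Perm.mul_apply]
      rw [swap_apply_of_ne_of_ne hda hdc, swap_apply_of_ne_of_ne hda hdb, sub_self]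
    have hue : u e = 0 := by
      rw [hudef]
      simp only [Pi.sub_apply, Perm.mul_apply]
      rw [swap_apply_of_ne_of_ne hea hec, swap_apply_of_ne_of_ne hea heb, sub_self]
    -- τ = swap b d * swap b e : b ↦ e, e ↦ d, d ↦ b
    have hτmem : swap b d * swap b e ∈ alternatingGroup α :=
      (Equiv.Perm.isThreeCycle_swap_mul_swap_same (Ne.symm hdb) (Ne.symm heb) (Ne.symm hed)).mem_alternatingGroup
    have hu' := M.sub_mem hu (hinv _ hτmem u hu)
    have hu'eq : (u - fun x => u ((swap b d * swap b e) x))
        = u b • (Pi.single b (1 : K) - Pi.single d (1 : K) : α → K) := by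
      funext t
      simp only [Pi.sub_apply, Perm.mul_apply, Pi.smul_apply, smul_eq_mul]
      by_cases htb : t = b
      · subst htb
        rw [swap_apply_left, swap_apply_of_ne_of_ne heb hed, hue]
        simp [Ne.symm hdb]
      by_cases htd : t = d
      · subst htd
        rw [swap_apply_of_ne_of_ne hdb (Ne.symm hed), swap_apply_right, hud]
        simp [hdb]
      by_cases hte : t = e
      · subst hte
        rw [swap_apply_right, swap_apply_left, hud, hue]
        simp [heb, hed]
      · rw [swap_apply_of_ne_of_ne htb hte, swap_apply_of_ne_of_ne htb htd]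
        simp [htb, htd]
    rw [hu'eq] at hu'
    have hbd : (Pi.single b (1 : K) - Pi.single d (1 : K) : α → K) ∈ M := by
      have := M.smul_mem (u b)⁻¹ hu'
      rwa [smul_smul, inv_mul_cancel₀ hub, one_smul] at this
    have hSZ := hsz (hall ⟨b, d, Ne.symm hdb, hbd⟩)
    by_cases hsum : ∀ w ∈ M, ∑ x, w x = 0
    · left
      apply Subrepresentation.toSubmodule_injective
      rw [← hMdef]
      apply le_antisymm
      · intro v hv
        exact hsum v hv
      · intro v hv
        exact hSZ v hv
    · right
      push Not at hsum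
      obtain ⟨w1, hw1, hs⟩ := hsum
      rw [← hMdef, Submodule.eq_top_iff']
      intro v
      have h1 : v - ((∑ x, v x) / (∑ x, w1 x)) • w1 ∈ M := by
        apply hSZ
        simp only [Pi.sub_apply, Pi.smul_apply, smul_eq_mul, Finset.sum_sub_distrib,
          ← Finset.mul_sum]
        field_simp
        ring
      have h2 := M.add_mem h1 (M.smul_mem ((∑ x, v x) / (∑ x, w1 x)) hw1)
      simpa using h2

end Cfsg.Agent.S0714
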