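import Cfsg.Statements.S0716
import Mathlib
import Cfsg.Agent.Helper2.Hecke2

set_option autoImplicit false
open Cfsg

namespace Cfsg.Agent.S0716

open Cfsg.Agent.Helper2

/-- (a) If all non-principal irreducible constituents of the permutation character of a transitive group have the same degree `f`, the character is multiplicity-free and all non-trivial subdegrees equal `f`. (b) A transitive group of rank at most 5 has multiplicity-free permutation character. -/
theorem result {G : Type*} [Group G] [Fintype G] {Ω : Type*} [Fintype Ω] [MulAction G Ω] [MulAction.IsPretransitive G Ω] (a : Ω) : ((f : ℕ) → (∀ χ : G → ℂ, Cfsg.IsIrrCharacter G χ → χ ≠ (fun _ => 1) → Cfsg.classInner (fun g : G => (Nat.card (MulAction.fixedBy Ω g) : ℂ)) χ ≠ 0 → χ 1 = f) → (∀ χ : G → ℂ, Cfsg.IsIrrCharacter G χ → Cfsg.classInner (fun g : G => (Nat.card (MulAction.fixedBy Ω g) : ℂ)) χ = 0 ∨ Cfsg.classInner (fun g : G => (Nat.card (MulAction.fixedBy Ω g) : ℂ)) χ = 1) ∧ ∀ b : Ω, b ≠ a → Nat.card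 (MulAction.orbit (MulAction.stabilizer G a) b) = f) ∧ (Nat.card (MulAction.orbitRel.Quotient (MulAction.stabilizer G a) Ω) ≤ 5 → ∀ χ : G → ℂ, Cfsg.IsIrrCharacter G χ → Cfsg.classInner (fun g : G => (Nat.card (MulAction.fixedBy Ω g) : ℂ)) χ = 0 ∨ Cfsg.classInner (fun g : G => (Nat.card (MulAction.fixedBy Ω g) : ℂ)) χ = 1) := by
  classical
  have hmex : ∀ χ : Cfsg.IrrCharacter G, ∃ m : ℕ,
      Cfsg.classInner (fun g : G => (Nat.card (MulAction.fixedBy Ω g) : ℂ)) (χ : G → ℂ) = (m : ℂ) :=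
    fun χ => classInner_char_nat (isCharacter_permChar (G := G) Ω)
      (Cfsg.Agent.Helper25.irr_isCharacter χ)
  choose m hm using hmex
  obtain ⟨t, ht⟩ : ∃ t, t = Cfsg.Agent.Helper25.trivChar G := ⟨_, rfl⟩
  have hmt : m t = 1 := by
    have := permChar_inner_triv (G := G) a
    rw [← ht, hm t] at this
    exact_mod_cast this
  obtain ⟨d, hd⟩ : ∃ d : Cfsg.IrrCharacter G → ℕ,
      d = fun χ : Cfsg.IrrCharacter G => Cfsg.charDegree (χ : G → ℂ) := ⟨_, rfl⟩
  have hdeg : ∀ χ : Cfsg.IrrCharacter G, (χ : G → ℂ) 1 = (d χ : ℂ) := fun χ => by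
    rw [hd]; exact Cfsg.Agent.Helper25.irr_one_eq_degree χ
  have hdt : d t = 1 := by
    have h := hdeg (Cfsg.Agent.Helper25.trivChar G)
    rw [Cfsg.Agent.Helper25.trivChar_apply] at h
    rw [ht]
    exact_mod_cast h.symm
  have hdpos : ∀ χ, 0 < d χ := fun χ => by
    rw [hd]; exact Cfsg.Agent.Helper25.irr_degree_pos χ
  have hsq := permChar_sum_sq a m hm
  have hsd : ∑ χ : Cfsg.IrrCharacter G, m χ * d χ = Fintype.card Ω := by
    have h1 := permChar_sum_deg (G := G) (Ω := Ω)
    have h2 : ∀ χ : Cfsg.IrrCharacter G,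
        Cfsg.classInner (fun g : G => (Nat.card (MulAction.fixedBy Ω g) : ℂ)) (χ : G → ℂ)
          * (χ : G → ℂ) 1 = ((m χ * d χ : ℕ) : ℂ) := by
      intro χ
      rw [hm χ, hdeg χ]
      push_cast
      ring
    rw [Finset.sum_congr rfl (fun χ _ => h2 χ), ← Nat.cast_sum] at h1
    exact_mod_cast h1
  have hsq' : 1 + ∑ χ ∈ Finset.univ.erase t, (m χ) ^ 2
      = Nat.card (MulAction.orbitRel.Quotient (MulAction.stabilizer G a) Ω) := by
    rw [← hsq, ← Finset.add_sum_erase Finset.univ _ (Finset.mem_univ t), hmt]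
    norm_num
  have hsd' : 1 + ∑ χ ∈ Finset.univ.erase t, m χ * d χ = Fintype.card Ω := by
    rw [← hsd, ← Finset.add_sum_erase Finset.univ _ (Finset.mem_univ t), hmt, hdt]
  haveI : Finite (MulAction.orbitRel.Quotient (MulAction.stabilizer G a) Ω) :=
    Finite.of_surjective
      (Quotient.mk'' : Ω → MulAction.orbitRel.Quotient (MulAction.stabilizer G a) Ω)
      Quotient.mk''_surjective
  haveI : Fintype (MulAction.orbitRel.Quotient (MulAction.stabilizer G a) Ω) := Fintype.ofFinite _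
  obtain ⟨q₀, hq₀⟩ : ∃ q₀ : MulAction.orbitRel.Quotient (MulAction.stabilizer G a) Ω,
      q₀ = Quotient.mk'' a := ⟨_, rfl⟩
  have horb := card_eq_sum_card_orbits (Ω := Ω) (MulAction.stabilizer G a)
  have horb' : 1 + ∑ q ∈ Finset.univ.erase q₀, Nat.card q.orbit = Fintype.card Ω := by
    rw [horb, ← Finset.add_sum_erase Finset.univ _ (Finset.mem_univ q₀), hq₀, card_orbit_self]
  have hcardQ : (Finset.univ.erase q₀).card + 1
      = Nat.card (MulAction.orbitRel.Quotient (MulAction.stabilizer G a) Ω) := by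
    rw [Finset.card_erase_of_mem (Finset.mem_univ _), Finset.card_univ, Nat.card_eq_fintype_card]
    have : 0 < Fintype.card (MulAction.orbitRel.Quotient (MulAction.stabilizer G a) Ω) :=
      Fintype.card_pos_iff.mpr ⟨q₀⟩
    omega
  have mult_free_of : (∀ χ : Cfsg.IrrCharacter G, m χ ≤ 1) → ∀ χ : G → ℂ,
      Cfsg.IsIrrCharacter G χ →
      Cfsg.classInner (fun g : G => (Nat.card (MulAction.fixedBy Ω g) : ℂ)) χ = 0 ∨
      Cfsg.classInner (fun g : G => (Nat.card (MulAction.fixedBy Ω g) : ℂ)) χ = 1 := by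
    intro h χ hχ
    have h1 : Cfsg.classInner (fun g : G => (Nat.card (MulAction.fixedBy Ω g) : ℂ)) χ
        = (m ⟨χ, hχ⟩ : ℂ) := hm ⟨χ, hχ⟩
    have h2 := h ⟨χ, hχ⟩
    rcases Nat.le_one_iff_eq_zero_or_eq_one.mp h2 with h3 | h3
    · left; rw [h1, h3]; simp
    · right; rw [h1, h3]; simp
  have hle : ∀ χ ∈ Finset.univ.erase t, m χ ≤ (m χ) ^ 2 := fun χ _ =>
    Nat.le_self_pow (by norm_num) _
  constructor
  · intro f hf
    have hf' : ∀ χ : G → ℂ, Cfsg.IsIrrCharacter G χ → χ ≠ (fun _ => 1) →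
        Cfsg.classInner (fun g : G => (Nat.card (MulAction.fixedBy Ω g) : ℂ)) χ ≠ 0 →
        ∃ m' : ℕ, χ 1 = (f : ℂ) * m' :=
      fun χ h1 h2 h3 => ⟨1, by rw [hf χ h1 h2 h3]; simp⟩
    have hn : ∀ q ∈ Finset.univ.erase q₀, f ≤ Nat.card q.orbit := by
      intro q hq
      obtain ⟨h1, h2⟩ := orbit_dvd f hf' a q (hq₀ ▸ Finset.ne_of_mem_erase hq)
      exact Nat.le_of_dvd h2 h1
    have hdf : ∀ χ ∈ Finset.univ.erase t, m χ * d χ = m χ * f := by
      intro χ hχ
      by_cases h0 : m χ = 0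
      · rw [h0]; simp
      · have hne : (χ : G → ℂ) ≠ fun _ => 1 := by
          intro h
          apply Finset.ne_of_mem_erase hχ
          rw [ht]
          apply Subtype.ext
          rw [h]
          rfl
        have hin : Cfsg.classInner (fun g : G => (Nat.card (MulAction.fixedBy Ω g) : ℂ))
            (χ : G → ℂ) ≠ 0 := by
          rw [hm χ]
          exact_mod_cast h0
        have h1 := hf χ.1 χ.2 hne hin
        rw [hdeg χ] at h1
        have h2 : d χ = f := by exact_mod_cast h1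
        rw [h2]
    rw [Finset.sum_congr rfl hdf, ← Finset.sum_mul] at hsd'
    have h1 : (Finset.univ.erase q₀).card * f ≤ ∑ q ∈ Finset.univ.erase q₀, Nat.card q.orbit := by
      rw [← smul_eq_mul, ← Finset.sum_const]
      exact Finset.sum_le_sum hn
    have hM : ∑ χ ∈ Finset.univ.erase t, m χ ≤ ∑ χ ∈ Finset.univ.erase t, (m χ) ^ 2 :=
      Finset.sum_le_sum hle
    have hr : (Finset.univ.erase q₀).card = ∑ χ ∈ Finset.univ.erase t, (m χ) ^ 2 := by omega
    by_cases hf0 : f = 0
    · subst hf0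
      have hΩ1 : Fintype.card Ω = 1 := by rw [← hsd']; simp
      have hsum0 : ∑ q ∈ Finset.univ.erase q₀, Nat.card q.orbit = 0 := by omega
      have hempty : Finset.univ.erase q₀ = ∅ := by
        by_contra hne
        obtain ⟨q, hq⟩ := Finset.nonempty_iff_ne_empty.mpr hne
        have h2 := (orbit_dvd 0 hf' a q (hq₀ ▸ Finset.ne_of_mem_erase hq)).2
        have h3 := Finset.sum_eq_zero_iff.mp hsum0 q hq
        omega
      have hm0 : ∀ χ ∈ Finset.univ.erase t, (m χ) ^ 2 = 0 := by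
        have h4 : ∑ χ ∈ Finset.univ.erase t, (m χ) ^ 2 = 0 := by
          rw [← hr, hempty]; simp
        exact Finset.sum_eq_zero_iff.mp h4
      refine ⟨mult_free_of (fun χ => ?_), ?_⟩
      · by_cases hχ : χ = t
        · rw [hχ, hmt]
        · have h5 := hm0 χ (Finset.mem_erase.mpr ⟨hχ, Finset.mem_univ _⟩)
          have h6 : m χ = 0 := by simpa using h5
          omega
      · intro b hb
        exfalso
        exact hb (Fintype.card_le_one_iff.mp hΩ1.le b a)
    · have hfpos : 0 < f := Nat.pos_of_ne_zero hf0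
      have h2 : (∑ χ ∈ Finset.univ.erase t, (m χ) ^ 2) * f
          ≤ (∑ χ ∈ Finset.univ.erase t, m χ) * f := by
        rw [← hr]; linarith
      have h3 : ∑ χ ∈ Finset.univ.erase t, (m χ) ^ 2 ≤ ∑ χ ∈ Finset.univ.erase t, m χ :=
        Nat.le_of_mul_le_mul_right h2 hfpos
      have h4 : ∑ χ ∈ Finset.univ.erase t, m χ = ∑ χ ∈ Finset.univ.erase t, (m χ) ^ 2 :=
        le_antisymm hM h3
      have h5 : ∀ χ ∈ Finset.univ.erase t, m χ = (m χ) ^ 2 :=
        (Finset.sum_eq_sum_iff_of_le hle).mp h4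
      refine ⟨mult_free_of (fun χ => ?_), ?_⟩
      · by_cases hχ : χ = t
        · rw [hχ, hmt]
        · have h6 := h5 χ (Finset.mem_erase.mpr ⟨hχ, Finset.mem_univ _⟩)
          by_contra hgt
          push_neg at hgt
          nlinarith
      · have h6 : ∑ q ∈ Finset.univ.erase q₀, f = ∑ q ∈ Finset.univ.erase q₀, Nat.card q.orbit := by
          rw [Finset.sum_const, smul_eq_mul, hr, ← h4]; linarith
        have h7 := (Finset.sum_eq_sum_iff_of_le hn).mp h6
        intro b hb
        have hq : (Quotient.mk'' b : MulAction.orbitRel.Quotient (MulAction.stabilizer G a) Ω)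
            ∈ Finset.univ.erase q₀ := by
          rw [Finset.mem_erase]
          refine ⟨?_, Finset.mem_univ _⟩
          rw [hq₀]
          intro h
          have h8 := Quotient.exact' h
          rw [MulAction.orbitRel_apply, MulAction.mem_orbit_iff] at h8
          obtain ⟨⟨x, hx⟩, hx2⟩ := h8
          apply hb
          rw [← hx2]
          exact MulAction.mem_stabilizer_iff.mp hx
        have h9 := h7 _ hq
        rw [MulAction.orbitRel.Quotient.orbit_mk] at h9
        exact h9.symm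
  · intro hr5
    apply mult_free_of
    intro χ₁
    by_contra hgt
    push_neg at hgt
    have hχ₁t : χ₁ ≠ t := by
      rintro rfl
      omega
    have hs4 : ∑ χ ∈ Finset.univ.erase t, (m χ) ^ 2 ≤ 4 := by omega
    have hmem : χ₁ ∈ Finset.univ.erase t := Finset.mem_erase.mpr ⟨hχ₁t, Finset.mem_univ _⟩
    have hsplit := Finset.add_sum_erase (Finset.univ.erase t) (fun χ => (m χ) ^ 2) hmem
    beta_reduce at hsplit
    have hm2 : m χ₁ = 2 := by nlinarith [Nat.zero_le (∑ χ ∈ (Finset.univ.erase t).erase χ₁, (m χ) ^ 2)]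
    have hothers : ∑ χ ∈ (Finset.univ.erase t).erase χ₁, (m χ) ^ 2 = 0 := by
      rw [hm2] at hsplit
      omega
    have hzero : ∀ χ, χ ≠ t → χ ≠ χ₁ → m χ = 0 := by
      intro χ h1 h2
      have h3 := Finset.sum_eq_zero_iff.mp hothers χ
        (Finset.mem_erase.mpr ⟨h2, Finset.mem_erase.mpr ⟨h1, Finset.mem_univ _⟩⟩)
      simpa using h3
    have hf' : ∀ χ : G → ℂ, Cfsg.IsIrrCharacter G χ → χ ≠ (fun _ => 1) →
        Cfsg.classInner (fun g : G => (Nat.card (MulAction.fixedBy Ω g) : ℂ)) χ ≠ 0 →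
        ∃ m' : ℕ, χ 1 = ((d χ₁ : ℕ) : ℂ) * m' := by
      intro χ hχ hne hin
      have h1 : (⟨χ, hχ⟩ : Cfsg.IrrCharacter G) ≠ t := by
        intro h
        apply hne
        rw [ht] at h
        exact congrArg Subtype.val h
      have h2 : (⟨χ, hχ⟩ : Cfsg.IrrCharacter G) = χ₁ := by
        by_contra h
        have h3 := hzero _ h1 h
        apply hin
        have h4 : Cfsg.classInner (fun g : G => (Nat.card (MulAction.fixedBy Ω g) : ℂ)) χ
            = (m ⟨χ, hχ⟩ : ℂ) := hm ⟨χ, hχ⟩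
        rw [h4, h3]
        simp
      refine ⟨1, ?_⟩
      have h5 : χ 1 = (χ₁ : G → ℂ) 1 := by rw [← h2]
      rw [h5, hdeg χ₁]
      simp
    have hn : ∀ q ∈ Finset.univ.erase q₀, d χ₁ ≤ Nat.card q.orbit := by
      intro q hq
      obtain ⟨h1, h2⟩ := orbit_dvd (d χ₁) hf' a q (hq₀ ▸ Finset.ne_of_mem_erase hq)
      exact Nat.le_of_dvd h2 h1
    have h1 : (Finset.univ.erase q₀).card * d χ₁
        ≤ ∑ q ∈ Finset.univ.erase q₀, Nat.card q.orbit := by
      rw [← smul_eq_mul, ← Finset.sum_const]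
      exact Finset.sum_le_sum hn
    have hsd2 : ∑ χ ∈ Finset.univ.erase t, m χ * d χ = 2 * d χ₁ := by
      rw [← Finset.add_sum_erase (Finset.univ.erase t) _ hmem, hm2, Finset.sum_eq_zero, add_zero]
      intro χ hχ
      rw [hzero χ (Finset.ne_of_mem_erase (Finset.mem_of_mem_erase hχ))
        (Finset.ne_of_mem_erase hχ), zero_mul]
    have h4 : (Finset.univ.erase q₀).card = 4 := by
      rw [hm2] at hsplit
      omega
    have h5 := hdpos χ₁
    rw [h4] at h1
    omega

end Cfsg.Agent.S0716
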