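import Mathlib
import Cfsg.Statements.S0717
import Cfsg.Agent.Helper14.Commutant2

set_option autoImplicit false
open Cfsg

namespace Cfsg.Agent.S0717


open Cfsg.Agent Cfsg.Agent.Helper14
open scoped ComplexConjugate

section Aux
variable {G : Type*} [Group G] [Fintype G] {Ω : Type*} [Fintype Ω] [MulAction G Ω]

theorem rho_single [DecidableEq Ω] (g : G) (y : Ω) :
    permRep ℂ G Ω g (Pi.single y 1) = Pi.single (g • y) 1 := by
  funext x
  show (Pi.single y (1:ℂ) : Ω → ℂ) (g⁻¹ • x) = _
  rw [Pi.single_apply, Pi.single_apply]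
  have : g⁻¹ • x = y ↔ x = g • y := by rw [inv_smul_eq_iff]
  simp only [this]

theorem ent_inv [DecidableEq Ω] (S : (Ω → ℂ) →ₗ[ℂ] (Ω → ℂ))
    (hS : ∀ g : G, S ∘ₗ permRep ℂ G Ω g = permRep ℂ G Ω g ∘ₗ S) (g : G) (x y : Ω) :
    S (Pi.single (g • y) 1) (g • x) = S (Pi.single y 1) x := by
  rw [← rho_single, ← LinearMap.comp_apply, hS g]
  show S (Pi.single y 1) (g⁻¹ • g • x) = _
  rw [inv_smul_smul]

theorem avg_ent [DecidableEq Ω] (c : G → ℂ) (x y : Ω) :
    Comm.avg (permRep ℂ G Ω) c (Pi.single y 1) x = ∑ g : G, if g • y = x then c g else 0 := by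
  rw [Comm.avg_apply, Finset.sum_apply]
  apply Finset.sum_congr rfl
  intro g _
  rw [Pi.smul_apply, rho_single, Pi.single_apply, smul_eq_mul]
  by_cases h : g • y = x
  · rw [if_pos h, if_pos h.symm, mul_one]
  · rw [if_neg h, if_neg (fun h' => h h'.symm), mul_zero]

theorem avg_symm [DecidableEq Ω] (c : G → ℂ) (hc : ∀ g, c g⁻¹ = c g) (x y : Ω) :
    Comm.avg (permRep ℂ G Ω) c (Pi.single y 1) x =
      Comm.avg (permRep ℂ G Ω) c (Pi.single x 1) y := by
  rw [avg_ent, avg_ent]
  apply Fintype.sum_equiv (Equiv.inv G)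
  intro g
  simp only [Equiv.inv_apply, hc]
  have : g • y = x ↔ g⁻¹ • x = y := by rw [inv_smul_eq_iff, eq_comm]
  simp only [this]

theorem avg_antisymm [DecidableEq Ω] (c : G → ℂ) (hc : ∀ g, c g⁻¹ = - c g) (x y : Ω) :
    Comm.avg (permRep ℂ G Ω) c (Pi.single y 1) x =
      - Comm.avg (permRep ℂ G Ω) c (Pi.single x 1) y := by
  rw [avg_ent, avg_ent, ← Finset.sum_neg_distrib]
  apply Fintype.sum_equiv (Equiv.inv G)
  intro g
  simp only [Equiv.inv_apply, hc]
  have : g • y = x ↔ g⁻¹ • x = y := by rw [inv_smul_eq_iff, eq_comm]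
  simp only [this]
  split_ifs <;> simp

theorem toMatrix'_ent [DecidableEq Ω] (S : (Ω → ℂ) →ₗ[ℂ] (Ω → ℂ)) (x y : Ω) :
    LinearMap.toMatrix' S x y = S (Pi.single y 1) x := by
  rw [LinearMap.toMatrix'_apply]

end Aux


/-- All suborbits of a transitive group are self-paired (every pair of points is interchanged by some group element) if and only if the permutation character is multiplicity-free and each of its irreducible constituents is real-valued. -/
theorem result {G : Type*} [Group G] [Fintype G] {Ω : Type*} [Fintype Ω] [MulAction G Ω] [MulAction.IsPretransitive G Ω] : (∀ a b : Ω, ∃ g : G, g • a = b ∧ g • b = a) ↔ ∀ χ : G → ℂ, Cfsg.IsIrrCharacter G χ → Cfsg.classInner (fun g : G => (Nat.card (MulAction.fixedBy Ω g) : ℂ)) χ ≠ 0 → Cfsg.classInner (fun g : G => (Nat.card (MulAction.fixedBy Ω g) : ℂ)) χ = 1 ∧ ∀ g : G, (starRingEnd ℂ) (χ g) = χ g := by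

  classical
  have hπ : (fun g : G => (Nat.card (MulAction.fixedBy Ω g) : ℂ)) = (permRep ℂ G Ω).character :=
    funext (fun g => (Comm.permRep_character g).symm)
  rw [hπ]
  constructor
  · intro hgen
    have hsym : ∀ S : (Ω → ℂ) →ₗ[ℂ] (Ω → ℂ),
        (∀ g : G, S ∘ₗ permRep ℂ G Ω g = permRep ℂ G Ω g ∘ₗ S) →
        ∀ x y, S (Pi.single y 1) x = S (Pi.single x 1) y := by
      intro S hS x y
      obtain ⟨g, h1, h2⟩ := hgen x y
      have := ent_inv S hS g x y
      rw [h1, h2] at this
      exact this.symm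
    have hcomm : ∀ S T : (Ω → ℂ) →ₗ[ℂ] (Ω → ℂ),
        S ∈ ((permRep ℂ G Ω).linHom (permRep ℂ G Ω)).invariants →
        T ∈ ((permRep ℂ G Ω).linHom (permRep ℂ G Ω)).invariants → S ∘ₗ T = T ∘ₗ S := by
      intro S T hS hT
      rw [Comm.mem_invariants_iff] at hS hT
      have hST : ∀ g : G, (S ∘ₗ T) ∘ₗ permRep ℂ G Ω g = permRep ℂ G Ω g ∘ₗ (S ∘ₗ T) := by
        intro g
        rw [LinearMap.comp_assoc, hT g, ← LinearMap.comp_assoc, hS g, LinearMap.comp_assoc]
      have mtr : ∀ U : (Ω → ℂ) →ₗ[ℂ] (Ω → ℂ),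
          (∀ g : G, U ∘ₗ permRep ℂ G Ω g = permRep ℂ G Ω g ∘ₗ U) →
          Matrix.transpose (LinearMap.toMatrix' U) = LinearMap.toMatrix' U := by
        intro U hU
        ext x y
        rw [Matrix.transpose_apply, toMatrix'_ent, toMatrix'_ent]
        exact hsym U hU y x
      apply LinearMap.toMatrix'.injective
      rw [LinearMap.toMatrix'_comp, LinearMap.toMatrix'_comp]
      have h3 := mtr _ hST
      rw [LinearMap.toMatrix'_comp, Matrix.transpose_mul, mtr S hS, mtr T hT] at h3
      exact h3.symm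
    have hmf := (Comm.mult_free_iff (permRep ℂ G Ω)).mpr hcomm
    intro χ hχ hne
    have h1 : classInner (permRep ℂ G Ω).character χ = 1 := (hmf χ hχ).resolve_left hne
    refine ⟨h1, ?_⟩
    have hχc : IsCharacter G χ := Helper2.isCharacter_of_isIrrCharacter hχ
    have hirrbar := Helper2.isIrrCharacter_conj hχ
    obtain ⟨n, σ, hσ, hσχ⟩ := id hχ
    haveI := hσ
    have hfin : Module.finrank ℂ (Representation.IntertwiningMap σ (permRep ℂ G Ω)) = 1 := by
      have := Helper2.classInner_char_char_finrank (permRep ℂ G Ω) σ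
      rw [hσχ, h1] at this
      exact_mod_cast this.symm
    obtain ⟨α, hα⟩ := Module.finrank_pos_iff_exists_ne_zero.mp
      (by omega : 0 < Module.finrank ℂ (Representation.IntertwiningMap σ (permRep ℂ G Ω)))
    have hinj : Function.Injective α :=
      (Representation.IsIrreducible.injective_or_eq_zero α).resolve_right hα
    let c : G → ℂ := fun g => conj (χ g) - χ g
    have hcl : IsClassFunction G c := by
      intro g h
      show conj (χ _) - χ _ = conj (χ g) - χ g
      rw [Helper2.isClassFunction_of_isCharacter hχc g h]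
    have hcinv : ∀ g, c g⁻¹ = - c g := by
      intro g
      show conj (χ g⁻¹) - χ g⁻¹ = -(conj (χ g) - χ g)
      rw [Helper25.char_inv hχc g, Complex.conj_conj]
      ring
    have hD : Comm.avg (permRep ℂ G Ω) c = 0 := by
      apply LinearMap.toMatrix'.injective
      ext x y
      rw [toMatrix'_ent, map_zero, Matrix.zero_apply]
      have e1 := hsym _ (Comm.avg_comm (permRep ℂ G Ω) hcl) x y
      have e2 := avg_antisymm c hcinv x y
      rw [← e1] at e2
      linear_combination (1/2 : ℂ) * e2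
    have hσ0 : Comm.avg σ c = 0 := by
      apply LinearMap.ext
      intro w
      apply hinj
      rw [← Comm.avg_intertwine, hD]
      simp
    have htr := Comm.avg_trace σ c
    rw [hσ0, map_zero, hσχ] at htr
    have hself : classInner χ χ = 1 := Helper1.classInner_irr_self ⟨χ, hχ⟩
    have hbar := Helper2.classInner_irr_irr ⟨χ, hχ⟩ ⟨fun g => conj (χ g), hirrbar⟩
    by_cases heq : (⟨χ, hχ⟩ : IrrCharacter G) = ⟨fun g => conj (χ g), hirrbar⟩
    · intro g
      have := congrFun (congrArg Subtype.val heq) g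
      exact this.symm
    · exfalso
      rw [if_neg heq] at hbar
      unfold classInner at hself hbar
      simp only [Complex.conj_conj] at hbar
      have hsum : ∑ g : G, c g * χ g = ∑ g : G, χ g * conj (χ g) - ∑ g : G, χ g * χ g := by
        rw [← Finset.sum_sub_distrib]
        apply Finset.sum_congr rfl
        intro g _
        show (conj (χ g) - χ g) * χ g = _
        ring
      rw [hsum] at htr
      have hG : (Nat.card G : ℂ) ≠ 0 := by exact_mod_cast Nat.card_pos.ne'
      have h5 : (Nat.card G : ℂ)⁻¹ * (∑ g : G, χ g * conj (χ g) - ∑ g : G, χ g * χ g) = 1 := by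
        rw [mul_sub, hself, hbar, sub_zero]
      rw [← htr, mul_zero] at h5
      exact zero_ne_one h5
  · intro hyp a b
    have hm : ∀ χ : IrrCharacter G, classInner (permRep ℂ G Ω).character (χ : G → ℂ) = 0 ∨
        classInner (permRep ℂ G Ω).character (χ : G → ℂ) = 1 := by
      intro χ
      by_cases h : classInner (permRep ℂ G Ω).character (χ : G → ℂ) = 0
      · exact Or.inl h
      · exact Or.inr (hyp χ.1 χ.2 h).1
    let M : Matrix Ω Ω ℂ := fun x y => if ∃ g : G, g • a = x ∧ g • b = y then 1 else 0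
    have hMinv : ∀ (g : G) (x y : Ω), M (g • x) (g • y) = M x y := by
      intro g x y
      show (if _ then _ else _) = (if _ then _ else _)
      have : (∃ k : G, k • a = g • x ∧ k • b = g • y) ↔ (∃ k : G, k • a = x ∧ k • b = y) := by
        constructor
        · rintro ⟨k, h1, h2⟩
          refine ⟨g⁻¹ * k, ?_, ?_⟩
          · rw [mul_smul, h1, inv_smul_smul]
          · rw [mul_smul, h2, inv_smul_smul]
        · rintro ⟨k, h1, h2⟩
          refine ⟨g * k, ?_, ?_⟩
          · rw [mul_smul, h1]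
          · rw [mul_smul, h2]
      simp only [this]
    have hA : ∀ g : G, Matrix.toLin' M ∘ₗ permRep ℂ G Ω g = permRep ℂ G Ω g ∘ₗ Matrix.toLin' M := by
      intro g
      apply LinearMap.ext
      intro f
      funext x
      show (Matrix.toLin' M (permRep ℂ G Ω g f)) x = (Matrix.toLin' M f) (g⁻¹ • x)
      rw [Matrix.toLin'_apply, Matrix.toLin'_apply, Matrix.mulVec, Matrix.mulVec, dotProduct,
        dotProduct]
      apply Fintype.sum_equiv (MulAction.toPerm g⁻¹)
      intro y
      show M x y * f (g⁻¹ • y) = M (g⁻¹ • x) (g⁻¹ • y) * f (g⁻¹ • y)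
      rw [hMinv]
    obtain ⟨d, hd⟩ := Comm.span_avg (permRep ℂ G Ω) hm ⟨Matrix.toLin' M, hA⟩
    have hd' : Matrix.toLin' M =
        ∑ i, d i • Comm.avg (permRep ℂ G Ω) (fun g => conj ((i.1 : G → ℂ) g)) := hd
    have hsymA : ∀ x y, Matrix.toLin' M (Pi.single y 1) x = Matrix.toLin' M (Pi.single x 1) y := by
      intro x y
      rw [hd']
      simp only [LinearMap.sum_apply, LinearMap.smul_apply, Finset.sum_apply, Pi.smul_apply]
      apply Finset.sum_congr rfl
      intro i _
      congr 1
      apply avg_symm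
      intro g
      have hreal := (hyp i.1.1 i.1.2 (by rw [i.2]; exact one_ne_zero)).2
      show conj ((i.1 : G → ℂ) g⁻¹) = conj ((i.1 : G → ℂ) g)
      rw [Helper25.char_inv (Helper2.isCharacter_of_isIrrCharacter i.1.2) g, Complex.conj_conj,
        hreal g]
    have hent : ∀ x y, Matrix.toLin' M (Pi.single y 1) x = M x y := by
      intro x y
      rw [Matrix.toLin'_apply, Matrix.mulVec_single_one]
      rfl
    have h1 : M a b = 1 := if_pos ⟨1, one_smul _ _, one_smul _ _⟩
    have h2 : M b a = 1 := by rw [← hent, ← hsymA, hent, h1]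
    by_contra hno
    have h3 : M b a = 0 := if_neg hno
    rw [h3] at h2
    exact zero_ne_one h2

end Cfsg.Agent.S0717
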