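import Cfsg.Statements.S0719
import Mathlib
import Cfsg.Agent.Helper2.Hecke3

set_option autoImplicit false
open Cfsg

namespace Cfsg.Agent.S0719

open Cfsg.Agent.Helper2

/-- Groups of Wielandt type: if a primitive group of degree `2m` has rank 3 and permutation character `1 + χ₁ + χ₂` with irreducible `χ₁, χ₂` of degrees `m - 1` and `m`, then `m = 2a² + 2a + 1` for some positive integer `a` and the two non-trivial subdegrees are `a(2a+1)` and `(a+1)(2a+1)`. -/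
theorem result {G : Type*} [Group G] [Fintype G] {Ω : Type*} [Fintype Ω] [MulAction G Ω] (hprim : MulAction.IsPreprimitive G Ω) {m : ℕ} (hm : Fintype.card Ω = 2 * m) (a₀ : Ω) (hrank : Nat.card (MulAction.orbitRel.Quotient (MulAction.stabilizer G a₀) Ω) = 3) (χ₁ χ₂ : G → ℂ) (h₁ : Cfsg.IsIrrCharacter G χ₁) (h₂ : Cfsg.IsIrrCharacter G χ₂) (hπ : (fun g : G => (Nat.card (MulAction.fixedBy Ω g) : ℂ)) = fun g => 1 + χ₁ g + χ₂ g) (hd₁ : χ₁ 1 = (m : ℂ) - 1) (hd₂ : χ₂ 1 = m) : ∃ a : ℕ, 0 < a ∧ m = 2 * a ^ 2 + 2 * a + 1 ∧ ∀ b : Ω, b ≠ a₀ → Nat.card (MulAction.orbit (MulAction.stabilizer G a₀) b) = a * (2 * a + 1) ∨ Nat.card (MulAction.orbit (MulAction.stabilizer G a₀) b) = (a + 1) * (2 * a + 1) := by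
  classical
  have haux := wielandt_type_aux hprim hm a₀ hrank χ₁ χ₂ h₁ h₂ hπ hd₁ hd₂
  have hm1 : 1 ≤ m := by
    by_contra hcon
    have hm0 : m = 0 := by omega
    rw [hm0, Nat.mul_zero] at hm
    exact (Fintype.card_eq_zero_iff.mp hm).false a₀
  have hex : ∃ b : Ω, b ≠ a₀ := by
    by_contra hcon
    push_neg at hcon
    have h1 : Fintype.card Ω ≤ 1 := Fintype.card_le_one_iff.mpr (fun x y => by rw [hcon x, hcon y])
    omega
  obtain ⟨b₀, hb₀⟩ := hex
  obtain ⟨a, ha, hma, -⟩ := haux b₀ hb₀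
  refine ⟨a, ha, hma, ?_⟩
  intro b hb
  obtain ⟨a', ha', hma', hk⟩ := haux b hb
  have haa : a' = a := by
    rw [hma] at hma'
    nlinarith
  rw [haa] at hk
  rw [card_orbit_stabilizer_eq]
  exact hk

end Cfsg.Agent.S0719
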