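import Mathlib
import Cfsg.Statements.S0724

set_option autoImplicit false
open Cfsg

namespace Cfsg.Agent.S0724

theorem burnside_pow {α : Type*} [Fintype α] [DecidableEq α] (G : Subgroup (Equiv.Perm α))
    [Fintype G] (j : ℕ) :
    (Nat.card G : ℤ) ∣
      ∑ g : G, ((Nat.card (MulAction.fixedBy α (g : Equiv.Perm α)) : ℕ) : ℤ) ^ j := by
  classical
  have : Fintype (Quotient (MulAction.orbitRel G (Fin j → α))) := Fintype.ofFinite _
  have : ∀ g : G, Fintype (MulAction.fixedBy (Fin j → α) g) := fun g => Fintype.ofFinite _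
  have hB := MulAction.sum_card_fixedBy_eq_card_orbits_mul_card_group G (Fin j → α)
  have hcard : ∀ g : G, Fintype.card (MulAction.fixedBy (Fin j → α) g) =
      (Nat.card (MulAction.fixedBy α (g : Equiv.Perm α))) ^ j := by
    intro g
    rw [← Nat.card_eq_fintype_card]
    have e : MulAction.fixedBy (Fin j → α) g ≃ (Fin j → MulAction.fixedBy α (g : Equiv.Perm α)) :=
      { toFun := fun f i => ⟨f.1 i, congrFun f.2 i⟩
        invFun := fun h => ⟨fun i => (h i).1, funext fun i => (h i).2⟩
        left_inv := fun f => rfl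
        right_inv := fun h => rfl }
    rw [Nat.card_congr e, Nat.card_fun, Nat.card_eq_fintype_card (α := Fin j), Fintype.card_fin]
  have hB' : (∑ g : G, ((Nat.card (MulAction.fixedBy α (g : Equiv.Perm α)) : ℕ) : ℤ) ^ j) =
      ((Fintype.card (Quotient (MulAction.orbitRel G (Fin j → α))) * Fintype.card G : ℕ) : ℤ) := by
    rw [← hB, Nat.cast_sum]
    refine Finset.sum_congr rfl fun g _ => ?_
    rw [hcard g, Nat.cast_pow]
  rw [hB', Nat.card_eq_fintype_card]
  exact ⟨(Fintype.card (Quotient (MulAction.orbitRel G (Fin j → α))) : ℤ), by push_cast; ring⟩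

/-- Blichfeldt's Theorem: if a finite set `L` of natural numbers contains the number of fixed points of every non-identity element of a permutation group `G` of degree `n`, then the order of `G` divides `∏ (n - l)` over `l ∈ L`. -/
theorem result {α : Type*} [Fintype α] [DecidableEq α] (G : Subgroup (Equiv.Perm α)) (L : Finset ℕ) (hL : ∀ g ∈ G, g ≠ 1 → Nat.card (MulAction.fixedBy α g) ∈ L) : Nat.card G ∣ ∏ l ∈ L, (Fintype.card α - l) := by
  classical
  by_cases hbig : ∃ l ∈ L, Fintype.card α ≤ l
  · obtain ⟨l, hl, hle⟩ := hbig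
    rw [Finset.prod_eq_zero hl (Nat.sub_eq_zero_of_le hle)]
    exact dvd_zero _
  · push Not at hbig
    let P : Polynomial ℤ := ∏ l ∈ L, (Polynomial.X - Polynomial.C (l : ℤ))
    have hP : ∀ x : ℤ, P.eval x = ∏ l ∈ L, (x - l) := by
      intro x
      simp [P, Polynomial.eval_prod]
    have hsum : (Nat.card G : ℤ) ∣
        ∑ g : G, P.eval ((Nat.card (MulAction.fixedBy α (g : Equiv.Perm α)) : ℕ) : ℤ) := by
      simp_rw [Polynomial.eval_eq_sum_range]
      rw [Finset.sum_comm]
      apply Finset.dvd_sum
      intro i _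
      rw [← Finset.mul_sum]
      exact Dvd.dvd.mul_left (burnside_pow G i) _
    have hval : ∑ g : G, P.eval ((Nat.card (MulAction.fixedBy α (g : Equiv.Perm α)) : ℕ) : ℤ) =
        P.eval (Fintype.card α : ℤ) := by
      rw [Finset.sum_eq_single (1 : G)]
      · congr 2
        rw [← Nat.card_eq_fintype_card (α := α)]
        apply Nat.card_congr
        exact
          { toFun := fun x => x.1
            invFun := fun x => ⟨x, by simp [MulAction.mem_fixedBy]⟩
            left_inv := fun x => rfl
            right_inv := fun x => rfl }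
      · intro g _ hg
        rw [hP]
        have hmem := hL (g : Equiv.Perm α) g.2 (by
          intro h
          apply hg
          exact Subtype.ext h)
        exact Finset.prod_eq_zero hmem (sub_self _)
      · intro h
        exact absurd (Finset.mem_univ _) h
    rw [hval, hP] at hsum
    have hcast : ((∏ l ∈ L, (Fintype.card α - l) : ℕ) : ℤ) = ∏ l ∈ L, ((Fintype.card α : ℤ) - l) := by
      rw [Nat.cast_prod]
      refine Finset.prod_congr rfl fun l hl => ?_
      rw [Nat.cast_sub (hbig l hl).le]
    exact Int.natCast_dvd_natCast.mp (by rw [hcast]; exact hsum)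

end Cfsg.Agent.S0724
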