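import Mathlib
import Cfsg.Statements.S0726

set_option autoImplicit false
open Cfsg

namespace Cfsg.Agent.S0726

theorem mem_cent_iff {G : Type*} [Group G] (c : Equiv.Perm G) :
    c ∈ Subgroup.centralizer ((MulAction.toPermHom G G).range : Set (Equiv.Perm G)) ↔
      ∀ g x : G, c (g * x) = g * c x := by
  constructor
  · intro hc g x
    have h := hc (MulAction.toPermHom G G g) ⟨g, rfl⟩
    have := congrArg (fun σ : Equiv.Perm G => σ x) h
    simpa using this.symm
  · intro h σ hσ
    obtain ⟨g, rfl⟩ := hσ
    ext x
    simpa using (h g x).symm

theorem cent_eq {G : Type*} [Group G] :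
    Subgroup.centralizer ((MulAction.toPermHom G G).range : Set (Equiv.Perm G)) =
      (MulAction.toPermHom Gᵐᵒᵖ G).range := by
  ext c
  rw [mem_cent_iff]
  constructor
  · intro h
    refine ⟨MulOpposite.op (c 1), ?_⟩
    ext x
    have := h x 1
    rw [mul_one] at this
    simp [this]
  · rintro ⟨a, rfl⟩ g x
    simp [mul_assoc]

/-- The left and right regular permutation representations of a group are each other's centralisers in the symmetric group: the centraliser of the left regular image is the right regular image, and a transitive subgroup centralising the left regular image is the whole right regular image. -/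
theorem result {G : Type*} [Group G] : Subgroup.centralizer ((MulAction.toPermHom G G).range : Set (Equiv.Perm G)) = (MulAction.toPermHom Gᵐᵒᵖ G).range ∧ ∀ H : Subgroup (Equiv.Perm G), H ≤ Subgroup.centralizer ((MulAction.toPermHom G G).range : Set (Equiv.Perm G)) → MulAction.IsPretransitive H G → H = (MulAction.toPermHom Gᵐᵒᵖ G).range := by
  refine ⟨cent_eq, ?_⟩
  intro H hH htrans
  apply le_antisymm
  · rw [← cent_eq]; exact hH
  · rintro _ ⟨a, rfl⟩
    obtain ⟨h, hh⟩ := htrans.exists_smul_eq (1 : G) (MulOpposite.unop a)
    have hcent := (mem_cent_iff (h : Equiv.Perm G)).mp (hH h.2)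
    have heq : (h : Equiv.Perm G) = MulAction.toPermHom Gᵐᵒᵖ G a := by
      ext x
      have h1 := hcent x 1
      rw [mul_one] at h1
      have h2 : (h : Equiv.Perm G) 1 = MulOpposite.unop a := hh
      rw [h1, h2]
      simp
    rw [← heq]
    exact h.2

end Cfsg.Agent.S0726
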