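import Mathlib
import Cfsg.Statements.S0727
import Cfsg.Agent.Helper18.Sharp3Perm
-- import your own Cfsg.Agent.* helpers here

set_option autoImplicit false
open Cfsg

namespace Cfsg.Agent.S0727

/-- A sharply triply transitive permutation group of degree `2^f + 1` is isomorphic to the projective general linear group of degree 2 over the field with `2^f` elements. -/
theorem result {α : Type*} [Fintype α] [DecidableEq α] {f : ℕ} (hf : 1 ≤ f) (hα : Fintype.card α = 2 ^ f + 1) (G : Subgroup (Equiv.Perm α)) (h3 : MulAction.IsMultiplyPretransitive G α 3) (hsharp : ∀ x : Fin 3 ↪ α, MulAction.stabilizer G x = ⊥) : ∃ (F : Type) (_ : Field F) (_ : Fintype F), Fintype.card F = 2 ^ f ∧ Nonempty (G ≃* Matrix.ProjGenLinGroup (Fin 2) F) := by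
  classical
  have hpow : 1 < 2 ^ f := Nat.one_lt_two_pow (by omega)
  have hm : 3 ≤ Fintype.card α := by rw [hα]; omega
  have hodd : Odd (Fintype.card α) := by
    rw [hα]
    exact Even.add_one (Nat.even_pow.mpr ⟨even_two, by omega⟩)
  have hsharp' : ∀ g : G, ∀ a b c : α, a ≠ b → a ≠ c → b ≠ c → g • a = a → g • b = b →
      g • c = c → g = 1 := by
    intro g a b c hab hac hbc ha hb hc
    obtain ⟨x, hx0, hx1, hx2⟩ := Cfsg.Agent.Helper18.exists_emb3 a b c hab hac hbc
    have hmem : g ∈ MulAction.stabilizer G x := by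
      rw [MulAction.mem_stabilizer_iff]
      ext i
      show g • x i = x i
      match i with
      | 0 => rw [hx0]; exact ha
      | 1 => rw [hx1]; exact hb
      | 2 => rw [hx2]; exact hc
    rw [hsharp x, Subgroup.mem_bot] at hmem
    exact hmem
  obtain ⟨a, ha, hcard, F, hF, hFt, hcF, h2, ⟨iso⟩⟩ :=
    Cfsg.Agent.Helper18.sharp3_perm hm hodd G h3 hsharp'
  have haf : a = f := by
    rw [hα] at hcard
    exact (Nat.pow_right_injective (le_refl 2) (Nat.add_right_cancel hcard)).symm
  rw [haf] at hcF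
  have hcenter : Subgroup.center (Matrix.SpecialLinearGroup (Fin 2) F) = ⊥ := by
    rw [eq_bot_iff]
    intro A hA
    rw [Matrix.SpecialLinearGroup.mem_center_iff] at hA
    obtain ⟨r, hr, hrA⟩ := hA
    rw [Subgroup.mem_bot]
    rw [Fintype.card_fin] at hr
    have hr2 : (r - 1) ^ 2 = 0 := by linear_combination hr + (1 - r) * h2
    have hr1 : r = 1 := by
      have := (pow_eq_zero_iff (by norm_num)).mp hr2
      linear_combination this
    apply Subtype.ext
    rw [← hrA, hr1]
    simp
  have hinj : Function.Injective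
      (Matrix.SpecialLinearGroup.toPGL : Matrix.SpecialLinearGroup (Fin 2) F →* _) := by
    rw [← MonoidHom.ker_eq_bot_iff, Matrix.SpecialLinearGroup.toPGL_ker, hcenter]
  have hsurj : Function.Surjective
      (Matrix.SpecialLinearGroup.toPGL : Matrix.SpecialLinearGroup (Fin 2) F →* _) := by
    intro g
    have hroots : ∀ r : Fˣ, ∃ k : Fˣ, k ^ Fintype.card (Fin 2) = r := by
      intro r
      obtain ⟨b, hb⟩ := Cfsg.Agent.Helper18.exists_sq_of_two_eq_zero h2 (r : F)
      have hb0 : b ≠ 0 := by
        rintro rfl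
        rw [mul_zero] at hb
        exact r.ne_zero hb.symm
      refine ⟨Units.mk0 b hb0, ?_⟩
      apply Units.ext
      rw [Fintype.card_fin, Units.val_pow_eq_pow_val, Units.val_mk0, pow_two]
      exact hb
    obtain ⟨x, hx⟩ := Matrix.ProjectiveSpecialLinearGroup.toPGL_surj_of_roots hroots g
    obtain ⟨A, rfl⟩ := QuotientGroup.mk_surjective x
    exact ⟨A, hx⟩
  exact ⟨F, hF, hFt, hcF, ⟨iso.trans (MulEquiv.ofBijective _ ⟨hinj, hsurj⟩)⟩⟩

end Cfsg.Agent.S0727
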