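import Cfsg.Statements.S0728
import Mathlib
import Cfsg.Agent.Helper18.Sharp3Perm

set_option autoImplicit false
open Cfsg

namespace Cfsg.Agent.S0728

/-- In a sharply triply transitive group of even degree at least 6 (degree `q + 1`, `q` odd), a two-point stabiliser has at most one subgroup of order 3. -/
theorem result {α : Type*} [Fintype α] [DecidableEq α] (heven : Even (Fintype.card α)) (h6 : 6 ≤ Fintype.card α) (G : Subgroup (Equiv.Perm α)) (h3 : MulAction.IsMultiplyPretransitive G α 3) (hsharp : ∀ x : Fin 3 ↪ α, MulAction.stabilizer G x = ⊥) {a b : α} (hab : a ≠ b) (A B : Subgroup G) (hA : A ≤ MulAction.stabilizer G a ⊓ MulAction.stabilizer G b) (hB : B ≤ MulAction.stabilizer G a ⊓ MulAction.stabilizer G b) (hA3 : Nat.card A = 3) (hB3 : Nat.card B = 3) : A = B := by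
  classical
  have : Fintype G := Fintype.ofFinite G
  have h3t : ∀ a b c a' b' c' : α, a ≠ b → a ≠ c → b ≠ c → a' ≠ b' → a' ≠ c' → b' ≠ c' →
      ∃ g : G, g • a = a' ∧ g • b = b' ∧ g • c = c' := by
    rw [MulAction.isMultiplyPretransitive_iff] at h3
    intro a b c a' b' c' hab hac hbc hab' hac' hbc'
    obtain ⟨x, hx0, hx1, hx2⟩ := Cfsg.Agent.Helper18.exists_emb3 a b c hab hac hbc
    obtain ⟨y, hy0, hy1, hy2⟩ := Cfsg.Agent.Helper18.exists_emb3 a' b' c' hab' hac' hbc'
    obtain ⟨g, hg⟩ := h3 x y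
    refine ⟨g, ?_, ?_, ?_⟩
    · rw [← hx0, ← hy0, ← hg]; rfl
    · rw [← hx1, ← hy1, ← hg]; rfl
    · rw [← hx2, ← hy2, ← hg]; rfl
  have h3s : ∀ g : G, ∀ a b c : α, a ≠ b → a ≠ c → b ≠ c → g • a = a → g • b = b →
      g • c = c → g = 1 := by
    intro g a b c hab hac hbc ha hb hc
    obtain ⟨x, hx0, hx1, hx2⟩ := Cfsg.Agent.Helper18.exists_emb3 a b c hab hac hbc
    have hmem : g ∈ MulAction.stabilizer G x := by
      rw [MulAction.mem_stabilizer_iff]
      ext i
      show g • x i = x i
      match i with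
      | 0 => rw [hx0]; exact ha
      | 1 => rw [hx1]; exact hb
      | 2 => rw [hx2]; exact hc
    rw [hsharp x, Subgroup.mem_bot] at hmem
    exact hmem
  -- a non-identity element has at most two fixed points
  have hfix : ∀ y : G, y ≠ 1 → (Finset.univ.filter (fun p : α => y • p = p)).card ≤ 2 := by
    intro y hy
    by_contra hcon
    have h2 : 2 < (Finset.univ.filter (fun p : α => y • p = p)).card := by omega
    obtain ⟨p, q, r, hp, hq, hr, hpq, hpr, hqr⟩ := Finset.two_lt_card_iff.mp h2
    simp only [Finset.mem_filter, Finset.mem_univ, true_and] at hp hq hr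
    exact hy (h3s y p q r hpq hpr hqr hp hq hr)
  have hmoved : ∀ y : G, y ≠ 1 →
      Fintype.card α - 2 ≤ (Finset.univ.filter (fun p : α => ¬ (y • p = p))).card := by
    intro y hy
    have h1 := Finset.card_filter_add_card_filter_not (s := (Finset.univ : Finset α))
      (fun p : α => y • p = p)
    have h2 := hfix y hy
    rw [Finset.card_univ] at h1
    omega
  have hthird : ∀ c d : α, ∃ e : α, e ≠ c ∧ e ≠ d := by
    intro c d
    by_contra hcon
    have h1 : (Finset.univ : Finset α) ⊆ {c, d} := by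
      intro e _
      by_contra he
      simp only [Finset.mem_insert, Finset.mem_singleton, not_or] at he
      exact hcon ⟨e, he.1, he.2⟩
    have h2 := Finset.card_le_card h1
    have h3' : ({c, d} : Finset α).card ≤ 2 := Finset.card_le_two
    rw [Finset.card_univ] at h2
    omega
  obtain ⟨Y, hY⟩ : ∃ Y : Finset G, Y = Finset.univ.filter (fun y : G => y ≠ 1 ∧ y ^ 3 = 1) :=
    ⟨_, rfl⟩
  have hYmem : ∀ y : G, y ∈ Y ↔ y ≠ 1 ∧ y ^ 3 = 1 := by
    intro y; rw [hY]; simp
  obtain ⟨E, hE⟩ : ∃ E : Finset (α × α), E = Finset.univ.filter (fun e : α × α => e.1 ≠ e.2) :=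
    ⟨_, rfl⟩
  have hEmem : ∀ e : α × α, e ∈ E ↔ e.1 ≠ e.2 := by
    intro e; rw [hE]; simp
  -- |Y| ≤ |E|
  have hYE : Y.card ≤ E.card := by
    have hQ : Y.card * (Fintype.card α - 2)
        ≤ (Y.sigma (fun y => Finset.univ.filter (fun p : α => ¬ (y • p = p)))).card := by
      rw [Finset.card_sigma]
      calc Y.card * (Fintype.card α - 2) = ∑ _y ∈ Y, (Fintype.card α - 2) := by
            rw [Finset.sum_const, smul_eq_mul]
        _ ≤ _ := Finset.sum_le_sum (fun y hy => hmoved y ((hYmem y).mp hy).1)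
    have hD : (E.sigma (fun e => Finset.univ.filter (fun r : α => r ≠ e.1 ∧ r ≠ e.2))).card
        = E.card * (Fintype.card α - 2) := by
      rw [Finset.card_sigma]
      apply Finset.sum_const_nat
      intro e he
      have hne := (hEmem e).mp he
      have h1 : Finset.univ.filter (fun r : α => r ≠ e.1 ∧ r ≠ e.2)
          = (Finset.univ.erase e.1).erase e.2 := by
        ext r; simp [and_comm]
      rw [h1, Finset.card_erase_of_mem, Finset.card_erase_of_mem (Finset.mem_univ _),
        Finset.card_univ]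
      · rfl
      · simp [hne.symm]
    have hinj : (Y.sigma (fun y => Finset.univ.filter (fun p : α => ¬ (y • p = p)))).card
        ≤ (E.sigma (fun e => Finset.univ.filter (fun r : α => r ≠ e.1 ∧ r ≠ e.2))).card := by
      apply Finset.card_le_card_of_injOn
        (fun q : (_ : G) × α => (⟨(q.2, q.1 • q.2), q.1 • (q.1 • q.2)⟩ : (_ : α × α) × α))
      · rintro ⟨y, p⟩ hq
        rw [Finset.mem_coe, Finset.mem_sigma] at hq
        obtain ⟨hy, hp⟩ := hq
        simp only [Finset.mem_filter, Finset.mem_univ, true_and] at hp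
        have hy3 := ((hYmem y).mp hy).2
        rw [Finset.mem_coe, Finset.mem_sigma]
        simp only [Finset.mem_filter, Finset.mem_univ, true_and]
        refine ⟨(hEmem _).mpr (fun h => hp h.symm), ?_, ?_⟩
        · intro h
          apply hp
          have h1 : y • (y • (y • p)) = p := by
            rw [← mul_smul, ← mul_smul, ← pow_two, ← pow_succ, hy3, one_smul]
          rw [h] at h1
          exact h1
        · intro h
          exact hp (smul_left_cancel y h)
      · rintro ⟨y, p⟩ hq ⟨y', p'⟩ hq' heq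
        rw [Finset.mem_coe, Finset.mem_sigma] at hq hq'
        obtain ⟨hy, hp⟩ := hq
        obtain ⟨hy', hp'⟩ := hq'
        simp only [Finset.mem_filter, Finset.mem_univ, true_and] at hp hp'
        have hy3 := ((hYmem y).mp hy).2
        have hy3' := ((hYmem y').mp hy').2
        simp only [Sigma.mk.injEq, Prod.mk.injEq, heq_eq_eq] at heq
        obtain ⟨⟨hpp, h1⟩, h2⟩ := heq
        subst hpp
        have hy1 : y • (y • (y • p)) = p := by
          rw [← mul_smul, ← mul_smul, ← pow_two, ← pow_succ, hy3, one_smul]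
        have hy1' : y' • (y' • (y' • p)) = p := by
          rw [← mul_smul, ← mul_smul, ← pow_two, ← pow_succ, hy3', one_smul]
        have hg : y'⁻¹ * y = 1 := by
          apply h3s (y'⁻¹ * y) p (y • p) (y • (y • p))
          · exact fun h => hp h.symm
          · intro h
            apply hp
            have h3' := hy1
            rw [← h] at h3'
            exact h3'
          · intro h
            exact hp (smul_left_cancel y h.symm)
          · rw [mul_smul, h1, inv_smul_smul]
          · rw [mul_smul, h2, inv_smul_smul, h1]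
          · rw [mul_smul, hy1, inv_smul_eq_iff, h2]
            exact hy1'.symm
        have hyy : y = y' := by
          calc y = y' * (y'⁻¹ * y) := by group
            _ = y' := by rw [hg, mul_one]
        subst hyy
        rfl
    have hpos : 0 < Fintype.card α - 2 := by omega
    have h1 := hQ.trans (hinj.trans hD.le)
    exact Nat.le_of_mul_le_mul_right h1 hpos
  -- double counting of flags
  have hP : ∑ e ∈ E, (Y.filter (fun y => y • e.1 = e.1 ∧ y • e.2 = e.2)).card ≤ 2 * Y.card := by
    have h1 := Finset.sum_card_bipartiteAbove_eq_sum_card_bipartiteBelow (s := E) (t := Y)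
      (r := fun (e : α × α) (y : G) => y • e.1 = e.1 ∧ y • e.2 = e.2)
    have h2 : ∑ e ∈ E, (Y.filter (fun y => y • e.1 = e.1 ∧ y • e.2 = e.2)).card
        = ∑ y ∈ Y, (E.filter (fun e => y • e.1 = e.1 ∧ y • e.2 = e.2)).card := h1
    rw [h2]
    calc ∑ y ∈ Y, (E.filter (fun e => y • e.1 = e.1 ∧ y • e.2 = e.2)).card
        ≤ ∑ _y ∈ Y, 2 := Finset.sum_le_sum (fun y hy => ?_)
      _ = 2 * Y.card := by rw [Finset.sum_const, smul_eq_mul, mul_comm]
    have hy1 := ((hYmem y).mp hy).1
    have hF := hfix y hy1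
    obtain ⟨F, hFdef⟩ : ∃ F : Finset α, F = Finset.univ.filter (fun p : α => y • p = p) :=
      ⟨_, rfl⟩
    rw [← hFdef] at hF
    have hsub : E.filter (fun e => y • e.1 = e.1 ∧ y • e.2 = e.2) ⊆ F.offDiag := by
      intro e he
      rw [Finset.mem_filter, hEmem] at he
      rw [Finset.mem_offDiag, hFdef]
      simp only [Finset.mem_filter, Finset.mem_univ, true_and]
      exact ⟨he.2.1, he.2.2, he.1⟩
    have hcard := Finset.card_le_card hsub
    rw [Finset.offDiag_card] at hcard
    obtain ⟨k, hk⟩ : ∃ k, k = F.card := ⟨_, rfl⟩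
    rw [← hk] at hcard hF
    have h4 : k * k - k ≤ 2 := by
      interval_cases k <;> simp
    omega
  -- elements of a subgroup of order three of the stabilizer
  have hAelt : ∀ (A : Subgroup G), A ≤ MulAction.stabilizer G a ⊓ MulAction.stabilizer G b →
      Nat.card A = 3 → ∃ y : G, y ∈ A ∧ y ≠ 1 ∧ y ^ 3 = 1 ∧ y • a = a ∧ y • b = b := by
    intro A hA hA3
    have hnt : Nontrivial A := by
      rw [← Finite.one_lt_card_iff_nontrivial, hA3]; norm_num
    obtain ⟨y, hy⟩ := exists_ne (1 : A)
    have hy3 : y ^ 3 = 1 := by rw [← hA3]; exact pow_card_eq_one'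
    have hst := hA y.2
    rw [Subgroup.mem_inf, MulAction.mem_stabilizer_iff, MulAction.mem_stabilizer_iff] at hst
    refine ⟨y, y.2, ?_, ?_, hst.1, hst.2⟩
    · intro h; exact hy (Subtype.ext h)
    · have h1 := congrArg Subtype.val hy3
      simpa using h1
  have hsq : ∀ y : G, y ≠ 1 → y ^ 3 = 1 → y * y ≠ 1 ∧ (y * y) ^ 3 = 1 ∧ y ≠ y * y := by
    intro y hy1 hy3
    refine ⟨?_, ?_, ?_⟩
    · intro h
      apply hy1
      have h1 : y ^ 3 = y * y * y := by rw [pow_succ, pow_two]
      rw [h1, h, one_mul] at hy3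
      exact hy3
    · have h1 : (y * y) ^ 3 = (y ^ 3) ^ 2 := by rw [← pow_two, ← pow_mul, ← pow_mul]
      rw [h1, hy3, one_pow]
    · intro h
      apply hy1
      calc y = y⁻¹ * (y * y) := by group
        _ = 1 := by rw [← h]; group
  -- every two-point stabilizer contains at least two elements of order three
  have ht2 : ∀ e ∈ E, 2 ≤ (Y.filter (fun y => y • e.1 = e.1 ∧ y • e.2 = e.2)).card := by
    intro e he
    have hne := (hEmem e).mp he
    obtain ⟨y, -, hy1, hy3, hya, hyb⟩ := hAelt A hA hA3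
    obtain ⟨c, hca, hcb⟩ := hthird a b
    obtain ⟨c', hc1, hc2⟩ := hthird e.1 e.2
    obtain ⟨g, hga, hgb, -⟩ := h3t a b c e.1 e.2 c' hab (Ne.symm hca) (Ne.symm hcb) hne
      (Ne.symm hc1) (Ne.symm hc2)
    have hconj : ∀ w : G, w ≠ 1 → w ^ 3 = 1 → w • a = a → w • b = b →
        g * w * g⁻¹ ∈ Y.filter (fun y => y • e.1 = e.1 ∧ y • e.2 = e.2) := by
      intro w hw1 hw3 hwa hwb
      rw [Finset.mem_filter, hYmem]
      refine ⟨⟨?_, ?_⟩, ?_, ?_⟩
      · intro h
        apply hw1
        have h1 : w = g⁻¹ * (g * w * g⁻¹) * g := by group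
        rw [h1, h]; group
      · rw [conj_pow, hw3]; group
      · rw [mul_smul, mul_smul, ← hga, inv_smul_smul, hwa]
      · rw [mul_smul, mul_smul, ← hgb, inv_smul_smul, hwb]
    obtain ⟨hs1, hs3, hsne⟩ := hsq y hy1 hy3
    have hmem1 := hconj y hy1 hy3 hya hyb
    have hmem2 := hconj (y * y) hs1 hs3 (by rw [mul_smul, hya, hya]) (by rw [mul_smul, hyb, hyb])
    have hne12 : g * y * g⁻¹ ≠ g * (y * y) * g⁻¹ := by
      intro h
      apply hsne
      calc y = g⁻¹ * (g * y * g⁻¹) * g := by group
        _ = g⁻¹ * (g * (y * y) * g⁻¹) * g := by rw [h]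
        _ = y * y := by group
    exact Finset.one_lt_card.mpr ⟨_, hmem1, _, hmem2, hne12⟩
  have hsum_le : ∑ e ∈ E, (Y.filter (fun y => y • e.1 = e.1 ∧ y • e.2 = e.2)).card
      ≤ 2 * E.card := hP.trans (Nat.mul_le_mul_left 2 hYE)
  have hT : ∀ e ∈ E, (Y.filter (fun y => y • e.1 = e.1 ∧ y • e.2 = e.2)).card ≤ 2 := by
    intro e he
    by_contra hcon
    have hlt : ∑ _e' ∈ E, 2
        < ∑ e' ∈ E, (Y.filter (fun y => y • e'.1 = e'.1 ∧ y • e'.2 = e'.2)).card :=
      Finset.sum_lt_sum (fun e' he' => ht2 e' he') ⟨e, he, by omega⟩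
    rw [Finset.sum_const, smul_eq_mul] at hlt
    omega
  have key : ∀ (A B : Subgroup G), A ≤ MulAction.stabilizer G a ⊓ MulAction.stabilizer G b →
      B ≤ MulAction.stabilizer G a ⊓ MulAction.stabilizer G b → Nat.card A = 3 →
      Nat.card B = 3 → A ≤ B := by
    intro A B hA hB hA3 hB3 x hx
    by_cases hx1 : x = 1
    · rw [hx1]; exact B.one_mem
    · obtain ⟨y, hyB, hy1, hy3, hya, hyb⟩ := hAelt B hB hB3
      have hxst := hA hx
      rw [Subgroup.mem_inf, MulAction.mem_stabilizer_iff, MulAction.mem_stabilizer_iff] at hxst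
      have hx3 : x ^ 3 = 1 := by
        have h1 := pow_card_eq_one' (G := A) (x := ⟨x, hx⟩)
        rw [hA3] at h1
        have h2 := congrArg Subtype.val h1
        simpa using h2
      have hTab := hT (a, b) ((hEmem (a, b)).mpr hab)
      obtain ⟨hs1, hs3, hsne⟩ := hsq y hy1 hy3
      by_contra hxB
      have hsub : ({x, y, y * y} : Finset G)
          ⊆ Y.filter (fun w => w • (a, b).1 = (a, b).1 ∧ w • (a, b).2 = (a, b).2) := by
        intro w hw
        simp only [Finset.mem_insert, Finset.mem_singleton] at hw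
        rw [Finset.mem_filter, hYmem]
        rcases hw with h | h | h
        · rw [h]; exact ⟨⟨hx1, hx3⟩, hxst.1, hxst.2⟩
        · rw [h]; exact ⟨⟨hy1, hy3⟩, hya, hyb⟩
        · rw [h]
          exact ⟨⟨hs1, hs3⟩, by rw [mul_smul, hya, hya], by rw [mul_smul, hyb, hyb]⟩
      have hc3 : ({x, y, y * y} : Finset G).card = 3 := by
        rw [Finset.card_insert_of_notMem, Finset.card_insert_of_notMem, Finset.card_singleton]
        · simp only [Finset.mem_singleton]
          exact hsne
        · simp only [Finset.mem_insert, Finset.mem_singleton, not_or]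
          exact ⟨fun h => hxB (h ▸ hyB), fun h => hxB (h ▸ B.mul_mem hyB hyB)⟩
      have h5 := Finset.card_le_card hsub
      omega
  exact le_antisymm (key A B hA hB hA3 hB3) (key B A hB hA hB3 hA3)

end Cfsg.Agent.S0728
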