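import Mathlib
import Cfsg.Statements.S0733

set_option autoImplicit false
open Cfsg

namespace Cfsg.Agent.S0733

open MulAction
open scoped Pointwise

/-- A permutation group of affine type — generated by the translations of a finite vector space `V` over `ZMod p` together with a group `G₀` of linear automorphisms — is primitive on `V` if and only if `G₀` is irreducible on `V`. -/
theorem result {p : ℕ} [Fact p.Prime] {V : Type*} [AddCommGroup V] [Module (ZMod p) V] [Finite V] [Nontrivial V] (G₀ : Subgroup (V ≃ₗ[ZMod p] V)) (G : Subgroup (Equiv.Perm V)) (hG : ∀ σ : Equiv.Perm V, σ ∈ G ↔ ∃ g ∈ G₀, ∃ b : V, ∀ x : V, σ x = (g : V ≃ₗ[ZMod p] V) x + b) : MulAction.IsPreprimitive G V ↔ ∀ W : Submodule (ZMod p) V, (∀ g ∈ G₀, ∀ v ∈ W, (g : V ≃ₗ[ZMod p] V) v ∈ W) → W = ⊥ ∨ W = ⊤ := by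
  classical
  have hone : ∀ x : V, (1 : V ≃ₗ[ZMod p] V) x = x := fun x => rfl
  -- elements of G
  have hmk : ∀ (g : V ≃ₗ[ZMod p] V) (_ : g ∈ G₀) (b : V),
      ∃ σ : G, ∀ x : V, σ • x = g x + b := by
    intro g hg b
    refine ⟨⟨(g.toEquiv).trans (Equiv.addRight b), (hG _).mpr ⟨g, hg, b, fun x => rfl⟩⟩, ?_⟩
    intro x
    rfl
  have hdest : ∀ σ : G, ∃ g ∈ G₀, ∃ b : V, ∀ x : V, σ • x = (g : V ≃ₗ[ZMod p] V) x + b := by
    intro σ
    obtain ⟨g, hg, b, h⟩ := (hG σ.1).mp σ.2
    exact ⟨g, hg, b, fun x => h x⟩
  constructor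
  · intro hprim W hinv
    have hblock : IsBlock G (W : Set V) := by
      rw [isBlock_iff_smul_eq_of_mem]
      intro σ a ha hσa
      obtain ⟨g, hg, b, hσ⟩ := hdest σ
      have hb : b ∈ W := by
        rw [hσ] at hσa
        exact (W.add_mem_iff_right (hinv g hg a ha)).mp hσa
      ext y
      constructor
      · rintro ⟨x, hx, rfl⟩
        change σ • x ∈ W
        rw [hσ]
        exact W.add_mem (hinv g hg x hx) hb
      · intro hy
        refine ⟨(g⁻¹ : V ≃ₗ[ZMod p] V) (y - b), ?_, ?_⟩
        · exact hinv g⁻¹ (G₀.inv_mem hg) _ (W.sub_mem hy hb)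
        · change σ • _ = y
          rw [hσ, ← LinearEquiv.mul_apply, mul_inv_cancel, hone]
          abel
    rcases hprim.isTrivialBlock_of_isBlock hblock with hsub | huniv
    · left
      rw [Submodule.eq_bot_iff]
      intro x hx
      exact hsub hx W.zero_mem
    · right
      rw [Submodule.eq_top_iff']
      intro x
      have : x ∈ (W : Set V) := by rw [huniv]; exact Set.mem_univ x
      exact this
  · intro hirr
    have : IsPretransitive G V := by
      refine ⟨fun x y => ?_⟩
      obtain ⟨σ, hσ⟩ := hmk 1 G₀.one_mem (y - x)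
      refine ⟨σ, ?_⟩
      rw [hσ, hone]
      abel
    refine ⟨fun {B} hB => ?_⟩
    by_cases hsub : B.Subsingleton
    · exact Or.inl hsub
    right
    rw [Set.not_subsingleton_iff] at hsub
    obtain ⟨a, ha, c, hc, hac⟩ := hsub
    have hadd : ∀ u v : V, a + u ∈ B → a + v ∈ B → a + (u + v) ∈ B := by
      intro u v hu hv
      obtain ⟨τ, hτ⟩ := hmk 1 G₀.one_mem v
      have h1 : τ • B = B := by
        apply hB.smul_eq_of_mem ha
        rw [hτ, hone]
        exact hv
      have h2 : τ • (a + u) ∈ τ • B := Set.smul_mem_smul_set hu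
      rw [h1, hτ, hone] at h2
      rwa [← add_assoc]
    let W : Submodule (ZMod p) V :=
      { carrier := {u | a + u ∈ B}
        add_mem' := fun {u v} hu hv => hadd u v hu hv
        zero_mem' := by
          change a + 0 ∈ B
          rw [add_zero]
          exact ha
        smul_mem' := by
          intro c u hu
          change a + c • u ∈ B
          have hnat : ∀ n : ℕ, a + n • u ∈ B := by
            intro n
            induction n with
            | zero => rw [zero_smul, add_zero]; exact ha
            | succ n ih =>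
              rw [succ_nsmul]
              exact hadd _ _ ih hu
          have hc : c • u = c.val • u := by
            rw [← Nat.cast_smul_eq_nsmul (ZMod p), ZMod.natCast_zmod_val]
          rw [hc]
          exact hnat _ }
    have hWmem : ∀ u : V, u ∈ W ↔ a + u ∈ B := fun u => Iff.rfl
    have hWinv : ∀ g ∈ G₀, ∀ v ∈ W, (g : V ≃ₗ[ZMod p] V) v ∈ W := by
      intro g hg v hv
      rw [hWmem] at hv ⊢
      obtain ⟨σ, hσ⟩ := hmk g hg (a - g a)
      have h1 : σ • B = B := by
        apply hB.smul_eq_of_mem ha
        rw [hσ]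
        have : g a + (a - g a) = a := by abel
        rw [this]
        exact ha
      have h2 : σ • (a + v) ∈ σ • B := Set.smul_mem_smul_set hv
      rw [h1, hσ, map_add] at h2
      have : g a + g v + (a - g a) = a + g v := by abel
      rwa [this] at h2
    rcases hirr W hWinv with h | h
    · exfalso
      apply hac
      have hmem : c - a ∈ W := by
        rw [hWmem]
        have : a + (c - a) = c := by abel
        rw [this]
        exact hc
      rw [h, Submodule.mem_bot] at hmem
      exact (sub_eq_zero.mp hmem).symm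
    · rw [Set.eq_univ_iff_forall]
      intro x
      have hmem : x - a ∈ W := by rw [h]; exact Submodule.mem_top
      rw [hWmem] at hmem
      have : a + (x - a) = x := by abel
      rwa [this] at hmem

end Cfsg.Agent.S0733
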