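import Mathlib
import Cfsg.Statements.S0734

set_option autoImplicit false
open Cfsg

namespace Cfsg.Agent.S0734

open MulAction
open scoped Pointwise

/-- Higman's criterion for primitivity: a transitive action on a finite set is primitive if and only if every non-trivial orbital graph (edges = images of a fixed pair of distinct points) is connected. -/
theorem result {G : Type*} [Group G] {Ω : Type*} [Finite Ω] [MulAction G Ω] [MulAction.IsPretransitive G Ω] [Nontrivial Ω] : MulAction.IsPreprimitive G Ω ↔ ∀ a b : Ω, a ≠ b → (SimpleGraph.fromRel fun x y : Ω => ∃ g : G, g • a = x ∧ g • b = y).Connected := by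
  classical
  constructor
  · intro hprim a b hab
    obtain ⟨Γ, hΓdef⟩ : ∃ Γ : SimpleGraph Ω,
        Γ = SimpleGraph.fromRel fun x y : Ω => ∃ g : G, g • a = x ∧ g • b = y := ⟨_, rfl⟩
    rw [← hΓdef]
    have hadj : ∀ x y : Ω, Γ.Adj x y ↔ x ≠ y ∧ ((∃ g : G, g • a = x ∧ g • b = y) ∨
        (∃ g : G, g • a = y ∧ g • b = x)) := by
      intro x y
      rw [hΓdef, SimpleGraph.fromRel_adj]
    have hadjg : ∀ (g : G) (x y : Ω), Γ.Adj x y → Γ.Adj (g • x) (g • y) := by
      intro g x y h
      rw [hadj] at h ⊢
      obtain ⟨hne, h⟩ := h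
      refine ⟨fun h' => hne (MulAction.injective g h'), ?_⟩
      rcases h with ⟨k, hk1, hk2⟩ | ⟨k, hk1, hk2⟩
      · left; exact ⟨g * k, by rw [mul_smul, hk1], by rw [mul_smul, hk2]⟩
      · right; exact ⟨g * k, by rw [mul_smul, hk1], by rw [mul_smul, hk2]⟩
    have hreach : ∀ (g : G) (x y : Ω), Γ.Reachable x y → Γ.Reachable (g • x) (g • y) := by
      intro g x y h
      rw [SimpleGraph.reachable_iff_reflTransGen] at h ⊢
      exact Relation.ReflTransGen.lift (fun z => g • z) (fun u v huv => hadjg g u v huv) x y h
    -- the component of a is a block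
    have hmemC : ∀ (g : G) (x : Ω), x ∈ g • {x : Ω | Γ.Reachable a x} ↔ Γ.Reachable (g • a) x := by
      intro g x
      rw [Set.mem_smul_set_iff_inv_smul_mem]
      constructor
      · intro h
        have := hreach g _ _ h
        rwa [smul_inv_smul] at this
      · intro h
        have := hreach g⁻¹ _ _ h
        rwa [inv_smul_smul] at this
    have hblock : IsBlock G {x : Ω | Γ.Reachable a x} := by
      rw [isBlock_iff_smul_eq_of_nonempty]
      rintro g ⟨x, hx1, hx2⟩
      rw [hmemC] at hx1
      have hag : Γ.Reachable a (g • a) := hx2.trans hx1.symm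
      ext y
      rw [hmemC]
      exact ⟨fun h => hag.trans h, fun h => hag.symm.trans h⟩
    have htriv := hprim.isTrivialBlock_of_isBlock hblock
    have hab' : Γ.Adj a b := by
      rw [hadj]
      exact ⟨hab, Or.inl ⟨1, one_smul _ _, one_smul _ _⟩⟩
    rcases htriv with hsub | huniv
    · exfalso
      apply hab
      exact hsub (SimpleGraph.Reachable.refl a) hab'.reachable
    · have hall : ∀ x, Γ.Reachable a x := by
        intro x
        have : x ∈ {x : Ω | Γ.Reachable a x} := by rw [huniv]; exact Set.mem_univ x
        exact this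
      have : Nonempty Ω := ⟨a⟩
      exact ⟨fun x y => (hall x).symm.trans (hall y)⟩
  · intro hconn
    refine ⟨fun {B} hB => ?_⟩
    by_cases hsub : B.Subsingleton
    · exact Or.inl hsub
    · right
      rw [Set.not_subsingleton_iff] at hsub
      obtain ⟨a, ha, b, hb, hab⟩ := hsub
      have hc := hconn a b hab
      rw [Set.eq_univ_iff_forall]
      intro x
      have hr := hc.preconnected a x
      rw [SimpleGraph.reachable_iff_reflTransGen] at hr
      induction hr with
      | refl => exact ha
      | @tail y z _ hadj ih =>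
        rw [SimpleGraph.fromRel_adj] at hadj
        obtain ⟨_, h⟩ := hadj
        rcases h with ⟨g, hg1, hg2⟩ | ⟨g, hg1, hg2⟩
        · have hgB : g • B = B := by
            apply hB.smul_eq_of_nonempty
            exact ⟨y, ⟨a, ha, hg1⟩, ih⟩
          rw [← hgB]
          exact ⟨b, hb, hg2⟩
        · have hgB : g • B = B := by
            apply hB.smul_eq_of_nonempty
            exact ⟨y, ⟨b, hb, hg2⟩, ih⟩
          rw [← hgB]
          exact ⟨a, ha, hg1⟩

end Cfsg.Agent.S0734
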