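import Mathlib
import Cfsg.Statements.S0735

set_option autoImplicit false
open Cfsg

namespace Cfsg.Agent.S0735

open MulAction
open scoped Pointwise

/-- A 2-homogeneous permutation group (transitive on 2-subsets) of even order is doubly transitive; a non-trivial 2-homogeneous group is primitive. -/
theorem result {α : Type*} [Fintype α] [DecidableEq α] (G : Subgroup (Equiv.Perm α)) (h2 : MulAction.IsPretransitive G (Set.powersetCard α 2)) (hα : 3 ≤ Fintype.card α) : (Even (Nat.card G) → MulAction.IsMultiplyPretransitive G α 2) ∧ (G ≠ ⊥ → MulAction.IsPreprimitive G α) := by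
  classical
  have H : ∀ a b c d : α, a ≠ b → c ≠ d →
      ∃ g : G, (g • a = c ∧ g • b = d) ∨ (g • a = d ∧ g • b = c) := by
    intro a b c d hab hcd
    obtain ⟨g, hg⟩ := MulAction.exists_smul_eq G
      (⟨{a, b}, by simp [Finset.card_pair hab]⟩ : Set.powersetCard α 2)
      ⟨{c, d}, by simp [Finset.card_pair hcd]⟩
    have h := congrArg (fun s : Set.powersetCard α 2 => (s : Finset α)) hg
    simp only at h
    have ha : g • a ∈ ({c, d} : Finset α) := by
      rw [← h]; exact Finset.smul_mem_smul_finset (by simp)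
    have hb : g • b ∈ ({c, d} : Finset α) := by
      rw [← h]; exact Finset.smul_mem_smul_finset (by simp)
    simp only [Finset.mem_insert, Finset.mem_singleton] at ha hb
    have hne : g • a ≠ g • b := fun h' => hab (MulAction.injective g h')
    refine ⟨g, ?_⟩
    rcases ha with ha | ha <;> rcases hb with hb | hb
    · exact absurd (ha.trans hb.symm) hne
    · exact Or.inl ⟨ha, hb⟩
    · exact Or.inr ⟨ha, hb⟩
    · exact absurd (ha.trans hb.symm) hne
  constructor
  · intro heven
    have : Fact (Nat.Prime 2) := ⟨Nat.prime_two⟩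
    obtain ⟨t, ht⟩ := exists_prime_orderOf_dvd_card' (G := G) 2 heven.two_dvd
    have ht1 : t ≠ 1 := by
      intro h
      rw [h, orderOf_one] at ht
      exact absurd ht (by norm_num)
    have ht2 : t * t = 1 := by
      have := pow_orderOf_eq_one t
      rwa [ht, pow_two] at this
    obtain ⟨x, hx⟩ : ∃ x : α, t • x ≠ x := by
      by_contra hcon
      push Not at hcon
      apply ht1
      apply Subtype.ext
      ext y
      exact hcon y
    have htt : t • (t • x) = x := by rw [← mul_smul, ht2, one_smul]
    have hswap : ∀ a b : α, a ≠ b → ∃ s : G, s • a = b ∧ s • b = a := by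
      intro a b hab
      obtain ⟨g, hg | hg⟩ := H x (t • x) a b (Ne.symm hx) hab
      · refine ⟨g * t * g⁻¹, ?_, ?_⟩
        · rw [mul_smul, mul_smul, ← hg.1, inv_smul_smul, hg.2]
        · rw [mul_smul, mul_smul, ← hg.2, inv_smul_smul, htt]
          exact hg.1
      · refine ⟨g * t * g⁻¹, ?_, ?_⟩
        · rw [mul_smul, mul_smul, ← hg.2, inv_smul_smul, htt, hg.1]
        · rw [mul_smul, mul_smul, ← hg.1, inv_smul_smul]
          exact hg.2
    rw [MulAction.is_two_pretransitive_iff]
    intro a b c d hab hcd
    obtain ⟨g, hg | hg⟩ := H a b c d hab hcd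
    · exact ⟨g, hg⟩
    · obtain ⟨s, hs1, hs2⟩ := hswap d c (Ne.symm hcd)
      refine ⟨s * g, ?_, ?_⟩
      · rw [mul_smul, hg.1, hs1]
      · rw [mul_smul, hg.2, hs2]
  · intro _
    have htrans : IsPretransitive G α := by
      refine ⟨fun a b => ?_⟩
      by_cases hab : a = b
      · exact ⟨1, by rw [one_smul, hab]⟩
      obtain ⟨c, -, hc⟩ := Finset.exists_mem_notMem_of_card_lt_card
        (s := ({a, b} : Finset α)) (t := Finset.univ) (by
          have := Finset.card_le_two (a := a) (b := b)
          rw [Finset.card_univ]; omega)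
      simp only [Finset.mem_insert, Finset.mem_singleton, not_or] at hc
      obtain ⟨g, hg | hg⟩ := H a c b c (Ne.symm hc.1) (Ne.symm hc.2)
      · exact ⟨g, hg.1⟩
      · exact ⟨g * g, by rw [mul_smul, hg.1, hg.2]⟩
    refine ⟨fun {B} hB => ?_⟩
    by_cases hsub : B.Subsingleton
    · exact Or.inl hsub
    right
    rw [Set.not_subsingleton_iff] at hsub
    obtain ⟨a, ha, b, hb, hab⟩ := hsub
    rw [Set.eq_univ_iff_forall]
    intro x
    by_cases hxa : x = a
    · rw [hxa]; exact ha
    obtain ⟨g, hg | hg⟩ := H a b a x hab (Ne.symm hxa)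
    · have hgB : g • B = B := hB.smul_eq_of_mem ha (by rw [hg.1]; exact ha)
      rw [← hgB, ← hg.2]
      exact Set.smul_mem_smul_set hb
    · have hgB : g • B = B := hB.smul_eq_of_mem hb (by rw [hg.2]; exact ha)
      rw [← hgB, ← hg.1]
      exact Set.smul_mem_smul_set ha

end Cfsg.Agent.S0735
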