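import Mathlib
import Cfsg.Statements.S0736

set_option autoImplicit false
open Cfsg

namespace Cfsg.Agent.S0736

open scoped Pointwise

theorem choose_not_dvd (p v k : ℕ) (hp : p.Prime) (hk : p ^ v ∣ k) :
    ∀ j : ℕ, j < p ^ v → ¬ p ∣ (k + j).choose j := by
  intro j
  induction j with
  | zero =>
    intro _ h
    rw [Nat.choose_zero_right] at h
    exact hp.one_lt.ne' (Nat.dvd_one.1 h)
  | succ j ih =>
    intro hj hdvd
    have hdvd' : p ∣ (k + j + 1).choose (j + 1) := hdvd
    have ih' := ih (by omega)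
    obtain ⟨e, n', hn', hje0⟩ := Nat.exists_eq_pow_mul_and_not_dvd (Nat.succ_ne_zero j) p hp.ne_one
    have hje : j + 1 = p ^ e * n' := hje0
    have hn'pos : 0 < n' := Nat.pos_of_ne_zero (by rintro rfl; simp at hn')
    have hev : e < v := by
      have h1 : p ^ e ≤ j + 1 := by rw [hje]; exact Nat.le_mul_of_pos_right _ hn'pos
      exact (Nat.pow_lt_pow_iff_right hp.one_lt).1 (lt_of_le_of_lt h1 hj)
    have hk' : p ^ (e + 1) ∣ k := (pow_dvd_pow p (by omega)).trans hk
    have hid : (k + j + 1) * (k + j).choose j = (k + j + 1).choose (j + 1) * (j + 1) :=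
      Nat.add_one_mul_choose_eq (k + j) j
    have h2 : p ^ (e + 1) ∣ (k + j + 1) * (k + j).choose j := by
      rw [hid, pow_succ, mul_comm (p ^ e) p]
      exact mul_dvd_mul hdvd' (by rw [hje]; exact Dvd.intro _ rfl)
    have hcop : Nat.Coprime (p ^ (e + 1)) ((k + j).choose j) :=
      Nat.Coprime.pow_left _ ((Nat.Prime.coprime_iff_not_dvd hp).2 ih')
    have h3 : p ^ (e + 1) ∣ k + j + 1 := hcop.dvd_of_dvd_mul_right h2
    have h4 : p ^ (e + 1) ∣ j + 1 := by
      rw [add_assoc] at h3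
      exact (Nat.dvd_add_right hk').1 h3
    rw [hje, pow_succ] at h4
    exact hn' ((Nat.mul_dvd_mul_iff_left (pow_pos hp.pos e)).1 h4)

theorem card_supersets {α : Type*} [DecidableEq α] (S Δ : Finset α) (hΔ : Δ ⊆ S) (k : ℕ)
    (hcard : Δ.card + 1 = k) :
    ((S.powersetCard k).filter (fun K => Δ ⊆ K)).card = (S \ Δ).card := by
  have himg : (S.powersetCard k).filter (fun K => Δ ⊆ K) = (S \ Δ).image (fun x => insert x Δ) := by
    ext K
    simp only [Finset.mem_filter, Finset.mem_powersetCard, Finset.mem_image, Finset.mem_sdiff]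
    constructor
    · rintro ⟨⟨hKS, hKcard⟩, hΔK⟩
      have h1 : (K \ Δ).card = 1 := by rw [Finset.card_sdiff_of_subset hΔK]; omega
      obtain ⟨x, hx⟩ := Finset.card_eq_one.1 h1
      have hxK : x ∈ K \ Δ := by rw [hx]; exact Finset.mem_singleton_self x
      refine ⟨x, ⟨hKS (Finset.mem_sdiff.1 hxK).1, (Finset.mem_sdiff.1 hxK).2⟩, ?_⟩
      rw [Finset.insert_eq, ← hx, Finset.sdiff_union_of_subset hΔK]
    · rintro ⟨x, ⟨hxS, hxΔ⟩, rfl⟩
      exact ⟨⟨Finset.insert_subset hxS hΔ, by rw [Finset.card_insert_of_notMem hxΔ]; exact hcard⟩,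
        Finset.subset_insert x Δ⟩
  rw [himg, Finset.card_image_of_injOn]
  intro x hx y hy hxy
  simp only [Finset.coe_sdiff, Set.mem_sdiff, Finset.mem_coe] at hx hy
  have hxy' : insert x Δ = insert y Δ := hxy
  have : x ∈ insert y Δ := hxy' ▸ Finset.mem_insert_self x Δ
  rcases Finset.mem_insert.1 this with h | h
  · exact h
  · exact absurd h hx.2

theorem core {α : Type*} [Fintype α] [DecidableEq α] (G : Subgroup (Equiv.Perm α)) {k : ℕ} (hk : 2 ≤ k)
    (hG : ∀ A B : Finset α, A.card = k → B.card = k → ∃ g ∈ G, A.image g = B)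
    (hq : ∀ q : ℕ, IsPrimePow q → q ∣ k → k + q - 1 ≤ Fintype.card α)
    (Δ1 Δ2 : Finset α) (h1 : Δ1.card = k - 1) (h2 : Δ2.card = k - 1) :
    ∃ g ∈ G, Δ1.image g = Δ2 := by
  classical
  have hkn : k ≤ Fintype.card α := by
    obtain ⟨p, hp, hpk⟩ := Nat.exists_prime_and_dvd (show k ≠ 1 by omega)
    have h3 := hq p hp.isPrimePow hpk
    have h4 := hp.two_le
    omega
  obtain ⟨Oc, hOc⟩ : ∃ Oc : Finset α → Prop, Oc = fun Δ => ∃ g ∈ G, Δ1.image g = Δ := ⟨_, rfl⟩
  obtain ⟨a, ha⟩ : ∃ a : Finset α → ℕ, a = fun K => ((K.powersetCard (k - 1)).filter Oc).card :=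
    ⟨_, rfl⟩
  have hOcimg : ∀ Δ, Oc Δ → ∀ g ∈ G, Oc (Δ.image g) := by
    intro Δ hΔ g hg
    rw [hOc] at hΔ ⊢
    obtain ⟨h, hh, rfl⟩ := hΔ
    exact ⟨g * h, G.mul_mem hg hh, by rw [Finset.image_image]; rfl⟩
  have hale : ∀ K K' : Finset α, K.card = k → K'.card = k → a K ≤ a K' := by
    intro K K' hK hK'
    obtain ⟨g, hg, hgK⟩ := hG K K' hK hK'
    rw [ha]
    apply Finset.card_le_card_of_injOn (fun Δ => Δ.image g)
    · intro Δ hΔ
      rw [Finset.mem_coe, Finset.mem_filter, Finset.mem_powersetCard] at hΔ ⊢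
      obtain ⟨⟨hsub, hcard⟩, hO⟩ := hΔ
      refine ⟨⟨?_, ?_⟩, hOcimg Δ hO g hg⟩
      · rw [← hgK]; exact Finset.image_subset_image hsub
      · rw [Finset.card_image_of_injective _ g.injective, hcard]
    · intro Δ _ Δ' _ h
      exact Finset.image_injective g.injective h
  have haeq : ∀ K K' : Finset α, K.card = k → K'.card = k → a K = a K' :=
    fun K K' hK hK' => le_antisymm (hale K K' hK hK') (hale K' K hK' hK)
  obtain ⟨K0, hΔ1K0, -, hK0⟩ := Finset.exists_subsuperset_card_eq (Finset.subset_univ Δ1)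
    (by omega : Δ1.card ≤ k) (by rw [Finset.card_univ]; exact hkn)
  have hOc1 : Oc Δ1 := by rw [hOc]; exact ⟨1, G.one_mem, by simp⟩
  have ha0 : 0 < a K0 := by
    rw [ha]
    apply Finset.card_pos.2
    exact ⟨Δ1, Finset.mem_filter.2 ⟨Finset.mem_powersetCard.2 ⟨hΔ1K0, h1⟩, hOc1⟩⟩
  have hchoose : k.choose (k - 1) = k := by
    rw [Nat.choose_symm (by omega), Nat.choose_one_right]
  have hale' : a K0 ≤ k := by
    rw [ha]
    refine (Finset.card_filter_le _ _).trans ?_
    rw [Finset.card_powersetCard, hK0, hchoose]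
  have hdiv : k ∣ a K0 := by
    rw [← Nat.factorization_prime_le_iff_dvd (by omega) ha0.ne']
    intro p hp
    by_cases hv : k.factorization p = 0
    · rw [hv]; exact Nat.zero_le _
    · rw [← hp.pow_dvd_iff_le_factorization ha0.ne']
      obtain ⟨q, hqdef⟩ : ∃ q, q = p ^ k.factorization p := ⟨_, rfl⟩
      have hqk : q ∣ k := by rw [hqdef]; exact Nat.ordProj_dvd k p
      have hqpp : IsPrimePow q := by
        rw [isPrimePow_nat_iff]
        exact ⟨p, k.factorization p, hp, Nat.pos_of_ne_zero hv, hqdef.symm⟩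
      have hqpos : 0 < q := by rw [hqdef]; exact pow_pos hp.pos _
      have hn := hq q hqpp hqk
      obtain ⟨S, -, hS⟩ := Finset.exists_subset_card_eq (s := (Finset.univ : Finset α))
        (n := k + q - 1) (by rw [Finset.card_univ]; exact hn)
      have hdc := Finset.sum_card_bipartiteAbove_eq_sum_card_bipartiteBelow
        (r := fun (Δ K : Finset α) => Δ ⊆ K) (s := (S.powersetCard (k - 1)).filter Oc)
        (t := S.powersetCard k)
      simp only [Finset.bipartiteAbove, Finset.bipartiteBelow] at hdc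
      have hL : ∀ Δ ∈ (S.powersetCard (k - 1)).filter Oc,
          ((S.powersetCard k).filter (fun K => Δ ⊆ K)).card = q := by
        intro Δ hΔ
        rw [Finset.mem_filter, Finset.mem_powersetCard] at hΔ
        rw [card_supersets S Δ hΔ.1.1 k (by omega), Finset.card_sdiff_of_subset hΔ.1.1, hS, hΔ.1.2]
        omega
      have hR : ∀ K ∈ S.powersetCard k,
          (((S.powersetCard (k - 1)).filter Oc).filter (fun Δ => Δ ⊆ K)).card = a K0 := by
        intro K hK
        rw [Finset.mem_powersetCard] at hK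
        rw [haeq K0 K hK0 hK.2, ha]
        congr 1
        ext Δ
        simp only [Finset.mem_filter, Finset.mem_powersetCard]
        constructor
        · rintro ⟨⟨⟨-, hc⟩, hO⟩, hsub⟩; exact ⟨⟨hsub, hc⟩, hO⟩
        · rintro ⟨⟨hsub, hc⟩, hO⟩; exact ⟨⟨⟨hsub.trans hK.1, hc⟩, hO⟩, hsub⟩
      rw [Finset.sum_congr rfl hL, Finset.sum_congr rfl hR, Finset.sum_const, Finset.sum_const,
        smul_eq_mul, smul_eq_mul, Finset.card_powersetCard, hS] at hdc
      have hcop : Nat.Coprime q ((k + q - 1).choose k) := by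
        rw [hqdef]
        apply Nat.Coprime.pow_left
        rw [Nat.Prime.coprime_iff_not_dvd hp]
        have h5 := choose_not_dvd p (k.factorization p) k hp (hqdef ▸ hqk) (q - 1)
          (by rw [← hqdef]; omega)
        have e1 : k + q - 1 = k + (q - 1) := by omega
        rw [← hqdef, e1, Nat.choose_symm_add]
        exact h5
      rw [← hqdef]
      exact hcop.dvd_of_dvd_mul_left (Dvd.intro_left _ hdc)
  have hak : a K0 = k := le_antisymm hale' (Nat.le_of_dvd ha0 hdiv)
  obtain ⟨K2, hΔ2K2, -, hK2⟩ := Finset.exists_subsuperset_card_eq (Finset.subset_univ Δ2)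
    (by omega : Δ2.card ≤ k) (by rw [Finset.card_univ]; exact hkn)
  have haK2 : ((K2.powersetCard (k - 1)).filter Oc).card = k := by
    have h3 : a K2 = k := by rw [haeq K2 K0 hK2 hK0, hak]
    rw [ha] at h3
    exact h3
  have hall : ∀ Δ ∈ K2.powersetCard (k - 1), Oc Δ := by
    rw [← Finset.card_filter_eq_iff, haK2, Finset.card_powersetCard, hK2, hchoose]
  have hfin := hall Δ2 (Finset.mem_powersetCard.2 ⟨hΔ2K2, h2⟩)
  rw [hOc] at hfin
  exact hfin

/-- A `k`-homogeneous permutation group of degree `n`, `k ≥ 2`, with `k + q - 1 ≤ n` for every prime power `q` dividing `k`, is `(k-1)`-homogeneous. -/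
theorem result {α : Type*} [Fintype α] [DecidableEq α] (G : Subgroup (Equiv.Perm α)) {k : ℕ} (hk : 2 ≤ k) (hG : MulAction.IsPretransitive G (Set.powersetCard α k)) (hq : ∀ q : ℕ, IsPrimePow q → q ∣ k → k + q - 1 ≤ Fintype.card α) : MulAction.IsPretransitive G (Set.powersetCard α (k - 1)) := by
  classical
  have hsm : ∀ (g : G) (A : Finset α), g • A = A.image (g : Equiv.Perm α) := by
    intro g A
    rw [← Finset.image_smul]
    rfl
  have hG' : ∀ A B : Finset α, A.card = k → B.card = k → ∃ g ∈ G, A.image g = B := by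
    intro A B hA hB
    obtain ⟨g, hg⟩ := hG.exists_smul_eq (⟨A, Set.powersetCard.mem_iff.2 hA⟩ : Set.powersetCard α k)
      ⟨B, Set.powersetCard.mem_iff.2 hB⟩
    refine ⟨g.1, g.2, ?_⟩
    have h1 := congrArg Subtype.val hg
    have h2 : ((g • (⟨A, Set.powersetCard.mem_iff.2 hA⟩ : Set.powersetCard α k) :
        Set.powersetCard α k) : Finset α) = g • A := Set.powersetCard.coe_smul
    rw [← hsm, ← h2]
    exact h1
  refine ⟨fun A B => ?_⟩
  obtain ⟨g, hg, hgAB⟩ := core G hk hG' hq A.1 B.1 (Set.powersetCard.mem_iff.1 A.2)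
    (Set.powersetCard.mem_iff.1 B.2)
  refine ⟨⟨g, hg⟩, Subtype.ext ?_⟩
  have h2 : (((⟨g, hg⟩ : G) • A : Set.powersetCard α (k - 1)) : Finset α) = (⟨g, hg⟩ : G) • A.1 :=
    Set.powersetCard.coe_smul
  have h3 : (((⟨g, hg⟩ : G) • A : Set.powersetCard α (k - 1)) : Finset α) = A.1.image g := by
    rw [h2, hsm]
  exact h3.trans hgAB

end Cfsg.Agent.S0736
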