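import Mathlib
import Cfsg.Statements.S0738
import Cfsg.Agent.Helper6.FreeAct

set_option autoImplicit false
open Cfsg

namespace Cfsg.Agent.S0738

open Cfsg.Agent.Helper6

/-- Let a finite Zassenhaus group of degree `n + 1` have two-point stabilisers of order `d` with `2d ≥ n - 1`. Then a normal subgroup of a point stabiliser acting regularly on the remaining points is elementary abelian, and the degree is a prime power plus one. -/
theorem result {G Ω : Type*} [Group G] [Finite G] [MulAction G Ω] [Fintype Ω] (hZ : Cfsg.IsZassenhausGroup G Ω) {a b : Ω} (hab : a ≠ b) (hd : Fintype.card Ω - 2 ≤ 2 * Nat.card ↥(MulAction.stabilizer G a ⊓ MulAction.stabilizer G b)) (F : Subgroup G) (hFle : F ≤ MulAction.stabilizer G a) (hFn : (F.subgroupOf (MulAction.stabilizer G a)).Normal) (hreg : ∀ y z : Ω, y ≠ a → z ≠ a → ∃! u : F, (u : G) • y = z) : IsMulCommutative F ∧ ∃ p f : ℕ, p.Prime ∧ (∀ u ∈ F, u ^ p = 1) ∧ Fintype.card Ω = p ^ f + 1 := by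
  classical
  obtain ⟨hF, h2', h3, -, -⟩ := hZ
  have hnorm : ∀ h : G, h ∈ MulAction.stabilizer G a → ∀ u : G, u ∈ F → h * u * h⁻¹ ∈ F := by
    intro h hh u hu
    have h1 := hFn.conj_mem ⟨u, hFle hu⟩ (Subgroup.mem_subgroupOf.2 hu) ⟨h, hh⟩
    rw [Subgroup.mem_subgroupOf] at h1
    simpa using h1
  have hFa : ∀ u : G, u ∈ F → u • a = a := fun u hu => MulAction.mem_stabilizer_iff.1 (hFle hu)
  have hub_ne_a : ∀ u : G, u ∈ F → u • b ≠ a := by
    intro u hu h
    have h1 : u • b = u • a := by rw [h, hFa u hu]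
    exact hab (MulAction.injective u h1).symm
  have hub_ne_b : ∀ u : G, u ∈ F → u ≠ 1 → u • b ≠ b := by
    intro u hu hu1 h
    obtain ⟨w, -, hw⟩ := hreg b b (Ne.symm hab) (Ne.symm hab)
    have e1 := hw ⟨u, hu⟩ h
    have e2 := hw 1 (by simp)
    apply hu1
    have e3 : (⟨u, hu⟩ : F) = 1 := e1.trans e2.symm
    exact congrArg Subtype.val e3
  letI inst : MulDistribMulAction ↥(MulAction.stabilizer G a ⊓ MulAction.stabilizer G b) ↥F :=
    { smul := fun h u => ⟨(h : G) * (u : G) * (h : G)⁻¹, hnorm h.1 h.2.1 u.1 u.2⟩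
      one_smul := fun u => by
        apply Subtype.ext
        show ((1 : ↥(MulAction.stabilizer G a ⊓ MulAction.stabilizer G b)) : G) * (u : G)
          * ((1 : ↥(MulAction.stabilizer G a ⊓ MulAction.stabilizer G b)) : G)⁻¹ = (u : G)
        simp
      mul_smul := fun h h' u => by
        apply Subtype.ext
        show ((h * h' : ↥(MulAction.stabilizer G a ⊓ MulAction.stabilizer G b)) : G) * (u : G)
          * ((h * h' : ↥(MulAction.stabilizer G a ⊓ MulAction.stabilizer G b)) : G)⁻¹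
          = (h : G) * ((h' : G) * (u : G) * (h' : G)⁻¹) * (h : G)⁻¹
        simp [mul_assoc]
      smul_mul := fun h u v => by
        apply Subtype.ext
        show (h : G) * ((u * v : F) : G) * (h : G)⁻¹
          = ((h : G) * (u : G) * (h : G)⁻¹) * ((h : G) * (v : G) * (h : G)⁻¹)
        simp [mul_assoc]
      smul_one := fun h => by
        apply Subtype.ext
        show (h : G) * ((1 : F) : G) * (h : G)⁻¹ = ((1 : F) : G)
        simp }
  have hsm : ∀ (h : ↥(MulAction.stabilizer G a ⊓ MulAction.stabilizer G b)) (u : ↥F),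
      ((h • u : ↥F) : G) = (h : G) * (u : G) * (h : G)⁻¹ := fun h u => rfl
  have hfree : ∀ (h : ↥(MulAction.stabilizer G a ⊓ MulAction.stabilizer G b)) (u : ↥F),
      u ≠ 1 → h • u = u → h = 1 := by
    intro h u hu hfix
    have hu1 : (u : G) ≠ 1 := fun e => hu (Subtype.ext e)
    have hha : (h : G) • a = a := MulAction.mem_stabilizer_iff.1 h.2.1
    have hhb : (h : G) • b = b := MulAction.mem_stabilizer_iff.1 h.2.2
    have e1 : (h : G) * (u : G) * (h : G)⁻¹ = (u : G) := by
      rw [← hsm, hfix]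
    have e2 : (h : G) * (u : G) = (u : G) * (h : G) := mul_inv_eq_iff_eq_mul.1 e1
    have hc : (h : G) • ((u : G) • b) = (u : G) • b := by
      rw [← mul_smul, e2, mul_smul, hhb]
    apply Subtype.ext
    exact h3 (h : G) a b ((u : G) • b) hab (Ne.symm (hub_ne_b u.1 u.2 hu1))
      (Ne.symm (hub_ne_a u.1 u.2)) hha hhb hc
  have hFcard : Nat.card ↥F = Fintype.card Ω - 1 := by
    have e1 : Nat.card ↥F = Nat.card {z : Ω // z ≠ a} := by
      apply Nat.card_congr
      refine Equiv.ofBijective (fun u : ↥F => (⟨(u : G) • b, hub_ne_a u.1 u.2⟩ :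
        {z : Ω // z ≠ a})) ⟨?_, ?_⟩
      · intro u u' e
        have e' : (u : G) • b = (u' : G) • b := congrArg Subtype.val e
        obtain ⟨w, -, hw⟩ := hreg b ((u : G) • b) (Ne.symm hab) (hub_ne_a u.1 u.2)
        exact (hw u rfl).trans (hw u' e'.symm).symm
      · rintro ⟨z, hz⟩
        obtain ⟨w, hw, -⟩ := hreg b z (Ne.symm hab) hz
        exact ⟨w, Subtype.ext hw⟩
    rw [e1, Nat.card_eq_fintype_card, Fintype.card_subtype_compl, Fintype.card_subtype_eq]
  have hpos : 0 < Fintype.card Ω := Fintype.card_pos_iff.2 ⟨a⟩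
  have hcard : Nat.card ↥F - 1
      ≤ 2 * Nat.card ↥(MulAction.stabilizer G a ⊓ MulAction.stabilizer G b) := by
    rw [hFcard]
    omega
  obtain ⟨hcomm, p, f, hp, hpow, hpf⟩ := fa_main hfree hcard
  refine ⟨⟨⟨hcomm⟩⟩, p, f, hp, ?_, ?_⟩
  · intro u hu
    have h1 := congrArg Subtype.val (hpow ⟨u, hu⟩)
    simpa using h1
  · rw [hFcard] at hpf
    omega

end Cfsg.Agent.S0738
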