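import Mathlib
import Cfsg.Statements.S0740
import Cfsg.Agent.Helper6.Zass

set_option autoImplicit false
open Cfsg

namespace Cfsg.Agent.S0740

open Cfsg.Agent.Helper6

/-- In a finite Zassenhaus group any two points `a ≠ b` are swapped by an involution; every such involution has exactly one fixed point when the degree is odd and 0 or 2 fixed points when the degree is even; and if the two-point stabiliser has even order, some such involution has exactly 2 fixed points. -/
theorem result {G Ω : Type*} [Group G] [Finite G] [MulAction G Ω] [Fintype Ω] (hZ : Cfsg.IsZassenhausGroup G Ω) {a b : Ω} (hab : a ≠ b) : (∃ s : G, orderOf s = 2 ∧ s • a = b ∧ s • b = a) ∧ (∀ s : G, orderOf s = 2 → s • a = b → s • b = a → (Odd (Fintype.card Ω) → Nat.card (MulAction.fixedBy Ω s) = 1) ∧ (Even (Fintype.card Ω) → Nat.card (MulAction.fixedBy Ω s) = 0 ∨ Nat.card (MulAction.fixedBy Ω s) = 2)) ∧ (Even (Fintype.card Ω) → Even (Nat.card ↥(MulAction.stabilizer G a ⊓ MulAction.stabilizer G b)) → ∃ s : G, orderOf s = 2 ∧ s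 • a = b ∧ s • b = a ∧ Nat.card (MulAction.fixedBy Ω s) = 2) := by
  classical
  obtain ⟨hF, h2', h3, -, -⟩ := hZ
  have h2 : ∀ {a b c d : Ω}, a ≠ b → c ≠ d → ∃ g : G, g • a = c ∧ g • b = d :=
    MulAction.is_two_pretransitive_iff.1 h2'
  have hmove : ∀ u : G, u ≠ 1 → ∃ x : Ω, u • x ≠ x := by
    intro u hu
    by_contra hcon
    push Not at hcon
    exact hu (hF.eq_of_smul_eq_smul (fun x => by rw [hcon x, one_smul]))
  have hle : ∀ s : G, s ≠ 1 → Nat.card (MulAction.fixedBy Ω s) ≤ 2 := by
    intro s hs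
    rw [zfix_card]
    exact zfix_le_two h3 s hs _ (fun x hx => (Finset.mem_filter.1 hx).2)
  have hpar : ∀ s : G, orderOf s = 2 →
      Nat.card (MulAction.fixedBy Ω s) % 2 = Fintype.card Ω % 2 := by
    intro s hs
    rw [zfix_card]
    exact zfix_parity s (by rw [pow_two]; exact (zinvol s hs).1)
  refine ⟨?_, ?_, ?_⟩
  · obtain ⟨g, hga, hgb⟩ := h2 hab (Ne.symm hab)
    have hpow : ∀ j : ℕ, g ^ (2 * j) • a = a ∧ g ^ (2 * j + 1) • a = b := by
      intro j
      induction j with
      | zero => simp [hga]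
      | succ j ih =>
        have e1 : g ^ (2 * (j + 1)) • a = a := by
          rw [show 2 * (j + 1) = (2 * j + 1) + 1 from by ring, pow_succ', mul_smul, ih.2, hgb]
        refine ⟨e1, ?_⟩
        rw [pow_succ', mul_smul, e1, hga]
    have heven : 2 ∣ orderOf g := by
      rcases Nat.even_or_odd' (orderOf g) with ⟨k, hk | hk⟩
      · exact ⟨k, hk⟩
      · exfalso
        have h1 := (hpow k).2
        rw [← hk, pow_orderOf_eq_one, one_smul] at h1
        exact hab h1
    obtain ⟨k, hk⟩ := heven
    have hk0 : k ≠ 0 := by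
      rintro rfl
      have := orderOf_pos g
      omega
    have hu : orderOf (g ^ k) = 2 := by
      rw [orderOf_pow_of_dvd hk0 ⟨2, by rw [hk]; ring⟩, hk]
      exact Nat.mul_div_cancel _ (Nat.pos_of_ne_zero hk0)
    obtain ⟨x, hx⟩ := hmove (g ^ k) (zinvol _ hu).2.1
    obtain ⟨s, hs, hsa, hsb, -⟩ := zconj_swap h2 hu hx hab
    exact ⟨s, hs, hsa, hsb⟩
  · intro s hs hsa hsb
    have hs1 : s ≠ 1 := (zinvol s hs).2.1
    have h1 := hle s hs1
    have h4 := hpar s hs
    constructor
    · intro hodd
      have h5 := Nat.odd_iff.1 hodd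
      omega
    · intro heven
      have h5 := Nat.even_iff.1 heven
      omega
  · intro _ hHeven
    haveI : Fact (Nat.Prime 2) := ⟨Nat.prime_two⟩
    obtain ⟨u, hu⟩ := exists_prime_orderOf_dvd_card'
      (G := ↥(MulAction.stabilizer G a ⊓ MulAction.stabilizer G b)) 2 (even_iff_two_dvd.1 hHeven)
    have hu' : orderOf (u : G) = 2 := by rw [Subgroup.orderOf_coe]; exact hu
    have hua : (u : G) • a = a := MulAction.mem_stabilizer_iff.1 u.2.1
    have hub : (u : G) • b = b := MulAction.mem_stabilizer_iff.1 u.2.2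
    have hu1 := (zinvol (u : G) hu').2.1
    obtain ⟨x, hx⟩ := hmove (u : G) hu1
    obtain ⟨s, hs, hsa, hsb, hcard⟩ := zconj_swap h2 hu' hx hab
    refine ⟨s, hs, hsa, hsb, ?_⟩
    rw [hcard]
    apply le_antisymm (hle _ hu1)
    rw [zfix_card]
    have hsub : ({a, b} : Finset Ω) ⊆ Finset.univ.filter (fun x => (u : G) • x = x) := by
      intro y hy
      simp only [Finset.mem_insert, Finset.mem_singleton] at hy
      rcases hy with rfl | rfl
      · simp [hua]
      · simp [hub]
    calc 2 = ({a, b} : Finset Ω).card := (Finset.card_pair hab).symm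
      _ ≤ _ := Finset.card_le_card hsub

end Cfsg.Agent.S0740
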