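import Mathlib
import Cfsg.Statements.S0741
import Cfsg.Agent.Helper6.Zass

set_option autoImplicit false
open Cfsg

namespace Cfsg.Agent.S0741

open Cfsg.Agent.Helper6

/-- If the two-point stabilisers of a finite Zassenhaus group of degree `n + 1` have even order `d`, then `2d ≥ n - 1`. -/
theorem result {G Ω : Type*} [Group G] [Finite G] [MulAction G Ω] [Fintype Ω] (hZ : Cfsg.IsZassenhausGroup G Ω) {a b : Ω} (hab : a ≠ b) (heven : Even (Nat.card ↥(MulAction.stabilizer G a ⊓ MulAction.stabilizer G b))) : Fintype.card Ω - 2 ≤ 2 * Nat.card ↥(MulAction.stabilizer G a ⊓ MulAction.stabilizer G b) := by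
  classical
  obtain ⟨hF, h2', h3, -, -⟩ := hZ
  have h2 : ∀ {a b c d : Ω}, a ≠ b → c ≠ d → ∃ g : G, g • a = c ∧ g • b = d :=
    MulAction.is_two_pretransitive_iff.1 h2'
  haveI : Fact (Nat.Prime 2) := ⟨Nat.prime_two⟩
  obtain ⟨u, hu⟩ := exists_prime_orderOf_dvd_card'
    (G := ↥(MulAction.stabilizer G a ⊓ MulAction.stabilizer G b)) 2 (even_iff_two_dvd.1 heven)
  have hu' : orderOf (u : G) = 2 := by rw [Subgroup.orderOf_coe]; exact hu
  have hua : (u : G) • a = a := MulAction.mem_stabilizer_iff.1 u.2.1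
  have hub : (u : G) • b = b := MulAction.mem_stabilizer_iff.1 u.2.2
  have hz : ∀ x : Ω, ∃ z : G, x ≠ a → x ≠ b → (z • x = x ∧ z • a = b ∧ z • b = a) := by
    intro x
    by_cases hxa : x = a
    · exact ⟨1, fun h => absurd hxa h⟩
    by_cases hxb : x = b
    · exact ⟨1, fun _ h => absurd hxb h⟩
    obtain ⟨v, hv, hvx, hva⟩ := zconj_fix h2 hu' hab hua hub (x := x) (y := a) hxa
    obtain ⟨w, hw, hwx, hwb⟩ := zconj_fix h2 hu' hab hua hub (x := x) (y := b) hxb
    obtain ⟨z, hz⟩ := zswap_fix h3 hv hw hxa hxb hab hvx hva hwx hwb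
    exact ⟨z, fun _ _ => hz⟩
  choose φ hφ using hz
  haveI : Fintype G := Fintype.ofFinite G
  obtain ⟨S, hS⟩ : ∃ S : Finset Ω, S = (Finset.univ.erase a).erase b := ⟨_, rfl⟩
  have hScard : S.card = Fintype.card Ω - 2 := by
    rw [hS, Finset.card_erase_of_mem (by simp [hab.symm]),
      Finset.card_erase_of_mem (Finset.mem_univ a), Finset.card_univ]
    omega
  have hSmem : ∀ x ∈ S, x ≠ a ∧ x ≠ b := by
    intro x hx
    rw [hS] at hx
    simp only [Finset.mem_erase, Finset.mem_univ, and_true] at hx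
    exact ⟨hx.2, hx.1⟩
  have h1 : S.card ≤ 2 * (S.image φ).card := by
    apply Finset.card_le_mul_card_image
    intro t ht
    obtain ⟨x0, hx0, rfl⟩ := Finset.mem_image.1 ht
    have ht1 : φ x0 ≠ 1 := by
      intro h
      have h5 := (hφ x0 (hSmem x0 hx0).1 (hSmem x0 hx0).2).2.1
      rw [h, one_smul] at h5
      exact hab h5
    apply zfix_le_two h3 (φ x0) ht1
    intro x hx
    obtain ⟨hxS, hxe⟩ := Finset.mem_filter.1 hx
    rw [← hxe]
    exact (hφ x (hSmem x hxS).1 (hSmem x hxS).2).1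
  obtain ⟨s0, hs0a, hs0b⟩ := h2 hab (Ne.symm hab)
  have h2c : (S.image φ).card
      ≤ Nat.card ↥(MulAction.stabilizer G a ⊓ MulAction.stabilizer G b) := by
    have hinj : Function.Injective (fun t : G => s0⁻¹ * t) := mul_right_injective _
    have hsub : (((S.image φ).image (fun t : G => s0⁻¹ * t) : Finset G) : Set G)
        ⊆ ((MulAction.stabilizer G a ⊓ MulAction.stabilizer G b : Subgroup G) : Set G) := by
      intro t ht
      simp only [Finset.coe_image, Set.mem_image, Finset.mem_coe, exists_exists_and_eq_and] at ht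
      obtain ⟨x, hxS, rfl⟩ := ht
      obtain ⟨-, hza, hzb⟩ := hφ x (hSmem x hxS).1 (hSmem x hxS).2
      rw [SetLike.mem_coe, Subgroup.mem_inf, MulAction.mem_stabilizer_iff,
        MulAction.mem_stabilizer_iff]
      constructor
      · rw [mul_smul, hza, ← hs0a, inv_smul_smul]
      · rw [mul_smul, hzb, ← hs0b, inv_smul_smul]
    have hcard : Nat.card ↥(MulAction.stabilizer G a ⊓ MulAction.stabilizer G b)
        = ((MulAction.stabilizer G a ⊓ MulAction.stabilizer G b : Subgroup G) : Set G).ncard :=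
      Nat.card_coe_set_eq _
    calc (S.image φ).card = ((S.image φ).image (fun t : G => s0⁻¹ * t)).card :=
          (Finset.card_image_of_injective _ hinj).symm
      _ = (((S.image φ).image (fun t : G => s0⁻¹ * t) : Finset G) : Set G).ncard :=
          (Set.ncard_coe_finset _).symm
      _ ≤ ((MulAction.stabilizer G a ⊓ MulAction.stabilizer G b : Subgroup G) : Set G).ncard :=
          Set.ncard_le_ncard hsub (Set.toFinite _)
      _ = Nat.card ↥(MulAction.stabilizer G a ⊓ MulAction.stabilizer G b) := hcard.symm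
  calc Fintype.card Ω - 2 = S.card := hScard.symm
    _ ≤ 2 * (S.image φ).card := h1
    _ ≤ 2 * Nat.card ↥(MulAction.stabilizer G a ⊓ MulAction.stabilizer G b) :=
        Nat.mul_le_mul_left 2 h2c

end Cfsg.Agent.S0741
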