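import Mathlib
import Cfsg.Statements.S0743
import Cfsg.Agent.Helper6.Trans

namespace Cfsg.Agent.S0743

open Cfsg.Agent.Helper6

theorem result {α : Type*} [Fintype α] [DecidableEq α] (G : Subgroup (Equiv.Perm α)) {p k : ℕ} (hp : p.Prime) (hk : 1 ≤ k) (hkn : k < Fintype.card α) (h : ∀ s : Finset α, s.card = k → ∃ P : Subgroup G, IsPGroup p P ∧ MulAction.fixedPoints P α = (s : Set α)) : MulAction.IsMultiplyPretransitive G α k := by
  classical
  haveI : Fact p.Prime := ⟨hp⟩
  obtain ⟨r, rfl⟩ : ∃ r, k = r + 1 := ⟨k - 1, by omega⟩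
  apply multiplyPretransitive_of_fixing_transitive G r (by omega)
  intro Γ hΓ y z hy hz
  by_contra hcon
  obtain ⟨O, hO⟩ : ∃ O : Finset α, O = Finset.univ.filter
      (fun w => ∃ g ∈ G, (∀ x ∈ Γ, g x = x) ∧ g y = w) := ⟨_, rfl⟩
  have hmemO : ∀ w, w ∈ O ↔ ∃ g ∈ G, (∀ x ∈ Γ, g x = x) ∧ g y = w := by
    intro w; rw [hO]; simp
  have hyO : y ∈ O := (hmemO y).2 ⟨1, G.one_mem, fun x _ => rfl, rfl⟩
  have hzO : z ∉ O := fun hc => hcon ((hmemO z).1 hc)
  have hOΓ : ∀ w ∈ O, w ∉ Γ := by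
    intro w hw hwΓ
    obtain ⟨g, hg, hfix, hgy⟩ := (hmemO w).1 hw
    have : g y = g w := by rw [hgy, hfix w hwΓ]
    exact hy (g.injective this ▸ hwΓ)
  -- general facts about a p-subgroup fixing Γ ∪ {u}
  have hinv : ∀ (P : Subgroup G) (u : α), MulAction.fixedPoints P α = ((insert u Γ : Finset α) : Set α) →
      ∀ g : P, ∀ w ∈ O, g • w ∈ O := by
    intro P u hfix g w hw
    obtain ⟨g0, hg0, hfix0, hg0y⟩ := (hmemO w).1 hw
    refine (hmemO _).2 ⟨(g : G).1 * g0, G.mul_mem (g : G).2 hg0, fun x hx => ?_, ?_⟩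
    · rw [Equiv.Perm.mul_apply, hfix0 x hx]
      have hxf : x ∈ MulAction.fixedPoints P α := by
        rw [hfix]; exact Finset.mem_coe.2 (Finset.mem_insert_of_mem hx)
      exact hxf g
    · rw [Equiv.Perm.mul_apply, hg0y]; rfl
  obtain ⟨Py, hPy, hfixy⟩ := h (insert y Γ) (by rw [Finset.card_insert_of_notMem hy, hΓ])
  obtain ⟨Pz, hPz, hfixz⟩ := h (insert z Γ) (by rw [Finset.card_insert_of_notMem hz, hΓ])
  have h1 : p ∣ (O.erase y).card := by
    apply dvd_card_of_orbits (H := Py) p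
    · intro g w hw
      rw [Finset.mem_erase] at hw ⊢
      refine ⟨fun hc => hw.1 ?_, hinv Py y hfixy g w hw.2⟩
      have hyf : y ∈ MulAction.fixedPoints Py α := by
        rw [hfixy]; exact Finset.mem_coe.2 (Finset.mem_insert_self y Γ)
      have : g • w = g • y := by rw [hc, hyf g]
      exact smul_left_cancel g this
    · intro w hw
      rw [Finset.mem_erase] at hw
      apply pgroup_dvd_card_orbit hPy
      rw [hfixy]
      intro hc
      rcases Finset.mem_insert.1 (Finset.mem_coe.1 hc) with hc | hc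
      · exact hw.1 hc
      · exact hOΓ w hw.2 hc
  have h2 : p ∣ O.card := by
    apply dvd_card_of_orbits (H := Pz) p
    · intro g w hw
      exact hinv Pz z hfixz g w hw
    · intro w hw
      apply pgroup_dvd_card_orbit hPz
      rw [hfixz]
      intro hc
      rcases Finset.mem_insert.1 (Finset.mem_coe.1 hc) with hc | hc
      · exact hzO (hc ▸ hw)
      · exact hOΓ w hw hc
  have h3 : O.card = (O.erase y).card + 1 := by
    rw [Finset.card_erase_of_mem hyO]
    have : 0 < O.card := Finset.card_pos.2 ⟨y, hyO⟩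
    omega
  rw [h3] at h2
  have : p ∣ 1 := (Nat.dvd_add_right h1).1 h2
  exact hp.one_lt.ne' (Nat.dvd_one.1 this)

end Cfsg.Agent.S0743
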