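import Mathlib
import Cfsg.Statements.S0744
import Cfsg.Agent.Helper6.Trans

namespace Cfsg.Agent.S0744

open Cfsg.Agent.Helper6

theorem card_stab {α : Type*} [Fintype α] [DecidableEq α] (G : Subgroup (Equiv.Perm α))
    (s : Finset α) (y : α) :
    Nat.card (MulAction.stabilizer (fixingSubgroup G (s : Set α)) y) =
      Nat.card (fixingSubgroup G ((insert y s : Finset α) : Set α)) := by
  have hmap : (MulAction.stabilizer (fixingSubgroup G (s : Set α)) y).map
      (fixingSubgroup G (s : Set α)).subtype = fixingSubgroup G ((insert y s : Finset α) : Set α) := by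
    ext g
    rw [Subgroup.mem_map, mem_fixingSubgroup_iff]
    constructor
    · rintro ⟨h, hh, rfl⟩
      intro x hx
      rcases Finset.mem_insert.1 (Finset.mem_coe.1 hx) with rfl | hx
      · exact hh
      · exact (mem_fixingSubgroup_iff G).1 h.2 x (Finset.mem_coe.2 hx)
    · intro hg
      refine ⟨⟨g, (mem_fixingSubgroup_iff G).2 fun x hx => hg x ?_⟩, ?_, rfl⟩
      · exact Finset.mem_coe.2 (Finset.mem_insert_of_mem (Finset.mem_coe.1 hx))
      · exact hg y (Finset.mem_coe.2 (Finset.mem_insert_self y s))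
  rw [← hmap, Subgroup.card_map_of_injective (Subgroup.subtype_injective _)]

theorem orbit_stab {K α : Type*} [Group K] [MulAction K α] (y : α) :
    Nat.card (MulAction.orbit K y) * Nat.card (MulAction.stabilizer K y) = Nat.card K := by
  rw [Nat.card_congr (MulAction.orbitEquivQuotientStabilizer K y)]
  exact (Subgroup.card_eq_card_quotient_mul_card_subgroup _).symm

theorem result {α : Type*} [Fintype α] [DecidableEq α] (G : Subgroup (Equiv.Perm α)) {k : ℕ} (hk : 1 < k) (hkn : k ≤ Fintype.card α) (l m : ℕ) (hl : 1 < l) (hkm1 : ∀ s : Finset α, s.card = k - 1 → Nat.card (fixingSubgroup G (s : Set α)) = l) (hkm : ∀ s : Finset α, s.card = k → Nat.card (fixingSubgroup G (s : Set α)) = m) : MulAction.IsMultiplyPretransitive G α (k - 1) := by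
  classical
  obtain ⟨r, rfl⟩ : ∃ r, k = r + 2 := ⟨k - 2, by omega⟩
  have hk1 : r + 2 - 1 = r + 1 := by omega
  rw [hk1] at hkm1 ⊢
  apply multiplyPretransitive_of_fixing_transitive G r hkn
  intro Γ hΓ y z hy hz
  by_contra hcon
  -- K-orbits
  have horb : ∀ w, w ∉ Γ → Nat.card (MulAction.orbit (fixingSubgroup G (Γ : Set α)) w) * l =
      Nat.card (fixingSubgroup G (Γ : Set α)) := by
    intro w hw
    rw [← orbit_stab (K := fixingSubgroup G (Γ : Set α)) w, card_stab,
      hkm1 _ (by rw [Finset.card_insert_of_notMem hw, hΓ])]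
  have hyz : y ≠ z := by
    rintro rfl
    exact hcon ⟨1, G.one_mem, fun x _ => rfl, rfl⟩
  have hz' : z ∉ insert y Γ := by
    rw [Finset.mem_insert]; rintro (h | h)
    · exact hyz h.symm
    · exact hz h
  -- K'-orbits
  have horb' : ∀ w, w ∉ insert y Γ →
      Nat.card (MulAction.orbit (fixingSubgroup G ((insert y Γ : Finset α) : Set α)) w) * m = l := by
    intro w hw
    rw [← hkm1 (insert y Γ) (by rw [Finset.card_insert_of_notMem hy, hΓ]),
      ← orbit_stab (K := fixingSubgroup G ((insert y Γ : Finset α) : Set α)) w, card_stab,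
      hkm _ (by rw [Finset.card_insert_of_notMem hw, Finset.card_insert_of_notMem hy, hΓ])]
  obtain ⟨d, hd⟩ : ∃ d, d = Nat.card (MulAction.orbit (fixingSubgroup G ((insert y Γ : Finset α) : Set α)) z) :=
    ⟨_, rfl⟩
  have hdm : d * m = l := by rw [hd]; exact horb' z hz'
  have hm0 : 0 < m := by
    rcases Nat.eq_zero_or_pos m with rfl | h
    · omega
    · exact h
  have hdw : ∀ w, w ∉ insert y Γ →
      Nat.card (MulAction.orbit (fixingSubgroup G ((insert y Γ : Finset α) : Set α)) w) = d := by
    intro w hw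
    have := horb' w hw
    rw [← hdm] at this
    exact Nat.eq_of_mul_eq_mul_right hm0 this
  -- the K-orbit finsets
  obtain ⟨O, hO⟩ : ∃ O : α → Finset α, O = fun u => Finset.univ.filter
      (fun w => w ∈ MulAction.orbit (fixingSubgroup G (Γ : Set α)) u) := ⟨_, rfl⟩
  have hmemO : ∀ u w, w ∈ O u ↔ w ∈ MulAction.orbit (fixingSubgroup G (Γ : Set α)) u := by
    intro u w; rw [hO]; simp
  have hOcard : ∀ u, (O u).card = Nat.card (MulAction.orbit (fixingSubgroup G (Γ : Set α)) u) := by
    intro u
    rw [Nat.card_eq_fintype_card, ← Set.toFinset_card]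
    congr 1
    ext w
    rw [hmemO, Set.mem_toFinset]
  have hON : (O y).card = (O z).card := by
    have h1 := horb y hy
    have h2 := horb z hz
    rw [← h2] at h1
    rw [hOcard, hOcard]
    exact Nat.eq_of_mul_eq_mul_right (by omega) h1
  have hOΓ : ∀ u, u ∉ Γ → ∀ w ∈ O u, w ∉ Γ := by
    intro u hu w hw hwΓ
    rw [hmemO] at hw
    obtain ⟨g, rfl⟩ := hw
    have hwΓ' : g • u ∈ Γ := hwΓ
    have h1 : g • (g • u) = g • u := (mem_fixingSubgroup_iff G).1 g.2 _ (Finset.mem_coe.2 hwΓ')
    have h2 : g • u = u := smul_left_cancel g h1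
    rw [h2] at hwΓ'
    exact hu hwΓ'
  have hzOy : z ∉ O y := by
    intro hc
    rw [hmemO] at hc
    obtain ⟨g, hg⟩ := hc
    exact hcon ⟨(g : G).1, (g : G).2, fun x hx => (mem_fixingSubgroup_iff G).1 g.2 x (Finset.mem_coe.2 hx), hg⟩
  have hyOz : y ∉ O z := by
    intro hc
    rw [hmemO] at hc
    obtain ⟨g, hg⟩ := hc
    apply hzOy
    rw [hmemO]
    refine ⟨g⁻¹, ?_⟩
    have hg' : g • z = y := hg
    show g⁻¹ • y = z
    rw [← hg', inv_smul_smul]
  -- K' preserves the K-orbits
  have hinv : ∀ u, ∀ g : fixingSubgroup G ((insert y Γ : Finset α) : Set α), ∀ w ∈ O u, g • w ∈ O u := by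
    intro u g w hw
    rw [hmemO] at hw ⊢
    have hgK : (g : G) ∈ fixingSubgroup G (Γ : Set α) := by
      rw [mem_fixingSubgroup_iff]
      intro x hx
      exact (mem_fixingSubgroup_iff G).1 g.2 x
        (Finset.mem_coe.2 (Finset.mem_insert_of_mem (Finset.mem_coe.1 hx)))
    exact MulAction.mem_orbit_of_mem_orbit (⟨(g : G), hgK⟩ : fixingSubgroup G (Γ : Set α)) hw
  have hgy : ∀ g : fixingSubgroup G ((insert y Γ : Finset α) : Set α), g • y = y := by
    intro g
    exact (mem_fixingSubgroup_iff G).1 g.2 y (Finset.mem_coe.2 (Finset.mem_insert_self y Γ))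
  have h1 : d ∣ ((O y).erase y).card := by
    apply dvd_card_of_orbits (H := fixingSubgroup G ((insert y Γ : Finset α) : Set α)) d
    · intro g w hw
      rw [Finset.mem_erase] at hw ⊢
      refine ⟨fun hc => hw.1 ?_, hinv y g w hw.2⟩
      have : g • w = g • y := by rw [hc, hgy g]
      exact smul_left_cancel g this
    · intro w hw
      rw [Finset.mem_erase] at hw
      rw [hdw w]
      rw [Finset.mem_insert]
      rintro (h | h)
      · exact hw.1 h
      · exact hOΓ y hy w hw.2 h
  have h2 : d ∣ (O z).card := by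
    apply dvd_card_of_orbits (H := fixingSubgroup G ((insert y Γ : Finset α) : Set α)) d
    · intro g w hw
      exact hinv z g w hw
    · intro w hw
      rw [hdw w]
      rw [Finset.mem_insert]
      rintro (h | h)
      · exact hyOz (h ▸ hw)
      · exact hOΓ z hz w hw h
  have hyOy : y ∈ O y := by rw [hmemO]; exact MulAction.mem_orbit_self y
  have h3 : (O y).card = ((O y).erase y).card + 1 := by
    rw [Finset.card_erase_of_mem hyOy]
    have : 0 < (O y).card := Finset.card_pos.2 ⟨y, hyOy⟩
    omega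
  rw [← hON, h3] at h2
  have hd1 : d = 1 := Nat.dvd_one.1 ((Nat.dvd_add_right h1).1 h2)
  -- then K' is trivial
  have htriv : ∀ g : fixingSubgroup G ((insert y Γ : Finset α) : Set α), g = 1 := by
    intro g
    apply Subtype.ext
    apply Subtype.ext
    ext w
    by_cases hw : w ∈ insert y Γ
    · exact (mem_fixingSubgroup_iff G).1 g.2 w (Finset.mem_coe.2 hw)
    · have hc := hdw w hw
      rw [hd1, Nat.card_eq_one_iff_unique] at hc
      obtain ⟨hsub, -⟩ := hc
      have := hsub.elim ⟨g • w, MulAction.mem_orbit w g⟩ ⟨w, MulAction.mem_orbit_self w⟩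
      exact congrArg Subtype.val this
  have hl1 : l = 1 := by
    rw [← hkm1 (insert y Γ) (by rw [Finset.card_insert_of_notMem hy, hΓ]), Nat.card_eq_one_iff_unique]
    exact ⟨⟨fun a b => by rw [htriv a, htriv b]⟩, ⟨1⟩⟩
  omega

end Cfsg.Agent.S0744
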