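import Mathlib
import Cfsg.Statements.S0754

set_option autoImplicit false
open Cfsg

namespace Cfsg.Agent.S0754

/-- In a field F with q^2 elements, every non-zero μ with μ^q = μ (that is, μ in the subfield of order q) has exactly q + 1 solutions λ of λ^(q+1) = μ. -/
theorem result {F : Type*} [Field F] [Fintype F] {q : ℕ} (hF : Fintype.card F = q ^ 2) (μ : F) (hμ : μ ≠ 0) (hμq : μ ^ q = μ) : Nat.card {x : F // x ^ (q + 1) = μ} = q + 1 := by
  classical
  have hq1 : 1 < q := by
    have h1 : 1 < Fintype.card F := Fintype.one_lt_card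
    rw [hF] at h1
    by_contra hcon
    have : q ≤ 1 := by omega
    interval_cases q <;> simp at h1
  have hcard : Nat.card Fˣ = q ^ 2 - 1 := by
    rw [Nat.card_eq_fintype_card, Fintype.card_units, hF]
  have hfact : q ^ 2 - 1 = (q - 1) * (q + 1) := by
    obtain ⟨k, rfl⟩ : ∃ k, q = k + 1 := ⟨q - 1, by omega⟩
    simp only [Nat.add_sub_cancel]
    ring_nf
    omega
  have hker : Nat.card (powMonoidHom (q + 1) : Fˣ →* Fˣ).ker = q + 1 := by
    rw [IsCyclic.card_powMonoidHom_ker, hcard, hfact]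
    exact Nat.gcd_eq_right (Dvd.intro_left _ rfl)
  have hker' : Nat.card (powMonoidHom (q - 1) : Fˣ →* Fˣ).ker = q - 1 := by
    rw [IsCyclic.card_powMonoidHom_ker, hcard, hfact]
    exact Nat.gcd_eq_right (Dvd.intro _ rfl)
  have hrange : Nat.card (powMonoidHom (q + 1) : Fˣ →* Fˣ).range = q - 1 := by
    rw [IsCyclic.card_powMonoidHom_range, hcard, hfact, Nat.gcd_eq_right (Dvd.intro_left _ rfl)]
    exact Nat.mul_div_cancel _ (by omega)
  have hle : (powMonoidHom (q + 1) : Fˣ →* Fˣ).range ≤ (powMonoidHom (q - 1) : Fˣ →* Fˣ).ker := by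
    rintro _ ⟨x, rfl⟩
    rw [MonoidHom.mem_ker, powMonoidHom_apply, powMonoidHom_apply, ← pow_mul, mul_comm, ← hfact,
      ← hcard]
    exact pow_card_eq_one'
  have heq : (powMonoidHom (q + 1) : Fˣ →* Fˣ).range = (powMonoidHom (q - 1) : Fˣ →* Fˣ).ker :=
    Subgroup.eq_of_le_of_card_ge hle (by rw [hrange, hker'])
  have hμ' : Units.mk0 μ hμ ∈ (powMonoidHom (q - 1) : Fˣ →* Fˣ).ker := by
    rw [MonoidHom.mem_ker, powMonoidHom_apply]
    ext
    simp only [Units.val_pow_eq_pow_val, Units.val_mk0, Units.val_one]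
    have h : μ ^ (q - 1) * μ = 1 * μ := by
      rw [← pow_succ, Nat.sub_add_cancel (by omega), hμq, one_mul]
    exact mul_right_cancel₀ hμ h
  rw [← heq] at hμ'
  obtain ⟨x₀, hx₀⟩ := hμ'
  rw [powMonoidHom_apply] at hx₀
  have hx₀' : (x₀ : F) ^ (q + 1) = μ := by
    have := congrArg Units.val hx₀
    simpa using this
  refine (Nat.card_congr ?_).trans hker
  refine
    { toFun := fun x => ⟨x₀⁻¹ * Units.mk0 x.1 (by
          intro h0
          have := x.2
          rw [h0, zero_pow (by omega)] at this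
          exact hμ this.symm), ?_⟩
      invFun := fun y => ⟨(x₀ : F) * (y.1 : Fˣ), ?_⟩
      left_inv := ?_
      right_inv := ?_ }
  · rw [MonoidHom.mem_ker, powMonoidHom_apply, mul_pow, inv_pow, hx₀]
    ext
    have hx2 := x.2
    simp only [Units.val_mul, Units.val_inv_eq_inv_val, Units.val_mk0, Units.val_pow_eq_pow_val,
      Units.val_one]
    rw [hx2, inv_mul_cancel₀ hμ]
  · have hy := y.2
    rw [MonoidHom.mem_ker, powMonoidHom_apply] at hy
    have hy' : ((y.1 : Fˣ) : F) ^ (q + 1) = 1 := by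
      have := congrArg Units.val hy
      simpa using this
    rw [mul_pow, hx₀', hy', mul_one]
  · intro x
    ext
    simp
  · intro y
    ext
    simp

end Cfsg.Agent.S0754
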