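import Mathlib
import Cfsg.Statements.S0756

set_option autoImplicit false
open Cfsg

namespace Cfsg.Agent.S0756

open Module LinearMap Polynomial

universe u v

section
variable {F : Type u} [Field F] [Fintype F]

theorem scale_lemma (h2 : (2 : F) ≠ 0) (α : F) (hα : ¬ IsSquare α) (d : F) (hd : d ≠ 0) :
    ∃ s : F, s ≠ 0 ∧ (d = s ^ 2 ∨ d = α * s ^ 2) := by
  classical
  have hα0 : α ≠ 0 := by
    rintro rfl
    exact hα ⟨0, by simp⟩
  by_cases hsq : IsSquare d
  · obtain ⟨s, hs⟩ := hsq
    refine ⟨s, ?_, Or.inl (by rw [hs]; ring)⟩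
    rintro rfl
    apply hd
    rw [hs]; ring
  · have h1 : quadraticChar F (d * α) = 1 := by
      rw [map_mul, quadraticChar_neg_one_iff_not_isSquare.mpr hsq,
        quadraticChar_neg_one_iff_not_isSquare.mpr hα]
      norm_num
    have hdα : d * α ≠ 0 := mul_ne_zero hd hα0
    obtain ⟨t, ht⟩ := (quadraticChar_one_iff_isSquare hdα).mp h1
    have ht0 : t ≠ 0 := by
      rintro rfl
      apply hdα
      rw [ht]; ring
    refine ⟨t / α, div_ne_zero ht0 hα0, Or.inr ?_⟩
    field_simp
    rw [ht]; ring

theorem exists_norm_one (h2 : (2 : F) ≠ 0) {V : Type v} [AddCommGroup V] [Module F V]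
    [FiniteDimensional F V] (B : LinearMap.BilinForm F V) (hS : B.IsSymm) (hB : B.Nondegenerate)
    (hdim : 2 ≤ finrank F V) : ∃ w : V, B w w = 1 := by
  classical
  letI : Invertible (2 : F) := invertibleOfNonzero h2
  obtain ⟨v, hv⟩ := LinearMap.BilinForm.exists_orthogonal_basis (LinearMap.BilinForm.isSymm_iff.mp hS)
  set i0 : Fin (finrank F V) := ⟨0, by omega⟩ with hi0
  set i1 : Fin (finrank F V) := ⟨1, by omega⟩ with hi1
  have h01 : i0 ≠ i1 := by simp [hi0, hi1, Fin.ext_iff]
  have hd0 : B (v i0) (v i0) ≠ 0 := hv.not_isOrtho_basis_self_of_separatingLeft hB.1 i0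
  have hd1 : B (v i1) (v i1) ≠ 0 := hv.not_isOrtho_basis_self_of_separatingLeft hB.1 i1
  have hchar : ringChar F ≠ 2 := by
    intro h
    apply h2
    have := ringChar.Nat.cast_ringChar (R := F)
    rw [h] at this
    exact_mod_cast this
  have hodd := FiniteField.odd_card_of_char_ne_two hchar
  have hf : (C (B (v i0) (v i0)) * X ^ 2 : F[X]).degree = 2 := Polynomial.degree_C_mul_X_pow 2 hd0
  have hg : (C (B (v i1) (v i1)) * X ^ 2 - C 1 : F[X]).degree = 2 := by
    have hlt : (C 1 : F[X]).degree < (C (B (v i1) (v i1)) * X ^ 2 : F[X]).degree := by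
      rw [Polynomial.degree_C_mul_X_pow 2 hd1]
      exact lt_of_le_of_lt Polynomial.degree_C_le (by norm_num)
    rw [Polynomial.degree_sub_eq_left_of_degree_lt hlt, Polynomial.degree_C_mul_X_pow 2 hd1]
    rfl
  obtain ⟨a, b, hab⟩ := FiniteField.exists_root_sum_quadratic hf hg hodd
  simp only [eval_mul, eval_C, eval_pow, eval_X, eval_sub] at hab
  have h01' : B (v i0) (v i1) = 0 := hv h01
  have h10' : B (v i1) (v i0) = 0 := hv h01.symm
  refine ⟨a • v i0 + b • v i1, ?_⟩
  simp only [map_add, map_smul, LinearMap.add_apply, LinearMap.smul_apply, smul_eq_mul, h01', h10']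
  linear_combination hab

theorem aux (h2 : (2 : F) ≠ 0) (α : F) (hα : ¬ IsSquare α) (n : ℕ) :
    ∀ (V : Type v) [AddCommGroup V] [Module F V] [FiniteDimensional F V]
      (B : LinearMap.BilinForm F V), B.IsSymm → B.Nondegenerate → finrank F V = n + 1 →
      ∃ b : Basis (Fin (n + 1)) F V, (∀ i j, i ≠ j → B (b i) (b j) = 0) ∧
        (∀ i, i ≠ Fin.last n → B (b i) (b i) = 1) ∧
        (B (b (Fin.last n)) (b (Fin.last n)) = 1 ∨ B (b (Fin.last n)) (b (Fin.last n)) = α) := by
  induction n with
  | zero =>
    intro V _ _ _ B hS hB hn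
    let b₀ : Basis (Fin 1) F V := Module.finBasisOfFinrankEq F V hn
    have hd : B (b₀ 0) (b₀ 0) ≠ 0 := by
      intro h0
      apply b₀.ne_zero 0
      apply hB.1 (b₀ 0)
      intro y
      have hy : y = (b₀.repr y 0) • b₀ 0 := by
        conv_lhs => rw [← b₀.sum_repr y]
        simp
      rw [hy, map_smul, h0, smul_zero]
    obtain ⟨s, hs, hds⟩ := scale_lemma h2 α hα _ hd
    let b := b₀.isUnitSMul (w := fun _ => s⁻¹) (fun _ => isUnit_iff_ne_zero.mpr (inv_ne_zero hs))
    have hb : ∀ i, b i = s⁻¹ • b₀ i := fun i => Basis.isUnitSMul_apply _ i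
    refine ⟨b, ?_, ?_, ?_⟩
    · intro i j hij
      exact absurd (Fin.ext (by have := i.2; have := j.2; omega)) hij
    · intro i hi
      exact absurd (Fin.ext (by have := i.2; simp)) hi
    · have hlast : Fin.last 0 = (0 : Fin 1) := rfl
      have hval : B (b (Fin.last 0)) (b (Fin.last 0)) = s⁻¹ * s⁻¹ * B (b₀ 0) (b₀ 0) := by
        simp only [hlast, hb, map_smul, LinearMap.smul_apply, smul_eq_mul]
        ring
      rcases hds with h | h
      · left
        rw [hval, h]
        field_simp
      · right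
        rw [hval, h]
        field_simp
  | succ n ih =>
    intro V _ _ _ B hS hB hn
    obtain ⟨w, hw⟩ := exists_norm_one h2 B hS hB (by omega)
    have hw0 : B w w ≠ 0 := by rw [hw]; exact one_ne_zero
    have hwne : w ≠ 0 := by
      rintro rfl
      simp at hw0
    have hBW : (B.restrict (B.orthogonal (F ∙ w))).Nondegenerate :=
      LinearMap.BilinForm.restrict_nondegenerate_orthogonal_spanSingleton B hB hS.isRefl hw0
    have hSW : (B.restrict (B.orthogonal (F ∙ w))).IsSymm := hS.restrict _
    have hfin : finrank F (B.orthogonal (F ∙ w)) = n + 1 := by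
      have h1 := Submodule.finrank_add_eq_of_isCompl
        (LinearMap.BilinForm.isCompl_span_singleton_orthogonal hw0)
      rw [finrank_span_singleton hwne, hn] at h1
      omega
    obtain ⟨bW, h1, h2', h3⟩ := ih (B.orthogonal (F ∙ w)) (B.restrict (B.orthogonal (F ∙ w)))
      hSW hBW hfin
    have horth : ∀ x : B.orthogonal (F ∙ w), B w (x : V) = 0 := fun x =>
      x.2 w (Submodule.mem_span_singleton_self w)
    have horth' : ∀ x : B.orthogonal (F ∙ w), B (x : V) w = 0 := fun x => by
      rw [hS.eq (x : V) w]; exact horth x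
    let b : Basis (Fin (n + 1 + 1)) F V :=
      Basis.mkFinCons w bW
        (by
          rintro c y hy hc
          have h4 := congrArg (B w) hc
          rw [map_add, map_smul, hw, horth ⟨y, hy⟩, map_zero, smul_eq_mul, mul_one, add_zero] at h4
          exact h4)
        (by
          intro y
          refine ⟨-B w y, fun z hz => ?_⟩
          obtain ⟨c, rfl⟩ := Submodule.mem_span_singleton.1 hz
          rw [map_smul, LinearMap.smul_apply, map_add, map_smul, hw, smul_eq_mul, smul_eq_mul,
            mul_one, add_neg_cancel, mul_zero])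
    have hbcoe : (b : Fin (n + 1 + 1) → V) = Fin.cons w ((↑) ∘ bW) := Basis.coe_mkFinCons _ _ _ _
    refine ⟨b, ?_, ?_, ?_⟩
    · intro i j
      rw [hbcoe]
      refine Fin.cases ?_ (fun i => ?_) i <;> refine Fin.cases ?_ (fun j => ?_) j <;> intro hij <;>
        simp only [Fin.cons_zero, Fin.cons_succ, Function.comp_apply]
      · exact (hij rfl).elim
      · exact horth _
      · exact horth' _
      · exact h1 i j (fun h => hij (by rw [h]))
    · intro i
      rw [hbcoe]
      refine Fin.cases ?_ (fun i => ?_) i <;> intro hi <;>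
        simp only [Fin.cons_zero, Fin.cons_succ, Function.comp_apply]
      · exact hw
      · exact h2' i (fun h => hi (by rw [h, Fin.succ_last]))
    · rw [hbcoe, ← Fin.succ_last]
      simp only [Fin.cons_succ, Function.comp_apply]
      exact h3

end

/-- Classification of symmetric bilinear forms over finite fields of odd characteristic: if B is non-degenerate symmetric on V of dimension n + 1 and α is a fixed non-square of F, there is an orthogonal basis b_0, ..., b_n with B(b_i, b_i) = 1 for i < n and B(b_n, b_n) ∈ {1, α}. -/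
theorem result {F V : Type*} [Field F] [Finite F] [AddCommGroup V] [Module F V] [FiniteDimensional F V] (h2 : (2 : F) ≠ 0) (B : LinearMap.BilinForm F V) (hS : B.IsSymm) (hB : B.Nondegenerate) {n : ℕ} (hn : Module.finrank F V = n + 1) (α : F) (hα : ¬ IsSquare α) : ∃ b : Module.Basis (Fin (n + 1)) F V, (∀ i j, i ≠ j → B (b i) (b j) = 0) ∧ (∀ i, i ≠ Fin.last n → B (b i) (b i) = 1) ∧ (B (b (Fin.last n)) (b (Fin.last n)) = 1 ∨ B (b (Fin.last n)) (b (Fin.last n)) = α) := by
  haveI := Fintype.ofFinite F
  exact aux h2 α hα n V B hS hB hn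

end Cfsg.Agent.S0756
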