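import Mathlib
import Cfsg.Statements.S0757

set_option autoImplicit false
open Cfsg

namespace Cfsg.Agent.S0757

theorem toMatrix'_wss {F : Type*} [Field F] [Invertible (2 : F)] {ι : Type*} [Fintype ι]
    [DecidableEq ι] (w : ι → F) :
    QuadraticForm.toMatrix' (QuadraticMap.weightedSumSquares F w) = Matrix.diagonal w := by
  ext i j
  rw [QuadraticForm.toMatrix', LinearMap.toMatrix₂'_apply, QuadraticMap.associated_apply,
    Matrix.diagonal_apply]
  simp only [QuadraticMap.weightedSumSquares_apply, Pi.add_apply, smul_eq_mul]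
  have h2 : (⅟2 : F) * 2 = 1 := invOf_mul_self 2
  by_cases hij : i = j
  · subst hij
    simp only [if_true]
    have : ∀ k : ι, w k * (((Pi.single i (1:F) : ι → F) k + (Pi.single i (1:F) : ι → F) k) * ((Pi.single i (1:F) : ι → F) k + (Pi.single i (1:F) : ι → F) k)) = 4 * (w k * ((Pi.single i (1:F) : ι → F) k * (Pi.single i (1:F) : ι → F) k)) := by
      intro k; ring
    simp only [this, ← Finset.mul_sum]
    have h3 : ∑ k, w k * ((Pi.single i (1:F) : ι → F) k * (Pi.single i (1:F) : ι → F) k) = w i := by
      rw [Finset.sum_eq_single i]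
      · simp
      · intro b _ hb
        simp [hb]
      · simp
    rw [h3, Module.End.smul_def, QuadraticMap.half_moduleEnd_apply_eq_half_smul, smul_eq_mul]
    linear_combination (w i) * h2
  · simp only [if_neg hij]
    have : ∀ k : ι, w k * (((Pi.single i (1:F) : ι → F) k + (Pi.single j (1:F) : ι → F) k) * ((Pi.single i (1:F) : ι → F) k + (Pi.single j (1:F) : ι → F) k)) = w k * ((Pi.single i (1:F) : ι → F) k * (Pi.single i (1:F) : ι → F) k) + w k * ((Pi.single j (1:F) : ι → F) k * (Pi.single j (1:F) : ι → F) k) := by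
      intro k
      have : (Pi.single i (1:F) : ι → F) k * (Pi.single j (1:F) : ι → F) k = 0 := by
        simp only [Pi.single_apply]
        split_ifs with h1 h2
        · exact absurd (h1.symm.trans h2) hij
        · simp
        · simp
        · simp
      linear_combination (2 * w k) * this
    simp only [this, Finset.sum_add_distrib]
    simp

/-- The two diagonal forms Σ x_i^2 and Σ_(i<n) x_i^2 + α x_n^2 on F^(n+1), with α a non-square and 2 ≠ 0 in F, are inequivalent quadratic forms (so over a finite field of odd order there are exactly two classes of non-singular symmetric bilinear forms in each dimension). -/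
theorem result {F : Type*} [Field F] (h2 : (2 : F) ≠ 0) (n : ℕ) (α : F) (hα : ¬ IsSquare α) : ¬ (QuadraticMap.weightedSumSquares F (fun _ : Fin (n + 1) => (1 : F))).Equivalent (QuadraticMap.weightedSumSquares F (fun i : Fin (n + 1) => if i = Fin.last n then α else (1 : F))) := by
  let _i2 : Invertible (2 : F) := invertibleOfNonzero h2
  rintro ⟨e⟩
  set Q1 := QuadraticMap.weightedSumSquares F (fun _ : Fin (n + 1) => (1 : F)) with hQ1
  set Q2 := QuadraticMap.weightedSumSquares F (fun i : Fin (n + 1) => if i = Fin.last n then α else (1 : F)) with hQ2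
  have hcomp : Q1 = Q2.comp (e.toLinearEquiv : (Fin (n+1) → F) →ₗ[F] (Fin (n+1) → F)) := by
    ext x
    rw [QuadraticMap.comp_apply]
    exact (e.map_app x).symm
  have hd : QuadraticForm.discr' Q1 = QuadraticForm.discr' (Q2.comp (e.toLinearEquiv : (Fin (n+1) → F) →ₗ[F] (Fin (n+1) → F))) := by rw [← hcomp]
  rw [QuadraticForm.discr'_comp] at hd
  have hd1 : QuadraticForm.discr' Q1 = 1 := by
    rw [QuadraticForm.discr', hQ1, toMatrix'_wss, Matrix.det_diagonal]
    simp
  have hd2 : QuadraticForm.discr' Q2 = α := by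
    rw [QuadraticForm.discr', hQ2, toMatrix'_wss, Matrix.det_diagonal]
    rw [Finset.prod_eq_single (Fin.last n)]
    · simp
    · intro b _ hb
      simp [hb]
    · simp
  rw [hd1, hd2] at hd
  set d := (LinearMap.toMatrix' (e.toLinearEquiv : (Fin (n+1) → F) →ₗ[F] (Fin (n+1) → F))).det with hd'
  have hd0 : d ≠ 0 := by
    rintro h0
    rw [h0] at hd
    simp at hd
  apply hα
  refine ⟨d⁻¹, ?_⟩
  calc α = (d * d * α) * (d⁻¹ * d⁻¹) := by field_simp
    _ = d⁻¹ * d⁻¹ := by rw [← hd, one_mul]

end Cfsg.Agent.S0757
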