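import Mathlib
import Cfsg.Statements.S0758

set_option autoImplicit false
open Cfsg

namespace Cfsg.Agent.S0758

theorem iso_iff {F : Type*} [Field F] (β : F) :
    (∃ x y : F, (x ≠ 0 ∨ y ≠ 0) ∧ x ^ 2 + β * y ^ 2 = 0) ↔ IsSquare (-β) := by
  constructor
  · rintro ⟨x, y, hxy, h⟩
    have hy : y ≠ 0 := by
      rintro rfl
      have hx : x = 0 := by simpa using h
      simp [hx] at hxy
    refine ⟨x / y, ?_⟩
    field_simp
    linear_combination -h
  · rintro ⟨c, hc⟩
    refine ⟨c, 1, Or.inr one_ne_zero, ?_⟩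
    linear_combination -hc

/-- For a finite field F of odd order q and a non-square α: the form x² + y² is isotropic iff q ≡ 1 mod 4, and the form x² + α y² is isotropic iff q ≡ 3 mod 4. -/
theorem result {F : Type*} [Field F] [Fintype F] (h2 : (2 : F) ≠ 0) (α : F) (hα : ¬ IsSquare α) : ((∃ x y : F, (x ≠ 0 ∨ y ≠ 0) ∧ x ^ 2 + y ^ 2 = 0) ↔ Fintype.card F % 4 = 1) ∧ ((∃ x y : F, (x ≠ 0 ∨ y ≠ 0) ∧ x ^ 2 + α * y ^ 2 = 0) ↔ Fintype.card F % 4 = 3) := by
  classical
  have hchar : ringChar F ≠ 2 := by
    intro h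
    apply h2
    have := ringChar.Nat.cast_ringChar (R := F)
    rw [h] at this
    exact_mod_cast this
  have hodd := FiniteField.odd_card_of_char_ne_two hchar
  have hneg1 := FiniteField.isSquare_neg_one_iff (F := F)
  constructor
  · have := iso_iff (1 : F)
    simp only [one_mul] at this
    rw [this, hneg1]
    omega
  · rw [iso_iff α]
    have hα0 : α ≠ 0 := by
      rintro rfl
      exact hα ⟨0, by simp⟩
    have hnα0 : -α ≠ 0 := neg_ne_zero.mpr hα0
    rw [← quadraticChar_one_iff_isSquare hnα0]
    have hmul : quadraticChar F (-α) = quadraticChar F (-1) * quadraticChar F α := by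
      rw [← map_mul]
      congr 1
      ring
    rw [hmul, quadraticChar_neg_one_iff_not_isSquare.mpr hα]
    have h1 : quadraticChar F (-1) * -1 = 1 ↔ quadraticChar F (-1) = -1 := by
      constructor
      · intro h
        linarith
      · intro h
        rw [h]; norm_num
    rw [h1, quadraticChar_neg_one_iff_not_isSquare, hneg1]
    omega

end Cfsg.Agent.S0758
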