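import Mathlib
import Cfsg.Statements.S0759

set_option autoImplicit false
open Cfsg

namespace Cfsg.Agent.S0759

open Module Matrix

section
variable {F : Type*} [Field F]

theorem transport {ι : Type*} [Fintype ι] {N m : ℕ} (e : ι ≃ Fin N)
    (h : ∃ W' : Submodule F (ι → F), Module.finrank F W' = m ∧ ∀ w ∈ W', ∑ i, w i ^ 2 = 0) :
    ∃ W : Submodule F (Fin N → F), Module.finrank F W = m ∧ ∀ w ∈ W, ∑ i, w i ^ 2 = 0 := by
  obtain ⟨W', hfin, hW'⟩ := h
  refine ⟨W'.map (LinearEquiv.funCongrLeft F F e.symm).toLinearMap, ?_, ?_⟩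
  · rw [LinearEquiv.finrank_map_eq]; exact hfin
  · rintro _ ⟨w, hw, rfl⟩
    have h1 : ∑ i, ((LinearEquiv.funCongrLeft F F e.symm) w i) ^ 2 = ∑ i, w i ^ 2 :=
      Equiv.sum_comp e.symm (fun i => w i ^ 2)
    exact h1.trans (hW' w hw)

theorem graph_lemma {κ ι : Type*} [Fintype κ] [Fintype ι] (L : (κ → F) →ₗ[F] (ι → F))
    (hinj : Function.Injective L) (hL : ∀ x, ∑ i, (L x i) ^ 2 = 0) :
    ∃ W' : Submodule F (ι → F), Module.finrank F W' = Fintype.card κ ∧
      ∀ w ∈ W', ∑ i, w i ^ 2 = 0 :=
  ⟨LinearMap.range L, by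
    rw [LinearMap.finrank_range_of_inj hinj, Module.finrank_fintype_fun_eq_card], by
    rintro _ ⟨x, rfl⟩; exact hL x⟩

/-- `x ↦ (x, i0 x)` -/
def Lmap2 (m : ℕ) (c : Fin 2 → F) : (Fin m → F) →ₗ[F] (Fin m × Fin 2 → F) where
  toFun x p := c p.2 * x p.1
  map_add' x y := by funext p; simp [mul_add]
  map_smul' r x := by funext p; simp; ring

/-- blocks of four -/
def Lmap4 (r : ℕ) (a b : F) : (Fin r × Fin 2 → F) →ₗ[F] (Fin r × Fin 4 → F) where
  toFun x p := ![x (p.1, 0), x (p.1, 1), a * x (p.1, 0) - b * x (p.1, 1),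
    b * x (p.1, 0) + a * x (p.1, 1)] p.2
  map_add' x y := by
    funext ⟨t, c⟩
    fin_cases c <;> simp <;> ring
  map_smul' s x := by
    funext ⟨t, c⟩
    fin_cases c <;> simp <;> ring

end

/-- Type of the orthonormal form: over a finite field of odd order q and for m ≥ 1, the quadratic form Σ_(i<2m) x_i² on F^(2m) admits an m-dimensional subspace on which it vanishes identically if and only if it is not the case that q ≡ 3 (mod 4) and m is odd. -/
theorem result {F : Type*} [Field F] [Fintype F] (h2 : (2 : F) ≠ 0) (m : ℕ) (hm : 1 ≤ m) : (∃ W : Submodule F (Fin (2 * m) → F), Module.finrank F W = m ∧ ∀ w ∈ W, ∑ i, w i ^ 2 = 0) ↔ ¬ (Fintype.card F % 4 = 3 ∧ Odd m) := by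
  classical
  constructor
  · rintro ⟨W, hfin, hW⟩ ⟨hq, hodd⟩
    apply (FiniteField.isSquare_neg_one_iff (F := F)).mp ?_ hq
    -- polarisation
    have hpol : ∀ w ∈ W, ∀ w' ∈ W, ∑ i, w i * w' i = 0 := by
      intro w hw w' hw'
      have h1 := hW (w + w') (W.add_mem hw hw')
      have h3 : ∑ i, (w + w') i ^ 2 = ∑ i, w i ^ 2 + 2 * ∑ i, w i * w' i + ∑ i, w' i ^ 2 := by
        rw [Finset.mul_sum, ← Finset.sum_add_distrib, ← Finset.sum_add_distrib]
        apply Finset.sum_congr rfl
        intro i _
        simp only [Pi.add_apply]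
        ring
      rw [h3, hW w hw, hW w' hw', zero_add, add_zero] at h1
      rcases mul_eq_zero.mp h1 with h | h
      · exact absurd h h2
      · exact h
    obtain ⟨bW⟩ : Nonempty (Basis (Fin m) F W) := ⟨Module.finBasisOfFinrankEq F W hfin⟩
    -- dual vectors
    have hφ : ∀ j : Fin m, ∃ φ : (Fin (2 * m) → F) →ₗ[F] F, ∀ i : Fin m,
        φ (bW i : Fin (2 * m) → F) = if i = j then 1 else 0 := by
      intro j
      obtain ⟨φ, hφ⟩ := LinearMap.exists_extend (bW.coord j)
      refine ⟨φ, fun i => ?_⟩
      have := congrArg (fun f => f (bW i)) hφ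
      simp only [LinearMap.comp_apply, Submodule.subtype_apply] at this
      rw [this, Basis.coord_apply, Basis.repr_self, Finsupp.single_apply]
    choose φ hφ using hφ
    obtain ⟨u, hudef⟩ : ∃ u : Fin m → Fin (2 * m) → F,
        u = fun j k => φ j (Pi.single k 1) := ⟨_, rfl⟩
    have hφu : ∀ (j : Fin m) (v : Fin (2 * m) → F), φ j v = ∑ k, v k * u j k := by
      intro j v
      conv_lhs => rw [← (Pi.basisFun F (Fin (2 * m))).sum_repr v]
      rw [map_sum]
      apply Finset.sum_congr rfl
      intro k _
      rw [map_smul, hudef]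
      simp [Pi.basisFun_apply]
    -- the matrix P
    obtain ⟨P, hPdef⟩ : ∃ P : Matrix (Fin m ⊕ Fin m) (Fin (2 * m)) F,
        P = Matrix.of (fun r k => Sum.elim (fun i => (bW i : Fin (2 * m) → F) k)
          (fun j => u j k) r) := ⟨_, rfl⟩
    obtain ⟨D, hDdef⟩ : ∃ D : Matrix (Fin m) (Fin m) F,
        D = Matrix.of (fun j l => ∑ k, u j k * u l k) := ⟨_, rfl⟩
    have hPP : P * P.transpose = Matrix.fromBlocks (0 : Matrix (Fin m) (Fin m) F)
        (1 : Matrix (Fin m) (Fin m) F) (1 : Matrix (Fin m) (Fin m) F) D := by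
      ext r s
      rw [Matrix.mul_apply]
      rcases r with i | j <;> rcases s with i' | j'
      · simp only [hPdef, Matrix.transpose_apply, Matrix.of_apply, Sum.elim_inl,
          Matrix.fromBlocks_apply₁₁, Matrix.zero_apply]
        exact hpol _ (bW i).2 _ (bW i').2
      · simp only [hPdef, Matrix.transpose_apply, Matrix.of_apply, Sum.elim_inl, Sum.elim_inr,
          Matrix.fromBlocks_apply₁₂]
        rw [← hφu, hφ, Matrix.one_apply]
      · simp only [hPdef, Matrix.transpose_apply, Matrix.of_apply, Sum.elim_inl, Sum.elim_inr,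
          Matrix.fromBlocks_apply₂₁]
        have : ∑ k, u j k * (bW i' : Fin (2 * m) → F) k
            = ∑ k, (bW i' : Fin (2 * m) → F) k * u j k :=
          Finset.sum_congr rfl (fun k _ => mul_comm _ _)
        rw [this, ← hφu, hφ, Matrix.one_apply]
        simp only [eq_comm]
      · simp only [hPdef, hDdef, Matrix.transpose_apply, Matrix.of_apply, Sum.elim_inr,
          Matrix.fromBlocks_apply₂₂]
    obtain ⟨e⟩ : Nonempty (Fin m ⊕ Fin m ≃ Fin (2 * m)) :=
      ⟨Fintype.equivFinOfCardEq (by simp; omega)⟩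
    have hP' : (P.submatrix id e) * (P.submatrix id e).transpose
        = Matrix.fromBlocks (0 : Matrix (Fin m) (Fin m) F)
        (1 : Matrix (Fin m) (Fin m) F) (1 : Matrix (Fin m) (Fin m) F) D := by
      rw [Matrix.transpose_submatrix, Matrix.submatrix_mul_equiv, hPP]
      rfl
    have hdet1 : (P.submatrix id e).det * (P.submatrix id e).det
        = (Matrix.fromBlocks (0 : Matrix (Fin m) (Fin m) F) (1 : Matrix (Fin m) (Fin m) F)
          (1 : Matrix (Fin m) (Fin m) F) D).det := by
      rw [← hP', Matrix.det_mul, Matrix.det_transpose]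
    have hS : Matrix.fromBlocks (0 : Matrix (Fin m) (Fin m) F) (1 : Matrix (Fin m) (Fin m) F)
          (1 : Matrix (Fin m) (Fin m) F) D
        * Matrix.fromBlocks (0 : Matrix (Fin m) (Fin m) F) (1 : Matrix (Fin m) (Fin m) F)
          (1 : Matrix (Fin m) (Fin m) F) (0 : Matrix (Fin m) (Fin m) F)
        = Matrix.fromBlocks (1 : Matrix (Fin m) (Fin m) F) (0 : Matrix (Fin m) (Fin m) F) D
          (1 : Matrix (Fin m) (Fin m) F) := by
      rw [Matrix.fromBlocks_multiply]
      simp
    have hS2 : Matrix.fromBlocks (0 : Matrix (Fin m) (Fin m) F) (1 : Matrix (Fin m) (Fin m) F)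
          (1 : Matrix (Fin m) (Fin m) F) (0 : Matrix (Fin m) (Fin m) F)
        * Matrix.fromBlocks (1 : Matrix (Fin m) (Fin m) F) (0 : Matrix (Fin m) (Fin m) F)
          (1 : Matrix (Fin m) (Fin m) F) (1 : Matrix (Fin m) (Fin m) F)
        = Matrix.fromBlocks (1 : Matrix (Fin m) (Fin m) F) (1 : Matrix (Fin m) (Fin m) F)
          (1 : Matrix (Fin m) (Fin m) F) (0 : Matrix (Fin m) (Fin m) F) := by
      rw [Matrix.fromBlocks_multiply]
      simp
    have hdetS : (Matrix.fromBlocks (0 : Matrix (Fin m) (Fin m) F) (1 : Matrix (Fin m) (Fin m) F)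
          (1 : Matrix (Fin m) (Fin m) F) (0 : Matrix (Fin m) (Fin m) F)).det = (-1) ^ m := by
      have h1 := congrArg Matrix.det hS2
      rw [Matrix.det_mul, Matrix.det_fromBlocks_zero₁₂, Matrix.det_one, mul_one, mul_one,
        Matrix.det_fromBlocks_one₁₁] at h1
      rw [h1]
      simp [Matrix.det_neg]
    have hdet2 := congrArg Matrix.det hS
    rw [Matrix.det_mul, Matrix.det_fromBlocks_zero₁₂, Matrix.det_one, mul_one, hdetS,
      ← hdet1, hodd.neg_one_pow] at hdet2
    refine ⟨(P.submatrix id e).det, ?_⟩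
    linear_combination hdet2
  · intro hcond
    by_cases hq : Fintype.card F % 4 = 3
    · -- m is even
      have hev : Even m := by
        rw [← Nat.not_odd_iff_even]
        exact fun h => hcond ⟨hq, h⟩
      obtain ⟨r, hr⟩ := hev
      -- a^2 + b^2 = -1
      have hchar : ringChar F ≠ 2 := by
        intro h
        apply h2
        have := ringChar.Nat.cast_ringChar (R := F)
        rw [h] at this
        exact_mod_cast this
      have hoddq := FiniteField.odd_card_of_char_ne_two hchar
      have hf : (Polynomial.X ^ 2 : Polynomial F).degree = 2 := Polynomial.degree_X_pow 2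
      have hg : (Polynomial.X ^ 2 + Polynomial.C 1 : Polynomial F).degree = 2 := by
        rw [Polynomial.degree_add_eq_left_of_degree_lt, Polynomial.degree_X_pow]
        · rfl
        · rw [Polynomial.degree_X_pow]
          exact lt_of_le_of_lt Polynomial.degree_C_le (by norm_num)
      obtain ⟨a, b, hab⟩ := FiniteField.exists_root_sum_quadratic hf hg hoddq
      simp only [Polynomial.eval_pow, Polynomial.eval_X, Polynomial.eval_add,
        Polynomial.eval_C] at hab
      have hex := graph_lemma (Lmap4 r a b)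
        (by
          intro x y hxy
          funext ⟨t, c⟩
          have h0 := congrFun hxy (t, 0)
          have h1 := congrFun hxy (t, 1)
          simp only [Lmap4, LinearMap.coe_mk, AddHom.coe_mk, Matrix.cons_val_zero,
            Matrix.cons_val_one] at h0 h1
          fin_cases c
          · exact h0
          · exact h1)
        (by
          intro x
          rw [Fintype.sum_prod_type]
          apply Finset.sum_eq_zero
          intro t _
          rw [Fin.sum_univ_four]
          simp only [Lmap4, LinearMap.coe_mk, AddHom.coe_mk]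
          simp only [Matrix.cons_val_zero, Matrix.cons_val_one, Matrix.cons_val]
          linear_combination (x (t, 0) ^ 2 + x (t, 1) ^ 2) * hab)
      have hcard : Fintype.card (Fin r × Fin 2) = m := by simp; omega
      rw [hcard] at hex
      exact transport (Fintype.equivFinOfCardEq (by simp; omega)) hex
    · obtain ⟨i0, hi0⟩ := (FiniteField.isSquare_neg_one_iff (F := F)).mpr hq
      have hex := graph_lemma (Lmap2 m ![1, i0])
        (by
          intro x y hxy
          funext j
          have h0 := congrFun hxy (j, 0)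
          simpa [Lmap2] using h0)
        (by
          intro x
          rw [Fintype.sum_prod_type]
          apply Finset.sum_eq_zero
          intro t _
          rw [Fin.sum_univ_two]
          simp only [Lmap2, LinearMap.coe_mk, AddHom.coe_mk, Matrix.cons_val_zero,
            Matrix.cons_val_one]
          linear_combination (-(x t) ^ 2) * hi0)
      have hcard : Fintype.card (Fin m) = m := by simp
      rw [hcard] at hex
      exact transport (Fintype.equivFinOfCardEq (by simp; omega)) hex

end Cfsg.Agent.S0759
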