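import Mathlib
import Cfsg.Statements.S0760

set_option autoImplicit false
open Cfsg

namespace Cfsg.Agent.S0760

open Module

theorem le_aux {F V : Type*} [Field F] [AddCommGroup V] [Module F V] [FiniteDimensional F V]
    (Q : QuadraticForm F V) (hQ : (QuadraticMap.polarBilin Q).Nondegenerate)
    (W₁ W₂ : Submodule F V) (h₁ : ∀ w ∈ W₁, Q w = 0) (h₂ : ∀ w ∈ W₂, Q w = 0)
    (hmax₁ : ∀ W : Submodule F V, W₁ ≤ W → (∀ w ∈ W, Q w = 0) → W = W₁) :
    finrank F W₂ ≤ finrank F W₁ := by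
  classical
  obtain ⟨B, hBdef⟩ : ∃ B : LinearMap.BilinForm F V, B = QuadraticMap.polarBilin Q := ⟨_, rfl⟩
  have hBapp : ∀ x y : V, B x y = Q (x + y) - Q x - Q y := fun x y => by
    rw [hBdef]; rfl
  have hBnd : B.Nondegenerate := by rw [hBdef]; exact hQ
  have hiso2 : ∀ x ∈ W₂, ∀ y ∈ W₂, B x y = 0 := by
    intro x hx y hy
    rw [hBapp, h₂ x hx, h₂ y hy, h₂ _ (W₂.add_mem hx hy)]
    ring
  have hU : W₂ ⊓ B.orthogonal W₁ ≤ W₁ := by
    intro u hu
    obtain ⟨hu2, hu1⟩ := hu
    have hW : W₁ ⊔ Submodule.span F {u} = W₁ := by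
      apply hmax₁ _ le_sup_left
      intro x hx
      obtain ⟨w, hw, z, hz, rfl⟩ := Submodule.mem_sup.mp hx
      obtain ⟨a, rfl⟩ := Submodule.mem_span_singleton.mp hz
      have h3 : B w u = 0 := hu1 w hw
      have h4 : B w (a • u) = 0 := by rw [map_smul, h3, smul_zero]
      rw [hBapp] at h4
      have h5 : Q (a • u) = 0 := by rw [QuadraticMap.map_smul, h₂ u hu2, smul_zero]
      rw [h₁ w hw, h5] at h4
      linear_combination h4
    rw [← hW]
    exact Submodule.mem_sup_right (Submodule.mem_span_singleton_self u)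
  have hUD : W₂ ⊓ B.orthogonal W₁ ≤ W₁ ⊓ W₂ := le_inf hU inf_le_left
  have hle : W₂ ⊔ B.orthogonal W₁ ≤ B.orthogonal (W₁ ⊓ W₂) := by
    apply sup_le
    · intro y hy n hn
      exact hiso2 n hn.2 y hy
    · exact LinearMap.BilinForm.orthogonal_le inf_le_left
  have hdim := Submodule.finrank_sup_add_finrank_inf_eq W₂ (B.orthogonal W₁)
  have ho1 := LinearMap.BilinForm.finrank_orthogonal hBnd W₁
  have hoD := LinearMap.BilinForm.finrank_orthogonal hBnd (W₁ ⊓ W₂)
  have hm1 := Submodule.finrank_mono hle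
  have hm2 := Submodule.finrank_mono hUD
  have hl1 := Submodule.finrank_le W₁
  have hlD := Submodule.finrank_le (W₁ ⊓ W₂)
  omega

/-- Witt index is well defined: if Q is a quadratic form on a finite-dimensional space V over a finite field with non-degenerate polar form, and W₁, W₂ are subspaces on which Q vanishes that are maximal with this property, then W₁ and W₂ have the same dimension, and twice this dimension is at most dim V. -/
theorem result {F V : Type*} [Field F] [Finite F] [AddCommGroup V] [Module F V] [FiniteDimensional F V] (Q : QuadraticForm F V) (hQ : (QuadraticMap.polarBilin Q).Nondegenerate) (W₁ W₂ : Submodule F V) (h₁ : ∀ w ∈ W₁, Q w = 0) (h₂ : ∀ w ∈ W₂, Q w = 0) (hmax₁ : ∀ W : Submodule F V, W₁ ≤ W → (∀ w ∈ W, Q w = 0) → W = W₁) (hmax₂ : ∀ W : Submodule F V, W₂ ≤ W → (∀ w ∈ W, Q w = 0) → W = W₂) : Module.finrank F W₁ = Module.finrank F W₂ ∧ 2 * Module.finrank F W₁ ≤ Module.finrank F V := by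
  refine ⟨le_antisymm (le_aux Q hQ W₂ W₁ h₂ h₁ hmax₂) (le_aux Q hQ W₁ W₂ h₁ h₂ hmax₁), ?_⟩
  have hle : W₁ ≤ LinearMap.BilinForm.orthogonal (QuadraticMap.polarBilin Q) W₁ := by
    intro y hy n hn
    change QuadraticMap.polar Q n y = 0
    unfold QuadraticMap.polar
    rw [h₁ n hn, h₁ y hy, h₁ _ (W₁.add_mem hn hy)]
    ring
  have ho1 := LinearMap.BilinForm.finrank_orthogonal (B := QuadraticMap.polarBilin Q) hQ W₁
  have hm1 := Submodule.finrank_mono hle
  have hl1 := Submodule.finrank_le W₁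
  omega

end Cfsg.Agent.S0760
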