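import Mathlib
import Cfsg.Statements.S0761

set_option autoImplicit false
open Cfsg

namespace Cfsg.Agent.S0761

/-- Hyperbolic partners: let B be a non-degenerate bilinear form on a finite-dimensional space, either alternating, or symmetric with 2 ≠ 0. If Z is a subspace on which B vanishes, x ∉ Z is isotropic and orthogonal to Z, then there is an isotropic y with B x y = 1 which is orthogonal to Z. -/
theorem result {F V : Type*} [Field F] [AddCommGroup V] [Module F V] [FiniteDimensional F V] (B : LinearMap.BilinForm F V) (hB : B.Nondegenerate) (hform : B.IsAlt ∨ (B.IsSymm ∧ (2 : F) ≠ 0)) (x : V) (Z : Submodule F V) (hxZ : x ∉ Z) (hx : B x x = 0) (hxz : ∀ z ∈ Z, B x z = 0) (hZ : ∀ z ∈ Z, ∀ z' ∈ Z, B z z' = 0) : ∃ y : V, B y y = 0 ∧ B x y = 1 ∧ ∀ z ∈ Z, B z y = 0 := by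
  have hrefl : B.IsRefl := by
    rcases hform with h | h
    · exact h.isRefl
    · exact h.1.isRefl
  have key : ∃ y₀ : V, (∀ z ∈ Z, B z y₀ = 0) ∧ B x y₀ ≠ 0 := by
    by_contra hcon
    push Not at hcon
    apply hxZ
    rw [← LinearMap.BilinForm.orthogonal_orthogonal hB hrefl Z]
    rw [LinearMap.BilinForm.mem_orthogonal_iff]
    intro y hy
    rw [LinearMap.BilinForm.mem_orthogonal_iff] at hy
    have h1 : B x y = 0 := hcon y (fun z hz => hy z hz)
    exact hrefl x y h1
  obtain ⟨y₀, hy₀Z, hy₀x⟩ := key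
  set y₁ := (B x y₀)⁻¹ • y₀ with hy₁
  have hxy₁ : B x y₁ = 1 := by
    rw [hy₁, map_smul, smul_eq_mul, inv_mul_cancel₀ hy₀x]
  have hy₁Z : ∀ z ∈ Z, B z y₁ = 0 := by
    intro z hz
    rw [hy₁, map_smul, hy₀Z z hz, smul_zero]
  rcases hform with hA | ⟨hS, h2⟩
  · exact ⟨y₁, hA y₁, hxy₁, hy₁Z⟩
  · have hsymm : ∀ u v : V, B u v = B v u := fun u v => by
      have := hS.eq u v
      simpa using this
    refine ⟨y₁ - (B y₁ y₁ / 2) • x, ?_, ?_, ?_⟩
    · simp only [map_sub, map_smul, LinearMap.sub_apply, LinearMap.smul_apply, smul_eq_mul, hx,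
        hxy₁, hsymm y₁ x]
      field_simp
      ring
    · simp only [map_sub, map_smul, smul_eq_mul, hx, hxy₁]
      ring
    · intro z hz
      simp only [map_sub, map_smul, smul_eq_mul, hy₁Z z hz, hsymm z x, hxz z hz]
      ring

end Cfsg.Agent.S0761
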