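import Mathlib
import Cfsg.Statements.S0762

set_option autoImplicit false
open Cfsg

namespace Cfsg.Agent.S0762

/-- In characteristic two over a finite field, a quadratic form on a space of dimension at least 3 vanishes on some non-zero vector. -/
theorem result {F V : Type*} [Field F] [Finite F] [CharP F 2] [AddCommGroup V] [Module F V] [FiniteDimensional F V] (Q : QuadraticForm F V) (h3 : 3 ≤ Module.finrank F V) : ∃ v : V, v ≠ 0 ∧ Q v = 0 := by
  classical
  have h2 : (2 : F) = 0 := by
    have := CharP.cast_eq_zero F 2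
    exact_mod_cast this
  set b := Module.finBasis F V with hb
  set i0 : Fin (Module.finrank F V) := ⟨0, by omega⟩ with hi0
  set i1 : Fin (Module.finrank F V) := ⟨1, by omega⟩ with hi1
  set i2 : Fin (Module.finrank F V) := ⟨2, by omega⟩ with hi2
  have h01 : i0 ≠ i1 := by simp [hi0, hi1, Fin.ext_iff]
  have h02 : i0 ≠ i2 := by simp [hi0, hi2, Fin.ext_iff]
  have h12 : i1 ≠ i2 := by simp [hi1, hi2, Fin.ext_iff]
  set u := b i0 with hu
  set v := b i1 with hv
  set w := b i2 with hw
  -- nonvanishing of combinations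
  have hne : ∀ t c₁ c₂ : F, (c₁ ≠ 0 ∨ c₂ ≠ 0) → t • u + (c₁ • v + c₂ • w) ≠ 0 := by
    intro t c₁ c₂ hc h0
    have hr := congrArg b.repr h0
    simp only [map_add, map_smul, map_zero, hu, hv, hw, Module.Basis.repr_self] at hr
    have hr1 := DFunLike.congr_fun hr i1
    have hr2 := DFunLike.congr_fun hr i2
    simp only [Finsupp.add_apply, Finsupp.smul_apply, Finsupp.single_apply, smul_eq_mul,
      Finsupp.zero_apply] at hr1 hr2
    simp only [if_neg h01, if_neg h12, if_neg h02, if_neg h12.symm, if_true, mul_zero, mul_one,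
      zero_add, add_zero] at hr1 hr2
    rcases hc with hc | hc
    · exact hc hr1
    · exact hc hr2
  -- find c₁ c₂ with polar u (c₁ v + c₂ w) = 0
  obtain ⟨c₁, c₂, hc, hpol⟩ : ∃ c₁ c₂ : F, (c₁ ≠ 0 ∨ c₂ ≠ 0) ∧
      QuadraticMap.polar Q u (c₁ • v + c₂ • w) = 0 := by
    by_cases huv : QuadraticMap.polar Q u v = 0
    · refine ⟨1, 0, Or.inl one_ne_zero, ?_⟩
      simp [huv]
    · refine ⟨-QuadraticMap.polar Q u w, QuadraticMap.polar Q u v, Or.inr huv, ?_⟩
      rw [QuadraticMap.polar_add_right, QuadraticMap.polar_smul_right,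
        QuadraticMap.polar_smul_right]
      simp only [smul_eq_mul]
      ring
  by_cases hQu : Q u = 0
  · refine ⟨u, ?_, hQu⟩
    have := hne 1 1 0 (Or.inl one_ne_zero)
    intro h0
    have hr := congrArg b.repr h0
    simp only [hu, Module.Basis.repr_self, map_zero] at hr
    have hr0 := DFunLike.congr_fun hr i0
    simp at hr0
  · obtain ⟨t, ht⟩ := FiniteField.isSquare_of_char_two (ringChar.eq F 2) (Q (c₁ • v + c₂ • w) / Q u)
    refine ⟨t • u + (c₁ • v + c₂ • w), hne t c₁ c₂ hc, ?_⟩
    have hpolar : Q (t • u + (c₁ • v + c₂ • w)) = Q (t • u) + Q (c₁ • v + c₂ • w) +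
        QuadraticMap.polar Q (t • u) (c₁ • v + c₂ • w) := by
      rw [QuadraticMap.polar]
      ring
    rw [hpolar, QuadraticMap.polar_smul_left, hpol, QuadraticMap.map_smul, smul_zero, add_zero,
      smul_eq_mul, ← ht]
    field_simp
    linear_combination (Q (c₁ • v + c₂ • w)) * h2

end Cfsg.Agent.S0762
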