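import Mathlib
import Cfsg.Statements.S0763

set_option autoImplicit false
open Cfsg

namespace Cfsg.Agent.S0763

open QuadraticMap

/-- Binary quadratic forms in characteristic two over a finite field: if Q is a quadratic form on a 2-dimensional space whose polar form is non-degenerate, then either there are vectors v, w with Q v = Q w = 0 and polar value 1 (Q is xy in these coordinates), or there are v, w and μ with Q v = 1, Q w = μ, polar value 1 and x² + x + μ without roots in F (Q is x² + xy + μy²). -/
theorem result {F V : Type*} [Field F] [Finite F] [CharP F 2] [AddCommGroup V] [Module F V] (Q : QuadraticForm F V) (h2 : Module.finrank F V = 2) (hQ : (QuadraticMap.polarBilin Q).Nondegenerate) : (∃ v w : V, LinearIndependent F ![v, w] ∧ Q v = 0 ∧ Q w = 0 ∧ QuadraticMap.polar Q v w = 1) ∨ (∃ (v w : V) (μ : F), LinearIndependent F ![v, w] ∧ (∀ x : F, x ^ 2 + x + μ ≠ 0) ∧ Q v = 1 ∧ Q w = μ ∧ QuadraticMap.polar Q v w = 1) := by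
  classical
  haveI : FiniteDimensional F V := Module.finite_of_finrank_pos (by rw [h2]; norm_num)
  have h2F : (2 : F) = 0 := CharTwo.two_eq_zero
  have hpol : ∀ x y : V, Q (x + y) = Q x + Q y + polar Q x y := fun x y => by
    unfold polar; ring
  have hself : ∀ x : V, polar Q x x = 0 := by
    intro x
    have := hpol x x
    have h4 : Q (x + x) = 4 * Q x := by
      have : x + x = (2 : F) • x := by rw [two_smul]
      rw [this, QuadraticMap.map_smul, smul_eq_mul]; ring
    rw [h4] at this
    linear_combination (-1 : F) * this + Q x * h2F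
  have hsymm : ∀ x y : V, polar Q x y = polar Q y x := fun x y => polar_comm Q x y
  have hex : ∀ v : V, v ≠ 0 → ∃ w, polar Q v w = 1 := by
    intro v hv
    by_contra hcon
    push Not at hcon
    apply hv
    apply hQ.1 v
    intro y
    rw [polarBilin_apply_apply]
    by_contra hy
    apply hcon ((polar Q v y)⁻¹ • y)
    rw [polar_smul_right, smul_eq_mul, inv_mul_cancel₀ hy]
  have hli : ∀ v w : V, polar Q v w = 1 → LinearIndependent F ![v, w] := by
    intro v w hvw
    rw [LinearIndependent.pair_iff]
    intro s t hst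
    have h1 : polar Q v (s • v + t • w) = 0 := by rw [hst]; simp
    have h3 : polar Q (s • v + t • w) w = 0 := by rw [hst]; simp
    rw [polar_add_right, polar_smul_right, polar_smul_right, hself, hvw] at h1
    rw [polar_add_left, polar_smul_left, polar_smul_left, hself, hvw] at h3
    simp only [smul_eq_mul, mul_zero, mul_one, zero_add, add_zero] at h1 h3
    exact ⟨h3, h1⟩
  by_cases hiso : ∃ v : V, v ≠ 0 ∧ Q v = 0
  · obtain ⟨v, hv, hQv⟩ := hiso
    obtain ⟨w, hw⟩ := hex v hv
    left
    have hvw' : polar Q v (w + Q w • v) = 1 := by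
      rw [polar_add_right, polar_smul_right, hself, hw]; simp
    refine ⟨v, w + Q w • v, hli _ _ hvw', hQv, ?_, hvw'⟩
    rw [hpol, QuadraticMap.map_smul, hQv, polar_smul_right, hsymm w v, hw]
    simp only [smul_eq_mul, mul_zero, mul_one, add_zero]
    linear_combination Q w * h2F
  · push Not at hiso
    right
    obtain ⟨v0, hv0⟩ : ∃ v0 : V, v0 ≠ 0 := by
      have : 0 < Module.finrank F V := by omega
      exact Module.finrank_pos_iff_exists_ne_zero.mp this
    have hc : Q v0 ≠ 0 := hiso v0 hv0
    obtain ⟨s, hs⟩ := FiniteField.isSquare_of_char_two (ringChar.eq F 2) (Q v0)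
    have hs0 : s ≠ 0 := by
      rintro rfl
      apply hc
      rw [hs]; ring
    have hQv : Q (s⁻¹ • v0) = 1 := by
      rw [QuadraticMap.map_smul, hs, smul_eq_mul]
      field_simp
    have hvne : s⁻¹ • v0 ≠ 0 := by
      intro h
      rw [h, QuadraticMap.map_zero] at hQv
      exact zero_ne_one hQv
    obtain ⟨w, hw⟩ := hex _ hvne
    have hliv := hli _ _ hw
    refine ⟨s⁻¹ • v0, w, Q w, hliv, ?_, hQv, rfl, hw⟩
    intro x hx
    have hQx : Q (x • (s⁻¹ • v0) + w) = x ^ 2 + x + Q w := by
      rw [hpol, QuadraticMap.map_smul, hQv, polar_smul_left, hw]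
      simp only [smul_eq_mul, mul_one]
      ring
    rw [hx] at hQx
    have hzero : x • (s⁻¹ • v0) + w = 0 := by
      by_contra hne
      exact hiso _ hne hQx
    rw [LinearIndependent.pair_iff] at hliv
    have := (hliv x 1 (by rw [one_smul]; exact hzero)).2
    exact one_ne_zero this

end Cfsg.Agent.S0763
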