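import Mathlib
import Cfsg.Statements.S0767

set_option autoImplicit false
open Cfsg

namespace Cfsg.Agent.S0767

open Matrix

theorem J_mulVec {F : Type*} [CommRing F] (m : ℕ) (v : Fin m ⊕ Fin m → F) :
    Matrix.J (Fin m) F *ᵥ v = Sum.elim (fun i => - v (Sum.inr i)) (fun i => v (Sum.inl i)) := by
  rw [Matrix.J, Matrix.fromBlocks_mulVec]
  ext (i | i) <;> simp [Matrix.neg_mulVec]

theorem dot_J_self {F : Type*} [CommRing F] (m : ℕ) (v : Fin m ⊕ Fin m → F) :
    v ⬝ᵥ (Matrix.J (Fin m) F *ᵥ v) = 0 := by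
  rw [J_mulVec, dotProduct, Fintype.sum_sum_type]
  simp only [Sum.elim_inl, Sum.elim_inr, mul_neg, Finset.sum_neg_distrib]
  rw [neg_add_eq_zero]
  exact Finset.sum_congr rfl fun i _ => mul_comm _ _

/-- The root group of a point: T_v(c) T_v(d) = T_v(c + d), and for A in the symplectic group with A v = a v, the conjugate A T_v(c) A⁻¹ is again some T_v(d). -/
theorem result {F : Type*} [Field F] (m : ℕ) (v : Fin m ⊕ Fin m → F) : (∀ c d : F, Cfsg.sympTransvection m v c * Cfsg.sympTransvection m v d = Cfsg.sympTransvection m v (c + d)) ∧ ∀ (A : Matrix (Fin m ⊕ Fin m) (Fin m ⊕ Fin m) F) (a : F), A ∈ Matrix.symplecticGroup (Fin m) F → A.mulVec v = a • v → ∀ c : F, ∃ d : F, A * Cfsg.sympTransvection m v c * A⁻¹ = Cfsg.sympTransvection m v d := by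
  constructor
  · intro c d
    simp only [Cfsg.sympTransvection]
    have h3 : vecMulVec v (Matrix.J (Fin m) F *ᵥ v) * vecMulVec v (Matrix.J (Fin m) F *ᵥ v) = 0 := by
      rw [Matrix.vecMulVec_mul_vecMulVec, dotProduct_comm, dot_J_self, zero_smul,
        Matrix.vecMulVec_zero]
    rw [Matrix.add_mul, Matrix.one_mul, Matrix.mul_add, Matrix.mul_one, Matrix.smul_mul,
      Matrix.mul_smul, h3, add_smul]
    simp only [smul_zero, add_zero]
    abel
  · intro A a hA hAv c
    refine ⟨c * a * a, ?_⟩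
    have hdet : IsUnit A.det := SymplecticGroup.symplectic_det hA
    have hA' := SymplecticGroup.mem_iff'.mp hA
    have hJA : Matrix.J (Fin m) F * A⁻¹ = Aᵀ * Matrix.J (Fin m) F := by
      have h5 : Aᵀ * Matrix.J (Fin m) F * A * A⁻¹ = Matrix.J (Fin m) F * A⁻¹ := by rw [hA']
      rw [Matrix.mul_nonsing_inv_cancel_right _ _ hdet] at h5
      exact h5.symm
    have hw : (Matrix.J (Fin m) F *ᵥ v) ᵥ* A⁻¹ = a • (Matrix.J (Fin m) F *ᵥ v) := by
      have e1 : ∀ x : Fin m ⊕ Fin m → F, Matrix.J (Fin m) F *ᵥ x = - (x ᵥ* Matrix.J (Fin m) F) := by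
        intro x
        rw [← Matrix.vecMul_transpose, Matrix.J_transpose, Matrix.vecMul_neg]
      rw [e1 v, Matrix.neg_vecMul, Matrix.vecMul_vecMul, hJA, ← Matrix.vecMul_vecMul,
        Matrix.vecMul_transpose, hAv, Matrix.smul_vecMul, smul_neg]
    simp only [Cfsg.sympTransvection]
    rw [Matrix.mul_add, Matrix.mul_one, Matrix.add_mul, Matrix.mul_nonsing_inv _ hdet,
      Matrix.mul_smul, Matrix.smul_mul, Matrix.mul_vecMulVec, Matrix.vecMulVec_mul, hAv, hw]
    congr 1
    ext i j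
    simp only [Matrix.smul_apply, Matrix.vecMulVec_apply, Pi.smul_apply, smul_eq_mul]
    ring

end Cfsg.Agent.S0767
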