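import Mathlib
import Cfsg.Statements.S0769

set_option autoImplicit false
open Cfsg

namespace Cfsg.Agent.S0769

open Matrix

/-- The allowed set of values of the `(i, j)` entry. -/
def entrySet (F : Type*) [Field F] {n : ℕ} (i j : Fin n) : Set F :=
  if i < j then {0} else if i = j then {x | x ≠ 0} else Set.univ

theorem card_entrySet {F : Type*} [Field F] [Fintype F] {q : ℕ} (hF : Fintype.card F = q) {n : ℕ}
    (i j : Fin n) :
    Nat.card (entrySet F i j) = if i < j then 1 else if i = j then q - 1 else q := by
  classical
  unfold entrySet
  split_ifs with h1 h2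
  · rw [Nat.card_coe_set_eq, Set.ncard_singleton]
  · have : Nat.card {x : F // x ≠ 0} = q - 1 := by
      rw [← Nat.card_congr unitsEquivNeZero, Nat.card_eq_fintype_card, Fintype.card_units, hF]
    exact this
  · rw [Nat.card_coe_set_eq, Set.ncard_univ, Nat.card_eq_fintype_card, hF]

theorem prod_row {q n : ℕ} (i : Fin n) :
    (∏ j : Fin n, if i < j then 1 else if i = j then q - 1 else q) = (q - 1) * q ^ (i : ℕ) := by
  classical
  have h1 : ∀ j : Fin n, (if i < j then 1 else if i = j then q - 1 else q) =
      (if j = i then q - 1 else 1) * (if j < i then q else 1) := by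
    intro j
    rcases lt_trichotomy i j with h | h | h
    · have h' : ¬ j < i := not_lt.mpr h.le
      simp [h, h.ne', h']
    · subst h
      simp
    · have h' : ¬ i < j := not_lt.mpr h.le
      simp [h, h.ne, h.ne', h']
  simp_rw [h1]
  rw [Finset.prod_mul_distrib, Finset.prod_ite_eq' Finset.univ i, if_pos (Finset.mem_univ _)]
  congr 1
  rw [Finset.prod_ite, Finset.prod_const_one, mul_one, Finset.prod_const]
  congr 1
  have : Finset.filter (fun j : Fin n => j < i) Finset.univ = Finset.Iio i := by
    ext j; simp
  rw [this, Fin.card_Iio]

/-- Order of the Borel subgroup of GL_n(q): the invertible lower-triangular n × n matrices over a field with q elements number q^(n(n-1)/2) (q-1)^n (unitriangular part times the diagonal torus). -/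
theorem result {F : Type*} [Field F] [Fintype F] {q : ℕ} (hF : Fintype.card F = q) (n : ℕ) : Nat.card {g : Matrix.GeneralLinearGroup (Fin n) F // ∀ i j : Fin n, i < j → (g : Matrix (Fin n) (Fin n) F) i j = 0} = q ^ (n * (n - 1) / 2) * (q - 1) ^ n := by
  classical
  have hdet : ∀ M : Matrix (Fin n) (Fin n) F, (∀ i j : Fin n, i < j → M i j = 0) →
      M.det = ∏ i, M i i := by
    intro M hM
    apply Matrix.det_of_isLowerTriangular
    intro i j hij
    exact hM i j (by simpa using hij)
  let e1 : {g : Matrix.GeneralLinearGroup (Fin n) F //
        ∀ i j : Fin n, i < j → (g : Matrix (Fin n) (Fin n) F) i j = 0} ≃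
      {M : Matrix (Fin n) (Fin n) F // ∀ i j, M i j ∈ entrySet F i j} :=
    { toFun := fun g => ⟨(g.1 : Matrix (Fin n) (Fin n) F), by
        intro i j
        unfold entrySet
        split_ifs with h1 h2
        · exact g.2 i j h1
        · subst h2
          have hd := hdet _ g.2
          have hne : (g.1 : Matrix (Fin n) (Fin n) F).det ≠ 0 := by
            have := (Matrix.GeneralLinearGroup.det g.1).ne_zero
            simpa using this
          rw [hd] at hne
          intro h0
          exact hne (Finset.prod_eq_zero (Finset.mem_univ i) h0)
        · trivial⟩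
      invFun := fun M => ⟨Matrix.GeneralLinearGroup.mkOfDetNeZero M.1 (by
          have hz : ∀ i j : Fin n, i < j → M.1 i j = 0 := by
            intro i j hij
            have := M.2 i j
            unfold entrySet at this
            rw [if_pos hij] at this
            exact this
          rw [hdet _ hz]
          rw [Finset.prod_ne_zero_iff]
          intro i _
          have := M.2 i i
          unfold entrySet at this
          rw [if_neg (lt_irrefl i), if_pos rfl] at this
          exact this), by
            intro i j hij
            have := M.2 i j
            unfold entrySet at this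
            rw [if_pos hij] at this
            exact this⟩
      left_inv := fun g => by
        apply Subtype.ext
        apply Units.ext
        rfl
      right_inv := fun M => rfl }
  let e2 : {M : Matrix (Fin n) (Fin n) F // ∀ i j, M i j ∈ entrySet F i j} ≃
      (∀ i : Fin n, ∀ j : Fin n, entrySet F i j) :=
    { toFun := fun M i j => ⟨M.1 i j, M.2 i j⟩
      invFun := fun f => ⟨fun i j => (f i j).1, fun i j => (f i j).2⟩
      left_inv := fun M => rfl
      right_inv := fun f => rfl }
  rw [Nat.card_congr (e1.trans e2), Nat.card_pi]
  simp_rw [Nat.card_pi, card_entrySet hF, prod_row]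
  rw [Finset.prod_mul_distrib, Finset.prod_const, Finset.card_univ, Fintype.card_fin,
    Finset.prod_pow_eq_pow_sum, Fin.sum_univ_eq_sum_range (fun i => i) n, Finset.sum_range_id,
    mul_comm]

end Cfsg.Agent.S0769
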