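import Mathlib
import Cfsg.Statements.S0770

set_option autoImplicit false
open Cfsg

namespace Cfsg.Agent.S0770

open Matrix

theorem mem_D_iff {F : Type*} [Field F] (n : ℕ) (h : Matrix.GeneralLinearGroup (Fin n) F) :
    h ∈ (Units.map (Matrix.diagonalRingHom (Fin n) F).toMonoidHom).range ↔
      ∀ i j, i ≠ j → (h : Matrix (Fin n) (Fin n) F) i j = 0 := by
  constructor
  · rintro ⟨u, rfl⟩ i j hij
    change Matrix.diagonal (u : Fin n → F) i j = 0
    exact Matrix.diagonal_apply_ne _ hij
  · intro hoff
    have hdiag : (h : Matrix (Fin n) (Fin n) F)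
        = Matrix.diagonal (fun i => (h : Matrix (Fin n) (Fin n) F) i i) := by
      ext i j
      by_cases hij : i = j
      · subst hij; simp
      · rw [hoff i j hij, Matrix.diagonal_apply_ne _ hij]
    have hdet : (h : Matrix (Fin n) (Fin n) F).det ≠ 0 :=
      ((Matrix.isUnit_iff_isUnit_det _).mp h.isUnit).ne_zero
    have hdet' : (Matrix.diagonal (fun i => (h : Matrix (Fin n) (Fin n) F) i i)).det ≠ 0 := by
      rw [← hdiag]; exact hdet
    rw [Matrix.det_diagonal] at hdet'
    have hd : ∀ i, (h : Matrix (Fin n) (Fin n) F) i i ≠ 0 := fun i h0 =>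
      hdet' (Finset.prod_eq_zero (Finset.mem_univ i) h0)
    refine ⟨⟨fun i => (h : Matrix (Fin n) (Fin n) F) i i,
      fun i => ((h : Matrix (Fin n) (Fin n) F) i i)⁻¹, ?_, ?_⟩, ?_⟩
    · funext i; simp [hd i]
    · funext i; simp [hd i]
    · apply Units.ext
      exact hdiag.symm

/-- For a field with at least 3 elements, an invertible matrix normalises the subgroup of invertible diagonal matrices of GL_n if and only if it is monomial (exactly one non-zero entry in each row). -/
theorem result {F : Type*} [Field F] (hF : ∃ a : F, a ≠ 0 ∧ a ≠ 1) (n : ℕ) (g : Matrix.GeneralLinearGroup (Fin n) F) : g ∈ Subgroup.normalizer ((Units.map (Matrix.diagonalRingHom (Fin n) F).toMonoidHom).range : Subgroup (Matrix.GeneralLinearGroup (Fin n) F)) ↔ ∀ i : Fin n, ∃! j : Fin n, (g : Matrix (Fin n) (Fin n) F) i j ≠ 0 := by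
  classical
  have hdet : (g : Matrix (Fin n) (Fin n) F).det ≠ 0 :=
    ((Matrix.isUnit_iff_isUnit_det _).mp g.isUnit).ne_zero
  have hinvmul : ((g⁻¹ : Matrix.GeneralLinearGroup (Fin n) F) : Matrix (Fin n) (Fin n) F)
      * (g : Matrix (Fin n) (Fin n) F) = 1 := g.inv_mul
  have hmulinv : (g : Matrix (Fin n) (Fin n) F)
      * ((g⁻¹ : Matrix.GeneralLinearGroup (Fin n) F) : Matrix (Fin n) (Fin n) F) = 1 := g.mul_inv
  constructor
  · intro hnorm i
    obtain ⟨j, hj⟩ : ∃ j, (g : Matrix (Fin n) (Fin n) F) i j ≠ 0 := by
      by_contra hcon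
      push Not at hcon
      exact hdet (Matrix.det_eq_zero_of_row_eq_zero i hcon)
    refine ⟨j, hj, ?_⟩
    intro j' hj'
    by_contra hne
    obtain ⟨a, ha0, ha1⟩ := hF
    -- the diagonal unit
    let dU : (Fin n → F)ˣ :=
      ⟨Function.update (fun _ => (1 : F)) j a, Function.update (fun _ => (1 : F)) j a⁻¹, by
        funext k
        by_cases hk : k = j
        · subst hk; simp [ha0]
        · simp [hk], by
        funext k
        by_cases hk : k = j
        · subst hk; simp [ha0]
        · simp [hk]⟩
    have hmem : Units.map (Matrix.diagonalRingHom (Fin n) F).toMonoidHom dU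
        ∈ (Units.map (Matrix.diagonalRingHom (Fin n) F).toMonoidHom).range := ⟨dU, rfl⟩
    have hconj := (Subgroup.mem_normalizer_iff.mp hnorm _).mp hmem
    rw [mem_D_iff] at hconj
    obtain ⟨M, hMdef⟩ : ∃ M : Matrix (Fin n) (Fin n) F,
        M = (g : Matrix (Fin n) (Fin n) F) * Matrix.diagonal (Function.update (fun _ => (1 : F)) j a)
          * ((g⁻¹ : Matrix.GeneralLinearGroup (Fin n) F) : Matrix (Fin n) (Fin n) F) := ⟨_, rfl⟩
    have hMoff : ∀ i j, i ≠ j → M i j = 0 := by
      intro i j hij
      rw [hMdef]
      exact hconj i j hij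
    have hMG : M * (g : Matrix (Fin n) (Fin n) F)
        = (g : Matrix (Fin n) (Fin n) F) * Matrix.diagonal (Function.update (fun _ => (1 : F)) j a) := by
      rw [hMdef, Matrix.mul_assoc, hinvmul, Matrix.mul_one]
    have hentry : ∀ l, M i i * (g : Matrix (Fin n) (Fin n) F) i l
        = (g : Matrix (Fin n) (Fin n) F) i l * Function.update (fun _ => (1 : F)) j a l := by
      intro l
      have h1 := congrFun (congrFun hMG i) l
      rw [Matrix.mul_diagonal, Matrix.mul_apply] at h1
      rw [← h1]
      symm
      apply Finset.sum_eq_single i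
      · intro k _ hk
        rw [hMoff i k (Ne.symm hk), zero_mul]
      · intro h; exact absurd (Finset.mem_univ i) h
    have h1 := hentry j
    have h2 := hentry j'
    rw [Function.update_self] at h1
    rw [Function.update_of_ne hne] at h2
    have h3 : M i i = a := by
      have : (M i i - a) * (g : Matrix (Fin n) (Fin n) F) i j = 0 := by linear_combination h1
      rcases mul_eq_zero.mp this with h | h
      · exact sub_eq_zero.mp h
      · exact absurd h hj
    have h4 : M i i = 1 := by
      have : (M i i - 1) * (g : Matrix (Fin n) (Fin n) F) i j' = 0 := by linear_combination h2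
      rcases mul_eq_zero.mp this with h | h
      · exact sub_eq_zero.mp h
      · exact absurd h hj'
    exact ha1 (h3.symm.trans h4)
  · intro hmono
    choose π hπ hπuniq using hmono
    have hzero : ∀ i j, j ≠ π i → (g : Matrix (Fin n) (Fin n) F) i j = 0 := by
      intro i j hj
      by_contra h
      exact hj (hπuniq i j h)
    have hsurj : Function.Surjective π := by
      intro j0
      by_contra hcon
      push Not at hcon
      apply hdet
      apply Matrix.det_eq_zero_of_column_eq_zero j0
      intro i
      exact hzero i j0 (fun h => hcon i h.symm)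
    rw [Subgroup.mem_normalizer_iff]
    intro h
    rw [mem_D_iff, mem_D_iff]
    constructor
    · intro hoff
      have hdiag : (h : Matrix (Fin n) (Fin n) F)
          = Matrix.diagonal (fun i => (h : Matrix (Fin n) (Fin n) F) i i) := by
        ext i j
        by_cases hij : i = j
        · subst hij; simp
        · rw [hoff i j hij, Matrix.diagonal_apply_ne _ hij]
      have hcomm : (g : Matrix (Fin n) (Fin n) F) * (h : Matrix (Fin n) (Fin n) F)
          = Matrix.diagonal (fun i => (h : Matrix (Fin n) (Fin n) F) (π i) (π i))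
            * (g : Matrix (Fin n) (Fin n) F) := by
        rw [hdiag]
        ext i j
        rw [Matrix.mul_diagonal, Matrix.diagonal_mul]
        by_cases hj : j = π i
        · subst hj
          simp only [Matrix.diagonal_apply_eq]
          ring
        · rw [hzero i j hj]; ring
      intro i j hij
      have : ((g * h * g⁻¹ : Matrix.GeneralLinearGroup (Fin n) F) : Matrix (Fin n) (Fin n) F)
          = Matrix.diagonal (fun i => (h : Matrix (Fin n) (Fin n) F) (π i) (π i)) := by
        change (g : Matrix (Fin n) (Fin n) F) * (h : Matrix (Fin n) (Fin n) F)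
          * ((g⁻¹ : Matrix.GeneralLinearGroup (Fin n) F) : Matrix (Fin n) (Fin n) F) = _
        rw [hcomm, Matrix.mul_assoc, hmulinv, Matrix.mul_one]
      rw [this, Matrix.diagonal_apply_ne _ hij]
    · intro hoff
      obtain ⟨M, hMdef⟩ : ∃ M : Matrix (Fin n) (Fin n) F,
          M = ((g * h * g⁻¹ : Matrix.GeneralLinearGroup (Fin n) F) : Matrix (Fin n) (Fin n) F) :=
        ⟨_, rfl⟩
      have hMoff : ∀ i j, i ≠ j → M i j = 0 := by
        intro i j hij
        rw [hMdef]
        exact hoff i j hij
      have hMG : M * (g : Matrix (Fin n) (Fin n) F)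
          = (g : Matrix (Fin n) (Fin n) F) * (h : Matrix (Fin n) (Fin n) F) := by
        rw [hMdef]
        change (g : Matrix (Fin n) (Fin n) F) * (h : Matrix (Fin n) (Fin n) F)
          * ((g⁻¹ : Matrix.GeneralLinearGroup (Fin n) F) : Matrix (Fin n) (Fin n) F)
          * (g : Matrix (Fin n) (Fin n) F) = _
        rw [Matrix.mul_assoc, hinvmul, Matrix.mul_one]
      intro k j hkj
      obtain ⟨i, rfl⟩ := hsurj k
      have h1 := congrFun (congrFun hMG i) j
      rw [Matrix.mul_apply, Matrix.mul_apply] at h1
      have hL : ∑ l, M i l * (g : Matrix (Fin n) (Fin n) F) l j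
          = M i i * (g : Matrix (Fin n) (Fin n) F) i j := by
        apply Finset.sum_eq_single i
        · intro l _ hl
          rw [hMoff i l (Ne.symm hl), zero_mul]
        · intro hh; exact absurd (Finset.mem_univ i) hh
      have hR : ∑ l, (g : Matrix (Fin n) (Fin n) F) i l * (h : Matrix (Fin n) (Fin n) F) l j
          = (g : Matrix (Fin n) (Fin n) F) i (π i) * (h : Matrix (Fin n) (Fin n) F) (π i) j := by
        apply Finset.sum_eq_single (π i)
        · intro l _ hl
          rw [hzero i l hl, zero_mul]
        · intro hh; exact absurd (Finset.mem_univ _) hh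
      rw [hL, hR, hzero i j (Ne.symm hkj), mul_zero] at h1
      rcases mul_eq_zero.mp h1.symm with h2 | h2
      · exact absurd h2 (hπ i)
      · exact h2

end Cfsg.Agent.S0770
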