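import Mathlib
import Cfsg.Statements.S0772
import Cfsg.Agent.S0771

set_option autoImplicit false
open Cfsg

namespace Cfsg.Agent.S0772

open Matrix

/-- the rank-one transvection `1 + u wᵀ` with `w ⬝ u = 0` -/
def tvv {F : Type*} [Field F] {n : ℕ} (u w : Fin n → F) (h : w ⬝ᵥ u = 0) : GL (Fin n) F :=
  ⟨1 + vecMulVec u w, 1 - vecMulVec u w,
    by
      have h2 : vecMulVec u w * vecMulVec u w = 0 := by
        rw [Matrix.vecMulVec_mul_vecMulVec, h, zero_smul, Matrix.vecMulVec_zero]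
      have h3 : (1 + vecMulVec u w) * (1 - vecMulVec u w) = 1 - vecMulVec u w * vecMulVec u w := by
        noncomm_ring
      rw [h3, h2, sub_zero],
    by
      have h2 : vecMulVec u w * vecMulVec u w = 0 := by
        rw [Matrix.vecMulVec_mul_vecMulVec, h, zero_smul, Matrix.vecMulVec_zero]
      have h3 : (1 - vecMulVec u w) * (1 + vecMulVec u w) = 1 - vecMulVec u w * vecMulVec u w := by
        noncomm_ring
      rw [h3, h2, sub_zero]⟩

lemma tvv_val {F : Type*} [Field F] {n : ℕ} (u w : Fin n → F) (h : w ⬝ᵥ u = 0) :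
    ((tvv u w h : GL (Fin n) F) : Matrix (Fin n) (Fin n) F) = 1 + vecMulVec u w := rfl

lemma tvv_conj {F : Type*} [Field F] {n : ℕ} (g : GL (Fin n) F) (u w u' w' : Fin n → F)
    (h : w ⬝ᵥ u = 0) (hu : (g : Matrix (Fin n) (Fin n) F) *ᵥ u = u')
    (hw : w' ᵥ* (g : Matrix (Fin n) (Fin n) F) = w) (h' : w' ⬝ᵥ u' = 0) :
    g * tvv u w h * g⁻¹ = tvv u' w' h' := by
  rw [mul_inv_eq_iff_eq_mul]
  apply Units.ext
  show (g : Matrix (Fin n) (Fin n) F) * (1 + vecMulVec u w) =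
    (1 + vecMulVec u' w') * (g : Matrix (Fin n) (Fin n) F)
  rw [mul_add, mul_one, add_mul, one_mul, Matrix.mul_vecMulVec, Matrix.vecMulVec_mul, hu, hw]

lemma tvv_conj_dot {F : Type*} [Field F] {n : ℕ} (g : GL (Fin n) F) (u w u' w' : Fin n → F)
    (h : w ⬝ᵥ u = 0) (hu : (g : Matrix (Fin n) (Fin n) F) *ᵥ u = u')
    (hw : w' ᵥ* (g : Matrix (Fin n) (Fin n) F) = w) : w' ⬝ᵥ u' = 0 := by
  rw [← hu, Matrix.dotProduct_mulVec, hw]
  exact h

lemma tvv_mem_P {F : Type*} [Field F] [Fintype F] {n : ℕ} (k : ℕ) (u w : Fin n → F)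
    (h : w ⬝ᵥ u = 0)
    (hcond : (∀ i : Fin n, k ≤ (i : ℕ) → u i = 0) ∨ (∀ l : Fin n, (l : ℕ) < k → w l = 0)) :
    tvv u w h ∈ Cfsg.stabilizing (Cfsg.glToMat (Fin n) F)
      {v : Fin n → F | ∀ i : Fin n, k ≤ (i : ℕ) → v i = 0} := by
  rw [Cfsg.Agent.S0771.mem_stab]
  intro i l hi hl
  have hil : i ≠ l := by
    intro h'; rw [h'] at hi; omega
  rw [tvv_val, Matrix.add_apply, Matrix.one_apply_ne hil, Matrix.vecMulVec_apply, zero_add]
  rcases hcond with h1 | h1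
  · rw [h1 i hi, zero_mul]
  · rw [h1 l hl, mul_zero]

lemma tvv_eq_transvection {F : Type*} [Field F] {n : ℕ} (a b : Fin n) (c : F)
    (h : (Pi.single b (1 : F) : Fin n → F) ⬝ᵥ Pi.single a c = 0) :
    ((tvv (Pi.single a c) (Pi.single b 1) h : GL (Fin n) F) : Matrix (Fin n) (Fin n) F) =
      Matrix.transvection a b c := by
  rw [tvv_val, Matrix.transvection]
  congr 1
  ext i l
  rw [Matrix.vecMulVec_apply, Matrix.single_apply]
  by_cases h1 : i = a
  · by_cases h2 : l = b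
    · rw [h1, h2, Pi.single_eq_same, Pi.single_eq_same, mul_one, if_pos ⟨rfl, rfl⟩]
    · rw [Pi.single_eq_of_ne h2, mul_zero, if_neg (fun h3 => h2 h3.2.symm)]
  · rw [Pi.single_eq_of_ne h1, zero_mul, if_neg (fun h3 => h1 h3.1.symm)]

lemma single_dot {F : Type*} [Field F] {n : ℕ} (a b : Fin n) (hab : a ≠ b) (c c' : F) :
    (Pi.single b c' : Fin n → F) ⬝ᵥ Pi.single a c = 0 := by
  rw [single_dotProduct, Pi.single_eq_of_ne hab.symm, mul_zero]

/-- identity with column `a` replaced by `x` -/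
def colRep {F : Type*} [Field F] {n : ℕ} (a : Fin n) (x : Fin n → F) (hx : x a ≠ 0) :
    GL (Fin n) F :=
  Matrix.GeneralLinearGroup.mkOfDetNeZero ((1 : Matrix (Fin n) (Fin n) F).updateCol a x) (by
    rw [← Matrix.cramer_apply, Matrix.cramer_one]
    exact hx)

lemma colRep_val {F : Type*} [Field F] {n : ℕ} (a : Fin n) (x : Fin n → F) (hx : x a ≠ 0) :
    ((colRep a x hx : GL (Fin n) F) : Matrix (Fin n) (Fin n) F) =
      (1 : Matrix (Fin n) (Fin n) F).updateCol a x := rfl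

lemma colRep_mulVec {F : Type*} [Field F] {n : ℕ} (a : Fin n) (x : Fin n → F) (hx : x a ≠ 0) :
    ((colRep a x hx : GL (Fin n) F) : Matrix (Fin n) (Fin n) F) *ᵥ Pi.single a 1 = x := by
  rw [colRep_val, Matrix.mulVec_single_one]
  funext i
  simp

lemma colRep_vecMul {F : Type*} [Field F] {n : ℕ} (a : Fin n) (x : Fin n → F) (hx : x a ≠ 0)
    (y : Fin n → F) (l : Fin n) :
    (y ᵥ* ((colRep a x hx : GL (Fin n) F) : Matrix (Fin n) (Fin n) F)) l =
      if l = a then y ⬝ᵥ x else y l := by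
  rw [colRep_val]
  show y ⬝ᵥ (fun i => (1 : Matrix (Fin n) (Fin n) F).updateCol a x i l) = _
  by_cases hl : l = a
  · rw [if_pos hl, hl]
    congr 1
    funext i
    simp
  · rw [if_neg hl]
    have h1 : (fun i => (1 : Matrix (Fin n) (Fin n) F).updateCol a x i l) = Pi.single l 1 := by
      funext i
      rw [Matrix.updateCol_ne hl, Matrix.one_apply, Pi.single_apply]
    rw [h1, dotProduct_single_one]

lemma colRep_mem {F : Type*} [Field F] [Fintype F] {n : ℕ} (k : ℕ) (a : Fin n) (ha : k ≤ (a : ℕ))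
    (x : Fin n → F) (hx : x a ≠ 0) :
    colRep a x hx ∈ Cfsg.stabilizing (Cfsg.glToMat (Fin n) F)
      {v : Fin n → F | ∀ i : Fin n, k ≤ (i : ℕ) → v i = 0} := by
  rw [Cfsg.Agent.S0771.mem_stab]
  intro i l hi hl
  have hil : i ≠ l := by
    intro h'; rw [h'] at hi; omega
  have hla : l ≠ a := by
    intro h'; rw [h'] at hl; omega
  rw [colRep_val, Matrix.updateCol_ne hla, Matrix.one_apply_ne hil]

/-- identity with row `j` replaced by `y` -/
def rowRep {F : Type*} [Field F] {n : ℕ} (j : Fin n) (y : Fin n → F) (hy : y j ≠ 0) :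
    GL (Fin n) F :=
  Matrix.GeneralLinearGroup.mkOfDetNeZero ((1 : Matrix (Fin n) (Fin n) F).updateRow j y) (by
    rw [← Matrix.cramer_transpose_apply, Matrix.transpose_one, Matrix.cramer_one]
    exact hy)

lemma rowRep_val {F : Type*} [Field F] {n : ℕ} (j : Fin n) (y : Fin n → F) (hy : y j ≠ 0) :
    ((rowRep j y hy : GL (Fin n) F) : Matrix (Fin n) (Fin n) F) =
      (1 : Matrix (Fin n) (Fin n) F).updateRow j y := rfl

lemma rowRep_vecMul {F : Type*} [Field F] {n : ℕ} (j : Fin n) (y : Fin n → F) (hy : y j ≠ 0) :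
    Pi.single j 1 ᵥ* ((rowRep j y hy : GL (Fin n) F) : Matrix (Fin n) (Fin n) F) = y := by
  rw [rowRep_val, Matrix.single_one_vecMul]
  funext l
  simp

lemma rowRep_mulVec {F : Type*} [Field F] {n : ℕ} (j : Fin n) (y : Fin n → F) (hy : y j ≠ 0)
    (a : Fin n) (haj : a ≠ j) (hya : y a = 0) :
    ((rowRep j y hy : GL (Fin n) F) : Matrix (Fin n) (Fin n) F) *ᵥ Pi.single a 1 =
      Pi.single a 1 := by
  rw [rowRep_val, Matrix.mulVec_single_one]
  funext i
  show (1 : Matrix (Fin n) (Fin n) F).updateRow j y i a = (Pi.single a (1 : F) : Fin n → F) i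
  by_cases hij : i = j
  · rw [hij, Matrix.updateRow_self, hya, Pi.single_eq_of_ne (Ne.symm haj)]
  · rw [Matrix.updateRow_ne hij, Matrix.one_apply, Pi.single_apply]

lemma rowRep_mem {F : Type*} [Field F] [Fintype F] {n : ℕ} (k : ℕ) (j : Fin n) (hj : (j : ℕ) < k)
    (y : Fin n → F) (hy : y j ≠ 0) :
    rowRep j y hy ∈ Cfsg.stabilizing (Cfsg.glToMat (Fin n) F)
      {v : Fin n → F | ∀ i : Fin n, k ≤ (i : ℕ) → v i = 0} := by
  rw [Cfsg.Agent.S0771.mem_stab]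
  intro i l hi hl
  have hil : i ≠ l := by
    intro h'; rw [h'] at hi; omega
  have hij : i ≠ j := by
    intro h'; rw [h'] at hi; omega
  rw [rowRep_val, Matrix.updateRow_ne hij, Matrix.one_apply_ne hil]

/-- invertible diagonal matrix -/
def dgl {F : Type*} [Field F] {n : ℕ} (d : Fin n → F) (hd : ∀ i, d i ≠ 0) : GL (Fin n) F :=
  Matrix.GeneralLinearGroup.mkOfDetNeZero (Matrix.diagonal d) (by
    rw [Matrix.det_diagonal, Finset.prod_ne_zero_iff]
    intro i _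
    exact hd i)

lemma dgl_val {F : Type*} [Field F] {n : ℕ} (d : Fin n → F) (hd : ∀ i, d i ≠ 0) :
    ((dgl d hd : GL (Fin n) F) : Matrix (Fin n) (Fin n) F) = Matrix.diagonal d := rfl

lemma dgl_mem {F : Type*} [Field F] [Fintype F] {n : ℕ} (k : ℕ) (d : Fin n → F)
    (hd : ∀ i, d i ≠ 0) :
    dgl d hd ∈ Cfsg.stabilizing (Cfsg.glToMat (Fin n) F)
      {v : Fin n → F | ∀ i : Fin n, k ≤ (i : ℕ) → v i = 0} := by
  rw [Cfsg.Agent.S0771.mem_stab]
  intro i l hi hl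
  have hil : i ≠ l := by
    intro h'; rw [h'] at hi; omega
  rw [dgl_val, Matrix.diagonal_apply_ne _ hil]

/-- permutation matrix element -/
def pmg {F : Type*} [Field F] {n : ℕ} (τ : Equiv.Perm (Fin n)) : GL (Fin n) F :=
  ⟨τ.permMatrix F, (τ⁻¹).permMatrix F,
    by rw [← Matrix.permMatrix_mul, inv_mul_cancel, Matrix.permMatrix_one],
    by rw [← Matrix.permMatrix_mul, mul_inv_cancel, Matrix.permMatrix_one]⟩

lemma pmg_val {F : Type*} [Field F] {n : ℕ} (τ : Equiv.Perm (Fin n)) :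
    ((pmg τ : GL (Fin n) F) : Matrix (Fin n) (Fin n) F) = τ.permMatrix F := rfl

lemma pmg_mem {F : Type*} [Field F] {n : ℕ} (k : ℕ) (τ : Equiv.Perm (Fin n))
    (hτ : ∀ i : Fin n, k ≤ (i : ℕ) ↔ k ≤ ((τ i : Fin n) : ℕ)) :
    (pmg τ : GL (Fin n) F) ∈ Cfsg.stabilizing (Cfsg.glToMat (Fin n) F)
      {v : Fin n → F | ∀ i : Fin n, k ≤ (i : ℕ) → v i = 0} := by
  intro v
  show v ∈ {v : Fin n → F | ∀ i : Fin n, k ≤ (i : ℕ) → v i = 0} ↔
    τ.permMatrix F *ᵥ v ∈ {v : Fin n → F | ∀ i : Fin n, k ≤ (i : ℕ) → v i = 0}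
  rw [Matrix.permMatrix_mulVec]
  constructor
  · intro hv i hi
    exact hv (τ i) ((hτ i).1 hi)
  · intro hv i hi
    have h1 := hv (τ⁻¹ i) ((hτ (τ⁻¹ i)).2 (by simpa using hi))
    simpa using h1

lemma step3 {F : Type*} [Field F] [Fintype F] {n : ℕ} (k : ℕ)
    (H : Subgroup (GL (Fin n) F))
    (hPH : Cfsg.stabilizing (Cfsg.glToMat (Fin n) F)
      {v : Fin n → F | ∀ i : Fin n, k ≤ (i : ℕ) → v i = 0} ≤ H)
    (h : GL (Fin n) F) (hh : h ∈ H)
    (hnot : h ∉ Cfsg.stabilizing (Cfsg.glToMat (Fin n) F)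
      {v : Fin n → F | ∀ i : Fin n, k ≤ (i : ℕ) → v i = 0}) :
    ∃ (a j : Fin n) (hd : (Pi.single j (1 : F) : Fin n → F) ⬝ᵥ Pi.single a 1 = 0),
      k ≤ (a : ℕ) ∧ (j : ℕ) < k ∧ tvv (Pi.single a 1) (Pi.single j 1) hd ∈ H := by
  classical
  have h1 : ∃ a b' : Fin n, k ≤ (a : ℕ) ∧ (b' : ℕ) < k ∧
      (h : Matrix (Fin n) (Fin n) F) a b' ≠ 0 := by
    by_contra hcon
    push Not at hcon
    exact hnot ((Cfsg.Agent.S0771.mem_stab n k h).2 (fun i l hi hl => hcon i l hi hl))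
  have hnot' : h⁻¹ ∉ Cfsg.stabilizing (Cfsg.glToMat (Fin n) F)
      {v : Fin n → F | ∀ i : Fin n, k ≤ (i : ℕ) → v i = 0} := by
    intro hc
    apply hnot
    have := Subgroup.inv_mem _ hc
    rwa [inv_inv] at this
  have h2 : ∃ a' j : Fin n, k ≤ (a' : ℕ) ∧ (j : ℕ) < k ∧
      ((h⁻¹ : GL (Fin n) F) : Matrix (Fin n) (Fin n) F) a' j ≠ 0 := by
    by_contra hcon
    push Not at hcon
    exact hnot' ((Cfsg.Agent.S0771.mem_stab n k h⁻¹).2 (fun i l hi hl => hcon i l hi hl))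
  obtain ⟨a, b', ha, hb', hab'⟩ := h1
  obtain ⟨a', j, ha', hj, ha'j⟩ := h2
  have hb'a' : b' ≠ a' := by
    intro h'; rw [h'] at hb'; omega
  have hd0 : (Pi.single a' (1 : F) : Fin n → F) ⬝ᵥ Pi.single b' 1 = 0 := single_dot b' a' hb'a' 1 1
  have hT0 : tvv (Pi.single b' 1) (Pi.single a' 1) hd0 ∈ H := by
    apply hPH
    apply tvv_mem_P
    left
    intro i hi
    have : i ≠ b' := by
      intro h'; rw [h'] at hi; omega
    exact Pi.single_eq_of_ne this _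
  obtain ⟨x, hx⟩ : ∃ x : Fin n → F, x = (h : Matrix (Fin n) (Fin n) F) *ᵥ Pi.single b' 1 :=
    ⟨_, rfl⟩
  obtain ⟨y, hy⟩ : ∃ y : Fin n → F,
      y = Pi.single a' 1 ᵥ* ((h⁻¹ : GL (Fin n) F) : Matrix (Fin n) (Fin n) F) := ⟨_, rfl⟩
  have hyh : y ᵥ* (h : Matrix (Fin n) (Fin n) F) = Pi.single a' 1 := by
    rw [hy, Matrix.vecMul_vecMul, ← Units.val_mul, inv_mul_cancel, Units.val_one, Matrix.vecMul_one]
  have hdxy : y ⬝ᵥ x = 0 := tvv_conj_dot h _ _ x y hd0 hx.symm hyh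
  have hT1 : tvv x y hdxy ∈ H := by
    rw [← tvv_conj h _ _ x y hd0 hx.symm hyh hdxy]
    exact H.mul_mem (H.mul_mem hh hT0) (H.inv_mem hh)
  have hxa : x a ≠ 0 := by
    rw [hx, Matrix.mulVec_single_one]; exact hab'
  have hyj : y j ≠ 0 := by
    rw [hy, Matrix.single_one_vecMul]; exact ha'j
  have haj : a ≠ j := by
    intro h'; rw [h'] at ha; omega
  obtain ⟨p, hp⟩ : ∃ p, p = colRep a x hxa := ⟨_, rfl⟩
  have hpH : p ∈ H := hPH (by rw [hp]; exact colRep_mem k a ha x hxa)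
  obtain ⟨y', hy'⟩ : ∃ y' : Fin n → F, y' = y ᵥ* (p : Matrix (Fin n) (Fin n) F) := ⟨_, rfl⟩
  have hpinv_x : ((p⁻¹ : GL (Fin n) F) : Matrix (Fin n) (Fin n) F) *ᵥ x = Pi.single a 1 := by
    have h3 : (p : Matrix (Fin n) (Fin n) F) *ᵥ Pi.single a 1 = x := by
      rw [hp]; exact colRep_mulVec a x hxa
    rw [← h3, Matrix.mulVec_mulVec, ← Units.val_mul, inv_mul_cancel, Units.val_one,
      Matrix.one_mulVec]
  have hy'p : y' ᵥ* ((p⁻¹ : GL (Fin n) F) : Matrix (Fin n) (Fin n) F) = y := by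
    rw [hy', Matrix.vecMul_vecMul, ← Units.val_mul, mul_inv_cancel, Units.val_one,
      Matrix.vecMul_one]
  have hd2 : y' ⬝ᵥ Pi.single a 1 = 0 := tvv_conj_dot p⁻¹ _ _ _ y' hdxy hpinv_x hy'p
  have hT2 : tvv (Pi.single a 1) y' hd2 ∈ H := by
    rw [← tvv_conj p⁻¹ _ _ _ y' hdxy hpinv_x hy'p hd2]
    exact H.mul_mem (H.mul_mem (H.inv_mem hpH) hT1) (H.inv_mem (H.inv_mem hpH))
  have hy'a : y' a = 0 := by
    rw [hy', hp, colRep_vecMul, if_pos rfl]; exact hdxy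
  have hy'j : y' j ≠ 0 := by
    rw [hy', hp, colRep_vecMul, if_neg (Ne.symm haj)]; exact hyj
  obtain ⟨s, hs⟩ : ∃ s, s = rowRep j y' hy'j := ⟨_, rfl⟩
  have hsH : s ∈ H := hPH (by rw [hs]; exact rowRep_mem k j hj y' hy'j)
  have hs_a : (s : Matrix (Fin n) (Fin n) F) *ᵥ Pi.single a 1 = Pi.single a 1 := by
    rw [hs]; exact rowRep_mulVec j y' hy'j a haj hy'a
  have hs_j : Pi.single j 1 ᵥ* (s : Matrix (Fin n) (Fin n) F) = y' := by
    rw [hs]; exact rowRep_vecMul j y' hy'j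
  have hd3 : (Pi.single j (1 : F) : Fin n → F) ⬝ᵥ Pi.single a 1 = 0 := single_dot a j haj 1 1
  refine ⟨a, j, hd3, ha, hj, ?_⟩
  rw [← tvv_conj s _ _ _ _ hd2 hs_a hs_j hd3]
  exact H.mul_mem (H.mul_mem hsH hT2) (H.inv_mem hsH)

lemma step4 {F : Type*} [Field F] [Fintype F] {n : ℕ} (k : ℕ)
    (H : Subgroup (GL (Fin n) F))
    (hPH : Cfsg.stabilizing (Cfsg.glToMat (Fin n) F)
      {v : Fin n → F | ∀ i : Fin n, k ≤ (i : ℕ) → v i = 0} ≤ H)
    (a j : Fin n) (ha : k ≤ (a : ℕ)) (hj : (j : ℕ) < k)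
    (hd : (Pi.single j (1 : F) : Fin n → F) ⬝ᵥ Pi.single a 1 = 0)
    (hT : tvv (Pi.single a 1) (Pi.single j 1) hd ∈ H)
    (a'' j'' : Fin n) (ha'' : k ≤ (a'' : ℕ)) (hj'' : (j'' : ℕ) < k) (c : F) (hc : c ≠ 0)
    (hd' : (Pi.single j'' (1 : F) : Fin n → F) ⬝ᵥ Pi.single a'' c = 0) :
    tvv (Pi.single a'' c) (Pi.single j'' 1) hd' ∈ H := by
  classical
  have hne1 : a ≠ j := by
    intro h'; rw [h'] at ha; omega
  have hne2 : a ≠ j'' := by
    intro h'; rw [h'] at ha; omega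
  have hne3 : j'' ≠ a := Ne.symm hne2
  have hne4 : j'' ≠ a'' := by
    intro h'; rw [h'] at hj''; omega
  obtain ⟨τ, hτ⟩ : ∃ τ : Equiv.Perm (Fin n), τ = Equiv.swap a a'' * Equiv.swap j j'' := ⟨_, rfl⟩
  have hτa : τ a = a'' := by
    rw [hτ, Equiv.Perm.mul_apply, Equiv.swap_apply_of_ne_of_ne hne1 hne2, Equiv.swap_apply_left]
  have hτj : τ j = j'' := by
    rw [hτ, Equiv.Perm.mul_apply, Equiv.swap_apply_left, Equiv.swap_apply_of_ne_of_ne hne3 hne4]
  have hsw : ∀ (x y : Fin n), (k ≤ (x : ℕ) ↔ k ≤ (y : ℕ)) → ∀ i : Fin n,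
      (k ≤ (i : ℕ) ↔ k ≤ ((Equiv.swap x y i : Fin n) : ℕ)) := by
    intro x y hxy i
    rw [Equiv.swap_apply_def]
    split_ifs with h1 h2
    · rw [h1]; exact hxy
    · rw [h2]; exact hxy.symm
    · exact Iff.rfl
  have hblock : ∀ i : Fin n, k ≤ (i : ℕ) ↔ k ≤ ((τ⁻¹ i : Fin n) : ℕ) := by
    intro i
    rw [hτ, _root_.mul_inv_rev, Equiv.swap_inv, Equiv.swap_inv, Equiv.Perm.mul_apply]
    exact (hsw a a'' ⟨fun _ => ha'', fun _ => ha⟩ i).trans
      (hsw j j'' ⟨fun h' => by omega, fun h' => by omega⟩ _)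
  have hgH : (pmg τ⁻¹ : GL (Fin n) F) ∈ H := hPH (pmg_mem k τ⁻¹ hblock)
  have hg_u : ((pmg τ⁻¹ : GL (Fin n) F) : Matrix (Fin n) (Fin n) F) *ᵥ Pi.single a 1 =
      Pi.single a'' 1 := by
    rw [pmg_val, Matrix.permMatrix_mulVec]
    funext i
    show (Pi.single a (1 : F) : Fin n → F) (τ⁻¹ i) = (Pi.single a'' (1 : F) : Fin n → F) i
    rw [Pi.single_apply, Pi.single_apply, ← hτa]
    have h1 : τ⁻¹ i = a ↔ i = τ a := Equiv.Perm.inv_eq_iff_eq
    simp only [h1]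
  have hg_w : Pi.single j'' 1 ᵥ* ((pmg τ⁻¹ : GL (Fin n) F) : Matrix (Fin n) (Fin n) F) =
      Pi.single j 1 := by
    rw [pmg_val, Matrix.vecMul_permMatrix]
    funext l
    show (Pi.single j'' (1 : F) : Fin n → F) (τ l) = (Pi.single j (1 : F) : Fin n → F) l
    rw [Pi.single_apply, Pi.single_apply, ← hτj]
    have h1 : τ l = τ j ↔ l = j := τ.injective.eq_iff
    simp only [h1]
  have hne5 : a'' ≠ j'' := Ne.symm hne4
  have hd1 : (Pi.single j'' (1 : F) : Fin n → F) ⬝ᵥ Pi.single a'' 1 = 0 :=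
    single_dot a'' j'' hne5 1 1
  have hT1 : tvv (Pi.single a'' 1) (Pi.single j'' 1) hd1 ∈ H := by
    rw [← tvv_conj (pmg τ⁻¹) _ _ _ _ hd hg_u hg_w hd1]
    exact H.mul_mem (H.mul_mem hgH hT) (H.inv_mem hgH)
  obtain ⟨d, hd_def⟩ : ∃ d : Fin n → F, d = Function.update (fun _ => (1 : F)) a'' c := ⟨_, rfl⟩
  have hdne : ∀ i, d i ≠ 0 := by
    intro i
    rw [hd_def]
    by_cases h : i = a''
    · rw [h, Function.update_self]; exact hc
    · rw [Function.update_of_ne h]; exact one_ne_zero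
  have hDH : dgl d hdne ∈ H := hPH (dgl_mem k d hdne)
  have hD_u : ((dgl d hdne : GL (Fin n) F) : Matrix (Fin n) (Fin n) F) *ᵥ Pi.single a'' 1 =
      Pi.single a'' c := by
    rw [dgl_val, Matrix.diagonal_mulVec_single, mul_one, hd_def, Function.update_self]
  have hD_w : Pi.single j'' 1 ᵥ* ((dgl d hdne : GL (Fin n) F) : Matrix (Fin n) (Fin n) F) =
      Pi.single j'' 1 := by
    rw [dgl_val, Matrix.single_vecMul_diagonal, one_mul, hd_def, Function.update_of_ne hne4]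
  rw [← tvv_conj (dgl d hdne) _ _ _ _ hd1 hD_u hD_w hd']
  exact H.mul_mem (H.mul_mem hDH hT1) (H.inv_mem hDH)

theorem result {F : Type*} [Field F] [Finite F] (n k : ℕ) (hk0 : 0 < k) (hkn : k < n) : IsCoatom (Cfsg.stabilizing (Cfsg.glToMat (Fin n) F) {v : Fin n → F | ∀ i : Fin n, k ≤ (i : ℕ) → v i = 0}) := by
  classical
  cases nonempty_fintype F
  obtain ⟨a0, ha0⟩ : ∃ a0 : Fin n, (a0 : ℕ) = k := ⟨⟨k, hkn⟩, rfl⟩
  obtain ⟨j0, hj0⟩ : ∃ j0 : Fin n, (j0 : ℕ) = 0 := ⟨⟨0, by omega⟩, rfl⟩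
  have ha0j0 : a0 ≠ j0 := by
    intro h; rw [h] at ha0; omega
  constructor
  · intro htop
    have hd : (Pi.single j0 (1 : F) : Fin n → F) ⬝ᵥ Pi.single a0 1 = 0 :=
      single_dot a0 j0 ha0j0 1 1
    have hmem : tvv (Pi.single a0 1) (Pi.single j0 1) hd ∈
        Cfsg.stabilizing (Cfsg.glToMat (Fin n) F)
          {v : Fin n → F | ∀ i : Fin n, k ≤ (i : ℕ) → v i = 0} := by
      rw [htop]; exact Subgroup.mem_top _
    rw [Cfsg.Agent.S0771.mem_stab] at hmem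
    have h1 := hmem a0 j0 (by omega) (by omega)
    rw [tvv_eq_transvection, Matrix.transvection, Matrix.add_apply, Matrix.one_apply_ne ha0j0,
      Matrix.single_apply, if_pos ⟨rfl, rfl⟩, zero_add] at h1
    exact one_ne_zero h1
  · intro H hlt
    obtain ⟨h, hhH, hhP⟩ := SetLike.exists_of_lt hlt
    obtain ⟨a, j, hd, ha, hj, hT⟩ := step3 k H hlt.le h hhH hhP
    rw [eq_top_iff]
    intro g _
    have key : ∃ g' : GL (Fin n) F, g' ∈ H ∧
        (g' : Matrix (Fin n) (Fin n) F) = (g : Matrix (Fin n) (Fin n) F) := by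
      apply Matrix.diagonal_transvection_induction_of_det_ne_zero
        (fun M => ∃ g' : GL (Fin n) F, g' ∈ H ∧ (g' : Matrix (Fin n) (Fin n) F) = M)
        (g : Matrix (Fin n) (Fin n) F)
      · exact (Matrix.isUnits_det_units g).ne_zero
      · intro D hD
        have hDne : ∀ i, D i ≠ 0 := by
          intro i
          rw [Matrix.det_diagonal, Finset.prod_ne_zero_iff] at hD
          exact hD i (Finset.mem_univ i)
        exact ⟨dgl D hDne, hlt.le (dgl_mem k D hDne), rfl⟩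
      · intro t
        show ∃ g' : GL (Fin n) F, g' ∈ H ∧
          (g' : Matrix (Fin n) (Fin n) F) = Matrix.transvection t.i t.j t.c
        have hdt : (Pi.single t.j (1 : F) : Fin n → F) ⬝ᵥ Pi.single t.i t.c = 0 :=
          single_dot t.i t.j t.hij t.c 1
        refine ⟨tvv (Pi.single t.i t.c) (Pi.single t.j 1) hdt, ?_,
          tvv_eq_transvection t.i t.j t.c hdt⟩
        by_cases hlow : k ≤ (t.i : ℕ) ∧ (t.j : ℕ) < k
        · by_cases hc : t.c = 0
          · have h1 : tvv (Pi.single t.i t.c) (Pi.single t.j 1) hdt = 1 := by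
              apply Units.ext
              rw [tvv_eq_transvection, hc, Matrix.transvection_zero]
              rfl
            rw [h1]
            exact H.one_mem
          · exact step4 k H hlt.le a j ha hj hd hT t.i t.j hlow.1 hlow.2 t.c hc hdt
        · apply hlt.le
          apply tvv_mem_P
          by_cases hi : k ≤ (t.i : ℕ)
          · right
            intro l hl
            have : l ≠ t.j := by
              intro h'; rw [h'] at hl; exact hlow ⟨hi, hl⟩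
            exact Pi.single_eq_of_ne this _
          · left
            intro i hi'
            have : i ≠ t.i := by
              intro h'; rw [h'] at hi'; exact hi hi'
            exact Pi.single_eq_of_ne this _
      · rintro A B _ _ ⟨gA, hgA, rfl⟩ ⟨gB, hgB, rfl⟩
        exact ⟨gA * gB, H.mul_mem hgA hgB, rfl⟩
    obtain ⟨g', hg', heq⟩ := key
    have hgg : g' = g := Units.ext heq
    rw [← hgg]
    exact hg'

end Cfsg.Agent.S0772
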