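import Mathlib
import Cfsg.Statements.S0773
import Cfsg.Agent.S0771

set_option autoImplicit false
open Cfsg

namespace Cfsg.Agent.S0773

open Matrix

/-- inverse transpose conjugated by the reversal -/
def psi (n : ℕ) (F : Type*) [Field F] : GL (Fin n) F →* GL (Fin n) F where
  toFun g := ⟨(((g⁻¹ : GL (Fin n) F) : Matrix (Fin n) (Fin n) F)ᵀ).submatrix
      (Fin.revPerm : Fin n ≃ Fin n) (Fin.revPerm : Fin n ≃ Fin n),
    ((g : Matrix (Fin n) (Fin n) F)ᵀ).submatrix
      (Fin.revPerm : Fin n ≃ Fin n) (Fin.revPerm : Fin n ≃ Fin n),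
    by rw [Matrix.submatrix_mul_equiv, ← Matrix.transpose_mul, ← Units.val_mul, mul_inv_cancel,
        Units.val_one, Matrix.transpose_one, Matrix.submatrix_one_equiv],
    by rw [Matrix.submatrix_mul_equiv, ← Matrix.transpose_mul, ← Units.val_mul, inv_mul_cancel,
        Units.val_one, Matrix.transpose_one, Matrix.submatrix_one_equiv]⟩
  map_one' := by
    apply Units.ext
    show ((((1 : GL (Fin n) F)⁻¹ : GL (Fin n) F) : Matrix (Fin n) (Fin n) F)ᵀ).submatrix
      (Fin.revPerm : Fin n ≃ Fin n) (Fin.revPerm : Fin n ≃ Fin n) = 1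
    rw [inv_one, Units.val_one, Matrix.transpose_one, Matrix.submatrix_one_equiv]
  map_mul' g h := by
    apply Units.ext
    show ((((g * h)⁻¹ : GL (Fin n) F) : Matrix (Fin n) (Fin n) F)ᵀ).submatrix
        (Fin.revPerm : Fin n ≃ Fin n) (Fin.revPerm : Fin n ≃ Fin n) =
      (((g⁻¹ : GL (Fin n) F) : Matrix (Fin n) (Fin n) F)ᵀ).submatrix
        (Fin.revPerm : Fin n ≃ Fin n) (Fin.revPerm : Fin n ≃ Fin n) *
      (((h⁻¹ : GL (Fin n) F) : Matrix (Fin n) (Fin n) F)ᵀ).submatrix
        (Fin.revPerm : Fin n ≃ Fin n) (Fin.revPerm : Fin n ≃ Fin n)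
    rw [Matrix.submatrix_mul_equiv, ← Matrix.transpose_mul, ← Units.val_mul, _root_.mul_inv_rev]

lemma psi_val {F : Type*} [Field F] (n : ℕ) (g : GL (Fin n) F) :
    ((psi n F g : GL (Fin n) F) : Matrix (Fin n) (Fin n) F) =
      (((g⁻¹ : GL (Fin n) F) : Matrix (Fin n) (Fin n) F)ᵀ).submatrix
        (Fin.revPerm : Fin n ≃ Fin n) (Fin.revPerm : Fin n ≃ Fin n) := rfl

lemma psi_psi {F : Type*} [Field F] (n : ℕ) (g : GL (Fin n) F) : psi n F (psi n F g) = g := by
  apply Units.ext
  rw [psi_val]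
  have h : (((psi n F g)⁻¹ : GL (Fin n) F) : Matrix (Fin n) (Fin n) F) =
      ((g : Matrix (Fin n) (Fin n) F)ᵀ).submatrix
        (Fin.revPerm : Fin n ≃ Fin n) (Fin.revPerm : Fin n ≃ Fin n) := rfl
  rw [h]
  ext i j
  simp [Matrix.submatrix_apply]

lemma psi_mem {F : Type*} [Field F] [Fintype F] (n j : ℕ) (g : GL (Fin n) F)
    (hg : g ∈ Cfsg.stabilizing (Cfsg.glToMat (Fin n) F)
      {v : Fin n → F | ∀ i : Fin n, j ≤ (i : ℕ) → v i = 0}) :
    psi n F g ∈ Cfsg.stabilizing (Cfsg.glToMat (Fin n) F)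
      {v : Fin n → F | ∀ i : Fin n, n - j ≤ (i : ℕ) → v i = 0} := by
  rw [Cfsg.Agent.S0771.mem_stab]
  intro i l hi hl
  have hg' := (Cfsg.Agent.S0771.mem_stab n j g⁻¹).1 (Subgroup.inv_mem _ hg)
  rw [psi_val, Matrix.submatrix_apply, Matrix.transpose_apply]
  have hi2 := i.2
  have hl2 := l.2
  apply hg'
  · show j ≤ ((Fin.rev l : Fin n) : ℕ)
    rw [Fin.val_rev]; omega
  · show ((Fin.rev i : Fin n) : ℕ) < j
    rw [Fin.val_rev]; omega

/-- coordinate subspace as a submodule -/
def Sk (F : Type*) [Field F] (n k : ℕ) : Submodule F (Fin n → F) where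
  carrier := {v | ∀ i : Fin n, k ≤ (i : ℕ) → v i = 0}
  add_mem' := by
    intro a b ha hb i hi
    simp [ha i hi, hb i hi]
  zero_mem' := by
    intro i hi
    rfl
  smul_mem' := by
    intro c a ha i hi
    simp [ha i hi]

lemma card_Sk {F : Type*} [Field F] [Fintype F] (n j : ℕ) (hj : j ≤ n) :
    Nat.card ↥(Sk F n j) = Fintype.card F ^ j := by
  classical
  have e : ↥(Sk F n j) ≃ (Fin j → F) :=
    { toFun := fun v a => v.1 (Fin.castLE hj a)
      invFun := fun w => ⟨fun i => if h : (i : ℕ) < j then w ⟨i, h⟩ else 0, by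
        intro i hi
        simp [not_lt.2 hi]⟩
      left_inv := by
        intro v
        apply Subtype.ext
        funext i
        by_cases h : (i : ℕ) < j
        · simp [h]
        · simp only [h, dif_neg, not_false_iff]
          exact (v.2 i (not_lt.1 h)).symm
      right_inv := by
        intro w
        funext a
        simp }
  rw [Nat.card_congr e, Nat.card_eq_fintype_card, Fintype.card_fun, Fintype.card_fin]

lemma transv_mem {F : Type*} [Field F] [Fintype F] (n j : ℕ) (a b : Fin n) (hab : a ≠ b)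
    (h : (a : ℕ) < j ∨ j ≤ (b : ℕ)) :
    ∃ E : GL (Fin n) F, E ∈ Cfsg.stabilizing (Cfsg.glToMat (Fin n) F)
        {v : Fin n → F | ∀ i : Fin n, j ≤ (i : ℕ) → v i = 0} ∧
      ∀ x : Fin n → F, (E : Matrix (Fin n) (Fin n) F) *ᵥ x = x + Pi.single a (x b) := by
  classical
  have hdet : (Matrix.transvection a b (1 : F)).det ≠ 0 := by
    rw [Matrix.det_transvection_of_ne a b hab]; exact one_ne_zero
  refine ⟨Matrix.GeneralLinearGroup.mkOfDetNeZero _ hdet, ?_, ?_⟩
  · rw [Cfsg.Agent.S0771.mem_stab]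
    intro i l hi hl
    show (Matrix.transvection a b (1 : F)) i l = 0
    have hil : i ≠ l := by
      intro h'; rw [h'] at hi; omega
    rw [Matrix.transvection, Matrix.add_apply, Matrix.one_apply_ne hil, Matrix.single_apply,
      if_neg, add_zero]
    rintro ⟨rfl, rfl⟩
    omega
  · intro x
    show (Matrix.transvection a b (1 : F)) *ᵥ x = x + Pi.single a (x b)
    rw [Matrix.transvection, Matrix.add_mulVec, Matrix.one_mulVec, Matrix.single_mulVec, one_mul]
    congr 1

lemma inv_sub {F : Type*} [Field F] (n j : ℕ) (X : Submodule F (Fin n → F))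
    (hX : ∀ a b : Fin n, a ≠ b → ((a : ℕ) < j ∨ j ≤ (b : ℕ)) →
      ∀ x ∈ X, x + Pi.single a (x b) ∈ X)
    (x0 : Fin n → F) (hx0 : x0 ∈ X) (hx00 : x0 ≠ 0) :
    (∀ a : Fin n, (a : ℕ) < j → Pi.single a (1 : F) ∈ X) ∧
      ((∀ x ∈ X, ∀ b : Fin n, j ≤ (b : ℕ) → x b = 0) ∨ ∀ x : Fin n → F, x ∈ X) := by
  classical
  have key1 : ∀ x ∈ X, ∀ b : Fin n, x b ≠ 0 → ∀ a : Fin n, a ≠ b →
      ((a : ℕ) < j ∨ j ≤ (b : ℕ)) → Pi.single a (1 : F) ∈ X := by
    intro x hx b hxb a hab h
    have h1 := hX a b hab h x hx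
    have h2 : Pi.single a (x b) ∈ X := by
      have := X.sub_mem h1 hx
      rwa [add_sub_cancel_left] at this
    have h3 : (Pi.single a (1 : F) : Fin n → F) = (x b)⁻¹ • Pi.single a (x b) := by
      rw [← Pi.single_smul', smul_eq_mul, inv_mul_cancel₀ hxb]
    rw [h3]
    exact X.smul_mem _ h2
  have key2 : ∀ x ∈ X, ∀ b : Fin n, (∀ a : Fin n, a ≠ b → Pi.single a (x a) ∈ X) →
      Pi.single b (x b) ∈ X := by
    intro x hx b hall
    have h1 : (Pi.single b (x b) : Fin n → F) +
        ∑ a ∈ Finset.univ.erase b, (Pi.single a (x a) : Fin n → F) = x := by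
      have h0 := Finset.add_sum_erase Finset.univ (fun a => (Pi.single a (x a) : Fin n → F))
        (Finset.mem_univ b)
      exact h0.trans (Finset.univ_sum_single x)
    have h2 : (Pi.single b (x b) : Fin n → F) =
        x - ∑ a ∈ Finset.univ.erase b, (Pi.single a (x a) : Fin n → F) := by
      rw [eq_sub_iff_add_eq]; exact h1
    rw [h2]
    apply X.sub_mem hx
    apply X.sum_mem
    intro a ha
    exact hall a (Finset.ne_of_mem_erase ha)
  have hsm : ∀ (a : Fin n) (c : F), Pi.single a (1 : F) ∈ X → (Pi.single a c : Fin n → F) ∈ X := by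
    intro a c h
    have h3 : (Pi.single a c : Fin n → F) = c • Pi.single a (1 : F) := by
      rw [← Pi.single_smul', smul_eq_mul, mul_one]
    rw [h3]
    exact X.smul_mem _ h
  have hinv : ∀ (b : Fin n) (c : F), c ≠ 0 → (Pi.single b c : Fin n → F) ∈ X →
      Pi.single b (1 : F) ∈ X := by
    intro b c hc h
    have h3 : (Pi.single b (1 : F) : Fin n → F) = c⁻¹ • Pi.single b c := by
      rw [← Pi.single_smul', smul_eq_mul, inv_mul_cancel₀ hc]
    rw [h3]
    exact X.smul_mem _ h
  constructor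
  · by_cases hcase : ∃ b : Fin n, j ≤ (b : ℕ) ∧ x0 b ≠ 0
    · obtain ⟨b, hb, hxb⟩ := hcase
      intro a ha
      have hab : a ≠ b := by
        intro h; rw [h] at ha; omega
      exact key1 x0 hx0 b hxb a hab (Or.inr hb)
    · push Not at hcase
      obtain ⟨b, hb⟩ := Function.ne_iff.1 hx00
      have hbj : (b : ℕ) < j := by
        by_contra hcon
        exact hb (hcase b (not_lt.1 hcon))
      have hothers : ∀ a : Fin n, (a : ℕ) < j → a ≠ b → Pi.single a (1 : F) ∈ X := by
        intro a ha hab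
        exact key1 x0 hx0 b hb a hab (Or.inl ha)
      intro a ha
      by_cases hab : a = b
      · rw [hab]
        apply hinv b (x0 b) hb
        apply key2 x0 hx0 b
        intro a' ha'
        by_cases ha'j : (a' : ℕ) < j
        · exact hsm a' _ (hothers a' ha'j ha')
        · rw [hcase a' (not_lt.1 ha'j), Pi.single_zero]
          exact X.zero_mem
      · exact hothers a ha hab
  · by_cases hB : ∀ x ∈ X, ∀ b : Fin n, j ≤ (b : ℕ) → x b = 0
    · exact Or.inl hB
    · right
      push Not at hB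
      obtain ⟨x, hx, b, hb, hxb⟩ := hB
      have hothers : ∀ a : Fin n, a ≠ b → Pi.single a (1 : F) ∈ X := by
        intro a hab
        exact key1 x hx b hxb a hab (Or.inr hb)
      have hb1 : Pi.single b (1 : F) ∈ X := by
        apply hinv b (x b) hxb
        apply key2 x hx b
        intro a' ha'
        exact hsm a' _ (hothers a' ha')
      have hall : ∀ a : Fin n, Pi.single a (1 : F) ∈ X := by
        intro a
        by_cases hab : a = b
        · rw [hab]; exact hb1
        · exact hothers a hab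
      intro y
      rw [← Finset.univ_sum_single y]
      apply X.sum_mem
      intro a _
      exact hsm a _ (hall a)

theorem result {F : Type*} [Field F] [Finite F] (n k : ℕ) (hk0 : 0 < k) (hkn : k < n) (h2 : 2 * k ≠ n) : Nonempty (↥(Cfsg.stabilizing (Cfsg.glToMat (Fin n) F) {v : Fin n → F | ∀ i : Fin n, k ≤ (i : ℕ) → v i = 0}) ≃* ↥(Cfsg.stabilizing (Cfsg.glToMat (Fin n) F) {v : Fin n → F | ∀ i : Fin n, n - k ≤ (i : ℕ) → v i = 0})) ∧ ∀ g : Matrix.GeneralLinearGroup (Fin n) F, (Cfsg.stabilizing (Cfsg.glToMat (Fin n) F) {v : Fin n → F | ∀ i : Fin n, k ≤ (i : ℕ) → v i = 0}).map (MulAut.conj g).toMonoidHom ≠ Cfsg.stabilizing (Cfsg.glToMat (Fin n) F) {v : Fin n → F | ∀ i : Fin n, n - k ≤ (i : ℕ) → v i = 0} := by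
  classical
  cases nonempty_fintype F
  constructor
  · exact ⟨{ toFun := fun g => ⟨psi n F g.1, psi_mem n k g.1 g.2⟩
             invFun := fun p => ⟨psi n F p.1, by
               have := psi_mem n (n - k) p.1 p.2
               rwa [Nat.sub_sub_self hkn.le] at this⟩
             left_inv := fun g => Subtype.ext (psi_psi n g.1)
             right_inv := fun p => Subtype.ext (psi_psi n p.1)
             map_mul' := fun g h => Subtype.ext (map_mul (psi n F) g.1 h.1) }⟩
  · intro g heq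
    obtain ⟨j, hj⟩ : ∃ j, j = n - k := ⟨_, rfl⟩
    rw [← hj] at heq
    have hj0 : 0 < j := by omega
    have hjn : j < n := by omega
    have hjk : j ≠ k := by omega
    have hginv : ((g⁻¹ : GL (Fin n) F) : Matrix (Fin n) (Fin n) F) *
        (g : Matrix (Fin n) (Fin n) F) = 1 := by
      rw [← Units.val_mul, inv_mul_cancel, Units.val_one]
    have hginv' : (g : Matrix (Fin n) (Fin n) F) *
        ((g⁻¹ : GL (Fin n) F) : Matrix (Fin n) (Fin n) F) = 1 := by
      rw [← Units.val_mul, mul_inv_cancel, Units.val_one]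
    obtain ⟨X, hXdef⟩ : ∃ X : Submodule F (Fin n → F), X = Submodule.comap
        (Matrix.mulVecLin ((g⁻¹ : GL (Fin n) F) : Matrix (Fin n) (Fin n) F)) (Sk F n k) :=
      ⟨_, rfl⟩
    have hXmem : ∀ x : Fin n → F, x ∈ X ↔
        ((g⁻¹ : GL (Fin n) F) : Matrix (Fin n) (Fin n) F) *ᵥ x ∈ Sk F n k := by
      intro x
      rw [hXdef, Submodule.mem_comap, Matrix.mulVecLin_apply]
    have hX : ∀ a b : Fin n, a ≠ b → ((a : ℕ) < j ∨ j ≤ (b : ℕ)) →
        ∀ x ∈ X, x + Pi.single a (x b) ∈ X := by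
      intro a b hab h x hx
      obtain ⟨E, hE, hEx⟩ := transv_mem (F := F) n j a b hab h
      rw [← heq] at hE
      obtain ⟨h', hh', hconj⟩ := hE
      have hconj' : (E : Matrix (Fin n) (Fin n) F) = (g : Matrix (Fin n) (Fin n) F) *
          (h' : Matrix (Fin n) (Fin n) F) * ((g⁻¹ : GL (Fin n) F) : Matrix (Fin n) (Fin n) F) := by
        rw [← hconj]
        rfl
      rw [← hEx, hXmem, hconj', Matrix.mulVec_mulVec, ← Matrix.mul_assoc, ← Matrix.mul_assoc,
        hginv, Matrix.one_mul, ← Matrix.mulVec_mulVec]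
      exact (hh' _).1 ((hXmem x).1 hx)
    obtain ⟨z0, hz0⟩ : ∃ z0 : Fin n, (z0 : ℕ) = 0 := ⟨⟨0, by omega⟩, rfl⟩
    obtain ⟨zl, hzl⟩ : ∃ zl : Fin n, (zl : ℕ) = n - 1 := ⟨⟨n - 1, by omega⟩, rfl⟩
    have hgg : ∀ v : Fin n → F, ((g⁻¹ : GL (Fin n) F) : Matrix (Fin n) (Fin n) F) *ᵥ
        ((g : Matrix (Fin n) (Fin n) F) *ᵥ v) = v := by
      intro v
      rw [Matrix.mulVec_mulVec, hginv, Matrix.one_mulVec]
    have hgg' : ∀ v : Fin n → F, (g : Matrix (Fin n) (Fin n) F) *ᵥ
        (((g⁻¹ : GL (Fin n) F) : Matrix (Fin n) (Fin n) F) *ᵥ v) = v := by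
      intro v
      rw [Matrix.mulVec_mulVec, hginv', Matrix.one_mulVec]
    have hx0 : (g : Matrix (Fin n) (Fin n) F) *ᵥ Pi.single z0 (1 : F) ∈ X := by
      rw [hXmem, hgg]
      intro i hi
      have : i ≠ z0 := by
        intro h; rw [h] at hi; omega
      simp [this]
    have hx00 : (g : Matrix (Fin n) (Fin n) F) *ᵥ Pi.single z0 (1 : F) ≠ 0 := by
      intro h0
      have h1 := hgg (Pi.single z0 (1 : F))
      rw [h0, Matrix.mulVec_zero] at h1
      have h3 := congrFun h1 z0
      simp at h3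
    obtain ⟨hA, hB⟩ := inv_sub n j X hX _ hx0 hx00
    rcases hB with hB | hB
    · -- X = S_j
      have hSjX : ∀ v : Fin n → F, v ∈ Sk F n j → v ∈ X := by
        intro v hv
        rw [← Finset.univ_sum_single v]
        apply X.sum_mem
        intro a _
        by_cases haj : (a : ℕ) < j
        · have h3 : (Pi.single a (v a) : Fin n → F) = (v a) • Pi.single a (1 : F) := by
            rw [← Pi.single_smul', smul_eq_mul, mul_one]
          rw [h3]
          exact X.smul_mem _ (hA a haj)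
        · rw [hv a (not_lt.1 haj), Pi.single_zero]
          exact X.zero_mem
      have e : ↥(Sk F n j) ≃ ↥(Sk F n k) :=
        { toFun := fun v => ⟨((g⁻¹ : GL (Fin n) F) : Matrix (Fin n) (Fin n) F) *ᵥ v.1,
            (hXmem v.1).1 (hSjX v.1 v.2)⟩
          invFun := fun w => ⟨(g : Matrix (Fin n) (Fin n) F) *ᵥ w.1, by
            have h1 : (g : Matrix (Fin n) (Fin n) F) *ᵥ w.1 ∈ X := by
              rw [hXmem, hgg]; exact w.2
            intro b hb
            exact hB _ h1 b hb⟩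
          left_inv := fun v => Subtype.ext (hgg' v.1)
          right_inv := fun w => Subtype.ext (hgg w.1) }
      have hcard := Nat.card_congr e
      rw [card_Sk n j hjn.le, card_Sk n k hkn.le] at hcard
      have hq : 2 ≤ Fintype.card F := Fintype.one_lt_card
      exact hjk (Nat.pow_right_injective hq hcard)
    · have h1 := hB ((g : Matrix (Fin n) (Fin n) F) *ᵥ Pi.single zl (1 : F))
      rw [hXmem, hgg] at h1
      have h3 := h1 zl (by omega)
      simp at h3

end Cfsg.Agent.S0773
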