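import Mathlib
import Cfsg.Statements.S0774

set_option autoImplicit false
open Cfsg

namespace Cfsg.Agent.S0774

open Matrix

lemma blk_symp {F : Type*} [Field F] (m : ℕ) (X Y Z : Matrix (Fin m) (Fin m) F)
    (h1 : X * Zᵀ = 1) (h2 : Y * Xᵀ = X * Yᵀ) :
    Matrix.fromBlocks X Y 0 Z ∈ Matrix.symplecticGroup (Fin m) F := by
  have h3 : Z * Xᵀ = 1 := by
    have := congrArg Matrix.transpose h1
    rw [Matrix.transpose_mul, Matrix.transpose_transpose, Matrix.transpose_one] at this
    exact this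
  rw [SymplecticGroup.mem_iff, Matrix.J, Matrix.fromBlocks_multiply, Matrix.fromBlocks_transpose,
    Matrix.fromBlocks_multiply]
  simp [h1, h2, h3]

lemma blk_symp_conv {F : Type*} [Field F] (m : ℕ) (X Y Z : Matrix (Fin m) (Fin m) F)
    (h : Matrix.fromBlocks X Y 0 Z ∈ Matrix.symplecticGroup (Fin m) F) :
    X * Zᵀ = 1 ∧ Y * Xᵀ = X * Yᵀ := by
  rw [SymplecticGroup.mem_iff, Matrix.J, Matrix.fromBlocks_multiply, Matrix.fromBlocks_transpose,
    Matrix.fromBlocks_multiply, Matrix.fromBlocks_inj] at h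
  obtain ⟨h1, h2, -, -⟩ := h
  constructor
  · have : -(X * Zᵀ) = -1 := by simpa using h2
    exact neg_injective this
  · have : Y * Xᵀ - X * Yᵀ = 0 := by simpa [sub_eq_add_neg] using h1
    exact sub_eq_zero.1 this

lemma mem_borel {F : Type*} [Field F] [Fintype F] (m : ℕ) (A : Matrix.symplecticGroup (Fin m) F) :
    A ∈ (⨅ k : Fin m, Cfsg.stabilizing (Cfsg.spToMat m F) {v : Fin m ⊕ Fin m → F |
      (∀ i : Fin m, (k : ℕ) < (i : ℕ) → v (Sum.inl i) = 0) ∧ ∀ i : Fin m, v (Sum.inr i) = 0}) ↔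
    (∀ i j : Fin m, (A : Matrix (Fin m ⊕ Fin m) (Fin m ⊕ Fin m) F) (Sum.inr i) (Sum.inl j) = 0) ∧
    (∀ i j : Fin m, (j : ℕ) < (i : ℕ) →
      (A : Matrix (Fin m ⊕ Fin m) (Fin m ⊕ Fin m) F) (Sum.inl i) (Sum.inl j) = 0) := by
  classical
  have hval : (Cfsg.spToMat m F) A = (A : Matrix (Fin m ⊕ Fin m) (Fin m ⊕ Fin m) F) := rfl
  rw [Subgroup.mem_iInf]
  constructor
  · intro h
    have key : ∀ j : Fin m, (A : Matrix (Fin m ⊕ Fin m) (Fin m ⊕ Fin m) F) *ᵥ
        Pi.single (Sum.inl j) 1 ∈ {v : Fin m ⊕ Fin m → F |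
      (∀ i : Fin m, (j : ℕ) < (i : ℕ) → v (Sum.inl i) = 0) ∧ ∀ i : Fin m, v (Sum.inr i) = 0} := by
      intro j
      have h1 : (Pi.single (Sum.inl j) (1 : F) : Fin m ⊕ Fin m → F) ∈ {v : Fin m ⊕ Fin m → F |
          (∀ i : Fin m, (j : ℕ) < (i : ℕ) → v (Sum.inl i) = 0) ∧
            ∀ i : Fin m, v (Sum.inr i) = 0} := by
        constructor
        · intro i hi
          have hne : i ≠ j := by
            intro h'; rw [h'] at hi; omega
          simp [hne]
        · intro i
          simp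
      have h2 := ((h j) _).1 h1
      rw [hval] at h2
      exact h2
    constructor
    · intro i j
      have h3 := (key j).2 i
      rw [Matrix.mulVec_single_one] at h3
      exact h3
    · intro i j hji
      have h3 := (key j).1 i hji
      rw [Matrix.mulVec_single_one] at h3
      exact h3
  · rintro ⟨c1, c2⟩ k
    have hfwd : ∀ v : Fin m ⊕ Fin m → F, v ∈ {v : Fin m ⊕ Fin m → F |
        (∀ i : Fin m, (k : ℕ) < (i : ℕ) → v (Sum.inl i) = 0) ∧ ∀ i : Fin m, v (Sum.inr i) = 0} →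
        (A : Matrix (Fin m ⊕ Fin m) (Fin m ⊕ Fin m) F) *ᵥ v ∈ {v : Fin m ⊕ Fin m → F |
        (∀ i : Fin m, (k : ℕ) < (i : ℕ) → v (Sum.inl i) = 0) ∧
          ∀ i : Fin m, v (Sum.inr i) = 0} := by
      rintro v ⟨hv1, hv2⟩
      constructor
      · intro i hi
        show ∑ y, (A : Matrix (Fin m ⊕ Fin m) (Fin m ⊕ Fin m) F) (Sum.inl i) y * v y = 0
        rw [Fintype.sum_sum_type]
        have e1 : ∑ j, (A : Matrix (Fin m ⊕ Fin m) (Fin m ⊕ Fin m) F) (Sum.inl i) (Sum.inl j) *
            v (Sum.inl j) = 0 := by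
          apply Finset.sum_eq_zero
          intro j _
          by_cases hj : (k : ℕ) < (j : ℕ)
          · rw [hv1 j hj, mul_zero]
          · rw [c2 i j (by omega), zero_mul]
        have e2 : ∑ j, (A : Matrix (Fin m ⊕ Fin m) (Fin m ⊕ Fin m) F) (Sum.inl i) (Sum.inr j) *
            v (Sum.inr j) = 0 := by
          apply Finset.sum_eq_zero
          intro j _
          rw [hv2 j, mul_zero]
        rw [e1, e2, add_zero]
      · intro i
        show ∑ y, (A : Matrix (Fin m ⊕ Fin m) (Fin m ⊕ Fin m) F) (Sum.inr i) y * v y = 0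
        rw [Fintype.sum_sum_type]
        have e1 : ∑ j, (A : Matrix (Fin m ⊕ Fin m) (Fin m ⊕ Fin m) F) (Sum.inr i) (Sum.inl j) *
            v (Sum.inl j) = 0 := by
          apply Finset.sum_eq_zero
          intro j _
          rw [c1 i j, zero_mul]
        have e2 : ∑ j, (A : Matrix (Fin m ⊕ Fin m) (Fin m ⊕ Fin m) F) (Sum.inr i) (Sum.inr j) *
            v (Sum.inr j) = 0 := by
          apply Finset.sum_eq_zero
          intro j _
          rw [hv2 j, mul_zero]
        rw [e1, e2, add_zero]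
    have hinj : Function.Injective
        (fun v : Fin m ⊕ Fin m → F => (A : Matrix (Fin m ⊕ Fin m) (Fin m ⊕ Fin m) F) *ᵥ v) := by
      intro v w hvw
      have h := congrArg (fun x => ((A⁻¹ : Matrix.symplecticGroup (Fin m) F) :
        Matrix (Fin m ⊕ Fin m) (Fin m ⊕ Fin m) F) *ᵥ x) hvw
      simp only [Matrix.mulVec_mulVec] at h
      have h1 : ((A⁻¹ : Matrix.symplecticGroup (Fin m) F) :
          Matrix (Fin m ⊕ Fin m) (Fin m ⊕ Fin m) F) *
          (A : Matrix (Fin m ⊕ Fin m) (Fin m ⊕ Fin m) F) = 1 := by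
        have h2 : ((A⁻¹ * A : Matrix.symplecticGroup (Fin m) F) :
          Matrix (Fin m ⊕ Fin m) (Fin m ⊕ Fin m) F) = 1 := by
          rw [inv_mul_cancel]; rfl
        exact h2
      rw [h1, Matrix.one_mulVec, Matrix.one_mulVec] at h
      exact h
    let φ : {v : Fin m ⊕ Fin m → F // v ∈ {v : Fin m ⊕ Fin m → F |
        (∀ i : Fin m, (k : ℕ) < (i : ℕ) → v (Sum.inl i) = 0) ∧ ∀ i : Fin m, v (Sum.inr i) = 0}} →
        {v : Fin m ⊕ Fin m → F // v ∈ {v : Fin m ⊕ Fin m → F |
        (∀ i : Fin m, (k : ℕ) < (i : ℕ) → v (Sum.inl i) = 0) ∧ ∀ i : Fin m, v (Sum.inr i) = 0}} :=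
      fun v => ⟨(A : Matrix (Fin m ⊕ Fin m) (Fin m ⊕ Fin m) F) *ᵥ v.1, hfwd v.1 v.2⟩
    have hφinj : Function.Injective φ := by
      intro v w hvw
      apply Subtype.ext
      exact hinj (congrArg Subtype.val hvw)
    have hφsurj : Function.Surjective φ := Finite.injective_iff_surjective.1 hφinj
    intro v
    rw [hval]
    constructor
    · intro hv
      exact hfwd v hv
    · intro hv
      obtain ⟨w, hw⟩ := hφsurj ⟨_, hv⟩
      have h1 : (A : Matrix (Fin m ⊕ Fin m) (Fin m ⊕ Fin m) F) *ᵥ w.1 =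
          (A : Matrix (Fin m ⊕ Fin m) (Fin m ⊕ Fin m) F) *ᵥ v := congrArg Subtype.val hw
      have h2 : w.1 = v := hinj h1
      rw [← h2]
      exact w.2

/-- the upper triangular block -/
def Xof {F : Type*} [Field F] (m : ℕ) (d : Fin m → Fˣ) (M : Matrix (Fin m) (Fin m) F) :
    Matrix (Fin m) (Fin m) F :=
  Matrix.of fun i j => if i < j then M i j else if i = j then (d i : F) else 0

/-- the symmetric block -/
def Sof {F : Type*} [Field F] (m : ℕ) (M : Matrix (Fin m) (Fin m) F) :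
    Matrix (Fin m) (Fin m) F :=
  Matrix.of fun i j => if j ≤ i then M i j else M j i

lemma Sof_symm {F : Type*} [Field F] (m : ℕ) (M : Matrix (Fin m) (Fin m) F) :
    (Sof m M)ᵀ = Sof m M := by
  ext i j
  simp only [Sof, Matrix.transpose_apply, Matrix.of_apply]
  by_cases h1 : i ≤ j
  · by_cases h2 : j ≤ i
    · have : i = j := le_antisymm h1 h2
      subst this
      simp
    · simp [h1, h2]
  · have h2 : j ≤ i := le_of_lt (not_le.1 h1)
    simp [h1, h2]

lemma Xof_det {F : Type*} [Field F] (m : ℕ) (d : Fin m → Fˣ) (M : Matrix (Fin m) (Fin m) F) :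
    (Xof m d M).det = ∏ i, (d i : F) := by
  have h : (Xof m d M).IsUpperTriangular := by
    intro i j hji
    have hji' : j < i := hji
    simp only [Xof, Matrix.of_apply]
    rw [if_neg (not_lt.2 hji'.le), if_neg (ne_of_gt hji')]
  rw [Matrix.det_of_isUpperTriangular h]
  apply Finset.prod_congr rfl
  intro i _
  simp [Xof]

lemma Xof_isUnit {F : Type*} [Field F] (m : ℕ) (d : Fin m → Fˣ) (M : Matrix (Fin m) (Fin m) F) :
    IsUnit (Xof m d M).det := by
  rw [Xof_det, isUnit_iff_ne_zero, Finset.prod_ne_zero_iff]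
  intro i _
  exact (d i).ne_zero

theorem result {F : Type*} [Field F] [Fintype F] {q : ℕ} (hF : Fintype.card F = q) (m : ℕ) : Nat.card ↥(⨅ k : Fin m, Cfsg.stabilizing (Cfsg.spToMat m F) {v : Fin m ⊕ Fin m → F | (∀ i : Fin m, (k : ℕ) < (i : ℕ) → v (Sum.inl i) = 0) ∧ ∀ i : Fin m, v (Sum.inr i) = 0}) = q ^ (m ^ 2) * (q - 1) ^ m := by
  classical
  subst hF
  have hsymp : ∀ x : (Fin m → Fˣ) × Matrix (Fin m) (Fin m) F,
      Matrix.fromBlocks (Xof m x.1 x.2) (Sof m x.2 * ((Xof m x.1 x.2)⁻¹)ᵀ) 0 ((Xof m x.1 x.2)⁻¹)ᵀ ∈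
        Matrix.symplecticGroup (Fin m) F := by
    intro x
    have hu := Xof_isUnit m x.1 x.2
    apply blk_symp
    · rw [Matrix.transpose_transpose, Matrix.mul_nonsing_inv _ hu]
    · rw [Matrix.transpose_mul, Matrix.transpose_transpose, ← Matrix.mul_assoc,
        Matrix.mul_nonsing_inv _ hu, Matrix.one_mul, Sof_symm, Matrix.mul_assoc,
        ← Matrix.transpose_mul, Matrix.mul_nonsing_inv _ hu, Matrix.transpose_one, Matrix.mul_one]
  have hmem : ∀ x : (Fin m → Fˣ) × Matrix (Fin m) (Fin m) F,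
      (⟨_, hsymp x⟩ : Matrix.symplecticGroup (Fin m) F) ∈
        (⨅ k : Fin m, Cfsg.stabilizing (Cfsg.spToMat m F) {v : Fin m ⊕ Fin m → F |
      (∀ i : Fin m, (k : ℕ) < (i : ℕ) → v (Sum.inl i) = 0) ∧ ∀ i : Fin m, v (Sum.inr i) = 0}) := by
    intro x
    rw [mem_borel]
    constructor
    · intro i j
      rfl
    · intro i j hji
      show Xof m x.1 x.2 i j = 0
      simp only [Xof, Matrix.of_apply]
      have hji' : j < i := hji
      rw [if_neg (not_lt.2 hji'.le), if_neg (ne_of_gt hji')]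
  let Φ : (Fin m → Fˣ) × Matrix (Fin m) (Fin m) F →
      ↥(⨅ k : Fin m, Cfsg.stabilizing (Cfsg.spToMat m F) {v : Fin m ⊕ Fin m → F |
      (∀ i : Fin m, (k : ℕ) < (i : ℕ) → v (Sum.inl i) = 0) ∧ ∀ i : Fin m, v (Sum.inr i) = 0}) :=
    fun x => ⟨⟨_, hsymp x⟩, hmem x⟩
  have hΦval : ∀ x, (((Φ x : Matrix.symplecticGroup (Fin m) F)) :
      Matrix (Fin m ⊕ Fin m) (Fin m ⊕ Fin m) F) =
      Matrix.fromBlocks (Xof m x.1 x.2) (Sof m x.2 * ((Xof m x.1 x.2)⁻¹)ᵀ) 0
        ((Xof m x.1 x.2)⁻¹)ᵀ := fun x => rfl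
  have hbij : Function.Bijective Φ := by
    constructor
    · intro x y hxy
      have h1 : (((Φ x : Matrix.symplecticGroup (Fin m) F)) :
          Matrix (Fin m ⊕ Fin m) (Fin m ⊕ Fin m) F) =
          (((Φ y : Matrix.symplecticGroup (Fin m) F)) :
          Matrix (Fin m ⊕ Fin m) (Fin m ⊕ Fin m) F) := by rw [hxy]
      rw [hΦval, hΦval, Matrix.fromBlocks_inj] at h1
      obtain ⟨hX, hY, -, -⟩ := h1
      have hS : Sof m x.2 = Sof m y.2 := by
        have hu := Xof_isUnit m x.1 x.2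
        have h2 : Sof m x.2 * ((Xof m x.1 x.2)⁻¹)ᵀ * (Xof m x.1 x.2)ᵀ = Sof m x.2 := by
          rw [Matrix.mul_assoc, ← Matrix.transpose_mul, Matrix.mul_nonsing_inv _ hu,
            Matrix.transpose_one, Matrix.mul_one]
        have hu' := Xof_isUnit m y.1 y.2
        have h3 : Sof m y.2 * ((Xof m y.1 y.2)⁻¹)ᵀ * (Xof m y.1 y.2)ᵀ = Sof m y.2 := by
          rw [Matrix.mul_assoc, ← Matrix.transpose_mul, Matrix.mul_nonsing_inv _ hu',
            Matrix.transpose_one, Matrix.mul_one]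
        rw [← h2, ← h3, hY, hX]
      apply Prod.ext
      · funext i
        apply Units.ext
        have h4 := congrFun (congrFun hX i) i
        simpa [Xof] using h4
      · ext i j
        by_cases hij : i < j
        · have h4 := congrFun (congrFun hX i) j
          simpa [Xof, hij] using h4
        · have h4 := congrFun (congrFun hS i) j
          have hji : j ≤ i := not_lt.1 hij
          simpa [Sof, hji] using h4
    · intro A
      obtain ⟨M, hM⟩ : ∃ M, M = (((A : Matrix.symplecticGroup (Fin m) F)) :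
          Matrix (Fin m ⊕ Fin m) (Fin m ⊕ Fin m) F) := ⟨_, rfl⟩
      obtain ⟨c1, c2⟩ := (mem_borel m (A : Matrix.symplecticGroup (Fin m) F)).1 A.2
      rw [← hM] at c1 c2
      have h21 : M.toBlocks₂₁ = 0 := by
        ext i j
        exact c1 i j
      have hMeq : M = Matrix.fromBlocks M.toBlocks₁₁ M.toBlocks₁₂ 0 M.toBlocks₂₂ := by
        have h := Matrix.fromBlocks_toBlocks M
        rw [h21] at h
        exact h.symm
      have hMsymp : M ∈ Matrix.symplecticGroup (Fin m) F := by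
        rw [hM]; exact (A : Matrix.symplecticGroup (Fin m) F).2
      rw [hMeq] at hMsymp
      obtain ⟨hXZ, hYX⟩ := blk_symp_conv m _ _ _ hMsymp
      obtain ⟨X, hX⟩ : ∃ X, X = M.toBlocks₁₁ := ⟨_, rfl⟩
      obtain ⟨Y, hY⟩ : ∃ Y, Y = M.toBlocks₁₂ := ⟨_, rfl⟩
      obtain ⟨Z, hZ⟩ : ∃ Z, Z = M.toBlocks₂₂ := ⟨_, rfl⟩
      rw [← hX, ← hZ] at hXZ
      rw [← hX, ← hY] at hYX
      rw [← hX, ← hY, ← hZ] at hMeq
      have hXtri : ∀ i j : Fin m, j < i → X i j = 0 := by
        intro i j hji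
        rw [hX]
        exact c2 i j hji
      have hXdet : X.det = ∏ i, X i i := Matrix.det_of_isUpperTriangular (fun i j hji => hXtri i j hji)
      have hXu : IsUnit X.det := by
        have h1 := congrArg Matrix.det hXZ
        rw [Matrix.det_mul, Matrix.det_one] at h1
        exact IsUnit.of_mul_eq_one _ h1
      have hXii : ∀ i, X i i ≠ 0 := by
        intro i
        rw [hXdet, isUnit_iff_ne_zero, Finset.prod_ne_zero_iff] at hXu
        exact hXu i (Finset.mem_univ i)
      have hZX : Zᵀ * X = 1 := (_root_.mul_eq_one_comm).1 hXZ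
      have hXinv : X⁻¹ = Zᵀ := Matrix.inv_eq_right_inv hXZ
      have hYXsymm : (Y * Xᵀ)ᵀ = Y * Xᵀ := by
        rw [Matrix.transpose_mul, Matrix.transpose_transpose, hYX]
      refine ⟨(fun i => Units.mk0 (X i i) (hXii i),
        Matrix.of fun i j => if i < j then X i j else (Y * Xᵀ) i j), ?_⟩
      apply Subtype.ext
      apply Subtype.ext
      rw [hΦval, ← hM]
      have hXof : Xof m (fun i => Units.mk0 (X i i) (hXii i))
          (Matrix.of fun i j => if i < j then X i j else (Y * Xᵀ) i j) = X := by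
        ext i j
        simp only [Xof, Matrix.of_apply]
        by_cases hij : i < j
        · rw [if_pos hij, if_pos hij]
        · rw [if_neg hij]
          by_cases hij2 : i = j
          · rw [if_pos hij2, Units.val_mk0, hij2]
          · rw [if_neg hij2]
            exact (hXtri i j (lt_of_le_of_ne (not_lt.1 hij) (Ne.symm hij2))).symm
      have hSof : Sof m (Matrix.of fun i j => if i < j then X i j else (Y * Xᵀ) i j) = Y * Xᵀ := by
        ext i j
        simp only [Sof, Matrix.of_apply]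
        by_cases hji : j ≤ i
        · rw [if_pos hji, if_neg (not_lt.2 hji)]
        · rw [if_neg hji, if_neg (not_lt.2 (le_of_lt (not_le.1 hji)))]
          have h5 := congrFun (congrFun hYXsymm i) j
          rw [Matrix.transpose_apply] at h5
          exact h5
      simp only [hXof, hSof]
      rw [hXinv, Matrix.transpose_transpose, Matrix.mul_assoc]
      have h6 : Xᵀ * Z = 1 := by
        have := congrArg Matrix.transpose hZX
        rw [Matrix.transpose_mul, Matrix.transpose_transpose, Matrix.transpose_one] at this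
        exact this
      rw [h6, Matrix.mul_one]
      exact hMeq.symm
  rw [← Nat.card_congr (Equiv.ofBijective Φ hbij), Nat.card_prod, Nat.card_fun, Nat.card_units,
    Nat.card_eq_fintype_card, Nat.card_eq_fintype_card, Fintype.card_fin]
  have hmat : Nat.card (Matrix (Fin m) (Fin m) F) = Fintype.card F ^ (m ^ 2) := by
    rw [Nat.card_eq_fintype_card]
    have h1 : Fintype.card (Matrix (Fin m) (Fin m) F) =
        Fintype.card (Fin m → Fin m → F) := rfl
    rw [h1, Fintype.card_fun, Fintype.card_fun, Fintype.card_fin, ← pow_mul, pow_two]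
  rw [hmat]
  ring

end Cfsg.Agent.S0774
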