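import Mathlib
import Cfsg.Statements.S0775
import Cfsg.Agent.Helper6.SpFrames

set_option autoImplicit false
open Cfsg

namespace Cfsg.Agent.S0775

theorem arith (q m : ℕ) : ∀ k : ℕ, k ≤ m →
    q ^ (m ^ 2) * ∏ i ∈ Finset.range m, (q ^ (2 * (i + 1)) - 1)
      = q ^ (k * (k + 1) / 2 + 2 * k * (m - k)) *
          (q ^ ((m - k) ^ 2) * ∏ i ∈ Finset.range (m - k), (q ^ (2 * (i + 1)) - 1)) *
          ∏ i ∈ Finset.range k, (q ^ (2 * m - i) - q ^ i) := by
  intro k
  induction k with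
  | zero =>
    intro _
    simp
  | succ k ih =>
    intro hk
    rw [ih (by omega)]
    obtain ⟨d, rfl⟩ : ∃ d, m = k + 1 + d := ⟨m - (k + 1), by omega⟩
    have e1 : k + 1 + d - k = d + 1 := by omega
    have e2 : k + 1 + d - (k + 1) = d := by omega
    rw [e1, e2, Finset.prod_range_succ, Finset.prod_range_succ]
    have e3 : q ^ (2 * (k + 1 + d) - k) - q ^ k = q ^ k * (q ^ (2 * (d + 1)) - 1) := by
      rw [Nat.mul_sub, mul_one, ← pow_add]
      congr 2
      omega
    have e4 : (k + 1) * (k + 1 + 1) / 2 = k * (k + 1) / 2 + (k + 1) := by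
      have : (k + 1) * (k + 1 + 1) = k * (k + 1) + (k + 1) * 2 := by ring
      rw [this, Nat.add_mul_div_right _ _ (by norm_num)]
    rw [e3, e4]
    generalize k * (k + 1) / 2 = T
    ring
/-- Maximal parabolics of the symplectic group: if W is a k-dimensional subspace of F^(2m) on which the symplectic form vanishes identically, its stabiliser in Sp_2m(q) has order q^(k(k+1)/2 + 2k(m−k)) · |Sp_(2m−2k)(q)| · |GL_k(q)|. -/
theorem result {F : Type*} [Field F] [Fintype F] {q : ℕ} (hF : Fintype.card F = q) (m k : ℕ) (hk : k ≤ m) (W : Submodule F (Fin m ⊕ Fin m → F)) (hWk : Module.finrank F W = k) (hW : ∀ u ∈ W, ∀ v ∈ W, Cfsg.sympForm m F u v = 0) : Nat.card ↥(Cfsg.stabilizing (Cfsg.spToMat m F) (W : Set (Fin m ⊕ Fin m → F))) = q ^ (k * (k + 1) / 2 + 2 * k * (m - k)) * (q ^ ((m - k) ^ 2) * ∏ i ∈ Finset.range (m - k), (q ^ (2 * (i + 1)) - 1)) * ∏ i : Fin k, (q ^ k - q ^ (i : ℕ)) := by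
  classical
  have hq : 1 < q := by
    rw [← hF]
    exact Fintype.one_lt_card
  have key := Helper6.sp_stab_ti_card m k W hWk hW
  rw [hF, Helper6.sp_card hF m, arith q m k hk] at key
  have hP : 0 < ∏ i ∈ Finset.range k, (q ^ (2 * m - i) - q ^ i) := by
    apply Finset.prod_pos
    intro i hi
    rw [Finset.mem_range] at hi
    exact Nat.sub_pos_of_lt (Nat.pow_lt_pow_right hq (by omega))
  apply Nat.eq_of_mul_eq_mul_right hP
  rw [key]
  ring

end Cfsg.Agent.S0775
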