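import Mathlib
import Cfsg.Statements.S0778

set_option autoImplicit false
open Cfsg

namespace Cfsg.Agent.S0778

open Matrix

lemma dg_symp {F : Type*} [Field F] (m : ℕ) (X Y : Matrix (Fin m) (Fin m) F) (h : X * Yᵀ = 1) :
    Matrix.fromBlocks X 0 0 Y ∈ Matrix.symplecticGroup (Fin m) F := by
  have h2 : Y * Xᵀ = 1 := by
    have := congrArg Matrix.transpose h
    rw [Matrix.transpose_mul, Matrix.transpose_transpose, Matrix.transpose_one] at this
    exact this
  rw [SymplecticGroup.mem_iff, Matrix.J, Matrix.fromBlocks_multiply, Matrix.fromBlocks_transpose,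
    Matrix.fromBlocks_multiply]
  simp [h, h2]

lemma dg_stab {F : Type*} [Field F] (m : ℕ) (X Y : Matrix (Fin m) (Fin m) F) (h : X * Yᵀ = 1)
    (hS : Matrix.fromBlocks X 0 0 Y ∈ Matrix.symplecticGroup (Fin m) F) :
    (⟨_, hS⟩ : Matrix.symplecticGroup (Fin m) F) ∈
      Cfsg.stabilizing (Cfsg.spToMat m F)
        {v : Fin m ⊕ Fin m → F | ∀ i : Fin m, v (Sum.inr i) = 0} ⊓
      Cfsg.stabilizing (Cfsg.spToMat m F)
        {v : Fin m ⊕ Fin m → F | ∀ i : Fin m, v (Sum.inl i) = 0} := by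
  have h2 : Xᵀ * Y = 1 := by
    have := congrArg Matrix.transpose h
    rw [Matrix.transpose_mul, Matrix.transpose_transpose, Matrix.transpose_one] at this
    exact (_root_.mul_eq_one_comm).1 this
  have h3 : Yᵀ * X = 1 := (_root_.mul_eq_one_comm).1 h
  have hval : (Cfsg.spToMat m F) (⟨_, hS⟩ : Matrix.symplecticGroup (Fin m) F) =
      Matrix.fromBlocks X 0 0 Y := rfl
  constructor
  · intro v
    rw [hval, Matrix.fromBlocks_mulVec]
    simp only [Set.mem_ofPred_eq, Sum.elim_inr, Matrix.zero_mulVec, zero_add]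
    constructor
    · intro hv i
      have : v ∘ Sum.inr = 0 := by
        funext j; exact hv j
      rw [this, Matrix.mulVec_zero]; rfl
    · intro hv i
      have h4 : Y *ᵥ (v ∘ Sum.inr) = 0 := by
        funext j; exact hv j
      have h5 : Xᵀ *ᵥ (Y *ᵥ (v ∘ Sum.inr)) = v ∘ Sum.inr := by
        rw [Matrix.mulVec_mulVec, h2, Matrix.one_mulVec]
      rw [h4, Matrix.mulVec_zero] at h5
      exact (congrFun h5 i).symm
  · intro v
    rw [hval, Matrix.fromBlocks_mulVec]
    simp only [Set.mem_ofPred_eq, Sum.elim_inl, Matrix.zero_mulVec, add_zero]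
    constructor
    · intro hv i
      have : v ∘ Sum.inl = 0 := by
        funext j; exact hv j
      rw [this, Matrix.mulVec_zero]; rfl
    · intro hv i
      have h4 : X *ᵥ (v ∘ Sum.inl) = 0 := by
        funext j; exact hv j
      have h5 : Yᵀ *ᵥ (X *ᵥ (v ∘ Sum.inl)) = v ∘ Sum.inl := by
        rw [Matrix.mulVec_mulVec, h3, Matrix.one_mulVec]
      rw [h4, Matrix.mulVec_zero] at h5
      exact (congrFun h5 i).symm

theorem result {F : Type*} [Field F] (m : ℕ) : Nonempty (↥(Cfsg.stabilizing (Cfsg.spToMat m F) {v : Fin m ⊕ Fin m → F | ∀ i : Fin m, v (Sum.inr i) = 0} ⊓ Cfsg.stabilizing (Cfsg.spToMat m F) {v : Fin m ⊕ Fin m → F | ∀ i : Fin m, v (Sum.inl i) = 0}) ≃* Matrix.GeneralLinearGroup (Fin m) F) := by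
  classical
  have hXY : ∀ X : GL (Fin m) F, (X : Matrix (Fin m) (Fin m) F) *
      (((X⁻¹ : GL (Fin m) F) : Matrix (Fin m) (Fin m) F)ᵀ)ᵀ = 1 := by
    intro X
    rw [Matrix.transpose_transpose, ← Units.val_mul, mul_inv_cancel, Units.val_one]
  let f : GL (Fin m) F →* ↥(Cfsg.stabilizing (Cfsg.spToMat m F)
        {v : Fin m ⊕ Fin m → F | ∀ i : Fin m, v (Sum.inr i) = 0} ⊓
      Cfsg.stabilizing (Cfsg.spToMat m F)
        {v : Fin m ⊕ Fin m → F | ∀ i : Fin m, v (Sum.inl i) = 0}) :=
    { toFun := fun X => ⟨⟨_, dg_symp m _ _ (hXY X)⟩, dg_stab m _ _ (hXY X) _⟩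
      map_one' := by
        apply Subtype.ext
        apply Subtype.ext
        show Matrix.fromBlocks ((1 : GL (Fin m) F) : Matrix (Fin m) (Fin m) F) 0 0
          (((1 : GL (Fin m) F)⁻¹ : GL (Fin m) F) : Matrix (Fin m) (Fin m) F)ᵀ = 1
        rw [inv_one, Units.val_one, Matrix.transpose_one, Matrix.fromBlocks_one]
      map_mul' := by
        intro X Y
        apply Subtype.ext
        apply Subtype.ext
        show Matrix.fromBlocks ((X * Y : GL (Fin m) F) : Matrix (Fin m) (Fin m) F) 0 0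
          (((X * Y)⁻¹ : GL (Fin m) F) : Matrix (Fin m) (Fin m) F)ᵀ =
          Matrix.fromBlocks (X : Matrix (Fin m) (Fin m) F) 0 0
            ((X⁻¹ : GL (Fin m) F) : Matrix (Fin m) (Fin m) F)ᵀ *
          Matrix.fromBlocks (Y : Matrix (Fin m) (Fin m) F) 0 0
            ((Y⁻¹ : GL (Fin m) F) : Matrix (Fin m) (Fin m) F)ᵀ
        rw [Matrix.fromBlocks_multiply, _root_.mul_inv_rev, Units.val_mul, Units.val_mul,
          Matrix.transpose_mul]
        simp }
  have hfval : ∀ X : GL (Fin m) F, (((f X : Matrix.symplecticGroup (Fin m) F)) :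
      Matrix (Fin m ⊕ Fin m) (Fin m ⊕ Fin m) F) =
      Matrix.fromBlocks (X : Matrix (Fin m) (Fin m) F) 0 0
        ((X⁻¹ : GL (Fin m) F) : Matrix (Fin m) (Fin m) F)ᵀ := fun X => rfl
  have hbij : Function.Bijective f := by
    constructor
    · intro X Y hXY'
      have h1 : (((f X : Matrix.symplecticGroup (Fin m) F)) :
          Matrix (Fin m ⊕ Fin m) (Fin m ⊕ Fin m) F) =
          (((f Y : Matrix.symplecticGroup (Fin m) F)) :
          Matrix (Fin m ⊕ Fin m) (Fin m ⊕ Fin m) F) := by rw [hXY']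
      rw [hfval, hfval, Matrix.fromBlocks_inj] at h1
      exact Units.ext h1.1
    · intro A
      obtain ⟨M, hM⟩ : ∃ M, M = (((A : Matrix.symplecticGroup (Fin m) F)) :
          Matrix (Fin m ⊕ Fin m) (Fin m ⊕ Fin m) F) := ⟨_, rfl⟩
      have hA1 := A.2.1
      have hA2 := A.2.2
      have hval : (Cfsg.spToMat m F) (A : Matrix.symplecticGroup (Fin m) F) = M := by
        rw [hM]; rfl
      have h21 : M.toBlocks₂₁ = 0 := by
        ext i j
        have h1 : (Pi.single (Sum.inl j) (1 : F) : Fin m ⊕ Fin m → F) ∈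
            {v : Fin m ⊕ Fin m → F | ∀ i : Fin m, v (Sum.inr i) = 0} := by
          intro i'
          simp
        have h2 := (hA1 _).1 h1 i
        rw [hval, Matrix.mulVec_single_one] at h2
        exact h2
      have h12 : M.toBlocks₁₂ = 0 := by
        ext i j
        have h1 : (Pi.single (Sum.inr j) (1 : F) : Fin m ⊕ Fin m → F) ∈
            {v : Fin m ⊕ Fin m → F | ∀ i : Fin m, v (Sum.inl i) = 0} := by
          intro i'
          simp
        have h2 := (hA2 _).1 h1 i
        rw [hval, Matrix.mulVec_single_one] at h2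
        exact h2
      have hMeq : M = Matrix.fromBlocks M.toBlocks₁₁ 0 0 M.toBlocks₂₂ := by
        have h := Matrix.fromBlocks_toBlocks M
        rw [h12, h21] at h
        exact h.symm
      have hMsymp : M ∈ Matrix.symplecticGroup (Fin m) F := by
        rw [hM]; exact (A : Matrix.symplecticGroup (Fin m) F).2
      rw [SymplecticGroup.mem_iff] at hMsymp
      have hprod : M.toBlocks₁₁ * (M.toBlocks₂₂)ᵀ = 1 := by
        rw [hMeq, Matrix.J, Matrix.fromBlocks_multiply, Matrix.fromBlocks_transpose,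
          Matrix.fromBlocks_multiply, Matrix.fromBlocks_inj] at hMsymp
        have h := hMsymp.2.1
        simpa using h
      have hprod' : (M.toBlocks₂₂)ᵀ * M.toBlocks₁₁ = 1 := (_root_.mul_eq_one_comm).1 hprod
      refine ⟨⟨M.toBlocks₁₁, (M.toBlocks₂₂)ᵀ, hprod, hprod'⟩, ?_⟩
      apply Subtype.ext
      apply Subtype.ext
      rw [hfval, ← hM]
      have hinv : (((⟨M.toBlocks₁₁, (M.toBlocks₂₂)ᵀ, hprod, hprod'⟩ : GL (Fin m) F)⁻¹ :
          GL (Fin m) F) : Matrix (Fin m) (Fin m) F) = (M.toBlocks₂₂)ᵀ := rfl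
      rw [hinv, Matrix.transpose_transpose]
      exact hMeq.symm
  exact ⟨(MulEquiv.ofBijective f hbij).symm⟩

end Cfsg.Agent.S0778
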