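import Mathlib
import Cfsg.Statements.S0784

set_option autoImplicit false
open Cfsg

namespace Cfsg.Agent.S0784

open Matrix

theorem polarVec_dot {F : Type*} [Field F] {n : ℕ} (Q : QuadraticForm F (Fin n → F))
    (v x : Fin n → F) : Cfsg.polarVec ⇑Q v ⬝ᵥ x = QuadraticMap.polar ⇑Q v x := by
  have h := LinearMap.pi_apply_eq_sum_univ (QuadraticMap.polarBilin Q v) x
  rw [QuadraticMap.polarBilin_apply_apply] at h
  rw [h, dotProduct]
  refine Finset.sum_congr rfl fun j _ => ?_
  rw [Cfsg.polarVec, smul_eq_mul, mul_comm, QuadraticMap.polarBilin_apply_apply]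
  congr 2
  ext k
  simp [Pi.single_apply, eq_comm]

theorem refl_mulVec {F : Type*} [Field F] {n : ℕ} (Q : QuadraticForm F (Fin n → F))
    (v x : Fin n → F) : (Cfsg.reflectionMatrix ⇑Q v).mulVec x =
      x - ((Q v)⁻¹ * QuadraticMap.polar ⇑Q v x) • v := by
  rw [Cfsg.reflectionMatrix, Matrix.sub_mulVec, Matrix.one_mulVec, Matrix.smul_mulVec,
    Matrix.vecMulVec_mulVec, polarVec_dot, op_smul_eq_smul, smul_smul]

/-- Reflections: if Q(v) ≠ 0 then the matrix R = 1 − Q(v)⁻¹ · v f(v, ·)ᵀ preserves Q, maps v to −v, fixes each x with f(v, x) = 0, and has determinant −1 (in characteristic two, −1 = 1 and R is the orthogonal transvection of v). -/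
theorem result {F : Type*} [Field F] {n : ℕ} (Q : QuadraticForm F (Fin n → F)) (v : Fin n → F) (hv : Q v ≠ 0) : (∀ x, Q ((Cfsg.reflectionMatrix ⇑Q v).mulVec x) = Q x) ∧ (Cfsg.reflectionMatrix ⇑Q v).mulVec v = -v ∧ (∀ x, QuadraticMap.polar ⇑Q v x = 0 → (Cfsg.reflectionMatrix ⇑Q v).mulVec x = x) ∧ (Cfsg.reflectionMatrix ⇑Q v).det = -1 := by
  have hself : QuadraticMap.polar ⇑Q v v = 2 * Q v := by
    rw [QuadraticMap.polar_self]; simp
  refine ⟨?_, ?_, ?_, ?_⟩
  · intro x
    rw [refl_mulVec]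
    set t := (Q v)⁻¹ * QuadraticMap.polar ⇑Q v x with ht
    have h1 : Q (x - t • v) = Q x + Q (-(t • v)) + QuadraticMap.polar ⇑Q x (-(t • v)) := by
      rw [QuadraticMap.polar, sub_eq_add_neg]
      ring
    rw [h1, QuadraticMap.map_neg, QuadraticMap.map_smul, QuadraticMap.polar_neg_right,
      QuadraticMap.polar_smul_right, QuadraticMap.polar_comm ⇑Q x v, smul_eq_mul, smul_eq_mul, ht]
    field_simp
    ring
  · rw [refl_mulVec, hself]
    have : (Q v)⁻¹ * (2 * Q v) = 2 := by field_simp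
    rw [this, two_smul]
    abel
  · intro x hx
    rw [refl_mulVec, hx, mul_zero, zero_smul, sub_zero]
  · have hR : Cfsg.reflectionMatrix ⇑Q v =
        1 + replicateCol Unit (-(Q v)⁻¹ • v) * replicateRow Unit (Cfsg.polarVec ⇑Q v) := by
      rw [Cfsg.reflectionMatrix, ← Matrix.vecMulVec_eq, Matrix.smul_vecMulVec, neg_smul,
        sub_eq_add_neg]
    rw [hR, Matrix.det_one_add_replicateCol_mul_replicateRow, dotProduct_smul, polarVec_dot, hself,
      smul_eq_mul]
    field_simp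
    ring

end Cfsg.Agent.S0784
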