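import Mathlib
import Cfsg.Statements.S0785
import Cfsg.Agent.S0784

set_option autoImplicit false
open Cfsg

namespace Cfsg.Agent.S0785

open Matrix

theorem mem_isometryGroup_iff {F : Type*} [Field F] {n : ℕ} (Q : (Fin n → F) → F)
    (g : Matrix.GeneralLinearGroup (Fin n) F) :
    g ∈ Cfsg.isometryGroup F Q ↔ ∀ u : Fin n → F, Q ((g : Matrix (Fin n) (Fin n) F) *ᵥ u) = Q u := by
  constructor
  · intro h u
    exact h u u
  · intro h u _
    exact h u

/-- det(I) = {±1}: for a quadratic form on F^n whose polar form is non-degenerate, every element of the isometry group has determinant 1 or −1, and as soon as Q takes a non-zero value some isometry has determinant −1. -/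
theorem result {F : Type*} [Field F] {n : ℕ} (Q : QuadraticForm F (Fin n → F)) (hQ : (QuadraticMap.polarBilin Q).Nondegenerate) : (∀ g : ↥(Cfsg.isometryGroup F ⇑Q), ((g : Matrix.GeneralLinearGroup (Fin n) F) : Matrix (Fin n) (Fin n) F).det = 1 ∨ ((g : Matrix.GeneralLinearGroup (Fin n) F) : Matrix (Fin n) (Fin n) F).det = -1) ∧ ((∃ v, Q v ≠ 0) → ∃ g : ↥(Cfsg.isometryGroup F ⇑Q), ((g : Matrix.GeneralLinearGroup (Fin n) F) : Matrix (Fin n) (Fin n) F).det = -1) := by
  constructor
  · rintro ⟨g, hg⟩
    rw [mem_isometryGroup_iff] at hg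
    simp only
    set G : Matrix (Fin n) (Fin n) F := (g : Matrix (Fin n) (Fin n) F) with hG
    set B : LinearMap.BilinForm F (Fin n → F) := QuadraticMap.polarBilin Q with hB
    have hcomp : B.comp (Matrix.toLin' G) (Matrix.toLin' G) = B := by
      refine LinearMap.ext₂ fun u w => ?_
      simp only [LinearMap.BilinForm.comp_apply, Matrix.toLin'_apply, hB,
        QuadraticMap.polarBilin_apply_apply, QuadraticMap.polar]
      rw [← Matrix.mulVec_add, hg, hg, hg]
    have hmat := congrArg LinearMap.BilinForm.toMatrix' hcomp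
    rw [LinearMap.BilinForm.toMatrix'_comp, LinearMap.toMatrix'_toLin'] at hmat
    have hdet := congrArg Matrix.det hmat
    rw [Matrix.det_mul, Matrix.det_mul, Matrix.det_transpose] at hdet
    have hM : (LinearMap.BilinForm.toMatrix' B).det ≠ 0 :=
      Matrix.nondegenerate_iff_det_ne_zero.mp (LinearMap.BilinForm.nondegenerate_toMatrix'_iff.mpr hQ)
    have h1 : (G.det - 1) * (G.det + 1) = 0 := by
      have : (G.det * G.det - 1) * (LinearMap.BilinForm.toMatrix' B).det = 0 := by
        linear_combination hdet
      rcases mul_eq_zero.mp this with h | h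
      · linear_combination h
      · exact absurd h hM
    rcases mul_eq_zero.mp h1 with h | h
    · left; linear_combination h
    · right; linear_combination h
  · rintro ⟨v, hv⟩
    obtain ⟨h1, -, -, h4⟩ := Cfsg.Agent.S0784.result Q v hv
    have hdet : (Cfsg.reflectionMatrix ⇑Q v).det ≠ 0 := by
      rw [h4]; exact neg_ne_zero.mpr one_ne_zero
    refine ⟨⟨Matrix.GeneralLinearGroup.mkOfDetNeZero _ hdet, ?_⟩, ?_⟩
    · rw [mem_isometryGroup_iff]
      intro u
      exact h1 u
    · exact h4

end Cfsg.Agent.S0785
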