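import Cfsg.Statements.S0788
import Cfsg.Agent.Helper16.SpinorMore

set_option autoImplicit false
open Cfsg

namespace Cfsg.Agent.S0788

open QuadraticMap Cfsg.Agent.Helper16

theorem mem_SO_iff {F : Type*} [Field F] {n : ℕ} (Q : (Fin n → F) → F)
    (g : ↥(Cfsg.isometryGroup F Q)) :
    g ∈ Cfsg.specialIsometryGroup F Q ↔
      ((g : Matrix.GeneralLinearGroup (Fin n) F) : Matrix (Fin n) (Fin n) F).det = 1 := by
  constructor
  · intro hg
    have h1 : Matrix.GeneralLinearGroup.det (g : Matrix.GeneralLinearGroup (Fin n) F) = 1 := hg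
    have h3 := congrArg (fun u : Fˣ => (u : F)) h1
    simpa using h3
  · intro hg
    show Matrix.GeneralLinearGroup.det (g : Matrix.GeneralLinearGroup (Fin n) F) = 1
    apply Units.ext
    rw [Matrix.GeneralLinearGroup.val_det_apply, hg]
    rfl

theorem isSquare_mul_nonsquare {F : Type*} [Field F] [Fintype F] (P c : F) (hP : P ≠ 0)
    (hc : ¬ IsSquare c) : IsSquare (P * c) ↔ ¬ IsSquare P := by
  classical
  have hc0 : c ≠ 0 := by
    rintro rfl
    exact hc IsSquare.zero
  rw [← quadraticChar_one_iff_isSquare (mul_ne_zero hP hc0), map_mul,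
    quadraticChar_neg_one_iff_not_isSquare.2 hc, ← quadraticChar_neg_one_iff_not_isSquare]
  constructor
  · intro h
    linarith
  · intro h
    rw [h]
    norm_num

/-- Ω has index 4 in O for q odd: if F is finite of odd characteristic, n ≥ 2 and Q is a quadratic form on F^n with non-degenerate polar form, then the commutator subgroup of the isometry group of Q (the group Ω of our definitions) has index 4 in it. -/
theorem result {F : Type*} [Field F] [Fintype F] (h2 : (2 : F) ≠ 0) {n : ℕ} (hn : 2 ≤ n) (Q : QuadraticForm F (Fin n → F)) (hQ : (QuadraticMap.polarBilin Q).Nondegenerate) : (Cfsg.Omega F ⇑Q).index = 4 := by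
  classical
  have hcard : 2 ≤ Fintype.card (Fin n) := by simpa using hn
  have hΩSO : Cfsg.Omega F ⇑Q ≤ Cfsg.specialIsometryGroup F ⇑Q :=
    Abelianization.commutator_subset_ker _
  -- index of SO
  have hSO : (Cfsg.specialIsometryGroup F ⇑Q).index = 2 := by
    rw [Subgroup.index_eq_two_iff]
    obtain ⟨u, hu⟩ := exists_rep h2 Q hQ hcard 1 one_ne_zero
    have hu0 : Q u ≠ 0 := by rw [hu]; exact one_ne_zero
    refine ⟨reflElt Q u, ?_⟩
    intro b
    obtain ⟨vs, hvs, hb⟩ := exists_refl_list h2 Q hQ b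
    have h1 : b ∈ Cfsg.specialIsometryGroup F ⇑Q ↔ Even vs.length := by
      rw [mem_SO_iff, hb, coe_prod_reflElt Q vs hvs, det_eq_one_iff_even h2 Q vs hvs]
    have hvs' : ∀ v ∈ vs ++ [u], Q v ≠ 0 := by
      intro v hv
      rcases List.mem_append.1 hv with h | h
      · exact hvs v h
      · rw [List.mem_singleton.1 h]
        exact hu0
    have h3 : b * reflElt Q u ∈ Cfsg.specialIsometryGroup F ⇑Q ↔ ¬ Even vs.length := by
      have hbu : b * reflElt Q u = ((vs ++ [u]).map (reflElt Q)).prod := by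
        rw [List.map_append, List.prod_append, hb]
        simp
      rw [mem_SO_iff, hbu, coe_prod_reflElt Q _ hvs', det_eq_one_iff_even h2 Q _ hvs',
        List.length_append, List.length_singleton, Nat.even_add_one]
    rw [h1, h3]
    by_cases he : Even vs.length
    · right
      exact ⟨he, fun h => h he⟩
    · left
      exact ⟨he, he⟩
  -- relative index of Ω in SO
  have hrel : (Cfsg.Omega F ⇑Q).relIndex (Cfsg.specialIsometryGroup F ⇑Q) = 2 := by
    show ((Cfsg.Omega F ⇑Q).subgroupOf (Cfsg.specialIsometryGroup F ⇑Q)).index = 2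
    rw [Subgroup.index_eq_two_iff]
    obtain ⟨u, hu⟩ := exists_rep h2 Q hQ hcard 1 one_ne_zero
    have hu0 : Q u ≠ 0 := by rw [hu]; exact one_ne_zero
    obtain ⟨c, hc⟩ := FiniteField.exists_nonsquare (ringChar_ne_two_of_two_ne_zero h2)
    have hc0 : c ≠ 0 := by
      rintro rfl
      exact hc IsSquare.zero
    obtain ⟨w, hw⟩ := exists_rep h2 Q hQ hcard c hc0
    have hw0 : Q w ≠ 0 := by rw [hw]; exact hc0
    have hamem : reflElt Q u * reflElt Q w ∈ Cfsg.specialIsometryGroup F ⇑Q := by
      rw [mem_SO_iff, Subgroup.coe_mul, Units.val_mul, reflElt_coe Q u hu0, reflElt_coe Q w hw0,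
        Matrix.det_mul, det_reflMatrix Q u hu0, det_reflMatrix Q w hw0]
      norm_num
    refine ⟨⟨reflElt Q u * reflElt Q w, hamem⟩, ?_⟩
    rintro ⟨b, hbSO⟩
    obtain ⟨vs, hvs, hb⟩ := exists_refl_list h2 Q hQ b
    have hev : Even vs.length := by
      rw [mem_SO_iff, hb, coe_prod_reflElt Q vs hvs, det_eq_one_iff_even h2 Q vs hvs] at hbSO
      exact hbSO
    have hP0 : (vs.map (fun v => Q v)).prod ≠ 0 := by
      intro h0
      rw [List.prod_eq_zero_iff] at h0
      obtain ⟨v, hv, hv0⟩ := List.mem_map.1 h0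
      exact hvs v hv hv0
    have h1 : b ∈ Cfsg.Omega F ⇑Q ↔ IsSquare (vs.map (fun v => Q v)).prod := by
      rw [mem_Omega_iff h2 Q hQ b vs hvs (by rw [hb, coe_prod_reflElt Q vs hvs])]
      exact ⟨fun h => h.2, fun h => ⟨hev, h⟩⟩
    have hvs' : ∀ v ∈ vs ++ [u, w], Q v ≠ 0 := by
      intro v hv
      rcases List.mem_append.1 hv with h | h
      · exact hvs v h
      · rcases List.mem_cons.1 h with h | h
        · rw [h]
          exact hu0
        · rw [List.mem_singleton.1 h]
          exact hw0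
    have h3 : b * (reflElt Q u * reflElt Q w) ∈ Cfsg.Omega F ⇑Q ↔
        ¬ IsSquare (vs.map (fun v => Q v)).prod := by
      have hbu : b * (reflElt Q u * reflElt Q w) = ((vs ++ [u, w]).map (reflElt Q)).prod := by
        rw [List.map_append, List.prod_append, hb]
        simp
      rw [mem_Omega_iff h2 Q hQ _ (vs ++ [u, w]) hvs' (by rw [hbu, coe_prod_reflElt Q _ hvs']),
        ← isSquare_mul_nonsquare _ c hP0 hc]
      have hprod : ((vs ++ [u, w]).map (fun v => Q v)).prod = (vs.map (fun v => Q v)).prod * c := by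
        rw [List.map_append, List.prod_append]
        simp [hu, hw]
      rw [hprod]
      constructor
      · intro h
        exact h.2
      · intro h
        refine ⟨?_, h⟩
        rw [List.length_append]
        exact hev.add ⟨1, rfl⟩
    show Xor' ((⟨b, hbSO⟩ * ⟨reflElt Q u * reflElt Q w, hamem⟩ : ↥(Cfsg.specialIsometryGroup F ⇑Q)) ∈
      (Cfsg.Omega F ⇑Q).subgroupOf (Cfsg.specialIsometryGroup F ⇑Q))
      ((⟨b, hbSO⟩ : ↥(Cfsg.specialIsometryGroup F ⇑Q)) ∈
      (Cfsg.Omega F ⇑Q).subgroupOf (Cfsg.specialIsometryGroup F ⇑Q))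
    rw [Subgroup.mem_subgroupOf, Subgroup.mem_subgroupOf]
    show Xor' (b * (reflElt Q u * reflElt Q w) ∈ Cfsg.Omega F ⇑Q) (b ∈ Cfsg.Omega F ⇑Q)
    rw [h1, h3]
    by_cases he : IsSquare (vs.map (fun v => Q v)).prod
    · right
      exact ⟨he, fun h => h he⟩
    · left
      exact ⟨he, he⟩
  rw [← Subgroup.relIndex_mul_index hΩSO, hrel, hSO]

end Cfsg.Agent.S0788
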