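import Cfsg.Statements.S0792
import Cfsg.Agent.Helper16.SpinorMore

set_option autoImplicit false
open Cfsg

namespace Cfsg.Agent.S0792

/-- For q odd and Q with non-degenerate polar form on F^n, the determinant-one isometries form the subgroup generated by all products r_u r_v of two reflections (Q(u), Q(v) ≠ 0). -/
theorem result {F : Type*} [Field F] [Fintype F] (h2 : (2 : F) ≠ 0) {n : ℕ} (Q : QuadraticForm F (Fin n → F)) (hQ : (QuadraticMap.polarBilin Q).Nondegenerate) : Cfsg.specialIsometryGroup F ⇑Q = Subgroup.closure {g : ↥(Cfsg.isometryGroup F ⇑Q) | ∃ u v : Fin n → F, Q u ≠ 0 ∧ Q v ≠ 0 ∧ ((g : Matrix.GeneralLinearGroup (Fin n) F) : Matrix (Fin n) (Fin n) F) = Cfsg.reflectionMatrix ⇑Q u * Cfsg.reflectionMatrix ⇑Q v} := by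
  classical
  apply le_antisymm
  · intro g hg
    obtain ⟨vs, hvs, hgv⟩ := Cfsg.Agent.Helper16.exists_refl_list h2 Q hQ g
    have hdet : ((g : Matrix.GeneralLinearGroup (Fin n) F) : Matrix (Fin n) (Fin n) F).det = 1 := by
      have h1 : Matrix.GeneralLinearGroup.det (g : Matrix.GeneralLinearGroup (Fin n) F) = 1 := hg
      have h3 := congrArg (fun u : Fˣ => (u : F)) h1
      simpa using h3
    rw [hgv, Cfsg.Agent.Helper16.coe_prod_reflElt Q vs hvs,
      Cfsg.Agent.Helper16.det_eq_one_iff_even h2 Q vs hvs] at hdet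
    obtain ⟨k, hk⟩ := hdet
    rw [hgv]
    exact Cfsg.Agent.Helper16.prod_reflElt_mem_closure_pairs Q k vs (by omega) hvs
  · rw [Subgroup.closure_le]
    rintro g ⟨u, v, hu, hv, hg⟩
    show Matrix.GeneralLinearGroup.det (g : Matrix.GeneralLinearGroup (Fin n) F) = 1
    apply Units.ext
    rw [Matrix.GeneralLinearGroup.val_det_apply, hg, Matrix.det_mul,
      Cfsg.Agent.Helper16.det_reflMatrix Q u hu, Cfsg.Agent.Helper16.det_reflMatrix Q v hv]
    simp

end Cfsg.Agent.S0792
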