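import Mathlib
import Cfsg.Statements.S0793

set_option autoImplicit false
open Cfsg

namespace Cfsg.Agent.S0793

open Matrix

theorem polarVec_dot {F : Type*} [Field F] {n : ℕ} (Q : QuadraticForm F (Fin n → F))
    (v x : Fin n → F) : Cfsg.polarVec ⇑Q v ⬝ᵥ x = QuadraticMap.polar ⇑Q v x := by
  have h := LinearMap.pi_apply_eq_sum_univ (QuadraticMap.polarBilin Q v) x
  rw [QuadraticMap.polarBilin_apply_apply] at h
  rw [h, dotProduct]
  refine Finset.sum_congr rfl fun j _ => ?_
  rw [Cfsg.polarVec, smul_eq_mul, mul_comm, QuadraticMap.polarBilin_apply_apply]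
  congr 2
  ext k
  simp [Pi.single_apply, eq_comm]

theorem siegel_mulVec {F : Type*} [Field F] {n : ℕ} (Q : QuadraticForm F (Fin n → F))
    (u v x : Fin n → F) (c : F) : (Cfsg.siegelMatrix ⇑Q u v c).mulVec x =
      x + (c * QuadraticMap.polar ⇑Q u x) • v + (-(c * QuadraticMap.polar ⇑Q v x)) • u := by
  rw [Cfsg.siegelMatrix, Matrix.add_mulVec, Matrix.one_mulVec, Matrix.smul_mulVec,
    Matrix.sub_mulVec, Matrix.vecMulVec_mulVec, Matrix.vecMulVec_mulVec, polarVec_dot,
    polarVec_dot, op_smul_eq_smul, op_smul_eq_smul, smul_sub, smul_smul, smul_smul, neg_smul]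
  abel

/-- Root elements: if Q(u) = Q(v) = 0 and f(u, v) = 0 (f the polar form), then for every c the Siegel matrix T_(u,v)(c) preserves Q, fixes u and v, and T(c) T(d) = T(c + d). -/
theorem result {F : Type*} [Field F] {n : ℕ} (Q : QuadraticForm F (Fin n → F)) (u v : Fin n → F) (hu : Q u = 0) (hv : Q v = 0) (huv : QuadraticMap.polar ⇑Q u v = 0) : (∀ c x, Q ((Cfsg.siegelMatrix ⇑Q u v c).mulVec x) = Q x) ∧ (∀ c, (Cfsg.siegelMatrix ⇑Q u v c).mulVec u = u ∧ (Cfsg.siegelMatrix ⇑Q u v c).mulVec v = v) ∧ ∀ c d, Cfsg.siegelMatrix ⇑Q u v c * Cfsg.siegelMatrix ⇑Q u v d = Cfsg.siegelMatrix ⇑Q u v (c + d) := by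
  have huu : QuadraticMap.polar ⇑Q u u = 0 := by
    rw [QuadraticMap.polar_self, hu]; simp
  have hvv : QuadraticMap.polar ⇑Q v v = 0 := by
    rw [QuadraticMap.polar_self, hv]; simp
  have hvu : QuadraticMap.polar ⇑Q v u = 0 := by
    rw [QuadraticMap.polar_comm]; exact huv
  refine ⟨?_, ?_, ?_⟩
  · intro c x
    rw [siegel_mulVec]
    set a := c * QuadraticMap.polar ⇑Q u x with ha
    set b := -(c * QuadraticMap.polar ⇑Q v x) with hb
    have h1 : Q (x + a • v + b • u) = Q (x + a • v) + Q (b • u) +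
        QuadraticMap.polar ⇑Q (x + a • v) (b • u) := by
      rw [QuadraticMap.polar]; ring
    have h2 : Q (x + a • v) = Q x + Q (a • v) + QuadraticMap.polar ⇑Q x (a • v) := by
      rw [QuadraticMap.polar]; ring
    rw [h1, h2, QuadraticMap.map_smul, QuadraticMap.map_smul, hu, hv,
      QuadraticMap.polar_smul_right, QuadraticMap.polar_smul_right, QuadraticMap.polar_add_left,
      QuadraticMap.polar_smul_left, hvu, QuadraticMap.polar_comm ⇑Q x v,
      QuadraticMap.polar_comm ⇑Q x u]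
    simp only [smul_eq_mul, ha, hb]
    ring
  · intro c
    constructor
    · rw [siegel_mulVec, huu, hvu]; simp
    · rw [siegel_mulVec, huv, hvv]; simp
  · intro c d
    simp only [Cfsg.siegelMatrix]
    set N := vecMulVec v (Cfsg.polarVec ⇑Q u) - vecMulVec u (Cfsg.polarVec ⇑Q v) with hN
    have hNN : N * N = 0 := by
      rw [hN, Matrix.sub_mul, Matrix.mul_sub, Matrix.mul_sub, Matrix.vecMulVec_mul_vecMulVec,
        Matrix.vecMulVec_mul_vecMulVec, Matrix.vecMulVec_mul_vecMulVec,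
        Matrix.vecMulVec_mul_vecMulVec, polarVec_dot, polarVec_dot, polarVec_dot, polarVec_dot,
        huv, huu, hvv, hvu]
      simp
    rw [Matrix.add_mul, Matrix.one_mul, Matrix.mul_add, Matrix.mul_one, Matrix.smul_mul,
      Matrix.mul_smul, hNN, add_smul]
    simp only [smul_zero, add_zero]
    abel

end Cfsg.Agent.S0793
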