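import Cfsg.Statements.S0794
import Cfsg.Agent.Helper16.SpinorMore

set_option autoImplicit false
open Cfsg

namespace Cfsg.Agent.S0794

open QuadraticMap Cfsg.Agent.Helper16

open scoped commutatorElement

section
variable {F : Type*} [Field F] {n : ℕ}

theorem siegel_mulVec (Q : QuadraticForm F (Fin n → F)) (u v : Fin n → F) (c : F)
    (x : Fin n → F) :
    (Cfsg.siegelMatrix ⇑Q u v c).mulVec x = x + c • (polar ⇑Q u x • v - polar ⇑Q v x • u) := by
  rw [Cfsg.siegelMatrix, Matrix.add_mulVec, Matrix.one_mulVec, Matrix.smul_mulVec,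
    Matrix.sub_mulVec, Matrix.vecMulVec_mulVec, Matrix.vecMulVec_mulVec, polarVec_dot',
    polarVec_dot', op_smul_eq_smul, op_smul_eq_smul]

theorem mat_ext (A B : Matrix (Fin n) (Fin n) F) (h : ∀ x, A.mulVec x = B.mulVec x) : A = B := by
  apply Matrix.toLin'.injective
  apply LinearMap.ext
  intro x
  rw [Matrix.toLin'_apply, Matrix.toLin'_apply, h]

theorem siegel_mul (Q : QuadraticForm F (Fin n → F)) (u v : Fin n → F) (hu : Q u = 0)
    (hv : Q v = 0) (huv : polar ⇑Q u v = 0) (a b : F) :
    Cfsg.siegelMatrix ⇑Q u v a * Cfsg.siegelMatrix ⇑Q u v b = Cfsg.siegelMatrix ⇑Q u v (a + b) := by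
  apply mat_ext
  intro x
  rw [← Matrix.mulVec_mulVec, siegel_mulVec Q u v b x, siegel_mulVec, siegel_mulVec]
  have huu : polar ⇑Q u u = 0 := by rw [qf_polar_self, hu, mul_zero]
  have hvv : polar ⇑Q v v = 0 := by rw [qf_polar_self, hv, mul_zero]
  have hvu : polar ⇑Q v u = 0 := by rw [polar_comm, huv]
  have h1 : polar ⇑Q u (x + b • (polar ⇑Q u x • v - polar ⇑Q v x • u)) = polar ⇑Q u x := by
    rw [polar_add_right, polar_smul_right, polar_sub_right, polar_smul_right, polar_smul_right,
      huv, huu]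
    simp
  have h3 : polar ⇑Q v (x + b • (polar ⇑Q u x • v - polar ⇑Q v x • u)) = polar ⇑Q v x := by
    rw [polar_add_right, polar_smul_right, polar_sub_right, polar_smul_right, polar_smul_right,
      hvv, hvu]
    simp
  rw [h1, h3, add_smul]
  abel

theorem siegel_zero (Q : QuadraticForm F (Fin n → F)) (u v : Fin n → F) :
    Cfsg.siegelMatrix ⇑Q u v 0 = 1 := by
  rw [Cfsg.siegelMatrix, zero_smul, add_zero]

theorem siegel_isom (Q : QuadraticForm F (Fin n → F)) (u v : Fin n → F) (hu : Q u = 0)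
    (hv : Q v = 0) (huv : polar ⇑Q u v = 0) (c : F) (x : Fin n → F) :
    Q ((Cfsg.siegelMatrix ⇑Q u v c).mulVec x) = Q x := by
  rw [siegel_mulVec]
  have hw : c • (polar ⇑Q u x • v - polar ⇑Q v x • u) =
      (c * polar ⇑Q u x) • v + (-(c * polar ⇑Q v x)) • u := by
    rw [smul_sub, smul_smul, smul_smul, neg_smul, sub_eq_add_neg]
  have hvu : polar ⇑Q v u = 0 := by rw [polar_comm, huv]
  rw [hw, qf_add, qf_lin2, hu, hv, hvu, polar_add_right, polar_smul_right, polar_smul_right,
    polar_comm Q x v, polar_comm Q x u]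
  simp only [smul_eq_mul]
  ring

/-- the Siegel transformation as an element of the isometry group -/
noncomputable def siegelElt (Q : QuadraticForm F (Fin n → F)) (u v : Fin n → F) (hu : Q u = 0)
    (hv : Q v = 0) (huv : polar ⇑Q u v = 0) (c : F) : ↥(Cfsg.isometryGroup F ⇑Q) :=
  ⟨⟨Cfsg.siegelMatrix ⇑Q u v c, Cfsg.siegelMatrix ⇑Q u v (-c),
    by rw [siegel_mul Q u v hu hv huv, add_neg_cancel, siegel_zero],
    by rw [siegel_mul Q u v hu hv huv, neg_add_cancel, siegel_zero]⟩,
    (mem_isometryGroup_iff _ _).2 fun x => siegel_isom Q u v hu hv huv c x⟩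

end

/-- For q odd, n ≥ 5 and Q with non-degenerate polar form: an isometry whose matrix is a Siegel transformation T_(u,v)(c) (u, v singular and orthogonal) is a commutator in the isometry group, so lies in Ω. -/
theorem result {F : Type*} [Field F] [Fintype F] (h2 : (2 : F) ≠ 0) {n : ℕ} (hn : 5 ≤ n) (Q : QuadraticForm F (Fin n → F)) (hQ : (QuadraticMap.polarBilin Q).Nondegenerate) (u v : Fin n → F) (hu : Q u = 0) (hv : Q v = 0) (huv : QuadraticMap.polar ⇑Q u v = 0) (c : F) (g : ↥(Cfsg.isometryGroup F ⇑Q)) (hg : ((g : Matrix.GeneralLinearGroup (Fin n) F) : Matrix (Fin n) (Fin n) F) = Cfsg.siegelMatrix ⇑Q u v c) : g ∈ commutatorSet ↥(Cfsg.isometryGroup F ⇑Q) ∧ g ∈ Cfsg.Omega F ⇑Q := by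
  classical
  suffices hcomm : g ∈ commutatorSet ↥(Cfsg.isometryGroup F ⇑Q) by
    refine ⟨hcomm, ?_⟩
    show g ∈ commutator _
    rw [commutator_eq_closure]
    exact Subgroup.subset_closure hcomm
  by_cases hex : ∃ w, polar ⇑Q v w = 0 ∧ polar ⇑Q u w ≠ 0
  · obtain ⟨w₀, hw₀v, hw₀u⟩ := hex
    obtain ⟨w, hwv, hwu⟩ : ∃ w, polar ⇑Q v w = 0 ∧ polar ⇑Q u w = 1 :=
      ⟨(polar Q u w₀)⁻¹ • w₀, by rw [polar_smul_right, hw₀v, smul_zero],
        by rw [polar_smul_right, smul_eq_mul, inv_mul_cancel₀ hw₀u]⟩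
    have hvu : polar ⇑Q v u = 0 := by rw [polar_comm, huv]
    obtain ⟨u', hu'Q, hu'u, hu'v⟩ : ∃ u', Q u' = 0 ∧ polar ⇑Q u u' = 1 ∧ polar ⇑Q v u' = 0 := by
      refine ⟨w - Q w • u, ?_, ?_, ?_⟩
      · have h := qf_lin2 Q 1 (-(Q w)) w u
        rw [one_smul, neg_smul, ← sub_eq_add_neg] at h
        rw [h, hu, polar_comm Q w u, hwu]
        ring
      · rw [polar_sub_right, polar_smul_right, qf_polar_self, hu, hwu]
        simp
      · rw [polar_sub_right, polar_smul_right, hwv, hvu]
        simp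
    have hu'u' : polar ⇑Q u' u = 1 := by rw [polar_comm, hu'u]
    have hQm : Q (u - u') = -1 := by
      have h := qf_lin2 Q 1 (-1) u u'
      rw [one_smul, neg_smul, one_smul, ← sub_eq_add_neg] at h
      rw [h, hu, hu'Q, hu'u]
      ring
    have hQp : Q (u + u') = 1 := by
      rw [qf_add, hu, hu'Q, hu'u]
      ring
    have hQm0 : Q (u - u') ≠ 0 := by rw [hQm]; exact neg_ne_zero.2 one_ne_zero
    have hQp0 : Q (u + u') ≠ 0 := by rw [hQp]; exact one_ne_zero
    obtain ⟨h, hh⟩ : ∃ h : ↥(Cfsg.isometryGroup F ⇑Q), h = reflElt Q (u - u') * reflElt Q (u + u') :=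
      ⟨_, rfl⟩
    have hmv : ∀ x, ((h : Matrix.GeneralLinearGroup (Fin n) F) : Matrix (Fin n) (Fin n) F).mulVec x =
        qrefl Q (u - u') (qrefl Q (u + u') x) := by
      intro x
      rw [hh, Subgroup.coe_mul, Units.val_mul, ← Matrix.mulVec_mulVec, reflElt_mulVec Q _ hQp0,
        reflElt_mulVec Q _ hQm0]
    have huu : polar ⇑Q u u = 0 := by rw [qf_polar_self, hu, mul_zero]
    have hu'u'0 : polar ⇑Q u' u' = 0 := by rw [qf_polar_self, hu'Q, mul_zero]
    have hhu : ((h : Matrix.GeneralLinearGroup (Fin n) F) : Matrix (Fin n) (Fin n) F).mulVec u = -u := by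
      rw [hmv, qrefl_apply Q (u + u') u, hQp, polar_add_left, huu, hu'u']
      have h1 : u - ((1 : F)⁻¹ * (0 + 1)) • (u + u') = -u' := by
        rw [inv_one, zero_add, one_mul, one_smul]
        abel
      rw [h1, map_neg, qrefl_apply, hQm, polar_sub_left, hu'u, hu'u'0]
      have h3 : ((-1 : F)⁻¹ * (1 - 0)) = -1 := by norm_num
      rw [h3, neg_smul, one_smul]
      abel
    have hhv : ((h : Matrix.GeneralLinearGroup (Fin n) F) : Matrix (Fin n) (Fin n) F).mulVec v = v := by
      rw [hmv, qrefl_of_orth Q (u + u') v (by rw [polar_add_left, huv, polar_comm Q u' v, hu'v, add_zero]),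
        qrefl_of_orth Q (u - u') v (by rw [polar_sub_left, huv, polar_comm Q u' v, hu'v, sub_zero])]
    have hisom : ∀ x, Q (((h : Matrix.GeneralLinearGroup (Fin n) F) : Matrix (Fin n) (Fin n) F).mulVec x) = Q x :=
      (mem_isometryGroup_iff _ _).1 h.2
    have hpol : ∀ x y, polar ⇑Q (((h : Matrix.GeneralLinearGroup (Fin n) F) : Matrix (Fin n) (Fin n) F).mulVec x)
        (((h : Matrix.GeneralLinearGroup (Fin n) F) : Matrix (Fin n) (Fin n) F).mulVec y) = polar ⇑Q x y := by
      intro x y
      unfold polar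
      rw [← Matrix.mulVec_add, hisom, hisom, hisom]
    have hpu : ∀ x, polar ⇑Q u (((h : Matrix.GeneralLinearGroup (Fin n) F) : Matrix (Fin n) (Fin n) F).mulVec x) =
        -polar ⇑Q u x := by
      intro x
      have h1 := hpol u x
      rw [hhu, polar_neg_left] at h1
      rw [← h1, neg_neg]
    have hpv : ∀ x, polar ⇑Q v (((h : Matrix.GeneralLinearGroup (Fin n) F) : Matrix (Fin n) (Fin n) F).mulVec x) =
        polar ⇑Q v x := by
      intro x
      have h1 := hpol v x
      rw [hhv] at h1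
      exact h1
    -- the commutator
    have key : h * siegelElt Q u v hu hv huv (-c / 2) = g * siegelElt Q u v hu hv huv (-c / 2) * h := by
      apply isom_ext
      rw [Subgroup.coe_mul, Units.val_mul, Subgroup.coe_mul, Units.val_mul, Subgroup.coe_mul,
        Units.val_mul, hg]
      show ((h : Matrix.GeneralLinearGroup (Fin n) F) : Matrix (Fin n) (Fin n) F) *
        Cfsg.siegelMatrix ⇑Q u v (-c / 2) =
        Cfsg.siegelMatrix ⇑Q u v c * Cfsg.siegelMatrix ⇑Q u v (-c / 2) *
          ((h : Matrix.GeneralLinearGroup (Fin n) F) : Matrix (Fin n) (Fin n) F)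
      rw [siegel_mul Q u v hu hv huv]
      apply mat_ext
      intro x
      rw [← Matrix.mulVec_mulVec, ← Matrix.mulVec_mulVec, siegel_mulVec, siegel_mulVec, hpu, hpv,
        Matrix.mulVec_add, Matrix.mulVec_smul, Matrix.mulVec_sub, Matrix.mulVec_smul,
        Matrix.mulVec_smul, hhu, hhv]
      have h2' : c + -c / 2 = c / 2 := by
        field_simp
        ring
      rw [h2']
      simp only [smul_sub, smul_neg, smul_smul, neg_smul]
      have e1 : -c / 2 * polar (⇑Q) u x = -(c / 2 * polar (⇑Q) u x) := by ring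
      have e2 : -c / 2 * polar (⇑Q) v x = -(c / 2 * polar (⇑Q) v x) := by ring
      rw [e1, e2, neg_smul, neg_smul]
      abel
    refine ⟨h, siegelElt Q u v hu hv huv (-c / 2), ?_⟩
    rw [commutatorElement_def, key]
    group
  · have hall : ∀ w, polar ⇑Q v w = 0 → polar ⇑Q u w = 0 := by
      intro w hw
      by_contra hne
      exact hex ⟨w, hw, hne⟩
    have hzero : ∀ x, polar ⇑Q u x • v - polar ⇑Q v x • u = 0 := by
      by_cases hv0 : v = 0
      · have hu0 : u = 0 := by
          apply hQ.1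
          intro y
          apply hall
          rw [hv0]
          simp [polar]
        intro x
        rw [hv0, hu0]
        simp
      · obtain ⟨z₀, hz₀⟩ : ∃ z, polar ⇑Q v z ≠ 0 := by
          by_contra hcon
          apply hv0
          apply hQ.1
          intro y
          by_contra hne
          exact hcon ⟨y, hne⟩
        obtain ⟨z, hz⟩ : ∃ z, polar ⇑Q v z = 1 :=
          ⟨(polar Q v z₀)⁻¹ • z₀, by rw [polar_smul_right, smul_eq_mul, inv_mul_cancel₀ hz₀]⟩
        have hux : ∀ x, polar ⇑Q u x = polar ⇑Q v x * polar ⇑Q u z := by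
          intro x
          have h1 := hall (x - polar ⇑Q v x • z) (by
            rw [polar_sub_right, polar_smul_right, hz, smul_eq_mul, mul_one, sub_self])
          rw [polar_sub_right, polar_smul_right, smul_eq_mul] at h1
          linear_combination h1
        have hueq : u = polar ⇑Q u z • v := by
          rw [← sub_eq_zero]
          apply hQ.1
          intro y
          show polar ⇑Q (u - polar ⇑Q u z • v) y = 0
          rw [polar_sub_left, polar_smul_left, hux y, smul_eq_mul]
          ring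
        intro x
        have h1 : polar ⇑Q v x • u = (polar ⇑Q v x * polar ⇑Q u z) • v := by
          conv_lhs => rw [hueq]
          rw [smul_smul]
        rw [h1, hux x, sub_self]
    have hg1 : g = 1 := by
      apply isom_ext
      rw [hg]
      apply mat_ext
      intro x
      rw [siegel_mulVec, hzero, smul_zero, add_zero]
      simp
    rw [hg1]
    exact ⟨1, 1, by simp⟩

end Cfsg.Agent.S0794
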