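import Mathlib
import Cfsg.Statements.S0796

set_option autoImplicit false
open Cfsg

namespace Cfsg.Agent.S0796

open scoped Pointwise

/-- If G is finite and acts faithfully and primitively on X, H is the stabiliser of a point, A is a normal subgroup of H whose normal closure in G is G, then for every non-trivial normal subgroup K of G the quotient G ⧸ K is isomorphic to A ⧸ B for some normal subgroup B of A. -/
theorem result {G X : Type*} [Group G] [Finite G] [MulAction G X] [FaithfulSMul G X] (hprim : MulAction.IsPreprimitive G X) (x : X) (A : Subgroup G) (hA : A ≤ MulAction.stabilizer G x) (hAn : (A.subgroupOf (MulAction.stabilizer G x)).Normal) (hgen : Subgroup.normalClosure (A : Set G) = ⊤) (K : Subgroup G) [K.Normal] (hK : K ≠ ⊥) : ∃ (B : Subgroup A) (_ : B.Normal), Nonempty (G ⧸ K ≃* A ⧸ B) := by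
  classical
  have hKt : MulAction.IsPretransitive K X := by
    apply MulAction.IsQuasiPreprimitive.isPretransitive_of_normal (G := G)
    intro hfix
    apply hK
    rw [eq_bot_iff]
    intro k hk
    rw [Subgroup.mem_bot]
    apply FaithfulSMul.eq_of_smul_eq_smul (α := X)
    intro y
    have : y ∈ MulAction.fixedPoints K X := by rw [hfix]; trivial
    rw [one_smul]
    exact this ⟨k, hk⟩
  have hdecomp : ∀ g : G, ∃ k ∈ K, ∃ h ∈ MulAction.stabilizer G x, g = k * h := by
    intro g
    obtain ⟨k, hk⟩ := hKt.exists_smul_eq x (g • x)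
    refine ⟨k, k.2, (k : G)⁻¹ * g, ?_, by group⟩
    have hk' : (k : G) • x = g • x := hk
    rw [MulAction.mem_stabilizer_iff, mul_smul, ← hk', inv_smul_smul]
  have hconj : ∀ h ∈ MulAction.stabilizer G x, ∀ a ∈ A, h * a * h⁻¹ ∈ A := by
    intro h hh a ha
    have := hAn.conj_mem (⟨a, hA ha⟩ : MulAction.stabilizer G x)
      (Subgroup.mem_subgroupOf.mpr ha) ⟨h, hh⟩
    rw [Subgroup.mem_subgroupOf] at this
    simpa using this
  have htop : A ⊔ K = ⊤ := by
    rw [eq_top_iff, ← hgen, Subgroup.normalClosure, Subgroup.closure_le]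
    intro c hc
    rw [Group.mem_conjugatesOfSet_iff] at hc
    obtain ⟨a, ha, hconj'⟩ := hc
    rw [isConj_iff] at hconj'
    obtain ⟨g, rfl⟩ := hconj'
    obtain ⟨k, hk, h, hh, rfl⟩ := hdecomp g
    have ha' := hconj h hh a ha
    have heq : k * h * a * (k * h)⁻¹ =
        (k * ((h * a * h⁻¹) * k⁻¹ * (h * a * h⁻¹)⁻¹)) * (h * a * h⁻¹) := by group
    rw [SetLike.mem_coe, heq]
    apply Subgroup.mul_mem
    · apply (le_sup_right : K ≤ A ⊔ K)
      exact K.mul_mem hk (Subgroup.Normal.conj_mem inferInstance _ (K.inv_mem hk) _)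
    · exact (le_sup_left : A ≤ A ⊔ K) ha'
  let φ : A →* G ⧸ K := (QuotientGroup.mk' K).comp A.subtype
  have hφ : Function.Surjective φ := by
    intro y
    obtain ⟨g, rfl⟩ := QuotientGroup.mk_surjective y
    have hg : g ∈ (↑(A ⊔ K) : Set G) := by rw [htop]; trivial
    rw [Subgroup.mul_normal] at hg
    obtain ⟨a, ha, k, hk, rfl⟩ := hg
    refine ⟨⟨a, ha⟩, ?_⟩
    change (QuotientGroup.mk a : G ⧸ K) = QuotientGroup.mk (a * k)
    rw [QuotientGroup.eq]
    simpa using hk
  exact ⟨φ.ker, MonoidHom.normal_ker φ, ⟨(QuotientGroup.quotientKerEquivOfSurjective φ hφ).symm⟩⟩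

end Cfsg.Agent.S0796
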