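import Cfsg.Statements.S0797
import Cfsg.Agent.Helper16.IndexTwo

set_option autoImplicit false
open Cfsg

namespace Cfsg.Agent.S0797

open Cfsg.Agent.Helper16 QuadraticMap

/-- O^ε_2m(q) ≅ Ω.2² for q odd: if F is finite of odd characteristic, n ≥ 2 is even and Q has non-degenerate polar form on F^n, the isometry group of Q has exactly three subgroups of index 2. -/
theorem result {F : Type*} [Field F] [Fintype F] (h2 : (2 : F) ≠ 0) {n : ℕ} (hn : 2 ≤ n) (heven : Even n) (Q : QuadraticForm F (Fin n → F)) (hQ : (QuadraticMap.polarBilin Q).Nondegenerate) : Nat.card {H : Subgroup ↥(Cfsg.isometryGroup F ⇑Q) // H.index = 2} = 3 := by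
  have hcard : 2 ≤ Fintype.card (Fin n) := by rw [Fintype.card_fin]; exact hn
  obtain ⟨v, hv⟩ := exists_rep h2 Q hQ hcard 1 one_ne_zero
  obtain ⟨c, hc⟩ := FiniteField.exists_nonsquare (ringChar_ne_two_of_two_ne_zero h2)
  have hc0 : c ≠ 0 := by
    rintro rfl
    exact hc ⟨0, by ring⟩
  obtain ⟨w, hw⟩ := exists_rep h2 Q hQ hcard c hc0
  have hv0 : Q v ≠ 0 := by rw [hv]; exact one_ne_zero
  have hw0 : Q w ≠ 0 := by rw [hw]; exact hc0
  have hne : (-1 : F) ≠ 1 := by
    intro h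
    apply h2
    linear_combination -h
  have hθv : spinorHom h2 Q hQ (reflElt Q v) = 1 := by
    rw [spinorHom_refl_eq_one_iff h2 Q hQ v hv0, hv]
    exact ⟨1, by ring⟩
  have hθw : spinorHom h2 Q hQ (reflElt Q w) ≠ 1 := by
    rw [Ne, spinorHom_refl_eq_one_iff h2 Q hQ w hw0, hw]
    exact hc
  apply card_index_two_eq_three (detZ2 h2 Q hQ) (spinorHom h2 Q hQ) (reflElt Q v)
    (reflElt Q v * reflElt Q w)
  · rw [Ne, detZ2_eq_one_iff, det_refl Q v hv0]
    exact hne
  · exact hθv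
  · rw [detZ2_eq_one_iff, Subgroup.coe_mul, Units.val_mul, Matrix.det_mul, det_refl Q v hv0,
      det_refl Q w hw0]
    ring
  · rw [map_mul, hθv, one_mul]
    exact hθw
  · intro g h1 h3
    exact (mem_Omega_iff_det_spinor h2 Q hQ g).2 ⟨(detZ2_eq_one_iff h2 Q hQ g).1 h1, h3⟩

end Cfsg.Agent.S0797
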