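import Cfsg.Statements.S0800
import Mathlib

set_option autoImplicit false
open Cfsg

namespace Cfsg.Agent.S0800

theorem ch2 {F : Type*} [Field F] (A : Matrix (Fin 2) (Fin 2) F) (hdet : A.det = 1) :
    A * A = A.trace • A - 1 := by
  rw [Matrix.det_fin_two] at hdet
  ext u v
  fin_cases u <;> fin_cases v <;>
    simp [Matrix.mul_apply, Fin.sum_univ_two, Matrix.trace_fin_two] <;>
    first | linear_combination (-1 : F) * hdet | ring

theorem pow_repr {F : Type*} [Field F] (A : Matrix (Fin 2) (Fin 2) F) (hdet : A.det = 1) (n : ℕ) :
    ∃ a b : F, A ^ n = a • A + b • (1 : Matrix (Fin 2) (Fin 2) F) := by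
  induction n with
  | zero => exact ⟨0, 1, by simp⟩
  | succ n ih =>
    obtain ⟨a, b, h⟩ := ih
    refine ⟨a * A.trace + b, -a, ?_⟩
    rw [pow_succ, h, add_mul, Matrix.smul_mul, Matrix.smul_mul, ch2 A hdet, one_mul, smul_sub, smul_smul,
      add_smul, neg_smul]
    abel

theorem det_repr {F : Type*} [Field F] (A : Matrix (Fin 2) (Fin 2) F) (hdet : A.det = 1) (a b : F) :
    (a • A + b • (1 : Matrix (Fin 2) (Fin 2) F)).det = a ^ 2 + a * b * A.trace + b ^ 2 := by
  rw [Matrix.det_fin_two] at hdet
  rw [Matrix.det_fin_two, Matrix.trace_fin_two]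
  simp
  linear_combination a ^ 2 * hdet

theorem trace_repr {F : Type*} [Field F] (A : Matrix (Fin 2) (Fin 2) F) (a b : F) :
    (a • A + b • (1 : Matrix (Fin 2) (Fin 2) F)).trace = a * A.trace + 2 * b := by
  rw [Matrix.trace_fin_two, Matrix.trace_fin_two]
  simp
  ring

/-- unipotent case: `(A - ε)^2 = 0` with `ε^2 = 1` gives `A^(2p) = 1`. -/
theorem unip {F : Type*} [Field F] (p : ℕ) [Fact p.Prime] [CharP F p] (A : Matrix (Fin 2) (Fin 2) F)
    (ε : F) (hε : ε ^ 2 = 1) (hN : (A - ε • (1 : Matrix (Fin 2) (Fin 2) F)) * (A - ε • (1 : Matrix (Fin 2) (Fin 2) F)) = 0) :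
    A ^ (2 * p) = 1 := by
  have hp : p.Prime := Fact.out
  set N := A - ε • (1 : Matrix (Fin 2) (Fin 2) F) with hNdef
  have hA : A = ε • (1 : Matrix (Fin 2) (Fin 2) F) + N := by rw [hNdef]; abel
  have hcomm : Commute (ε • (1 : Matrix (Fin 2) (Fin 2) F)) N := by
    unfold Commute SemiconjBy
    rw [Matrix.smul_mul, Matrix.mul_smul, one_mul, mul_one]
  have hNp : N ^ p = 0 := by
    have : N ^ p = N ^ 2 * N ^ (p - 2) := by
      rw [← pow_add]; congr 1; have := hp.two_le; omega
    rw [this, pow_two, hN, zero_mul]
  have hAp : A ^ p = (ε ^ p) • (1 : Matrix (Fin 2) (Fin 2) F) := by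
    rw [hA, add_pow_char_of_commute (p := p) hcomm, hNp, add_zero, smul_pow, one_pow]
  rw [mul_comm, pow_mul, hAp, smul_pow, one_pow, ← pow_mul, mul_comm p 2, pow_mul, hε, one_pow, one_smul]

/-- Tori of SL_2(q): if g ∈ SL_2(q) has order coprime to the characteristic p, then the order of g divides q − 1 or q + 1. -/
theorem result {F : Type*} [Field F] [Fintype F] {q : ℕ} (hF : Fintype.card F = q) (p : ℕ) [Fact p.Prime] [CharP F p] (g : Matrix.SpecialLinearGroup (Fin 2) F) (hg : Nat.Coprime (orderOf g) p) : orderOf g ∣ q - 1 ∨ orderOf g ∣ q + 1 := by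
  classical
  have hp : p.Prime := Fact.out
  subst hF
  set A : Matrix (Fin 2) (Fin 2) F := (g : Matrix (Fin 2) (Fin 2) F) with hA
  have hdet : A.det = 1 := g.2
  set t := A.trace with ht
  have hch : A * A = t • A - 1 := ch2 A hdet
  have hqpos : 0 < Fintype.card F := Fintype.card_pos
  -- transfer lemmas
  have hminus : A ^ Fintype.card F = A → orderOf g ∣ Fintype.card F - 1 := by
    intro h
    apply orderOf_dvd_of_pow_eq_one
    have h1 : g ^ Fintype.card F = g := by
      apply Subtype.ext
      rw [Matrix.SpecialLinearGroup.coe_pow]; exact h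
    have h2 : g ^ (Fintype.card F - 1) * g = g := by
      rw [← pow_succ, Nat.sub_add_cancel hqpos, h1]
    exact mul_eq_right.mp h2
  have hplus : A ^ Fintype.card F = t • (1 : Matrix (Fin 2) (Fin 2) F) - A → orderOf g ∣ Fintype.card F + 1 := by
    intro h
    apply orderOf_dvd_of_pow_eq_one
    apply Subtype.ext
    rw [Matrix.SpecialLinearGroup.coe_pow]
    show A ^ (Fintype.card F + 1) = 1
    rw [pow_succ, h, sub_mul, Matrix.smul_mul, one_mul, hch]
    simp
  obtain ⟨a, b, hab⟩ := pow_repr A hdet (Fintype.card F)
  have h_i : a * t + 2 * b = t := by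
    have h1 := FiniteField.trace_pow_card A
    rw [FiniteField.pow_card, hab, trace_repr] at h1
    exact h1
  have h_ii : a ^ 2 + a * b * t + b ^ 2 = 1 := by
    have h1 : (A ^ Fintype.card F).det = 1 := by rw [Matrix.det_pow, hdet, one_pow]
    rw [hab, det_repr A hdet] at h1
    exact h1
  have hprod : (a ^ 2 - 1) * (4 - t ^ 2) = 0 := by
    linear_combination 4 * h_ii - (t + a * t + 2 * b) * h_i
  rcases mul_eq_zero.mp hprod with h | h
  · -- a = 1 or a = -1
    have h' : (a - 1) * (a + 1) = 0 := by linear_combination h
    rcases mul_eq_zero.mp h' with ha | ha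
    · have ha1 : a = 1 := by linear_combination ha
      subst ha1
      have hb2 : 2 * b = 0 := by linear_combination h_i
      have hb : b * (t + b) = 0 := by linear_combination h_ii
      rcases mul_eq_zero.mp hb with hb0 | hbt
      · left
        apply hminus
        rw [hab, hb0]; simp
      · have hbt' : b = -t := by linear_combination hbt
        by_cases h2 : (2 : F) = 0
        · right
          apply hplus
          rw [hab, hbt', one_smul]
          have : (-t) • (1 : Matrix (Fin 2) (Fin 2) F) = t • (1 : Matrix (Fin 2) (Fin 2) F) - (2 * t) • (1 : Matrix (Fin 2) (Fin 2) F) := by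
            rw [← sub_smul]; congr 1; ring
          rw [this, h2, zero_mul, zero_smul, sub_zero]
          have hA2 : A + A = 0 := by
            rw [← two_smul F A, h2, zero_smul]
          have : A = -A := eq_neg_of_add_eq_zero_left hA2
          rw [sub_eq_add_neg, ← this, add_comm]
        · left
          apply hminus
          have hb0 : b = 0 := by
            rcases mul_eq_zero.mp hb2 with h3 | h3
            · exact absurd h3 h2
            · exact h3
          rw [hab, hb0]; simp
    · have ha1 : a = -1 := by linear_combination ha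
      subst ha1
      have hb2 : 2 * b = 2 * t := by linear_combination h_i
      have hb : b * (b - t) = 0 := by linear_combination h_ii
      rcases mul_eq_zero.mp hb with hb0 | hbt
      · by_cases h2 : (2 : F) = 0
        · left
          apply hminus
          rw [hab, hb0, zero_smul, add_zero, neg_smul, one_smul]
          have hA2 : A + A = 0 := by
            rw [← two_smul F A, h2, zero_smul]
          exact (eq_neg_of_add_eq_zero_left hA2).symm
        · right
          apply hplus
          have ht0 : t = 0 := by
            rw [hb0, mul_zero] at hb2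
            rcases mul_eq_zero.mp hb2.symm with h3 | h3
            · exact absurd h3 h2
            · exact h3
          rw [hab, hb0, ht0]; simp
      · right
        apply hplus
        have hbt' : b = t := by linear_combination hbt
        rw [hab, hbt', neg_smul, one_smul]; abel
  · -- t^2 = 4 : unipotent case
    have h' : (t - 2) * (t + 2) = 0 := by linear_combination -h
    have hdvd2p : orderOf g ∣ 2 * p := by
      apply orderOf_dvd_of_pow_eq_one
      apply Subtype.ext
      rw [Matrix.SpecialLinearGroup.coe_pow]
      show A ^ (2 * p) = 1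
      rcases mul_eq_zero.mp h' with h2 | h2
      · have ht2 : t = 2 := by linear_combination h2
        apply unip p A 1 (by norm_num)
        rw [one_smul, sub_mul, mul_sub, mul_one, one_mul, hch, ht2, two_smul]
        abel
      · have ht2 : t = -2 := by linear_combination h2
        apply unip p A (-1) (by norm_num)
        rw [neg_smul, one_smul, sub_neg_eq_add, add_mul, mul_add, mul_one, one_mul, hch, ht2, neg_smul, two_smul]
        abel
    have hdvd2 : orderOf g ∣ 2 := hg.dvd_of_dvd_mul_right hdvd2p
    by_cases hp2 : p = 2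
    · subst hp2
      have h1 : orderOf g = 1 := by
        have := Nat.dvd_gcd dvd_rfl hdvd2
        rw [Nat.Coprime] at hg
        rw [hg] at this
        exact Nat.dvd_one.mp this
      rw [h1]
      left; exact one_dvd _
    · left
      have hodd : Fintype.card F % 2 = 1 := by
        apply FiniteField.odd_card_of_char_ne_two
        rw [ringChar.eq F p]; exact hp2
      have : 2 ∣ Fintype.card F - 1 := by omega
      exact hdvd2.trans this

end Cfsg.Agent.S0800
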