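import Cfsg.Statements.S0801
import Cfsg.Agent.Helper9.E9d

set_option autoImplicit false
open Cfsg

namespace Cfsg.Agent.S0801

open Cfsg.Agent.Helper9

theorem result {F : Type*} [Field F] [Fintype F] (h2 : (2 : F) ≠ 0) (lam : F) (hlam : lam ≠ 0) (hgen : Subfield.closure ({lam} : Set F) = ⊤) : (Subgroup.closure {g : Matrix.SpecialLinearGroup (Fin 2) F | (g : Matrix (Fin 2) (Fin 2) F) = !![1, 0; 1, 1] ∨ (g : Matrix (Fin 2) (Fin 2) F) = !![1, lam; 0, 1]} = ⊤ ∧ ¬ (Fintype.card F = 9 ∧ lam ^ 2 = -1)) ∨ (Fintype.card F = 9 ∧ lam ^ 2 = -1 ∧ Nat.card ↥(Subgroup.closure {g : Matrix.SpecialLinearGroup (Fin 2) F | (g : Matrix (Fin 2) (Fin 2) F) = !![1, 0; 1, 1] ∨ (g : Matrix (Fin 2) (Fin 2) F) = !![1, lam; 0, 1]}) = 120) := by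
  by_cases hex : Fintype.card F = 9 ∧ lam ^ 2 = -1
  · right
    obtain ⟨h9, hl⟩ := hex
    have hc3 : CharP F 3 := by
      obtain ⟨p, hcp⟩ := CharP.exists F
      obtain ⟨n, hpp, hn⟩ := FiniteField.card F p
      rw [h9] at hn
      have hp3 : p = 3 := by
        have hdvd : p ∣ 9 := by
          rw [hn]
          exact dvd_pow_self p n.ne_zero
        have h3 : p ∣ 3 := by
          have h9' : (9 : ℕ) = 3 ^ 2 := by norm_num
          rw [h9'] at hdvd
          exact hpp.dvd_of_dvd_pow hdvd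
        exact (Nat.prime_dvd_prime_iff_eq hpp Nat.prime_three).mp h3
      subst hp3
      exact hcp
    exact ⟨h9, hl, f9_card_h9 lam hl⟩
  · left
    exact ⟨dickson_gen_h9 h2 lam hlam hgen hex, hex⟩

end Cfsg.Agent.S0801
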