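import Cfsg.Statements.S0803
import Cfsg.Agent.Helper9.SL2n

set_option autoImplicit false
open Cfsg

namespace Cfsg.Agent.S0803

open Cfsg.Agent.Helper9

theorem result {F : Type*} [Field F] [Fintype F] {q : ℕ} (hF : Fintype.card F = q) : (∃ H : Subgroup (Matrix.ProjectiveSpecialLinearGroup (Fin 2) F), Nonempty (H ≃* Equiv.Perm (Fin 4))) ↔ q ^ 2 % 16 = 1 := by
  classical
  subst hF
  constructor
  · rintro ⟨H, ⟨e⟩⟩
    by_cases hq2 : Fintype.card F % 2 = 0
    · exfalso
      let σ : Equiv.Perm (Fin 4) := finRotate 4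
      have hσ4 : σ ^ 4 = 1 := by decide
      have hσ2 : σ ^ 2 ≠ 1 := by decide
      have hx4 : ((e.symm σ : H) : Matrix.ProjectiveSpecialLinearGroup (Fin 2) F) ^ 4 = 1 := by
        rw [← Subgroup.coe_pow, ← map_pow, hσ4, map_one]; rfl
      have hx2 := psl2_char_two_no_order_four_h9 hq2 _ hx4
      apply hσ2
      apply e.symm.injective
      apply Subtype.ext
      rw [map_pow, map_one, Subgroup.coe_pow]
      exact hx2
    · have hodd : Fintype.card F % 2 = 1 := by omega
      have hcardH : Nat.card H = 24 := by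
        rw [Nat.card_congr e.toEquiv, Nat.card_perm]
        simp [Nat.factorial]
      have hdvd : 24 ∣ Nat.card (Matrix.ProjectiveSpecialLinearGroup (Fin 2) F) :=
        hcardH ▸ Subgroup.card_subgroup_dvd_card H
      obtain ⟨r, hr, hcard⟩ := psl2_card_odd_h9 hodd
      rw [hr] at hodd ⊢
      obtain ⟨m, hm⟩ := hdvd
      rw [hm] at hcard
      have h16 : 16 ∣ (r + 1) * (r * (r + 2)) := ⟨3 * m, by linarith⟩
      have hcop : Nat.Coprime 16 (r + 1) := by
        have : Nat.Coprime 2 (r + 1) := by
          rw [Nat.Prime.coprime_iff_not_dvd Nat.prime_two]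
          omega
        exact Nat.Coprime.pow_left 4 this
      have h16' : 16 ∣ r * (r + 2) := hcop.dvd_of_dvd_mul_left h16
      have : (r + 1) ^ 2 = r * (r + 2) + 1 := by ring
      rw [this]
      omega
  · intro hq
    have h16 := Nat.pow_mod (Fintype.card F) 2 16
    rw [hq] at h16
    have hlt := Nat.mod_lt (Fintype.card F) (by norm_num : 16 > 0)
    have h8 := Nat.mod_mod_of_dvd (Fintype.card F) (by norm_num : 8 ∣ 16)
    have h2' := Nat.mod_mod_of_dvd (Fintype.card F) (by norm_num : 2 ∣ 16)
    have hres : Fintype.card F % 2 = 1 ∧ (Fintype.card F % 8 = 1 ∨ Fintype.card F % 8 = 7) := by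
      rw [← h8, ← h2']
      generalize Fintype.card F % 16 = r at h16 hlt
      interval_cases r <;> first | (norm_num at h16; done) | norm_num
    obtain ⟨hodd, hq8⟩ := hres
    have h2 : (2 : F) ≠ 0 := two_ne_zero_of_odd_card_h9 hodd
    have hsq : IsSquare (2 : F) := by
      rw [FiniteField.isSquare_two_iff]; omega
    obtain ⟨V, hV, hC, h3, hne⟩ := psl2_klein_data_h9 hodd h2
    exact (klein_ambient_h9 V hC h3).2 (hne hsq)

end Cfsg.Agent.S0803
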