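import Cfsg.Statements.S0804
import Cfsg.Agent.Helper9.Ico7
import Cfsg.Agent.S0243

set_option autoImplicit false
open Cfsg

namespace Cfsg.Agent.S0804

open Cfsg.Agent.Helper9

theorem result {F : Type*} [Field F] [Fintype F] {q : ℕ} (hF : Fintype.card F = q) : (∃ H : Subgroup (Matrix.ProjectiveSpecialLinearGroup (Fin 2) F), Nonempty (H ≃* alternatingGroup (Fin 5))) ↔ 5 ∣ q * (q ^ 2 - 1) := by
  subst hF
  constructor
  · rintro ⟨H, ⟨e⟩⟩
    have hA : Nat.card (alternatingGroup (Fin 5)) = 60 := by
      have := two_mul_card_alternatingGroup (α := Fin 5)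
      rw [Fintype.card_perm] at this
      rw [Nat.card_eq_fintype_card]
      have h120 : (Fintype.card (Fin 5)).factorial = 120 := by simp [Nat.factorial]
      rw [h120] at this
      omega
    have hH : Nat.card H = 60 := by rw [Nat.card_congr e.toEquiv, hA]
    have hdvd : 60 ∣ Nat.card (Matrix.ProjectiveSpecialLinearGroup (Fin 2) F) := by
      rw [← hH]; exact Subgroup.card_subgroup_dvd_card H
    have hq1 : 1 < Fintype.card F := Fintype.one_lt_card
    obtain ⟨c, hc⟩ : ∃ c, Fintype.card F = c + 1 := ⟨Fintype.card F - 1, by omega⟩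
    have h := Cfsg.Agent.S0243.result (F := F) hc 2 (le_refl 2)
    rw [Fin.prod_univ_two] at h
    simp only [Fin.val_zero, Fin.val_one, pow_zero, pow_one, Nat.add_sub_cancel] at h
    have e1 : (c + 1) ^ 2 - 1 = c * (c + 2) := by
      have : (c + 1) ^ 2 = c * (c + 2) + 1 := by ring
      omega
    have e2 : (c + 1) ^ 2 - (c + 1) = (c + 1) * c := by
      have : (c + 1) ^ 2 = (c + 1) * c + (c + 1) := by ring
      omega
    rw [e1, e2] at h
    rw [hc, e1]
    have h5 : 5 ∣ c * (c + 2) * ((c + 1) * c) := by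
      rw [← h]
      exact Dvd.dvd.mul_left (Dvd.dvd.mul_left (dvd_trans (by norm_num) hdvd) _) _
    have hp : Nat.Prime 5 := by norm_num
    rcases (hp.dvd_mul).mp h5 with h' | h'
    · exact Dvd.dvd.mul_left h' _
    · rcases (hp.dvd_mul).mp h' with h'' | h''
      · exact Dvd.dvd.mul_right h'' _
      · exact Dvd.dvd.mul_left (Dvd.dvd.mul_right h'' _) _
  · intro h5
    rcases Nat.mod_two_eq_zero_or_one (Fintype.card F) with h | h
    · exact psl2_A5_even_h9 h h5
    · exact psl2_A5_odd_h9 h h5

end Cfsg.Agent.S0804
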