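import Cfsg.Statements.S0805
import Cfsg.Agent.Helper9.Sub3

set_option autoImplicit false
open Cfsg

namespace Cfsg.Agent.S0805

open Cfsg.Agent.Helper9

theorem result {F K : Type*} [Field F] [Fintype F] [Field K] [Fintype K] {q : ℕ} (hF : Fintype.card F = q) (hodd : Odd q) (m : ℕ) (hm : 1 ≤ m) (hK : Fintype.card K ^ m = q) : (∃ H : Subgroup (Matrix.ProjectiveSpecialLinearGroup (Fin 2) F), Nonempty (H ≃* Matrix.ProjectiveSpecialLinearGroup (Fin 2) K)) ∧ ((∃ H : Subgroup (Matrix.ProjectiveSpecialLinearGroup (Fin 2) F), Nonempty (H ≃* Matrix.ProjGenLinGroup (Fin 2) K)) ↔ Even m) := by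
  subst hF
  have hodd' : Fintype.card F % 2 = 1 := Nat.odd_iff.mp hodd
  obtain ⟨f⟩ := finite_field_embed_h9 (F := F) (K := K) m hK
  refine ⟨psl2_subfield_h9 f, ?_, ?_⟩
  · rintro ⟨H, ⟨e⟩⟩
    rcases Nat.even_or_odd m with he | ho
    · exact he
    · exfalso
      obtain ⟨j, rfl⟩ := ho
      exact pgl2_not_subfield_odd_h9 j hK hodd' H e
  · rintro ⟨j, rfl⟩
    have hK' : Fintype.card K ^ (2 * j) = Fintype.card F := by rw [← hK]; congr 1; ring
    exact pgl2_subfield_h9 f (isSquare_of_subfield_even_h9 f j hK' hodd')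

end Cfsg.Agent.S0805
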