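import Cfsg.Statements.S0806
import Cfsg.Agent.Helper9.Dk14

set_option autoImplicit false
open Cfsg

namespace Cfsg.Agent.S0806

open Cfsg.Agent.Helper9

theorem result {F : Type*} [Field F] [Fintype F] {q : ℕ} (hF : Fintype.card F = q) (hq : q ∉ ({2, 3, 5, 7, 9, 11} : Finset ℕ)) : (∀ H : Subgroup (Matrix.ProjectiveSpecialLinearGroup (Fin 2) F), H ≠ ⊤ → q + 1 ≤ H.index) ∧ ∃ H : Subgroup (Matrix.ProjectiveSpecialLinearGroup (Fin 2) F), H.index = q + 1 := by
  subst hF
  obtain ⟨p, hcp⟩ := CharP.exists F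
  have : Fact p.Prime := ⟨CharP.char_is_prime F p⟩
  have h1 : 1 < Fintype.card F := Fintype.one_lt_card
  simp only [Finset.mem_insert, Finset.mem_singleton, not_or] at hq
  obtain ⟨hq2, hq3, hq5, hq7, hq9, hq11⟩ := hq
  have h4 : 4 ≤ Fintype.card F := by omega
  obtain ⟨k₀, hG, hB, hbound⟩ := psl2_sub_bound_h9 (p := p) h4 hq5 hq7 hq9 hq11
  have hk₀ : 0 < Fintype.card F * k₀ := by rw [← hB]; exact Nat.card_pos
  constructor
  · intro H hH
    have h := hbound H hH
    have hmul := Subgroup.card_mul_index H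
    rw [hG] at hmul
    by_contra hlt
    push Not at hlt
    have h2 : Nat.card H * H.index ≤ Fintype.card F * k₀ * H.index := Nat.mul_le_mul_right _ h
    have h3 : Fintype.card F * k₀ * H.index < Fintype.card F * k₀ * (Fintype.card F + 1) :=
      Nat.mul_lt_mul_of_pos_left hlt hk₀
    have h5 : (Fintype.card F + 1) * (Fintype.card F * k₀)
        = Fintype.card F * k₀ * (Fintype.card F + 1) := by ring
    omega
  · refine ⟨borel_h9 F, ?_⟩
    have hmul := Subgroup.card_mul_index (borel_h9 F)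
    rw [hG, hB] at hmul
    exact Nat.eq_of_mul_eq_mul_left hk₀ (by rw [hmul]; ring)

end Cfsg.Agent.S0806
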