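import Cfsg.Statements.S0807
import Cfsg.Agent.Helper9.SL2e

set_option autoImplicit false
open Cfsg

namespace Cfsg.Agent.S0807

open Cfsg.Agent.Helper9

theorem result {F : Type*} [Field F] [Fintype F] {q : ℕ} (hF : Fintype.card F = q) (hodd : Odd q) : 12 * Nat.card {V : Subgroup (Matrix.ProjectiveSpecialLinearGroup (Fin 2) F) // IsKleinFour V} = Nat.card (Matrix.ProjectiveSpecialLinearGroup (Fin 2) F) := by
  classical
  have hF2 : Fintype.card F % 2 = 1 := by rw [hF]; exact Nat.odd_iff.mp hodd
  have h2 : (2 : F) ≠ 0 := by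
    apply Ring.two_ne_zero
    intro h
    have h' := FiniteField.even_card_iff_char_two.mp h
    omega
  exact psl2_klein_count_h9 F hF2 h2

end Cfsg.Agent.S0807
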