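import Cfsg.Statements.S0808
import Cfsg.Agent.Helper9.SL2g

set_option autoImplicit false
open Cfsg

namespace Cfsg.Agent.S0808

open Cfsg.Agent.Helper9

theorem result {F : Type*} [Field F] [Fintype F] {q : ℕ} (hF : Fintype.card F = q) (hodd : Odd q) : ((q % 8 = 3 ∨ q % 8 = 5) → ∀ V W : Subgroup (Matrix.ProjectiveSpecialLinearGroup (Fin 2) F), IsKleinFour V → IsKleinFour W → ∃ g : Matrix.ProjectiveSpecialLinearGroup (Fin 2) F, W = V.map (MulAut.conj g).toMonoidHom) ∧ ((q % 8 = 1 ∨ q % 8 = 7) → ∃ V₁ V₂ : Subgroup (Matrix.ProjectiveSpecialLinearGroup (Fin 2) F), IsKleinFour V₁ ∧ IsKleinFour V₂ ∧ (¬ ∃ g : Matrix.ProjectiveSpecialLinearGroup (Fin 2) F, V₂ = V₁.map (MulAut.conj g).toMonoidHom) ∧ ∀ W : Subgroup (Matrix.ProjectiveSpecialLinearGroup (Fin 2) F), IsKleinFour W → (∃ g : Matrix.ProjectiveSpecialLinearGroup (Fin 2) F, W = V₁.map (MulAut.conj g).toMonoidHom) ∨ (∃ g : Matrix.ProjectiveSpecialLinearGroup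 (Fin 2) F, W = V₂.map (MulAut.conj g).toMonoidHom)) := by
  classical
  have hF2 : Fintype.card F % 2 = 1 := by rw [hF]; exact Nat.odd_iff.mp hodd
  have h2 : (2 : F) ≠ 0 := by
    apply Ring.two_ne_zero
    intro h
    have h' := FiniteField.even_card_iff_char_two.mp h
    omega
  refine ⟨?_, ?_⟩
  · intro hq V W hV hW
    have hns : ¬ IsSquare (2 : F) := by
      rw [FiniteField.isSquare_two_iff, hF]; omega
    have hJ : ¬ ∃ c ∈ sl2S_h9 F, c * c = sl2J_h9 F := fun h => hns ((sl2S_J_sq_iff_h9 h2).mp h)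
    exact psl2_klein_all_conj_h9 hF2 h2 hJ V W
  · intro hq
    have hs : IsSquare (2 : F) := by
      rw [FiniteField.isSquare_two_iff, hF]; omega
    obtain ⟨c₀, hc₀, hcc⟩ := (sl2S_J_sq_iff_h9 h2).mpr hs
    obtain ⟨V₁, V₂, hV₁, hV₂, hnc, hall⟩ := psl2_klein_two_classes_h9 hF2 h2 c₀ hc₀ hcc
    exact ⟨V₁, V₂, hV₁, hV₂, hnc, hall⟩

end Cfsg.Agent.S0808
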