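import Cfsg.Statements.S0809
import Cfsg.Agent.Helper9.SL2d

set_option autoImplicit false
open Cfsg

namespace Cfsg.Agent.S0809

open Cfsg.Agent.Helper9

theorem result {F : Type*} [Field F] [Fintype F] {q : ℕ} (hF : Fintype.card F = q) (hodd : Odd q) (A : Subgroup (Matrix.SpecialLinearGroup (Fin 2) F)) (hA : Nat.card A = 4) : (∀ B : Subgroup (Matrix.SpecialLinearGroup (Fin 2) F), Nat.card B = 4 → ∃ g : Matrix.SpecialLinearGroup (Fin 2) F, B = A.map (MulAut.conj g).toMonoidHom) ∧ (q % 4 = 1 → Nat.card ↥(Subgroup.normalizer (A : Set (Matrix.SpecialLinearGroup (Fin 2) F))) = 2 * (q - 1)) ∧ (q % 4 = 3 → Nat.card ↥(Subgroup.normalizer (A : Set (Matrix.SpecialLinearGroup (Fin 2) F))) = 2 * (q + 1)) ∧ (∀ x y : Matrix.ProjectiveSpecialLinearGroup (Fin 2) F, orderOf x = 2 → orderOf y = 2 → IsConj x y) := by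
  classical
  have hF2 : Fintype.card F % 2 = 1 := by rw [hF]; exact Nat.odd_iff.mp hodd
  have h2 : (2 : F) ≠ 0 := by
    apply Ring.two_ne_zero
    intro h
    have h' := FiniteField.even_card_iff_char_two.mp h
    omega
  obtain ⟨x, hxx, rfl⟩ := sl2_order4_h9 h2 A hA
  obtain ⟨P, hP⟩ := sl2_conj_J_h9 hF2 h2 x hxx
  have hNcard : Nat.card ↥(Subgroup.normalizer
      ((Subgroup.zpowers x : Subgroup (Matrix.SpecialLinearGroup (Fin 2) F)) :
        Set (Matrix.SpecialLinearGroup (Fin 2) F))) = 2 * circN_h9 F 1 := by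
    have h1 : Subgroup.zpowers x
        = (Subgroup.zpowers (sl2J_h9 F)).map (MulAut.conj P).toMonoidHom := by
      rw [MonoidHom.map_zpowers, hP]; rfl
    rw [h1, ← Subgroup.map_equiv_normalizer_eq,
      Subgroup.card_map_of_injective (MulAut.conj P).injective]
    exact sl2_normalizer_J_card_h9 hF2 h2
  refine ⟨?_, ?_, ?_, ?_⟩
  · intro B hB
    obtain ⟨y, hyy, rfl⟩ := sl2_order4_h9 h2 B hB
    obtain ⟨Q, hQ⟩ := sl2_conj_J_h9 hF2 h2 y hyy
    refine ⟨Q * P⁻¹, ?_⟩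
    rw [MonoidHom.map_zpowers]
    congr 1
    show y = (Q * P⁻¹) * x * (Q * P⁻¹)⁻¹
    rw [hQ, hP]; group
  · intro hq
    rw [hNcard]
    have hsq : IsSquare (-1 : F) := by rw [FiniteField.isSquare_neg_one_iff, hF]; omega
    obtain ⟨i, hi⟩ := hsq
    rw [circN_one_of_sq_h9 h2 i hi.symm, hF]
  · intro hq
    rw [hNcard]
    have hns : ¬ IsSquare (-1 : F) := by rw [FiniteField.isSquare_neg_one_iff, hF]; omega
    rw [circN_one_of_not_sq_h9 hF2 hns, hF]
  · intro s t hs ht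
    obtain ⟨u, rfl, huu⟩ := psl2_invol_lift_h9 h2 s hs
    obtain ⟨v, rfl, hvv⟩ := psl2_invol_lift_h9 h2 t ht
    obtain ⟨Pu, hPu⟩ := sl2_conj_J_h9 hF2 h2 u huu
    obtain ⟨Pv, hPv⟩ := sl2_conj_J_h9 hF2 h2 v hvv
    rw [isConj_iff]
    refine ⟨QuotientGroup.mk (Pv * Pu⁻¹), ?_⟩
    rw [← QuotientGroup.mk_inv, ← QuotientGroup.mk_mul, ← QuotientGroup.mk_mul]
    congr 1
    rw [hPu, hPv]; group

end Cfsg.Agent.S0809
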