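import Cfsg.Statements.S0810
import Cfsg.Agent.Helper9.Dk23

set_option autoImplicit false
open Cfsg

namespace Cfsg.Agent.S0810

open Cfsg.Agent.Helper9

theorem result {F : Type*} [Field F] [Fintype F] {q : ℕ} (hF : Fintype.card F = q) : Cfsg.IsMinimalSimple (Matrix.ProjectiveSpecialLinearGroup (Fin 2) F) ↔ ((∃ r : ℕ, r.Prime ∧ q = 2 ^ r) ∨ (∃ r : ℕ, r.Prime ∧ r ≠ 2 ∧ q = 3 ^ r) ∨ (q.Prime ∧ 5 < q ∧ (q % 5 = 2 ∨ q % 5 = 3)) ∨ q = 5) := by
  subst hF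
  constructor
  · rintro ⟨hsimple, hnc, hmin⟩
    apply psl2_minimal_imp_h9 _ hmin
    intro hsol
    apply hnc
    rw [isMulCommutative_iff]
    exact (IsSimpleGroup.comm_iff_isSolvable
      (G := Matrix.ProjectiveSpecialLinearGroup (Fin 2) F)).mpr hsol
  · intro h
    exact psl2_minimal_of_list_h9 h

end Cfsg.Agent.S0810
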