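import Cfsg.Statements.S0811
import Cfsg.Agent.Helper9.Dk18

set_option autoImplicit false
open Cfsg

namespace Cfsg.Agent.S0811

open Cfsg.Agent.Helper9

theorem result {F : Type*} [Field F] [Fintype F] {q : ℕ} (hF : Fintype.card F = q) (hq : q ∉ ({2, 7, 9} : Finset ℕ)) : ∃ H : Subgroup (Matrix.ProjectiveSpecialLinearGroup (Fin 2) F), IsCoatom H ∧ Nonempty (H ≃* DihedralGroup ((q + 1) / Nat.gcd 2 (q - 1))) := by
  obtain ⟨p, hcp⟩ := CharP.exists F
  have : Fact p.Prime := ⟨CharP.char_is_prime F p⟩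
  have h1 : 1 < Fintype.card F := Fintype.one_lt_card
  simp only [Finset.mem_insert, Finset.mem_singleton, not_or] at hq
  obtain ⟨hq2, hq7, hq9⟩ := hq
  rw [hF] at h1
  rcases Nat.mod_two_eq_zero_or_one q with heven | hodd
  · have h4 : 4 ≤ Fintype.card F := by omega
    have hg : Nat.gcd 2 (q - 1) = 1 :=
      (Nat.Prime.coprime_iff_not_dvd Nat.prime_two).mpr (by omega)
    rw [hg, Nat.div_one]
    obtain ⟨H, hcard, ⟨e⟩⟩ := psl2_dihedral_even_h9 (F := F) (by rw [hF]; exact heven) (q + 1)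
      (by omega) (Or.inr (by rw [hF]))
    obtain ⟨r, hr, hG⟩ := psl2_card_even_h9 (F := F) (by rw [hF]; exact heven)
    rw [hF] at hr
    refine ⟨H, ⟨?_, ?_⟩, ⟨e⟩⟩
    · intro htop
      rw [htop, Subgroup.card_top, hG] at hcard
      have hr3 : 3 ≤ r := by omega
      have h5 : 3 * (r + 1) ≤ r * (r + 1) := Nat.mul_le_mul_right _ hr3
      have h6 : r * (r + 1) * (r + 2) = (r * (r + 1)) * r + 2 * (r * (r + 1)) := by ring
      have h7 : 9 * (r + 1) ≤ (r * (r + 1)) * r := by
        calc 9 * (r + 1) = 3 * (r + 1) * 3 := by ring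
          _ ≤ (r * (r + 1)) * r := Nat.mul_le_mul h5 hr3
      omega
    · intro M hlt
      by_contra hM
      have hcop : Nat.Coprime (q + 1) p := ff_coprime_h9 (p := p) (F := F) (q + 1) (Or.inr (by rw [hF]))
      rcases dihedral_over_h9 (p := p) h4 (q + 1) (by omega) hcop H e M hlt hM with
        ⟨m, hkm, hklt, hpar⟩ | ⟨hk5, hodd', -⟩ | ⟨q₁, h4q, hqq, hkq⟩
      · rw [hF] at hpar
        rcases hpar with ⟨hodd', -⟩ | ⟨-, hm | hm⟩
        · omega
        · have := Nat.le_of_dvd (by omega) hm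
          omega
        · have := Nat.le_of_dvd (by omega) hm
          omega
      · rw [hF] at hodd'
        omega
      · rw [hF] at hqq
        have h5 : 4 * q₁ ≤ q₁ ^ 2 := by rw [sq]; exact Nat.mul_le_mul_right _ h4q
        omega
  · have hg : Nat.gcd 2 (q - 1) = 2 := Nat.gcd_eq_left (by omega)
    rw [hg]
    obtain ⟨k, hk⟩ : ∃ k, q + 1 = 2 * k := ⟨(q + 1) / 2, by omega⟩
    have hk' : (q + 1) / 2 = k := by omega
    rw [hk']
    have hk2 : 2 ≤ k := by omega
    obtain ⟨H, hcard, ⟨e⟩⟩ := psl2_dihedral_torus_h9 (F := F) (by rw [hF]; exact hodd) k (by omega)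
      (Or.inr (by rw [hF, hk]))
    obtain ⟨r, hr, hG⟩ := psl2_card_odd_h9 (F := F) (by rw [hF]; exact hodd)
    rw [hF] at hr
    have hr2 : 2 ≤ r := by omega
    have hHtop : H ≠ ⊤ := by
      intro htop
      rw [htop, Subgroup.card_top] at hcard
      rw [hcard] at hG
      have h5 : 2 * (r + 1) ≤ r * (r + 1) := Nat.mul_le_mul_right _ hr2
      have h6 : r * (r + 1) * (r + 2) = (r * (r + 1)) * r + 2 * (r * (r + 1)) := by ring
      have h7 : 2 * (r + 1) * 2 ≤ (r * (r + 1)) * r := Nat.mul_le_mul h5 hr2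
      omega
    refine ⟨H, ⟨hHtop, ?_⟩, ⟨e⟩⟩
    intro M hlt
    by_contra hM
    have hdvd : Nat.card H ∣ Nat.card M := Subgroup.card_dvd_of_le hlt.le
    have hltc : Nat.card H < Nat.card M := by
      by_contra h
      exact hlt.ne (Subgroup.eq_of_le_of_card_ge hlt.le (not_lt.mp h))
    have hMG : Nat.card M ∣ Nat.card (Matrix.ProjectiveSpecialLinearGroup (Fin 2) F) :=
      Subgroup.card_subgroup_dvd_card M
    have hMne : Nat.card M ≠ Nat.card (Matrix.ProjectiveSpecialLinearGroup (Fin 2) F) :=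
      fun h => hM (Subgroup.eq_top_of_card_eq M h)
    have hMle : Nat.card M ≤ Nat.card (Matrix.ProjectiveSpecialLinearGroup (Fin 2) F) :=
      Subgroup.card_le_card_group M
    rw [hcard] at hdvd hltc
    by_cases hq3 : q = 3
    · -- |G| = 12, |H| = 4
      have hr' : r = 2 := by omega
      have hk'' : k = 2 := by omega
      rw [hr'] at hG
      have hG12 : Nat.card (Matrix.ProjectiveSpecialLinearGroup (Fin 2) F) = 12 := by omega
      rw [hG12] at hMG hMne hMle
      rw [hk''] at hdvd hltc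
      obtain ⟨a, ha⟩ := hdvd
      obtain ⟨b, hb⟩ := hMG
      have ha2 : a = 2 := by omega
      rw [ha2] at ha
      rw [ha] at hb
      omega
    have h4 : 4 ≤ Fintype.card F := by omega
    have hk3 : 3 ≤ k := by omega
    have hcop : Nat.Coprime k p := ff_coprime_h9 (p := p) (F := F) k
      (Or.inr (by rw [hF, hk]; exact dvd_mul_left k 2))
    rcases dihedral_over_h9 (p := p) h4 k hk3 hcop H e M hlt hM with
      ⟨m, hkm, hklt, hpar⟩ | ⟨hk5, -, hiso⟩ | ⟨q₁, h4q, hqq, hkq⟩
    · rw [hF] at hpar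
      rcases hpar with ⟨-, hm | hm⟩ | ⟨heven', -⟩
      · have := Nat.le_of_dvd (by omega) hm
        omega
      · have := Nat.le_of_dvd (by omega) hm
        omega
      · omega
    · -- q = 5, k = 3
      have hq5 : q = 5 := by omega
      have hk'' : k = 3 := by omega
      have hr' : r = 4 := by omega
      rw [hr'] at hG
      have hG60 : Nat.card (Matrix.ProjectiveSpecialLinearGroup (Fin 2) F) = 60 := by omega
      subst hk''
      rcases hiso with ⟨⟨e'⟩⟩ | ⟨⟨e'⟩⟩ | ⟨⟨e'⟩⟩
      · -- two non-commuting involutions of D₃ would commute in A₄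
        obtain ⟨s₀, hs₀⟩ : ∃ s : H, s = e.symm (DihedralGroup.sr 0) := ⟨_, rfl⟩
        obtain ⟨s₁, hs₁⟩ : ∃ s : H, s = e.symm (DihedralGroup.sr 1) := ⟨_, rfl⟩
        have hs₀2 : s₀ ^ 2 = 1 := by
          apply e.injective
          rw [map_pow, hs₀, e.apply_symm_apply, map_one, sq, DihedralGroup.sr_mul_sr, sub_self]
          rfl
        have hs₁2 : s₁ ^ 2 = 1 := by
          apply e.injective
          rw [map_pow, hs₁, e.apply_symm_apply, map_one, sq, DihedralGroup.sr_mul_sr, sub_self]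
          rfl
        have ht₀ : (e' ⟨s₀.1, hlt.le s₀.2⟩).1 ^ 2 = 1 := by
          have h4' : (s₀ : Matrix.ProjectiveSpecialLinearGroup (Fin 2) F) ^ 2 = 1 := by
            rw [← Subgroup.coe_pow, hs₀2]; rfl
          have h5 : (⟨s₀.1, hlt.le s₀.2⟩ : M) ^ 2 = 1 :=
            Subtype.ext (by rw [Subgroup.coe_pow]; exact h4')
          have h6 := congrArg e' h5
          rw [map_pow, map_one] at h6
          exact congrArg Subtype.val h6
        have ht₁ : (e' ⟨s₁.1, hlt.le s₁.2⟩).1 ^ 2 = 1 := by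
          have h4' : (s₁ : Matrix.ProjectiveSpecialLinearGroup (Fin 2) F) ^ 2 = 1 := by
            rw [← Subgroup.coe_pow, hs₁2]; rfl
          have h5 : (⟨s₁.1, hlt.le s₁.2⟩ : M) ^ 2 = 1 :=
            Subtype.ext (by rw [Subgroup.coe_pow]; exact h4')
          have h6 := congrArg e' h5
          rw [map_pow, map_one] at h6
          exact congrArg Subtype.val h6
        have hcomm := alt4_invol_comm_h9 _ _
          (Equiv.Perm.mem_alternatingGroup.mp (e' ⟨s₀.1, hlt.le s₀.2⟩).2)
          (Equiv.Perm.mem_alternatingGroup.mp (e' ⟨s₁.1, hlt.le s₁.2⟩).2) ht₀ ht₁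
        have hcomm' : e' ⟨s₀.1, hlt.le s₀.2⟩ * e' ⟨s₁.1, hlt.le s₁.2⟩
            = e' ⟨s₁.1, hlt.le s₁.2⟩ * e' ⟨s₀.1, hlt.le s₀.2⟩ := Subtype.ext hcomm
        rw [← map_mul, ← map_mul] at hcomm'
        have h7 := e'.injective hcomm'
        have h8 : s₀.1 * s₁.1 = s₁.1 * s₀.1 := congrArg Subtype.val h7
        have h9 : s₀ * s₁ = s₁ * s₀ := Subtype.ext h8
        have h10 := congrArg e h9
        rw [map_mul, map_mul, hs₀, hs₁, e.apply_symm_apply, e.apply_symm_apply,
          DihedralGroup.sr_mul_sr, DihedralGroup.sr_mul_sr] at h10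
        revert h10
        decide
      · have h24 := Nat.card_congr e'.toEquiv
        rw [card_perm4_h9] at h24
        rw [h24, hG60] at hMG
        omega
      · have h60 := Nat.card_congr e'.toEquiv
        rw [card_A5_h9] at h60
        apply hMne
        rw [h60, hG60]
    · rw [hF] at hqq
      have h5 : 4 * q₁ ≤ q₁ ^ 2 := by rw [sq]; exact Nat.mul_le_mul_right _ h4q
      omega

end Cfsg.Agent.S0811
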