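import Cfsg.Statements.S0812
import Cfsg.Agent.Helper9.Dk18

set_option autoImplicit false
open Cfsg

namespace Cfsg.Agent.S0812

open Cfsg.Agent.Helper9

theorem result {F : Type*} [Field F] [Fintype F] {q : ℕ} (hF : Fintype.card F = q) (hq : q ∉ ({2, 3, 5, 7, 9, 11} : Finset ℕ)) : ∃ H : Subgroup (Matrix.ProjectiveSpecialLinearGroup (Fin 2) F), IsCoatom H ∧ Nonempty (H ≃* DihedralGroup ((q - 1) / Nat.gcd 2 (q - 1))) := by
  obtain ⟨p, hcp⟩ := CharP.exists F
  have : Fact p.Prime := ⟨CharP.char_is_prime F p⟩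
  have h1 : 1 < Fintype.card F := Fintype.one_lt_card
  simp only [Finset.mem_insert, Finset.mem_singleton, not_or] at hq
  obtain ⟨hq2, hq3, hq5, hq7, hq9, hq11⟩ := hq
  rw [hF] at h1
  have h4 : 4 ≤ Fintype.card F := by omega
  rcases Nat.mod_two_eq_zero_or_one q with heven | hodd
  · have hg : Nat.gcd 2 (q - 1) = 1 :=
      (Nat.Prime.coprime_iff_not_dvd Nat.prime_two).mpr (by omega)
    rw [hg, Nat.div_one]
    obtain ⟨H, hcard, ⟨e⟩⟩ := psl2_dihedral_even_h9 (F := F) (by rw [hF]; exact heven) (q - 1)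
      (by omega) (Or.inl (by rw [hF]))
    obtain ⟨r, hr, hG⟩ := psl2_card_even_h9 (F := F) (by rw [hF]; exact heven)
    rw [hF] at hr
    refine ⟨H, ⟨?_, ?_⟩, ⟨e⟩⟩
    · intro htop
      rw [htop, Subgroup.card_top, hG] at hcard
      have hr3 : 3 ≤ r := by omega
      have h5 : 3 * (r + 1) ≤ r * (r + 1) := Nat.mul_le_mul_right _ hr3
      have h6 : r * (r + 1) * 2 ≤ r * (r + 1) * (r + 2) := Nat.mul_le_mul_left _ (by omega)
      have h7 : q - 1 = r := by omega
      rw [h7] at hcard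
      omega
    · intro M hlt
      by_contra hM
      have hcop : Nat.Coprime (q - 1) p := ff_coprime_h9 (p := p) (F := F) (q - 1) (Or.inl (by rw [hF]))
      rcases dihedral_over_h9 (p := p) h4 (q - 1) (by omega) hcop H e M hlt hM with
        ⟨m, hkm, hklt, hpar⟩ | ⟨hk5, hodd', -⟩ | ⟨q₁, h4q, hqq, hkq⟩
      · rw [hF] at hpar
        rcases hpar with ⟨hodd', -⟩ | ⟨-, hm | hm⟩
        · omega
        · have := Nat.le_of_dvd (by omega) hm
          omega
        · have h5 : (q - 1) ∣ q + 1 := hkm.trans hm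
          have h6 : (q - 1) ∣ (q + 1) - (q - 1) := Nat.dvd_sub h5 dvd_rfl
          have h7 : (q + 1) - (q - 1) = 2 := by omega
          rw [h7] at h6
          have := Nat.le_of_dvd (by norm_num) h6
          omega
      · rw [hF] at hodd'
        omega
      · rw [hF] at hqq
        have h5 : 4 * q₁ ≤ q₁ ^ 2 := by rw [sq]; exact Nat.mul_le_mul_right _ h4q
        omega
  · have hg : Nat.gcd 2 (q - 1) = 2 := Nat.gcd_eq_left (by omega)
    rw [hg]
    obtain ⟨k, hk⟩ : ∃ k, q - 1 = 2 * k := ⟨(q - 1) / 2, by omega⟩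
    have hk' : (q - 1) / 2 = k := by omega
    rw [hk']
    have hk6 : 6 ≤ k := by omega
    obtain ⟨H, hcard, ⟨e⟩⟩ := psl2_dihedral_torus_h9 (F := F) (by rw [hF]; exact hodd) k (by omega)
      (Or.inl (by rw [hF, hk]))
    obtain ⟨r, hr, hG⟩ := psl2_card_odd_h9 (F := F) (by rw [hF]; exact hodd)
    rw [hF] at hr
    refine ⟨H, ⟨?_, ?_⟩, ⟨e⟩⟩
    · intro htop
      rw [htop, Subgroup.card_top] at hcard
      rw [hcard] at hG
      have hr12 : 12 ≤ r := by omega
      have h5 : 12 * (r + 1) ≤ r * (r + 1) := Nat.mul_le_mul_right _ hr12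
      have h6 : r * (r + 1) * 2 ≤ r * (r + 1) * (r + 2) := Nat.mul_le_mul_left _ (by omega)
      omega
    · intro M hlt
      by_contra hM
      have hcop : Nat.Coprime k p := ff_coprime_h9 (p := p) (F := F) k
        (Or.inl (by rw [hF, hk]; exact dvd_mul_left k 2))
      rcases dihedral_over_h9 (p := p) h4 k (by omega) hcop H e M hlt hM with
        ⟨m, hkm, hklt, hpar⟩ | ⟨hk5, -, -⟩ | ⟨q₁, h4q, hqq, hkq⟩
      · rw [hF] at hpar
        rcases hpar with ⟨-, hm | hm⟩ | ⟨heven', -⟩
        · have := Nat.le_of_dvd (by omega) hm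
          omega
        · obtain ⟨j, rfl⟩ := hkm
          have hj2 : 2 ≤ j := by
            by_contra hj
            have : j ≤ 1 := by omega
            have : k * j ≤ k * 1 := Nat.mul_le_mul_left k this
            omega
          have h5 := Nat.le_of_dvd (by omega) hm
          have h6 : k * 2 ≤ k * j := Nat.mul_le_mul_left k hj2
          omega
        · omega
      · omega
      · rw [hF] at hqq
        have h5 : 4 * q₁ ≤ q₁ ^ 2 := by rw [sq]; exact Nat.mul_le_mul_right _ h4q
        omega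

end Cfsg.Agent.S0812
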