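import Mathlib
import Cfsg.Statements.S0819

set_option autoImplicit false
open Cfsg

namespace Cfsg.Agent.S0819

section aux

variable {F : Type*} [Field F]

/-- second coefficient of the characteristic polynomial of a `3 × 3` matrix -/
def e2 (M : Matrix (Fin 3) (Fin 3) F) : F :=
  M 0 0 * M 1 1 - M 0 1 * M 1 0 + (M 0 0 * M 2 2 - M 0 2 * M 2 0) + (M 1 1 * M 2 2 - M 1 2 * M 2 1)

/-- Cayley-Hamilton for `3 × 3` matrices -/
theorem ch3 (M : Matrix (Fin 3) (Fin 3) F) :
    M ^ 3 = M.trace • M ^ 2 - e2 M • M + M.det • (1 : Matrix (Fin 3) (Fin 3) F) := by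
  ext i j
  fin_cases i <;> fin_cases j <;>
    simp [pow_succ, Matrix.mul_apply, Fin.sum_univ_three, Matrix.det_fin_three, Matrix.trace, e2,
      Matrix.one_apply] <;> ring

theorem step (M : Matrix (Fin 3) (Fin 3) F) (a b : F)
    (hM : M ^ 3 = a • M ^ 2 + b • M + 1) (α β γ : F) (n : ℕ)
    (h : M ^ n = α • M ^ 2 + β • M + γ • (1 : Matrix (Fin 3) (Fin 3) F)) :
    M ^ (n + 1) = (α * a + β) • M ^ 2 + (α * b + γ) • M + α • (1 : Matrix (Fin 3) (Fin 3) F) := by
  rw [pow_succ, h, add_mul, add_mul, smul_mul_assoc, smul_mul_assoc, smul_mul_assoc, one_mul,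
    ← pow_succ, hM, ← pow_two]
  module

theorem fin_scalar (M : Matrix (Fin 3) (Fin 3) F) (α β γ : F) (k : ℕ)
    (h : M ^ k = α • M ^ 2 + β • M + γ • (1 : Matrix (Fin 3) (Fin 3) F)) (hα : α = 0)
    (hβ : β = 0) : M ^ k = Matrix.scalar (Fin 3) γ := by
  rw [h, hα, hβ, zero_smul, zero_smul, zero_add, zero_add, Matrix.smul_one_eq_diagonal,
    Matrix.scalar_apply]

theorem pow_scalar (h2 : (2 : F) = 0) (ω : F) (hω : ω ^ 2 = ω + 1)
    (hall : ∀ x : F, x = 0 ∨ x = 1 ∨ x = ω ∨ x = ω + 1) (M : Matrix (Fin 3) (Fin 3) F) (a b : F)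
    (hM : M ^ 3 = a • M ^ 2 + b • M + 1) :
    ∃ k : ℕ, (k = 3 ∨ k = 4 ∨ k = 5 ∨ k = 7) ∧
      ∃ c : F, c ^ 3 = 1 ∧ M ^ k = Matrix.scalar (Fin 3) c := by
  have h3 : M ^ 3 = a • M ^ 2 + b • M + (1 : F) • (1 : Matrix (Fin 3) (Fin 3) F) := by
    rw [hM, one_smul]
  have h4 := step M a b hM _ _ _ 3 h3
  have h5 := step M a b hM _ _ _ 4 h4
  have h6 := step M a b hM _ _ _ 5 h5
  have h7 := step M a b hM _ _ _ 6 h6
  have hall' : ∀ x : F, 0 = x ∨ 1 = x ∨ ω = x ∨ ω + 1 = x := fun x =>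
    (hall x).imp Eq.symm (Or.imp Eq.symm (Or.imp Eq.symm Eq.symm))
  rcases hall' a with rfl | rfl | rfl | rfl <;> rcases hall' b with rfl | rfl | rfl | rfl
  · -- a = 0, b = 0
    exact ⟨3, by simp, _, by linear_combination (0) * hω + (0) * h2,
      fin_scalar M _ _ _ 3 h3 (by linear_combination (0) * hω + (0) * h2)
        (by linear_combination (0) * hω + (0) * h2)⟩
  · -- a = 0, b = 1
    exact ⟨7, by simp, _, by linear_combination (0) * hω + (0) * h2,
      fin_scalar M _ _ _ 7 h7 (by linear_combination (0) * hω + ((1)) * h2)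
        (by linear_combination (0) * hω + ((1)) * h2)⟩
  · -- a = 0, b = ω
    exact ⟨7, by simp, _, by linear_combination ((5) + (3) * ω + (2) * ω ^ 2 + (1) * ω ^ 3 + (1) * ω ^ 4) * hω + ((2) + (4) * ω) * h2,
      fin_scalar M _ _ _ 7 h7 (by linear_combination (0) * hω + ((1) * ω) * h2)
        (by linear_combination ((1) + (1) * ω) * hω + ((1) + (1) * ω) * h2)⟩
  · -- a = 0, b = ω + 1
    exact ⟨7, by simp, _, by linear_combination ((88) + (50) * ω + (23) * ω ^ 2 + (7) * ω ^ 3 + (1) * ω ^ 4) * hω + ((44) + (72) * ω) * h2,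
      fin_scalar M _ _ _ 7 h7 (by linear_combination (0) * hω + ((1) + (1) * ω) * h2)
        (by linear_combination ((4) + (1) * ω) * hω + ((3) + (4) * ω) * h2)⟩
  · -- a = 1, b = 0
    exact ⟨7, by simp, _, by linear_combination (0) * hω + ((13)) * h2,
      fin_scalar M _ _ _ 7 h7 (by linear_combination (0) * hω + ((2)) * h2)
        (by linear_combination (0) * hω + ((1)) * h2)⟩
  · -- a = 1, b = 1
    exact ⟨4, by simp, _, by linear_combination (0) * hω + (0) * h2,
      fin_scalar M _ _ _ 4 h4 (by linear_combination (0) * hω + ((1)) * h2)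
        (by linear_combination (0) * hω + ((1)) * h2)⟩
  · -- a = 1, b = ω
    exact ⟨5, by simp, _, by linear_combination ((4) + (1) * ω) * hω + ((2) + (4) * ω) * h2,
      fin_scalar M _ _ _ 5 h5 (by linear_combination (0) * hω + ((1) + (1) * ω) * h2)
        (by linear_combination ((1)) * hω + ((1) + (1) * ω) * h2)⟩
  · -- a = 1, b = ω + 1
    exact ⟨5, by simp, _, by linear_combination ((7) + (1) * ω) * hω + ((7) + (10) * ω) * h2,
      fin_scalar M _ _ _ 5 h5 (by linear_combination (0) * hω + ((2) + (1) * ω) * h2)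
        (by linear_combination ((1)) * hω + ((2) + (2) * ω) * h2)⟩
  · -- a = ω, b = 0
    exact ⟨7, by simp, _, by linear_combination ((283) + (177) * ω + (106) * ω ^ 2 + (63) * ω ^ 3 + (43) * ω ^ 4 + (20) * ω ^ 5 + (11) * ω ^ 6 + (9) * ω ^ 7 + (2) * ω ^ 8 + (1) * ω ^ 9 + (1) * ω ^ 10) * hω + ((141) + (230) * ω) * h2,
      fin_scalar M _ _ _ 7 h7 (by linear_combination ((6) + (2) * ω + (1) * ω ^ 2 + (1) * ω ^ 3) * hω + ((3) + (4) * ω) * h2)
        (by linear_combination ((1) + (1) * ω) * hω + ((1) + (1) * ω) * h2)⟩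
  · -- a = ω, b = 1
    exact ⟨5, by simp, _, by linear_combination ((14) + (6) * ω + (5) * ω ^ 2 + (1) * ω ^ 3 + (1) * ω ^ 4) * hω + ((7) + (10) * ω) * h2,
      fin_scalar M _ _ _ 5 h5 (by linear_combination ((1) + (1) * ω) * hω + ((1) + (2) * ω) * h2)
        (by linear_combination ((1)) * hω + ((1) + (1) * ω) * h2)⟩
  · -- a = ω, b = ω
    exact ⟨5, by simp, _, by linear_combination ((21) + (13) * ω + (8) * ω ^ 2 + (4) * ω ^ 3 + (1) * ω ^ 4) * hω + ((10) + (17) * ω) * h2,
      fin_scalar M _ _ _ 5 h5 (by linear_combination ((3) + (1) * ω) * hω + ((2) + (2) * ω) * h2)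
        (by linear_combination ((2) + (1) * ω) * hω + ((1) + (2) * ω) * h2)⟩
  · -- a = ω, b = ω + 1
    exact ⟨4, by simp, _, by linear_combination ((1) + (1) * ω) * hω + ((1) * ω) * h2,
      fin_scalar M _ _ _ 4 h4 (by linear_combination ((1)) * hω + ((1) + (1) * ω) * h2)
        (by linear_combination ((1)) * hω + ((1) + (1) * ω) * h2)⟩
  · -- a = ω + 1, b = 0
    exact ⟨7, by simp, _, by linear_combination ((39320) + (24182) * ω + (14652) * ω ^ 2 + (8558) * ω ^ 3 + (4663) * ω ^ 4 + (2275) * ω ^ 5 + (948) * ω ^ 6 + (319) * ω ^ 7 + (80) * ω ^ 8 + (13) * ω ^ 9 + (1) * ω ^ 10) * hω + ((19673) + (31832) * ω) * h2,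
      fin_scalar M _ _ _ 7 h7 (by linear_combination ((36) + (17) * ω + (6) * ω ^ 2 + (1) * ω ^ 3) * hω + ((20) + (32) * ω) * h2)
        (by linear_combination ((4) + (1) * ω) * hω + ((3) + (4) * ω) * h2)⟩
  · -- a = ω + 1, b = 1
    exact ⟨5, by simp, _, by linear_combination ((127) + (65) * ω + (26) * ω ^ 2 + (7) * ω ^ 3 + (1) * ω ^ 4) * hω + ((67) + (108) * ω) * h2,
      fin_scalar M _ _ _ 5 h5 (by linear_combination ((4) + (1) * ω) * hω + ((4) + (5) * ω) * h2)
        (by linear_combination ((1)) * hω + ((2) + (2) * ω) * h2)⟩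
  · -- a = ω + 1, b = ω
    exact ⟨4, by simp, _, by linear_combination ((4) + (1) * ω) * hω + ((2) + (4) * ω) * h2,
      fin_scalar M _ _ _ 4 h4 (by linear_combination ((1)) * hω + ((1) + (2) * ω) * h2)
        (by linear_combination ((1)) * hω + ((1) + (1) * ω) * h2)⟩
  · -- a = ω + 1, b = ω + 1
    exact ⟨5, by simp, _, by linear_combination ((227) + (117) * ω + (44) * ω ^ 2 + (10) * ω ^ 3 + (1) * ω ^ 4) * hω + ((117) + (190) * ω) * h2,
      fin_scalar M _ _ _ 5 h5 (by linear_combination ((6) + (1) * ω) * hω + ((5) + (7) * ω) * h2)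
        (by linear_combination ((5) + (1) * ω) * hω + ((4) + (6) * ω) * h2)⟩

end aux

/-- No element of PSL_3(4) has order 15. -/
theorem result {F : Type*} [Field F] [Fintype F] (hF : Fintype.card F = 4) (g : Matrix.ProjectiveSpecialLinearGroup (Fin 3) F) : orderOf g ≠ 15 := by
  classical
  intro h15
  have h2 : (2 : F) = 0 := by
    have h4 : ((Fintype.card F : ℕ) : F) = 0 := Nat.cast_card_eq_zero F
    rw [hF] at h4
    have h5 : (2 : F) * 2 = 0 := by
      have h : ((4 : ℕ) : F) = 2 * 2 := by norm_num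
      rw [← h]
      exact h4
    exact mul_self_eq_zero.1 h5
  obtain ⟨ω, hω0, hω1⟩ : ∃ ω : F, ω ≠ 0 ∧ ω ≠ 1 := by
    by_contra hcon
    push Not at hcon
    have hsub : (Finset.univ : Finset F) ⊆ {0, 1} := by
      intro x _
      by_cases hx : x = 0
      · simp [hx]
      · simp [hcon x hx]
    have h := Finset.card_le_card hsub
    rw [Finset.card_univ, hF] at h
    have h' : ({0, 1} : Finset F).card ≤ 2 := Finset.card_le_two
    omega
  have hω3 : ω ^ 3 = 1 := by
    have h := FiniteField.pow_card_sub_one_eq_one ω hω0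
    rwa [hF] at h
  have hω : ω ^ 2 = ω + 1 := by
    have h : (ω - 1) * (ω ^ 2 + ω + 1) = 0 := by linear_combination hω3
    rcases mul_eq_zero.1 h with h | h
    · exact absurd (sub_eq_zero.1 h) hω1
    · linear_combination h - (ω + 1) * h2
  have hall : ∀ x : F, x = 0 ∨ x = 1 ∨ x = ω ∨ x = ω + 1 := by
    have hcard : ({0, 1, ω, ω + 1} : Finset F).card = 4 := by
      rw [Finset.card_insert_of_notMem, Finset.card_insert_of_notMem,
        Finset.card_insert_of_notMem, Finset.card_singleton]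
      · simp
      · simp only [Finset.mem_insert, Finset.mem_singleton, not_or]
        exact ⟨fun h => hω1 h.symm, fun h => hω0 (by linear_combination -h)⟩
      · simp only [Finset.mem_insert, Finset.mem_singleton, not_or]
        refine ⟨zero_ne_one, fun h => hω0 h.symm, fun h => hω1 ?_⟩
        linear_combination -h - h2
    have huniv := Finset.eq_univ_of_card _ (by rw [hcard, hF])
    intro x
    have hx : x ∈ ({0, 1, ω, ω + 1} : Finset F) := by
      rw [huniv]
      exact Finset.mem_univ x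
    simpa using hx
  obtain ⟨g0, rfl⟩ := QuotientGroup.mk_surjective g
  have hCH := ch3 g0.1
  have hdet : g0.1.det = 1 := g0.2
  rw [hdet, one_smul] at hCH
  have hM : g0.1 ^ 3 = (g0.1.trace) • g0.1 ^ 2 + (-(e2 g0.1)) • g0.1 + 1 := by
    rw [hCH, neg_smul, sub_eq_add_neg]
  obtain ⟨k, hk, c, hc3, hkc⟩ := pow_scalar h2 ω hω hall g0.1 _ _ hM
  have hz : g0 ^ k ∈ Subgroup.center (Matrix.SpecialLinearGroup (Fin 3) F) := by
    rw [Matrix.SpecialLinearGroup.mem_center_iff]
    refine ⟨c, by simpa using hc3, ?_⟩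
    rw [Matrix.SpecialLinearGroup.coe_pow]
    exact hkc.symm
  have hxk : (QuotientGroup.mk g0 : Matrix.ProjectiveSpecialLinearGroup (Fin 3) F) ^ k = 1 := by
    rw [← QuotientGroup.mk_pow, QuotientGroup.eq_one_iff]
    exact hz
  have hdvd := orderOf_dvd_of_pow_eq_one hxk
  rw [h15] at hdvd
  rcases hk with rfl | rfl | rfl | rfl <;> omega

end Cfsg.Agent.S0819
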