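import Mathlib
import Cfsg.Statements.S0820

set_option autoImplicit false
open Cfsg

namespace Cfsg.Agent.S0820

section aux

variable {F : Type*} [Field F]

/-- the standard transvection -/
def t0 : Matrix (Fin 3) (Fin 3) F := !![1, 1, 0; 0, 1, 0; 0, 0, 1]

theorem t0_mulVec (x : Fin 3 → F) : (t0 : Matrix (Fin 3) (Fin 3) F).mulVec x = ![x 0 + x 1, x 1, x 2] := by
  ext i
  fin_cases i <;> simp [t0, Matrix.mulVec, dotProduct, Fin.sum_univ_three]

theorem t0_det : (t0 : Matrix (Fin 3) (Fin 3) F).det = 1 := by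
  simp [t0, Matrix.det_fin_three]

/-- an involution of `GL_3` in characteristic two is conjugate to the standard transvection by a
matrix of determinant one -/
theorem invol_std (h2 : (2 : F) = 0) (g : Matrix (Fin 3) (Fin 3) F) (hg : g * g = 1) (hg1 : g ≠ 1) :
    ∃ P : Matrix (Fin 3) (Fin 3) F, P.det = 1 ∧ g * P = P * t0 := by
  classical
  have hMM : ∀ M : Matrix (Fin 3) (Fin 3) F, M + M = 0 := fun M => by
    rw [← two_smul F M, h2, zero_smul]
  have hNN : (g - 1) * (g - 1) = 0 := by
    have h : (g - 1) * (g - 1) = (1 + 1) - (g + g) := by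
      rw [sub_mul, mul_sub, mul_one, one_mul, hg]
      abel
    rw [h, hMM, hMM, sub_zero]
  have hN0 : g - 1 ≠ 0 := fun h => hg1 (sub_eq_zero.1 h)
  have hNv : ∀ z : Fin 3 → F, (g - 1).mulVec ((g - 1).mulVec z) = 0 := by
    intro z
    rw [Matrix.mulVec_mulVec, hNN, Matrix.zero_mulVec]
  obtain ⟨v, hv⟩ : ∃ v : Fin 3 → F, (g - 1).mulVec v ≠ 0 := by
    by_contra hcon
    push Not at hcon
    apply hN0
    apply Matrix.mulVec_injective
    funext z
    rw [hcon z, Matrix.zero_mulVec]
  set u : Fin 3 → F := (g - 1).mulVec v with hu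
  have hNu : (g - 1).mulVec u = 0 := hNv v
  let f : (Fin 3 → F) →ₗ[F] (Fin 3 → F) := Matrix.mulVecLin (g - 1)
  have hfa : ∀ z, f z = (g - 1).mulVec z := fun z => rfl
  have hrk : LinearMap.range f ≤ LinearMap.ker f := by
    rintro _ ⟨z, rfl⟩
    rw [LinearMap.mem_ker, hfa, hfa]
    exact hNv z
  have hdim := LinearMap.finrank_range_add_finrank_ker f
  have h3 : Module.finrank F (Fin 3 → F) = 3 := by simp
  have hle := Submodule.finrank_mono hrk
  obtain ⟨w, hwk, hws⟩ : ∃ w ∈ LinearMap.ker f, w ∉ Submodule.span F {u} := by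
    by_contra hcon
    push Not at hcon
    have h4 : LinearMap.ker f ≤ Submodule.span F {u} := fun z hz => hcon z hz
    have h5 := Submodule.finrank_mono h4
    rw [finrank_span_singleton hv] at h5
    omega
  have hNw : (g - 1).mulVec w = 0 := hwk
  have hgu : g.mulVec u = u := by
    have h := hNu
    rw [Matrix.sub_mulVec, Matrix.one_mulVec, sub_eq_zero] at h
    exact h
  have hgw : g.mulVec w = w := by
    have h := hNw
    rw [Matrix.sub_mulVec, Matrix.one_mulVec, sub_eq_zero] at h
    exact h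
  have hgv : g.mulVec v = v + u := by
    rw [hu, Matrix.sub_mulVec, Matrix.one_mulVec]
    abel
  let P : Matrix (Fin 3) (Fin 3) F := Matrix.of fun i j => ![u, v, w] j i
  have hP : ∀ x : Fin 3 → F, P.mulVec x = x 0 • u + x 1 • v + x 2 • w := by
    intro x
    ext i
    simp [P, Matrix.mulVec, dotProduct, Fin.sum_univ_three]
    ring
  have hPinj : Function.Injective P.mulVec := by
    have hlin : ∀ a b : Fin 3 → F, P.mulVec (a - b) = P.mulVec a - P.mulVec b :=
      fun a b => Matrix.mulVec_sub _ _ _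
    intro a b hab
    have h0 : P.mulVec (a - b) = 0 := by rw [hlin, hab, sub_self]
    set x := a - b with hx
    rw [hP] at h0
    have h6 := congrArg (g - 1).mulVec h0
    rw [Matrix.mulVec_add, Matrix.mulVec_add, Matrix.mulVec_smul, Matrix.mulVec_smul,
      Matrix.mulVec_smul, hNu, hNw, Matrix.mulVec_zero, smul_zero, smul_zero, zero_add, add_zero,
      ← hu] at h6
    have hx1 : x 1 = 0 := by
      rcases smul_eq_zero.1 h6 with h | h
      · exact h
      · exact absurd h hv
    rw [hx1, zero_smul, add_zero] at h0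
    have hx2 : x 2 = 0 := by
      by_contra hne
      apply hws
      rw [Submodule.mem_span_singleton]
      refine ⟨-(x 2)⁻¹ * x 0, ?_⟩
      have h7 : x 2 • w = -(x 0 • u) := eq_neg_of_add_eq_zero_right h0
      have h8 : w = (x 2)⁻¹ • (x 2 • w) := by
        rw [smul_smul, inv_mul_cancel₀ hne, one_smul]
      rw [h8, h7, smul_neg, smul_smul, neg_mul, neg_smul]
    rw [hx2, zero_smul, add_zero] at h0
    have hx0 : x 0 = 0 := by
      rcases smul_eq_zero.1 h0 with h | h
      · exact h
      · exact absurd h hv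
    have hx' : x = 0 := by
      ext i
      fin_cases i
      · exact hx0
      · exact hx1
      · exact hx2
    exact sub_eq_zero.1 hx'
  have hPu : IsUnit P := Matrix.mulVec_injective_iff_isUnit.1 hPinj
  have hd : P.det ≠ 0 := by
    have h := (Matrix.isUnit_iff_isUnit_det P).1 hPu
    exact h.ne_zero
  have hgP : g * P = P * t0 := by
    apply Matrix.mulVec_injective
    funext x
    rw [← Matrix.mulVec_mulVec, ← Matrix.mulVec_mulVec, hP, t0_mulVec, hP, Matrix.mulVec_add,
      Matrix.mulVec_add, Matrix.mulVec_smul, Matrix.mulVec_smul, Matrix.mulVec_smul, hgu, hgv, hgw]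
    simp only [Matrix.cons_val_zero, Matrix.cons_val_one, Matrix.cons_val_two, Matrix.head_cons,
      Matrix.tail_cons]
    rw [add_smul, smul_add]
    abel
  have hcomm : (t0 : Matrix (Fin 3) (Fin 3) F) * Matrix.diagonal ![1, 1, (P.det)⁻¹]
      = Matrix.diagonal ![1, 1, (P.det)⁻¹] * t0 := by
    ext i j
    fin_cases i <;> fin_cases j <;>
      simp [t0, Matrix.mul_apply, Fin.sum_univ_three, Matrix.diagonal_apply]
  refine ⟨P * Matrix.diagonal ![1, 1, (P.det)⁻¹], ?_, ?_⟩
  · rw [Matrix.det_mul, Matrix.det_diagonal, Fin.prod_univ_three]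
    simp [hd]
  · rw [← Matrix.mul_assoc, hgP, Matrix.mul_assoc, hcomm, Matrix.mul_assoc]

end aux

/-- Any two elements of order 2 of PSL_3(4) are conjugate. -/
theorem result {F : Type*} [Field F] [Fintype F] (hF : Fintype.card F = 4) (x y : Matrix.ProjectiveSpecialLinearGroup (Fin 3) F) (hx : orderOf x = 2) (hy : orderOf y = 2) : IsConj x y := by
  classical
  have h2 : (2 : F) = 0 := by
    have h4 : ((Fintype.card F : ℕ) : F) = 0 := Nat.cast_card_eq_zero F
    rw [hF] at h4
    have h5 : (2 : F) * 2 = 0 := by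
      have h : ((4 : ℕ) : F) = 2 * 2 := by norm_num
      rw [← h]
      exact h4
    exact mul_self_eq_zero.1 h5
  let T0 : Matrix.SpecialLinearGroup (Fin 3) F := ⟨t0, t0_det⟩
  have key : ∀ x : Matrix.ProjectiveSpecialLinearGroup (Fin 3) F, orderOf x = 2 →
      ∃ P : Matrix.SpecialLinearGroup (Fin 3) F,
        x = QuotientGroup.mk (P * T0 * P⁻¹) := by
    intro x hx
    obtain ⟨g0, rfl⟩ := QuotientGroup.mk_surjective x
    have hx2 : (QuotientGroup.mk g0 : Matrix.ProjectiveSpecialLinearGroup (Fin 3) F) ^ 2 = 1 := by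
      rw [← hx]
      exact pow_orderOf_eq_one _
    have hx1 : (QuotientGroup.mk g0 : Matrix.ProjectiveSpecialLinearGroup (Fin 3) F) ≠ 1 := by
      intro h
      rw [h, orderOf_one] at hx
      omega
    have hz : g0 ^ 2 ∈ Subgroup.center (Matrix.SpecialLinearGroup (Fin 3) F) := by
      rw [← QuotientGroup.eq_one_iff, QuotientGroup.mk_pow]
      exact hx2
    obtain ⟨r, hr, hrz⟩ := Matrix.SpecialLinearGroup.mem_center_iff.1 hz
    have hr3 : r ^ 3 = 1 := by simpa using hr
    have h6 : (g0 ^ 2) ^ 3 = 1 := by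
      apply Subtype.ext
      rw [Matrix.SpecialLinearGroup.coe_pow, ← hrz, ← map_pow, hr3, map_one]
      rfl
    have hgg : g0 ^ 3 * g0 ^ 3 = 1 := by
      rw [← pow_add, ← h6, ← pow_mul]
    have hmk : (QuotientGroup.mk (g0 ^ 3) : Matrix.ProjectiveSpecialLinearGroup (Fin 3) F)
        = QuotientGroup.mk g0 := by
      rw [QuotientGroup.mk_pow, pow_succ, hx2, one_mul]
    have hg1 : g0 ^ 3 ≠ 1 := by
      intro h
      rw [h] at hmk
      exact hx1 hmk.symm
    obtain ⟨P, hPd, hPg⟩ := invol_std h2 (g0 ^ 3).1 (congrArg Subtype.val hgg)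
      (fun h => hg1 (Subtype.ext h))
    let Ps : Matrix.SpecialLinearGroup (Fin 3) F := ⟨P, hPd⟩
    have h7 : g0 ^ 3 * Ps = Ps * T0 := Subtype.ext hPg
    refine ⟨Ps, ?_⟩
    rw [← hmk]
    congr 1
    exact eq_mul_inv_of_mul_eq h7
  obtain ⟨P, rfl⟩ := key x hx
  obtain ⟨Q, rfl⟩ := key y hy
  rw [isConj_iff]
  refine ⟨QuotientGroup.mk (Q * P⁻¹), ?_⟩
  rw [← QuotientGroup.mk_inv, ← QuotientGroup.mk_mul, ← QuotientGroup.mk_mul]
  congr 1
  group

end Cfsg.Agent.S0820
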