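import Cfsg.Statements.S0823
import Cfsg.Agent.Helper13.SO33
import Cfsg.Agent.S0286

set_option autoImplicit false
open Cfsg

namespace Cfsg.Agent.S0823

/-- SO_3(3) ≅ S_4: the determinant-one isometries of the form x_0² + x_1y_1 over the field with 3 elements form a group isomorphic to the symmetric group on 4 letters. -/
theorem result {F : Type*} [Field F] [Fintype F] (hF : Fintype.card F = 3) : Nonempty (↥(Cfsg.specialIsometryGroup F (Cfsg.quadFormOdd 1 F)) ≃* Equiv.Perm (Fin 4)) := by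
  classical
  have h3 : (3 : F) = 0 := by
    have h := Nat.cast_card_eq_zero F
    rw [hF] at h
    exact_mod_cast h
  have hsq : ∀ x : F, x ≠ 0 → x ^ 2 = 1 := by
    intro x hx
    have h := FiniteField.pow_card_sub_one_eq_one x hx
    rw [hF] at h
    exact h
  let f : Equiv.Perm (Fin 4) →*
      Matrix (Unit ⊕ (Fin 1 ⊕ Fin 1)) (Unit ⊕ (Fin 1 ⊕ Fin 1)) F :=
    { toFun := Helper13.SO33.M F
      map_one' := Helper13.SO33.M_one h3
      map_mul' := Helper13.SO33.M_mul h3 }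
  let g : Equiv.Perm (Fin 4) →* Matrix.GeneralLinearGroup (Unit ⊕ (Fin 1 ⊕ Fin 1)) F :=
    f.toHomUnits
  have hg : ∀ σ, ((g σ : Matrix.GeneralLinearGroup (Unit ⊕ (Fin 1 ⊕ Fin 1)) F) :
      Matrix (Unit ⊕ (Fin 1 ⊕ Fin 1)) (Unit ⊕ (Fin 1 ⊕ Fin 1)) F) = Helper13.SO33.M F σ :=
    fun σ => rfl
  have hgO : ∀ σ, g σ ∈ Cfsg.isometryGroup F (Cfsg.quadFormOdd 1 F) := by
    intro σ u v
    show Cfsg.quadFormOdd 1 F (Matrix.mulVec ((g σ : Matrix.GeneralLinearGroup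
      (Unit ⊕ (Fin 1 ⊕ Fin 1)) F) : Matrix (Unit ⊕ (Fin 1 ⊕ Fin 1)) (Unit ⊕ (Fin 1 ⊕ Fin 1)) F) u)
        = Cfsg.quadFormOdd 1 F u
    rw [hg]
    exact Helper13.SO33.Q_M h3 hsq σ u
  let g1 : Equiv.Perm (Fin 4) →* ↥(Cfsg.isometryGroup F (Cfsg.quadFormOdd 1 F)) :=
    g.codRestrict _ hgO
  have hg1SO : ∀ σ, g1 σ ∈ Cfsg.specialIsometryGroup F (Cfsg.quadFormOdd 1 F) := by
    intro σ
    show Matrix.GeneralLinearGroup.det (g σ) = 1
    apply Units.ext
    rw [Matrix.GeneralLinearGroup.val_det_apply, hg, Helper13.SO33.M_det h3 hsq]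
    rfl
  let g2 : Equiv.Perm (Fin 4) →* ↥(Cfsg.specialIsometryGroup F (Cfsg.quadFormOdd 1 F)) :=
    g1.codRestrict _ hg1SO
  have hinj : Function.Injective g2 := by
    rw [injective_iff_map_eq_one]
    intro σ hσ
    apply Helper13.SO33.M_inj h3
    have h1 : ((g2 σ : ↥(Cfsg.isometryGroup F (Cfsg.quadFormOdd 1 F))) :
        Matrix.GeneralLinearGroup (Unit ⊕ (Fin 1 ⊕ Fin 1)) F) = 1 := by
      rw [hσ]; rfl
    have h2 := congrArg (fun u : Matrix.GeneralLinearGroup (Unit ⊕ (Fin 1 ⊕ Fin 1)) F =>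
      (u : Matrix (Unit ⊕ (Fin 1 ⊕ Fin 1)) (Unit ⊕ (Fin 1 ⊕ Fin 1)) F)) h1
    exact h2
  have hO : Nat.card ↥(Cfsg.isometryGroup F (Cfsg.quadFormOdd 1 F)) = 48 := by
    have h := Cfsg.Agent.S0286.result hF (by decide : Odd 3) 1
    rw [h]
    norm_num [Finset.prod_range_one]
  have hne : Cfsg.specialIsometryGroup F (Cfsg.quadFormOdd 1 F) ≠ ⊤ := by
    intro htop
    have hm : (-1 : Matrix.GeneralLinearGroup (Unit ⊕ (Fin 1 ⊕ Fin 1)) F) ∈
        Cfsg.isometryGroup F (Cfsg.quadFormOdd 1 F) := by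
      intro u v
      show Cfsg.quadFormOdd 1 F (Matrix.mulVec ((-1 : Matrix.GeneralLinearGroup
        (Unit ⊕ (Fin 1 ⊕ Fin 1)) F) : Matrix (Unit ⊕ (Fin 1 ⊕ Fin 1)) (Unit ⊕ (Fin 1 ⊕ Fin 1)) F) u)
          = Cfsg.quadFormOdd 1 F u
      rw [Units.val_neg, Units.val_one, Matrix.neg_mulVec, Matrix.one_mulVec]
      simp [Cfsg.quadFormOdd]
    have h1 : (⟨-1, hm⟩ : ↥(Cfsg.isometryGroup F (Cfsg.quadFormOdd 1 F))) ∈
        Cfsg.specialIsometryGroup F (Cfsg.quadFormOdd 1 F) := by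
      rw [htop]; trivial
    have h2 : Matrix.GeneralLinearGroup.det
        (-1 : Matrix.GeneralLinearGroup (Unit ⊕ (Fin 1 ⊕ Fin 1)) F) = 1 := h1
    have h4 := congrArg (fun u : Fˣ => (u : F)) h2
    simp only [Matrix.GeneralLinearGroup.val_det_apply, Units.val_neg, Units.val_one,
      Matrix.det_neg, Matrix.det_one] at h4
    have hc : Fintype.card (Unit ⊕ (Fin 1 ⊕ Fin 1)) = 3 := by simp
    rw [hc] at h4
    have : (1 : F) = 0 := by linear_combination h4 + h3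
    exact one_ne_zero this
  have hidx : 2 ≤ (Cfsg.specialIsometryGroup F (Cfsg.quadFormOdd 1 F)).index := by
    have h0 : (Cfsg.specialIsometryGroup F (Cfsg.quadFormOdd 1 F)).index ≠ 0 :=
      Subgroup.index_ne_zero_of_finite
    have h1 : (Cfsg.specialIsometryGroup F (Cfsg.quadFormOdd 1 F)).index ≠ 1 :=
      fun h => hne (Subgroup.index_eq_one.1 h)
    omega
  have hmul := Subgroup.card_mul_index (Cfsg.specialIsometryGroup F (Cfsg.quadFormOdd 1 F))
  rw [hO] at hmul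
  have hle : Nat.card ↥(Cfsg.specialIsometryGroup F (Cfsg.quadFormOdd 1 F)) ≤ 24 := by
    by_contra hlt
    rw [not_le] at hlt
    have : 25 * 2 ≤ Nat.card ↥(Cfsg.specialIsometryGroup F (Cfsg.quadFormOdd 1 F)) *
        (Cfsg.specialIsometryGroup F (Cfsg.quadFormOdd 1 F)).index :=
      Nat.mul_le_mul hlt hidx
    omega
  have hS4 : Nat.card (Equiv.Perm (Fin 4)) = 24 := by
    rw [Nat.card_eq_fintype_card, Fintype.card_perm, Fintype.card_fin]
    rfl
  have hbij : Function.Bijective g2 :=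
    Function.Injective.bijective_of_nat_card_le hinj (by rw [hS4]; exact hle)
  exact ⟨(MulEquiv.ofBijective g2 hbij).symm⟩

end Cfsg.Agent.S0823
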