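import Mathlib
import Cfsg.Statements.S0824
import Cfsg.Agent.Helper6.PermSpan
import Cfsg.Agent.S0288
import Cfsg.Agent.S0290

set_option autoImplicit false
open Cfsg

namespace Cfsg.Agent.S0824

/-- O⁻_4(2) ≅ S_5: the isometry group of the form x y + z_1² + z_1 z_2 + z_2² over the field with 2 elements is isomorphic to the symmetric group on 5 letters. -/
theorem result {F : Type*} [Field F] [Fintype F] (hF : Fintype.card F = 2) : Nonempty (↥(Cfsg.isometryGroup F (Cfsg.quadFormMinus 1 F 1 1)) ≃* Equiv.Perm (Fin 5)) := by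
  classical
  have h01 : ∀ x : F, x = 0 ∨ x = 1 := by
    intro x
    by_contra hx
    push Not at hx
    have h3 : ({0, 1, x} : Finset F).card = 3 := by
      rw [Finset.card_insert_of_notMem, Finset.card_insert_of_notMem, Finset.card_singleton]
      · simpa using hx.2.symm
      · simp only [Finset.mem_insert, Finset.mem_singleton, not_or]
        exact ⟨zero_ne_one, hx.1.symm⟩
    have h4 := Finset.card_le_univ ({0, 1, x} : Finset F)
    omega
  have h2 : (2 : F) = 0 := by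
    rcases h01 2 with h | h
    · exact h
    · exfalso
      have : (1 : F) = 0 := by linear_combination h
      exact one_ne_zero this
  have h11 : (1 : F) + 1 = 0 := by rw [← h2]; norm_num
  have hab : ∀ z₁ z₂ : F, z₁ ^ 2 + 1 * z₁ * z₂ + 1 * z₂ ^ 2 = 0 → z₁ = 0 ∧ z₂ = 0 := by
    intro z1 z2 h
    rcases h01 z1 with rfl | rfl <;> rcases h01 z2 with rfl | rfl <;> simp_all
  have hG := Cfsg.Agent.S0288.result hF 2 (by norm_num) 1 1 hab
  have hG' : Nat.card (Cfsg.isometryGroup F (Cfsg.quadFormMinus 1 F 1 1)) = Nat.factorial 5 := by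
    rw [hG]
    decide
  have hZ := Cfsg.Agent.S0290.result hF 2 (by norm_num) 1 1 hab
  have hZ' : Nat.card {v : (Fin 1 ⊕ Fin 1) ⊕ Fin 2 → F // Cfsg.quadFormMinus 1 F 1 1 v = 0} = 6 := by
    rw [hZ]
    norm_num
  have hQ : ∀ v : (Fin 1 ⊕ Fin 1) ⊕ Fin 2 → F, Cfsg.quadFormMinus 1 F 1 1 v
      = v (.inl (.inl 0)) * v (.inl (.inr 0))
        + (v (.inr 0) ^ 2 + v (.inr 0) * v (.inr 1) + v (.inr 1) ^ 2) := by
    intro v
    simp [Cfsg.quadFormMinus]
  let S : Set ((Fin 1 ⊕ Fin 1) ⊕ Fin 2 → F) := {v | Cfsg.quadFormMinus 1 F 1 1 v = 0} \ {0}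
  have hScard : Nat.card S = 5 := by
    rw [Nat.card_coe_set_eq, Set.ncard_sdiff_singleton_of_mem, ← Nat.card_coe_set_eq]
    · show Nat.card {v : (Fin 1 ⊕ Fin 1) ⊕ Fin 2 → F // Cfsg.quadFormMinus 1 F 1 1 v = 0} - 1 = 5
      rw [hZ']
    · show Cfsg.quadFormMinus 1 F 1 1 0 = 0
      rw [hQ]
      simp
  apply Cfsg.Agent.Helper6.perm_of_span _ S _ _ 5 hScard hG'
  · intro g hg v hv
    refine ⟨?_, ?_⟩
    · show Cfsg.quadFormMinus 1 F 1 1 _ = 0
      have h5 := hg v v
      simp only [Units.coeHom_apply] at h5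
      rw [h5]
      exact hv.1
    · intro h0
      apply hv.2
      have h6 : (g : Matrix ((Fin 1 ⊕ Fin 1) ⊕ Fin 2) ((Fin 1 ⊕ Fin 1) ⊕ Fin 2) F).mulVec v
          = (g : Matrix ((Fin 1 ⊕ Fin 1) ⊕ Fin 2) ((Fin 1 ⊕ Fin 1) ⊕ Fin 2) F).mulVec 0 := by
        rw [Matrix.mulVec_zero]
        exact h0
      have h7 := (Matrix.mulVec_injective_iff_isUnit.2 g.isUnit) h6
      exact h7
  · rw [eq_top_iff]
    intro v _
    have hx : (Pi.single (.inl (.inl 0)) 1 : (Fin 1 ⊕ Fin 1) ⊕ Fin 2 → F) ∈ Submodule.span F S := by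
      apply Submodule.subset_span
      refine ⟨?_, ?_⟩
      · show Cfsg.quadFormMinus 1 F 1 1 _ = 0
        rw [hQ]
        simp
      · intro h
        have := congrFun h (.inl (.inl 0))
        simp at this
    have hy : (Pi.single (.inl (.inr 0)) 1 : (Fin 1 ⊕ Fin 1) ⊕ Fin 2 → F) ∈ Submodule.span F S := by
      apply Submodule.subset_span
      refine ⟨?_, ?_⟩
      · show Cfsg.quadFormMinus 1 F 1 1 _ = 0
        rw [hQ]
        simp
      · intro h
        have := congrFun h (.inl (.inr 0))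
        simp at this
    have hz1 : (Pi.single (.inl (.inl 0)) 1 + Pi.single (.inl (.inr 0)) 1 + Pi.single (.inr 0) 1
        : (Fin 1 ⊕ Fin 1) ⊕ Fin 2 → F) ∈ Submodule.span F S := by
      apply Submodule.subset_span
      refine ⟨?_, ?_⟩
      · show Cfsg.quadFormMinus 1 F 1 1 _ = 0
        rw [hQ]
        simp [h11]
      · intro h
        have := congrFun h (.inl (.inl 0))
        simp at this
    have hz2 : (Pi.single (.inl (.inl 0)) 1 + Pi.single (.inl (.inr 0)) 1 + Pi.single (.inr 1) 1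
        : (Fin 1 ⊕ Fin 1) ⊕ Fin 2 → F) ∈ Submodule.span F S := by
      apply Submodule.subset_span
      refine ⟨?_, ?_⟩
      · show Cfsg.quadFormMinus 1 F 1 1 _ = 0
        rw [hQ]
        simp [h11]
      · intro h
        have := congrFun h (.inl (.inl 0))
        simp at this
    have hv : v = v (.inl (.inl 0)) • (Pi.single (.inl (.inl 0)) 1 : (Fin 1 ⊕ Fin 1) ⊕ Fin 2 → F)
        + v (.inl (.inr 0)) • (Pi.single (.inl (.inr 0)) 1 : (Fin 1 ⊕ Fin 1) ⊕ Fin 2 → F)
        + v (.inr 0) • ((Pi.single (.inl (.inl 0)) 1 + Pi.single (.inl (.inr 0)) 1 + Pi.single (.inr 0) 1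
          : (Fin 1 ⊕ Fin 1) ⊕ Fin 2 → F) - Pi.single (.inl (.inl 0)) 1 - Pi.single (.inl (.inr 0)) 1)
        + v (.inr 1) • ((Pi.single (.inl (.inl 0)) 1 + Pi.single (.inl (.inr 0)) 1 + Pi.single (.inr 1) 1
          : (Fin 1 ⊕ Fin 1) ⊕ Fin 2 → F) - Pi.single (.inl (.inl 0)) 1 - Pi.single (.inl (.inr 0)) 1) := by
      ext i
      rcases i with (i | i) | i
      · fin_cases i; simp
      · fin_cases i; simp
      · fin_cases i <;> simp
    rw [hv]
    exact Submodule.add_mem _ (Submodule.add_mem _ (Submodule.add_mem _ (Submodule.smul_mem _ _ hx)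
      (Submodule.smul_mem _ _ hy)) (Submodule.smul_mem _ _
        (Submodule.sub_mem _ (Submodule.sub_mem _ hz1 hx) hy))) (Submodule.smul_mem _ _
        (Submodule.sub_mem _ (Submodule.sub_mem _ hz2 hx) hy))

end Cfsg.Agent.S0824
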