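import Cfsg.Statements.S0826
-- import your own Cfsg.Agent.* helpers here

set_option autoImplicit false
open Cfsg

namespace Cfsg.Agent.S0826

open Matrix

abbrev X (m : ℕ) := (Fin m ⊕ Fin m) ⊕ Fin 2
abbrev Y (m : ℕ) := Fin m ⊕ Fin m

def vA (m : ℕ) (i : Fin m) : X m → ZMod 2
  | Sum.inl (Sum.inl j) => if j = i then 1 else 0
  | Sum.inl (Sum.inr j) => if j = i then 1 else 0
  | Sum.inr _ => 0

def vB (m : ℕ) (i : Fin m) : X m → ZMod 2
  | Sum.inl (Sum.inl j) => if j < i then 1 else 0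
  | Sum.inl (Sum.inr j) => if j ≤ i then 1 else 0
  | Sum.inr k => if k = 0 then 1 else 0

def vOne (m : ℕ) : X m → ZMod 2 := fun _ => 1

theorem z2 (a : ZMod 2) : a + a = 0 := CharTwo.add_self_eq_zero a

theorem z2eq {a b : ZMod 2} (h : a + b = 0) : a = b := CharTwo.add_eq_zero.1 h

theorem dot_eq {m : ℕ} (u v : X m → ZMod 2) :
    u ⬝ᵥ v = ∑ j, u (Sum.inl (Sum.inl j)) * v (Sum.inl (Sum.inl j))
      + ∑ j, u (Sum.inl (Sum.inr j)) * v (Sum.inl (Sum.inr j))
      + u (Sum.inr 0) * v (Sum.inr 0) + u (Sum.inr 1) * v (Sum.inr 1) := by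
  simp only [dotProduct, Fintype.sum_sum_type, Fin.sum_univ_two]
  ring

theorem dotA {m : ℕ} (u : X m → ZMod 2) (i : Fin m) :
    u ⬝ᵥ vA m i = u (Sum.inl (Sum.inl i)) + u (Sum.inl (Sum.inr i)) := by
  rw [dot_eq]
  simp [vA]

theorem dotB {m : ℕ} (u : X m → ZMod 2) (i : Fin m) :
    u ⬝ᵥ vB m i = ∑ j, ((if j < i then u (Sum.inl (Sum.inl j)) else 0)
      + (if j ≤ i then u (Sum.inl (Sum.inr j)) else 0)) + u (Sum.inr 0) := by
  rw [dot_eq]
  simp [vB, Finset.sum_add_distrib]

theorem dotB_of {m : ℕ} (u : X m → ZMod 2)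
    (h : ∀ j, u (Sum.inl (Sum.inl j)) = u (Sum.inl (Sum.inr j))) (i : Fin m) :
    u ⬝ᵥ vB m i = u (Sum.inl (Sum.inr i)) + u (Sum.inr 0) := by
  rw [dotB]
  congr 1
  have : ∀ j : Fin m, ((if j < i then u (Sum.inl (Sum.inl j)) else 0)
      + (if j ≤ i then u (Sum.inl (Sum.inr j)) else 0))
      = if j = i then u (Sum.inl (Sum.inr j)) else 0 := by
    intro j
    rw [h j]
    rcases lt_trichotomy j i with hlt | heq | hgt
    · rw [if_pos hlt, if_pos hlt.le, if_neg hlt.ne, z2]
    · subst heq; simp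
    · rw [if_neg (not_lt.2 hgt.le), if_neg (not_le.2 hgt), if_neg hgt.ne', add_zero]
  rw [Finset.sum_congr rfl (fun j _ => this j), Finset.sum_ite_eq']
  simp

theorem gAA {m : ℕ} (i j : Fin m) : vA m i ⬝ᵥ vA m j = 0 := by
  rw [dotA]
  show (if j = i then (1 : ZMod 2) else 0) + (if j = i then 1 else 0) = 0
  exact z2 _

theorem gBA {m : ℕ} (i j : Fin m) : vB m i ⬝ᵥ vA m j = if j = i then 1 else 0 := by
  rw [dotA]
  show (if j < i then (1 : ZMod 2) else 0) + (if j ≤ i then 1 else 0) = _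
  rcases lt_trichotomy j i with hlt | heq | hgt
  · rw [if_pos hlt, if_pos hlt.le, if_neg hlt.ne, z2]
  · subst heq; simp
  · rw [if_neg (not_lt.2 hgt.le), if_neg (not_le.2 hgt), if_neg hgt.ne', add_zero]

theorem gAB {m : ℕ} (i j : Fin m) : vA m i ⬝ᵥ vB m j = if i = j then 1 else 0 := by
  rw [dotProduct_comm, gBA]

theorem gBB {m : ℕ} (i j : Fin m) : vB m i ⬝ᵥ vB m j = 0 := by
  rw [dotB]
  have : ∀ k : Fin m, ((if k < j then vB m i (Sum.inl (Sum.inl k)) else 0)
      + (if k ≤ j then vB m i (Sum.inl (Sum.inr k)) else 0))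
      = if k = min i j then 1 else 0 := by
    intro k
    show ((if k < j then (if k < i then (1 : ZMod 2) else 0) else 0)
      + (if k ≤ j then (if k ≤ i then (1 : ZMod 2) else 0) else 0)) = _
    simp only [Fin.lt_def, Fin.le_def, Fin.ext_iff, Fin.coe_min]
    split_ifs <;> first | rfl | (exfalso; omega) | decide
  rw [Finset.sum_congr rfl (fun k _ => this k), Finset.sum_ite_eq']
  simp only [Finset.mem_univ, if_true]
  show (1 : ZMod 2) + (if (0 : Fin 2) = 0 then 1 else 0) = 0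
  decide

theorem g1A {m : ℕ} (i : Fin m) : vOne m ⬝ᵥ vA m i = 0 := by
  rw [dotA]; exact z2 _

theorem g1B {m : ℕ} (i : Fin m) : vOne m ⬝ᵥ vB m i = 0 := by
  rw [dotB_of _ (fun _ => rfl)]; exact z2 _

theorem g11 {m : ℕ} : vOne m ⬝ᵥ vOne m = 0 := by
  rw [dot_eq]
  simp only [vOne, mul_one]
  rw [z2]
  decide

def extF {m : ℕ} (w : Y m → ZMod 2) : X m → ZMod 2 :=
  ∑ i, (w (Sum.inl i) • vA m i + w (Sum.inr i) • vB m i)

def resF {m : ℕ} (v : X m → ZMod 2) : Y m → ZMod 2 :=
  Sum.elim (fun i => v ⬝ᵥ vB m i) (fun i => v ⬝ᵥ vA m i)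

theorem dot_ext {m : ℕ} (v : X m → ZMod 2) (w : Y m → ZMod 2) :
    v ⬝ᵥ extF w = ∑ i, (w (Sum.inl i) * (v ⬝ᵥ vA m i) + w (Sum.inr i) * (v ⬝ᵥ vB m i)) := by
  simp [extF, dotProduct_sum, dotProduct_add, dotProduct_smul]

theorem res_ext {m : ℕ} (w : Y m → ZMod 2) : resF (extF w) = w := by
  funext y
  rcases y with i | i
  · show extF w ⬝ᵥ vB m i = _
    rw [dotProduct_comm, dot_ext]
    simp [gBA, gBB]
  · show extF w ⬝ᵥ vA m i = _
    rw [dotProduct_comm, dot_ext]
    simp [gAA, gAB]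

theorem ext_even {m : ℕ} (w : Y m → ZMod 2) : extF w ⬝ᵥ vOne m = 0 := by
  rw [dotProduct_comm, dot_ext]
  simp [g1A, g1B]

theorem res_one {m : ℕ} : resF (vOne m) = 0 := by
  funext y
  rcases y with i | i
  · exact g1B i
  · exact g1A i

theorem z2v {m : ℕ} {a b c : X m → ZMod 2} (h : a = b + c) : b = a + c := by
  funext x
  have := congrFun h x
  simp only [Pi.add_apply] at this ⊢
  rw [this, add_assoc, z2, add_zero]

theorem key {m : ℕ} (v : X m → ZMod 2) (hv : v ⬝ᵥ vOne m = 0) :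
    ∃ c : ZMod 2, extF (resF v) = v + c • vOne m := by
  set u : X m → ZMod 2 := extF (resF v) + v with hu
  have hA : ∀ i, u ⬝ᵥ vA m i = 0 := by
    intro i
    rw [hu, add_dotProduct]
    have : extF (resF v) ⬝ᵥ vA m i = v ⬝ᵥ vA m i := by
      have := congrFun (res_ext (resF v)) (Sum.inr i)
      exact this
    rw [this]; exact z2 _
  have hB : ∀ i, u ⬝ᵥ vB m i = 0 := by
    intro i
    rw [hu, add_dotProduct]
    have : extF (resF v) ⬝ᵥ vB m i = v ⬝ᵥ vB m i := by
      have := congrFun (res_ext (resF v)) (Sum.inl i)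
      exact this
    rw [this]; exact z2 _
  have hE : u ⬝ᵥ vOne m = 0 := by
    rw [hu, add_dotProduct, ext_even, hv, add_zero]
  have h1 : ∀ i, u (Sum.inl (Sum.inl i)) = u (Sum.inl (Sum.inr i)) := by
    intro i
    have := hA i
    rw [dotA] at this
    exact z2eq this
  have h2 : ∀ i, u (Sum.inl (Sum.inr i)) = u (Sum.inr 0) := by
    intro i
    have := hB i
    rw [dotB_of u h1] at this
    exact z2eq this
  have h3 : u (Sum.inr 1) = u (Sum.inr 0) := by
    have := hE
    rw [dot_eq] at this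
    simp only [vOne, mul_one] at this
    rw [Finset.sum_congr rfl (fun j _ => h1 j), z2, zero_add] at this
    exact (z2eq this).symm
  have hu2 : u = u (Sum.inr 0) • vOne m := by
    funext x
    rcases x with (j | j) | k
    · simp [vOne, h1, h2]
    · simp [vOne, h2]
    · fin_cases k
      · simp [vOne]
      · simp [vOne]; exact h3
  refine ⟨u (Sum.inr 0), ?_⟩
  have : u = extF (resF v) + v := hu
  rw [hu2] at this
  exact (z2v this).trans (add_comm _ _)

def actF {m : ℕ} (σ : Equiv.Perm (X m)) (v : X m → ZMod 2) : X m → ZMod 2 := fun x => v (σ.symm x)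

theorem dot_act {m : ℕ} (σ : Equiv.Perm (X m)) (u v : X m → ZMod 2) :
    actF σ u ⬝ᵥ actF σ v = u ⬝ᵥ v := by
  unfold actF dotProduct
  exact Equiv.sum_comp σ.symm (fun x => u x * v x)

theorem act_one {m : ℕ} (σ : Equiv.Perm (X m)) : actF σ (vOne m) = vOne m := rfl

def extL (m : ℕ) : (Y m → ZMod 2) →ₗ[ZMod 2] (X m → ZMod 2) where
  toFun := extF
  map_add' := by
    intro a b
    simp only [extF, Pi.add_apply, add_smul, ← Finset.sum_add_distrib]
    refine Finset.sum_congr rfl fun i _ => ?_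
    abel
  map_smul' := by
    intro c a
    simp only [extF, Pi.smul_apply, smul_eq_mul, RingHom.id_apply, Finset.smul_sum, smul_add,
      mul_smul]

def resL (m : ℕ) : (X m → ZMod 2) →ₗ[ZMod 2] (Y m → ZMod 2) where
  toFun := resF
  map_add' := by
    intro a b
    funext y
    rcases y with i | i <;> simp [resF, add_dotProduct]
  map_smul' := by
    intro c a
    funext y
    rcases y with i | i <;> simp [resF, smul_dotProduct]

def actL {m : ℕ} (σ : Equiv.Perm (X m)) : (X m → ZMod 2) →ₗ[ZMod 2] (X m → ZMod 2) where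
  toFun := actF σ
  map_add' := by intro a b; rfl
  map_smul' := by intro c a; rfl

def MM {m : ℕ} (σ : Equiv.Perm (X m)) : (Y m → ZMod 2) →ₗ[ZMod 2] (Y m → ZMod 2) :=
  resL m ∘ₗ actL σ ∘ₗ extL m

theorem MM_apply {m : ℕ} (σ : Equiv.Perm (X m)) (w : Y m → ZMod 2) :
    MM σ w = resF (actF σ (extF w)) := rfl

theorem act_ext_even {m : ℕ} (σ : Equiv.Perm (X m)) (w : Y m → ZMod 2) :
    actF σ (extF w) ⬝ᵥ vOne m = 0 := by
  rw [← act_one σ, dot_act, ext_even]

/-- the fundamental relation -/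
theorem ext_MM {m : ℕ} (σ : Equiv.Perm (X m)) (w : Y m → ZMod 2) :
    ∃ c : ZMod 2, extF (MM σ w) = actF σ (extF w) + c • vOne m :=
  key _ (act_ext_even σ w)

theorem MM_mul {m : ℕ} (σ τ : Equiv.Perm (X m)) : MM (σ * τ) = MM σ ∘ₗ MM τ := by
  apply LinearMap.ext
  intro w
  obtain ⟨c, hc⟩ := ext_MM τ w
  show resF (actF (σ * τ) (extF w)) = resL m (actL σ (extL m (MM τ w)))
  have h1 : extL m (MM τ w) = actF τ (extF w) + c • vOne m := hc
  rw [h1, map_add, map_smul, map_add, map_smul]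
  have h2 : (actL σ) (vOne m) = vOne m := rfl
  have h3 : (resL m) (vOne m) = 0 := res_one
  rw [h2, h3, smul_zero, add_zero]
  rfl

theorem MM_one {m : ℕ} : MM (1 : Equiv.Perm (X m)) = LinearMap.id := by
  apply LinearMap.ext
  intro w
  show resF (actF 1 (extF w)) = w
  have : actF (1 : Equiv.Perm (X m)) (extF w) = extF w := rfl
  rw [this, res_ext]

theorem form_eq {m : ℕ} (w w' : Y m → ZMod 2) :
    extF w ⬝ᵥ extF w' = w ⬝ᵥ (Matrix.J (Fin m) (ZMod 2) *ᵥ w') := by
  rw [dot_ext]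
  have hA : ∀ i, extF w ⬝ᵥ vA m i = w (Sum.inr i) := fun i => congrFun (res_ext w) (Sum.inr i)
  have hB : ∀ i, extF w ⬝ᵥ vB m i = w (Sum.inl i) := fun i => congrFun (res_ext w) (Sum.inl i)
  simp only [hA, hB]
  simp only [dotProduct, Matrix.mulVec, Matrix.J, Fintype.sum_sum_type, Matrix.fromBlocks_apply₁₁,
    Matrix.fromBlocks_apply₁₂, Matrix.fromBlocks_apply₂₁, Matrix.fromBlocks_apply₂₂,
    Matrix.zero_apply, zero_mul, Finset.sum_const_zero, zero_add, add_zero, Matrix.neg_apply,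
    Matrix.one_apply, neg_mul, ite_mul, one_mul, Finset.sum_neg_distrib, Finset.sum_ite_eq,
    Finset.mem_univ, if_true, Finset.sum_add_distrib]
  have hneg : ∀ a : ZMod 2, -a = a := fun a => CharTwo.neg_eq a
  simp only [mul_neg, Finset.sum_neg_distrib, hneg]
  rw [add_comm]
  congr 1 <;> exact Finset.sum_congr rfl fun i _ => mul_comm _ _

theorem mat_ext {n : Type*} [Fintype n] [DecidableEq n] (A B : Matrix n n (ZMod 2))
    (h : ∀ w w' : n → ZMod 2, w ⬝ᵥ (A *ᵥ w') = w ⬝ᵥ (B *ᵥ w')) : A = B := by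
  ext y y'
  have := h (Pi.single y 1) (Pi.single y' 1)
  simpa [single_one_dotProduct, Matrix.mulVec_single_one] using this

def NN {m : ℕ} (σ : Equiv.Perm (X m)) : Matrix (Y m) (Y m) (ZMod 2) := LinearMap.toMatrix' (MM σ)

theorem NN_mem {m : ℕ} (σ : Equiv.Perm (X m)) : NN σ ∈ Matrix.symplecticGroup (Fin m) (ZMod 2) := by
  rw [SymplecticGroup.mem_iff']
  apply mat_ext
  intro w w'
  rw [← Matrix.mulVec_mulVec, ← Matrix.mulVec_mulVec, Matrix.dotProduct_mulVec w (NN σ)ᵀ,
    Matrix.vecMul_transpose]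
  have e1 : NN σ *ᵥ w = MM σ w := LinearMap.toMatrix'_mulVec _ _
  have e2 : NN σ *ᵥ w' = MM σ w' := LinearMap.toMatrix'_mulVec _ _
  rw [e1, e2, ← form_eq, ← form_eq]
  obtain ⟨c, hc⟩ := ext_MM σ w
  obtain ⟨c', hc'⟩ := ext_MM σ w'
  rw [hc, hc']
  simp only [add_dotProduct, dotProduct_add, smul_dotProduct, dotProduct_smul, g11,
    act_ext_even, smul_zero, add_zero, dot_act]
  rw [dotProduct_comm (vOne m), act_ext_even, smul_zero, add_zero]

theorem NN_mul {m : ℕ} (σ τ : Equiv.Perm (X m)) : NN (σ * τ) = NN σ * NN τ := by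
  unfold NN
  rw [MM_mul, LinearMap.toMatrix'_comp]

def fX (m : ℕ) : Equiv.Perm (X m) →* Matrix.symplecticGroup (Fin m) (ZMod 2) :=
  MonoidHom.mk' (fun σ => ⟨NN σ, NN_mem σ⟩) (fun σ τ => Subtype.ext (NN_mul σ τ))

theorem card_X (m : ℕ) : Fintype.card (X m) = 2 * m + 2 := by
  simp; ring

theorem fX_inj (m : ℕ) (hm : 2 ≤ m) : Function.Injective (fX m) := by
  classical
  rw [injective_iff_map_eq_one]
  intro σ hσ
  have hN : NN σ = 1 := congrArg Subtype.val hσ
  have hM : ∀ w, resF (actF σ (extF w)) = w := by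
    intro w
    have : NN σ *ᵥ w = MM σ w := LinearMap.toMatrix'_mulVec _ _
    rw [hN, Matrix.one_mulVec] at this
    exact this.symm
  -- σ acts trivially modulo the all-ones vector on even vectors
  have hact : ∀ v : X m → ZMod 2, v ⬝ᵥ vOne m = 0 → ∃ c : ZMod 2, actF σ v = v + c • vOne m := by
    intro v hv
    obtain ⟨c₁, h1⟩ := key v hv
    obtain ⟨c₂, h2⟩ := ext_MM σ (resF v)
    rw [MM_apply, hM] at h2
    -- h1 : extF (resF v) = v + c₁ • 1 ; h2 : extF (resF v) = actF σ (extF (resF v)) + c₂ • 1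
    refine ⟨c₂, ?_⟩
    have h3 : actF σ (extF (resF v)) = extF (resF v) + c₂ • vOne m := z2v h2
    have h4 : v = extF (resF v) + c₁ • vOne m := z2v h1
    have h5 : actF σ v = actF σ (extF (resF v)) + c₁ • vOne m := by
      conv_lhs => rw [h4]
      rfl
    rw [h5, h3, h1]
    funext x
    simp only [Pi.add_apply, Pi.smul_apply, smul_eq_mul]
    have := z2 (c₁ * vOne m x)
    linear_combination this
  have hpair : ∀ x y : X m, x ≠ y → σ x = x ∨ σ x = y := by
    intro x y hxy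
    have hev : (Pi.single x 1 + Pi.single y 1 : X m → ZMod 2) ⬝ᵥ vOne m = 0 := by
      simp only [dotProduct, vOne, mul_one, Pi.add_apply, Finset.sum_add_distrib,
        Finset.sum_pi_single', Finset.mem_univ, if_true]
      decide
    obtain ⟨c, hc⟩ := hact _ hev
    have hcard : ({x, y, σ x, σ y} : Finset (X m)).card < (Finset.univ : Finset (X m)).card := by
      have := Finset.card_le_four (a := x) (b := y) (c := σ x) (d := σ y)
      rw [Finset.card_univ, card_X]
      omega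
    obtain ⟨z, -, hz⟩ := Finset.exists_mem_notMem_of_card_lt_card hcard
    simp only [Finset.mem_insert, Finset.mem_singleton, not_or] at hz
    obtain ⟨hz1, hz2, hz3, hz4⟩ := hz
    have hcz := congrFun hc z
    have hsz1 : σ.symm z ≠ x := fun h => hz3 (by rw [← h, Equiv.apply_symm_apply])
    have hsz2 : σ.symm z ≠ y := fun h => hz4 (by rw [← h, Equiv.apply_symm_apply])
    simp only [actF, Pi.add_apply, Pi.single_apply, if_neg hsz1, if_neg hsz2, if_neg hz1,
      if_neg hz2, Pi.smul_apply, vOne, smul_eq_mul, mul_one, add_zero, zero_add] at hcz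
    have hcx := congrFun hc (σ x)
    simp only [actF, Equiv.symm_apply_apply, Pi.add_apply, Pi.single_apply, if_true,
      if_neg hxy, ← hcz, zero_smul, Pi.zero_apply, add_zero] at hcx
    by_contra hcon
    push Not at hcon
    rw [if_neg hcon.1, if_neg hcon.2] at hcx
    revert hcx
    decide
  ext x
  by_contra hx
  have hx' : σ x ≠ x := hx
  have hcard : ({x, σ x} : Finset (X m)).card < (Finset.univ : Finset (X m)).card := by
    have := Finset.card_le_two (a := x) (b := σ x)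
    rw [Finset.card_univ, card_X]
    omega
  obtain ⟨y, -, hy⟩ := Finset.exists_mem_notMem_of_card_lt_card hcard
  simp only [Finset.mem_insert, Finset.mem_singleton, not_or] at hy
  rcases hpair x y (Ne.symm hy.1) with h | h
  · exact hx' h
  · exact hy.2 h.symm

/-- S_2n ≤ Sp_(2n−2)(2) for n ≥ 3: there is an injective homomorphism from the symmetric group on 2n letters into the symplectic group of degree 2n − 2 over the field with two elements. -/
theorem result (n : ℕ) (hn : 3 ≤ n) : ∃ f : Equiv.Perm (Fin (2 * n)) →* Matrix.symplecticGroup (Fin (n - 1)) (ZMod 2), Function.Injective f := by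
  have hm : 2 ≤ n - 1 := by omega
  have hcard : Fintype.card (Fin (2 * n)) = Fintype.card (X (n - 1)) := by
    rw [card_X, Fintype.card_fin]; omega
  let e : Fin (2 * n) ≃ X (n - 1) := Fintype.equivOfCardEq hcard
  refine ⟨(fX (n - 1)).comp (Equiv.permCongrHom e).toMonoidHom, ?_⟩
  exact (fX_inj (n - 1) hm).comp (Equiv.permCongrHom e).injective

end Cfsg.Agent.S0826
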