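import Cfsg.Statements.S0827
import Cfsg.Agent.Helper13.SU32c
import Cfsg.Agent.S0282

set_option autoImplicit false
open Cfsg

namespace Cfsg.Agent.S0827

/-- U_3(2) ≅ 3².Q_8: PSU_3(2) (form over the field with 4 elements) has a normal subgroup N which is elementary abelian of order 9 such that the quotient by N is isomorphic to the quaternion group of order 8. -/
theorem result {F : Type*} [Field F] [Fintype F] (hF : Fintype.card F = 4) : ∃ (N : Subgroup (Cfsg.PSU 3 F 2)) (_ : N.Normal), Nat.card N = 9 ∧ (∀ x ∈ N, x ^ 3 = 1) ∧ Nonempty (Cfsg.PSU 3 F 2 ⧸ N ≃* QuaternionGroup 2) := by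
  classical
  have h72 : Nat.card (Cfsg.PSU 3 F 2) = 72 := (Cfsg.Agent.S0282.result hF).1
  have h4 : ((4 : ℕ) : F) = 0 := by
    have h := Nat.cast_card_eq_zero F
    rw [hF] at h
    exact h
  have h2 : (2 : F) = 0 := by
    have h : (2 : F) * 2 = 0 := by
      have h' : ((4 : ℕ) : F) = 2 * 2 := by norm_num
      rw [← h']
      exact h4
    exact mul_self_eq_zero.1 h
  haveI : CharP F 2 := CharTwo.of_one_ne_zero_of_two_eq_zero one_ne_zero h2
  obtain ⟨x, hx0, hx1⟩ : ∃ x : F, x ≠ 0 ∧ x ≠ 1 := by
    by_contra hcon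
    have hcon' : ∀ y : F, y ≠ 0 → y = 1 := fun y hy => by
      by_contra h1
      exact hcon ⟨y, hy, h1⟩
    have hsub : (Finset.univ : Finset F) ⊆ {0, 1} := by
      intro y _
      by_cases hy : y = 0
      · simp [hy]
      · simp [hcon' y hy]
    have hle : Fintype.card F ≤ 2 :=
      calc Fintype.card F = (Finset.univ : Finset F).card := Finset.card_univ.symm
        _ ≤ ({0, 1} : Finset F).card := Finset.card_le_card hsub
        _ ≤ 2 := Finset.card_le_two
    omega
  have hx3 : x ^ 3 = 1 := by
    have h := FiniteField.pow_card_sub_one_eq_one x hx0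
    rw [hF] at h
    exact h
  have hω : x ^ 2 = x + 1 := by
    have h : (x - 1) * (x ^ 2 + x + 1) = 0 := by linear_combination hx3
    rcases mul_eq_zero.1 h with h | h
    · exact absurd (sub_eq_zero.1 h) hx1
    · linear_combination h - (x + 1) * h2
  exact Helper13.SU32.main x hω hF h72

end Cfsg.Agent.S0827
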