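import Mathlib
import Cfsg.Statements.S0828
import Cfsg.Agent.S0768

set_option autoImplicit false
open Cfsg

namespace Cfsg.Agent.S0828

open Cfsg.Agent.Helper6 Cfsg.Agent.S0768
open scoped Classical

variable {F : Type*} [Field F] [Fintype F]

theorem dc {α β : Type*} (s : Finset α) (t : Finset β) (r : α → β → Prop) (m n : ℕ)
    (hm : ∀ a ∈ s, (t.filter (fun b => r a b)).card = m)
    (hn : ∀ b ∈ t, (s.filter (fun a => r a b)).card = n) :
    s.card * m = t.card * n := by
  have h := Finset.sum_card_bipartiteAbove_eq_sum_card_bipartiteBelow (s := s) (t := t) (r := r)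
  have h1 : ∀ a ∈ s, (t.bipartiteAbove r a).card = m := hm
  have h2 : ∀ b ∈ t, (s.bipartiteBelow r b).card = n := hn
  rw [Finset.sum_congr rfl h1, Finset.sum_congr rfl h2, Finset.sum_const, Finset.sum_const,
    smul_eq_mul, smul_eq_mul] at h
  exact h

theorem card_sub_filter (A B : Submodule F (Fin 2 ⊕ Fin 2 → F)) (hAB : A ≤ B) :
    (Finset.univ.filter (fun w : Fin 2 ⊕ Fin 2 → F => w ∈ B ∧ w ∉ A)).card
      = Fintype.card F ^ Module.finrank F B - Fintype.card F ^ Module.finrank F A := by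
  have hc : ∀ C : Submodule F (Fin 2 ⊕ Fin 2 → F),
      (Finset.univ.filter (fun w : Fin 2 ⊕ Fin 2 → F => w ∈ C)).card
        = Fintype.card F ^ Module.finrank F C := by
    intro C
    rw [← Fintype.card_subtype, ← Module.card_eq_pow_finrank (K := F) (V := C)]
  have h1 : Finset.univ.filter (fun w : Fin 2 ⊕ Fin 2 → F => w ∈ B ∧ w ∉ A)
      = Finset.univ.filter (fun w : Fin 2 ⊕ Fin 2 → F => w ∈ B)
        \ Finset.univ.filter (fun w : Fin 2 ⊕ Fin 2 → F => w ∈ A) := by
    ext w
    simp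
  rw [h1, Finset.card_sdiff_of_subset (by
    intro w hw
    simp only [Finset.mem_filter, Finset.mem_univ, true_and] at hw ⊢
    exact hAB hw), hc, hc]

theorem fin4 : Module.finrank F (Fin 2 ⊕ Fin 2 → F) = 4 := by
  simp

/-- The functional `w ↦ f(v, w)`. -/
noncomputable def fv (v : Fin 2 ⊕ Fin 2 → F) : (Fin 2 ⊕ Fin 2 → F) →ₗ[F] F where
  toFun w := Cfsg.sympForm 2 F v w
  map_add' := fun a b => sf_add_right v a b
  map_smul' := fun a w => by
    rw [sf_smul_right]
    rfl

theorem mem_ker_fv (v w : Fin 2 ⊕ Fin 2 → F) :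
    w ∈ LinearMap.ker (fv v) ↔ Cfsg.sympForm 2 F v w = 0 := Iff.rfl

theorem fv_ker_finrank (v : Fin 2 ⊕ Fin 2 → F) (hv : v ≠ 0) :
    Module.finrank F (LinearMap.ker (fv v)) = 3 := by
  have h1 := LinearMap.finrank_range_add_finrank_ker (fv v)
  have h2 : LinearMap.range (fv v) = ⊤ := by
    rw [LinearMap.range_eq_top]
    obtain ⟨x, hx⟩ := nondeg v hv
    intro c
    refine ⟨(c / Cfsg.sympForm 2 F v x) • x, ?_⟩
    show Cfsg.sympForm 2 F v ((c / Cfsg.sympForm 2 F v x) • x) = c
    rw [sf_smul_right]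
    field_simp
  rw [h2, finrank_top, Module.finrank_self, fin4] at h1
  omega

theorem span_pair_finrank (v w : Fin 2 ⊕ Fin 2 → F) (hv : v ≠ 0)
    (hw : w ∉ Submodule.span F {v}) : Module.finrank F (Submodule.span F {v, w}) = 2 := by
  have hli : LinearIndependent F ![v, w] := by
    rw [LinearIndependent.pair_iff]
    intro a b hab
    have hb : b = 0 := by
      by_contra hb
      apply hw
      rw [Submodule.mem_span_singleton]
      refine ⟨-(a / b), ?_⟩
      have h5 : b • w = -(a • v) := eq_neg_of_add_eq_zero_right hab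
      calc (-(a / b)) • v = b⁻¹ • (-(a • v)) := by
            rw [neg_smul, smul_neg, div_eq_inv_mul, mul_smul]
        _ = b⁻¹ • (b • w) := by rw [h5]
        _ = w := by rw [smul_smul, inv_mul_cancel₀ hb, one_smul]
    refine ⟨?_, hb⟩
    rw [hb, zero_smul, add_zero] at hab
    exact (smul_eq_zero.1 hab).resolve_right hv
  have h := finrank_span_eq_card hli
  rw [Matrix.range_cons_cons_empty] at h
  simpa using h

theorem span_pair_ti (v w : Fin 2 ⊕ Fin 2 → F) (hvw : Cfsg.sympForm 2 F v w = 0) :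
    ∀ x ∈ Submodule.span F {v, w}, ∀ y ∈ Submodule.span F {v, w}, Cfsg.sympForm 2 F x y = 0 := by
  intro x hx y hy
  obtain ⟨a, b, rfl⟩ := Submodule.mem_span_pair.1 hx
  obtain ⟨c, d, rfl⟩ := Submodule.mem_span_pair.1 hy
  have hwv : Cfsg.sympForm 2 F w v = 0 := by rw [sf_swap, hvw, neg_zero]
  simp only [sf_add_left, sf_add_right, sf_smul_left', sf_smul_right, sf_self, hvw, hwv]
  ring

theorem count_through (v : Fin 2 ⊕ Fin 2 → F) (hv : v ≠ 0) :
    (Finset.univ.filter (fun W : Submodule F (Fin 2 ⊕ Fin 2 → F) =>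
      Module.finrank F W = 2 ∧ v ∈ W ∧ ∀ u ∈ W, ∀ w ∈ W, Cfsg.sympForm 2 F u w = 0)).card
      = Fintype.card F + 1 := by
  have hq : 2 ≤ Fintype.card F := Fintype.one_lt_card
  have hvk : Submodule.span F {v} ≤ LinearMap.ker (fv v) := by
    rw [Submodule.span_singleton_le_iff_mem, mem_ker_fv, sf_self]
  have hs := card_sub_filter (Submodule.span F {v}) (LinearMap.ker (fv v)) hvk
  rw [fv_ker_finrank v hv, finrank_span_singleton hv, pow_one] at hs
  have key := dc (Finset.univ.filter (fun w : Fin 2 ⊕ Fin 2 → F =>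
      w ∈ LinearMap.ker (fv v) ∧ w ∉ Submodule.span F {v}))
    (Finset.univ.filter (fun W : Submodule F (Fin 2 ⊕ Fin 2 → F) =>
      Module.finrank F W = 2 ∧ v ∈ W ∧ ∀ u ∈ W, ∀ w ∈ W, Cfsg.sympForm 2 F u w = 0))
    (fun w W => w ∈ W) 1 (Fintype.card F ^ 2 - Fintype.card F) ?_ ?_
  · rw [hs, mul_one] at key
    have h2 : Fintype.card F ≤ Fintype.card F ^ 2 := by nlinarith
    have h3 : Fintype.card F ≤ Fintype.card F ^ 3 := by nlinarith [pow_pos (show 0 < Fintype.card F by omega) 2]
    zify [h2, h3] at key ⊢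
    have h4 : ((Fintype.card F : ℤ) ^ 2 - Fintype.card F) ≠ 0 := by
      have : (2 : ℤ) ≤ Fintype.card F := by exact_mod_cast hq
      nlinarith
    apply mul_right_cancel₀ h4
    rw [← key]
    ring
  · intro w hw
    rw [Finset.mem_filter] at hw
    obtain ⟨-, hwk, hws⟩ := hw
    rw [mem_ker_fv] at hwk
    rw [Finset.card_eq_one]
    refine ⟨Submodule.span F {v, w}, ?_⟩
    ext W
    simp only [Finset.mem_filter, Finset.mem_univ, true_and, Finset.mem_singleton]
    constructor
    · rintro ⟨⟨hW2, hvW, -⟩, hwW⟩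
      symm
      haveI : FiniteDimensional F W := inferInstance
      apply Submodule.eq_of_le_of_finrank_eq
      · rw [Submodule.span_le]
        intro x hx
        rcases hx with rfl | rfl
        · exact hvW
        · exact hwW
      · rw [span_pair_finrank v w hv hws, hW2]
    · rintro rfl
      refine ⟨⟨span_pair_finrank v w hv hws, Submodule.subset_span (by simp),
        span_pair_ti v w hwk⟩, Submodule.subset_span (by simp)⟩
  · intro W hW
    rw [Finset.mem_filter] at hW
    obtain ⟨-, hW2, hvW, hWti⟩ := hW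
    have hle : Submodule.span F {v} ≤ W := by
      rw [Submodule.span_singleton_le_iff_mem]
      exact hvW
    have h1 := card_sub_filter (Submodule.span F {v}) W hle
    rw [hW2, finrank_span_singleton hv, pow_one] at h1
    rw [← h1]
    congr 1
    ext w
    simp only [Finset.mem_filter, Finset.mem_univ, true_and]
    constructor
    · rintro ⟨⟨-, hws⟩, hwW⟩
      exact ⟨hwW, hws⟩
    · rintro ⟨hwW, hws⟩
      exact ⟨⟨(mem_ker_fv v w).2 (hWti v hvW w hwW), hws⟩, hwW⟩

/-- The symplectic generalised quadrangle over a field with q elements: the number of 2-dimensional subspaces of F^4 on which the symplectic form vanishes is (q + 1)(q² + 1), and every non-zero vector lies in exactly q + 1 of them. -/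
theorem result {F : Type*} [Field F] [Fintype F] {q : ℕ} (hF : Fintype.card F = q) : Nat.card {W : Submodule F (Fin 2 ⊕ Fin 2 → F) // Module.finrank F W = 2 ∧ ∀ u ∈ W, ∀ v ∈ W, Cfsg.sympForm 2 F u v = 0} = (q + 1) * (q ^ 2 + 1) ∧ ∀ v : Fin 2 ⊕ Fin 2 → F, v ≠ 0 → Nat.card {W : Submodule F (Fin 2 ⊕ Fin 2 → F) // Module.finrank F W = 2 ∧ v ∈ W ∧ ∀ u ∈ W, ∀ w ∈ W, Cfsg.sympForm 2 F u w = 0} = q + 1 := by
  subst hF
  have hq : 2 ≤ Fintype.card F := Fintype.one_lt_card
  have hpart2 : ∀ v : Fin 2 ⊕ Fin 2 → F, v ≠ 0 → Nat.card {W : Submodule F (Fin 2 ⊕ Fin 2 → F) //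
      Module.finrank F W = 2 ∧ v ∈ W ∧ ∀ u ∈ W, ∀ w ∈ W, Cfsg.sympForm 2 F u w = 0}
      = Fintype.card F + 1 := by
    intro v hv
    rw [Nat.card_eq_fintype_card, Fintype.card_subtype]
    exact count_through v hv
  refine ⟨?_, hpart2⟩
  rw [Nat.card_eq_fintype_card, Fintype.card_subtype]
  have hs := card_sub_filter (⊥ : Submodule F (Fin 2 ⊕ Fin 2 → F)) ⊤ bot_le
  rw [finrank_top, fin4, finrank_bot, pow_zero] at hs
  have key := dc (Finset.univ.filter (fun w : Fin 2 ⊕ Fin 2 → F =>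
      w ∈ (⊤ : Submodule F (Fin 2 ⊕ Fin 2 → F)) ∧ w ∉ (⊥ : Submodule F (Fin 2 ⊕ Fin 2 → F))))
    (Finset.univ.filter (fun W : Submodule F (Fin 2 ⊕ Fin 2 → F) =>
      Module.finrank F W = 2 ∧ ∀ u ∈ W, ∀ v ∈ W, Cfsg.sympForm 2 F u v = 0))
    (fun w W => w ∈ W) (Fintype.card F + 1) (Fintype.card F ^ 2 - 1) ?_ ?_
  · rw [hs] at key
    have h2 : 1 ≤ Fintype.card F ^ 2 := Nat.one_le_pow _ _ (by omega)
    have h3 : 1 ≤ Fintype.card F ^ 4 := Nat.one_le_pow _ _ (by omega)
    zify [h2, h3] at key ⊢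
    have h4 : ((Fintype.card F : ℤ) ^ 2 - 1) ≠ 0 := by
      have : (2 : ℤ) ≤ Fintype.card F := by exact_mod_cast hq
      nlinarith
    apply mul_right_cancel₀ h4
    rw [← key]
    ring
  · intro v hv
    rw [Finset.mem_filter] at hv
    have hv0 : v ≠ 0 := by
      intro h0
      exact hv.2.2 (by rw [h0]; exact Submodule.zero_mem _)
    rw [← count_through v hv0]
    congr 1
    ext W
    simp only [Finset.mem_filter, Finset.mem_univ, true_and]
    tauto
  · intro W hW
    rw [Finset.mem_filter] at hW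
    obtain ⟨-, hW2, -⟩ := hW
    have h1 := card_sub_filter (⊥ : Submodule F (Fin 2 ⊕ Fin 2 → F)) W bot_le
    rw [hW2, finrank_bot, pow_zero] at h1
    rw [← h1]
    congr 1
    ext w
    simp only [Finset.mem_filter, Finset.mem_univ, true_and, Submodule.mem_top]
    tauto

end Cfsg.Agent.S0828
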