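import Mathlib
import Cfsg.Statements.S0829
import Cfsg.Agent.Helper6.HermLines

set_option autoImplicit false
open Cfsg

namespace Cfsg.Agent.S0829

/-- The unitary quadrangle of PSU_4(q): with |F| = q², the number of 2-dimensional subspaces of F^4 on which the Hermitian form Σ x_i y_i^q vanishes is (q + 1)(q³ + 1). -/
theorem result {F : Type*} [Field F] [Fintype F] {q : ℕ} (hF : Fintype.card F = q ^ 2) : Nat.card {W : Submodule F (Fin 4 → F) // Module.finrank F W = 2 ∧ ∀ u ∈ W, ∀ v ∈ W, Cfsg.hermForm 4 F q u v = 0} = (q + 1) * (q ^ 3 + 1) := by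
  have hq2 : 2 ≤ q := Helper3.two_le_q hF
  have key : Nat.card {W : Submodule F (Fin 4 → F) // Module.finrank F W = 2 ∧
      ∀ u ∈ W, ∀ v ∈ W, Cfsg.hermForm 4 F q u v = 0} * ((q ^ 4 - 1) * (q ^ 4 - q ^ 2))
      = ((q ^ 4 - 1) * (q ^ 3 + 1)) * (q ^ 2 * ((q ^ 2 - 1) * (q ^ 1 + 1))) := by
    have h := Helper6.hl_lines_count hF 4 (by norm_num)
    rw [Helper3.hcount_isotropic hF 4, Helper3.hcount_isotropic hF (4 - 2), if_pos (by decide),
      if_pos (by decide), Nat.add_sub_cancel, Nat.add_sub_cancel] at h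
    exact h
  have h4 : q ^ 4 - q ^ 2 = q ^ 2 * (q ^ 2 - 1) := by rw [Nat.mul_sub, mul_one, ← pow_add]
  rw [h4] at key
  have hA : 0 < q ^ 4 - 1 := by
    have : 2 ^ 4 ≤ q ^ 4 := Nat.pow_le_pow_left hq2 4
    omega
  have hB : 0 < q ^ 2 - 1 := by
    have : 2 ^ 2 ≤ q ^ 2 := Nat.pow_le_pow_left hq2 2
    omega
  have hX : 0 < (q ^ 4 - 1) * (q ^ 2 * (q ^ 2 - 1)) :=
    Nat.mul_pos hA (Nat.mul_pos (by positivity) hB)
  apply Nat.eq_of_mul_eq_mul_right hX
  rw [key]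
  generalize q ^ 4 - 1 = A
  generalize q ^ 2 - 1 = B
  ring

end Cfsg.Agent.S0829
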