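import Cfsg.Statements.S0831
import Cfsg.Agent.Helper16.ParityPlus

set_option autoImplicit false
open Cfsg

namespace Cfsg.Agent.S0831

open Cfsg.Agent.Helper16 Module

/-- The two families of maximal totally singular subspaces of the hyperbolic quadric: for the form Σ x_i y_i on F^(2m), m ≥ 1, and m-dimensional subspaces U, W, X on which it vanishes, the parities of m − dim(U ∩ W), m − dim(W ∩ X) and m − dim(U ∩ X) sum to an even number (so 'even codimension of the intersection' is an equivalence relation), and there exist two such subspaces meeting in codimension 1 (so there are exactly two classes). -/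
theorem result {F : Type*} [Field F] (m : ℕ) (hm : 1 ≤ m) : (∀ U W X : Submodule F (Fin m ⊕ Fin m → F), (Module.finrank F U = m ∧ ∀ w ∈ U, Cfsg.quadFormPlus m F w = 0) → (Module.finrank F W = m ∧ ∀ w ∈ W, Cfsg.quadFormPlus m F w = 0) → (Module.finrank F X = m ∧ ∀ w ∈ X, Cfsg.quadFormPlus m F w = 0) → Even ((m - Module.finrank F ↥(U ⊓ W)) + (m - Module.finrank F ↥(W ⊓ X)) + (m - Module.finrank F ↥(U ⊓ X)))) ∧ ∃ U W : Submodule F (Fin m ⊕ Fin m → F), (Module.finrank F U = m ∧ ∀ w ∈ U, Cfsg.quadFormPlus m F w = 0) ∧ (Module.finrank F W = m ∧ ∀ w ∈ W, Cfsg.quadFormPlus m F w = 0) ∧ Module.finrank F ↥(U ⊓ W) + 1 = m := by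
  constructor
  · intro U W X hU hW hX
    exact parity_three (qfPlus m F) qfPlus_nondegenerate (finrank_plus m F) _ U W X
      (TS_of_plus U hU.2) hU.1 (TS_of_plus W hW.2) hW.1 (TS_of_plus X hX.2) hX.1 rfl
  · have hne : subE m F ≠ subE' m F := by
      intro h
      have h1 : subE m F ⊓ subE' m F = subE m F := by rw [← h, inf_idem]
      rw [subE_inf_subE'] at h1
      have h3 := finrank_subE (m := m) (F := F)
      rw [← h1, finrank_bot] at h3
      omega
    obtain ⟨W', hW', hW'm, hadj, _⟩ := exists_adjacent (qfPlus m F) qfPlus_nondegenerate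
      (finrank_plus m F) (subE m F) (subE' m F) TS_subE finrank_subE TS_subE' finrank_subE' hne
    refine ⟨subE' m F, W', ⟨finrank_subE', fun w hw => ?_⟩, ⟨hW'm, fun w hw => ?_⟩, hadj⟩
    · rw [← qfPlus_apply]
      exact TS_subE' w hw
    · rw [← qfPlus_apply]
      exact hW' w hw

end Cfsg.Agent.S0831
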