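import Cfsg.Statements.S0832
import Cfsg.Agent.Helper16.ParityPlus

set_option autoImplicit false
open Cfsg

namespace Cfsg.Agent.S0832

open Cfsg.Agent.Helper16 Module

/-- For the form Σ x_i y_i on F^(2m) over a finite field, m ≥ 1: an (m−1)-dimensional subspace on which the form vanishes is contained in exactly two m-dimensional subspaces on which it vanishes. -/
theorem result {F : Type*} [Field F] [Finite F] (m : ℕ) (hm : 1 ≤ m) (U : Submodule F (Fin m ⊕ Fin m → F)) (hU : Module.finrank F U + 1 = m ∧ ∀ u ∈ U, Cfsg.quadFormPlus m F u = 0) : Nat.card {W : Submodule F (Fin m ⊕ Fin m → F) // Module.finrank F W = m ∧ (∀ w ∈ W, Cfsg.quadFormPlus m F w = 0) ∧ U ≤ W} = 2 := by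
  obtain ⟨W₁, W₂, hne, h1, h3, huniq⟩ := exists_two_lagrangians (qfPlus m F) qfPlus_nondegenerate
    (finrank_plus m F) (subE m F) TS_subE finrank_subE U (TS_of_plus U hU.2) hU.1
  rw [Nat.card_eq_two_iff]
  refine ⟨⟨W₁, h1.2.1, fun w hw => by rw [← qfPlus_apply]; exact h1.1 w hw, h1.2.2⟩,
    ⟨W₂, h3.2.1, fun w hw => by rw [← qfPlus_apply]; exact h3.1 w hw, h3.2.2⟩,
    fun h => hne (congrArg Subtype.val h), ?_⟩
  ext ⟨W, hW⟩
  simp only [Set.mem_insert_iff, Set.mem_singleton_iff, Set.mem_univ, iff_true]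
  rcases huniq W (TS_of_plus W hW.2.1) hW.1 hW.2.2 with h | h
  · left
    exact Subtype.ext h
  · right
    exact Subtype.ext h

end Cfsg.Agent.S0832
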