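import Mathlib
import Cfsg.Statements.S0833
import Cfsg.Agent.S0752

set_option autoImplicit false
open Cfsg

namespace Cfsg.Agent.S0833

open scoped TensorProduct Kronecker

attribute [local ext] TensorProduct.ext in
theorem symm_aux {F U W : Type*} [Field F] [AddCommGroup U] [Module F U] [AddCommGroup W]
    [Module F W] (B₁ : LinearMap.BilinForm F U) (B₂ : LinearMap.BilinForm F W) (hA₁ : B₁.IsAlt)
    (hA₂ : B₂.IsAlt) : (B₁.tmul B₂).IsSymm := by
  rw [LinearMap.isSymm_iff_eq_flip]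
  ext x₁ x₂ y₁ y₂
  show B₂ x₂ y₂ • B₁ x₁ y₁ = B₂ y₂ x₂ • B₁ y₁ x₁
  rw [← hA₁.neg_eq x₁ y₁, ← hA₂.neg_eq x₂ y₂]
  simp

theorem tmul_tmul {F U W : Type*} [Field F] [AddCommGroup U] [Module F U] [AddCommGroup W]
    [Module F W] (B₁ : LinearMap.BilinForm F U) (B₂ : LinearMap.BilinForm F W) (u u' : U)
    (w w' : W) : (B₁.tmul B₂) (u ⊗ₜ w) (u' ⊗ₜ w') = B₁ u u' * B₂ w w' := by
  show B₂ w w' • B₁ u u' = B₁ u u' * B₂ w w'
  rw [smul_eq_mul, mul_comm]

theorem nondeg_aux {F U W : Type*} [Field F] [AddCommGroup U] [Module F U]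
    [FiniteDimensional F U] [AddCommGroup W] [Module F W] [FiniteDimensional F W]
    (B₁ : LinearMap.BilinForm F U) (B₂ : LinearMap.BilinForm F W) (h₁ : B₁.Nondegenerate)
    (h₂ : B₂.Nondegenerate) : (B₁.tmul B₂).Nondegenerate := by
  classical
  obtain ⟨b₁, hb₁⟩ : ∃ b : Module.Basis (Fin (Module.finrank F U)) F U, b = Module.finBasis F U :=
    ⟨_, rfl⟩
  obtain ⟨b₂, hb₂⟩ : ∃ b : Module.Basis (Fin (Module.finrank F W)) F W, b = Module.finBasis F W :=
    ⟨_, rfl⟩
  refine (LinearMap.BilinForm.nondegenerate_iff_det_ne_zero (B := B₁.tmul B₂)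
    (b₁.tensorProduct b₂)).2 ?_
  have hM : LinearMap.BilinForm.toMatrix (b₁.tensorProduct b₂) (B₁.tmul B₂)
      = (LinearMap.BilinForm.toMatrix b₁ B₁) ⊗ₖ (LinearMap.BilinForm.toMatrix b₂ B₂) := by
    ext ⟨i, j⟩ ⟨i', j'⟩
    rw [LinearMap.BilinForm.toMatrix_apply, Module.Basis.tensorProduct_apply,
      Module.Basis.tensorProduct_apply, tmul_tmul, Matrix.kroneckerMap_apply,
      LinearMap.BilinForm.toMatrix_apply, LinearMap.BilinForm.toMatrix_apply]
  rw [hM, Matrix.det_kronecker]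
  exact mul_ne_zero
    (pow_ne_zero _ ((LinearMap.BilinForm.nondegenerate_iff_det_ne_zero b₁).1 h₁))
    (pow_ne_zero _ ((LinearMap.BilinForm.nondegenerate_iff_det_ne_zero b₂).1 h₂))

/-- If B₁, B₂ are non-degenerate alternating forms on U (dim 2k) and W (dim 2l), then B₁ ⊗ B₂ on U ⊗ W is symmetric, non-degenerate, and vanishes identically on some subspace of dimension 2kl (half of dim U ⊗ W). -/
theorem result {F U W : Type*} [Field F] [Fintype F] [AddCommGroup U] [Module F U] [FiniteDimensional F U] [AddCommGroup W] [Module F W] [FiniteDimensional F W] (B₁ : LinearMap.BilinForm F U) (B₂ : LinearMap.BilinForm F W) (h₁ : B₁.Nondegenerate) (h₂ : B₂.Nondegenerate) (hA₁ : B₁.IsAlt) (hA₂ : B₂.IsAlt) (k l : ℕ) (hU : Module.finrank F U = 2 * k) (hW : Module.finrank F W = 2 * l) : (B₁.tmul B₂).IsSymm ∧ (B₁.tmul B₂).Nondegenerate ∧ (∃ X : Submodule F (TensorProduct F U W), Module.finrank F X = 2 * k * l ∧ ∀ x ∈ X, ∀ y ∈ X, (B₁.tmul B₂) x y = 0) :=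 by
  classical
  refine ⟨symm_aux B₁ B₂ hA₁ hA₂, nondeg_aux B₁ B₂ h₁ h₂, ?_⟩
  obtain ⟨m, k', b, hb1, hb2, hb3, hb4⟩ := Cfsg.Agent.S0752.result B₁ hA₁
  have hk' : k' = 0 := by
    by_contra hne
    have j : Fin k' := ⟨0, Nat.pos_of_ne_zero hne⟩
    have h0 : b (Sum.inr j) = 0 := h₁.1 _ (fun v => hb4 j v)
    exact b.ne_zero _ h0
  have hm : m = k := by
    have h1 := Module.finrank_eq_card_basis b
    rw [hU] at h1
    simp only [Fintype.card_sum, Fintype.card_fin] at h1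
    omega
  obtain ⟨c, hc⟩ : ∃ c : Module.Basis (Fin (Module.finrank F W)) F W, c = Module.finBasis F W :=
    ⟨_, rfl⟩
  obtain ⟨v, hv⟩ : ∃ v : Fin m × Fin (Module.finrank F W) → TensorProduct F U W,
      v = fun p => b (Sum.inl (Sum.inl p.1)) ⊗ₜ[F] c p.2 := ⟨_, rfl⟩
  have hli : LinearIndependent F v := by
    have h1 := (b.tensorProduct c).linearIndependent
    have h2 : v = (b.tensorProduct c) ∘ (fun p : Fin m × Fin (Module.finrank F W) =>
        ((Sum.inl (Sum.inl p.1) : (Fin m ⊕ Fin m) ⊕ Fin k'), p.2)) := by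
      rw [hv]
      funext p
      rw [Function.comp_apply, Module.Basis.tensorProduct_apply]
    rw [h2]
    apply h1.comp
    intro p p' hpp
    simp only [Prod.mk.injEq, Sum.inl.injEq] at hpp
    exact Prod.ext hpp.1 hpp.2
  refine ⟨Submodule.span F (Set.range v), ?_, ?_⟩
  · rw [finrank_span_eq_card hli, Fintype.card_prod, Fintype.card_fin, Fintype.card_fin, hW, hm]
    ring
  · have hgen : ∀ p p' : Fin m × Fin (Module.finrank F W), (B₁.tmul B₂) (v p) (v p') = 0 := by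
      intro p p'
      rw [hv]
      show (B₁.tmul B₂) (b (Sum.inl (Sum.inl p.1)) ⊗ₜ[F] c p.2)
        (b (Sum.inl (Sum.inl p'.1)) ⊗ₜ[F] c p'.2) = 0
      rw [tmul_tmul, hb2, zero_mul]
    have h1 : ∀ p : Fin m × Fin (Module.finrank F W),
        ∀ x ∈ Submodule.span F (Set.range v), (B₁.tmul B₂) x (v p) = 0 := by
      intro p x hx
      have hle : Submodule.span F (Set.range v) ≤ LinearMap.ker ((B₁.tmul B₂).flip (v p)) := by
        rw [Submodule.span_le]
        rintro _ ⟨p', rfl⟩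
        rw [SetLike.mem_coe, LinearMap.mem_ker, LinearMap.flip_apply]
        exact hgen p' p
      have h2 := hle hx
      rw [LinearMap.mem_ker, LinearMap.flip_apply] at h2
      exact h2
    intro x hx y hy
    have hle : Submodule.span F (Set.range v) ≤ LinearMap.ker ((B₁.tmul B₂) x) := by
      rw [Submodule.span_le]
      rintro _ ⟨p, rfl⟩
      rw [SetLike.mem_coe, LinearMap.mem_ker]
      exact h1 p x hx
    have h2 := hle hy
    rw [LinearMap.mem_ker] at h2
    exact h2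

end Cfsg.Agent.S0833
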