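import Cfsg.Statements.S0834
-- import your own Cfsg.Agent.* helpers here

set_option autoImplicit false
open Cfsg

namespace Cfsg.Agent.S0834

universe u

/-- `s` times the discriminant of `B` (Gram determinant in some basis) is a square. -/
def SqDisc {F : Type*} [Field F] {V : Type*} [AddCommGroup V] [Module F V]
    (B : LinearMap.BilinForm F V) (s : F) : Prop :=
  ∃ (n : ℕ) (b : Module.Basis (Fin n) F V), IsSquare (s * (LinearMap.BilinForm.toMatrix b B).det)

theorem sq_indep {F : Type*} [Field F] {V : Type*} [AddCommGroup V] [Module F V]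
    (B : LinearMap.BilinForm F V) (s : F)
    {ι κ : Type*} [Fintype ι] [DecidableEq ι] [Fintype κ] [DecidableEq κ]
    (b : Module.Basis ι F V) (c : Module.Basis κ F V)
    (h : IsSquare (s * (LinearMap.BilinForm.toMatrix b B).det)) :
    IsSquare (s * (LinearMap.BilinForm.toMatrix c B).det) := by
  classical
  let e : κ ≃ ι := c.indexEquiv b
  let c' : Module.Basis ι F V := c.reindex e
  have h1 : LinearMap.BilinForm.toMatrix c' B
      = Matrix.reindex e e (LinearMap.BilinForm.toMatrix c B) := by
    ext i j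
    simp [c', LinearMap.BilinForm.toMatrix_apply, Module.Basis.reindex_apply]
  have h2 : (LinearMap.BilinForm.toMatrix c' B).det = (LinearMap.BilinForm.toMatrix c B).det := by
    rw [h1, Matrix.det_reindex_self]
  have h3 := LinearMap.BilinForm.toMatrix_mul_basis_toMatrix b c' B
  have h4 := congrArg Matrix.det h3
  rw [Matrix.det_mul, Matrix.det_mul, Matrix.det_transpose] at h4
  obtain ⟨r, hr⟩ := h
  rw [← h2, ← h4]
  refine ⟨r * (b.toMatrix c').det, ?_⟩
  linear_combination (b.toMatrix c').det ^ 2 * hr

theorem sqDisc_iff {F : Type*} [Field F] {V : Type*} [AddCommGroup V] [Module F V]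
    (B : LinearMap.BilinForm F V) (s : F) {ι : Type*} [Fintype ι] [DecidableEq ι]
    (b : Module.Basis ι F V) :
    SqDisc B s ↔ IsSquare (s * (LinearMap.BilinForm.toMatrix b B).det) := by
  classical
  constructor
  · rintro ⟨n, c, hc⟩
    exact sq_indep B s c b hc
  · intro h
    have hfin : Module.Finite F V := Module.Finite.of_basis b
    exact ⟨_, Module.finBasis F V, sq_indep B s b _ h⟩

/-- Splitting off a hyperbolic plane through an isotropic vector. -/
theorem split {F : Type*} [Field F] {V : Type*} [AddCommGroup V] [Module F V] [FiniteDimensional F V]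
    (h2 : (2 : F) ≠ 0) (B : LinearMap.BilinForm F V) (hS : B.IsSymm) (hN : B.Nondegenerate)
    (v : V) (hv : v ≠ 0) (hvv : B v v = 0) :
    ∃ (w : V) (V' : Submodule F V), B v w = 1 ∧ B w w = 0 ∧
      (∀ x, x ∈ V' ↔ (B v x = 0 ∧ B w x = 0)) ∧
      Module.finrank F V' + 2 = Module.finrank F V ∧ (B.restrict V').Nondegenerate ∧
      (∀ s, SqDisc B s ↔ SqDisc (B.restrict V') (-s)) := by
  classical
  -- a partner
  have hex : ∃ w₀, B v w₀ ≠ 0 := by
    by_contra hcon
    push Not at hcon
    exact hv (hN.1 v hcon)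
  obtain ⟨w₀, hw₀⟩ := hex
  obtain ⟨w₁, h1⟩ : ∃ w₁, B v w₁ = 1 :=
    ⟨(B v w₀)⁻¹ • w₀, by rw [map_smul, smul_eq_mul, inv_mul_cancel₀ hw₀]⟩
  have h1' : B w₁ v = 1 := by rw [hS.eq]; exact h1
  obtain ⟨w, hvw, hww⟩ : ∃ w, B v w = 1 ∧ B w w = 0 := by
    refine ⟨w₁ - (B w₁ w₁ / 2) • v, ?_, ?_⟩
    · rw [map_sub, map_smul, hvv, h1]; simp
    · simp only [map_sub, map_smul, LinearMap.sub_apply, LinearMap.smul_apply, smul_eq_mul, hvv, h1, h1']
      field_simp
      ring
  have hwv : B w v = 1 := by rw [hS.eq]; exact hvw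
  have hli : LinearIndependent F ![v, w] := by
    rw [LinearIndependent.pair_iff]
    intro s t hst
    have e1 := congrArg (fun x => B v x) hst
    have e2 := congrArg (fun x => B w x) hst
    simp only [map_add, map_smul, smul_eq_mul, hvv, hvw, hwv, hww, map_zero] at e1 e2
    constructor
    · simpa using e2
    · simpa using e1
  set H : Submodule F V := Submodule.span F (Set.range ![v, w]) with hH
  let bH : Module.Basis (Fin 2) F H := Module.Basis.span hli
  have hbH : ∀ i, ((bH i : H) : V) = ![v, w] i := by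
    intro i
    exact congrArg Subtype.val (Module.Basis.span_apply hli i)
  have hGH : LinearMap.BilinForm.toMatrix bH (B.restrict H) = !![0, 1; 1, 0] := by
    ext i j
    rw [LinearMap.BilinForm.toMatrix_apply]
    show B (bH i : V) (bH j : V) = _
    rw [hbH, hbH]
    fin_cases i <;> fin_cases j <;> simp [hvv, hvw, hwv, hww]
  have hHnd : (B.restrict H).Nondegenerate := by
    apply LinearMap.BilinForm.nondegenerate_of_det_ne_zero _ bH
    rw [hGH, Matrix.det_fin_two_of]
    simp
  have hc : IsCompl H (B.orthogonal H) :=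
    LinearMap.BilinForm.isCompl_orthogonal_of_restrict_nondegenerate hS.isRefl hHnd
  set V' : Submodule F V := B.orthogonal H with hV'
  have hmem : ∀ x, x ∈ V' ↔ (B v x = 0 ∧ B w x = 0) := by
    intro x
    rw [hV', LinearMap.BilinForm.mem_orthogonal_iff]
    constructor
    · intro h
      constructor
      · exact h v (Submodule.subset_span ⟨0, rfl⟩)
      · exact h w (Submodule.subset_span ⟨1, rfl⟩)
    · rintro ⟨ha, hb⟩ y hy
      rw [hH] at hy
      induction hy using Submodule.span_induction with
      | mem y hy =>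
        obtain ⟨i, rfl⟩ := hy
        fin_cases i
        · simpa using ha
        · simpa using hb
      | zero => simp
      | add y z _ _ hy hz => rw [map_add, LinearMap.add_apply, hy, hz, add_zero]
      | smul a y _ hy => rw [map_smul, LinearMap.smul_apply, hy, smul_zero]
  let c' : Module.Basis (Fin (Module.finrank F V')) F V' := Module.finBasis F V'
  let c : Module.Basis (Fin 2 ⊕ Fin (Module.finrank F V')) F V :=
    (bH.prod c').map (Submodule.prodEquivOfIsCompl H V' hc)
  have hcl : ∀ i, c (Sum.inl i) = ![v, w] i := by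
    intro i
    simp [c, hbH]
  have hcr : ∀ j, c (Sum.inr j) = (c' j : V) := by
    intro j
    simp [c]
  have hG : LinearMap.BilinForm.toMatrix c B
      = Matrix.fromBlocks !![0, 1; 1, 0] 0 0 (LinearMap.BilinForm.toMatrix c' (B.restrict V')) := by
    ext i j
    rw [LinearMap.BilinForm.toMatrix_apply]
    rcases i with i | i <;> rcases j with j | j
    · rw [hcl, hcl, Matrix.fromBlocks_apply₁₁]
      fin_cases i <;> fin_cases j <;> simp [hvv, hvw, hwv, hww]
    · rw [hcl, hcr, Matrix.fromBlocks_apply₁₂]
      have hx := (hmem (c' j : V)).1 (c' j).2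
      fin_cases i
      · simpa using hx.1
      · simpa using hx.2
    · rw [hcr, hcl, Matrix.fromBlocks_apply₂₁, hS.eq]
      have hx := (hmem (c' i : V)).1 (c' i).2
      fin_cases j
      · simpa using hx.1
      · simpa using hx.2
    · rw [hcr, hcr, Matrix.fromBlocks_apply₂₂, LinearMap.BilinForm.toMatrix_apply]
      rfl
  have hdet : (LinearMap.BilinForm.toMatrix c B).det
      = - (LinearMap.BilinForm.toMatrix c' (B.restrict V')).det := by
    rw [hG, Matrix.det_fromBlocks_zero₁₂, Matrix.det_fin_two_of]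
    ring
  refine ⟨w, V', hvw, hww, hmem, ?_, ?_, ?_⟩
  · have := Module.finrank_eq_card_basis c
    rw [this]
    simp
    ring
  · apply LinearMap.BilinForm.nondegenerate_of_det_ne_zero _ c'
    have h0 := (LinearMap.BilinForm.nondegenerate_iff_det_ne_zero c).1 hN
    rw [hdet] at h0
    exact neg_ne_zero.1 h0
  · intro s
    rw [sqDisc_iff B s c, sqDisc_iff (B.restrict V') (-s) c', hdet]
    have : s * -(LinearMap.BilinForm.toMatrix c' (B.restrict V')).det
        = -s * (LinearMap.BilinForm.toMatrix c' (B.restrict V')).det := by ring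
    rw [this]

theorem card_odd {F : Type*} [Field F] [Fintype F] (h2 : (2 : F) ≠ 0) : Fintype.card F % 2 = 1 := by
  apply FiniteField.odd_card_of_char_ne_two
  intro h
  apply h2
  have := CharP.cast_eq_zero F (ringChar F)
  rw [h] at this
  exact_mod_cast this

theorem diag_ne_zero {F : Type*} [Field F] {V : Type*} [AddCommGroup V] [Module F V]
    (B : LinearMap.BilinForm F V) (hN : B.Nondegenerate) {ι : Type*} (e : Module.Basis ι F V)
    (ho : ∀ i j, i ≠ j → B (e i) (e j) = 0) (i : ι) : B (e i) (e i) ≠ 0 := by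
  classical
  intro h0
  have : e i = 0 := by
    apply hN.1
    intro y
    have hy : y ∈ Submodule.span F (Set.range e) := by rw [e.span_eq]; trivial
    induction hy using Submodule.span_induction with
    | mem y hy =>
      obtain ⟨j, rfl⟩ := hy
      by_cases hij : i = j
      · subst hij; exact h0
      · exact ho i j hij
    | zero => simp
    | add y z _ _ hy hz => rw [map_add, hy, hz, add_zero]
    | smul a y _ hy => rw [map_smul, hy, smul_zero]
  exact e.ne_zero i this

theorem exists_isotropic {F : Type*} [Field F] [Fintype F] {V : Type*} [AddCommGroup V] [Module F V]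
    [FiniteDimensional F V]
    (h2 : (2 : F) ≠ 0) (B : LinearMap.BilinForm F V) (hS : B.IsSymm) (hN : B.Nondegenerate)
    (h : 3 ≤ Module.finrank F V ∨ (Module.finrank F V = 2 ∧ SqDisc B (-1))) :
    ∃ v, v ≠ 0 ∧ B v v = 0 := by
  classical
  letI : Invertible (2 : F) := invertibleOfNonzero h2
  obtain ⟨e, he⟩ := LinearMap.BilinForm.exists_orthogonal_basis (LinearMap.BilinForm.isSymm_iff.1 hS)
  have ho : ∀ i j, i ≠ j → B (e i) (e j) = 0 := fun i j hij => he hij
  have hd := diag_ne_zero B hN e ho
  rcases h with h | ⟨h, hsq⟩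
  · set i0 : Fin (Module.finrank F V) := ⟨0, by omega⟩ with hi0
    set i1 : Fin (Module.finrank F V) := ⟨1, by omega⟩ with hi1
    set i2 : Fin (Module.finrank F V) := ⟨2, by omega⟩ with hi2
    have h01 : i0 ≠ i1 := by rw [hi0, hi1]; intro hh; simpa using congrArg Fin.val hh
    have h02 : i0 ≠ i2 := by rw [hi0, hi2]; intro hh; simpa using congrArg Fin.val hh
    have h12 : i1 ≠ i2 := by rw [hi1, hi2]; intro hh; simpa using congrArg Fin.val hh
    have hf : (Polynomial.C (B (e i0) (e i0)) * Polynomial.X ^ 2).degree = 2 :=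
      Polynomial.degree_C_mul_X_pow 2 (hd i0)
    have hg : (Polynomial.C (B (e i1) (e i1)) * Polynomial.X ^ 2
        + Polynomial.C (B (e i2) (e i2))).degree = 2 := by
      rw [Polynomial.degree_add_C]
      · exact Polynomial.degree_C_mul_X_pow 2 (hd i1)
      · rw [Polynomial.degree_C_mul_X_pow 2 (hd i1)]; norm_num
    obtain ⟨x, y, hxy⟩ := FiniteField.exists_root_sum_quadratic hf hg (card_odd h2)
    simp only [Polynomial.eval_add, Polynomial.eval_mul, Polynomial.eval_C, Polynomial.eval_pow,
      Polynomial.eval_X] at hxy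
    refine ⟨x • e i0 + y • e i1 + e i2, ?_, ?_⟩
    · intro h0
      have := congrArg (fun z => B z (e i2)) h0
      simp only [map_add, map_smul, LinearMap.add_apply, LinearMap.smul_apply, smul_eq_mul,
        ho i0 i2 h02, ho i1 i2 h12, map_zero, LinearMap.zero_apply, mul_zero, zero_add] at this
      exact hd i2 this
    · simp only [map_add, map_smul, LinearMap.add_apply, LinearMap.smul_apply, smul_eq_mul,
        ho i0 i1 h01, ho i0 i2 h02, ho i1 i2 h12, ho i1 i0 h01.symm, ho i2 i0 h02.symm,
        ho i2 i1 h12.symm]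
      linear_combination hxy
  · set i0 : Fin (Module.finrank F V) := ⟨0, by omega⟩ with hi0
    set i1 : Fin (Module.finrank F V) := ⟨1, by omega⟩ with hi1
    have h01 : i0 ≠ i1 := by rw [hi0, hi1]; intro hh; simpa using congrArg Fin.val hh
    let e2 : Module.Basis (Fin 2) F V := e.reindex (finCongr h)
    have he0 : e2 0 = e i0 := by
      simp only [e2, Module.Basis.reindex_apply]
      congr 1
    have he1 : e2 1 = e i1 := by
      simp only [e2, Module.Basis.reindex_apply]
      congr 1
    rw [sqDisc_iff B (-1) e2] at hsq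
    have hdet : (LinearMap.BilinForm.toMatrix e2 B).det = B (e i0) (e i0) * B (e i1) (e i1) := by
      rw [Matrix.det_fin_two]
      simp only [LinearMap.BilinForm.toMatrix_apply, he0, he1, ho i0 i1 h01, ho i1 i0 h01.symm]
      ring
    rw [hdet] at hsq
    obtain ⟨c, hc⟩ := hsq
    refine ⟨c • e i0 + B (e i0) (e i0) • e i1, ?_, ?_⟩
    · intro h0
      have := congrArg (fun z => B z (e i1)) h0
      simp only [map_add, map_smul, LinearMap.add_apply, LinearMap.smul_apply, smul_eq_mul,
        ho i0 i1 h01, map_zero, LinearMap.zero_apply, mul_zero, zero_add] at this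
      exact mul_ne_zero (hd i0) (hd i1) this
    · simp only [map_add, map_smul, LinearMap.add_apply, LinearMap.smul_apply, smul_eq_mul,
        ho i0 i1 h01, ho i1 i0 h01.symm]
      linear_combination (- B (e i0) (e i0)) * hc

/-- hard direction: square discriminant class forces a totally isotropic subspace of half dimension -/
theorem hard {F : Type*} [Field F] [Fintype F] (h2 : (2 : F) ≠ 0) (m : ℕ) :
    ∀ (V : Type u) [AddCommGroup V] [Module F V] [FiniteDimensional F V]
    (B : LinearMap.BilinForm F V), B.IsSymm → B.Nondegenerate → Module.finrank F V = 2 * m →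
    SqDisc B ((-1) ^ m) →
    ∃ X : Submodule F V, Module.finrank F X = m ∧ ∀ x ∈ X, ∀ y ∈ X, B x y = 0 := by
  induction m with
  | zero =>
    intro V _ _ _ B hS hN hdim hsq
    refine ⟨⊥, by simp, ?_⟩
    intro x hx y hy
    rw [(Submodule.mem_bot F).1 hx]; simp
  | succ m ih =>
    intro V _ _ _ B hS hN hdim hsq
    have hiso : ∃ v, v ≠ 0 ∧ B v v = 0 := by
      apply exists_isotropic h2 B hS hN
      rcases Nat.eq_zero_or_pos m with hm | hm
      · right
        subst hm
        refine ⟨by omega, ?_⟩
        simpa using hsq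
      · left; omega
    obtain ⟨v, hv, hvv⟩ := hiso
    obtain ⟨w, V', hvw, hww, hmem, hfin, hnd', hsq'⟩ := split h2 B hS hN v hv hvv
    have hsq2 : SqDisc (B.restrict V') ((-1) ^ m) := by
      have := (hsq' _).1 hsq
      have e : -((-1 : F) ^ (m + 1)) = (-1) ^ m := by ring
      rwa [e] at this
    obtain ⟨X', hX', hti⟩ := ih V' (B.restrict V') (hS.restrict V') hnd' (by omega) hsq2
    refine ⟨X'.map V'.subtype ⊔ Submodule.span F {v}, ?_, ?_⟩
    · have hinf : X'.map V'.subtype ⊓ Submodule.span F {v} = ⊥ := by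
        rw [eq_bot_iff]
        rintro x ⟨hx1, hx2⟩
        obtain ⟨a, rfl⟩ := Submodule.mem_span_singleton.1 hx2
        obtain ⟨z, _, hz⟩ := hx1
        have hin : a • v ∈ V' := by rw [← hz]; exact z.2
        have := ((hmem _).1 hin).2
        rw [map_smul, smul_eq_mul, hS.eq, hvw, mul_one] at this
        rw [this, zero_smul]; exact Submodule.zero_mem _
      have := Submodule.finrank_sup_add_finrank_inf_eq (X'.map V'.subtype) (Submodule.span F {v})
      rw [hinf, finrank_bot, Submodule.finrank_map_subtype_eq, hX', finrank_span_singleton hv] at this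
      omega
    · intro x hx y hy
      obtain ⟨x1, hx1, x2, hx2, rfl⟩ := Submodule.mem_sup.1 hx
      obtain ⟨y1, hy1, y2, hy2, rfl⟩ := Submodule.mem_sup.1 hy
      obtain ⟨a, rfl⟩ := Submodule.mem_span_singleton.1 hx2
      obtain ⟨b, rfl⟩ := Submodule.mem_span_singleton.1 hy2
      obtain ⟨zx, hzx, rfl⟩ := hx1
      obtain ⟨zy, hzy, rfl⟩ := hy1
      have e1 : B (zx : V) (zy : V) = 0 := hti zx hzx zy hzy
      have e2 : B v (zx : V) = 0 := ((hmem _).1 zx.2).1
      have e3 : B v (zy : V) = 0 := ((hmem _).1 zy.2).1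
      have e2' : B (zx : V) v = 0 := by rw [hS.eq]; exact e2
      simp only [Submodule.subtype_apply, map_add, map_smul, LinearMap.add_apply,
        LinearMap.smul_apply, smul_eq_mul, e1, e2', e3, hvv]
      ring

/-- easy direction: a totally isotropic subspace of half dimension forces the discriminant class -/
theorem easy {F : Type*} [Field F] (h2 : (2 : F) ≠ 0) (m : ℕ) :
    ∀ (V : Type u) [AddCommGroup V] [Module F V] [FiniteDimensional F V]
    (B : LinearMap.BilinForm F V), B.IsSymm → B.Nondegenerate → Module.finrank F V = 2 * m →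
    (∃ X : Submodule F V, Module.finrank F X = m ∧ ∀ x ∈ X, ∀ y ∈ X, B x y = 0) →
    SqDisc B ((-1) ^ m) := by
  classical
  induction m with
  | zero =>
    intro V _ _ _ B hS hN hdim _
    refine ⟨_, Module.finBasis F V, ?_⟩
    have h0 : Module.finrank F V = 0 := by omega
    have : IsEmpty (Fin (Module.finrank F V)) := by rw [h0]; infer_instance
    rw [Matrix.det_isEmpty]
    exact ⟨1, by simp⟩
  | succ m ih =>
    intro V _ _ _ B hS hN hdim hX
    obtain ⟨X, hXd, hXt⟩ := hX
    have hXne : X ≠ ⊥ := by
      intro h0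
      rw [h0, finrank_bot] at hXd
      omega
    obtain ⟨v, hvX, hv⟩ := Submodule.exists_mem_ne_zero_of_ne_bot hXne
    have hvv : B v v = 0 := hXt v hvX v hvX
    obtain ⟨w, V', hvw, hww, hmem, hfin, hnd', hsq'⟩ := split h2 B hS hN v hv hvv
    have hwv : B w v = 1 := by rw [hS.eq]; exact hvw
    have hinf : (V' ⊓ X) ⊓ Submodule.span F {v} = ⊥ := by
      rw [eq_bot_iff]
      rintro x ⟨⟨hx1, _⟩, hx2⟩
      obtain ⟨a, rfl⟩ := Submodule.mem_span_singleton.1 hx2
      have := ((hmem _).1 hx1).2
      rw [map_smul, smul_eq_mul, hwv, mul_one] at this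
      rw [this, zero_smul]; exact Submodule.zero_mem _
    have hsup : (V' ⊓ X) ⊔ Submodule.span F {v} = X := by
      apply le_antisymm
      · apply sup_le inf_le_right
        rw [Submodule.span_singleton_le_iff_mem]; exact hvX
      · intro x hx
        rw [Submodule.mem_sup]
        have hin : x - B w x • v ∈ V' := by
          rw [hmem]
          constructor
          · rw [map_sub, map_smul, hvv, hXt v hvX x hx]; simp
          · rw [map_sub, map_smul, hwv]; simp
        exact ⟨x - B w x • v, ⟨hin, X.sub_mem hx (X.smul_mem _ hvX)⟩, B w x • v,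
          Submodule.smul_mem _ _ (Submodule.mem_span_singleton_self v), by abel⟩
    have hY : Module.finrank F ↥(V' ⊓ X) = m := by
      have := Submodule.finrank_sup_add_finrank_inf_eq (V' ⊓ X) (Submodule.span F {v})
      rw [hinf, hsup, finrank_bot, hXd, finrank_span_singleton hv] at this
      omega
    have hX' : ∃ X' : Submodule F V', Module.finrank F X' = m ∧
        ∀ x ∈ X', ∀ y ∈ X', (B.restrict V') x y = 0 := by
      refine ⟨X.comap V'.subtype, ?_, ?_⟩
      · rw [← Submodule.finrank_map_subtype_eq, Submodule.map_comap_subtype]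
        exact hY
      · intro x hx y hy
        exact hXt x hx y hy
    have := ih V' (B.restrict V') (hS.restrict V') hnd' (by omega) hX'
    rw [hsq']
    have e : -((-1 : F) ^ (m + 1)) = (-1) ^ m := by ring
    rw [e]
    exact this

theorem tensor_gram {F : Type*} [Field F] {U W : Type*} [AddCommGroup U] [Module F U]
    [AddCommGroup W] [Module F W] {ι κ : Type*} [Fintype ι] [DecidableEq ι] [Fintype κ]
    [DecidableEq κ] (b₁ : Module.Basis ι F U) (b₂ : Module.Basis κ F W)
    (B₁ : LinearMap.BilinForm F U) (B₂ : LinearMap.BilinForm F W) :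
    LinearMap.BilinForm.toMatrix (b₁.tensorProduct b₂) (B₁.tmul B₂)
      = Matrix.kroneckerMap (fun x1 x2 => x1 * x2) (LinearMap.BilinForm.toMatrix b₁ B₁)
          (LinearMap.BilinForm.toMatrix b₂ B₂) := by
  ext ⟨i, j⟩ ⟨i', j'⟩
  rw [LinearMap.BilinForm.toMatrix_apply, Module.Basis.tensorProduct_apply,
    Module.Basis.tensorProduct_apply, LinearMap.BilinForm.tensorDistrib_tmul,
    Matrix.kroneckerMap_apply, LinearMap.BilinForm.toMatrix_apply,
    LinearMap.BilinForm.toMatrix_apply, smul_eq_mul, mul_comm]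

theorem tensor_det {F : Type*} [Field F] {U W : Type*} [AddCommGroup U] [Module F U]
    [AddCommGroup W] [Module F W] {ι κ : Type*} [Fintype ι] [DecidableEq ι] [Fintype κ]
    [DecidableEq κ] (b₁ : Module.Basis ι F U) (b₂ : Module.Basis κ F W)
    (B₁ : LinearMap.BilinForm F U) (B₂ : LinearMap.BilinForm F W) :
    (LinearMap.BilinForm.toMatrix (b₁.tensorProduct b₂) (B₁.tmul B₂)).det
      = (LinearMap.BilinForm.toMatrix b₁ B₁).det ^ Fintype.card κ
        * (LinearMap.BilinForm.toMatrix b₂ B₂).det ^ Fintype.card ι := by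
  rw [tensor_gram, Matrix.det_kronecker]

theorem tensor_nondeg {F : Type*} [Field F] {U W : Type*} [AddCommGroup U] [Module F U]
    [AddCommGroup W] [Module F W] [FiniteDimensional F U] [FiniteDimensional F W]
    (B₁ : LinearMap.BilinForm F U) (B₂ : LinearMap.BilinForm F W)
    (h₁ : B₁.Nondegenerate) (h₂ : B₂.Nondegenerate) : (B₁.tmul B₂).Nondegenerate := by
  classical
  apply LinearMap.BilinForm.nondegenerate_of_det_ne_zero _
    ((Module.finBasis F U).tensorProduct (Module.finBasis F W))
  rw [tensor_det]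
  exact mul_ne_zero (pow_ne_zero _ ((LinearMap.BilinForm.nondegenerate_iff_det_ne_zero _).1 h₁))
    (pow_ne_zero _ ((LinearMap.BilinForm.nondegenerate_iff_det_ne_zero _).1 h₂))

/-- Over a finite field with 2 ≠ 0: if B₁ on U (dim 2k, k ≥ 1) and B₂ on W (dim 2l, l ≥ 1) are non-degenerate symmetric forms admitting no totally isotropic subspaces of dimensions k, resp. l (minus type), then B₁ ⊗ B₂ admits a totally isotropic subspace of dimension 2kl (plus type). -/
theorem result {F U W : Type*} [Field F] [Fintype F] [AddCommGroup U] [Module F U] [FiniteDimensional F U] [AddCommGroup W] [Module F W] [FiniteDimensional F W] (h2 : (2 : F) ≠ 0) (B₁ : LinearMap.BilinForm F U) (B₂ : LinearMap.BilinForm F W) (h₁ : B₁.Nondegenerate) (h₂ : B₂.Nondegenerate) (hS₁ : B₁.IsSymm) (hS₂ : B₂.IsSymm) (k l : ℕ) (hk : 1 ≤ k) (hl : 1 ≤ l) (hU : Module.finrank F U = 2 * k) (hW : Module.finrank F W = 2 * l) (hm₁ : ¬ (∃ X : Submodule F (U), Module.finrank F X = k ∧ ∀ x ∈ X, ∀ y ∈ X, (B₁) x y = 0)) (hm₂ : ¬ (∃ X : Submodule F (W), Module.finrank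 F X = l ∧ ∀ x ∈ X, ∀ y ∈ X, (B₂) x y = 0)) : (∃ X : Submodule F (TensorProduct F U W), Module.finrank F X = 2 * k * l ∧ ∀ x ∈ X, ∀ y ∈ X, (B₁.tmul B₂) x y = 0) := by
  classical
  have hnd := tensor_nondeg B₁ B₂ h₁ h₂
  have hsymm : LinearMap.BilinForm.IsSymm (B₁.tmul B₂) :=
    LinearMap.BilinForm.isSymm_iff.2 (LinearMap.IsSymm.tmul (LinearMap.BilinForm.isSymm_iff.1 hS₁)
      (LinearMap.BilinForm.isSymm_iff.1 hS₂))
  have hdim : Module.finrank F (TensorProduct F U W) = 2 * (2 * k * l) := by
    rw [Module.finrank_tensorProduct, hU, hW]; ring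
  have hsq : SqDisc (B₁.tmul B₂) ((-1) ^ (2 * k * l)) := by
    rw [sqDisc_iff _ _ ((Module.finBasis F U).tensorProduct (Module.finBasis F W)), tensor_det]
    simp only [Fintype.card_fin, hU, hW]
    refine ⟨(-1) ^ (k * l) * (LinearMap.BilinForm.toMatrix (Module.finBasis F U) B₁).det ^ l
      * (LinearMap.BilinForm.toMatrix (Module.finBasis F W) B₂).det ^ k, ?_⟩
    ring
  exact hard h2 (2 * k * l) _ _ hsymm hnd hdim hsq

end Cfsg.Agent.S0834
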