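import Cfsg.Statements.S0835
-- import your own Cfsg.Agent.* helpers here
import Cfsg.Agent.S0834

set_option autoImplicit false
open Cfsg

namespace Cfsg.Agent.S0835

/-- Over a finite field with 2 ≠ 0: if B₁ on U (dim 2k, k ≥ 1) is non-degenerate symmetric of minus type (no totally isotropic k-subspace) and B₂ on W (dim 2l + 1) is non-degenerate symmetric, then B₁ ⊗ B₂ (dimension 2k(2l+1)) admits no totally isotropic subspace of dimension k(2l+1) (minus type). -/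
theorem result {F U W : Type*} [Field F] [Fintype F] [AddCommGroup U] [Module F U] [FiniteDimensional F U] [AddCommGroup W] [Module F W] [FiniteDimensional F W] (h2 : (2 : F) ≠ 0) (B₁ : LinearMap.BilinForm F U) (B₂ : LinearMap.BilinForm F W) (h₁ : B₁.Nondegenerate) (h₂ : B₂.Nondegenerate) (hS₁ : B₁.IsSymm) (hS₂ : B₂.IsSymm) (k l : ℕ) (hk : 1 ≤ k) (hU : Module.finrank F U = 2 * k) (hW : Module.finrank F W = 2 * l + 1) (hm₁ : ¬ (∃ X : Submodule F (U), Module.finrank F X = k ∧ ∀ x ∈ X, ∀ y ∈ X, (B₁) x y = 0)) : ¬ (∃ X : Submodule F (TensorProduct F U W), Module.finrank F X = k * (2 * l + 1) ∧ ∀ x ∈ X, ∀ y ∈ X, (B₁.tmul B₂) x y = 0) := by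
  classical
  rintro ⟨X, hXd, hXt⟩
  have hnd := Cfsg.Agent.S0834.tensor_nondeg B₁ B₂ h₁ h₂
  have hsymm : LinearMap.BilinForm.IsSymm (B₁.tmul B₂) :=
    LinearMap.BilinForm.isSymm_iff.2 (LinearMap.IsSymm.tmul (LinearMap.BilinForm.isSymm_iff.1 hS₁)
      (LinearMap.BilinForm.isSymm_iff.1 hS₂))
  have hdim : Module.finrank F (TensorProduct F U W) = 2 * (k * (2 * l + 1)) := by
    rw [Module.finrank_tensorProduct, hU, hW]; ring
  have hsq := Cfsg.Agent.S0834.easy h2 (k * (2 * l + 1)) _ _ hsymm hnd hdim ⟨X, hXd, hXt⟩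
  rw [Cfsg.Agent.S0834.sqDisc_iff _ _ ((Module.finBasis F U).tensorProduct (Module.finBasis F W)),
    Cfsg.Agent.S0834.tensor_det] at hsq
  simp only [Fintype.card_fin, hU, hW] at hsq
  have hd₁ : (LinearMap.BilinForm.toMatrix (Module.finBasis F U) B₁).det ≠ 0 :=
    (LinearMap.BilinForm.nondegenerate_iff_det_ne_zero _).1 h₁
  have hd₂ : (LinearMap.BilinForm.toMatrix (Module.finBasis F W) B₂).det ≠ 0 :=
    (LinearMap.BilinForm.nondegenerate_iff_det_ne_zero _).1 h₂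
  set d₁ := (LinearMap.BilinForm.toMatrix (Module.finBasis F U) B₁).det with hd₁def
  set d₂ := (LinearMap.BilinForm.toMatrix (Module.finBasis F W) B₂).det with hd₂def
  have hsq1 : Cfsg.Agent.S0834.SqDisc B₁ ((-1) ^ k) := by
    rw [Cfsg.Agent.S0834.sqDisc_iff _ _ (Module.finBasis F U)]
    obtain ⟨z, hz⟩ := hsq
    have hm1 : (-1 : F) ≠ 0 := neg_ne_zero.2 one_ne_zero
    have he : ((-1 : F) ^ k * d₁) ^ l * d₂ ^ k ≠ 0 :=
      mul_ne_zero (pow_ne_zero _ (mul_ne_zero (pow_ne_zero _ hm1) hd₁)) (pow_ne_zero _ hd₂)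
    refine ⟨z / (((-1 : F) ^ k * d₁) ^ l * d₂ ^ k), ?_⟩
    have key : (-1 : F) ^ k * d₁ * (((-1 : F) ^ k * d₁) ^ l * d₂ ^ k) ^ 2 = z * z := by
      rw [← hz]; ring
    rw [← hd₁def]
    field_simp
    linear_combination key
  obtain ⟨X₁, hX1, hX2⟩ := Cfsg.Agent.S0834.hard h2 k U B₁ hS₁ h₁ hU hsq1
  exact hm₁ ⟨X₁, hX1, hX2⟩

end Cfsg.Agent.S0835
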