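import Cfsg.Statements.S2623
import Cfsg.Agent.Helper16.QuadDiag

set_option autoImplicit false
open Cfsg

namespace Cfsg.Agent.S2623

open QuadraticMap Cfsg.Agent.Helper16

theorem gram_eq {F : Type*} [Field F] {n : ℕ} (Q : QuadraticForm F (Fin n → F)) :
    Matrix.of (fun i j : Fin n => QuadraticMap.polar ⇑Q (Pi.single i 1) (Pi.single j 1)) =
      LinearMap.BilinForm.toMatrix' (polarBilin Q) := by
  ext i j
  rw [LinearMap.BilinForm.toMatrix'_apply]
  rfl

theorem polar_eq_dot {F : Type*} [Field F] {n : ℕ} (Q : QuadraticForm F (Fin n → F))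
    (x y : Fin n → F) :
    polar Q x y = x ⬝ᵥ (Matrix.of (fun i j : Fin n =>
      QuadraticMap.polar ⇑Q (Pi.single i 1) (Pi.single j 1))).mulVec y := by
  rw [gram_eq, ← Matrix.toBilin'_apply', Matrix.toBilin'_toMatrix']
  rfl

/-- the discriminant of a diagonalised form -/
theorem disc_of_diag {F : Type*} [Field F] {k : ℕ} (Q : QuadraticForm F (Fin (k + 1) → F))
    (b : Module.Basis (Fin (k + 1)) F (Fin (k + 1) → F)) (d : F)
    (horth : ∀ i j, i ≠ j → polar Q (b i) (b j) = 0)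
    (hval : ∀ i, Q (b i) = if (i : ℕ) = k then d else 1) :
    ∃ c : F, c ≠ 0 ∧ 2 ^ (k + 1) * d = c ^ 2 * (Matrix.of (fun i j : Fin (k + 1) =>
      QuadraticMap.polar ⇑Q (Pi.single i 1) (Pi.single j 1))).det := by
  obtain ⟨c, hc, h⟩ := gram_det_eq b _ (polar Q) (polar_eq_dot Q)
  refine ⟨c, hc, ?_⟩
  rw [← h]
  have hdiag : (Matrix.of fun i j : Fin (k + 1) => polar Q (b i) (b j)) =
      Matrix.diagonal (fun i : Fin (k + 1) => 2 * (if (i : ℕ) = k then d else 1)) := by
    ext i j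
    by_cases hij : i = j
    · subst hij
      rw [Matrix.of_apply, Matrix.diagonal_apply_eq, qf_polar_self, hval]
    · rw [Matrix.of_apply, Matrix.diagonal_apply_ne _ hij, horth i j hij]
  rw [hdiag, Matrix.det_diagonal, Finset.prod_mul_distrib, Finset.prod_const, Finset.card_univ,
    Fintype.card_fin, Fin.prod_univ_castSucc]
  have h1 : ∀ i : Fin k, (if ((Fin.castSucc i : Fin (k + 1)) : ℕ) = k then d else 1) = 1 := by
    intro i
    rw [if_neg]
    rw [Fin.val_castSucc]
    exact Nat.ne_of_lt i.2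
  rw [Finset.prod_congr rfl (fun i _ => h1 i), Finset.prod_const_one, one_mul, Fin.val_last,
    if_pos rfl]

/-- Over a finite field of odd order, two quadratic forms on F^n with non-degenerate polar forms are isometric (related by an invertible linear change of variables) if and only if their discriminants (determinants of the Gram matrices of their polar forms) lie in the same square class. -/
theorem result {F : Type*} [Field F] [Fintype F] (h2 : (2 : F) ≠ 0) {n : ℕ} (Q₁ Q₂ : QuadraticForm F (Fin n → F)) (h₁ : (QuadraticMap.polarBilin Q₁).Nondegenerate) (h₂ : (QuadraticMap.polarBilin Q₂).Nondegenerate) : (∃ g : (Fin n → F) ≃ₗ[F] (Fin n → F), ∀ v, Q₂ (g v) = Q₁ v) ↔ IsSquare ((Matrix.of (fun i j : Fin n => QuadraticMap.polar ⇑Q₁ (Pi.single i 1) (Pi.single j 1))).det * (Matrix.of (fun i j : Fin n => QuadraticMap.polar ⇑Q₂ (Pi.single i 1) (Pi.single j 1))).det) := by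
  constructor
  · rintro ⟨g, hg⟩
    set B₁ : LinearMap.BilinForm F (Fin n → F) := polarBilin Q₁ with hB₁
    set B₂ : LinearMap.BilinForm F (Fin n → F) := polarBilin Q₂ with hB₂
    have hcomp : B₂.comp (g : (Fin n → F) →ₗ[F] (Fin n → F))
        (g : (Fin n → F) →ₗ[F] (Fin n → F)) = B₁ := by
      refine LinearMap.ext fun u => LinearMap.ext fun v => ?_
      rw [LinearMap.BilinForm.comp_apply]
      simp only [hB₁, hB₂, QuadraticMap.polarBilin_apply_apply, QuadraticMap.polar,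
        LinearEquiv.coe_coe]
      rw [← map_add, hg, hg, hg]
    have hmat := congrArg LinearMap.BilinForm.toMatrix' hcomp
    rw [LinearMap.BilinForm.toMatrix'_comp] at hmat
    have hdet := congrArg Matrix.det hmat
    rw [Matrix.det_mul, Matrix.det_mul, Matrix.det_transpose] at hdet
    rw [gram_eq, gram_eq, ← hdet]
    exact ⟨(LinearMap.toMatrix' (g : (Fin n → F) →ₗ[F] (Fin n → F))).det *
      (LinearMap.BilinForm.toMatrix' B₂).det, by ring⟩
  · intro hsq
    rcases Nat.eq_zero_or_pos n with hn | hn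
    · subst hn
      refine ⟨LinearEquiv.refl F _, ?_⟩
      intro v
      have hv : v = 0 := Subsingleton.elim _ _
      rw [hv, LinearEquiv.map_zero, QuadraticMap.map_zero, QuadraticMap.map_zero]
    obtain ⟨k, rfl⟩ : ∃ k, n = k + 1 := ⟨n - 1, by omega⟩
    have hfr : Module.finrank F (Fin (k + 1) → F) = k + 1 := by simp
    obtain ⟨d₁, hd₁, hb₁⟩ := exists_diag_basis h2 Q₁ h₁ hfr
    obtain ⟨d₂, hd₂, hb₂⟩ := exists_diag_basis h2 Q₂ h₂ hfr
    obtain ⟨b₂, horth₂, hval₂⟩ := hb₂ 1 one_ne_zero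
    obtain ⟨b₁', horth₁', hval₁'⟩ := hb₁ 1 one_ne_zero
    simp only [one_mul] at hval₂ hval₁'
    obtain ⟨c₁, hc₁, hdisc₁⟩ := disc_of_diag Q₁ b₁' d₁ horth₁' hval₁'
    obtain ⟨c₂, hc₂, hdisc₂⟩ := disc_of_diag Q₂ b₂ d₂ horth₂ hval₂
    obtain ⟨r, hr⟩ := hsq
    -- d₂ = t² d₁
    have h2k : (2 : F) ^ (k + 1) ≠ 0 := pow_ne_zero _ h2
    obtain ⟨t, ht⟩ : ∃ t : F, d₂ = t * t * d₁ := by
      refine ⟨c₁ * c₂ * r / (2 ^ (k + 1) * d₁), ?_⟩
      field_simp
      have : (2 ^ (k + 1) * d₁) * (2 ^ (k + 1) * d₂) = (c₁ * c₂ * r) ^ 2 := by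
        rw [hdisc₁, hdisc₂]
        linear_combination (c₁ ^ 2 * c₂ ^ 2) * hr
      linear_combination this
    have ht0 : t ≠ 0 := by
      rintro rfl
      rw [zero_mul, zero_mul] at ht
      exact hd₂ ht
    obtain ⟨b₁, horth₁, hval₁⟩ := hb₁ t ht0
    rw [← ht] at hval₁
    refine ⟨b₁.equiv b₂ (Equiv.refl _), ?_⟩
    intro v
    have hv : v = ∑ i, (b₁.repr v) i • b₁ i := (b₁.sum_repr v).symm
    have hgv : (b₁.equiv b₂ (Equiv.refl _)) v = ∑ i, (b₁.repr v) i • b₂ i := by
      conv_lhs => rw [hv]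
      rw [map_sum]
      refine Finset.sum_congr rfl fun i _ => ?_
      rw [map_smul, Module.Basis.equiv_apply]
      rfl
    rw [hgv, qf_sum_orth Q₂ b₂ horth₂]
    conv_rhs => rw [hv]
    rw [qf_sum_orth Q₁ b₁ horth₁]
    refine Finset.sum_congr rfl fun i _ => ?_
    rw [hval₁, hval₂]

end Cfsg.Agent.S2623
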