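import Cfsg.Statements.S0838
import Cfsg.Agent.S2623

set_option autoImplicit false
open Cfsg

namespace Cfsg.Agent.S0838

open QuadraticMap Cfsg.Agent.Helper16 in
theorem gram_det_ne_zero {F : Type*} [Field F] {n : ℕ} (Q : QuadraticForm F (Fin n → F))
    (hQ : (polarBilin Q).Nondegenerate) :
    (Matrix.of (fun i j : Fin n => QuadraticMap.polar ⇑Q (Pi.single i 1) (Pi.single j 1))).det ≠ 0 := by
  rw [Cfsg.Agent.S2623.gram_eq]
  exact (LinearMap.BilinForm.nondegenerate_toMatrix'_iff.2 hQ).det_ne_zero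

/-- Over a finite field with 2 ≠ 0 and n odd: two quadratic forms Q₁, Q₂ on F^n with non-degenerate polar forms are similar — there are an invertible linear map g and a scalar c ≠ 0 with Q₂ (g v) = c · Q₁ v for all v. -/
theorem result {F : Type*} [Field F] [Fintype F] (h2 : (2 : F) ≠ 0) {n : ℕ} (hn : Odd n) (Q₁ Q₂ : QuadraticForm F (Fin n → F)) (h₁ : (QuadraticMap.polarBilin Q₁).Nondegenerate) (h₂ : (QuadraticMap.polarBilin Q₂).Nondegenerate) : ∃ (g : (Fin n → F) ≃ₗ[F] (Fin n → F)) (c : F), c ≠ 0 ∧ ∀ v, Q₂ (g v) = c * Q₁ v := by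
  obtain ⟨k, rfl⟩ := hn
  set D₁ := (Matrix.of (fun i j : Fin (2 * k + 1) => QuadraticMap.polar ⇑Q₁ (Pi.single i 1) (Pi.single j 1))).det with hD₁
  set D₂ := (Matrix.of (fun i j : Fin (2 * k + 1) => QuadraticMap.polar ⇑Q₂ (Pi.single i 1) (Pi.single j 1))).det with hD₂
  have hD₁0 : D₁ ≠ 0 := gram_det_ne_zero Q₁ h₁
  have hD₂0 : D₂ ≠ 0 := gram_det_ne_zero Q₂ h₂
  have hc : D₁ * D₂ ≠ 0 := mul_ne_zero hD₁0 hD₂0
  have hnd : (QuadraticMap.polarBilin ((D₁ * D₂) • Q₁)).Nondegenerate := by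
    apply ((Cfsg.Agent.Helper16.polarBilin_isSymm _).isRefl.nondegenerate_iff_separatingLeft).2
    intro x hx
    apply ((Cfsg.Agent.Helper16.polarBilin_isSymm Q₁).isRefl.nondegenerate_iff_separatingLeft).1 h₁ x
    intro y
    have h := hx y
    rw [QuadraticMap.polarBilin_apply_apply] at h ⊢
    have h' : QuadraticMap.polar ⇑((D₁ * D₂) • Q₁) x y = (D₁ * D₂) * QuadraticMap.polar ⇑Q₁ x y := by
      simp only [QuadraticMap.polar, QuadraticMap.smul_apply, smul_eq_mul]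
      ring
    rw [h'] at h
    exact (mul_eq_zero.1 h).resolve_left hc
  have hgram : (Matrix.of (fun i j : Fin (2 * k + 1) =>
      QuadraticMap.polar ⇑((D₁ * D₂) • Q₁) (Pi.single i 1) (Pi.single j 1))).det =
      (D₁ * D₂) ^ (2 * k + 1) * D₁ := by
    have hm : (Matrix.of (fun i j : Fin (2 * k + 1) =>
        QuadraticMap.polar ⇑((D₁ * D₂) • Q₁) (Pi.single i 1) (Pi.single j 1))) =
        (D₁ * D₂) • (Matrix.of (fun i j : Fin (2 * k + 1) =>
          QuadraticMap.polar ⇑Q₁ (Pi.single i 1) (Pi.single j 1))) := by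
      ext i j
      simp only [Matrix.of_apply, Matrix.smul_apply, QuadraticMap.polar, QuadraticMap.smul_apply,
        smul_eq_mul]
      ring
    rw [hm, Matrix.det_smul, Fintype.card_fin]
  obtain ⟨g, hg⟩ := (Cfsg.Agent.S2623.result h2 ((D₁ * D₂) • Q₁) Q₂ hnd h₂).2 (by
    rw [hgram, ← hD₂]
    exact ⟨(D₁ * D₂) ^ (k + 1), by ring⟩)
  refine ⟨g, D₁ * D₂, hc, fun v => ?_⟩
  rw [hg v]
  rfl

end Cfsg.Agent.S0838
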