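import Cfsg.Statements.S0839
import Mathlib

set_option autoImplicit false
open Cfsg

namespace Cfsg.Agent.S0839

section
open scoped Matrix
theorem det_one_add_vmv {m : Type} [Fintype m] [DecidableEq m] {F : Type*} [Field F] (u v : m → F) :
    (1 + Matrix.vecMulVec u v).det = 1 + v ⬝ᵥ u := by
  rw [Matrix.vecMulVec_eq Unit, Matrix.det_one_add_replicateCol_mul_replicateRow]

theorem rank_one_decomp {m : Type} [Fintype m] [DecidableEq m] {F : Type*} [Field F] (N : Matrix m m F)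
    (hr : N.rank = 1) : ∃ u w : m → F, N = Matrix.vecMulVec u w := by
  have h1 : Module.finrank F (LinearMap.range N.mulVecLin) = 1 := hr
  obtain ⟨u', hu', hspan⟩ := finrank_eq_one_iff'.mp h1
  choose c hc using fun i : m => hspan ⟨N.mulVecLin (Pi.single i 1), LinearMap.mem_range_self _ _⟩
  refine ⟨(u' : m → F), c, ?_⟩
  ext i j
  have := congrArg (fun y : LinearMap.range N.mulVecLin => (y : m → F) i) (hc j)
  simp at this
  rw [Matrix.vecMulVec_apply, mul_comm, this]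

theorem sl_row_A {F : Type*} [Field F] (n : ℕ) (w : Fin (n + 2) → F) (hw : w 0 ≠ 0) :
    ∃ (g : Matrix.SpecialLinearGroup (Fin (n + 2)) F) (c : F), c ≠ 0 ∧
      w ᵥ* (g : Matrix (Fin (n + 2)) (Fin (n + 2)) F) = c • Pi.single 0 1 := by
  classical
  let y : Fin (n + 2) → F := fun j => if j = 0 then 0 else -(w j / w 0)
  have hdet : (1 + Matrix.vecMulVec (Pi.single 0 1) y : Matrix (Fin (n + 2)) (Fin (n + 2)) F).det = 1 := by
    rw [det_one_add_vmv]
    simp [y]
  refine ⟨⟨_, hdet⟩, w 0, hw, ?_⟩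
  show w ᵥ* (1 + Matrix.vecMulVec (Pi.single 0 1) y) = _
  rw [Matrix.vecMul_add, Matrix.vecMul_one, Matrix.vecMul_vecMulVec]
  ext j
  by_cases hj : j = 0
  · subst hj; simp [y]
  · simp [y, hj]
    field_simp
    ring

theorem sl_row {F : Type*} [Field F] (n : ℕ) (w : Fin (n + 2) → F) (hw : w ≠ 0) :
    ∃ (g : Matrix.SpecialLinearGroup (Fin (n + 2)) F) (c : F), c ≠ 0 ∧
      w ᵥ* (g : Matrix (Fin (n + 2)) (Fin (n + 2)) F) = c • Pi.single 0 1 := by
  classical
  by_cases h0 : w 0 = 0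
  · obtain ⟨j, hj⟩ : ∃ j, w j ≠ 0 := by
      by_contra hne
      push Not at hne
      exact hw (funext hne)
    have hj0 : j ≠ 0 := by rintro rfl; exact hj h0
    have hdet : (1 + Matrix.vecMulVec (Pi.single j 1) (Pi.single 0 1) :
        Matrix (Fin (n + 2)) (Fin (n + 2)) F).det = 1 := by
      rw [det_one_add_vmv]
      simp [hj0]
    have hw' : (w ᵥ* (1 + Matrix.vecMulVec (Pi.single j 1) (Pi.single 0 1) :
        Matrix (Fin (n + 2)) (Fin (n + 2)) F)) 0 ≠ 0 := by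
      rw [Matrix.vecMul_add, Matrix.vecMul_one, Matrix.vecMul_vecMulVec]
      simp [h0, hj]
    obtain ⟨g', c, hc, hg'⟩ := sl_row_A n _ hw'
    let T : Matrix.SpecialLinearGroup (Fin (n + 2)) F := ⟨_, hdet⟩
    refine ⟨T * g', c, hc, ?_⟩
    rw [Matrix.SpecialLinearGroup.coe_mul, ← Matrix.vecMul_vecMul]
    exact hg'
  · exact sl_row_A n w h0
end

/-- Every transvection t ∈ SL_(n+2)(F) (rank(t − 1) = 1, (t − 1)² = 0) is conjugate in SL_(n+2)(F) to 1 + v·e_0ᵀ for some column vector v with v_0 = 0 (the group A of matrices that are the identity except in the first column below the diagonal); the dimension is written n + 2 ≥ 2. -/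
theorem result {F : Type*} [Field F] (n : ℕ) (t : Matrix.SpecialLinearGroup (Fin (n + 2)) F) (ht : Cfsg.IsTransvection (t : Matrix (Fin (n + 2)) (Fin (n + 2)) F)) : ∃ (g : Matrix.SpecialLinearGroup (Fin (n + 2)) F) (v : Fin (n + 2) → F), v 0 = 0 ∧ ((g⁻¹ * t * g : Matrix.SpecialLinearGroup (Fin (n + 2)) F) : Matrix (Fin (n + 2)) (Fin (n + 2)) F) = 1 + Matrix.vecMulVec v (Pi.single 0 1) := by
  classical
  obtain ⟨hr, hsq⟩ := ht
  obtain ⟨u, w, hNuw⟩ := rank_one_decomp _ hr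
  have hN0 : ((t : Matrix (Fin (n + 2)) (Fin (n + 2)) F) - 1) ≠ 0 := by
    intro h; rw [h, Matrix.rank_zero] at hr; exact zero_ne_one hr
  have hu0 : u ≠ 0 := by
    rintro rfl; apply hN0; rw [hNuw]; simp
  have hw0 : w ≠ 0 := by
    rintro rfl; apply hN0; rw [hNuw]; simp
  have hwu : w ⬝ᵥ u = 0 := by
    rw [hNuw, Matrix.vecMulVec_mul_vecMulVec] at hsq
    rcases Matrix.vecMulVec_eq_zero.mp hsq with h | h
    · exact absurd h hu0
    · rcases smul_eq_zero.mp h with h | h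
      · exact h
      · exact absurd h hw0
  obtain ⟨g, c, hc, hg⟩ := sl_row n w hw0
  have ht' : (t : Matrix (Fin (n + 2)) (Fin (n + 2)) F) = 1 + Matrix.vecMulVec u w := by
    rw [← hNuw]; abel
  have hgg : ((g⁻¹ : Matrix.SpecialLinearGroup (Fin (n + 2)) F) : Matrix (Fin (n + 2)) (Fin (n + 2)) F)
      * (g : Matrix (Fin (n + 2)) (Fin (n + 2)) F) = 1 := by
    rw [← Matrix.SpecialLinearGroup.coe_mul, inv_mul_cancel, Matrix.SpecialLinearGroup.coe_one]
  have hgg' : (g : Matrix (Fin (n + 2)) (Fin (n + 2)) F)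
      * ((g⁻¹ : Matrix.SpecialLinearGroup (Fin (n + 2)) F) : Matrix (Fin (n + 2)) (Fin (n + 2)) F) = 1 := by
    rw [← Matrix.SpecialLinearGroup.coe_mul, mul_inv_cancel, Matrix.SpecialLinearGroup.coe_one]
  refine ⟨g, c • (Matrix.mulVec ((g⁻¹ : Matrix.SpecialLinearGroup (Fin (n + 2)) F) : Matrix (Fin (n + 2)) (Fin (n + 2)) F) u), ?_, ?_⟩
  · have h1 : (Matrix.vecMul w (g : Matrix (Fin (n + 2)) (Fin (n + 2)) F)) ⬝ᵥ
        (Matrix.mulVec ((g⁻¹ : Matrix.SpecialLinearGroup (Fin (n + 2)) F) : Matrix (Fin (n + 2)) (Fin (n + 2)) F) u) = 0 := by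
      rw [← Matrix.dotProduct_mulVec, Matrix.mulVec_mulVec, hgg', Matrix.one_mulVec, hwu]
    rw [hg] at h1
    simpa using h1
  · rw [Matrix.SpecialLinearGroup.coe_mul, Matrix.SpecialLinearGroup.coe_mul, ht', Matrix.mul_add,
      Matrix.add_mul, Matrix.mul_one, hgg, Matrix.mul_vecMulVec, Matrix.vecMulVec_mul, hg,
      Matrix.vecMulVec_smul, Matrix.smul_vecMulVec]

end Cfsg.Agent.S0839
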