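import Cfsg.Statements.S0840
import Mathlib
import Cfsg.Agent.Helper7.Basic
import Cfsg.Agent.Helper25.CharOrth

set_option autoImplicit false
open scoped ComplexConjugate
open Cfsg

namespace Cfsg.Agent.S0840

open Cfsg.Agent.Helper25 in
theorem conj_sum' {G : Type*} [Group G] [Fintype G] (χ : Cfsg.IrrCharacter G) (x b : G) :
    ∑ v : G, (χ : G → ℂ) (x * (v⁻¹ * b * v)) =
      (Nat.card G : ℂ) * (χ : G → ℂ) x * (χ : G → ℂ) b / (χ : G → ℂ) 1 := by
  rw [← irr_sum_conj_mul]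
  rw [← Equiv.sum_comp (Equiv.inv G) (fun v => (χ : G → ℂ) (x * (v * b * v⁻¹)))]
  apply Finset.sum_congr rfl
  intro v _
  simp

open Cfsg.Agent.Helper25 in
open Classical in
theorem key {G : Type*} [Group G] [Fintype G] (a b c : G) :
    ∑ u : G, ∑ v : G, (if u⁻¹ * a * u * (v⁻¹ * b * v) = c then (1:ℂ) else 0)
      = (Nat.card G : ℂ) * ∑ χ : Cfsg.IrrCharacter G,
          (χ : G → ℂ) a * (χ : G → ℂ) b * (χ : G → ℂ) c⁻¹ / (χ : G → ℂ) 1 := by
  classical
  have hG : (Nat.card G : ℂ) ≠ 0 := card_ne_zero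
  have hδ : ∀ z : G, (if z = c then (1:ℂ) else 0) = (Nat.card G : ℂ)⁻¹ *
      ∑ χ : Cfsg.IrrCharacter G, (χ : G → ℂ) 1 * (χ : G → ℂ) (z * c⁻¹) := by
    intro z
    rw [sum_irr_one_mul]
    have : z * c⁻¹ = 1 ↔ z = c := mul_inv_eq_one
    simp only [this]
    split_ifs
    · rw [inv_mul_cancel₀ hG]
    · rw [mul_zero]
  have h1 : ∀ χ : Cfsg.IrrCharacter G, ∀ u : G,
      ∑ v : G, (χ : G → ℂ) (u⁻¹ * a * u * (v⁻¹ * b * v) * c⁻¹)
        = (Nat.card G : ℂ) * (χ : G → ℂ) (c⁻¹ * (u⁻¹ * a * u)) * (χ : G → ℂ) b / (χ : G → ℂ) 1 := by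
    intro χ u
    rw [← conj_sum']
    apply Finset.sum_congr rfl
    intro v _
    rw [irr_mul_comm χ (u⁻¹ * a * u * (v⁻¹ * b * v)) c⁻¹, mul_assoc c⁻¹]
  have h2 : ∀ χ : Cfsg.IrrCharacter G,
      ∑ u : G, ∑ v : G, (χ : G → ℂ) (u⁻¹ * a * u * (v⁻¹ * b * v) * c⁻¹)
        = (Nat.card G : ℂ) * ((Nat.card G : ℂ) * (χ : G → ℂ) c⁻¹ * (χ : G → ℂ) a / (χ : G → ℂ) 1)
            * (χ : G → ℂ) b / (χ : G → ℂ) 1 := by
    intro χ
    rw [Finset.sum_congr rfl (fun u _ => h1 χ u), ← conj_sum', Finset.mul_sum, Finset.sum_mul,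
      Finset.sum_div]
  calc ∑ u : G, ∑ v : G, (if u⁻¹ * a * u * (v⁻¹ * b * v) = c then (1:ℂ) else 0)
      = ∑ u : G, ∑ v : G, (Nat.card G : ℂ)⁻¹ *
          ∑ χ : Cfsg.IrrCharacter G, (χ : G → ℂ) 1 * (χ : G → ℂ) (u⁻¹ * a * u * (v⁻¹ * b * v) * c⁻¹) := by
        apply Finset.sum_congr rfl; intro u _
        apply Finset.sum_congr rfl; intro v _
        exact hδ _
    _ = (Nat.card G : ℂ)⁻¹ * ∑ χ : Cfsg.IrrCharacter G, (χ : G → ℂ) 1 *
          ∑ u : G, ∑ v : G, (χ : G → ℂ) (u⁻¹ * a * u * (v⁻¹ * b * v) * c⁻¹) := by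
        have e : ∀ χ : Cfsg.IrrCharacter G, (χ : G → ℂ) 1 *
            ∑ u : G, ∑ v : G, (χ : G → ℂ) (u⁻¹ * a * u * (v⁻¹ * b * v) * c⁻¹)
            = ∑ u : G, ∑ v : G, (χ : G → ℂ) 1 * (χ : G → ℂ) (u⁻¹ * a * u * (v⁻¹ * b * v) * c⁻¹) := by
          intro χ
          rw [Finset.mul_sum]
          apply Finset.sum_congr rfl; intro u _
          rw [Finset.mul_sum]
        have e2 : ∑ χ : Cfsg.IrrCharacter G, ∑ u : G, ∑ v : G,
              (χ : G → ℂ) 1 * (χ : G → ℂ) (u⁻¹ * a * u * (v⁻¹ * b * v) * c⁻¹)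
            = ∑ u : G, ∑ v : G, ∑ χ : Cfsg.IrrCharacter G,
              (χ : G → ℂ) 1 * (χ : G → ℂ) (u⁻¹ * a * u * (v⁻¹ * b * v) * c⁻¹) :=
          Finset.sum_comm.trans (Finset.sum_congr rfl (fun u _ => Finset.sum_comm))
        rw [Finset.sum_congr rfl (fun χ _ => e χ), e2, Finset.mul_sum]
        apply Finset.sum_congr rfl; intro u _
        rw [Finset.mul_sum]
    _ = (Nat.card G : ℂ) * ∑ χ : Cfsg.IrrCharacter G,
          (χ : G → ℂ) a * (χ : G → ℂ) b * (χ : G → ℂ) c⁻¹ / (χ : G → ℂ) 1 := by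
        rw [Finset.mul_sum, Finset.mul_sum]
        apply Finset.sum_congr rfl; intro χ _
        rw [h2]
        have hχ : (χ : G → ℂ) 1 ≠ 0 := irr_one_ne_zero χ
        field_simp

/-- Class multiplication coefficients from the character table: for elements a, b, c of a finite group G, the number of ordered pairs (x, y) with x conjugate to a, y conjugate to b and x * y = c equals the product of the sizes of the conjugacy classes of a and b, divided by the order of G, times the sum over the irreducible characters χ of χ a * χ b * conj (χ c) / χ 1. -/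
theorem result {G : Type*} [Group G] [Finite G] (a b c : G) : (Nat.card {p : G × G // IsConj a p.1 ∧ IsConj b p.2 ∧ p.1 * p.2 = c} : ℂ) = (Nat.card {x : G // IsConj a x} : ℂ) * (Nat.card {x : G // IsConj b x} : ℂ) / (Nat.card G : ℂ) * ∑ᶠ χ : Cfsg.IrrCharacter G, (χ : G → ℂ) a * (χ : G → ℂ) b * conj ((χ : G → ℂ) c) / (χ : G → ℂ) 1 := by
  classical
  letI : Fintype G := Fintype.ofFinite G
  rw [finsum_eq_sum_of_fintype]
  have hkey := key a b c
  -- counting side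
  have hcount : ∑ u : G, ∑ v : G, (if u⁻¹ * a * u * (v⁻¹ * b * v) = c then (1:ℂ) else 0)
      = (Nat.card (Subgroup.centralizer ({a} : Set G)) : ℂ) *
        ((Nat.card (Subgroup.centralizer ({b} : Set G)) : ℂ) *
          (Nat.card {p : G × G // IsConj a p.1 ∧ IsConj b p.2 ∧ p.1 * p.2 = c} : ℂ)) := by
    have h1 : ∀ u : G, ∑ v : G, (if u⁻¹ * a * u * (v⁻¹ * b * v) = c then (1:ℂ) else 0)
        = (Nat.card (Subgroup.centralizer ({b} : Set G)) : ℂ) *
          ∑ᶠ y ∈ {y : G | IsConj b y}, (if u⁻¹ * a * u * y = c then (1:ℂ) else 0) := by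
      intro u
      exact Cfsg.Agent.Helper7.sum_conj (fun y => if u⁻¹ * a * u * y = c then (1:ℂ) else 0) b
    rw [Finset.sum_congr rfl (fun u _ => h1 u), ← Finset.mul_sum,
      Cfsg.Agent.Helper7.sum_conj (fun x => ∑ᶠ y ∈ {y : G | IsConj b y}, (if x * y = c then (1:ℂ) else 0)) a,
      mul_left_comm]
    congr 2
    rw [Cfsg.Agent.Helper7.finsum_mem_setOf_eq_sum (fun x => IsConj a x)]
    simp_rw [Cfsg.Agent.Helper7.finsum_mem_setOf_eq_sum (fun y => IsConj b y)]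
    rw [Nat.card_eq_fintype_card, Fintype.card_subtype, Finset.card_filter, Nat.cast_sum,
      Fintype.sum_prod_type]
    apply Finset.sum_congr rfl; intro x _
    by_cases hx : IsConj a x
    · rw [if_pos hx]
      apply Finset.sum_congr rfl; intro y _
      by_cases hy : IsConj b y
      · by_cases hxy : x * y = c
        · rw [if_pos hy, if_pos hxy, if_pos ⟨hx, hy, hxy⟩, Nat.cast_one]
        · rw [if_pos hy, if_neg hxy, if_neg (fun h => hxy h.2.2), Nat.cast_zero]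
      · rw [if_neg hy, if_neg (fun h => hy h.2.1), Nat.cast_zero]
    · rw [if_neg hx]
      symm
      apply Finset.sum_eq_zero; intro y _
      rw [if_neg (fun h => hx h.1), Nat.cast_zero]
  rw [hkey] at hcount
  have ha := Cfsg.Agent.Helper25.card_class_mul_card_centralizer a
  have hb := Cfsg.Agent.Helper25.card_class_mul_card_centralizer b
  have ha' : (Nat.card {x : G // IsConj a x} : ℂ) * (Nat.card (Subgroup.centralizer ({a} : Set G)) : ℂ)
      = (Nat.card G : ℂ) := by rw [← Nat.cast_mul, ha]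
  have hb' : (Nat.card {x : G // IsConj b x} : ℂ) * (Nat.card (Subgroup.centralizer ({b} : Set G)) : ℂ)
      = (Nat.card G : ℂ) := by rw [← Nat.cast_mul, hb]
  have hG : (Nat.card G : ℂ) ≠ 0 := Cfsg.Agent.Helper25.card_ne_zero
  have hCa : (Nat.card (Subgroup.centralizer ({a} : Set G)) : ℂ) ≠ 0 := by
    intro h; rw [h, mul_zero] at ha'; exact hG ha'.symm
  have hCb : (Nat.card (Subgroup.centralizer ({b} : Set G)) : ℂ) ≠ 0 := by
    intro h; rw [h, mul_zero] at hb'; exact hG hb'.symm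
  have hconj : ∀ χ : Cfsg.IrrCharacter G, (χ : G → ℂ) a * (χ : G → ℂ) b * (starRingEnd ℂ) ((χ : G → ℂ) c) / (χ : G → ℂ) 1
      = (χ : G → ℂ) a * (χ : G → ℂ) b * (χ : G → ℂ) c⁻¹ / (χ : G → ℂ) 1 := by
    intro χ
    rw [Cfsg.Agent.Helper25.irr_inv]
  rw [Finset.sum_congr rfl (fun χ _ => hconj χ)]
  set S := ∑ χ : Cfsg.IrrCharacter G, (χ : G → ℂ) a * (χ : G → ℂ) b * (χ : G → ℂ) c⁻¹ / (χ : G → ℂ) 1 with hS
  set N := (Nat.card {p : G × G // IsConj a p.1 ∧ IsConj b p.2 ∧ p.1 * p.2 = c} : ℂ) with hN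
  have e1 : (Nat.card {x : G // IsConj a x} : ℂ) = (Nat.card G : ℂ) / (Nat.card (Subgroup.centralizer ({a} : Set G)) : ℂ) := by
    rw [← ha']; field_simp
  have e2 : (Nat.card {x : G // IsConj b x} : ℂ) = (Nat.card G : ℂ) / (Nat.card (Subgroup.centralizer ({b} : Set G)) : ℂ) := by
    rw [← hb']; field_simp
  rw [e1, e2]
  field_simp
  rw [hcount]
  ring

end Cfsg.Agent.S0840
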