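import Cfsg.Statements.S0841
import Mathlib

set_option autoImplicit false
open Cfsg

namespace Cfsg.Agent.S0841

/-- If the commutator subgroup of G lies in the centre, then for all x, y in G and every natural number n one has (x * y) ^ n = x ^ n * y ^ n * c ^ (n * (n - 1) / 2) with c = y⁻¹ * x⁻¹ * y * x. -/
theorem result {G : Type*} [Group G] (hG : commutator G ≤ Subgroup.center G) (x y : G) (n : ℕ) : (x * y) ^ n = x ^ n * y ^ n * (y⁻¹ * x⁻¹ * y * x) ^ (n * (n - 1) / 2) := by
  have hc : ∀ a b : G, ∀ z : G, (a⁻¹ * b⁻¹ * a * b) * z = z * (a⁻¹ * b⁻¹ * a * b) := by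
    intro a b z
    have hmem : a⁻¹ * b⁻¹ * a * b ∈ commutator G := by
      have h1 := Subgroup.commutator_mem_commutator (H₁ := (⊤ : Subgroup G)) (H₂ := ⊤)
        (Subgroup.mem_top a⁻¹) (Subgroup.mem_top b⁻¹)
      rw [commutatorElement_def, inv_inv, inv_inv] at h1
      rw [commutator_def]
      exact h1
    have := hG hmem
    rw [Subgroup.mem_center_iff] at this
    exact (this z).symm
  set c := y⁻¹ * x⁻¹ * y * x with hcdef
  have hcz : ∀ z : G, c * z = z * c := fun z => hc y x z
  have hcomm : ∀ k : ℕ, ∀ z : G, c ^ k * z = z * c ^ k := by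
    intro k z
    exact ((Commute.pow_left (show Commute c z from hcz z) k)).eq
  have hyx : y * x = x * y * c := by
    rw [hcdef]; group
  have hynx : ∀ k : ℕ, y ^ k * x = x * y ^ k * c ^ k := by
    intro k
    induction k with
    | zero => simp
    | succ k ih =>
      calc y ^ (k + 1) * x = y ^ k * (y * x) := by rw [pow_succ, mul_assoc]
        _ = y ^ k * (x * y * c) := by rw [hyx]
        _ = (y ^ k * x) * y * c := by simp only [mul_assoc]
        _ = (x * y ^ k * c ^ k) * y * c := by rw [ih]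
        _ = x * y ^ k * (c ^ k * y) * c := by simp only [mul_assoc]
        _ = x * y ^ k * (y * c ^ k) * c := by rw [hcomm k y]
        _ = x * (y ^ k * y) * (c ^ k * c) := by simp only [mul_assoc]
        _ = x * y ^ (k + 1) * c ^ (k + 1) := by rw [← pow_succ, ← pow_succ]
  induction n with
  | zero => simp
  | succ k ih =>
    have hk : (k + 1) * (k + 1 - 1) / 2 = k * (k - 1) / 2 + k := by
      have h2 : (k + 1) * (k + 1 - 1) = k * (k - 1) + 2 * k := by
        rcases k with _ | k
        · simp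
        · simp only [Nat.add_sub_cancel]; ring
      rw [h2, Nat.add_mul_div_left _ _ (by norm_num : 0 < 2)]
    rw [hk]
    calc (x * y) ^ (k + 1) = (x * y) ^ k * (x * y) := pow_succ _ _
      _ = x ^ k * y ^ k * c ^ (k * (k - 1) / 2) * (x * y) := by rw [ih]
      _ = x ^ k * y ^ k * ((x * y) * c ^ (k * (k - 1) / 2)) := by
          rw [mul_assoc (x ^ k * y ^ k), hcomm]
      _ = x ^ k * (y ^ k * x) * y * c ^ (k * (k - 1) / 2) := by simp only [mul_assoc]
      _ = x ^ k * (x * y ^ k * c ^ k) * y * c ^ (k * (k - 1) / 2) := by rw [hynx]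
      _ = x ^ k * x * y ^ k * (c ^ k * y) * c ^ (k * (k - 1) / 2) := by simp only [mul_assoc]
      _ = x ^ k * x * y ^ k * (y * c ^ k) * c ^ (k * (k - 1) / 2) := by rw [hcomm k y]
      _ = (x ^ k * x) * (y ^ k * y) * (c ^ k * c ^ (k * (k - 1) / 2)) := by simp only [mul_assoc]
      _ = x ^ (k + 1) * y ^ (k + 1) * c ^ (k * (k - 1) / 2 + k) := by
          rw [← pow_succ, ← pow_succ, ← pow_add, Nat.add_comm k (k * (k - 1) / 2)]

end Cfsg.Agent.S0841
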