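import Cfsg.Statements.S0849
import Mathlib
import Cfsg.Agent.Helper7.Basic

set_option autoImplicit false
open Cfsg

namespace Cfsg.Agent.S0849

theorem sq_of_conj {G : Type*} [Group G] (u a : G) (hu : orderOf u = 2) (h : IsConj u a) : a * a = 1 := by
  obtain ⟨k, hk⟩ := isConj_iff.mp h
  have hu2 : u * u = 1 := by
    have := pow_orderOf_eq_one u
    rw [hu, pow_two] at this
    exact this
  rw [← hk]
  calc k * u * k⁻¹ * (k * u * k⁻¹) = k * (u * u) * k⁻¹ := by group
    _ = 1 := by rw [hu2]; group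

/-- Let H be a subgroup of a finite group G and S a subset of H that is mapped to itself under conjugation by H, is disjoint from its conjugate by any element outside H, and is closed under inverses. Let φ be a class function of H vanishing on H away from S, and let u, v be involutions of G. Then the sum of the induced function of φ over all products a * b with a conjugate to u and b conjugate to v equals the index of H times the sum of φ (a * b) over such pairs with a and b in H. -/
theorem result {G : Type*} [Group G] [Fintype G] (H : Subgroup G) (S : Set G) (hSH : S ⊆ H) (hHS : ∀ h ∈ H, ∀ s ∈ S, h * s * h⁻¹ ∈ S) (hTI : ∀ g : G, g ∉ H → ∀ s ∈ S, g * s * g⁻¹ ∉ S) (hinv : ∀ s ∈ S, s⁻¹ ∈ S) (φ : H → ℂ) (hφ : Cfsg.IsClassFunction H φ) (hφS : ∀ x : H, (x : G) ∉ S → φ x = 0) (u v : G) (hu : orderOf u = 2) (hv : orderOf v = 2) : ∑ᶠ p ∈ {p : G × G | IsConj u p.1 ∧ IsConj v p.2}, Cfsg.indFun H φ (p.1 * p.2) = (H.index : ℂ) * ∑ᶠ p ∈ {p : H × H | IsConj u (p.1 : G) ∧ IsConj v (p.2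 : G)}, φ (p.1 * p.2) := by
  classical
  letI : Fintype H := Fintype.ofFinite H
  have hA : ∀ g : G, (∑ p : G × G, if IsConj u p.1 ∧ IsConj v p.2 then
        Cfsg.extendByZero H φ (g⁻¹ * (p.1 * p.2) * g) else 0)
      = ∑ p : G × G, if IsConj u p.1 ∧ IsConj v p.2 then Cfsg.extendByZero H φ (p.1 * p.2) else 0 := by
    intro g
    apply Fintype.sum_equiv (Equiv.prodCongr (MulAut.conj g⁻¹).toEquiv (MulAut.conj g⁻¹).toEquiv)
    rintro ⟨a, b⟩
    show (if IsConj u a ∧ IsConj v b then Cfsg.extendByZero H φ (g⁻¹ * (a * b) * g) else 0)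
      = if IsConj u (g⁻¹ * a * g⁻¹⁻¹) ∧ IsConj v (g⁻¹ * b * g⁻¹⁻¹) then
          Cfsg.extendByZero H φ (g⁻¹ * a * g⁻¹⁻¹ * (g⁻¹ * b * g⁻¹⁻¹)) else 0
    have e1 : g⁻¹ * a * g⁻¹⁻¹ * (g⁻¹ * b * g⁻¹⁻¹) = g⁻¹ * (a * b) * g := by group
    have c1 : IsConj u (g⁻¹ * a * g⁻¹⁻¹) ↔ IsConj u a := by
      constructor
      · intro h
        refine h.trans (isConj_iff.mpr ⟨g, by group⟩)
      · intro h
        exact h.trans (isConj_iff.mpr ⟨g⁻¹, rfl⟩)
    have c2 : IsConj v (g⁻¹ * b * g⁻¹⁻¹) ↔ IsConj v b := by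
      constructor
      · intro h
        refine h.trans (isConj_iff.mpr ⟨g, by group⟩)
      · intro h
        exact h.trans (isConj_iff.mpr ⟨g⁻¹, rfl⟩)
    rw [e1]
    simp only [c1, c2]
  have hC : (∑ p : G × G, if IsConj u p.1 ∧ IsConj v p.2 then Cfsg.extendByZero H φ (p.1 * p.2) else 0)
      = ∑ q : H × H, if IsConj u (q.1 : G) ∧ IsConj v (q.2 : G) then φ (q.1 * q.2) else 0 := by
    symm
    apply Fintype.sum_of_injective (fun q : H × H => ((q.1 : G), (q.2 : G)))
    · rintro ⟨a, b⟩ ⟨c, d⟩ h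
      simp only [Prod.mk.injEq] at h
      exact Prod.ext (Subtype.ext h.1) (Subtype.ext h.2)
    · rintro ⟨a, b⟩ hnot
      by_cases hP : IsConj u a ∧ IsConj v b
      · rw [if_pos hP]
        show Cfsg.extendByZero H φ (a * b) = 0
        by_cases hab : a * b ∈ H
        · have e : a * b = ((⟨a * b, hab⟩ : H) : G) := rfl
          rw [e, Cfsg.Agent.Helper7.extendByZero_apply_mem]
          apply hφS
          intro hS
          show False
          have ha2 := sq_of_conj u a hu hP.1
          have hb2 := sq_of_conj v b hv hP.2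
          have hainv : a⁻¹ = a := inv_eq_of_mul_eq_one_left ha2
          have hbinv : b⁻¹ = b := inv_eq_of_mul_eq_one_left hb2
          have hsinv : (a * b)⁻¹ = b * a := by rw [mul_inv_rev, hainv, hbinv]
          have h1 : a * (a * b) * a⁻¹ ∈ S := by
            have : a * (a * b) * a⁻¹ = (a * b)⁻¹ := by
              rw [hsinv, hainv, ← mul_assoc, ha2, one_mul]
            rw [this]; exact hinv _ hS
          have h2 : b * (a * b) * b⁻¹ ∈ S := by
            have : b * (a * b) * b⁻¹ = (a * b)⁻¹ := by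
              rw [hsinv, hbinv, mul_assoc, mul_assoc, hb2, mul_one]
            rw [this]; exact hinv _ hS
          have haH : a ∈ H := by
            by_contra hn; exact hTI a hn _ hS h1
          have hbH : b ∈ H := by
            by_contra hn; exact hTI b hn _ hS h2
          exact hnot ⟨(⟨a, haH⟩, ⟨b, hbH⟩), rfl⟩
        · exact Cfsg.Agent.Helper7.extendByZero_apply_not_mem H φ _ hab
      · rw [if_neg hP]
    · rintro ⟨a, b⟩
      show (if IsConj u (a : G) ∧ IsConj v (b : G) then φ (a * b) else 0)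
        = if IsConj u (a : G) ∧ IsConj v (b : G) then Cfsg.extendByZero H φ ((a : G) * (b : G)) else 0
      have e : (a : G) * (b : G) = ((a * b : H) : G) := rfl
      rw [e, Cfsg.Agent.Helper7.extendByZero_apply_mem]
  rw [Cfsg.Agent.Helper7.finsum_mem_setOf_eq_sum (fun p : G × G => IsConj u p.1 ∧ IsConj v p.2),
    Cfsg.Agent.Helper7.finsum_mem_setOf_eq_sum (fun q : H × H => IsConj u (q.1 : G) ∧ IsConj v (q.2 : G)),
    ← hC]
  have hstep : ∀ p : G × G, (if IsConj u p.1 ∧ IsConj v p.2 then Cfsg.indFun H φ (p.1 * p.2) else 0)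
      = (Nat.card H : ℂ)⁻¹ * ∑ g : G, (if IsConj u p.1 ∧ IsConj v p.2 then
          Cfsg.extendByZero H φ (g⁻¹ * (p.1 * p.2) * g) else 0) := by
    intro p
    by_cases hP : IsConj u p.1 ∧ IsConj v p.2
    · simp only [if_pos hP]; rfl
    · simp only [if_neg hP]; simp
  rw [Finset.sum_congr rfl (fun p _ => hstep p), ← Finset.mul_sum, Finset.sum_comm,
    Finset.sum_congr rfl (fun g _ => hA g), Finset.sum_const, Finset.card_univ, nsmul_eq_mul, ← mul_assoc]
  congr 1
  have hidx : (H.index : ℂ) * (Nat.card H : ℂ) = (Fintype.card G : ℂ) := by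
    rw [← Nat.cast_mul, Subgroup.index_mul_card, Nat.card_eq_fintype_card]
  have hH0 : (Nat.card H : ℂ) ≠ 0 := Nat.cast_ne_zero.mpr Nat.card_pos.ne'
  rw [← hidx]
  field_simp

end Cfsg.Agent.S0849
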