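import Cfsg.Statements.S0850
import Mathlib
import Cfsg.Agent.Helper7.Basic

set_option autoImplicit false
open Cfsg

namespace Cfsg.Agent.S0850

theorem part1 {G : Type*} [Group G] [Finite G] (K : Subgroup G)
    (hTI : ∀ g : G, g ∉ Subgroup.normalizer (K : Set G) → ∀ k ∈ K, g * k * g⁻¹ ∈ K → k = 1)
    (hC : ∀ k ∈ K, k ≠ 1 → Subgroup.centralizer ({k} : Set G) ≤ K)
    (x : G) (hxN : x ∈ Subgroup.normalizer (K : Set G)) (hxK : x ∉ K) (g : G) : g * x * g⁻¹ ∉ K := by
  classical
  intro hk
  -- g ∉ N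
  have hgN : g ∉ Subgroup.normalizer (K : Set G) := by
    intro hg
    have hg' : g⁻¹ ∈ Subgroup.normalizer (K : Set G) := Subgroup.inv_mem _ hg
    have := (Subgroup.mem_normalizer_iff.mp hg' (g * x * g⁻¹)).mp hk
    apply hxK
    have e : g⁻¹ * (g * x * g⁻¹) * g⁻¹⁻¹ = x := by group
    rwa [e] at this
  have hx1 : x ≠ 1 := by
    intro h; apply hxK; rw [h]; exact K.one_mem
  have hox : orderOf x ≠ 1 := by
    intro h; exact hx1 (orderOf_eq_one_iff.mp h)
  obtain ⟨p, hp, hpd⟩ := Nat.exists_prime_and_dvd hox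
  have _i : Fact p.Prime := ⟨hp⟩
  have hox0 : orderOf x ≠ 0 := (orderOf_pos x).ne'
  set y := x ^ (orderOf x / p) with hy
  have hoy : orderOf y = p := orderOf_pow_orderOf_div hox0 hpd
  have hyN : y ∈ Subgroup.normalizer (K : Set G) := Subgroup.pow_mem _ hxN _
  have hy1 : y ≠ 1 := by
    intro h
    rw [h, orderOf_one] at hoy
    exact hp.one_lt.ne hoy
  have hgy : g * y * g⁻¹ ∈ K := by
    have : g * y * g⁻¹ = (g * x * g⁻¹) ^ (orderOf x / p) := by
      rw [hy, conj_pow]
    rw [this]; exact K.pow_mem hk _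
  have hyK : y ∉ K := fun h => hy1 (hTI g hgN y h hgy)
  -- the p-group P = ⟨y⟩ acts on K
  let P : Subgroup G := Subgroup.zpowers y
  have hPN : P ≤ Subgroup.normalizer (K : Set G) := by
    rw [Subgroup.zpowers_le]; exact hyN
  have hPp : IsPGroup p P := by
    apply IsPGroup.of_card (n := 1)
    rw [pow_one, Nat.card_zpowers, hoy]
  let act : P → K → K := fun z k =>
    ⟨(z : G) * (k : G) * (z : G)⁻¹, (Subgroup.mem_normalizer_iff.mp (hPN z.2) (k : G)).mp k.2⟩
  let _inst : MulAction P K :=
    { smul := act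
      one_smul := by
        rintro ⟨d, hd⟩
        apply Subtype.ext
        show ((1 : P) : G) * d * ((1 : P) : G)⁻¹ = d
        simp
      mul_smul := by
        rintro a b ⟨d, hd⟩
        apply Subtype.ext
        show ((a * b : P) : G) * d * ((a * b : P) : G)⁻¹ = (a : G) * ((b : G) * d * (b : G)⁻¹) * (a : G)⁻¹
        simp [mul_assoc] }
  have hsmul : ∀ (z : P) (k : K), z • k = act z k := fun _ _ => rfl
  have hfix : MulAction.fixedPoints P K = {1} := by
    ext k
    simp only [Set.mem_singleton_iff]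
    constructor
    · intro hk'
      by_contra hk1
      have h2 := hk' ⟨y, Subgroup.mem_zpowers y⟩
      rw [hsmul] at h2
      have h3 : y * (k : G) * y⁻¹ = (k : G) := congrArg Subtype.val h2
      have hk1' : (k : G) ≠ 1 := fun h => hk1 (Subtype.ext h)
      have hycent : y ∈ Subgroup.centralizer ({(k : G)} : Set G) := by
        rw [Subgroup.mem_centralizer_iff]
        intro a ha
        rw [Set.mem_singleton_iff] at ha
        rw [ha]
        calc (k : G) * y = (y * (k : G) * y⁻¹) * y := by rw [h3]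
          _ = y * (k : G) := by group
      exact hyK (hC k k.2 hk1' hycent)
    · intro hk'
      rw [hk']
      intro z
      rw [hsmul]
      apply Subtype.ext
      show (z : G) * ((1 : K) : G) * (z : G)⁻¹ = ((1 : K) : G)
      simp
  have hmod := hPp.card_modEq_card_fixedPoints K
  rw [hfix] at hmod
  have hcard1 : Nat.card ({1} : Set K) = 1 := by simp
  rw [hcard1] at hmod
  have hpK : p ∣ Nat.card K := by
    have h1 : orderOf (⟨g * y * g⁻¹, hgy⟩ : K) = p := by
      rw [← hoy, Subgroup.orderOf_mk]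
      exact orderOf_injective (MulAut.conj g).toMonoidHom (MulAut.conj g).injective y
    rw [← h1]
    exact orderOf_dvd_natCard _
  have h0 : Nat.card K % p = 0 := Nat.mod_eq_zero_of_dvd hpK
  unfold Nat.ModEq at hmod
  rw [h0, Nat.mod_eq_of_lt hp.one_lt] at hmod
  exact absurd hmod (by norm_num)

theorem part2 {G : Type*} [Group G] [Fintype G] (K N : Subgroup G)
    (hTI : ∀ g : G, g ∉ N → ∀ k ∈ K, g * k * g⁻¹ ∈ K → k = 1)
    (hp1 : ∀ x ∈ N, x ∉ K → ∀ g : G, g * x * g⁻¹ ∉ K)
    (ϑ : N → ℂ) (hcf : Cfsg.IsClassFunction N ϑ) (hvan : ∀ x : N, (x : G) ∉ K → ϑ x = 0)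
    (h1 : ϑ 1 = 0) (x : N) : Cfsg.indFun N ϑ x = ϑ x := by
  classical
  unfold Cfsg.indFun
  by_cases hxK : (x : G) ∈ K
  · by_cases hx1 : x = 1
    · subst hx1
      rw [h1]
      have : ∀ g : G, Cfsg.extendByZero N ϑ (g⁻¹ * ((1 : N) : G) * g) = 0 := by
        intro g
        have e : g⁻¹ * ((1 : N) : G) * g = ((1 : N) : G) := by simp
        rw [e, Cfsg.Agent.Helper7.extendByZero_apply_mem, h1]
      rw [Finset.sum_eq_zero (fun g _ => this g), mul_zero]
    · have hx1' : (x : G) ≠ 1 := fun h => hx1 (Subtype.ext h)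
      have hsum : ∀ g : G, Cfsg.extendByZero N ϑ (g⁻¹ * (x : G) * g) = if g ∈ N then ϑ x else 0 := by
        intro g
        by_cases hg : g ∈ N
        · rw [if_pos hg]
          have hmem : g⁻¹ * (x : G) * g ∈ N := N.mul_mem (N.mul_mem (N.inv_mem hg) x.2) hg
          have e : g⁻¹ * (x : G) * g = ((⟨g⁻¹ * (x : G) * g, hmem⟩ : N) : G) := rfl
          rw [e, Cfsg.Agent.Helper7.extendByZero_apply_mem]
          have h2 := hcf x ⟨g⁻¹, N.inv_mem hg⟩
          rw [← h2]
          congr 1
          apply Subtype.ext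
          simp
        · rw [if_neg hg]
          have hg' : g⁻¹ ∉ N := fun h => hg (by simpa using N.inv_mem h)
          have hnK : g⁻¹ * (x : G) * g ∉ K := by
            intro h
            apply hx1'
            apply hTI g⁻¹ hg' (x : G) hxK
            rwa [inv_inv]
          by_cases hmem : g⁻¹ * (x : G) * g ∈ N
          · have e : g⁻¹ * (x : G) * g = ((⟨g⁻¹ * (x : G) * g, hmem⟩ : N) : G) := rfl
            rw [e, Cfsg.Agent.Helper7.extendByZero_apply_mem]
            exact hvan ⟨g⁻¹ * (x : G) * g, hmem⟩ hnK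
          · exact Cfsg.Agent.Helper7.extendByZero_apply_not_mem N ϑ _ hmem
      rw [Finset.sum_congr rfl (fun g _ => hsum g), Finset.sum_ite, Finset.sum_const, Finset.sum_const_zero,
        add_zero, nsmul_eq_mul]
      have hcard : (Finset.univ.filter (fun g : G => g ∈ N)).card = Nat.card N := by
        rw [Nat.card_eq_fintype_card, Fintype.card_subtype]
      rw [hcard]
      have hN0 : (Nat.card N : ℂ) ≠ 0 := Nat.cast_ne_zero.mpr Nat.card_pos.ne'
      field_simp
  · rw [hvan x hxK]
    have : ∀ g : G, Cfsg.extendByZero N ϑ (g⁻¹ * (x : G) * g) = 0 := by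
      intro g
      have hnK : g⁻¹ * (x : G) * g ∉ K := by
        have := hp1 (x : G) x.2 hxK g⁻¹
        rwa [inv_inv] at this
      by_cases hmem : g⁻¹ * (x : G) * g ∈ N
      · have e : g⁻¹ * (x : G) * g = ((⟨g⁻¹ * (x : G) * g, hmem⟩ : N) : G) := rfl
        rw [e, Cfsg.Agent.Helper7.extendByZero_apply_mem]
        exact hvan ⟨g⁻¹ * (x : G) * g, hmem⟩ hnK
      · exact Cfsg.Agent.Helper7.extendByZero_apply_not_mem N ϑ _ hmem
    rw [Finset.sum_eq_zero (fun g _ => this g), mul_zero]

/-- Let K be a subgroup of the finite group G that meets each conjugate by an element outside its normalizer N trivially, is properly contained in N, and contains the centralizer of each of its non-identity elements (a T.I. subgroup with Frobenius normalizer). Then no element of N outside K is conjugate in G to an element of K, and for every class function ϑ of N that vanishes on N away from K and at the identity, the function induced from ϑ to G agrees with ϑ on all of N. -/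
theorem result {G : Type*} [Group G] [Fintype G] (K : Subgroup G) (hTI : ∀ g : G, g ∉ Subgroup.normalizer (K : Set G) → ∀ k ∈ K, g * k * g⁻¹ ∈ K → k = 1) (hlt : K < Subgroup.normalizer (K : Set G)) (hC : ∀ k ∈ K, k ≠ 1 → Subgroup.centralizer ({k} : Set G) ≤ K) : (∀ x ∈ Subgroup.normalizer (K : Set G), x ∉ K → ∀ g : G, g * x * g⁻¹ ∉ K) ∧ ∀ (ϑ : Subgroup.normalizer (K : Set G) → ℂ), Cfsg.IsClassFunction (Subgroup.normalizer (K : Set G)) ϑ → (∀ x : Subgroup.normalizer (K : Set G), (x : G) ∉ K → ϑ x = 0) → ϑ 1 = 0 → ∀ x : Subgroup.normalizer (K : Set G), Cfsg.indFun (Subgroup.normalizer (K : Set G)) ϑ x = ϑ x := by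
  refine ⟨fun x hxN hxK g => part1 K hTI hC x hxN hxK g, ?_⟩
  intro ϑ hcf hvan h1 x
  exact part2 K (Subgroup.normalizer (K : Set G)) hTI (fun x hxN hxK g => part1 K hTI hC x hxN hxK g) ϑ hcf hvan h1 x

end Cfsg.Agent.S0850
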