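import Cfsg.Statements.S0867
import Mathlib
import Cfsg.Agent.S0866
import Cfsg.Agent.S0865

set_option autoImplicit false
open Cfsg

namespace Cfsg.Agent.S0867

/-- Let N be a normal subgroup of the finite group G and ϑ an irreducible character of N of degree d, invariant under conjugation by G, such that the index of N is coprime to the product of d and the determinantal order of ϑ. Then there is an irreducible character χ of G restricting to ϑ whose determinantal order equals that of ϑ, and χ is the only irreducible character of G restricting to ϑ whose determinantal order is coprime to the index of N. -/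
theorem result {G : Type*} [Group G] [Finite G] (N : Subgroup G) [hN : N.Normal] (ϑ : N → ℂ) (hϑ : Cfsg.IsIrrCharacter N ϑ) (hinv : ∀ (g : G) (n : N), ϑ ⟨g * n * g⁻¹, hN.conj_mem (n : G) n.2 g⟩ = ϑ n) (d : ℕ) (hd : ϑ 1 = d) (hcop : Nat.Coprime N.index (Cfsg.detOrder ϑ * d)) : ∃ χ : G → ℂ, (Cfsg.IsIrrCharacter G χ ∧ (∀ n : N, χ n = ϑ n) ∧ Cfsg.detOrder χ = Cfsg.detOrder ϑ) ∧ ∀ χ' : G → ℂ, Cfsg.IsIrrCharacter G χ' → (∀ n : N, χ' n = ϑ n) → Nat.Coprime N.index (Cfsg.detOrder χ') → χ' = χ := by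
  classical
  have hϑc := Helper2.isCharacter_of_isIrrCharacter hϑ
  obtain ⟨δ, hδ⟩ := Helper7.exists_hom_detChar ϑ hϑc
  have hlam : Cfsg.IsCharacter N (Cfsg.detChar ϑ) ∧ Cfsg.detChar ϑ 1 = 1 := by
    rw [hδ]
    exact ⟨Helper7.isCharacter_of_hom δ, by simp⟩
  have hlinv : ∀ (g : G) (n : N),
      Cfsg.detChar ϑ ⟨g * n * g⁻¹, hN.conj_mem (n : G) n.2 g⟩ = Cfsg.detChar ϑ n := by
    intro g n
    have h1 : (fun m : N => ϑ ((MulAut.conjNormal g : N ≃* N).toMonoidHom m)) = ϑ := by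
      funext m
      exact hinv g m
    have h2 := Helper7.detChar_comp (MulAut.conjNormal g : N ≃* N).toMonoidHom ϑ hϑc
    rw [h1] at h2
    have h3 := congrFun h2 n
    rw [h3]
    congr 1
  have hcop1 : Nat.Coprime N.index (orderOf (Cfsg.detChar ϑ)) :=
    Nat.Coprime.coprime_mul_right_right hcop
  have hcop2 : Nat.Coprime N.index d := Nat.Coprime.coprime_mul_left_right hcop
  obtain ⟨μ, ⟨hμc, hμ1, hμN, hμo⟩, hμu⟩ :=
    Cfsg.Agent.S0865.result N (Cfsg.detChar ϑ) hlam hlinv hcop1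
  obtain ⟨f, hf⟩ := Helper7.exists_hom_of_linear μ hμc hμ1
  have hext := Cfsg.Agent.S0866.ext_main (μ := f)
    ⟨hϑ, hinv, hd, hcop2, fun n => by rw [← hμN n, hf]⟩
  obtain ⟨χ, ⟨hχ, hχN, hχdet⟩, hχu⟩ :=
    Cfsg.Agent.S0862.result N ϑ hϑ d hd hcop2 hext μ ⟨hμc, hμ1⟩ hμN
  refine ⟨χ, ⟨hχ, hχN, ?_⟩, ?_⟩
  · show orderOf (Cfsg.detChar χ) = orderOf (Cfsg.detChar ϑ)
    rw [hχdet, hμo]
  · intro χ' hχ' hχ'N hcop'
    apply hχu
    refine ⟨hχ', hχ'N, ?_⟩
    have hχ'c := Helper2.isCharacter_of_isIrrCharacter hχ'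
    obtain ⟨δ', hδ'⟩ := Helper7.exists_hom_detChar χ' hχ'c
    apply hμu (Cfsg.detChar χ')
    · rw [hδ']
      exact ⟨Helper7.isCharacter_of_hom δ', by simp⟩
    · intro n
      have hϑeq : ϑ = fun n : N => χ' n := by
        funext n
        exact (hχ'N n).symm
      rw [hϑeq, Helper7.detChar_restrict N χ' hχ'c]
    · exact hcop'

end Cfsg.Agent.S0867
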