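import Cfsg.Statements.S4455
import Mathlib
import Cfsg.Agent.Helper2.PRestrict
import Cfsg.Agent.S0867
import Cfsg.Agent.Helper25.CharKer
import Cfsg.Agent.Helper25.CharMore
import Cfsg.Agent.Helper13.PRes

set_option autoImplicit false
open Cfsg

namespace Cfsg.Agent.S4455

open Cfsg Cfsg.Agent.Helper2

theorem charDegree_conjChar {G : Type*} [Group G] (K : Subgroup G) [K.Normal] (θ : K → ℂ)
    (x : G) : charDegree (conjChar K θ x) = charDegree θ := by
  unfold charDegree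
  rw [conjChar_apply]
  congr 3
  apply Subtype.ext
  simp

/-- The general form: `K ⊴ G` of `p`-power index all of whose linear characters have order prime
to `p`. -/
theorem thompson_count {G : Type*} [Group G] [Finite G] (p : ℕ) [hp : Fact p.Prime]
    (K : Subgroup G) [hKn : K.Normal] (k : ℕ) (hk : K.index = p ^ k)
    (hlin : ∀ δ : K →* ℂˣ, Nat.Coprime (orderOf δ) p)
    (hgen : ∀ (R : Sylow p G) (g : G), ∃ r ∈ R, ∃ u ∈ K, g = r * u) :
    (Nat.card K : ℤ) ≡ (∑ᶠ χ ∈ {χ : Cfsg.IrrCharacter G | ¬ p ∣ Cfsg.charDegree (χ : G → ℂ) ∧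
      ¬ p ∣ Cfsg.detOrder (χ : G → ℂ)}, (Cfsg.charDegree (χ : G → ℂ) : ℤ) ^ 2) [ZMOD p] := by
  classical
  letI := Fintype.ofFinite G
  letI : Fintype K := Fintype.ofFinite K
  have hpp := hp.out
  -- coprimality of determinantal orders on K
  have hdetK : ∀ θ : IrrCharacter K, Nat.Coprime (detOrder (θ : K → ℂ)) p := by
    intro θ
    obtain ⟨δ, hδ⟩ := Cfsg.Agent.Helper7.exists_hom_detChar (θ : K → ℂ)
      (isCharacter_of_isIrrCharacter θ.2)
    unfold detOrder
    rw [hδ, Cfsg.Agent.Helper7.orderOf_hom_fun]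
    exact hlin δ
  have hcopK : ∀ θ : IrrCharacter K, ¬ p ∣ charDegree (θ : K → ℂ) →
      Nat.Coprime K.index (detOrder (θ : K → ℂ) * charDegree (θ : K → ℂ)) := by
    intro θ hθ
    rw [hk]
    apply Nat.Coprime.pow_left
    exact Nat.Coprime.mul_right (hdetK θ).symm ((Nat.Prime.coprime_iff_not_dvd hpp).mpr hθ)
  -- the sets
  obtain ⟨A, hA⟩ : ∃ A : Set (IrrCharacter G), A = {χ : Cfsg.IrrCharacter G |
      ¬ p ∣ Cfsg.charDegree (χ : G → ℂ) ∧ ¬ p ∣ Cfsg.detOrder (χ : G → ℂ)} := ⟨_, rfl⟩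
  obtain ⟨B, hB⟩ : ∃ B : Set (IrrCharacter K), B = {θ : IrrCharacter K |
      (∀ (g : G) (n : K), (θ : K → ℂ) ⟨g * n * g⁻¹, hKn.conj_mem (n : G) n.2 g⟩ = (θ : K → ℂ) n)
        ∧ ¬ p ∣ charDegree (θ : K → ℂ)} := ⟨_, rfl⟩
  rw [← hA]
  -- the restriction map
  obtain ⟨r, hr⟩ : ∃ r : IrrCharacter G → IrrCharacter K, r = fun χ : IrrCharacter G =>
      if h : IsIrrCharacter K (fun m : K => (χ : G → ℂ) m) then ⟨_, h⟩
      else Cfsg.Agent.Helper25.trivChar K := ⟨_, rfl⟩
  have hirrA : ∀ χ : IrrCharacter G, χ ∈ A → IsIrrCharacter K (fun m : K => (χ : G → ℂ) m) := by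
    intro χ hχ
    rw [hA] at hχ
    exact irr_restrict_of_pow_index p k G K hk χ hχ.1
  have hrA : ∀ χ : IrrCharacter G, χ ∈ A → ((r χ : IrrCharacter K) : K → ℂ)
      = fun m : K => (χ : G → ℂ) m := by
    intro χ hχ
    rw [hr]
    simp only [dif_pos (hirrA χ hχ)]
  have hbij : Set.BijOn r A B := by
    refine ⟨?_, ?_, ?_⟩
    · intro χ hχ
      have h1 := hrA χ hχ
      rw [hB]
      refine ⟨?_, ?_⟩
      · intro g n
        rw [h1]
        exact Cfsg.Agent.Helper25.irr_conj χ (n : G) g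
      · rw [h1]
        rw [hA] at hχ
        exact hχ.1
    · intro χ hχ χ' hχ' heq
      have h1 := hrA χ hχ
      have h1' := hrA χ' hχ'
      rw [heq] at h1
      have hθB : ¬ p ∣ charDegree ((r χ' : IrrCharacter K) : K → ℂ) := by
        rw [h1']
        rw [hA] at hχ'
        exact hχ'.1
      have hinv : ∀ (g : G) (n : K), ((r χ' : IrrCharacter K) : K → ℂ)
          ⟨g * n * g⁻¹, hKn.conj_mem (n : G) n.2 g⟩ = ((r χ' : IrrCharacter K) : K → ℂ) n := by
        intro g n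
        rw [h1']
        exact Cfsg.Agent.Helper25.irr_conj χ' (n : G) g
      obtain ⟨χ0, -, huniq⟩ := Cfsg.Agent.S0867.result K ((r χ' : IrrCharacter K) : K → ℂ)
        (r χ').2 hinv (charDegree ((r χ' : IrrCharacter K) : K → ℂ))
        (Cfsg.Agent.Helper25.irr_one_eq_degree (r χ')) (hcopK (r χ') hθB)
      rw [hA] at hχ hχ'
      have e1 := huniq (χ : G → ℂ) χ.2 (fun n => (congrFun h1 n).symm)
        (by rw [hk]; exact Nat.Coprime.pow_left k ((Nat.Prime.coprime_iff_not_dvd hpp).mpr hχ.2))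
      have e2 := huniq (χ' : G → ℂ) χ'.2 (fun n => (congrFun h1' n).symm)
        (by rw [hk]; exact Nat.Coprime.pow_left k ((Nat.Prime.coprime_iff_not_dvd hpp).mpr hχ'.2))
      exact Subtype.ext (e1.trans e2.symm)
    · intro θ hθ
      rw [hB] at hθ
      obtain ⟨χ0, ⟨hχ0, hres, hdet⟩, -⟩ := Cfsg.Agent.S0867.result K (θ : K → ℂ) θ.2 hθ.1
        (charDegree (θ : K → ℂ)) (Cfsg.Agent.Helper25.irr_one_eq_degree θ) (hcopK θ hθ.2)
      have hdeg : charDegree χ0 = charDegree (θ : K → ℂ) := by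
        unfold charDegree
        rw [← hres 1]
        rfl
      have hχA : (⟨χ0, hχ0⟩ : IrrCharacter G) ∈ A := by
        rw [hA]
        refine ⟨?_, ?_⟩
        · show ¬ p ∣ charDegree χ0
          rw [hdeg]; exact hθ.2
        · show ¬ p ∣ detOrder χ0
          rw [hdet]
          exact fun hd => (Nat.Prime.coprime_iff_not_dvd hpp).mp (hdetK θ).symm hd
      refine ⟨⟨χ0, hχ0⟩, hχA, ?_⟩
      apply Subtype.ext
      rw [hrA _ hχA]
      funext n
      exact hres n
  have hsumAB : (∑ᶠ χ ∈ A, (Cfsg.charDegree (χ : G → ℂ) : ℤ) ^ 2)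
      = ∑ᶠ θ ∈ B, (Cfsg.charDegree (θ : K → ℂ) : ℤ) ^ 2 := by
    apply finsum_mem_eq_of_bijOn r hbij
    intro χ hχ
    rw [hrA χ hχ]
    rfl
  rw [hsumAB]
  have hsumB : (∑ᶠ θ ∈ B, (Cfsg.charDegree (θ : K → ℂ) : ℤ) ^ 2)
      = ∑ θ ∈ Finset.univ.filter (fun θ : IrrCharacter K => θ ∈ B),
          (Cfsg.charDegree (θ : K → ℂ) : ℤ) ^ 2 := by
    apply finsum_mem_eq_sum_of_inter_support_eq
    ext θ
    simp
  rw [hsumB]
  -- the orbit count
  obtain ⟨R⟩ : Nonempty (Sylow p G) := inferInstance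
  letI := conjAction K (R : Subgroup G)
  have hfinv : ∀ (x : (R : Subgroup G)) (θ : IrrCharacter K),
      (charDegree ((x • θ : IrrCharacter K) : K → ℂ) : ℤ) ^ 2
        = (charDegree (θ : K → ℂ) : ℤ) ^ 2 := by
    intro x θ
    have : ((x • θ : IrrCharacter K) : K → ℂ) = conjChar K (θ : K → ℂ) ((x : G)⁻¹) := rfl
    rw [this, charDegree_conjChar]
  have h1 := sum_modEq_sum_fixed (P := (R : Subgroup G)) (X := IrrCharacter K) p R.isPGroup'
    (fun θ => (charDegree (θ : K → ℂ) : ℤ) ^ 2) hfinv _ Finset.univ rfl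
    (fun _ _ _ => Finset.mem_univ _)
  have hfix : ∀ θ : IrrCharacter K, (∀ x : (R : Subgroup G), x • θ = θ) ↔
      ∀ (g : G) (n : K), (θ : K → ℂ) ⟨g * n * g⁻¹, hKn.conj_mem (n : G) n.2 g⟩
        = (θ : K → ℂ) n := by
    intro θ
    constructor
    · intro hx g n
      obtain ⟨a, ha, u, hu, rfl⟩ := hgen R g
      have h2 : conjChar K (θ : K → ℂ) a = (θ : K → ℂ) := by
        have h3 := congrArg Subtype.val (hx (⟨a, ha⟩⁻¹ : (R : Subgroup G)))
        have h4 : (((⟨a, ha⟩⁻¹ : (R : Subgroup G)) • θ : IrrCharacter K) : K → ℂ)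
            = conjChar K (θ : K → ℂ) ((((⟨a, ha⟩⁻¹ : (R : Subgroup G)) : G))⁻¹) := rfl
        rw [h4] at h3
        simpa using h3
      have h5 : conjChar K (θ : K → ℂ) (a * u) = (θ : K → ℂ) := by
        rw [← conjChar_mul, h2]
        exact conjChar_of_mem K (θ : K → ℂ)
          (isClassFunction_of_isCharacter (isCharacter_of_isIrrCharacter θ.2)) hu
      exact congrFun h5 n
    · intro hinv x
      apply Subtype.ext
      show conjChar K (θ : K → ℂ) ((x : G)⁻¹) = (θ : K → ℂ)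
      funext n
      exact hinv _ n
  have hK : (Nat.card K : ℤ) = ∑ θ : IrrCharacter K, (charDegree (θ : K → ℂ) : ℤ) ^ 2 := by
    have := Cfsg.Agent.Helper25.sum_irr_degree_sq_nat (G := K)
    rw [← this]
    push_cast
    rfl
  rw [hK]
  refine h1.trans ?_
  -- drop the characters of degree divisible by p
  have hfilt : Finset.univ.filter (fun θ : IrrCharacter K => θ ∈ B)
      = (Finset.univ.filter (fun θ : IrrCharacter K => ∀ x : (R : Subgroup G), x • θ = θ)).filter
        (fun θ : IrrCharacter K => ¬ p ∣ charDegree (θ : K → ℂ)) := by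
    ext θ
    simp only [Finset.mem_filter, Finset.mem_univ, true_and]
    rw [hB, hfix θ]
    rfl
  rw [hfilt]
  rw [← Finset.sum_filter_add_sum_filter_not
    (Finset.univ.filter (fun θ : IrrCharacter K => ∀ x : (R : Subgroup G), x • θ = θ))
    (fun θ : IrrCharacter K => ¬ p ∣ charDegree (θ : K → ℂ))]
  have hzero : (∑ θ ∈ (Finset.univ.filter
      (fun θ : IrrCharacter K => ∀ x : (R : Subgroup G), x • θ = θ)).filter
        (fun θ : IrrCharacter K => ¬ ¬ p ∣ charDegree (θ : K → ℂ)), (charDegree (θ : K → ℂ) : ℤ) ^ 2)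
      ≡ 0 [ZMOD p] := by
    rw [Int.modEq_zero_iff_dvd]
    apply Finset.dvd_sum
    intro θ hθ
    rw [Finset.mem_filter] at hθ
    have h2 : p ∣ charDegree (θ : K → ℂ) := not_not.mp hθ.2
    exact Dvd.dvd.pow (Int.natCast_dvd_natCast.mpr h2) two_ne_zero
  have := Int.ModEq.add_left (∑ θ ∈ (Finset.univ.filter
      (fun θ : IrrCharacter K => ∀ x : (R : Subgroup G), x • θ = θ)).filter
        (fun θ : IrrCharacter K => ¬ p ∣ charDegree (θ : K → ℂ)), (charDegree (θ : K → ℂ) : ℤ) ^ 2) hzero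
  rw [add_zero] at this
  exact this

/-- Fix a prime p and a finite group G. Let s be the sum of χ(1)² over the irreducible characters χ of G whose degree is not divisible by p and whose determinantal order o(χ) is not divisible by p. Then the order of O^p(G), the subgroup generated by the elements of order prime to p, is congruent to s modulo p. -/
theorem result {G : Type*} [Group G] [Finite G] (p : ℕ) (hp : p.Prime) : (Nat.card (Cfsg.pResidual p G) : ℤ) ≡ (∑ᶠ χ ∈ {χ : Cfsg.IrrCharacter G | ¬ p ∣ Cfsg.charDegree (χ : G → ℂ) ∧ ¬ p ∣ Cfsg.detOrder (χ : G → ℂ)}, (Cfsg.charDegree (χ : G → ℂ) : ℤ) ^ 2) [ZMOD p] := by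
  haveI : Fact p.Prime := ⟨hp⟩
  haveI := Cfsg.Agent.Helper13.pResidual_normal p G
  obtain ⟨k, hk⟩ : ∃ k : ℕ, (Cfsg.pResidual p G).index = p ^ k :=
    IsPGroup.iff_card.mp (Cfsg.Agent.Helper13.pResidual_quot_isPGroup p G)
  exact thompson_count p (Cfsg.pResidual p G) k hk
    (fun δ => coprime_orderOf_hom_pResidual p δ)
    (fun R g => Cfsg.Agent.Helper13.exists_mul_sylow_pResidual p G R g)

end Cfsg.Agent.S4455
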