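import Cfsg.Statements.S4456
import Mathlib
import Cfsg.Agent.S4455
import Cfsg.Agent.Helper7.LinChar

set_option autoImplicit false
open Cfsg

namespace Cfsg.Agent.S4456

open Cfsg Cfsg.Agent.Helper2

theorem det_eq_trace_fin_one (f : (Fin 1 → ℂ) →ₗ[ℂ] (Fin 1 → ℂ)) :
    LinearMap.det f = LinearMap.trace ℂ _ f := by
  rw [← LinearMap.det_toMatrix', Matrix.det_fin_one,
    LinearMap.trace_eq_matrix_trace ℂ (Pi.basisFun ℂ (Fin 1)), LinearMap.toMatrix_eq_toMatrix',
    Matrix.trace_fin_one]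

/-- The determinantal character of a linear character is the character itself. -/
theorem detChar_of_linear {G : Type*} [Group G] [Finite G] (χ : G → ℂ) (h : IsCharacter G χ)
    (h1 : χ 1 = 1) : detChar χ = χ := by
  obtain ⟨n, ρ, rfl⟩ := h
  have hn : n = 1 := by
    rw [Cfsg.Agent.Helper25.rep_char_one] at h1
    exact_mod_cast h1
  subst hn
  rw [Cfsg.Agent.Helper7.detChar_rep]
  funext g
  exact det_eq_trace_fin_one (ρ g)

/-- The subgroup of linear characters of order prime to `p`. -/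
def linPrime (G : Type*) [Group G] (p : ℕ) : Subgroup (G →* ℂˣ) where
  carrier := {δ | Nat.Coprime (orderOf δ) p}
  one_mem' := by
    show Nat.Coprime (orderOf (1 : G →* ℂˣ)) p
    rw [orderOf_one]; exact Nat.coprime_one_left p
  mul_mem' := by
    intro a b ha hb
    show Nat.Coprime (orderOf (a * b)) p
    have h1 : orderOf (a * b) ∣ orderOf a * orderOf b :=
      (Commute.orderOf_mul_dvd_lcm (Commute.all a b)).trans (Nat.lcm_dvd_mul _ _)
    exact Nat.Coprime.coprime_dvd_left h1 (Nat.Coprime.mul_left ha hb)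
  inv_mem' := by
    intro a ha
    show Nat.Coprime (orderOf a⁻¹) p
    have h : orderOf a⁻¹ = orderOf a := orderOf_inv a
    rw [h]; exact ha

theorem mem_linPrime {G : Type*} [Group G] (p : ℕ) (δ : G →* ℂˣ) :
    δ ∈ linPrime G p ↔ Nat.Coprime (orderOf δ) p := Iff.rfl

theorem finite_hom_units (G : Type*) [Group G] [Finite G] : Finite (G →* ℂˣ) := by
  apply Finite.of_injective (fun δ : G →* ℂˣ => (⟨fun g => ((δ g : ℂˣ) : ℂ),
    Cfsg.Agent.Helper25.isIrrCharacter_of_monoidHom δ⟩ : IrrCharacter G))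
  intro δ δ' h
  exact Cfsg.Agent.Helper7.homToFun_injective G (congrArg Subtype.val h)

theorem not_dvd_card_linPrime (G : Type*) [Group G] [Finite G] (p : ℕ) [hp : Fact p.Prime] :
    ¬ p ∣ Nat.card (linPrime G p) := by
  haveI := finite_hom_units G
  intro hdvd
  obtain ⟨x, hx⟩ := exists_prime_orderOf_dvd_card' p hdvd
  have h1 : Nat.Coprime (orderOf (x : G →* ℂˣ)) p := x.2
  rw [Subgroup.orderOf_coe, hx] at h1
  exact hp.out.one_lt.ne' ((Nat.coprime_self p).mp h1)

/-- Under Thompson's hypothesis, the sum `s` of Theorem 12.1 is the number of linear characters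
of order prime to `p`. -/
theorem thompson_sum {G : Type*} [Group G] [Finite G] (p : ℕ) (hp : p.Prime)
    (hdeg : ∀ χ : Cfsg.IrrCharacter G, Cfsg.charDegree (χ : G → ℂ) ≠ 1 →
      p ∣ Cfsg.charDegree (χ : G → ℂ)) :
    (∑ᶠ χ ∈ {χ : Cfsg.IrrCharacter G | ¬ p ∣ Cfsg.charDegree (χ : G → ℂ) ∧
      ¬ p ∣ Cfsg.detOrder (χ : G → ℂ)}, (Cfsg.charDegree (χ : G → ℂ) : ℤ) ^ 2)
      = (Nat.card (linPrime G p) : ℤ) := by
  classical
  haveI := finite_hom_units G
  letI := Fintype.ofFinite (G →* ℂˣ)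
  have hbij : Set.BijOn (fun δ : G →* ℂˣ => (⟨fun g => ((δ g : ℂˣ) : ℂ),
      Cfsg.Agent.Helper25.isIrrCharacter_of_monoidHom δ⟩ : IrrCharacter G))
      (linPrime G p : Set (G →* ℂˣ))
      {χ : Cfsg.IrrCharacter G | ¬ p ∣ Cfsg.charDegree (χ : G → ℂ) ∧
        ¬ p ∣ Cfsg.detOrder (χ : G → ℂ)} := by
    refine ⟨?_, ?_, ?_⟩
    · intro δ hδ
      have hδ' : Nat.Coprime (orderOf δ) p := hδ
      have hone : (fun g => ((δ g : ℂˣ) : ℂ)) 1 = 1 := by simp
      have hdg : charDegree (fun g => ((δ g : ℂˣ) : ℂ)) = 1 := by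
        unfold charDegree
        rw [hone]; simp
      refine ⟨?_, ?_⟩
      · show ¬ p ∣ charDegree (fun g => ((δ g : ℂˣ) : ℂ))
        rw [hdg]; exact hp.not_dvd_one
      · show ¬ p ∣ detOrder (fun g => ((δ g : ℂˣ) : ℂ))
        unfold detOrder
        rw [detChar_of_linear _ (Cfsg.Agent.Helper7.isCharacter_of_hom δ) hone,
          Cfsg.Agent.Helper7.orderOf_hom_fun]
        exact fun hd => (Nat.Prime.coprime_iff_not_dvd hp).mp hδ'.symm hd
    · intro δ _ δ' _ h
      exact Cfsg.Agent.Helper7.homToFun_injective G (congrArg Subtype.val h)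
    · intro χ hχ
      have hd1 : charDegree (χ : G → ℂ) = 1 := by
        by_contra hne
        exact hχ.1 (hdeg χ hne)
      have hone : (χ : G → ℂ) 1 = 1 := by
        rw [Cfsg.Agent.Helper25.irr_one_eq_degree, hd1]; simp
      obtain ⟨δ, hδ⟩ := Cfsg.Agent.Helper7.exists_hom_of_linear (χ : G → ℂ)
        (isCharacter_of_isIrrCharacter χ.2) hone
      refine ⟨δ, ?_, Subtype.ext hδ.symm⟩
      show Nat.Coprime (orderOf δ) p
      have h2 := hχ.2
      unfold detOrder at h2
      rw [detChar_of_linear _ (isCharacter_of_isIrrCharacter χ.2) hone, hδ,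
        Cfsg.Agent.Helper7.orderOf_hom_fun] at h2
      exact ((Nat.Prime.coprime_iff_not_dvd hp).mpr h2).symm
  rw [← finsum_mem_eq_of_bijOn _ hbij (f := fun _ => (1 : ℤ))]
  · rw [finsum_mem_eq_sum_of_inter_support_eq (t := Finset.univ.filter
      (fun δ : G →* ℂˣ => δ ∈ linPrime G p)) _ (by ext δ; simp)]
    rw [Finset.sum_const, nsmul_eq_mul, mul_one]
    congr 1
    exact (Nat.subtype_card _ (fun δ => by simp)).symm
  · intro δ hδ
    have hone : (fun g => ((δ g : ℂˣ) : ℂ)) 1 = 1 := by simp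
    have hdg : charDegree (fun g => ((δ g : ℂˣ) : ℂ)) = 1 := by
      unfold charDegree
      rw [hone]; simp
    show (1 : ℤ) = (charDegree (fun g => ((δ g : ℂˣ) : ℂ)) : ℤ) ^ 2
    rw [hdg]; simp

/-- Let p be a prime and G a finite group such that p divides the degree of every irreducible character of G of degree greater than one. Then G has a normal p-complement: a normal subgroup of order prime to p whose index is a power of p. -/
theorem result {G : Type*} [Group G] [Finite G] (p : ℕ) (hp : p.Prime) (hdeg : ∀ χ : Cfsg.IrrCharacter G, Cfsg.charDegree (χ : G → ℂ) ≠ 1 → p ∣ Cfsg.charDegree (χ : G → ℂ)) : ∃ N : Subgroup G, N.Normal ∧ (Nat.card N).Coprime p ∧ ∃ k : ℕ, N.index = p ^ k := by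
  haveI : Fact p.Prime := ⟨hp⟩
  haveI hKn := Cfsg.Agent.Helper13.pResidual_normal p G
  obtain ⟨k, hk⟩ : ∃ k : ℕ, (Cfsg.pResidual p G).index = p ^ k :=
    IsPGroup.iff_card.mp (Cfsg.Agent.Helper13.pResidual_quot_isPGroup p G)
  refine ⟨Cfsg.pResidual p G, hKn, ?_, k, hk⟩
  have hS := Cfsg.Agent.S4455.result (G := G) p hp
  rw [thompson_sum p hp hdeg] at hS
  rw [Nat.coprime_comm, Nat.Prime.coprime_iff_not_dvd hp]
  intro hdvd
  apply not_dvd_card_linPrime G p
  have h3 : (p : ℤ) ∣ (Nat.card (Cfsg.pResidual p G) : ℤ) := Int.natCast_dvd_natCast.mpr hdvd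
  have h4 := hS.symm.trans (Int.modEq_zero_iff_dvd.mpr h3)
  exact Int.natCast_dvd_natCast.mp (Int.modEq_zero_iff_dvd.mp h4)

end Cfsg.Agent.S4456
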