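import Cfsg.Statements.S0855
import Mathlib
import Cfsg.Agent.S4456
import Cfsg.Agent.S0169
import Cfsg.Agent.Helper24.Ito

set_option autoImplicit false
open Cfsg

namespace Cfsg.Agent.S0855

open Cfsg Cfsg.Agent.Helper2

/-- For a finite group G and a prime p: every irreducible character of G has degree a power of p if and only if G has an abelian normal subgroup whose order is prime to p and whose index is a power of p. -/
theorem result {G : Type*} [Group G] [Finite G] (p : ℕ) (hp : p.Prime) : (∀ χ : Cfsg.IrrCharacter G, ∃ k : ℕ, (χ : G → ℂ) 1 = (p : ℂ) ^ k) ↔ ∃ A : Subgroup G, A.Normal ∧ (∀ a ∈ A, ∀ b ∈ A, a * b = b * a) ∧ Nat.Coprime (Nat.card A) p ∧ ∃ k : ℕ, A.index = p ^ k := by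
  classical
  haveI : Fact p.Prime := ⟨hp⟩
  constructor
  · intro hall
    have hdeg : ∀ χ : Cfsg.IrrCharacter G, ∃ k : ℕ, Cfsg.charDegree (χ : G → ℂ) = p ^ k := by
      intro χ
      obtain ⟨k, hk⟩ := hall χ
      refine ⟨k, ?_⟩
      rw [Cfsg.Agent.Helper25.irr_one_eq_degree] at hk
      exact_mod_cast hk
    have hdeg' : ∀ χ : Cfsg.IrrCharacter G, Cfsg.charDegree (χ : G → ℂ) ≠ 1 →
        p ∣ Cfsg.charDegree (χ : G → ℂ) := by
      intro χ hne
      obtain ⟨k, hk⟩ := hdeg χ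
      rw [hk]
      apply dvd_pow_self
      rintro rfl
      exact hne (by rw [hk, pow_zero])
    obtain ⟨N, hN, hcop, k, hk⟩ := Cfsg.Agent.S4456.result p hp hdeg'
    haveI := hN
    letI := Fintype.ofFinite G
    letI : Fintype N := Fintype.ofFinite N
    refine ⟨N, hN, ?_, hcop, k, hk⟩
    have hlin : ∀ ψ : IrrCharacter N, charDegree (ψ : N → ℂ) = 1 := by
      intro ψ
      obtain ⟨χ, hχ⟩ := Cfsg.Agent.Helper24.exists_irr_over N ψ
      have h1 := Cfsg.Agent.Helper24.clifford_degree N χ ψ hχ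
      obtain ⟨j, hj⟩ := hdeg χ
      rw [hj] at h1
      have h2 : charDegree (ψ : N → ℂ) ∣ Nat.card N :=
        Cfsg.Agent.Helper25.irr_degree_dvd_card ψ
      have h3 : Nat.Coprime (Nat.card N) (p ^ j) := Nat.Coprime.pow_right j hcop
      exact Nat.eq_one_of_dvd_coprimes h3 h2 h1
    have hcomm := Cfsg.Agent.Helper24.comm_of_all_linear hlin
    intro a ha b hb
    have := hcomm ⟨a, ha⟩ ⟨b, hb⟩
    exact congrArg Subtype.val this
  · rintro ⟨A, hA, hab, -, k, hk⟩ χ
    haveI := hA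
    obtain ⟨n, ρ, hρ, hχ⟩ := χ.2
    haveI := hρ
    have h1 := Cfsg.Agent.S0169.result ρ A hab
    rw [Module.finrank_fin_fun, hk] at h1
    obtain ⟨j, -, hj⟩ := (Nat.dvd_prime_pow hp).mp h1
    refine ⟨j, ?_⟩
    rw [← hχ, Cfsg.Agent.Helper25.rep_char_one, hj]
    push_cast
    rfl

end Cfsg.Agent.S0855
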