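import Cfsg.Statements.S0857
import Mathlib
import Cfsg.Agent.Helper2.ChiefFactor

set_option autoImplicit false
open Cfsg

namespace Cfsg.Agent.S0857

open Cfsg Cfsg.Agent.Helper2

/-- Let L < K be normal subgroups of the finite group G with no normal subgroup of G strictly between them and with K / L abelian (the commutator subgroup of K lies in L). Let ϑ be an irreducible character of K invariant under conjugation by G. Then the restriction of ϑ to L is irreducible; or it equals e times an irreducible character of L with e ^ 2 equal to the index of L in K; or it is the sum of a family of pairwise distinct irreducible characters of L indexed by a set whose size is the index of L in K. -/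
theorem result {G : Type*} [Group G] [Fintype G] (K L : Subgroup G) [hK : K.Normal] [L.Normal] (hLK : L < K) (hchief : ∀ M : Subgroup G, M.Normal → L ≤ M → M ≤ K → M = L ∨ M = K) (hab : ⁅K, K⁆ ≤ L) (ϑ : K → ℂ) (hϑ : Cfsg.IsIrrCharacter K ϑ) (hinv : ∀ (g : G) (n : K), ϑ ⟨g * n * g⁻¹, hK.conj_mem (n : G) n.2 g⟩ = ϑ n) : Cfsg.IsIrrCharacter L (fun x : L => ϑ ⟨(x : G), hLK.le x.2⟩) ∨ (∃ (φ : L → ℂ) (e : ℕ), Cfsg.IsIrrCharacter L φ ∧ (fun x : L => ϑ ⟨(x : G), hLK.le x.2⟩) = (e : ℂ) • φ ∧ e ^ 2 = L.relIndex K) ∨ (∃ F : Finset (L → ℂ), (∀ φ ∈ F, Cfsg.IsIrrCharacter L φ) ∧ F.card = L.relIndex K ∧ (fun x : L => ϑ ⟨(x : G), hLK.le x.2⟩) = ∑ φ ∈ F, φ) := by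
  classical
  letI : Fintype K := Fintype.ofFinite K
  letI : Fintype (L.subgroupOf K) := Fintype.ofFinite _
  have hab' : ∀ a b : K, a * b * a⁻¹ * b⁻¹ ∈ L.subgroupOf K := by
    intro a b
    rw [Subgroup.mem_subgroupOf]
    apply hab
    have h1 := Subgroup.commutator_mem_commutator a.2 b.2
    rw [commutatorElement_def] at h1
    exact h1
  obtain ⟨𝒜, h𝒜⟩ : ∃ 𝒜 : Set (K ≃* K), 𝒜 = Set.range (fun g : G => (MulAut.conjNormal g : K ≃* K)) :=
    ⟨_, rfl⟩
  have hAL : ∀ α ∈ 𝒜, ∀ x : K, α x ∈ L.subgroupOf K ↔ x ∈ L.subgroupOf K := by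
    intro α hα x
    rw [h𝒜] at hα
    obtain ⟨g, rfl⟩ := hα
    rw [Subgroup.mem_subgroupOf, Subgroup.mem_subgroupOf]
    show g * (x : G) * g⁻¹ ∈ L ↔ (x : G) ∈ L
    constructor
    · intro h
      have h2 := (inferInstance : L.Normal).conj_mem _ h g⁻¹
      simpa [mul_assoc] using h2
    · intro h
      exact (inferInstance : L.Normal).conj_mem _ h g
  have hAϑ : ∀ α ∈ 𝒜, ∀ x : K, ϑ (α x) = ϑ x := by
    intro α hα x
    rw [h𝒜] at hα
    obtain ⟨g, rfl⟩ := hα
    exact hinv g x
  have hchief' : ∀ M : Subgroup K, L.subgroupOf K ≤ M → (∀ α ∈ 𝒜, ∀ x ∈ M, α x ∈ M) →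
      M = L.subgroupOf K ∨ M = ⊤ := by
    intro M hLM hM
    have hMn : (M.map K.subtype).Normal := by
      refine ⟨fun n hn g => ?_⟩
      obtain ⟨x, hx, rfl⟩ := hn
      refine ⟨(MulAut.conjNormal g : K ≃* K) x, hM _ (by rw [h𝒜]; exact ⟨g, rfl⟩) x hx, rfl⟩
    have hLM' : L ≤ M.map K.subtype := by
      intro l hl
      exact ⟨⟨l, hLK.le hl⟩, hLM (Subgroup.mem_subgroupOf.mpr hl), rfl⟩
    have hMK : M.map K.subtype ≤ K := Subgroup.map_subtype_le M
    have hMeq : M = (M.map K.subtype).subgroupOf K := (Subgroup.comap_map_eq_self_of_injective K.subtype_injective M).symm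
    rcases hchief (M.map K.subtype) hMn hLM' hMK with h | h
    · left
      rw [hMeq, h]
    · right
      rw [hMeq, h, Subgroup.subgroupOf_self]
  have hmain := chief_factor_restrict (L.subgroupOf K) hab' 𝒜 hAL ⟨ϑ, hϑ⟩ hAϑ hchief'
  obtain ⟨e, he⟩ : ∃ e : L.subgroupOf K ≃* L, e = Subgroup.subgroupOfEquivOfLe hLK.le := ⟨_, rfl⟩
  have hres : ∀ f : (L.subgroupOf K) → ℂ, ∀ x : L, f (e.symm x) = f ⟨⟨(x : G), hLK.le x.2⟩,
      Subgroup.mem_subgroupOf.mpr x.2⟩ := by
    intro f x
    rw [he]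
    rfl
  have htrans : ∀ φ' : (L.subgroupOf K) → ℂ, IsIrrCharacter (L.subgroupOf K) φ' →
      IsIrrCharacter L (fun x : L => φ' (e.symm x)) := by
    intro φ' hφ'
    exact isIrrCharacter_comp_of_surjective e.symm.toMonoidHom e.symm.surjective hφ'
  rcases hmain with h | ⟨φ', a, h1, h2⟩ | ⟨F', h1, h2⟩
  · left
    have := htrans _ h
    convert this using 1
    funext x
    rw [he]
    rfl
  · right; left
    refine ⟨fun x : L => (φ' : (L.subgroupOf K) → ℂ) (e.symm x), a, htrans _ φ'.2, ?_, h2⟩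
    funext x
    have h3 := congrFun h1 (e.symm x)
    simp only [Pi.smul_apply] at h3 ⊢
    rw [← h3]
    rw [he]
    rfl
  · right; right
    have hinj : Function.Injective (fun φ' : IrrCharacter (L.subgroupOf K) =>
        (fun x : L => (φ' : (L.subgroupOf K) → ℂ) (e.symm x))) := by
      intro φ₁ φ₂ h
      apply Subtype.ext
      funext y
      have h3 := congrFun h (e y)
      simp only [MulEquiv.symm_apply_apply] at h3
      exact h3
    refine ⟨F'.image (fun φ' : IrrCharacter (L.subgroupOf K) =>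
        (fun x : L => (φ' : (L.subgroupOf K) → ℂ) (e.symm x))), ?_, ?_, ?_⟩
    · intro φ hφ
      rw [Finset.mem_image] at hφ
      obtain ⟨φ', -, rfl⟩ := hφ
      exact htrans _ φ'.2
    · rw [Finset.card_image_of_injective _ hinj, h1]
      rfl
    · rw [Finset.sum_image (fun a _ b _ h => hinj h)]
      funext x
      have h3 := congrFun h2 (e.symm x)
      rw [Finset.sum_apply] at h3 ⊢
      rw [← h3]
      rw [he]
      rfl

end Cfsg.Agent.S0857
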