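import Cfsg.Statements.S0858
import Mathlib
import Cfsg.Agent.S0854
import Cfsg.Agent.S0857
import Cfsg.Agent.Helper2.CliffDeg
import Cfsg.Agent.Helper7.Clifford
import Cfsg.Agent.Helper25.CharKer
import Cfsg.Agent.Helper24.InvConst
import Cfsg.Agent.Helper11.Feit1

set_option autoImplicit false
open Cfsg

namespace Cfsg.Agent.S0858

universe u

open Cfsg.Agent in
/-- The conclusion of the relative M-group theorem. -/
def RelM {G : Type u} [Group G] [Fintype G] (N : Subgroup G) (χ : G → ℂ) : Prop :=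
  ∃ (H : Subgroup G) (hNH : N ≤ H) (ψ : H → ℂ), Cfsg.IsIrrCharacter H ψ ∧ Cfsg.indFun H ψ = χ ∧
    Cfsg.IsIrrCharacter N (fun n : N => ψ ⟨(n : G), hNH n.2⟩)

/-- The hypothesis on chief factors. -/
def ChiefHyp {G : Type u} [Group G] (N : Subgroup G) : Prop :=
  ∀ (H K L : Subgroup G), N ≤ L → L < K → K ≤ H → (∀ h ∈ H, ∀ k ∈ K, h * k * h⁻¹ ∈ K) →
    (∀ h ∈ H, ∀ l ∈ L, h * l * h⁻¹ ∈ L) →
    (∀ M : Subgroup G, L ≤ M → M ≤ K → (∀ h ∈ H, ∀ m ∈ M, h * m * h⁻¹ ∈ M) → M = L ∨ M = K) →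
    ¬ IsSquare (L.relIndex K)

theorem indFun_congr_subgroup {G : Type u} [Group G] [Fintype G] (A B : Subgroup G) (h : A = B)
    (f : A → ℂ) (g : B → ℂ) (hfg : ∀ (x : G) (ha : x ∈ A) (hb : x ∈ B), f ⟨x, ha⟩ = g ⟨x, hb⟩) :
    Cfsg.indFun A f = Cfsg.indFun B g := by
  subst h
  congr 1
  funext x
  exact hfg x.1 x.2 x.2

theorem indFun_top {G : Type u} [Group G] [Fintype G] (χ : G → ℂ) (hχ : Cfsg.IsClassFunction G χ) :
    Cfsg.indFun (⊤ : Subgroup G) (fun x : (⊤ : Subgroup G) => χ x) = χ := by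
  funext g
  rw [Cfsg.Agent.Helper2.indFun_apply]
  have h1 : ∀ x : G, Cfsg.extendByZero (⊤ : Subgroup G) (fun x : (⊤ : Subgroup G) => χ x)
      (x⁻¹ * g * x) = χ g := by
    intro x
    have h2 := Cfsg.Agent.Helper2.extendByZero_coe (⊤ : Subgroup G)
      (fun x : (⊤ : Subgroup G) => χ x) ⟨x⁻¹ * g * x, Subgroup.mem_top _⟩
    rw [h2]
    have h3 := hχ g x⁻¹
    rw [inv_inv] at h3
    exact h3
  rw [Finset.sum_congr rfl (fun x _ => h1 x), Finset.sum_const, Finset.card_univ, nsmul_eq_mul,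
    Subgroup.card_top, Nat.card_eq_fintype_card, ← mul_assoc, inv_mul_cancel₀, one_mul]
  exact_mod_cast Fintype.card_ne_zero

theorem irr_restrict_of_eq_top {G : Type u} [Group G] (N : Subgroup G) (hN : N = ⊤) (χ : G → ℂ)
    (hχ : Cfsg.IsIrrCharacter G χ) : Cfsg.IsIrrCharacter N (fun n : N => χ n) := by
  have hs : Function.Surjective N.subtype := by
    intro g
    exact ⟨⟨g, by rw [hN]; exact Subgroup.mem_top g⟩, rfl⟩
  exact (Cfsg.Agent.Helper25.irrComp ⟨χ, hχ⟩ N.subtype hs).2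

theorem relM_of_subgroup {G : Type u} [Group G] [Fintype G] (N T : Subgroup G) [Fintype T]
    (hNT : N ≤ T) (ψ : T → ℂ) (h : RelM (N.subgroupOf T) ψ) : RelM N (Cfsg.indFun T ψ) := by
  obtain ⟨H', hNH', ψ', hψ', hind, hres⟩ := h
  have hHT : H'.map T.subtype ≤ T := Subgroup.map_subtype_le H'
  have hmem : ∀ x : ↥(H'.map T.subtype), (⟨(x : G), hHT x.2⟩ : T) ∈ H' := by
    intro x
    obtain ⟨y, hy, hyx⟩ := Subgroup.mem_map.mp x.2
    have : (⟨(x : G), hHT x.2⟩ : T) = y := Subtype.ext hyx.symm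
    rw [this]
    exact hy
  let f : ↥(H'.map T.subtype) →* ↥H' :=
    { toFun := fun x => ⟨⟨(x : G), hHT x.2⟩, hmem x⟩
      map_one' := rfl
      map_mul' := fun _ _ => rfl }
  have hf : Function.Surjective f := by
    intro y
    exact ⟨⟨((y : T) : G), Subgroup.mem_map_of_mem T.subtype y.2⟩, Subtype.ext (Subtype.ext rfl)⟩
  have hNH : N ≤ H'.map T.subtype := by
    intro n hn
    have h1 : (⟨n, hNT hn⟩ : T) ∈ N.subgroupOf T := by
      rw [Subgroup.mem_subgroupOf]
      exact hn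
    exact Subgroup.mem_map.mpr ⟨⟨n, hNT hn⟩, hNH' h1, rfl⟩
  refine ⟨H'.map T.subtype, hNH, fun x => ψ' (f x), (Cfsg.Agent.Helper25.irrComp ⟨ψ', hψ'⟩ f hf).2,
    ?_, ?_⟩
  · rw [← Cfsg.Agent.Helper2.indFun_trans (H'.map T.subtype) T hHT (fun x => ψ' (f x))]
    congr 1
    rw [← hind]
    apply indFun_congr_subgroup
    · exact Subgroup.comap_map_eq_self_of_injective (Subgroup.subtype_injective T) H'
    · intro x ha hb
      rfl
  · let r : ↥N →* ↥(N.subgroupOf T) :=
      { toFun := fun n => ⟨⟨(n : G), hNT n.2⟩, by rw [Subgroup.mem_subgroupOf]; exact n.2⟩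
        map_one' := rfl
        map_mul' := fun _ _ => rfl }
    have hr : Function.Surjective r := by
      intro m
      exact ⟨⟨((m : T) : G), Subgroup.mem_subgroupOf.mp m.2⟩, Subtype.ext (Subtype.ext rfl)⟩
    exact (Cfsg.Agent.Helper25.irrComp ⟨_, hres⟩ r hr).2

theorem chiefHyp_subgroup {G : Type u} [Group G] (N T : Subgroup G) (hNT : N ≤ T)
    (h : ChiefHyp N) : ChiefHyp (N.subgroupOf T) := by
  intro H K L hNL hLK hKH hK hL hmin
  have hinj := Subgroup.subtype_injective T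
  have key := h (H.map T.subtype) (K.map T.subtype) (L.map T.subtype) ?_ ?_ ?_ ?_ ?_ ?_
  · rw [← Subgroup.relIndex_comap, Subgroup.comap_map_eq_self_of_injective hinj] at key
    exact key
  · intro n hn
    have h1 : (⟨n, hNT hn⟩ : T) ∈ N.subgroupOf T := by
      rw [Subgroup.mem_subgroupOf]
      exact hn
    exact Subgroup.mem_map.mpr ⟨⟨n, hNT hn⟩, hNL h1, rfl⟩
  · exact (Subgroup.map_lt_map_iff_of_injective hinj).mpr hLK
  · exact Subgroup.map_mono hKH
  · intro x hx y hy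
    obtain ⟨x', hx', rfl⟩ := Subgroup.mem_map.mp hx
    obtain ⟨y', hy', rfl⟩ := Subgroup.mem_map.mp hy
    exact Subgroup.mem_map.mpr ⟨x' * y' * x'⁻¹, hK x' hx' y' hy', rfl⟩
  · intro x hx y hy
    obtain ⟨x', hx', rfl⟩ := Subgroup.mem_map.mp hx
    obtain ⟨y', hy', rfl⟩ := Subgroup.mem_map.mp hy
    exact Subgroup.mem_map.mpr ⟨x' * y' * x'⁻¹, hL x' hx' y' hy', rfl⟩
  · intro M hLM hMK hM
    have hMT : M ≤ T.subtype.range := by
      rw [Subgroup.range_subtype]
      exact hMK.trans (Subgroup.map_subtype_le K)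
    have h1 : L ≤ M.comap T.subtype := (Subgroup.map_le_iff_le_comap).mp hLM
    have h2 : M.comap T.subtype ≤ K := by
      have := Subgroup.comap_mono (f := T.subtype) hMK
      rw [Subgroup.comap_map_eq_self_of_injective hinj] at this
      exact this
    have h3 : ∀ x ∈ H, ∀ m ∈ M.comap T.subtype, x * m * x⁻¹ ∈ M.comap T.subtype := by
      intro x hx m hm
      rw [Subgroup.mem_comap] at hm ⊢
      exact hM (T.subtype x) (Subgroup.mem_map_of_mem _ hx) _ hm
    rcases hmin (M.comap T.subtype) h1 h2 h3 with h4 | h4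
    · left
      rw [← h4, Subgroup.map_comap_eq_self hMT]
    · right
      rw [← h4, Subgroup.map_comap_eq_self hMT]

theorem chiefHyp_le {G : Type u} [Group G] (N K : Subgroup G) (hNK : N ≤ K)
    (h : ChiefHyp N) : ChiefHyp K := by
  intro H K' L hKL
  exact h H K' L (hNK.trans hKL)

theorem solvable_quot_subgroup {G : Type u} [Group G] (N T : Subgroup G) [N.Normal]
    (h : Group.IsSolvable (G ⧸ N)) : Group.IsSolvable (↥T ⧸ N.subgroupOf T) := by
  have hle : N.subgroupOf T ≤ N.comap T.subtype := le_refl _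
  apply Group.isSolvable_of_isSolvable_injective
    (f := QuotientGroup.map (N.subgroupOf T) N T.subtype hle)
  rw [injective_iff_map_eq_one]
  intro x
  induction x using QuotientGroup.induction_on with
  | H t =>
    intro ht
    rw [QuotientGroup.map_mk, QuotientGroup.eq_one_iff] at ht
    rw [QuotientGroup.eq_one_iff, Subgroup.mem_subgroupOf]
    exact ht

theorem solvable_quot_le {G : Type u} [Group G] (N K : Subgroup G) [N.Normal] [K.Normal]
    (hNK : N ≤ K) (h : Group.IsSolvable (G ⧸ N)) : Group.IsSolvable (G ⧸ K) := by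
  have hle : N ≤ K.comap (MonoidHom.id G) := hNK
  apply Group.isSolvable_of_surjective (f := QuotientGroup.map N K (MonoidHom.id G) hle)
  intro x
  induction x using QuotientGroup.induction_on with
  | H t => exact ⟨QuotientGroup.mk t, rfl⟩

theorem comm_le_of_minimal {G : Type u} [Group G] (N K : Subgroup G) [N.Normal] [K.Normal]
    (hsolv : Group.IsSolvable (G ⧸ N)) (hNK : N < K)
    (hmin : ∀ M : Subgroup G, M.Normal → N ≤ M → M ≤ K → M = N ∨ M = K) : ⁅K, K⁆ ≤ N := by
  have hD : (⁅K, K⁆ ⊔ N).Normal := inferInstance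
  rcases hmin (⁅K, K⁆ ⊔ N) hD le_sup_right (sup_le (Subgroup.commutator_le_left K K) hNK.le)
    with h | h
  · rw [← h]
    exact le_sup_left
  · exfalso
    have hne : K.map (QuotientGroup.mk' N) ≠ ⊥ := by
      intro h0
      rw [Subgroup.map_eq_bot_iff, QuotientGroup.ker_mk'] at h0
      exact absurd h0 (not_le_of_gt hNK)
    have hlt := Group.IsSolvable.commutator_lt_of_ne_bot hne
    rw [← Subgroup.map_commutator] at hlt
    have h1 : (⁅K, K⁆).map (QuotientGroup.mk' N) = K.map (QuotientGroup.mk' N) := by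
      conv_rhs => rw [← h]
      rw [Subgroup.map_sup, QuotientGroup.map_mk'_self, sup_bot_eq]
    rw [h1] at hlt
    exact lt_irrefl _ hlt

theorem constituent_restrict {A L : Type u} [Group A] [Fintype A] [Group L] [Fintype L]
    (r : L →* A) (α : A → ℂ) (hα : Cfsg.IsCharacter A α) (ψ : A → ℂ)
    (hψ : Cfsg.IsIrrCharacter A ψ) (hne : Cfsg.classInner α ψ ≠ 0)
    (hirr : Cfsg.IsIrrCharacter L (fun n => ψ (r n))) :
    Cfsg.classInner (fun n => α (r n)) (fun n => ψ (r n)) ≠ 0 := by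
  classical
  rw [Cfsg.Agent.S0854.classInner_comp_expand r α
    (Cfsg.Agent.Helper2.isClassFunction_of_isCharacter hα) (fun n => ψ (r n))]
  choose a ha using fun φ : Cfsg.IrrCharacter A => Cfsg.Agent.Helper2.classInner_char_nat hα
    (Cfsg.Agent.Helper2.isCharacter_of_isIrrCharacter φ.2)
  choose b hb using fun φ : Cfsg.IrrCharacter A => Cfsg.Agent.Helper2.classInner_char_nat
    (Cfsg.Agent.Helper2.isCharacter_comp r (Cfsg.Agent.Helper2.isCharacter_of_isIrrCharacter φ.2))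
    (Cfsg.Agent.Helper2.isCharacter_of_isIrrCharacter hirr)
  rw [Finset.sum_congr rfl (fun φ _ => by rw [ha φ, hb φ, ← Nat.cast_mul]), ← Nat.cast_sum,
    Nat.cast_ne_zero]
  have h0 : a ⟨ψ, hψ⟩ ≠ 0 := by
    intro h
    apply hne
    have := ha ⟨ψ, hψ⟩
    rw [h, Nat.cast_zero] at this
    exact this
  have h1 : b ⟨ψ, hψ⟩ = 1 := by
    have h2 := hb ⟨ψ, hψ⟩
    rw [Cfsg.Agent.Helper11.irr_inner_fun hirr hirr, if_pos rfl] at h2
    exact_mod_cast h2.symm
  have h3 := Finset.single_le_sum (f := fun φ : Cfsg.IrrCharacter A => a φ * b φ)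
    (fun _ _ => Nat.zero_le _) (Finset.mem_univ (⟨ψ, hψ⟩ : Cfsg.IrrCharacter A))
  simp only [h1, mul_one] at h3
  omega

theorem step_induct {G : Type u} [Group G] [Fintype G] (k : ℕ)
    (IH : ∀ {G' : Type u} [Group G'] [Fintype G'] (N' : Subgroup G') [N'.Normal], N'.index ≤ k →
      Group.IsSolvable (G' ⧸ N') → ChiefHyp N' → ∀ χ : G' → ℂ, Cfsg.IsIrrCharacter G' χ →
      RelM N' χ)
    (N : Subgroup G) [N.Normal] (hk : N.index ≤ k + 1) (hsolv : Group.IsSolvable (G ⧸ N))
    (hch : ChiefHyp N) (T : Subgroup G) [Fintype T] (hT : T ≠ ⊤) (hNT : N ≤ T) (ψ : T → ℂ)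
    (hψ : Cfsg.IsIrrCharacter T ψ) : RelM N (Cfsg.indFun T ψ) := by
  apply relM_of_subgroup N T hNT ψ
  apply IH (N.subgroupOf T) ?_ (solvable_quot_subgroup N T hsolv) (chiefHyp_subgroup N T hNT hch)
    ψ hψ
  have h1 : N.relIndex T * T.index = N.index := Subgroup.relIndex_mul_index hNT
  have h2 : T.index ≠ 1 := fun h => hT (Subgroup.index_eq_one.mp h)
  have h3 : T.index ≠ 0 := Subgroup.index_ne_zero_of_finite
  have h4 : N.relIndex T ≠ 0 := by
    intro h
    rw [h, zero_mul] at h1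
    exact Subgroup.index_ne_zero_of_finite h1.symm
  show N.relIndex T ≤ k
  have h5 : N.relIndex T * 2 ≤ N.relIndex T * T.index := Nat.mul_le_mul_left _ (by omega)
  have h6 : 0 < N.relIndex T := Nat.pos_of_ne_zero h4
  omega

theorem inertia_step {G : Type u} [Group G] [Fintype G] (k : ℕ)
    (IH : ∀ {G' : Type u} [Group G'] [Fintype G'] (N' : Subgroup G') [N'.Normal], N'.index ≤ k →
      Group.IsSolvable (G' ⧸ N') → ChiefHyp N' → ∀ χ : G' → ℂ, Cfsg.IsIrrCharacter G' χ →
      RelM N' χ)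
    (N : Subgroup G) [N.Normal] (hk : N.index ≤ k + 1) (hsolv : Group.IsSolvable (G ⧸ N))
    (hch : ChiefHyp N) (K : Subgroup G) [hK : K.Normal] [Fintype K] (hNK : N ≤ K) (θ : K → ℂ)
    (hθ : Cfsg.IsIrrCharacter K θ) (χ : G → ℂ) (hχ : Cfsg.IsIrrCharacter G χ)
    (hcon : Cfsg.classInner (fun n : K => χ n) θ ≠ 0)
    (hninv : ¬ ∀ (g : G) (n : K), θ ⟨g * n * g⁻¹, hK.conj_mem (n : G) n.2 g⟩ = θ n) :
    RelM N χ := by
  classical
  let T : Subgroup G := @MulAction.stabilizer G (Cfsg.IrrCharacter K) _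
    (Cfsg.Agent.Helper2.conjActionFull K) ⟨θ, hθ⟩
  have hT : ∀ g : G, g ∈ T ↔ ∀ n : K, θ ⟨g * n * g⁻¹, hK.conj_mem (n : G) n.2 g⟩ = θ n := by
    intro g
    exact (Cfsg.Agent.Helper2.mem_stabilizer_conjActionFull K ⟨θ, hθ⟩ g).trans funext_iff
  have hKT : K ≤ T := Cfsg.Agent.Helper2.le_stabilizer_conjActionFull K ⟨θ, hθ⟩
  have hTtop : T ≠ ⊤ := by
    intro h
    apply hninv
    intro g
    exact (hT g).mp (by rw [h]; exact Subgroup.mem_top g)
  obtain ⟨ψ, hψ, hind, -⟩ := Cfsg.Agent.S0854.result K θ hθ T hT hKT χ hχ hcon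
  rw [← hind]
  exact step_induct k IH N hk hsolv hch T hTtop (hNK.trans hKT) ψ hψ

theorem main (k : ℕ) : ∀ {G : Type u} [Group G] [Fintype G] (N : Subgroup G) [N.Normal],
    N.index ≤ k → Group.IsSolvable (G ⧸ N) → ChiefHyp N → ∀ χ : G → ℂ,
    Cfsg.IsIrrCharacter G χ → RelM N χ := by
  induction k with
  | zero =>
    intro G _ _ N _ hk
    exact absurd (Nat.le_zero.mp hk) Subgroup.index_ne_zero_of_finite
  | succ k IH =>
    intro G _ _ N hNn hk hsolv hch χ hχ
    classical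
    have hχc : Cfsg.IsCharacter G χ := Cfsg.Agent.Helper2.isCharacter_of_isIrrCharacter hχ
    have hχcl : Cfsg.IsClassFunction G χ := Cfsg.Agent.Helper2.isClassFunction_of_isCharacter hχc
    have hχ1 : χ 1 ≠ 0 := Cfsg.Agent.Helper25.irr_one_ne_zero (⟨χ, hχ⟩ : Cfsg.IrrCharacter G)
    by_cases hirrN : Cfsg.IsIrrCharacter N (fun n : N => χ n)
    · exact ⟨⊤, le_top, fun x => χ x, irr_restrict_of_eq_top ⊤ rfl χ hχ, indFun_top χ hχcl, hirrN⟩
    have hNtop : N ≠ ⊤ := fun h => hirrN (irr_restrict_of_eq_top N h χ hχ)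
    -- an irreducible constituent of χ_N
    obtain ⟨φ, hφcon⟩ := Cfsg.Agent.Helper24.exists_constituent
      (Cfsg.Agent.Helper2.isCharacter_restrict N hχc) (by exact hχ1)
    by_cases hinv : ∀ (g : G) (n : N), (φ : N → ℂ) ⟨g * n * g⁻¹, hNn.conj_mem (n : G) n.2 g⟩
        = (φ : N → ℂ) n
    swap
    · exact inertia_step k IH N hk hsolv hch N le_rfl φ φ.2 χ hχ hφcon hinv
    obtain ⟨e, he0, hχN, -⟩ := Cfsg.Agent.Helper7.clifford_invariant N φ φ.2 hinv χ hχ hφcon
    -- a minimal normal subgroup above N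
    obtain ⟨K, ⟨hKn, hNK⟩, hKmin⟩ := WellFounded.has_min
      (wellFounded_lt : WellFounded ((· < ·) : Subgroup G → Subgroup G → Prop))
      {K : Subgroup G | K.Normal ∧ N < K} ⟨⊤, inferInstance, lt_top_iff_ne_top.mpr hNtop⟩
    haveI := hKn
    have hchiefK : ∀ M : Subgroup G, M.Normal → N ≤ M → M ≤ K → M = N ∨ M = K := by
      intro M hM hNM hMK
      by_contra hcon
      push Not at hcon
      exact hKmin M ⟨hM, lt_of_le_of_ne hNM (Ne.symm hcon.1)⟩ (lt_of_le_of_ne hMK hcon.2)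
    have hab : ⁅K, K⁆ ≤ N := comm_le_of_minimal N K hsolv hNK hchiefK
    obtain ⟨θ, hθcon⟩ := Cfsg.Agent.Helper24.exists_constituent
      (Cfsg.Agent.Helper2.isCharacter_restrict K hχc) (by exact hχ1)
    by_cases hinvθ : ∀ (g : G) (n : K), (θ : K → ℂ) ⟨g * n * g⁻¹, hKn.conj_mem (n : G) n.2 g⟩
        = (θ : K → ℂ) n
    swap
    · exact inertia_step k IH N hk hsolv hch K hNK.le θ θ.2 χ hχ hθcon hinvθ
    obtain ⟨e', he'0, hχK, -⟩ := Cfsg.Agent.Helper7.clifford_invariant K θ θ.2 hinvθ χ hχ hθcon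
    have hχN' : (fun n : N => χ n) = (e' : ℂ) • (fun x : N => (θ : K → ℂ) ⟨(x : G), hNK.le x.2⟩) := by
      funext n
      exact congrFun hχK ⟨(n : G), hNK.le n.2⟩
    have hrel2 : 2 ≤ N.relIndex K := by
      have h0 : N.relIndex K * K.index = N.index := Subgroup.relIndex_mul_index hNK.le
      have h1 : N.relIndex K ≠ 0 := by
        intro h
        rw [h, zero_mul] at h0
        exact Subgroup.index_ne_zero_of_finite h0.symm
      have h2 : N.relIndex K ≠ 1 := fun h => absurd (Subgroup.relIndex_eq_one.mp h) (not_le_of_gt hNK)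
      omega
    rcases Cfsg.Agent.S0857.result K N hNK hchiefK hab θ θ.2 hinvθ with
      h1 | ⟨φ₁, e₁, hφ₁, hres, hsq⟩ | ⟨F, hF, hcard, hsum⟩
    · -- θ_N irreducible: induct with K in place of N
      have hKidx : K.index ≤ k := by
        have h1 : N.relIndex K * K.index = N.index := Subgroup.relIndex_mul_index hNK.le
        have h3 : K.index ≠ 0 := Subgroup.index_ne_zero_of_finite
        have h5 : 2 * K.index ≤ N.relIndex K * K.index := Nat.mul_le_mul_right _ hrel2
        omega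
      obtain ⟨H, hKH, ψ, hψ, hind, hψK⟩ := IH K hKidx (solvable_quot_le N K hNK.le hsolv)
        (chiefHyp_le N K hNK.le hch) χ hχ
      refine ⟨H, hNK.le.trans hKH, ψ, hψ, hind, ?_⟩
      have ha : Cfsg.classInner (fun h : H => χ h) ψ ≠ 0 := by
        have h2 := Cfsg.Agent.Helper2.frobenius_reciprocity H ψ χ hχcl
        rw [hind, Cfsg.Agent.Helper11.irr_inner_fun hχ hχ, if_pos rfl] at h2
        rw [Cfsg.Agent.Helper2.classInner_conj_symm ψ (fun h : H => χ h), ← h2]
        simp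
      have hb := constituent_restrict (Subgroup.inclusion hKH) (fun h : H => χ h)
        (Cfsg.Agent.Helper2.isCharacter_restrict H hχc) ψ hψ ha hψK
      have hb' : Cfsg.classInner (fun n : K => χ n) (fun n : K => ψ ⟨(n : G), hKH n.2⟩) ≠ 0 := hb
      rw [hχK, Cfsg.Agent.Helper2.classInner_smul_left,
        Cfsg.Agent.Helper11.irr_inner_fun θ.2 hψK] at hb'
      have hψθ : (θ : K → ℂ) = (fun n : K => ψ ⟨(n : G), hKH n.2⟩) := by
        by_contra hne
        rw [if_neg hne, mul_zero] at hb'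
        exact hb' rfl
      have : (fun n : N => ψ ⟨(n : G), (hNK.le.trans hKH) n.2⟩)
          = (fun x : N => (θ : K → ℂ) ⟨(x : G), hNK.le x.2⟩) := by
        funext n
        exact (congrFun hψθ ⟨(n : G), hNK.le n.2⟩).symm
      rw [this]
      exact h1
    · -- square index: contradiction
      exfalso
      exact hch ⊤ K N le_rfl hNK le_top (fun h _ k hk => hKn.conj_mem k hk h)
        (fun h _ l hl => hNn.conj_mem l hl h)
        (fun M hLM hMK hM => hchiefK M ⟨fun m hm g => hM g (Subgroup.mem_top g) m hm⟩ hLM hMK)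
        ⟨e₁, by rw [← hsq, sq]⟩
    · -- several distinct constituents: contradiction
      exfalso
      have hall : ∀ ψ₀ ∈ F, ψ₀ = (φ : N → ℂ) := by
        intro ψ₀ h0
        have hA : Cfsg.classInner (fun x : N => (θ : K → ℂ) ⟨(x : G), hNK.le x.2⟩) ψ₀ = 1 := by
          rw [hsum, Cfsg.Agent.Helper2.classInner_sum_left,
            Finset.sum_congr rfl (fun ψ hψ => Cfsg.Agent.Helper11.irr_inner_fun (hF ψ hψ) (hF ψ₀ h0)),
            Finset.sum_ite_eq' F ψ₀ (fun _ => (1 : ℂ)), if_pos h0]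
        have hB : Cfsg.classInner (fun n : N => χ n) ψ₀ ≠ 0 := by
          rw [hχN', Cfsg.Agent.Helper2.classInner_smul_left, hA, mul_one]
          exact_mod_cast he'0
        rw [hχN, Cfsg.Agent.Helper2.classInner_smul_left,
          Cfsg.Agent.Helper11.irr_inner_fun φ.2 (hF ψ₀ h0)] at hB
        by_contra hne
        rw [if_neg (fun h => hne h.symm), mul_zero] at hB
        exact hB rfl
      have hsub : F ⊆ {(φ : N → ℂ)} := by
        intro ψ₀ h0
        rw [Finset.mem_singleton]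
        exact hall ψ₀ h0
      have := Finset.card_le_card hsub
      rw [Finset.card_singleton] at this
      omega

/-- Let N be a normal subgroup of the finite group G with G / N solvable, and suppose that for every subgroup H containing N and all subgroups L < K between N and H that are normal in H with no subgroup normal in H strictly between them, the index of L in K is not a perfect square. Then every irreducible character χ of G is induced from an irreducible character ψ of some subgroup H containing N such that the restriction of ψ to N is irreducible. -/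
theorem result {G : Type*} [Group G] [Fintype G] (N : Subgroup G) [N.Normal] (hsolv : Group.IsSolvable (G ⧸ N)) (hchief : ∀ (H K L : Subgroup G), N ≤ L → L < K → K ≤ H → (∀ h ∈ H, ∀ k ∈ K, h * k * h⁻¹ ∈ K) → (∀ h ∈ H, ∀ l ∈ L, h * l * h⁻¹ ∈ L) → (∀ M : Subgroup G, L ≤ M → M ≤ K → (∀ h ∈ H, ∀ m ∈ M, h * m * h⁻¹ ∈ M) → M = L ∨ M = K) → ¬ IsSquare (L.relIndex K)) (χ : G → ℂ) (hχ : Cfsg.IsIrrCharacter G χ) : ∃ (H : Subgroup G) (hNH : N ≤ H) (ψ : H → ℂ), Cfsg.IsIrrCharacter H ψ ∧ Cfsg.indFun H ψ = χ ∧ Cfsg.IsIrrCharacter N (fun n : N => ψ ⟨(n : G), hNH n.2⟩) := by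
  exact main _ N le_rfl hsolv hchief χ hχ

end Cfsg.Agent.S0858
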