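import Cfsg.Statements.S0860
import Mathlib
import Cfsg.Agent.Helper7.Basic
import Cfsg.Agent.Helper25.CharOrth
import Cfsg.Agent.Helper1.CharCentral

set_option autoImplicit false
open Cfsg

namespace Cfsg.Agent.S0860

/-- Let a group A act on the set of irreducible characters and on the set of conjugacy classes of a finite group G in such a way that (a • χ) evaluated on the class a • C equals χ evaluated on C, for all a, χ and C. Then every element of A fixes exactly as many irreducible characters as it fixes conjugacy classes. -/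
theorem result {G : Type*} [Group G] [Finite G] {A : Type*} [Group A] [MulAction A (Cfsg.IrrCharacter G)] [MulAction A (ConjClasses G)] (hcompat : ∀ (a : A) (χ : Cfsg.IrrCharacter G) (g g' : G), ConjClasses.mk g' = a • ConjClasses.mk g → ((a • χ : Cfsg.IrrCharacter G) : G → ℂ) g' = (χ : G → ℂ) g) (a : A) : Nat.card {χ : Cfsg.IrrCharacter G // a • χ = χ} = Nat.card {C : ConjClasses G // a • C = C} := by
  classical
  letI : Fintype G := Fintype.ofFinite G
  letI : Fintype (ConjClasses G) := Fintype.ofFinite _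
  have hσ : ∀ g : G, ∃ g' : G, ConjClasses.mk g' = a⁻¹ • ConjClasses.mk g :=
    fun g => ConjClasses.exists_rep _
  choose σ hσ using hσ
  have hval : ∀ (χ : Cfsg.IrrCharacter G) (g : G),
      ((a • χ : Cfsg.IrrCharacter G) : G → ℂ) g = (χ : G → ℂ) (σ g) := by
    intro χ g
    apply hcompat a χ (σ g) g
    rw [hσ, smul_inv_smul]
  have hconj : ∀ g : G, IsConj (σ g) g ↔ a • ConjClasses.mk g = ConjClasses.mk g := by
    intro g
    rw [← ConjClasses.mk_eq_mk_iff_isConj, hσ, inv_smul_eq_iff, eq_comm]
  have hG : (Nat.card G : ℂ) ≠ 0 := Cfsg.Agent.Helper25.card_ne_zero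
  have h1 : (Nat.card {χ : Cfsg.IrrCharacter G // a • χ = χ} : ℂ)
      = ∑ χ : Cfsg.IrrCharacter G,
          Cfsg.classInner ((a • χ : Cfsg.IrrCharacter G) : G → ℂ) (χ : G → ℂ) := by
    rw [Nat.card_eq_fintype_card, Fintype.card_subtype, Finset.card_filter, Nat.cast_sum]
    apply Finset.sum_congr rfl; intro χ _
    rw [Cfsg.Agent.Helper25.irr_classInner]
    split_ifs <;> simp
  have h2 : ∑ χ : Cfsg.IrrCharacter G,
        Cfsg.classInner ((a • χ : Cfsg.IrrCharacter G) : G → ℂ) (χ : G → ℂ)
      = (Nat.card G : ℂ)⁻¹ * ∑ g : G, (if a • ConjClasses.mk g = ConjClasses.mk g then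
          (Nat.card (Subgroup.centralizer ({g} : Set G)) : ℂ) else 0) := by
    unfold Cfsg.classInner
    rw [← Finset.mul_sum, Finset.sum_comm]
    congr 1
    apply Finset.sum_congr rfl; intro g _
    have hso := Cfsg.Agent.Helper25.second_orthogonality (σ g) g
    have e : ∑ χ : Cfsg.IrrCharacter G, ((a • χ : Cfsg.IrrCharacter G) : G → ℂ) g *
          (starRingEnd ℂ) ((χ : G → ℂ) g)
        = ∑ χ : Cfsg.IrrCharacter G, (χ : G → ℂ) (σ g) * (χ : G → ℂ) g⁻¹ := by
      apply Finset.sum_congr rfl; intro χ _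
      rw [hval, Cfsg.Agent.Helper25.irr_inv]
    rw [e, hso]
    by_cases hc : a • ConjClasses.mk g = ConjClasses.mk g
    · rw [if_pos hc, if_pos ((hconj g).mpr hc)]
    · rw [if_neg hc, if_neg (fun h => hc ((hconj g).mp h))]
  let F : G → ℂ := fun g => if a • ConjClasses.mk g = ConjClasses.mk g then
    (Nat.card (Subgroup.centralizer ({g} : Set G)) : ℂ) else 0
  have hF : Cfsg.IsClassFunction G F := by
    intro g h
    show (if a • ConjClasses.mk (h * g * h⁻¹) = ConjClasses.mk (h * g * h⁻¹) then
      (Nat.card (Subgroup.centralizer ({h * g * h⁻¹} : Set G)) : ℂ) else 0) = _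
    have e : ConjClasses.mk (h * g * h⁻¹) = ConjClasses.mk g :=
      ConjClasses.mk_eq_mk_iff_isConj.mpr (isConj_iff.mpr ⟨h⁻¹, by group⟩)
    rw [e, Cfsg.Agent.Helper7.card_centralizer_conj]
  have h3 : ∑ g : G, F g = (Nat.card G : ℂ) * (Nat.card {C : ConjClasses G // a • C = C} : ℂ) := by
    rw [Cfsg.Agent.Helper1.sum_eq_sum_conjClasses F hF,
      Nat.card_eq_fintype_card (α := {C : ConjClasses G // a • C = C}),
      Fintype.card_subtype, Finset.card_filter, Nat.cast_sum, Finset.mul_sum]
    apply Finset.sum_congr rfl; intro c _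
    show _ * (if a • ConjClasses.mk (Quotient.out c) = ConjClasses.mk (Quotient.out c) then _ else 0) = _
    have e : ConjClasses.mk (Quotient.out c) = c := Quotient.out_eq c
    rw [e]
    by_cases hc : a • c = c
    · rw [if_pos hc, if_pos hc, ← Nat.cast_mul, Subgroup.index_mul_card]; simp
    · rw [if_neg hc, if_neg hc]; simp
  have h4 : (Nat.card {χ : Cfsg.IrrCharacter G // a • χ = χ} : ℂ)
      = (Nat.card {C : ConjClasses G // a • C = C} : ℂ) := by
    rw [h1, h2, h3, ← mul_assoc, inv_mul_cancel₀ hG, one_mul]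
  exact_mod_cast h4

end Cfsg.Agent.S0860
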