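import Cfsg.Statements.S0861
import Mathlib
import Cfsg.Agent.Helper26.KGV
import Cfsg.Agent.Helper24.Ito

set_option autoImplicit false
open Cfsg

namespace Cfsg.Agent.S0861

open Cfsg.Agent.Helper25 Cfsg.Agent.Helper26

/-- Let P be a normal abelian Sylow p-subgroup of the finite group G and suppose some element g of P has centralizer exactly P. Then the number of irreducible characters of G is at most the order of P, and if equality holds then G / P is abelian (the commutator subgroup lies in P). -/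
theorem result {G : Type*} [Group G] [Finite G] (p : ℕ) [Fact p.Prime] (P : Sylow p G) [(P : Subgroup G).Normal] (hab : ∀ a ∈ P, ∀ b ∈ P, a * b = b * a) (g : G) (hg : g ∈ P) (hC : Subgroup.centralizer ({g} : Set G) = P) : Nat.card (Cfsg.IrrCharacter G) ≤ Nat.card P ∧ (Nat.card (Cfsg.IrrCharacter G) = Nat.card P → commutator G ≤ P) := by
  classical
  haveI : Fintype G := Fintype.ofFinite G
  have hp : p.Prime := Fact.out
  have hVp : IsPGroup p (P : Subgroup G) := P.isPGroup'
  have hidx : ¬ p ∣ (P : Subgroup G).index := P.not_dvd_index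
  obtain ⟨ι, hι, hne, m, hm, hmain⟩ := Cfsg.Agent.Helper26.char_galois_sum' G
  have hnz : ∀ χ : IrrCharacter G, (χ : G → ℂ) g ≠ 0 := fun χ =>
    irr_ne_zero_of_abelian_normal_sylow p (P : Subgroup G) hVp hidx hab χ hg
  have hχ : ∀ χ : IrrCharacter G,
      (Fintype.card ι : ℝ) ≤ ∑ i, ‖(χ : G → ℂ) (g ^ m i)‖ ^ 2 := fun χ =>
    hmain χ (isCharacter_of_irr χ.2) g (hnz χ)
  have hcent : ∀ i, (Nat.card (Subgroup.centralizer ({g ^ m i} : Set G)) : ℝ)
      = Nat.card (P : Subgroup G) := by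
    intro i
    rw [centralizer_pow_coprime g (hm i), hC]
  have hsum : ∑ χ : IrrCharacter G, ∑ i, ‖(χ : G → ℂ) (g ^ m i)‖ ^ 2
      = (Fintype.card ι : ℝ) * Nat.card (P : Subgroup G) := by
    rw [Finset.sum_comm]
    rw [Finset.sum_congr rfl (fun i _ => (card_centralizer_eq_sum_norm_sq (g ^ m i)).symm)]
    rw [Finset.sum_congr rfl (fun i _ => hcent i)]
    rw [Finset.sum_const, Finset.card_univ, nsmul_eq_mul]
  have hιpos : (0 : ℝ) < Fintype.card ι := by
    exact_mod_cast Fintype.card_pos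
  have hle : (Nat.card (IrrCharacter G) : ℝ) * Fintype.card ι
      ≤ (Fintype.card ι : ℝ) * Nat.card (P : Subgroup G) := by
    rw [← hsum]
    calc (Nat.card (IrrCharacter G) : ℝ) * Fintype.card ι
        = ∑ χ : IrrCharacter G, (Fintype.card ι : ℝ) := by
          rw [Finset.sum_const, Finset.card_univ, nsmul_eq_mul, Nat.card_eq_fintype_card]
      _ ≤ _ := Finset.sum_le_sum (fun χ _ => hχ χ)
  have hk : (Nat.card (IrrCharacter G) : ℝ) ≤ Nat.card (P : Subgroup G) := by
    have h1 : (Nat.card (IrrCharacter G) : ℝ) * Fintype.card ι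
        ≤ (Nat.card (P : Subgroup G) : ℝ) * Fintype.card ι := by
      rw [mul_comm (Nat.card (P : Subgroup G) : ℝ)]
      exact hle
    exact le_of_mul_le_mul_right h1 hιpos
  refine ⟨by exact_mod_cast hk, ?_⟩
  intro heq
  -- each inequality is tight
  have htight : ∀ χ : IrrCharacter G,
      ∑ i, ‖(χ : G → ℂ) (g ^ m i)‖ ^ 2 = (Fintype.card ι : ℝ) := by
    have h0 : ∑ χ : IrrCharacter G,
        (∑ i, ‖(χ : G → ℂ) (g ^ m i)‖ ^ 2 - (Fintype.card ι : ℝ)) = 0 := by
      have heq' : (Fintype.card (IrrCharacter G) : ℝ) = Nat.card (P : Subgroup G) := by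
        rw [← Nat.card_eq_fintype_card]
        exact_mod_cast heq
      rw [Finset.sum_sub_distrib, hsum, Finset.sum_const, Finset.card_univ, nsmul_eq_mul,
        heq']
      ring
    have h1 := (Finset.sum_eq_zero_iff_of_nonneg
      (fun χ _ => sub_nonneg.mpr (hχ χ))).mp h0
    intro χ
    have := h1 χ (Finset.mem_univ _)
    linarith
  -- characters of the quotient are linear
  have hlin : ∀ ψ : IrrCharacter (G ⧸ (P : Subgroup G)), charDegree (ψ : G ⧸ (P : Subgroup G) → ℂ) = 1 := by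
    intro ψ
    set χ : IrrCharacter G := irrComp ψ (QuotientGroup.mk' (P : Subgroup G))
      (QuotientGroup.mk'_surjective _) with hχdef
    have hval : ∀ i, (χ : G → ℂ) (g ^ m i)
        = (charDegree (ψ : G ⧸ (P : Subgroup G) → ℂ) : ℂ) := by
      intro i
      have h1 : (χ : G → ℂ) (g ^ m i)
          = (ψ : G ⧸ (P : Subgroup G) → ℂ) (QuotientGroup.mk (g ^ m i)) := rfl
      rw [h1, (QuotientGroup.eq_one_iff (g ^ m i)).mpr (Subgroup.pow_mem _ hg _)]
      exact char_one_eq_degree (isCharacter_of_irr ψ.2)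
    have h2 := htight χ
    rw [Finset.sum_congr rfl (fun i _ => by rw [hval i]), Finset.sum_const, Finset.card_univ,
      nsmul_eq_mul] at h2
    have h3 : ‖((charDegree (ψ : G ⧸ (P : Subgroup G) → ℂ) : ℕ) : ℂ)‖ ^ 2 = 1 := by
      have h4 : (Fintype.card ι : ℝ) * ‖((charDegree (ψ : G ⧸ (P : Subgroup G) → ℂ) : ℕ) : ℂ)‖ ^ 2
          = (Fintype.card ι : ℝ) * 1 := by rw [h2, mul_one]
      exact mul_left_cancel₀ hιpos.ne' h4
    rw [Complex.norm_natCast] at h3
    have h5 : (charDegree (ψ : G ⧸ (P : Subgroup G) → ℂ)) ^ 2 = 1 := by exact_mod_cast h3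
    exact (Nat.pow_eq_one.mp h5).resolve_right (by norm_num)
  have hcomm := Cfsg.Agent.Helper24.comm_of_all_linear hlin
  rw [commutator_def, Subgroup.commutator_le]
  intro a _ b _
  rw [← QuotientGroup.eq_one_iff (N := (P : Subgroup G)), commutatorElement_def]
  have h6 : ((a * b * a⁻¹ * b⁻¹ : G) : G ⧸ (P : Subgroup G))
      = (a : G ⧸ (P : Subgroup G)) * (b : G ⧸ (P : Subgroup G))
        * (a : G ⧸ (P : Subgroup G))⁻¹ * (b : G ⧸ (P : Subgroup G))⁻¹ := rfl
  rw [h6, hcomm (a : G ⧸ (P : Subgroup G)) (b : G ⧸ (P : Subgroup G))]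
  group

end Cfsg.Agent.S0861
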