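import Cfsg.Statements.S0864
import Mathlib
import Cfsg.Agent.Helper7.LinChar

set_option autoImplicit false
open Cfsg

namespace Cfsg.Agent.S0864

/-- Let N be a normal subgroup of the finite group G and λ a character of N of degree 1 invariant under conjugation by G. Suppose that for every prime p dividing the order of λ (in the group of functions under pointwise multiplication) there is a subgroup H containing N, of index prime to p and with the index of N in H a power of p, together with a character of H of degree 1 restricting to λ. Then λ is the restriction of a character of G of degree 1. -/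
theorem result {G : Type*} [Group G] [Finite G] (N : Subgroup G) [hN : N.Normal] (lam : N → ℂ) (hlam : Cfsg.IsCharacter N lam ∧ lam 1 = 1) (hinv : ∀ (g : G) (n : N), lam ⟨g * n * g⁻¹, hN.conj_mem (n : G) n.2 g⟩ = lam n) (hsyl : ∀ p : ℕ, p.Prime → p ∣ orderOf lam → ∃ (H : Subgroup G) (hNH : N ≤ H) (ν : H → ℂ), Nat.Coprime H.index p ∧ (∃ k : ℕ, N.relIndex H = p ^ k) ∧ Cfsg.IsCharacter H ν ∧ ν 1 = 1 ∧ ∀ n : N, ν ⟨(n : G), hNH n.2⟩ = lam n) : ∃ μ : G → ℂ, Cfsg.IsCharacter G μ ∧ μ 1 = 1 ∧ ∀ n : N, μ n = lam n := by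
  classical
  obtain ⟨Λ, rfl⟩ := Cfsg.Agent.Helper7.exists_hom_of_linear lam hlam.1 hlam.2
  rw [Cfsg.Agent.Helper7.orderOf_hom_fun] at hsyl
  letI : Fintype G := Fintype.ofFinite G
  have hinvΛ : ∀ (g : G) (n : N), Λ ⟨g * n * g⁻¹, hN.conj_mem (n : G) n.2 g⟩ = Λ n :=
    fun g n => Units.ext (hinv g n)
  have hmem : Λ ∈ MonoidHom.range (Cfsg.Agent.Helper7.resHom N) := by
    apply Cfsg.Agent.Helper7.mem_of_coprime_pows _ Λ (Cfsg.Agent.Helper7.orderOf_hom_pos Λ)
    intro p hp hpo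
    obtain ⟨H, hNH, ν, h1, -, h3, h4, h5⟩ := hsyl p hp hpo
    obtain ⟨δ, hδ⟩ := Cfsg.Agent.Helper7.exists_hom_restrict_pow N H hNH Λ hinvΛ ν h3 h4 h5
    refine ⟨H.index, h1, δ, ?_⟩
    ext n
    exact congrArg Units.val (hδ n)
  obtain ⟨μ, hμ⟩ := hmem
  refine ⟨fun g => ((μ g : ℂˣ) : ℂ), Cfsg.Agent.Helper7.isCharacter_of_hom μ, by simp, ?_⟩
  intro n
  exact congrArg Units.val (DFunLike.congr_fun hμ n)

end Cfsg.Agent.S0864
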