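import Cfsg.Statements.S0869
import Mathlib

set_option autoImplicit false
open Cfsg

namespace Cfsg.Agent.S0869

/-- Let S be a nonempty finite type and R an additive subgroup of the integer-valued functions on S that is closed under pointwise multiplication. If the constant function 1 is not in R, then there exist a point x of S and a prime p such that p divides f x for every f in R. -/
theorem result {S : Type*} [Finite S] [Nonempty S] (R : AddSubgroup (S → ℤ)) (hmul : ∀ f ∈ R, ∀ g ∈ R, f * g ∈ R) (h1 : (1 : S → ℤ) ∉ R) : ∃ (x : S) (p : ℕ), p.Prime ∧ ∀ f ∈ R, (p : ℤ) ∣ f x := by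
  classical
  by_contra hcon
  push_neg at hcon
  have hex : ∀ x : S, ∃ f ∈ R, f x = 1 := by
    intro x
    obtain ⟨d, hd⟩ := Int.subgroup_cyclic (R.map (Pi.evalAddMonoidHom (fun _ : S => ℤ) x))
    have hmemI : ∀ f ∈ R, f x ∈ AddSubgroup.closure ({d} : Set ℤ) := by
      intro f hf
      rw [← hd]
      exact ⟨f, hf, rfl⟩
    have hdvd : ∀ f ∈ R, d ∣ f x := by
      intro f hf
      have := hmemI f hf
      rw [AddSubgroup.mem_closure_singleton] at this
      obtain ⟨n, hn⟩ := this
      exact ⟨n, by rw [← hn]; simp [mul_comm]⟩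
    by_cases hd1 : d.natAbs = 1
    · have hdmem : d ∈ R.map (Pi.evalAddMonoidHom (fun _ : S => ℤ) x) := by
        rw [hd]; exact AddSubgroup.subset_closure rfl
      obtain ⟨f, hf, hfx⟩ := hdmem
      have hfx' : f x = d := hfx
      rcases Int.natAbs_eq d with h | h
      · exact ⟨f, hf, by rw [hfx', h, hd1]; rfl⟩
      · refine ⟨-f, R.neg_mem hf, ?_⟩
        rw [Pi.neg_apply, hfx', h, hd1]; simp
    · exfalso
      obtain ⟨p, hp, hpd⟩ := Nat.exists_prime_and_dvd hd1
      obtain ⟨f, hf, hnd⟩ := hcon x p hp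
      apply hnd
      have : (p : ℤ) ∣ d := by
        rw [← Int.natCast_dvd_natCast] at hpd
        exact hpd.trans (Int.natAbs_dvd.mpr dvd_rfl)
      exact this.trans (hdvd f hf)
  choose f hfR hf1 using hex
  haveI := Fintype.ofFinite S
  have key : ∀ s : Finset S, (1 : S → ℤ) - ∏ x ∈ s, (1 - f x) ∈ R := by
    intro s
    induction s using Finset.induction_on with
    | empty => simp
    | insert a s ha ih =>
      rw [Finset.prod_insert ha]
      have e : (1 : S → ℤ) - (1 - f a) * ∏ x ∈ s, (1 - f x)
          = (1 - ∏ x ∈ s, (1 - f x)) + f a - f a * (1 - ∏ x ∈ s, (1 - f x)) := by ring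
      rw [e]
      exact R.sub_mem (R.add_mem ih (hfR a)) (hmul _ (hfR a) _ ih)
  have hzero : ∏ x ∈ (Finset.univ : Finset S), (1 - f x) = 0 := by
    funext y
    rw [Finset.prod_apply]
    apply Finset.prod_eq_zero (Finset.mem_univ y)
    simp [hf1 y]
  have := key Finset.univ
  rw [hzero, sub_zero] at this
  exact h1 this

end Cfsg.Agent.S0869
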