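import Cfsg.Statements.S0870
import Mathlib
import Cfsg.Agent.Helper7.Basic

set_option autoImplicit false
open Cfsg

namespace Cfsg.Agent.S0870

theorem sum_orbits {A X : Type*} [Group A] [MulAction A X] [Fintype X] (ψ : X → ℂ)
    (hψ : ∀ (a : A) (x : X), ψ (a • x) = ψ x) [Fintype (MulAction.orbitRel.Quotient A X)] :
    ∑ x, ψ x = ∑ ω : MulAction.orbitRel.Quotient A X,
      (Nat.card (MulAction.orbit A ω.out) : ℂ) * ψ ω.out := by
  classical
  rw [← Equiv.sum_comp (MulAction.selfEquivSigmaOrbits A X).symm ψ, Fintype.sum_sigma]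
  refine Finset.sum_congr rfl (fun ω _ => ?_)
  have h1 : ∀ b : MulAction.orbit A ω.out,
      ψ ((MulAction.selfEquivSigmaOrbits A X).symm ⟨ω, b⟩) = ψ ω.out := by
    rintro ⟨b, a, rfl⟩
    exact hψ a _
  rw [Finset.sum_congr rfl (fun b _ => h1 b), Finset.sum_const, Finset.card_univ, nsmul_eq_mul,
    Nat.card_eq_fintype_card]

def UU {G : Type*} [Group G] (H K : Subgroup G) (t : G) : Subgroup G where
  carrier := {u | u ∈ H ∧ t⁻¹ * u * t ∈ K}
  mul_mem' := by
    rintro a b ⟨ha, ha'⟩ ⟨hb, hb'⟩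
    refine ⟨H.mul_mem ha hb, ?_⟩
    have : t⁻¹ * (a * b) * t = (t⁻¹ * a * t) * (t⁻¹ * b * t) := by group
    show t⁻¹ * (a * b) * t ∈ K
    rw [this]; exact K.mul_mem ha' hb'
  one_mem' := ⟨H.one_mem, by simp⟩
  inv_mem' := by
    rintro a ⟨ha, ha'⟩
    refine ⟨H.inv_mem ha, ?_⟩
    have : t⁻¹ * a⁻¹ * t = (t⁻¹ * a * t)⁻¹ := by group
    show t⁻¹ * a⁻¹ * t ∈ K
    rw [this]; exact K.inv_mem ha'

theorem ext_one_mem {G : Type*} [Group G] (H : Subgroup G) (a : G) (h : a ∈ H) :
    Cfsg.extendByZero H (fun _ => (1:ℂ)) a = 1 :=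
  Cfsg.Agent.Helper7.extendByZero_apply_mem H _ ⟨a, h⟩

theorem ext_one_not_mem {G : Type*} [Group G] (H : Subgroup G) (a : G) (h : a ∉ H) :
    Cfsg.extendByZero H (fun _ => (1:ℂ)) a = 0 :=
  Cfsg.Agent.Helper7.extendByZero_apply_not_mem H _ a h

theorem ext_mul {G : Type*} [Group G] (H K : Subgroup G) (t a : G) :
    Cfsg.extendByZero H (fun _ => (1:ℂ)) a * Cfsg.extendByZero K (fun _ => (1:ℂ)) (t⁻¹ * a * t)
      = Cfsg.extendByZero (UU H K t) (fun _ => (1:ℂ)) a := by
  by_cases h1 : a ∈ H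
  · by_cases h2 : t⁻¹ * a * t ∈ K
    · rw [ext_one_mem H a h1, ext_one_mem K _ h2, ext_one_mem (UU H K t) a ⟨h1, h2⟩, mul_one]
    · rw [ext_one_not_mem K _ h2, ext_one_not_mem (UU H K t) a (fun h => h2 h.2), mul_zero]
  · rw [ext_one_not_mem H _ h1, ext_one_not_mem (UU H K t) a (fun h => h1 h.1), zero_mul]

theorem ext_conj {G : Type*} [Group G] (H : Subgroup G) (h a : G) (hh : h ∈ H) :
    Cfsg.extendByZero H (fun _ => (1:ℂ)) (h * a * h⁻¹) = Cfsg.extendByZero H (fun _ => (1:ℂ)) a := by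
  by_cases h1 : a ∈ H
  · rw [ext_one_mem H a h1, ext_one_mem H _ (H.mul_mem (H.mul_mem hh h1) (H.inv_mem hh))]
  · rw [ext_one_not_mem H a h1, ext_one_not_mem H _ (fun h2 => h1 (by
      have : a = h⁻¹ * (h * a * h⁻¹) * h := by group
      rw [this]; exact H.mul_mem (H.mul_mem (H.inv_mem hh) h2) hh))]

/-- For subgroups H and K of a finite group G, the pointwise product of the functions induced from the constant function 1 on H and on K is a sum, over subgroups U of H with natural-number coefficients, of the functions induced from the constant function 1 on U. -/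
theorem result {G : Type*} [Group G] [Fintype G] (H K : Subgroup G) : ∃ a : Subgroup G → ℕ, (∀ U, a U ≠ 0 → U ≤ H) ∧ Cfsg.indFun H (fun _ => 1) * Cfsg.indFun K (fun _ => 1) = ∑ U : Subgroup G, (a U : ℂ) • Cfsg.indFun U (fun _ => 1) := by
  classical
  letI : Fintype H := Fintype.ofFinite H
  letI : Fintype K := Fintype.ofFinite K
  let act : (H × K) → G → G := fun p t => (p.1 : G) * t * (p.2 : G)⁻¹
  letI inst : MulAction (H × K) G :=
    { smul := act
      one_smul := by
        intro t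
        show ((1 : H × K).1 : G) * t * (((1 : H × K).2 : G))⁻¹ = t
        simp
      mul_smul := by
        intro p q t
        show ((p * q).1 : G) * t * ((p * q).2 : G)⁻¹
          = (p.1 : G) * ((q.1 : G) * t * (q.2 : G)⁻¹) * (p.2 : G)⁻¹
        simp [mul_assoc] }
  have hsmul : ∀ (p : H × K) (t : G), p • t = (p.1 : G) * t * (p.2 : G)⁻¹ := fun _ _ => rfl
  letI : Fintype (MulAction.orbitRel.Quotient (H × K) G) := Fintype.ofFinite _
  let Ut : MulAction.orbitRel.Quotient (H × K) G → Subgroup G := fun ω => UU H K ω.out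
  refine ⟨fun U => (Finset.univ.filter (fun ω => Ut ω = U)).card, ?_, ?_⟩
  · intro U hU
    obtain ⟨ω, hω⟩ := Finset.card_pos.mp (Nat.pos_of_ne_zero hU)
    rw [Finset.mem_filter] at hω
    rw [← hω.2]
    intro u hu
    exact hu.1
  · funext g
    rw [Pi.mul_apply, Finset.sum_apply]
    have hR : ∑ U : Subgroup G, ((((Finset.univ.filter (fun ω => Ut ω = U)).card : ℕ) : ℂ) •
          Cfsg.indFun U (fun _ => 1)) g
        = ∑ ω, Cfsg.indFun (Ut ω) (fun _ => 1) g := by
      have h1 : ∀ U : Subgroup G, ((((Finset.univ.filter (fun ω => Ut ω = U)).card : ℕ) : ℂ) •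
          Cfsg.indFun U (fun _ => 1)) g
          = ∑ ω, if Ut ω = U then Cfsg.indFun U (fun _ => 1) g else 0 := by
        intro U
        rw [Pi.smul_apply, smul_eq_mul, Finset.card_filter, Nat.cast_sum, Finset.sum_mul]
        apply Finset.sum_congr rfl
        intro ω _
        split_ifs <;> simp
      rw [Finset.sum_congr rfl (fun U _ => h1 U), Finset.sum_comm]
      apply Finset.sum_congr rfl
      intro ω _
      rw [Finset.sum_ite_eq]
      simp
    rw [hR]
    let e : Subgroup G → G → ℂ := fun L a => Cfsg.extendByZero L (fun _ => (1:ℂ)) a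
    let ψ : G → ℂ := fun t => ∑ x : G, e H (x⁻¹ * g * x) * e K (t⁻¹ * (x⁻¹ * g * x) * t)
    have hψ1 : ∀ t, ψ t = (Nat.card (UU H K t) : ℂ) * Cfsg.indFun (UU H K t) (fun _ => 1) g := by
      intro t
      show _ = (Nat.card (UU H K t) : ℂ) * ((Nat.card (UU H K t) : ℂ)⁻¹ *
        ∑ x : G, Cfsg.extendByZero (UU H K t) (fun _ => 1) (x⁻¹ * g * x))
      rw [← mul_assoc, mul_inv_cancel₀ (Nat.cast_ne_zero.mpr Nat.card_pos.ne'), one_mul]
      apply Finset.sum_congr rfl
      intro x _
      exact ext_mul H K t _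
    have hψ2 : ∀ (p : H × K) (t : G), ψ (p • t) = ψ t := by
      rintro ⟨h, k⟩ t
      rw [hsmul]
      show ∑ x : G, e H (x⁻¹ * g * x) * e K (((h:G) * t * (k:G)⁻¹)⁻¹ * (x⁻¹ * g * x) * ((h:G) * t * (k:G)⁻¹))
        = ∑ x : G, e H (x⁻¹ * g * x) * e K (t⁻¹ * (x⁻¹ * g * x) * t)
      rw [← Equiv.sum_comp (Equiv.mulRight (h:G)⁻¹)]
      apply Finset.sum_congr rfl
      intro x _
      simp only [Equiv.coe_mulRight]
      have e1 : (x * (h:G)⁻¹)⁻¹ * g * (x * (h:G)⁻¹) = (h:G) * (x⁻¹ * g * x) * (h:G)⁻¹ := by group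
      have e2 : ((h:G) * t * (k:G)⁻¹)⁻¹ * ((h:G) * (x⁻¹ * g * x) * (h:G)⁻¹) * ((h:G) * t * (k:G)⁻¹)
          = (k:G) * (t⁻¹ * (x⁻¹ * g * x) * t) * (k:G)⁻¹ := by group
      rw [e1, e2]
      show Cfsg.extendByZero H _ _ * Cfsg.extendByZero K _ _
        = Cfsg.extendByZero H _ _ * Cfsg.extendByZero K _ _
      rw [ext_conj H _ _ h.2, ext_conj K _ _ k.2]
    have hprod : (∑ x : G, e H (x⁻¹ * g * x)) * (∑ y : G, e K (y⁻¹ * g * y)) = ∑ t : G, ψ t := by
      rw [Finset.sum_mul]
      show _ = ∑ t : G, ∑ x : G, e H (x⁻¹ * g * x) * e K (t⁻¹ * (x⁻¹ * g * x) * t)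
      rw [Finset.sum_comm]
      apply Finset.sum_congr rfl
      intro x _
      rw [Finset.mul_sum, ← Equiv.sum_comp (Equiv.mulLeft x)
        (fun y => e H (x⁻¹ * g * x) * e K (y⁻¹ * g * y))]
      apply Finset.sum_congr rfl
      intro t _
      simp only [Equiv.coe_mulLeft]
      congr 2
      group
    have horb : ∀ t : G, (Nat.card (MulAction.orbit (H × K) t) : ℂ) * (Nat.card (UU H K t) : ℂ)
        = (Nat.card H : ℂ) * (Nat.card K : ℂ) := by
      intro t
      have h1 := MulAction.card_orbit_mul_card_stabilizer_eq_card_group (H × K) t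
      have h2 : Nat.card (MulAction.stabilizer (H × K) t) = Nat.card (UU H K t) := by
        refine Nat.card_congr
          { toFun := fun p => ⟨(p.1.1 : G), p.1.1.2, by
              have hp := p.2
              rw [MulAction.mem_stabilizer_iff, hsmul] at hp
              have : t⁻¹ * (p.1.1 : G) * t = (p.1.2 : G) := by
                calc t⁻¹ * (p.1.1 : G) * t
                    = t⁻¹ * ((p.1.1 : G) * t * (p.1.2 : G)⁻¹) * (p.1.2 : G) := by group
                  _ = (p.1.2 : G) := by rw [hp]; group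
              show t⁻¹ * (p.1.1 : G) * t ∈ K
              rw [this]; exact p.1.2.2⟩
            invFun := fun u => ⟨(⟨u.1, u.2.1⟩, ⟨t⁻¹ * u.1 * t, u.2.2⟩), by
              rw [MulAction.mem_stabilizer_iff, hsmul]
              show (u.1 : G) * t * (t⁻¹ * u.1 * t)⁻¹ = t
              group⟩
            left_inv := by
              rintro ⟨⟨h, k⟩, hp⟩
              rw [MulAction.mem_stabilizer_iff, hsmul] at hp
              apply Subtype.ext
              apply Prod.ext
              · rfl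
              · apply Subtype.ext
                show t⁻¹ * (h : G) * t = (k : G)
                calc t⁻¹ * (h : G) * t
                    = t⁻¹ * ((h : G) * t * (k : G)⁻¹) * (k : G) := by group
                  _ = (k : G) := by rw [hp]; group
            right_inv := by
              rintro ⟨u, hu⟩
              rfl }
      rw [← Nat.cast_mul, ← Nat.cast_mul, ← h2, Nat.card_eq_fintype_card, Nat.card_eq_fintype_card,
        h1, Fintype.card_prod, ← Nat.card_eq_fintype_card, ← Nat.card_eq_fintype_card]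
    show ((Nat.card H : ℂ)⁻¹ * ∑ x : G, e H (x⁻¹ * g * x)) *
      ((Nat.card K : ℂ)⁻¹ * ∑ y : G, e K (y⁻¹ * g * y)) = _
    rw [mul_mul_mul_comm, hprod, sum_orbits ψ hψ2, Finset.mul_sum]
    apply Finset.sum_congr rfl
    intro ω _
    rw [hψ1, ← mul_assoc, ← mul_assoc, mul_assoc _ (Nat.card (MulAction.orbit _ _) : ℂ), horb]
    have hH0 : (Nat.card H : ℂ) ≠ 0 := Nat.cast_ne_zero.mpr Nat.card_pos.ne'
    have hK0 : (Nat.card K : ℂ) ≠ 0 := Nat.cast_ne_zero.mpr Nat.card_pos.ne'
    field_simp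
    rfl

end Cfsg.Agent.S0870
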