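import Cfsg.Statements.S0873
import Mathlib

set_option autoImplicit false
open Cfsg

namespace Cfsg.Agent.S0873

theorem linChar_mul {H : Type*} [Group H] (lam : H → ℂ) (hlam : Cfsg.IsCharacter H lam ∧ lam 1 = 1)
    (a b : H) : lam (a * b) = lam a * lam b := by
  obtain ⟨⟨n, ρ, hρ⟩, h1⟩ := hlam
  subst hρ
  rw [Representation.char_one] at h1
  have hn : n = 1 := by simpa using h1
  subst hn
  show LinearMap.trace ℂ _ (ρ (a * b)) = LinearMap.trace ℂ _ (ρ a) * LinearMap.trace ℂ _ (ρ b)
  rw [map_mul]
  have key : ∀ f g : (Fin 1 → ℂ) →ₗ[ℂ] (Fin 1 → ℂ),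
      LinearMap.trace ℂ _ (f * g) = LinearMap.trace ℂ _ f * LinearMap.trace ℂ _ g := by
    intro f g
    rw [LinearMap.trace_eq_matrix_trace ℂ (Pi.basisFun ℂ (Fin 1)),
      LinearMap.trace_eq_matrix_trace ℂ (Pi.basisFun ℂ (Fin 1)),
      LinearMap.trace_eq_matrix_trace ℂ (Pi.basisFun ℂ (Fin 1)), LinearMap.toMatrix_mul,
      Matrix.trace_fin_one, Matrix.trace_fin_one, Matrix.trace_fin_one, Matrix.mul_apply,
      Fin.sum_univ_one]
  exact key _ _

/-- Let C be a normal subgroup of the finite group G of order prime to p and P a p-subgroup with C ⊔ P = G. Let λ be a character of C of degree 1 invariant under conjugation by G and equal to 1 at every element of C centralized by P. Then λ is identically 1. -/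
theorem result {G : Type*} [Group G] [Finite G] (p : ℕ) [Fact p.Prime] (C P : Subgroup G) [hC : C.Normal] (hP : IsPGroup p P) (hcop : Nat.Coprime (Nat.card C) p) (hCP : C ⊔ P = ⊤) (lam : C → ℂ) (hlam : Cfsg.IsCharacter C lam ∧ lam 1 = 1) (hinv : ∀ (g : G) (c : C), lam ⟨g * c * g⁻¹, hC.conj_mem (c : G) c.2 g⟩ = lam c) (hker : ∀ c : C, (c : G) ∈ Subgroup.centralizer (P : Set G) → lam c = 1) : lam = fun _ => 1 := by
  classical
  have hmul := linChar_mul lam hlam
  have h1 : lam 1 = 1 := hlam.2
  have hinvc : ∀ a : C, lam a⁻¹ * lam a = 1 := by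
    intro a
    rw [← hmul, inv_mul_cancel, h1]
  let K : Subgroup C :=
    { carrier := {d | lam d = 1}
      mul_mem' := by
        intro a b ha hb
        show lam (a * b) = 1
        rw [hmul, ha, hb, one_mul]
      one_mem' := h1
      inv_mem' := by
        intro a ha
        show lam a⁻¹ = 1
        have := hinvc a
        rw [show lam a = 1 from ha, mul_one] at this
        exact this }
  have hKcop : ¬ p ∣ Nat.card K := by
    intro hdvd
    have h2 : p ∣ Nat.card C := hdvd.trans (Subgroup.card_subgroup_dvd_card K)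
    have hp : p.Prime := Fact.out
    have := Nat.dvd_gcd h2 dvd_rfl
    rw [Nat.Coprime] at hcop
    rw [hcop] at this
    exact hp.one_lt.ne' (Nat.dvd_one.mp this)
  funext c
  let X := {d : C // lam d = lam c}
  let act : P → X → X := fun x d =>
    ⟨⟨(x : G) * (d.1 : G) * (x : G)⁻¹, hC.conj_mem (d.1 : G) d.1.2 (x : G)⟩, by
      rw [hinv]; exact d.2⟩
  let _inst : MulAction P X :=
    { smul := act
      one_smul := by
        rintro ⟨d, hd⟩
        apply Subtype.ext
        apply Subtype.ext
        show ((1 : P) : G) * (d : G) * ((1 : P) : G)⁻¹ = d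
        simp
      mul_smul := by
        rintro a b ⟨d, hd⟩
        apply Subtype.ext
        apply Subtype.ext
        show ((a * b : P) : G) * (d : G) * ((a * b : P) : G)⁻¹ = (a : G) * ((b : G) * (d : G) * (b : G)⁻¹) * (a : G)⁻¹
        simp [mul_assoc] }
  have hsmul : ∀ (x : P) (d : X), x • d = act x d := fun _ _ => rfl
  have e : X ≃ K :=
    { toFun := fun d => ⟨c⁻¹ * d.1, by
        show lam (c⁻¹ * d.1) = 1
        rw [hmul, d.2, hinvc]⟩
      invFun := fun k => ⟨c * k.1, by
        show lam (c * k.1) = lam c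
        rw [hmul, show lam k.1 = 1 from k.2, mul_one]⟩
      left_inv := by
        intro d
        apply Subtype.ext
        simp
      right_inv := by
        intro k
        apply Subtype.ext
        simp }
  have hXcop : ¬ p ∣ Nat.card X := by
    rw [Nat.card_congr e]; exact hKcop
  obtain ⟨d, hd⟩ := hP.nonempty_fixed_point_of_prime_not_dvd_card X hXcop
  have hdc : (d.1 : G) ∈ Subgroup.centralizer (P : Set G) := by
    rw [Subgroup.mem_centralizer_iff]
    intro x hx
    have h2 := hd ⟨x, hx⟩
    rw [hsmul] at h2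
    have h3 := congrArg (fun w : X => (w.1 : G)) h2
    simp only [act] at h3
    calc x * (d.1 : G) = (x * (d.1 : G) * x⁻¹) * x := by group
      _ = (d.1 : G) * x := by rw [h3]
  rw [← d.2]
  exact hker d.1 hdc

end Cfsg.Agent.S0873
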