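import Cfsg.Statements.S0877
import Mathlib
import Cfsg.Agent.Helper7.BrauerChar
import Cfsg.Agent.Helper25.CharOrth
import Cfsg.Agent.Helper25.CharKer
import Cfsg.Agent.Helper11.CentralTI
import Cfsg.Agent.Helper11.Feit1

set_option autoImplicit false
open Cfsg

namespace Cfsg.Agent.S0877

/-- In a group with a central subgroup `Z` of finite index, `x ↦ x ^ a` is multiplicative with
central values whenever `Z.index ∣ a` (transfer into `Z`). -/
theorem pow_mul_of_central_index {E : Type*} [Group E] (Z : Subgroup E) [Z.FiniteIndex]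
    (hZ : Z ≤ Subgroup.center E) (a : ℕ) (ha : Z.index ∣ a) (x y : E) :
    (x * y) ^ a = x ^ a * y ^ a ∧ x ^ a ∈ Subgroup.center E := by
  letI : CommGroup ↥Z := { (inferInstance : Group ↥Z) with
    mul_comm := fun u v => Subtype.ext (Subgroup.mem_center_iff.mp (hZ v.2) (u : E)) }
  have key : ∀ (g : E) (k : ℕ) (g₀ : E), g₀⁻¹ * g ^ k * g₀ ∈ Z →
      g₀⁻¹ * g ^ k * g₀ = g ^ k := by
    intro g k g₀ h
    have hc := Subgroup.mem_center_iff.mp (hZ h) g₀
    have h1 : g ^ k * g₀ = g₀⁻¹ * g ^ k * g₀ * g₀ := by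
      rw [← hc]; group
    exact (mul_right_cancel h1).symm
  have hT : ∀ g : E, ((MonoidHom.transfer (MonoidHom.id ↥Z) g : ↥Z) : E) = g ^ Z.index := by
    intro g
    rw [MonoidHom.transfer_eq_pow (MonoidHom.id ↥Z) g (key g)]
    rfl
  obtain ⟨j, rfl⟩ := ha
  have hpow : ∀ g : E, g ^ (Z.index * j) =
      ((MonoidHom.transfer (MonoidHom.id ↥Z) g : ↥Z) : E) ^ j := by
    intro g; rw [hT, pow_mul]
  have hcen : ∀ g : E, ((MonoidHom.transfer (MonoidHom.id ↥Z) g : ↥Z) : E) ∈ Subgroup.center E :=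
    fun g => hZ (MonoidHom.transfer (MonoidHom.id ↥Z) g).2
  refine ⟨?_, ?_⟩
  · rw [hpow, hpow, hpow, map_mul, Subgroup.coe_mul]
    have hcomm : Commute ((MonoidHom.transfer (MonoidHom.id ↥Z) x : ↥Z) : E)
        ((MonoidHom.transfer (MonoidHom.id ↥Z) y : ↥Z) : E) :=
      Subgroup.mem_center_iff.mp (hcen y) _
    exact hcomm.mul_pow j
  · rw [hpow]
    exact Subgroup.pow_mem _ (hcen x) j

theorem exists_exps (n m : ℕ) (h : n.Coprime m) :
    ∃ e e' : ℕ, e ≡ 1 [MOD n] ∧ e ≡ 0 [MOD m] ∧ e' ≡ 0 [MOD n] ∧ e' ≡ 1 [MOD m] := by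
  obtain ⟨e, he1, he2⟩ := Nat.chineseRemainder h 1 0
  obtain ⟨e', he1', he2'⟩ := Nat.chineseRemainder h 0 1
  exact ⟨e, e', he1, he2, he1', he2'⟩

theorem isElementary_range {E G' : Type*} [Group E] [Group G'] (p : ℕ) (hp : p.Prime)
    (f : E →* G') (hE : IsElementary p E) : IsElementary p f.range := by
  obtain ⟨z, hz, hzc, k, hk⟩ := hE
  have hsurj : Function.Surjective f.rangeRestrict := f.rangeRestrict_surjective
  refine ⟨f.rangeRestrict z, ?_, ?_, ?_⟩
  · rw [Subgroup.mem_center_iff]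
    intro w
    obtain ⟨x, rfl⟩ := hsurj w
    rw [← map_mul, ← map_mul, Subgroup.mem_center_iff.mp hz x]
  · exact Nat.Coprime.coprime_dvd_left (orderOf_map_dvd f.rangeRestrict z) hzc
  · have h1 := Subgroup.index_map_dvd (Subgroup.zpowers z) hsurj
    rw [MonoidHom.map_zpowers, hk] at h1
    obtain ⟨j, -, hj⟩ := (Nat.dvd_prime_pow hp).mp h1
    exact ⟨j, hj⟩

theorem isElementary_zpowers {G : Type*} [Group G] [Finite G] (y : G) :
    ∃ p : ℕ, p.Prime ∧ IsElementary p ↥(Subgroup.zpowers y) := by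
  obtain ⟨p, hpge, hp⟩ := Nat.exists_infinite_primes (orderOf y + 1)
  refine ⟨p, hp, ⟨y, Subgroup.mem_zpowers y⟩, ?_, ?_, 0, ?_⟩
  · rw [Subgroup.mem_center_iff]
    intro w
    obtain ⟨k, hk⟩ := Subgroup.mem_zpowers_iff.mp w.2
    apply Subtype.ext
    show (w : G) * y = y * w
    rw [← hk]
    exact (Commute.zpow_left (Commute.refl y) k).eq
  · have h1 : orderOf (⟨y, Subgroup.mem_zpowers y⟩ : Subgroup.zpowers y) = orderOf y :=
      Subgroup.orderOf_mk _ _
    rw [h1]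
    have hpos : 0 < orderOf y := orderOf_pos y
    exact (Nat.Coprime.symm ((Nat.Prime.coprime_iff_not_dvd hp).mpr (fun hd => by
      have := Nat.le_of_dvd hpos hd
      omega)))
  · rw [pow_zero, Subgroup.index_eq_one, eq_top_iff]
    intro w _
    obtain ⟨k, hk⟩ := Subgroup.mem_zpowers_iff.mp w.2
    rw [Subgroup.mem_zpowers_iff]
    exact ⟨k, Subtype.ext (by simpa using hk)⟩

/-- The `π`-part power map is multiplicative on elementary subgroups. -/
theorem pow_mul_elementary {G : Type*} [Group G] [Finite G] (n m : ℕ)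
    (hnm : n * m = Nat.card G) (hcop : n.Coprime m) (e e' : ℕ) (he2 : e ≡ 0 [MOD m])
    (he1' : e' ≡ 0 [MOD n]) (hsum : ∀ x : G, x ^ e * x ^ e' = x)
    (p : ℕ) (hp : p.Prime) (E : Subgroup G) (hE : IsElementary p E) (x y : E) :
    (x * y) ^ e = x ^ e * y ^ e := by
  obtain ⟨z, hz, hzc, k, hk⟩ := hE
  have hZ : Subgroup.zpowers z ≤ Subgroup.center ↥E := Subgroup.zpowers_le.mpr hz
  have hdvd : p ^ k ∣ n * m := by
    rw [hnm, ← hk]
    exact (Subgroup.index_dvd_card _).trans (Subgroup.card_subgroup_dvd_card E)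
  have hcase : p ^ k ∣ m ∨ p ^ k ∣ n := by
    by_cases hpn : p ∣ n
    · right
      have hpm : ¬ p ∣ m := by
        intro hpm
        have := Nat.dvd_gcd hpn hpm
        rw [hcop] at this
        exact hp.one_lt.ne' (Nat.dvd_one.mp this)
      exact Nat.Coprime.dvd_of_dvd_mul_right
        (Nat.Coprime.pow_left k ((Nat.Prime.coprime_iff_not_dvd hp).mpr hpm)) hdvd
    · left
      exact Nat.Coprime.dvd_of_dvd_mul_left
        (Nat.Coprime.pow_left k ((Nat.Prime.coprime_iff_not_dvd hp).mpr hpn)) hdvd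
  rcases hcase with hm | hn
  · have hde : (Subgroup.zpowers z).index ∣ e := by
      rw [hk]
      exact hm.trans ((Nat.modEq_zero_iff_dvd).mp he2)
    exact (pow_mul_of_central_index (Subgroup.zpowers z) hZ e hde x y).1
  · have hde : (Subgroup.zpowers z).index ∣ e' := by
      rw [hk]
      exact hn.trans ((Nat.modEq_zero_iff_dvd).mp he1')
    have hmul := (pow_mul_of_central_index (Subgroup.zpowers z) hZ e' hde x y).1
    have hcen := (pow_mul_of_central_index (Subgroup.zpowers z) hZ e' hde x y).2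
    have h1 : ∀ w : E, w ^ e = w * (w ^ e')⁻¹ := by
      intro w
      have h2 : w ^ e * w ^ e' = w := Subtype.ext (by
        have := hsum (w : G)
        simpa using this)
      exact eq_mul_inv_of_mul_eq h2
    have hc : ∀ w : E, w * (x ^ e')⁻¹ = (x ^ e')⁻¹ * w := fun w =>
      Subgroup.mem_center_iff.mp (inv_mem hcen) w
    rw [h1 (x * y), h1 x, h1 y, hmul, mul_inv_rev]
    have h3 := hc (y * (y ^ e')⁻¹)
    calc x * y * ((y ^ e')⁻¹ * (x ^ e')⁻¹) = x * (y * (y ^ e')⁻¹ * (x ^ e')⁻¹) := by group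
      _ = x * ((x ^ e')⁻¹ * (y * (y ^ e')⁻¹)) := by rw [h3]
      _ = x * (x ^ e')⁻¹ * (y * (y ^ e')⁻¹) := by group


theorem pw_n {G : Type*} [Group G] [Finite G] (H : Subgroup G) (e : ℕ)
    (he2 : e ≡ 0 [MOD H.index]) (x : G) : (x ^ e) ^ Nat.card H = 1 := by
  have h1 : Nat.card G ∣ e * Nat.card H := by
    rw [← Subgroup.card_mul_index H, mul_comm e]
    exact Nat.mul_dvd_mul_left _ ((Nat.modEq_zero_iff_dvd).mp he2)
  obtain ⟨j, hj⟩ := h1
  rw [← pow_mul, hj, pow_mul, pow_card_eq_one', one_pow]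

theorem pow_card_sub {G : Type*} [Group G] (H : Subgroup G) {x : G} (hx : x ∈ H) :
    x ^ Nat.card H = 1 := by
  have h0 : (⟨x, hx⟩ : H) ^ Nat.card H = 1 := pow_card_eq_one'
  have h1 : (((⟨x, hx⟩ : H) ^ Nat.card H : H) : G) = ((1 : H) : G) := by rw [h0]
  rwa [Subgroup.coe_pow, Subgroup.coe_one] at h1

theorem pw_id {G : Type*} [Group G] (n e : ℕ) (he1 : e ≡ 1 [MOD n]) (x : G)
    (hx : x ^ n = 1) : x ^ e = x := by
  have h1 : x ^ e = x ^ 1 :=
    pow_eq_pow_iff_modEq.mpr (Nat.ModEq.of_dvd (orderOf_dvd_of_pow_eq_one hx) he1)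
  rwa [pow_one] at h1

theorem pw_sum {G : Type*} [Group G] [Finite G] (H : Subgroup G) (e e' : ℕ)
    (hcop : (Nat.card H).Coprime H.index)
    (he1 : e ≡ 1 [MOD Nat.card H]) (he2 : e ≡ 0 [MOD H.index])
    (he1' : e' ≡ 0 [MOD Nat.card H]) (he2' : e' ≡ 1 [MOD H.index]) (x : G) :
    x ^ e * x ^ e' = x := by
  have h1 : e + e' ≡ 1 [MOD Nat.card H] := he1.add he1'
  have h2 : e + e' ≡ 1 [MOD H.index] := he2.add he2'
  have h3 : e + e' ≡ 1 [MOD Nat.card H * H.index] :=
    (Nat.modEq_and_modEq_iff_modEq_mul hcop).mp ⟨h1, h2⟩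
  rw [Subgroup.card_mul_index] at h3
  have h4 : x ^ (e + e') = x ^ 1 :=
    pow_eq_pow_iff_modEq.mpr (Nat.ModEq.of_dvd (orderOf_dvd_natCard x) h3)
  rwa [pow_add, pow_one] at h4

open Classical in
theorem sum_cen_conj {A : Type*} [Group A] [Fintype A] (a : A) :
    ∑ h₀ : A, (if IsConj a h₀ then (Nat.card (Subgroup.centralizer ({h₀} : Set A)) : ℂ) else 0)
      = (Nat.card A : ℂ) := by
  have h1 : ∀ h₀ : A,
      (if IsConj a h₀ then (Nat.card (Subgroup.centralizer ({h₀} : Set A)) : ℂ) else 0)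
      = ∑ χ : IrrCharacter A, (χ : A → ℂ) a * (χ : A → ℂ) h₀⁻¹ := fun h₀ =>
    (Cfsg.Agent.Helper25.second_orthogonality a h₀).symm
  rw [Finset.sum_congr rfl (fun h₀ _ => h1 h₀), Finset.sum_comm]
  have hA0 : (Nat.card A : ℂ) ≠ 0 := Nat.cast_ne_zero.mpr Nat.card_pos.ne'
  have h2 : ∀ χ : IrrCharacter A, ∑ h₀ : A, (χ : A → ℂ) a * (χ : A → ℂ) h₀⁻¹ =
      (χ : A → ℂ) a * (if χ = Cfsg.Agent.Helper25.trivChar A then (Nat.card A : ℂ) else 0) := by
    intro χ
    rw [← Finset.mul_sum]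
    congr 1
    have h3 : ∑ h₀ : A, (χ : A → ℂ) h₀⁻¹ = ∑ h₀ : A, (χ : A → ℂ) h₀ :=
      Equiv.sum_comp (Equiv.inv A) (fun h => (χ : A → ℂ) h)
    rw [h3]
    have h4 := Cfsg.Agent.Helper25.irr_classInner χ (Cfsg.Agent.Helper25.trivChar A)
    unfold classInner at h4
    have h5 : ∑ g : A, (χ : A → ℂ) g *
        (starRingEnd ℂ) ((Cfsg.Agent.Helper25.trivChar A : A → ℂ) g) = ∑ h₀ : A, (χ : A → ℂ) h₀ := by
      apply Finset.sum_congr rfl
      intro g _
      rw [Cfsg.Agent.Helper25.trivChar_apply, map_one, mul_one]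
    rw [h5] at h4
    by_cases hχ : χ = Cfsg.Agent.Helper25.trivChar A
    · rw [if_pos hχ] at h4 ⊢
      field_simp at h4
      linear_combination h4
    · rw [if_neg hχ] at h4 ⊢
      exact (mul_eq_zero.mp h4).resolve_left (inv_ne_zero hA0)
  rw [Finset.sum_congr rfl (fun χ _ => h2 χ),
    Finset.sum_eq_single (Cfsg.Agent.Helper25.trivChar A)]
  · rw [if_pos rfl, Cfsg.Agent.Helper25.trivChar_apply, one_mul]
  · intro χ _ hχ
    rw [if_neg hχ, mul_zero]
  · intro h
    exact absurd (Finset.mem_univ _) h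

section Main

variable {G : Type*} [Group G] [Fintype G] (H : Subgroup G) [Fintype H] (e e' : ℕ) (u : G → H)
  (hcop : (Nat.card H).Coprime H.index)
  (he1 : e ≡ 1 [MOD Nat.card H]) (he2 : e ≡ 0 [MOD H.index])
  (he1' : e' ≡ 0 [MOD Nat.card H]) (he2' : e' ≡ 1 [MOD H.index])
  (hu : ∀ x : G, ∃ g : G, (u x : G) = g * x ^ e * g⁻¹)
  (hfus : ∀ x ∈ H, ∀ y ∈ H, IsConj x y → ∃ h ∈ H, h * x * h⁻¹ = y)
  (helem : ∀ (E : Subgroup G) (p : ℕ), p.Prime → IsElementary p E → Nat.card E ∣ Nat.card H →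
    ∃ g : G, E.map (MulAut.conj g).toMonoidHom ≤ H)

include hcop he1 he2 he1' he2' hu hfus helem

theorem lift_wd (θ : H → ℂ) (hθ : IsClassFunction H θ) (x g : G) (hg : g * x ^ e * g⁻¹ ∈ H) :
    θ (u x) = θ ⟨g * x ^ e * g⁻¹, hg⟩ := by
  obtain ⟨c, hc⟩ := hu x
  have hconj : IsConj (u x : G) (g * x ^ e * g⁻¹) := by
    rw [isConj_iff]
    refine ⟨g * c⁻¹, ?_⟩
    rw [hc]; group
  obtain ⟨h, hh, hh2⟩ := hfus _ (u x).2 _ hg hconj
  have h1 : (⟨g * x ^ e * g⁻¹, hg⟩ : H) = ⟨h, hh⟩ * u x * ⟨h, hh⟩⁻¹ :=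
    Subtype.ext (by simp [hh2])
  rw [h1, hθ]

theorem lift_classFun (θ : H → ℂ) (hθ : IsClassFunction H θ) :
    IsClassFunction G (fun x => θ (u x)) := by
  intro x g
  show θ (u (g * x * g⁻¹)) = θ (u x)
  obtain ⟨c, hc⟩ := hu (g * x * g⁻¹)
  have h1 : (c * g) * x ^ e * (c * g)⁻¹ = c * (g * x * g⁻¹) ^ e * c⁻¹ := by
    rw [conj_pow]; group
  have hg : (c * g) * x ^ e * (c * g)⁻¹ ∈ H := by
    rw [h1, ← hc]; exact (u _).2
  rw [lift_wd H e e' u hcop he1 he2 he1' he2' hu hfus helem θ hθ x (c * g) hg]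
  congr 1
  apply Subtype.ext
  rw [hc]
  exact h1.symm

theorem lift_of_mem (θ : H → ℂ) (hθ : IsClassFunction H θ) (x : G) (hx : x ∈ H) :
    θ (u x) = θ ⟨x, hx⟩ := by
  have hxe : x ^ e = x :=
    pw_id (Nat.card H) e he1 x (pow_card_sub H hx)
  have hg : (1 : G) * x ^ e * (1 : G)⁻¹ ∈ H := by
    rw [hxe]; simpa using hx
  rw [lift_wd H e e' u hcop he1 he2 he1' he2' hu hfus helem θ hθ x 1 hg]
  congr 1
  apply Subtype.ext
  simp [hxe]

theorem lift_elementary (θ : H → ℂ) (hθ : IsCharacter H θ) (p : ℕ) (hp : p.Prime)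
    (E : Subgroup G) (hE : IsElementary p E) : IsCharacter E (fun x : E => θ (u x)) := by
  have hnm : Nat.card H * H.index = Nat.card G := Subgroup.card_mul_index H
  let φ₀ : E →* G := MonoidHom.mk' (fun x : E => (x : G) ^ e) (by
    intro x y
    have h1 := pow_mul_elementary (Nat.card H) H.index hnm hcop e e' he2 he1'
      (pw_sum H e e' hcop he1 he2 he1' he2') p hp E hE x y
    have h2 := congrArg (Subtype.val : E → G) h1
    simpa using h2)
  have hφ₀ : ∀ x : E, φ₀ x = (x : G) ^ e := fun x => rfl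
  have hQel : IsElementary p φ₀.range := isElementary_range p hp φ₀ hE
  have hQn : ∀ y ∈ φ₀.range, y ^ Nat.card H = 1 := by
    rintro y ⟨x, rfl⟩
    rw [hφ₀]
    exact pw_n H e he2 (x : G)
  have hQcard : Nat.card φ₀.range ∣ Nat.card H := by
    have hcop2 : (Nat.card φ₀.range).Coprime H.index := by
      apply Nat.coprime_of_dvd
      intro q hq hq1 hq2
      haveI : Fact q.Prime := ⟨hq⟩
      obtain ⟨y, hy⟩ := exists_prime_orderOf_dvd_card' q hq1
      have h1 : (y : G) ^ Nat.card H = 1 := hQn y y.2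
      have h2 : q ∣ Nat.card H := by
        rw [← hy, ← Subgroup.orderOf_coe]
        exact orderOf_dvd_of_pow_eq_one h1
      have h3 := Nat.dvd_gcd h2 hq2
      rw [hcop] at h3
      exact hq.one_lt.ne' (Nat.dvd_one.mp h3)
    apply Nat.Coprime.dvd_of_dvd_mul_right hcop2
    rw [hnm]
    exact Subgroup.card_subgroup_dvd_card _
  obtain ⟨g, hg⟩ := helem φ₀.range p hp hQel hQcard
  have hmem : ∀ x : E, g * (x : G) ^ e * g⁻¹ ∈ H := by
    intro x
    apply hg
    rw [Subgroup.mem_map]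
    exact ⟨(x : G) ^ e, ⟨x, rfl⟩, by simp [MulAut.conj_apply]⟩
  let φ : E →* H := MonoidHom.mk' (fun x : E => ⟨g * (x : G) ^ e * g⁻¹, hmem x⟩) (by
    intro x y
    apply Subtype.ext
    have h1 : ((x * y : E) : G) ^ e = (x : G) ^ e * (y : G) ^ e := φ₀.map_mul x y
    show g * ((x * y : E) : G) ^ e * g⁻¹ = (g * (x : G) ^ e * g⁻¹) * (g * (y : G) ^ e * g⁻¹)
    rw [h1]; group)
  have heq : (fun x : E => θ (u x)) = fun x : E => θ (φ x) := by
    funext x
    exact lift_wd H e e' u hcop he1 he2 he1' he2' hu hfus helem θ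
      (Cfsg.Agent.Helper25.char_isClassFunction hθ) (x : G) g (hmem x)
  rw [heq]
  exact Cfsg.Agent.Helper2.isCharacter_comp φ hθ

theorem lift_genChar (θ : H → ℂ) (hθ : IsCharacter H θ) :
    IsGeneralizedCharacter G (fun x => θ (u x)) := by
  apply Cfsg.Agent.Helper7.brauer_characterization _
    (lift_classFun H e e' u hcop he1 he2 he1' he2' hu hfus helem θ
      (Cfsg.Agent.Helper25.char_isClassFunction hθ))
  intro p E hp hE
  exact Cfsg.Agent.Helper7.isGeneralizedCharacter_of_isCharacter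
    (lift_elementary H e e' u hcop he1 he2 he1' he2' hu hfus helem θ hθ p hp E hE)

omit hcop he1 he2 he1' he2' hu hfus helem in
open Classical in
/-- The number of `x` whose `π`-part is conjugate to `h₀`. -/
noncomputable def Nc (h₀ : H) : ℂ := ∑ x : G, if IsConj (u x) h₀ then (1 : ℂ) else 0

theorem cen_mul_Nc (h₀ : H) : ∃ b : ℤ, 1 ≤ b ∧
    (Nat.card (Subgroup.centralizer ({h₀} : Set H)) : ℂ) * Nc H u h₀ =
      (b : ℂ) * (Nat.card G : ℂ) := by
  classical
  have hG0 : (Nat.card G : ℂ) ≠ 0 := Nat.cast_ne_zero.mpr Nat.card_pos.ne'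
  have hgen : ∀ χ : IrrCharacter H, IsGeneralizedCharacter G (fun x => (χ : H → ℂ) (u x)) :=
    fun χ => lift_genChar H e e' u hcop he1 he2 he1' he2' hu hfus helem (χ : H → ℂ)
      (Cfsg.Agent.Helper25.irr_isCharacter χ)
  have hint : ∀ χ : IrrCharacter H, ∃ a : ℤ,
      ∑ x : G, (χ : H → ℂ) (u x) = (a : ℂ) * (Nat.card G : ℂ) := by
    intro χ
    obtain ⟨a, ha⟩ := (Cfsg.Agent.Helper2.isGeneralizedCharacter_iff.mp (hgen χ)).2
      (Cfsg.Agent.Helper25.trivChar G)
    refine ⟨a, ?_⟩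
    unfold classInner at ha
    have h5 : ∑ g : G, (fun x => (χ : H → ℂ) (u x)) g *
        (starRingEnd ℂ) ((Cfsg.Agent.Helper25.trivChar G : G → ℂ) g) =
        ∑ x : G, (χ : H → ℂ) (u x) := by
      apply Finset.sum_congr rfl
      intro g _
      rw [Cfsg.Agent.Helper25.trivChar_apply, map_one, mul_one]
    rw [h5] at ha
    field_simp at ha
    linear_combination ha
  choose a ha using hint
  have hkey : (Nat.card (Subgroup.centralizer ({h₀} : Set H)) : ℂ) * Nc H u h₀ =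
      (∑ χ : IrrCharacter H, (χ : H → ℂ) h₀⁻¹ * (a χ : ℂ)) * (Nat.card G : ℂ) := by
    unfold Nc
    rw [Finset.mul_sum]
    have h1 : ∀ x : G, (Nat.card (Subgroup.centralizer ({h₀} : Set H)) : ℂ) *
        (if IsConj (u x) h₀ then (1 : ℂ) else 0)
        = ∑ χ : IrrCharacter H, (χ : H → ℂ) (u x) * (χ : H → ℂ) h₀⁻¹ := by
      intro x
      rw [Cfsg.Agent.Helper25.second_orthogonality]
      split_ifs <;> simp
    rw [Finset.sum_congr rfl (fun x _ => h1 x), Finset.sum_comm, Finset.sum_mul]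
    apply Finset.sum_congr rfl
    intro χ _
    rw [← Finset.sum_mul, ha χ]
    ring
  obtain ⟨β, hβ⟩ : ∃ β : ℂ, β = ∑ χ : IrrCharacter H, (χ : H → ℂ) h₀⁻¹ * (a χ : ℂ) := ⟨_, rfl⟩
  have hβint : IsIntegral ℤ β := by
    rw [hβ]
    apply IsIntegral.sum
    intro χ _
    exact IsIntegral.mul (Cfsg.Agent.Helper25.char_isIntegral
      (Cfsg.Agent.Helper25.irr_isCharacter χ) _) (isIntegral_algebraMap (x := a χ))
  rw [← hβ] at hkey
  obtain ⟨k, hk⟩ : ∃ k : ℕ, Nc H u h₀ = (k : ℂ) ∧ 1 ≤ k := by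
    refine ⟨(Finset.univ.filter (fun x : G => IsConj (u x) h₀)).card, ?_, ?_⟩
    · unfold Nc
      exact Finset.sum_boole _ _
    · apply Finset.card_pos.mpr
      refine ⟨(h₀ : G), ?_⟩
      rw [Finset.mem_filter]
      refine ⟨Finset.mem_univ _, ?_⟩
      obtain ⟨g, hg⟩ := hu (h₀ : G)
      have hxe : (h₀ : G) ^ e = h₀ := pw_id (Nat.card H) e he1 _ (pow_card_sub H h₀.2)
      rw [hxe] at hg
      have hconj : IsConj (u (h₀ : G) : G) (h₀ : G) := by
        rw [isConj_iff]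
        refine ⟨g⁻¹, ?_⟩
        rw [hg]; group
      obtain ⟨h, hh, hh2⟩ := hfus _ (u (h₀ : G)).2 _ h₀.2 hconj
      rw [isConj_iff]
      exact ⟨⟨h, hh⟩, Subtype.ext (by simpa using hh2)⟩
  obtain ⟨hk, hk1⟩ := hk
  rw [hk] at hkey
  have hcpos : 1 ≤ Nat.card (Subgroup.centralizer ({h₀} : Set H)) := Nat.card_pos
  have hq : β = (((Nat.card (Subgroup.centralizer ({h₀} : Set H)) * k : ℕ) : ℚ) /
      ((Nat.card G : ℕ) : ℚ) : ℚ) := by
    push_cast
    rw [eq_div_iff hG0]
    linear_combination -hkey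
  obtain ⟨b, hb⟩ := Cfsg.Agent.Helper11.int_of_rat_isIntegral β hβint _ hq
  refine ⟨b, ?_, ?_⟩
  · rw [hb] at hkey
    have h1 : ((Nat.card (Subgroup.centralizer ({h₀} : Set H)) * k : ℕ) : ℤ) =
        b * (Nat.card G : ℤ) := by
      have h2 : (((Nat.card (Subgroup.centralizer ({h₀} : Set H)) * k : ℕ) : ℤ) : ℂ) =
          ((b * (Nat.card G : ℤ) : ℤ) : ℂ) := by
        push_cast
        exact hkey
      exact_mod_cast h2
    have h3 : 0 < Nat.card (Subgroup.centralizer ({h₀} : Set H)) * k := Nat.mul_pos hcpos hk1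
    have h4 : (0 : ℤ) < b * (Nat.card G : ℤ) := by
      rw [← h1]
      exact_mod_cast h3
    have h5 : (0 : ℤ) < (Nat.card G : ℤ) := by exact_mod_cast Nat.card_pos
    have h6 : 0 < b := by
      by_contra hcon
      push Not at hcon
      nlinarith
    omega
  · rw [hk, hkey, hb]

theorem cen_mul_Nc_eq (h₀ : H) :
    (Nat.card (Subgroup.centralizer ({h₀} : Set H)) : ℂ) * Nc H u h₀ = (Nat.card G : ℂ) := by
  classical
  choose b hb1 hb using cen_mul_Nc H e e' u hcop he1 he2 he1' he2' hu hfus helem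
  have hsum : ∑ h : H, (Nat.card (Subgroup.centralizer ({h} : Set H)) : ℂ) * Nc H u h =
      (Nat.card G : ℂ) * (Nat.card H : ℂ) := by
    unfold Nc
    simp_rw [Finset.mul_sum]
    rw [Finset.sum_comm]
    have h1 : ∀ x : G, ∑ h : H, (Nat.card (Subgroup.centralizer ({h} : Set H)) : ℂ) *
        (if IsConj (u x) h then (1 : ℂ) else 0) = (Nat.card H : ℂ) := by
      intro x
      rw [← sum_cen_conj (u x)]
      apply Finset.sum_congr rfl
      intro h _
      split_ifs <;> simp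
    rw [Finset.sum_congr rfl (fun x _ => h1 x), Finset.sum_const, Finset.card_univ,
      nsmul_eq_mul]
    simp only [Nat.card_eq_fintype_card]
  have hsumZ : ∑ _h : H, (Nat.card G : ℤ) = ∑ h : H, (b h * (Nat.card G : ℤ)) := by
    have h2 : ((∑ _h : H, (Nat.card G : ℤ) : ℤ) : ℂ) =
        ((∑ h : H, (b h * (Nat.card G : ℤ)) : ℤ) : ℂ) := by
      push_cast
      rw [← Finset.sum_congr rfl (fun h _ => hb h), hsum, Finset.sum_const, Finset.card_univ,
        nsmul_eq_mul]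
      simp only [Nat.card_eq_fintype_card]
      ring
    exact_mod_cast h2
  have hle : ∀ h ∈ (Finset.univ : Finset H), (Nat.card G : ℤ) ≤ b h * (Nat.card G : ℤ) := by
    intro h _
    have h1 := hb1 h
    have h5 : (0 : ℤ) ≤ (Nat.card G : ℤ) := by positivity
    nlinarith
  have heq := (Finset.sum_eq_sum_iff_of_le hle).mp hsumZ h₀ (Finset.mem_univ _)
  rw [hb h₀]
  have h3 : ((b h₀ * (Nat.card G : ℤ) : ℤ) : ℂ) = (((Nat.card G : ℤ)) : ℂ) := by rw [← heq]
  push_cast at h3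
  exact h3

theorem sum_lift (f : H → ℂ) (hf : IsClassFunction H f) :
    ∑ x : G, f (u x) = (H.index : ℂ) * ∑ h : H, f h := by
  classical
  have hH0 : (Nat.card H : ℂ) ≠ 0 := Nat.cast_ne_zero.mpr Nat.card_pos.ne'
  have h1 : ∀ a : H, f a * (Nat.card H : ℂ) = ∑ h₀ : H, f h₀ *
      ((Nat.card (Subgroup.centralizer ({h₀} : Set H)) : ℂ) *
        (if IsConj a h₀ then (1 : ℂ) else 0)) := by
    intro a
    rw [← sum_cen_conj a, Finset.mul_sum]
    apply Finset.sum_congr rfl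
    intro h₀ _
    split_ifs with hc
    · obtain ⟨c, hc'⟩ := isConj_iff.mp hc
      rw [← hc', hf]
      ring
    · simp
  have h2 : (∑ x : G, f (u x)) * (Nat.card H : ℂ) = (Nat.card G : ℂ) * ∑ h : H, f h := by
    rw [Finset.sum_mul, Finset.sum_congr rfl (fun x _ => h1 (u x)), Finset.sum_comm,
      Finset.mul_sum]
    apply Finset.sum_congr rfl
    intro h₀ _
    rw [← Finset.mul_sum, ← Finset.mul_sum]
    have h3 := cen_mul_Nc_eq H e e' u hcop he1 he2 he1' he2' hu hfus helem h₀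
    unfold Nc at h3
    rw [h3]
    ring
  have hidx : (Nat.card G : ℂ) = (Nat.card H : ℂ) * (H.index : ℂ) := by
    rw [← Nat.cast_mul, Subgroup.card_mul_index]
  rw [hidx] at h2
  have h4 : (Nat.card H : ℂ) * (∑ x : G, f (u x) - (H.index : ℂ) * ∑ h : H, f h) = 0 := by
    linear_combination h2
  have h5 := (mul_eq_zero.mp h4).resolve_left hH0
  linear_combination h5

theorem lift_irr (θ : IrrCharacter H) : IsIrrCharacter G (fun x => (θ : H → ℂ) (u x)) := by
  have hcl : IsClassFunction H (θ : H → ℂ) :=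
    Cfsg.Agent.Helper25.char_isClassFunction (Cfsg.Agent.Helper25.irr_isCharacter θ)
  have hgen := lift_genChar H e e' u hcop he1 he2 he1' he2' hu hfus helem (θ : H → ℂ)
    (Cfsg.Agent.Helper25.irr_isCharacter θ)
  have hf : IsClassFunction H (fun h => (θ : H → ℂ) h * (starRingEnd ℂ) ((θ : H → ℂ) h)) := by
    intro g h
    show (θ : H → ℂ) (h * g * h⁻¹) * (starRingEnd ℂ) ((θ : H → ℂ) (h * g * h⁻¹)) = _
    rw [hcl g h]
  have hnorm : classInner (fun x => (θ : H → ℂ) (u x)) (fun x => (θ : H → ℂ) (u x)) = 1 := by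
    unfold classInner
    have h1 := sum_lift H e e' u hcop he1 he2 he1' he2' hu hfus helem
      (fun h => (θ : H → ℂ) h * (starRingEnd ℂ) ((θ : H → ℂ) h)) hf
    rw [h1]
    have h2 := Cfsg.Agent.Helper25.irr_classInner θ θ
    rw [if_pos rfl] at h2
    unfold classInner at h2
    have hidx : (Nat.card G : ℂ) = (Nat.card H : ℂ) * (H.index : ℂ) := by
      rw [← Nat.cast_mul, Subgroup.card_mul_index]
    have hH0 : (Nat.card H : ℂ) ≠ 0 := Nat.cast_ne_zero.mpr Nat.card_pos.ne'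
    have hI0 : (H.index : ℂ) ≠ 0 := Nat.cast_ne_zero.mpr Subgroup.index_ne_zero_of_finite
    rw [hidx]
    field_simp at h2 ⊢
    linear_combination h2
  have h1 : (fun x => (θ : H → ℂ) (u x)) 1 = ((charDegree (θ : H → ℂ) : ℕ) : ℂ) := by
    show (θ : H → ℂ) (u 1) = _
    rw [lift_of_mem H e e' u hcop he1 he2 he1' he2' hu hfus helem (θ : H → ℂ) hcl 1 H.one_mem]
    exact Cfsg.Agent.Helper25.irr_one_eq_degree θ
  exact Cfsg.Agent.Helper7.isIrrCharacter_of_gen_norm_one _ hgen hnorm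
    (charDegree (θ : H → ℂ)) (Cfsg.Agent.Helper25.irr_degree_pos θ) h1

theorem exists_complement : ∃ K : Subgroup G, K.Normal ∧ K ⊔ H = ⊤ ∧ K ⊓ H = ⊥ := by
  classical
  obtain ⟨K, hKdef⟩ : ∃ K : Subgroup G, K = ⨅ θ : IrrCharacter H,
      Cfsg.Agent.Helper25.irrKer ⟨fun x => (θ : H → ℂ) (u x),
        lift_irr H e e' u hcop he1 he2 he1' he2' hu hfus helem θ⟩ := ⟨_, rfl⟩
  have hKn : K.Normal := by
    rw [hKdef]
    exact Subgroup.normal_iInf_normal (fun θ => inferInstance)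
  have hone : ∀ θ : IrrCharacter H, (θ : H → ℂ) (u 1) = (θ : H → ℂ) 1 := fun θ =>
    lift_of_mem H e e' u hcop he1 he2 he1' he2' hu hfus helem (θ : H → ℂ)
      (Cfsg.Agent.Helper25.char_isClassFunction (Cfsg.Agent.Helper25.irr_isCharacter θ)) 1
      H.one_mem
  have hmemK : ∀ x : G, x ∈ K ↔ u x = 1 := by
    intro x
    rw [hKdef, Subgroup.mem_iInf]
    constructor
    · intro hx
      have h2 : ∀ θ : IrrCharacter H, (θ : H → ℂ) (u x) = (θ : H → ℂ) 1 := fun θ => by
        have h3 := (Cfsg.Agent.Helper25.mem_irrKer _ x).mp (hx θ)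
        exact h3.trans (hone θ)
      have h3 := Cfsg.Agent.Helper25.second_orthogonality (u x) (1 : H)
      by_contra hne
      have hnc : ¬ IsConj (u x) (1 : H) := fun hc => hne (isConj_one_left.mp hc)
      rw [if_neg hnc] at h3
      simp only [inv_one] at h3
      rw [Finset.sum_congr rfl (fun θ _ => by rw [h2 θ]),
        Cfsg.Agent.Helper25.sum_irr_degree_sq] at h3
      exact (Nat.cast_ne_zero.mpr Nat.card_pos.ne') h3
    · intro hx θ
      rw [Cfsg.Agent.Helper25.mem_irrKer]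
      show (θ : H → ℂ) (u x) = (θ : H → ℂ) (u 1)
      rw [hx, hone θ]
  have hdisj : K ⊓ H = ⊥ := by
    rw [Subgroup.eq_bot_iff_forall]
    rintro x ⟨hxK, hxH⟩
    have h1 := (hmemK x).mp hxK
    obtain ⟨g, hg⟩ := hu x
    have hxe : x ^ e = x := pw_id (Nat.card H) e he1 x (pow_card_sub H hxH)
    rw [h1, hxe] at hg
    have h2 : g * x * g⁻¹ = 1 := by
      rw [← hg]; rfl
    have h3 : x = g⁻¹ * (g * x * g⁻¹) * g := by group
    rw [h3, h2]; group
  have hcard : Nat.card K = H.index := by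
    have h1 := cen_mul_Nc_eq H e e' u hcop he1 he2 he1' he2' hu hfus helem (1 : H)
    have hcen : Nat.card (Subgroup.centralizer ({(1 : H)} : Set H)) = Nat.card H := by
      have h2 : Subgroup.centralizer ({(1 : H)} : Set H) = ⊤ := by
        ext x
        simp [Subgroup.mem_centralizer_iff]
      rw [h2, Subgroup.card_top]
    rw [hcen] at h1
    have h2 : Nc H u 1 = (Nat.card K : ℂ) := by
      unfold Nc
      rw [Finset.sum_boole]
      congr 1
      rw [Nat.card_eq_fintype_card, Fintype.card_subtype]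
      congr 1
      ext x
      simp only [Finset.mem_filter, Finset.mem_univ, true_and]
      rw [hmemK, isConj_one_left]
    rw [h2] at h1
    have h3 : ((Nat.card H * Nat.card K : ℕ) : ℂ) = ((Nat.card H * H.index : ℕ) : ℂ) := by
      rw [Subgroup.card_mul_index]
      push_cast
      exact h1
    have h4 := Nat.cast_injective h3
    exact Nat.eq_of_mul_eq_mul_left Nat.card_pos h4
  refine ⟨K, hKn, ?_, hdisj⟩
  have hcompl : Subgroup.IsComplement' K H :=
    Subgroup.isComplement'_of_card_mul_and_disjoint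
      (by rw [hcard, mul_comm, Subgroup.card_mul_index]) (disjoint_iff.mpr hdisj)
  exact hcompl.sup_eq_top

end Main

/-- Let H be a subgroup of the finite group G whose order is coprime to its index. Suppose that elements of H conjugate in G are conjugate in H, and that every subgroup E of G that is elementary for some prime (in the sense used for Brauer's characterisation of characters) and whose order divides the order of H is conjugate to a subgroup of H. Then there is a normal subgroup K with K ⊔ H = ⊤ and K ⊓ H trivial. -/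
theorem result {G : Type*} [Group G] [Finite G] (H : Subgroup G) (hHall : Nat.Coprime (Nat.card H) H.index) (hfus : ∀ x ∈ H, ∀ y ∈ H, IsConj x y → ∃ h ∈ H, h * x * h⁻¹ = y) (helem : ∀ (E : Subgroup G) (p : ℕ), p.Prime → Cfsg.IsElementary p E → Nat.card E ∣ Nat.card H → ∃ g : G, E.map (MulAut.conj g).toMonoidHom ≤ H) : ∃ K : Subgroup G, K.Normal ∧ K ⊔ H = ⊤ ∧ K ⊓ H = ⊥ := by
  classical
  cases nonempty_fintype G
  obtain ⟨e, e', he1, he2, he1', he2'⟩ := exists_exps (Nat.card H) H.index hHall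
  have hconj : ∀ x : G, ∃ g : G, g * x ^ e * g⁻¹ ∈ H := by
    intro x
    obtain ⟨p, hp, hel⟩ := isElementary_zpowers (x ^ e)
    have hcard : Nat.card (Subgroup.zpowers (x ^ e)) ∣ Nat.card H := by
      rw [Nat.card_zpowers]
      exact orderOf_dvd_of_pow_eq_one (pw_n H e he2 x)
    obtain ⟨g, hg⟩ := helem _ p hp hel hcard
    refine ⟨g, hg ?_⟩
    rw [Subgroup.mem_map]
    exact ⟨x ^ e, Subgroup.mem_zpowers _, by simp [MulAut.conj_apply]⟩
  choose cj hcj using hconj
  exact exists_complement H e e' (fun x => ⟨cj x * x ^ e * (cj x)⁻¹, hcj x⟩) hHall he1 he2 he1' he2'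
    (fun x => ⟨cj x, rfl⟩) hfus helem

end Cfsg.Agent.S0877
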