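import Cfsg.Statements.S0878
import Mathlib

set_option autoImplicit false
open Cfsg

namespace Cfsg.Agent.S0878

theorem frob_kernel {G Ω : Type*} [Group G] [Finite G] [MulAction G Ω] [Fintype Ω]
    (h2t : ∀ {a b c d : Ω}, a ≠ b → c ≠ d → ∃ g : G, g • a = c ∧ g • b = d)
    (h3 : ∀ g : G, ∀ a b c : Ω, a ≠ b → b ≠ c → a ≠ c → g • a = a → g • b = b → g • c = c → g = 1)
    (a b₀ : Ω) (hb₀ : b₀ ≠ a) (H : Subgroup G) (hHa : H ≤ MulAction.stabilizer G a)
    (hHcard : Nat.card H + 1 = Fintype.card Ω)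
    (hHfix : ∀ u ∈ H, u ≠ 1 → ∀ c : Ω, u • c = c → c = a)
    (x : G) (hxa : x • a = a) (hx : ∀ c : Ω, x • c = c → c = a) : x ∈ H := by
  classical
  letI := Fintype.ofFinite G
  let A : Finset G := Finset.univ.filter (fun x => x • a = a)
  let Hf : Finset G := Finset.univ.filter (fun x => x ∈ H)
  let Sc : Ω → Finset G := fun c => Finset.univ.filter (fun x => x • a = a ∧ x • c = c)
  let C : Finset Ω := Finset.univ.erase a
  have hmemA : ∀ y : G, y ∈ A ↔ y • a = a := fun y => by simp [A]
  have hmemHf : ∀ y : G, y ∈ Hf ↔ y ∈ H := fun y => by simp [Hf]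
  have hmemSc : ∀ (c : Ω) (y : G), y ∈ Sc c ↔ y • a = a ∧ y • c = c := fun c y => by simp [Sc]
  have hmemC : ∀ c : Ω, c ∈ C ↔ c ≠ a := fun c => by simp [C]
  have hCcard : C.card = Fintype.card Ω - 1 := by
    rw [Finset.card_erase_of_mem (Finset.mem_univ a), Finset.card_univ]
  set e := (Sc b₀).card with he
  have hone : ∀ c : Ω, (1 : G) ∈ Sc c := fun c => by rw [hmemSc]; simp
  have hepos : 1 ≤ e := Finset.card_pos.mpr ⟨1, hone b₀⟩
  have hSc : ∀ c ∈ C, (Sc c).card = e := by
    intro c hc
    rw [hmemC] at hc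
    obtain ⟨g, hga, hgb⟩ := h2t (Ne.symm hb₀) (Ne.symm hc)
    have hginva : g⁻¹ • a = a := by rw [inv_smul_eq_iff, hga]
    have hginvc : g⁻¹ • c = b₀ := by rw [inv_smul_eq_iff, hgb]
    symm
    apply Finset.card_equiv (MulAut.conj g).toEquiv
    intro y
    rw [hmemSc, hmemSc]
    show _ ↔ (g * y * g⁻¹) • a = a ∧ (g * y * g⁻¹) • c = c
    rw [mul_smul, mul_smul, mul_smul, mul_smul, hginva, hginvc]
    constructor
    · rintro ⟨h1, h2⟩
      rw [h1, h2]; exact ⟨hga, hgb⟩
    · rintro ⟨h1, h2⟩
      constructor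
      · rw [← hga] at h1
        have := MulAction.injective g h1
        rwa [hga] at this
      · rw [← hgb] at h2
        exact MulAction.injective g h2
  have hA : A.card = (Fintype.card Ω - 1) * e := by
    have hmaps : ∀ y ∈ A, y • b₀ ∈ C := by
      intro y hy
      rw [hmemA] at hy
      rw [hmemC]
      intro h
      rw [← hy] at h
      exact hb₀ (MulAction.injective y h)
    rw [Finset.card_eq_sum_card_fiberwise hmaps]
    have hfib : ∀ c ∈ C, (A.filter (fun y => y • b₀ = c)).card = e := by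
      intro c hc
      rw [hmemC] at hc
      obtain ⟨g, hga, hgb⟩ := h2t (Ne.symm hb₀) (Ne.symm hc)
      symm
      apply Finset.card_equiv (Equiv.mulLeft g)
      intro y
      rw [hmemSc, Finset.mem_filter, hmemA]
      show _ ↔ (g * y) • a = a ∧ (g * y) • b₀ = c
      rw [mul_smul, mul_smul]
      constructor
      · rintro ⟨h1, h2⟩
        rw [h1, h2]; exact ⟨hga, hgb⟩
      · rintro ⟨h1, h2⟩
        constructor
        · rw [← hga] at h1
          have := MulAction.injective g h1
          rwa [hga] at this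
        · rw [← hgb] at h2
          exact MulAction.injective g h2
    rw [Finset.sum_congr rfl hfib, Finset.sum_const, smul_eq_mul, hCcard]
  have hHf : Hf.card = Fintype.card Ω - 1 := by
    have h1 : Hf.card = Nat.card H := by
      rw [Nat.card_eq_fintype_card, Fintype.card_subtype]
    omega
  have hHfA : Hf ⊆ A := by
    intro y hy
    rw [hmemHf] at hy
    rw [hmemA]
    exact MulAction.mem_stabilizer_iff.mp (hHa hy)
  let T : Finset G := C.biUnion (fun c => (Sc c).erase 1)
  have hTcard : T.card = (Fintype.card Ω - 1) * (e - 1) := by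
    rw [Finset.card_biUnion]
    · rw [Finset.sum_congr rfl (fun c hc => by rw [Finset.card_erase_of_mem (hone c), hSc c hc]),
        Finset.sum_const, smul_eq_mul, hCcard]
    · intro c hc d hd hcd
      rw [Finset.mem_coe, hmemC] at hc hd
      rw [Function.onFun, Finset.disjoint_left]
      intro y hy hy'
      rw [Finset.mem_erase, hmemSc] at hy hy'
      exact hy.1 (h3 y a c d (Ne.symm hc) hcd (Ne.symm hd) hy.2.1 hy.2.2 hy'.2.2)
  have hTsub : T ⊆ A \ Hf := by
    intro y hy
    obtain ⟨c, hc, hyc⟩ := Finset.mem_biUnion.mp hy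
    rw [hmemC] at hc
    rw [Finset.mem_erase, hmemSc] at hyc
    rw [Finset.mem_sdiff, hmemA, hmemHf]
    exact ⟨hyc.2.1, fun hyH => hc (hHfix y hyH hyc.1 c hyc.2.2)⟩
  have hcardle : (A \ Hf).card ≤ T.card := by
    rw [Finset.card_sdiff_of_subset hHfA, hA, hHf, hTcard, Nat.mul_sub_one]
  have hTeq : T = A \ Hf := Finset.eq_of_subset_of_card_le hTsub hcardle
  by_contra hxH
  have hxm : x ∈ A \ Hf := by
    rw [Finset.mem_sdiff, hmemA, hmemHf]; exact ⟨hxa, hxH⟩
  rw [← hTeq] at hxm
  obtain ⟨c, hc, hxc⟩ := Finset.mem_biUnion.mp hxm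
  rw [hmemC] at hc
  rw [Finset.mem_erase, hmemSc] at hxc
  exact hc (hx c hxc.2.2)

/-- Let G be a Zassenhaus group on the finite set Ω, a a point, and let H be the subgroup of the stabilizer of a consisting of the identity and the elements fixing no point other than a (given here as a subgroup of the stabilizer of order one less than the number of points whose non-identity elements fix only a; it is the Frobenius kernel of the stabilizer). Then an element outside the stabilizer of a conjugates no non-identity element of H into H, and the normalizer of H is exactly the stabilizer of a. -/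
theorem result {G Ω : Type*} [Group G] [Finite G] [MulAction G Ω] [Fintype Ω] (hZ : Cfsg.IsZassenhausGroup G Ω) (a : Ω) (H : Subgroup G) (hHa : H ≤ MulAction.stabilizer G a) (hHcard : Nat.card H + 1 = Fintype.card Ω) (hHfix : ∀ u ∈ H, u ≠ 1 → ∀ c : Ω, u • c = c → c = a) : (∀ g : G, g ∉ MulAction.stabilizer G a → ∀ u ∈ H, g * u * g⁻¹ ∈ H → u = 1) ∧ Subgroup.normalizer (H : Set G) = MulAction.stabilizer G a := by
  classical
  obtain ⟨hfaith, h2t, h3, ⟨g₀, hg₀, a', b', ha'b', hga', hgb'⟩, hreg⟩ := hZ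
  rw [MulAction.is_two_pretransitive_iff] at h2t
  -- part 1
  have hp1 : ∀ g : G, g ∉ MulAction.stabilizer G a → ∀ u ∈ H, g * u * g⁻¹ ∈ H → u = 1 := by
    intro g hg u hu hv
    by_contra hu1
    have hv1 : g * u * g⁻¹ ≠ 1 := by
      intro h1
      apply hu1
      have : u = g⁻¹ * (g * u * g⁻¹) * g := by group
      rw [this, h1]; group
    have hua : u • a = a := MulAction.mem_stabilizer_iff.mp (hHa hu)
    have hfix : (g * u * g⁻¹) • (g • a) = g • a := by
      rw [mul_smul, mul_smul, inv_smul_smul, hua]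
    exact hg (MulAction.mem_stabilizer_iff.mpr (hHfix _ hv hv1 _ hfix))
  refine ⟨hp1, ?_⟩
  -- at least three points
  obtain ⟨c₀, hc₀⟩ : ∃ c : Ω, g₀ • c ≠ c := by
    by_contra hcon
    push Not at hcon
    apply hg₀
    apply hfaith.eq_of_smul_eq_smul
    intro c
    rw [hcon c, one_smul]
  have hc₀a : c₀ ≠ a' := fun h => hc₀ (h ▸ hga')
  have hc₀b : c₀ ≠ b' := fun h => hc₀ (h ▸ hgb')
  have hcard3 : 2 < Fintype.card Ω := Fintype.two_lt_card_iff.mpr ⟨a', b', c₀, ha'b', Ne.symm hc₀a, Ne.symm hc₀b⟩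
  have hH2 : 1 < Nat.card H := by omega
  obtain ⟨u₀, hu₀⟩ : ∃ u : H, u ≠ 1 := by
    have _i : Nontrivial H := Finite.one_lt_card_iff_nontrivial.mp hH2
    exact exists_ne 1
  obtain ⟨b₀, hb₀⟩ : ∃ b₀ : Ω, b₀ ≠ a := by
    have _i : Nontrivial Ω := Fintype.one_lt_card_iff_nontrivial.mp (by omega)
    exact exists_ne a
  apply le_antisymm
  · intro g hg
    by_contra hga
    have h1 := (Subgroup.mem_normalizer_iff.mp hg (u₀ : G)).mp u₀.2
    exact hu₀ (Subtype.ext (hp1 g hga (u₀ : G) u₀.2 h1))
  · intro g hg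
    have hga : g • a = a := MulAction.mem_stabilizer_iff.mp hg
    have hginva : g⁻¹ • a = a := by rw [inv_smul_eq_iff, hga]
    have hconj : ∀ k : G, k • a = a → ∀ u ∈ H, k * u * k⁻¹ ∈ H := by
      intro k hka u hu
      have hkinva : k⁻¹ • a = a := by rw [inv_smul_eq_iff, hka]
      by_cases hu1 : u = 1
      · rw [hu1]; simp [H.one_mem]
      · apply frob_kernel h2t h3 a b₀ hb₀ H hHa hHcard hHfix
        · rw [mul_smul, mul_smul, hkinva, MulAction.mem_stabilizer_iff.mp (hHa hu), hka]
        · intro c hc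
          rw [mul_smul, mul_smul] at hc
          have h2 := congrArg (fun w => k⁻¹ • w) hc
          simp only [inv_smul_smul] at h2
          have h3' := hHfix u hu hu1 _ h2
          rw [inv_smul_eq_iff, hka] at h3'
          exact h3'
    rw [Subgroup.mem_normalizer_iff]
    intro u
    constructor
    · exact hconj g hga u
    · intro h
      have := hconj g⁻¹ hginva _ h
      have e : g⁻¹ * (g * u * g⁻¹) * g⁻¹⁻¹ = u := by group
      rwa [e] at this

end Cfsg.Agent.S0878
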