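import Cfsg.Statements.S0879
import Mathlib

set_option autoImplicit false
open Cfsg

namespace Cfsg.Agent.S0879

/-- Let G be a Zassenhaus group on the finite set Ω and E the stabilizer of two distinct points a, b. Then an element outside the normalizer of E conjugates no non-identity element of E into E, and E has index 2 in its normalizer. -/
theorem result {G Ω : Type*} [Group G] [Finite G] [MulAction G Ω] [Fintype Ω] (hZ : Cfsg.IsZassenhausGroup G Ω) {a b : Ω} (hab : a ≠ b) : (∀ g : G, g ∉ Subgroup.normalizer ((MulAction.stabilizer G a ⊓ MulAction.stabilizer G b : Subgroup G) : Set G) → ∀ x ∈ (MulAction.stabilizer G a ⊓ MulAction.stabilizer G b : Subgroup G), g * x * g⁻¹ ∈ (MulAction.stabilizer G a ⊓ MulAction.stabilizer G b : Subgroup G) → x = 1) ∧ ((MulAction.stabilizer G a ⊓ MulAction.stabilizer G b : Subgroup G).subgroupOf (Subgroup.normalizer ((MulAction.stabilizer G a ⊓ MulAction.stabilizer G b : Subgroup G) : Set G))).index = 2 := by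
  classical
  obtain ⟨hfaith, h2t, h3, ⟨g₀, hg₀, a', b', ha'b', hga', hgb'⟩, hreg⟩ := hZ
  rw [MulAction.is_two_pretransitive_iff] at h2t
  set E : Subgroup G := MulAction.stabilizer G a ⊓ MulAction.stabilizer G b with hE
  have hmemE : ∀ x : G, x ∈ E ↔ x • a = a ∧ x • b = b := by
    intro x
    rw [hE, Subgroup.mem_inf, MulAction.mem_stabilizer_iff, MulAction.mem_stabilizer_iff]
  -- a non-identity element of E
  obtain ⟨e₀, he₀E, he₀1⟩ : ∃ e₀ ∈ E, e₀ ≠ 1 := by
    obtain ⟨h, hha, hhb⟩ := h2t ha'b' hab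
    refine ⟨h * g₀ * h⁻¹, ?_, ?_⟩
    · rw [hmemE]
      constructor
      · rw [mul_smul, mul_smul, ← hha, inv_smul_smul, hga']
      · rw [mul_smul, mul_smul, ← hhb, inv_smul_smul, hgb']
    · intro h1
      apply hg₀
      have : g₀ = h⁻¹ * (h * g₀ * h⁻¹) * h := by group
      rw [this, h1]; group
  -- Fact B
  have hB : ∀ e ∈ E, e ≠ 1 → ∀ c : Ω, e • c = c → c = a ∨ c = b := by
    intro e he he1 c hc
    by_contra hcon
    push Not at hcon
    exact he1 (h3 e a b c hab (Ne.symm hcon.2) (Ne.symm hcon.1) ((hmemE e).mp he).1 ((hmemE e).mp he).2 hc)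
  -- Fact C (⇐)
  have hCl : ∀ g : G, ((g • a = a ∧ g • b = b) ∨ (g • a = b ∧ g • b = a)) →
      g ∈ Subgroup.normalizer (E : Set G) := by
    intro g hg
    rcases hg with hg | hg
    · exact Subgroup.le_normalizer ((hmemE g).mpr hg)
    · rw [Subgroup.mem_normalizer_iff]
      intro x
      have hginv : g⁻¹ • a = b ∧ g⁻¹ • b = a := by
        constructor
        · rw [inv_smul_eq_iff]; exact hg.2.symm
        · rw [inv_smul_eq_iff]; exact hg.1.symm
      rw [hmemE, hmemE]
      constructor
      · rintro ⟨hxa, hxb⟩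
        constructor
        · rw [mul_smul, mul_smul, hginv.1, hxb, hg.2]
        · rw [mul_smul, mul_smul, hginv.2, hxa, hg.1]
      · rintro ⟨hxa, hxb⟩
        rw [mul_smul, mul_smul, hginv.1] at hxa
        rw [mul_smul, mul_smul, hginv.2] at hxb
        constructor
        · have := congrArg (fun w => g⁻¹ • w) hxb
          simp only [inv_smul_smul] at this
          rw [this, hginv.2]
        · have := congrArg (fun w => g⁻¹ • w) hxa
          simp only [inv_smul_smul] at this
          rw [this, hginv.1]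
  -- if g conjugates a non-identity element of E into E then g stabilises {a, b}
  have hkey : ∀ g x : G, x ∈ E → x ≠ 1 → g * x * g⁻¹ ∈ E →
      ((g • a = a ∧ g • b = b) ∨ (g • a = b ∧ g • b = a)) := by
    intro g x hx hx1 hy
    have hy1 : g * x * g⁻¹ ≠ 1 := by
      intro h1
      apply hx1
      have : x = g⁻¹ * (g * x * g⁻¹) * g := by group
      rw [this, h1]; group
    have hfa : (g * x * g⁻¹) • (g • a) = g • a := by
      rw [mul_smul, mul_smul, inv_smul_smul, ((hmemE x).mp hx).1]
    have hfb : (g * x * g⁻¹) • (g • b) = g • b := by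
      rw [mul_smul, mul_smul, inv_smul_smul, ((hmemE x).mp hx).2]
    have hne : g • a ≠ g • b := fun h => hab (MulAction.injective g h)
    rcases hB _ hy hy1 _ hfa with h1 | h1 <;> rcases hB _ hy hy1 _ hfb with h2 | h2
    · exact absurd (h1.trans h2.symm) hne
    · exact Or.inl ⟨h1, h2⟩
    · exact Or.inr ⟨h1, h2⟩
    · exact absurd (h1.trans h2.symm) hne
  refine ⟨?_, ?_⟩
  · intro g hg x hx hy
    by_contra hx1
    exact hg (hCl g (hkey g x hx hx1 hy))
  · -- index 2
    obtain ⟨s, hsa, hsb⟩ := h2t hab (Ne.symm hab)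
    have hsN : s ∈ Subgroup.normalizer (E : Set G) := hCl s (Or.inr ⟨hsa, hsb⟩)
    rw [Subgroup.index_eq_two_iff']
    refine ⟨⟨s, hsN⟩, ?_⟩
    intro n
    have hn : (n : G) • a = a ∧ (n : G) • b = b ∨ (n : G) • a = b ∧ (n : G) • b = a := by
      have h1 := (Subgroup.mem_normalizer_iff.mp n.2 e₀).mp he₀E
      exact hkey (n : G) e₀ he₀E he₀1 h1
    rw [Subgroup.mem_subgroupOf, Subgroup.mem_subgroupOf, hmemE, hmemE]
    show Xor (((s * (n : G)) • a = a) ∧ ((s * (n : G)) • b = b)) _
    rw [mul_smul, mul_smul]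
    rcases hn with ⟨hna, hnb⟩ | ⟨hna, hnb⟩
    · right
      refine ⟨⟨hna, hnb⟩, ?_⟩
      rintro ⟨h1, _⟩
      rw [hna, hsa] at h1
      exact hab h1.symm
    · left
      refine ⟨?_, ?_⟩
      · rw [hna, hnb, hsa, hsb]; exact ⟨rfl, rfl⟩
      · rintro ⟨h1, _⟩
        rw [hna] at h1
        exact hab h1.symm

end Cfsg.Agent.S0879
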