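import Cfsg.Statements.S0887
import Mathlib
import Cfsg.Agent.Helper7.CliffDeg

set_option autoImplicit false
open Cfsg

namespace Cfsg.Agent.S0887

/-- Let N be a normal subgroup of the finite group G, χ an irreducible character of G and ϑ an irreducible character of N having nonzero inner product with the restriction of χ. If χ 1 = c and ϑ 1 = d as natural numbers, then d divides c and c / d divides the index of N. -/
theorem result {G : Type*} [Group G] [Fintype G] (N : Subgroup G) [N.Normal] [Fintype N] (χ : G → ℂ) (hχ : Cfsg.IsIrrCharacter G χ) (ϑ : N → ℂ) (hϑ : Cfsg.IsIrrCharacter N ϑ) (hcon : Cfsg.classInner (fun n : N => χ n) ϑ ≠ 0) (c d : ℕ) (hc : χ 1 = c) (hd : ϑ 1 = d) : d ∣ c ∧ c / d ∣ N.index := by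
  obtain ⟨q, hq1, hq2⟩ := Cfsg.Agent.Helper7.degree_quot_dvd_index N
    (⟨χ, hχ⟩ : Cfsg.IrrCharacter G) (⟨ϑ, hϑ⟩ : Cfsg.IrrCharacter N) hcon
  have hcc : Cfsg.charDegree χ = c := by
    unfold Cfsg.charDegree
    rw [hc, Complex.natCast_re, Nat.floor_natCast]
  have hdd : Cfsg.charDegree ϑ = d := by
    unfold Cfsg.charDegree
    rw [hd, Complex.natCast_re, Nat.floor_natCast]
  have hq1' : Cfsg.charDegree χ = q * Cfsg.charDegree ϑ := hq1
  rw [hcc, hdd] at hq1'
  have hd0 : 0 < d := by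
    have h1 : 0 < Cfsg.charDegree ϑ :=
      Cfsg.Agent.Helper25.irr_degree_pos (⟨ϑ, hϑ⟩ : Cfsg.IrrCharacter N)
    rwa [hdd] at h1
  refine ⟨⟨q, by rw [hq1', mul_comm]⟩, ?_⟩
  rw [hq1', Nat.mul_div_cancel _ hd0]
  exact hq2

end Cfsg.Agent.S0887
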