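import Cfsg.Statements.S0893
import Mathlib
import Cfsg.Agent.Helper7.Clifford
import Cfsg.Agent.Helper25.CharMore
import Cfsg.Agent.Helper25.CharClass

set_option autoImplicit false
open Cfsg

namespace Cfsg.Agent.S0893

theorem lin_irr {A : Type*} [Group A] (lam : A → ℂ) (h : Cfsg.IsCharacter A lam ∧ lam 1 = 1) :
    Cfsg.IsIrrCharacter A lam := by
  obtain ⟨⟨n, ρ, rfl⟩, h1⟩ := h
  have hn : (n : ℂ) = 1 := by rw [← Cfsg.Agent.Helper25.rep_char_one ρ]; exact h1
  have hn1 : n = 1 := by exact_mod_cast hn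
  subst hn1
  exact ⟨1, ρ, Cfsg.Agent.Helper25.irreducible_of_finrank_eq_one ρ (by simp), rfl⟩

theorem center_gen {P : Type*} [Group P] (p : ℕ) [Fact p.Prime] (hZ : Nat.card (Subgroup.center P) = p)
    (z w : P) (hz : z ∈ Subgroup.center P) (hw : w ∈ Subgroup.center P) (hz1 : z ≠ 1) :
    ∃ k : ℤ, z ^ k = w := by
  have h1 : (⟨w, hw⟩ : Subgroup.center P) ∈ Subgroup.zpowers (⟨z, hz⟩ : Subgroup.center P) :=
    mem_zpowers_of_prime_card hZ (fun h => hz1 (congrArg Subtype.val h))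
  obtain ⟨k, hk⟩ := Subgroup.mem_zpowers_iff.mp h1
  exact ⟨k, by simpa using congrArg Subtype.val hk⟩

theorem comm_mem_center {P : Type*} [Group P] (hcomm : commutator P = Subgroup.center P) (x g : P) :
    x⁻¹ * g⁻¹ * x * g ∈ Subgroup.center P := by
  rw [← hcomm, commutator_def]
  have := Subgroup.commutator_mem_commutator (Subgroup.mem_top x⁻¹) (Subgroup.mem_top g⁻¹)
  rw [commutatorElement_def] at this
  simpa using this

/-- Let P be an extraspecial p-group of order p ^ (2 * n + 1), A an abelian subgroup of order p ^ (n + 1), and λ a character of A of degree 1 that is not identically 1 on the elements of A lying in the centre of P. Then the function induced from λ to P is an irreducible character of P and vanishes at every element outside the centre. -/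
theorem result {P : Type*} [Group P] [Fintype P] (p n : ℕ) [Fact p.Prime] (hP : Cfsg.IsExtraspecial p P) (hcard : Nat.card P = p ^ (2 * n + 1)) (A : Subgroup P) (hab : ∀ a ∈ A, ∀ b ∈ A, a * b = b * a) (hA : Nat.card A = p ^ (n + 1)) (lam : A → ℂ) (hlam : Cfsg.IsCharacter A lam ∧ lam 1 = 1) (hZ : ∃ a : A, (a : P) ∈ Subgroup.center P ∧ lam a ≠ 1) : Cfsg.IsIrrCharacter P (Cfsg.indFun A lam) ∧ ∀ x : P, x ∉ Subgroup.center P → Cfsg.indFun A lam x = 0 := by
  classical
  obtain ⟨⟨hpg, hfrat, hcomm⟩, hZcard⟩ := hP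
  letI : Fintype A := Fintype.ofFinite A
  have hlamirr := lin_irr lam hlam
  have hmul : ∀ a b : A, lam (a * b) = lam a * lam b :=
    Cfsg.Agent.Helper25.irr_linear_mul ⟨lam, hlamirr⟩ hlam.2
  obtain ⟨a₀, ha₀Z, ha₀⟩ := hZ
  have ha₀1 : (a₀ : P) ≠ 1 := by
    intro h
    apply ha₀
    have : a₀ = 1 := Subtype.ext h
    rw [this]
    exact hlam.2
  have hZA : Subgroup.center P ≤ A := by
    intro w hw
    obtain ⟨k, rfl⟩ := center_gen p hZcard a₀ w ha₀Z hw ha₀1
    exact A.zpow_mem a₀.2 k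
  have hcZ : ∀ x g : P, x⁻¹ * g⁻¹ * x * g ∈ Subgroup.center P := comm_mem_center hcomm
  have hAn : A.Normal := by
    constructor
    intro a ha g
    have h1 : g * a * g⁻¹ = a * (a⁻¹ * g⁻¹⁻¹ * a * g⁻¹) := by group
    rw [h1]
    exact A.mul_mem ha (hZA (hcZ a g⁻¹))
  have hconj : ∀ x g : P, g⁻¹ * x * g = x * (x⁻¹ * g⁻¹ * x * g) := by
    intro x g
    group
  have hval : ∀ (x : P) (hx : x ∈ A), Cfsg.indFun A lam x = (Nat.card A : ℂ)⁻¹ *
      (lam ⟨x, hx⟩ * ∑ g : P, lam ⟨x⁻¹ * g⁻¹ * x * g, hZA (hcZ x g)⟩) := by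
    intro x hx
    unfold Cfsg.indFun
    congr 1
    rw [Finset.mul_sum]
    apply Finset.sum_congr rfl
    intro g _
    have hm : g⁻¹ * x * g ∈ A := by
      rw [hconj]
      exact A.mul_mem hx (hZA (hcZ x g))
    have e : g⁻¹ * x * g = ((⟨g⁻¹ * x * g, hm⟩ : A) : P) := rfl
    rw [e, Cfsg.Agent.Helper7.extendByZero_apply_mem, ← hmul]
    congr 1
    apply Subtype.ext
    exact hconj x g
  have hcardP : (Nat.card P : ℂ) = (p : ℂ) ^ (2 * n + 1) := by rw [hcard]; push_cast; rfl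
  have hcardA : (Nat.card A : ℂ) = (p : ℂ) ^ (n + 1) := by rw [hA]; push_cast; rfl
  have hp0 : (p : ℂ) ≠ 0 := Nat.cast_ne_zero.mpr (Fact.out : p.Prime).pos.ne'
  -- value on the centre
  have hvalZ : ∀ (z : P) (hz : z ∈ Subgroup.center P),
      Cfsg.indFun A lam z = (p : ℂ) ^ n * lam ⟨z, hZA hz⟩ := by
    intro z hz
    rw [hval z (hZA hz)]
    have h1 : ∀ g : P, lam ⟨z⁻¹ * g⁻¹ * z * g, hZA (hcZ z g)⟩ = 1 := by
      intro g
      have h2 : z⁻¹ * g⁻¹ * z * g = 1 := by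
        have := Subgroup.mem_center_iff.mp hz g
        calc z⁻¹ * g⁻¹ * z * g = z⁻¹ * g⁻¹ * (z * g) := by group
          _ = z⁻¹ * g⁻¹ * (g * z) := by rw [this]
          _ = 1 := by group
      have h3 : (⟨z⁻¹ * g⁻¹ * z * g, hZA (hcZ z g)⟩ : A) = 1 := Subtype.ext h2
      rw [h3]
      exact hlam.2
    rw [Finset.sum_congr rfl (fun g _ => h1 g), Finset.sum_const, Finset.card_univ, nsmul_eq_mul,
      mul_one, ← Nat.card_eq_fintype_card, hcardP, hcardA]
    field_simp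
    ring
  -- vanishing off the centre
  have hvan : ∀ x : P, x ∉ Subgroup.center P → Cfsg.indFun A lam x = 0 := by
    intro x hx
    by_cases hxA : x ∈ A
    · rw [hval x hxA]
      have hμmul : ∀ g h : P, lam ⟨x⁻¹ * (g * h)⁻¹ * x * (g * h), hZA (hcZ x (g * h))⟩
          = lam ⟨x⁻¹ * h⁻¹ * x * h, hZA (hcZ x h)⟩ * lam ⟨x⁻¹ * g⁻¹ * x * g, hZA (hcZ x g)⟩ := by
        intro g h
        rw [← hmul]
        congr 1
        apply Subtype.ext
        show x⁻¹ * (g * h)⁻¹ * x * (g * h) = x⁻¹ * h⁻¹ * x * h * (x⁻¹ * g⁻¹ * x * g)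
        have hc := Subgroup.mem_center_iff.mp (hcZ x g) h
        calc x⁻¹ * (g * h)⁻¹ * x * (g * h) = x⁻¹ * h⁻¹ * x * ((x⁻¹ * g⁻¹ * x * g) * h) := by group
          _ = x⁻¹ * h⁻¹ * x * (h * (x⁻¹ * g⁻¹ * x * g)) := by rw [hc]
          _ = _ := by group
      obtain ⟨g₀, hg₀⟩ : ∃ g₀ : P, lam ⟨x⁻¹ * g₀⁻¹ * x * g₀, hZA (hcZ x g₀)⟩ ≠ 1 := by
        by_contra hall
        push Not at hall
        apply hx
        rw [Subgroup.mem_center_iff]
        intro g
        by_contra hne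
        have hc1 : x⁻¹ * g⁻¹ * x * g ≠ 1 := by
          intro h
          apply hne
          calc g * x = g * x * (x⁻¹ * g⁻¹ * x * g) := by rw [h, mul_one]
            _ = x * g := by group
        obtain ⟨k, hk⟩ := center_gen p hZcard _ (a₀ : P) (hcZ x g) ha₀Z hc1
        apply ha₀
        have h2 : a₀ = (⟨x⁻¹ * g⁻¹ * x * g, hZA (hcZ x g)⟩ : A) ^ k := by
          apply Subtype.ext
          rw [Subgroup.coe_zpow]
          exact hk.symm
        rw [h2]
        have h3 := map_zpow (Cfsg.Agent.Helper25.linHom ⟨lam, hlamirr⟩ hlam.2)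
          (⟨x⁻¹ * g⁻¹ * x * g, hZA (hcZ x g)⟩ : A) k
        have h4 : lam ((⟨x⁻¹ * g⁻¹ * x * g, hZA (hcZ x g)⟩ : A) ^ k)
            = lam ⟨x⁻¹ * g⁻¹ * x * g, hZA (hcZ x g)⟩ ^ k := h3
        rw [h4, hall g, one_zpow]
      have hsum : ∑ g : P, lam ⟨x⁻¹ * g⁻¹ * x * g, hZA (hcZ x g)⟩ = 0 := by
        have h1 : ∑ g : P, lam ⟨x⁻¹ * g⁻¹ * x * g, hZA (hcZ x g)⟩
            = lam ⟨x⁻¹ * g₀⁻¹ * x * g₀, hZA (hcZ x g₀)⟩ *
              ∑ g : P, lam ⟨x⁻¹ * g⁻¹ * x * g, hZA (hcZ x g)⟩ := by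
          rw [Finset.mul_sum]
          rw [← Equiv.sum_comp (Equiv.mulRight g₀)
            (fun g : P => lam ⟨x⁻¹ * g⁻¹ * x * g, hZA (hcZ x g)⟩)]
          apply Finset.sum_congr rfl
          intro g _
          exact hμmul g g₀
        by_contra hne
        apply hg₀
        have h2 : (1 - lam ⟨x⁻¹ * g₀⁻¹ * x * g₀, hZA (hcZ x g₀)⟩) *
            ∑ g : P, lam ⟨x⁻¹ * g⁻¹ * x * g, hZA (hcZ x g)⟩ = 0 := by
          rw [sub_mul, one_mul, ← h1, sub_self]
        rcases mul_eq_zero.mp h2 with h | h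
        · exact (sub_eq_zero.mp h).symm
        · exact absurd h hne
      rw [hsum, mul_zero, mul_zero]
    · haveI := hAn
      exact Cfsg.Agent.Helper7.indFun_apply_of_not_mem_normal A lam x hxA
  refine ⟨?_, hvan⟩
  apply Cfsg.Agent.Helper2.isIrrCharacter_of_classInner_self
    (Cfsg.Agent.Helper2.isCharacter_indFun A hlam.1)
  rw [Cfsg.Agent.Helper2.frobenius_reciprocity A lam _ (Cfsg.Agent.Helper2.indFun_isClassFunction A lam)]
  unfold Cfsg.classInner
  have hterm : ∀ a : A, lam a * (starRingEnd ℂ) (Cfsg.indFun A lam (a : P))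
      = if (a : P) ∈ Subgroup.center P then (p : ℂ) ^ n else 0 := by
    intro a
    by_cases ha : (a : P) ∈ Subgroup.center P
    · rw [if_pos ha, hvalZ _ ha, map_mul, map_pow, Complex.conj_natCast]
      have h1 : lam a * (starRingEnd ℂ) (lam a) = 1 := by
        rw [← Cfsg.Agent.Helper25.irr_inv ⟨lam, hlamirr⟩ a]
        show lam a * lam a⁻¹ = 1
        rw [← hmul, mul_inv_cancel]
        exact hlam.2
      have h2 : (⟨(a : P), hZA ha⟩ : A) = a := Subtype.ext rfl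
      rw [h2]
      calc lam a * ((p : ℂ) ^ n * (starRingEnd ℂ) (lam a))
          = (p : ℂ) ^ n * (lam a * (starRingEnd ℂ) (lam a)) := by ring
        _ = (p : ℂ) ^ n := by rw [h1, mul_one]
    · rw [if_neg ha, hvan _ ha, map_zero, mul_zero]
  rw [Finset.sum_congr rfl (fun a _ => hterm a), Cfsg.Agent.Helper2.sum_ite_const_eq_card]
  have hcnt : Nat.card {a : A // (a : P) ∈ Subgroup.center P} = p := by
    rw [← hZcard]
    exact Nat.card_congr (Subgroup.subgroupOfEquivOfLe hZA).toEquiv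
  rw [hcnt, hcardA]
  field_simp
  ring

end Cfsg.Agent.S0893
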