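import Cfsg.Statements.S0894
import Mathlib
import Cfsg.Agent.Helper7.Clifford
import Cfsg.Agent.Helper25.CharKer

set_option autoImplicit false
open Cfsg

namespace Cfsg.Agent.S0894

theorem center_gen {P : Type*} [Group P] (p : ℕ) [Fact p.Prime] (hZ : Nat.card (Subgroup.center P) = p)
    (z w : P) (hz : z ∈ Subgroup.center P) (hw : w ∈ Subgroup.center P) (hz1 : z ≠ 1) :
    ∃ k : ℤ, z ^ k = w := by
  have h1 : (⟨w, hw⟩ : Subgroup.center P) ∈ Subgroup.zpowers (⟨z, hz⟩ : Subgroup.center P) :=
    mem_zpowers_of_prime_card hZ (fun h => hz1 (congrArg Subtype.val h))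
  obtain ⟨k, hk⟩ := Subgroup.mem_zpowers_iff.mp h1
  exact ⟨k, by simpa using congrArg Subtype.val hk⟩

theorem comm_mem_center {P : Type*} [Group P] (hcomm : commutator P = Subgroup.center P) (x g : P) :
    x⁻¹ * g⁻¹ * x * g ∈ Subgroup.center P := by
  rw [← hcomm, commutator_def]
  have := Subgroup.commutator_mem_commutator (Subgroup.mem_top x⁻¹) (Subgroup.mem_top g⁻¹)
  rw [commutatorElement_def] at this
  simpa using this

theorem sum_normSq_irr {G : Type*} [Group G] [Fintype G] (χ : G → ℂ) (hχ : Cfsg.IsIrrCharacter G χ) :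
    ∑ g : G, Complex.normSq (χ g) = (Nat.card G : ℝ) := by
  have h := Cfsg.Agent.Helper25.irr_classInner (⟨χ, hχ⟩ : Cfsg.IrrCharacter G) ⟨χ, hχ⟩
  rw [if_pos rfl] at h
  rw [Cfsg.Agent.Helper2.classInner_self_eq] at h
  have h' : (Nat.card G : ℝ)⁻¹ * ∑ g : G, Complex.normSq (χ g) = 1 := by exact_mod_cast h
  have hG : (Nat.card G : ℝ) ≠ 0 := Nat.cast_ne_zero.mpr Nat.card_pos.ne'
  field_simp at h'
  linarith

theorem sum_split {G : Type*} [Group G] [Fintype G] (N : Subgroup G) [Fintype N] (F : G → ℝ) :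
    ∃ R : Finset G, (∀ g ∈ R, g ∉ N) ∧ ∑ g : G, F g = ∑ n : N, F n + ∑ g ∈ R, F g := by
  classical
  refine ⟨Finset.univ.filter (fun g : G => g ∉ N), by simp, ?_⟩
  rw [← Finset.sum_filter_add_sum_filter_not Finset.univ (fun g : G => g ∈ N) F]
  congr 1
  exact Finset.sum_subtype (F := inferInstance) (Finset.univ.filter (· ∈ N)) (p := (· ∈ N)) (by simp) F

theorem scalar_dim_one {G : Type*} [Group G] {k : ℕ} (ρ : Representation ℂ G (Fin k → ℂ))
    (hρ : ρ.IsIrreducible) (hs : ∀ g : G, ∃ c : ℂ, ρ g = c • LinearMap.id) : k = 1 := by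
  haveI := Cfsg.Agent.Helper25.nontrivial_of_irreducible ρ hρ
  obtain ⟨v, hv⟩ := exists_ne (0 : Fin k → ℂ)
  let W : Subrepresentation ρ := ⟨Submodule.span ℂ {v}, by
    intro g w hw
    obtain ⟨c, hc⟩ := hs g
    rw [hc]
    simp only [LinearMap.smul_apply, LinearMap.id_coe, id_eq]
    exact Submodule.smul_mem _ _ hw⟩
  rcases hρ.eq_bot_or_eq_top W with h | h
  · exfalso
    have h1 : Submodule.span ℂ {v} = ⊥ := congrArg Subrepresentation.toSubmodule h
    rw [Submodule.span_singleton_eq_bot] at h1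
    exact hv h1
  · have h1 : Submodule.span ℂ {v} = ⊤ := congrArg Subrepresentation.toSubmodule h
    have h2 : Module.finrank ℂ (Submodule.span ℂ {v}) = 1 := finrank_span_singleton hv
    rw [h1, finrank_top, Module.finrank_fin_fun] at h2
    exact h2

theorem deg_cases {P : Type*} [Group P] [Fintype P] (p n : ℕ) [Fact p.Prime]
    (hcomm : commutator P = Subgroup.center P) (hZcard : Nat.card (Subgroup.center P) = p)
    (hcard : Nat.card P = p ^ (2 * n + 1)) (χ : P → ℂ) (hχ : Cfsg.IsIrrCharacter P χ) :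
    χ 1 = 1 ∨ χ 1 = (p : ℂ) ^ n := by
  classical
  have hχ' := hχ
  obtain ⟨k, ρ, hρ, rfl⟩ := hχ
  haveI := hρ
  have hp : p.Prime := Fact.out
  have hk : ρ.character 1 = k := Cfsg.Agent.Helper25.rep_char_one ρ
  have hkne : (k : ℂ) ≠ 0 := by
    haveI := Cfsg.Agent.Helper25.nontrivial_of_irreducible ρ hρ
    intro h
    have h0 : k = 0 := by exact_mod_cast h
    subst h0
    exact not_subsingleton (Fin 0 → ℂ) inferInstance
  have hsc : ∀ z ∈ Subgroup.center P, ∃ c : ℂ, ρ z = c • LinearMap.id := by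
    intro z hz
    apply Cfsg.Agent.Helper1.exists_scalar_of_commute ρ (ρ z)
    intro g
    show ρ z * ρ g = ρ g * ρ z
    rw [← map_mul, ← map_mul, Subgroup.mem_center_iff.mp hz g]
  by_cases hcase : ∃ z ∈ Subgroup.center P, z ≠ 1 ∧ ρ z = LinearMap.id
  · left
    obtain ⟨z, hz, hz1, hρz⟩ := hcase
    have hZtriv : ∀ w ∈ Subgroup.center P, ρ w = 1 := by
      intro w hw
      obtain ⟨j, rfl⟩ := center_gen p hZcard z w hz hw hz1
      have : z ∈ (ρ : P →* Module.End ℂ (Fin k → ℂ)).ker := hρz
      exact MonoidHom.mem_ker.mp (Subgroup.zpow_mem _ this j)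
    have hcomm' : ∀ g h : P, ρ g * ρ h = ρ h * ρ g := by
      intro g h
      have h1 : g * h = h * g * (g⁻¹ * h⁻¹ * g * h) := by group
      rw [← map_mul, ← map_mul, h1, map_mul, hZtriv _ (comm_mem_center hcomm g h), mul_one]
    have hk1 : k = 1 := scalar_dim_one ρ hρ
      (fun g => Cfsg.Agent.Helper1.exists_scalar_of_commute ρ (ρ g) (fun h => hcomm' g h))
    rw [hk, hk1]
    simp
  · right
    push Not at hcase
    choose! lamf hlamf using hsc
    have hχz : ∀ x z : P, z ∈ Subgroup.center P →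
        ρ.character (x * z) = lamf z * ρ.character x := by
      intro x z hz
      show LinearMap.trace ℂ _ (ρ (x * z)) = lamf z * LinearMap.trace ℂ _ (ρ x)
      rw [map_mul, hlamf z hz, mul_smul_comm, map_smul, smul_eq_mul]
      rfl
    have hvan : ∀ x : P, x ∉ Subgroup.center P → ρ.character x = 0 := by
      intro x hx
      obtain ⟨g, hg⟩ : ∃ g : P, g * x ≠ x * g := by
        by_contra h
        push Not at h
        exact hx (Subgroup.mem_center_iff.mpr h)
      have hc1 : x⁻¹ * g⁻¹ * x * g ≠ 1 := by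
        intro h
        apply hg
        calc g * x = g * x * (x⁻¹ * g⁻¹ * x * g) := by rw [h, mul_one]
          _ = x * g := by group
      have hcZ := comm_mem_center hcomm x g
      have h1 : ρ.character (g⁻¹ * x * g) = ρ.character x := by
        have := Cfsg.Agent.Helper25.char_isClassFunction
          (Cfsg.Agent.Helper2.isCharacter_of_isIrrCharacter hχ') x g⁻¹
        simpa using this
      have h2 : g⁻¹ * x * g = x * (x⁻¹ * g⁻¹ * x * g) := by group
      rw [h2, hχz x _ hcZ] at h1
      have hl : lamf (x⁻¹ * g⁻¹ * x * g) ≠ 1 := by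
        intro h
        apply hcase _ hcZ hc1
        rw [hlamf _ hcZ, h, one_smul]
      have h3 : (lamf (x⁻¹ * g⁻¹ * x * g) - 1) * ρ.character x = 0 := by
        rw [sub_mul, one_mul, h1, sub_self]
      rcases mul_eq_zero.mp h3 with h | h
      · exact absurd (sub_eq_zero.mp h) hl
      · exact h
    have htrid : LinearMap.trace ℂ (Fin k → ℂ) LinearMap.id = (k : ℂ) := by simp
    have hnormZ : ∀ z ∈ Subgroup.center P, Complex.normSq (ρ.character z) = (k : ℝ) ^ 2 := by
      intro z hz
      have h1 : ρ.character z = lamf z * k := by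
        have := hχz 1 z hz
        rw [one_mul, hk] at this
        exact this
      have h2 : ρ.character z⁻¹ = lamf z⁻¹ * k := by
        have := hχz 1 z⁻¹ (Subgroup.inv_mem _ hz)
        rw [one_mul, hk] at this
        exact this
      have h3 : lamf z * lamf z⁻¹ = 1 := by
        have h4 : ρ z * ρ z⁻¹ = LinearMap.id := by
          rw [← map_mul, mul_inv_cancel, map_one]
          rfl
        rw [hlamf z hz, hlamf z⁻¹ (Subgroup.inv_mem _ hz), smul_mul_smul_comm] at h4
        have h5 := congrArg (LinearMap.trace ℂ (Fin k → ℂ)) h4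
        have h6 : (LinearMap.id : (Fin k → ℂ) →ₗ[ℂ] (Fin k → ℂ)) * LinearMap.id = LinearMap.id := rfl
        rw [map_smul, h6, htrid, smul_eq_mul] at h5
        exact mul_right_cancel₀ hkne (by rw [h5, one_mul])
      have h8 : ρ.character z * (starRingEnd ℂ) (ρ.character z) = (k : ℂ) ^ 2 := by
        rw [← Cfsg.Agent.Helper25.char_inv (Cfsg.Agent.Helper2.isCharacter_of_isIrrCharacter hχ') z, h1, h2]
        calc lamf z * k * (lamf z⁻¹ * k) = (lamf z * lamf z⁻¹) * (k : ℂ) ^ 2 := by ring
          _ = (k : ℂ) ^ 2 := by rw [h3, one_mul]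
      rw [Complex.mul_conj] at h8
      exact_mod_cast h8
    letI : Fintype (Subgroup.center P) := Fintype.ofFinite _
    have hsum := sum_normSq_irr ρ.character hχ'
    obtain ⟨R, hR, hsplit⟩ := sum_split (Subgroup.center P) (fun g => Complex.normSq (ρ.character g))
    have h0 : ∑ g ∈ R, Complex.normSq (ρ.character g) = 0 := by
      apply Finset.sum_eq_zero
      intro g hg
      rw [hvan g (hR g hg)]
      simp
    have hZsum : ∑ z : Subgroup.center P, Complex.normSq (ρ.character (z : P)) = (p : ℝ) * (k : ℝ) ^ 2 := by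
      rw [Finset.sum_congr rfl (fun (z : Subgroup.center P) _ => hnormZ (z : P) z.2), Finset.sum_const, Finset.card_univ,
        nsmul_eq_mul, ← Nat.card_eq_fintype_card, hZcard]
    rw [hsum, hZsum, h0, add_zero, hcard] at hsplit
    have h9 : (p ^ (2 * n + 1) : ℕ) = p * k ^ 2 := by exact_mod_cast hsplit
    have h10 : k ^ 2 = (p ^ n) ^ 2 := by
      have h11 : p * k ^ 2 = p * (p ^ n) ^ 2 := by
        rw [← h9]
        ring
      exact Nat.eq_of_mul_eq_mul_left hp.pos h11
    have h12 : k = p ^ n := Nat.pow_left_injective (by norm_num : (2 : ℕ) ≠ 0) h10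
    rw [hk, h12]
    push_cast
    rfl

/-- Let P be an extraspecial p-group of order p ^ (2 * n + 1). Then every irreducible character of P has degree 1 or p ^ n, and exactly p - 1 of them have degree p ^ n. -/
theorem result {P : Type*} [Group P] [Finite P] (p n : ℕ) [Fact p.Prime] (hP : Cfsg.IsExtraspecial p P) (hcard : Nat.card P = p ^ (2 * n + 1)) : (∀ χ : Cfsg.IrrCharacter P, (χ : P → ℂ) 1 = 1 ∨ (χ : P → ℂ) 1 = (p : ℂ) ^ n) ∧ Nat.card {χ : Cfsg.IrrCharacter P // (χ : P → ℂ) 1 = (p : ℂ) ^ n} = p - 1 := by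
  classical
  letI : Fintype P := Fintype.ofFinite P
  obtain ⟨⟨hpg, hfrat, hcomm⟩, hZcard⟩ := hP
  have hp : p.Prime := Fact.out
  have hdeg := fun χ : Cfsg.IrrCharacter P => deg_cases p n hcomm hZcard hcard χ.1 χ.2
  refine ⟨hdeg, ?_⟩
  have hn : n ≠ 0 := by
    rintro rfl
    have h1 : Nat.card (Subgroup.center P) = Nat.card P := by
      rw [hZcard, hcard]
      simp
    have h2 : Subgroup.center P = ⊤ := Subgroup.eq_top_of_card_eq _ h1
    have h3 : commutator P = ⊥ := by
      rw [commutator_def, Subgroup.commutator_eq_bot_iff_le_centralizer, Subgroup.coe_top,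
        Subgroup.centralizer_univ, h2]
    rw [hcomm, h2] at h3
    have h4 : Nat.card (⊤ : Subgroup P) = 1 := by rw [h3]; exact Subgroup.card_bot
    rw [Subgroup.card_top, hcard] at h4
    simp at h4
    exact hp.one_lt.ne' h4
  have hpn1 : p ^ n ≠ 1 := (Nat.one_lt_pow hn hp.one_lt).ne'
  have hd : ∀ χ : Cfsg.IrrCharacter P,
      Cfsg.charDegree (χ : P → ℂ) = 1 ∨ Cfsg.charDegree (χ : P → ℂ) = p ^ n := by
    intro χ
    have h1 := Cfsg.Agent.Helper25.irr_one_eq_degree χ
    rcases hdeg χ with h | h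
    · left
      rw [h1] at h
      exact_mod_cast h
    · right
      rw [h1] at h
      exact_mod_cast h
  have hsq := Cfsg.Agent.Helper25.sum_irr_degree_sq_nat (G := P)
  obtain ⟨L, hL⟩ : ∃ L, L = (Finset.univ.filter
      (fun χ : Cfsg.IrrCharacter P => Cfsg.charDegree (χ : P → ℂ) = 1)).card := ⟨_, rfl⟩
  obtain ⟨K, hK⟩ : ∃ K, K = (Finset.univ.filter
      (fun χ : Cfsg.IrrCharacter P => ¬ Cfsg.charDegree (χ : P → ℂ) = 1)).card := ⟨_, rfl⟩
  obtain ⟨q, hq⟩ : ∃ q, q = p ^ (2 * n) := ⟨_, rfl⟩
  have hqpos : 0 < q := by rw [hq]; exact Nat.pos_of_ne_zero (pow_ne_zero _ hp.pos.ne')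
  have hsum : L + K * q = p * q := by
    have h1 : p ^ (2 * n + 1) = p * q := by rw [hq, pow_succ, mul_comm]
    rw [← h1, ← hcard, ← hsq, ← Finset.sum_filter_add_sum_filter_not Finset.univ
      (fun χ : Cfsg.IrrCharacter P => Cfsg.charDegree (χ : P → ℂ) = 1)]
    congr 1
    · rw [hL, Finset.card_eq_sum_ones]
      apply Finset.sum_congr rfl
      intro χ hχ
      rw [(Finset.mem_filter.mp hχ).2]
      norm_num
    · rw [hK, Finset.card_eq_sum_ones, Finset.sum_mul]
      apply Finset.sum_congr rfl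
      intro χ hχ
      have := (hd χ).resolve_left (Finset.mem_filter.mp hχ).2
      rw [this, one_mul, hq, ← pow_mul, mul_comm]
  have hLle : L ≤ q := by
    have h1 := Cfsg.Agent.Helper25.card_linear_le_index (G := P)
    have h2 : (commutator P).index = q := by
      rw [hcomm]
      have := Subgroup.index_mul_card (Subgroup.center P)
      rw [hZcard, hcard, pow_succ] at this
      rw [hq]
      exact Nat.eq_of_mul_eq_mul_right hp.pos this
    have h3 : Nat.card {χ : Cfsg.IrrCharacter P // (χ : P → ℂ) 1 = 1} = L := by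
      rw [Nat.card_eq_fintype_card, Fintype.card_subtype, hL]
      congr 1
      ext χ
      simp only [Finset.mem_filter, Finset.mem_univ, true_and]
      rw [Cfsg.Agent.Helper25.irr_one_eq_degree]
      norm_cast
    omega
  have hL1 : 1 ≤ L := by
    rw [hL]
    apply Finset.card_pos.mpr
    refine ⟨Cfsg.Agent.Helper25.trivChar P, ?_⟩
    simp only [Finset.mem_filter, Finset.mem_univ, true_and]
    have := Cfsg.Agent.Helper25.irr_one_eq_degree (Cfsg.Agent.Helper25.trivChar P)
    rw [Cfsg.Agent.Helper25.trivChar_apply] at this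
    exact_mod_cast this.symm
  have hKeq : K = p - 1 := by
    have hKlt : K < p := by
      by_contra h
      push Not at h
      have h2 : p * q ≤ K * q := Nat.mul_le_mul_right _ h
      omega
    have hKge : p - 1 ≤ K := by
      by_contra h
      push Not at h
      have h2 : (K + 2) * q ≤ p * q := Nat.mul_le_mul_right _ (by omega)
      rw [add_mul] at h2
      omega
    omega
  have hK' : Nat.card {χ : Cfsg.IrrCharacter P // (χ : P → ℂ) 1 = (p : ℂ) ^ n} = K := by
    rw [Nat.card_eq_fintype_card, Fintype.card_subtype, hK]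
    congr 1
    ext χ
    simp only [Finset.mem_filter, Finset.mem_univ, true_and]
    constructor
    · intro h hd1
      rw [Cfsg.Agent.Helper25.irr_one_eq_degree, hd1] at h
      have : (1 : ℕ) = p ^ n := by exact_mod_cast h
      exact hpn1 this.symm
    · intro h
      rw [Cfsg.Agent.Helper25.irr_one_eq_degree, (hd χ).resolve_left h]
      push_cast
      rfl
  rw [hK', hKeq]

end Cfsg.Agent.S0894
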