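import Cfsg.Statements.S0895
import Mathlib
import Cfsg.Agent.Helper7.MatRep

set_option autoImplicit false
open Cfsg

namespace Cfsg.Agent.S0895

open Cfsg.Agent.Helper7 in
open scoped Matrix in
theorem fs_aux {G : Type*} [Group G] [Fintype G] {n : ℕ} (ρ : Representation ℂ G (Fin n → ℂ))
    (hρ : ρ.IsIrreducible) (hreal : ∀ g : G, (ρ.character g).im = 0) (hodd : Odd n) :
    ∑ s : G, ρ.character (s * s) = (Nat.card G : ℂ) := by
  classical
  have hG : (Nat.card G : ℂ) ≠ 0 := Cfsg.Agent.Helper25.card_ne_zero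
  have hn0 := repMat_n_ne_zero ρ hρ
  have hSX : ∀ (X : Matrix (Fin n) (Fin n) ℂ) (h : G),
      (repMat ρ h)ᵀ * (∑ g : G, (repMat ρ g)ᵀ * X * repMat ρ g) * repMat ρ h
        = ∑ g : G, (repMat ρ g)ᵀ * X * repMat ρ g := by
    intro X h
    rw [Finset.mul_sum, Finset.sum_mul,
      ← Equiv.sum_comp (Equiv.mulRight h) (fun g => (repMat ρ g)ᵀ * X * repMat ρ g)]
    apply Finset.sum_congr rfl; intro g _
    simp only [Equiv.coe_mulRight]
    rw [repMat_mul, Matrix.transpose_mul]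
    simp only [Matrix.mul_assoc]
  have hex : ∃ k l : Fin n, (∑ g : G, (repMat ρ g)ᵀ *
      (Matrix.single k l 1 : Matrix (Fin n) (Fin n) ℂ) * repMat ρ g) ≠ 0 := by
    by_contra hcon
    push Not at hcon
    have h1 : ∑ g : G, ρ.character g * ρ.character g = 0 := by
      have : ∀ g : G, ρ.character g * ρ.character g = ∑ i, ∑ j, ((repMat ρ g)ᵀ *
          (Matrix.single i j 1 : Matrix (Fin n) (Fin n) ℂ) * repMat ρ g : Matrix (Fin n) (Fin n) ℂ) i j := by
        intro g
        rw [← repMat_trace, Matrix.trace, Finset.sum_mul_sum]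
        apply Finset.sum_congr rfl; intro i _
        apply Finset.sum_congr rfl; intro j _
        rw [mul_single_mul_apply, Matrix.transpose_apply, Matrix.diag_apply, Matrix.diag_apply]
      rw [Finset.sum_congr rfl (fun g _ => this g), Finset.sum_comm]
      apply Finset.sum_eq_zero; intro i _
      rw [Finset.sum_comm]
      apply Finset.sum_eq_zero; intro j _
      have := congrFun (congrFun (hcon i j) i) j
      rw [Matrix.sum_apply] at this
      exact this
    have h2 : Cfsg.classInner ρ.character ρ.character = 1 := by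
      have := Cfsg.Agent.Helper25.irr_classInner (⟨ρ.character, n, ρ, hρ, rfl⟩ : Cfsg.IrrCharacter G)
        ⟨ρ.character, n, ρ, hρ, rfl⟩
      simpa using this
    unfold Cfsg.classInner at h2
    have h3 : ∀ g : G, (starRingEnd ℂ) (ρ.character g) = ρ.character g := by
      intro g
      exact Complex.conj_eq_iff_im.mpr (hreal g)
    simp only [h3] at h2
    rw [h1, mul_zero] at h2
    exact zero_ne_one h2
  obtain ⟨k, l, hS0⟩ := hex
  obtain ⟨S, hSinv, hS0⟩ : ∃ S : Matrix (Fin n) (Fin n) ℂ,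
      (∀ h, (repMat ρ h)ᵀ * S * repMat ρ h = S) ∧ S ≠ 0 := ⟨_, hSX _, hS0⟩
  have hdet : S.det ≠ 0 := (repMat_form ρ hρ S hSinv).resolve_left hS0
  have hunit : IsUnit S.det := isUnit_iff_ne_zero.mpr hdet
  have hSM : ∀ g, S * repMat ρ g = (repMat ρ g⁻¹)ᵀ * S := fun g => repMat_form_comm ρ S g (hSinv g)
  have hSTinv : ∀ g, (repMat ρ g)ᵀ * Sᵀ * repMat ρ g = Sᵀ := by
    intro g
    conv_rhs => rw [← hSinv g]
    simp [Matrix.transpose_mul, Matrix.mul_assoc]
  have hSTM : ∀ g, Sᵀ * repMat ρ g = (repMat ρ g⁻¹)ᵀ * Sᵀ :=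
    fun g => repMat_form_comm ρ Sᵀ g (hSTinv g)
  have hcomm : ∀ g, (S⁻¹ * Sᵀ) * repMat ρ g = repMat ρ g * (S⁻¹ * Sᵀ) := by
    intro g
    have h1 : S⁻¹ * (repMat ρ g⁻¹)ᵀ = repMat ρ g * S⁻¹ := by
      calc S⁻¹ * (repMat ρ g⁻¹)ᵀ = S⁻¹ * ((repMat ρ g⁻¹)ᵀ * S) * S⁻¹ := by
            rw [Matrix.mul_assoc, Matrix.mul_assoc, Matrix.mul_nonsing_inv _ hunit, Matrix.mul_one]
        _ = S⁻¹ * (S * repMat ρ g) * S⁻¹ := by rw [hSM]
        _ = repMat ρ g * S⁻¹ := by
            rw [← Matrix.mul_assoc, Matrix.nonsing_inv_mul _ hunit, Matrix.one_mul]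
    rw [Matrix.mul_assoc, hSTM, ← Matrix.mul_assoc, h1, Matrix.mul_assoc]
  obtain ⟨ε, hε⟩ := repMat_schur ρ hρ _ hcomm
  have hST : Sᵀ = ε • S := by
    have : S * (S⁻¹ * Sᵀ) = S * (ε • (1 : Matrix (Fin n) (Fin n) ℂ)) := by rw [hε]
    rw [← Matrix.mul_assoc, Matrix.mul_nonsing_inv _ hunit, Matrix.one_mul, Matrix.mul_smul,
      Matrix.mul_one] at this
    exact this
  have hε2 : ε * ε = 1 := by
    have hSS : S = (ε * ε) • S := by
      conv_lhs => rw [← Matrix.transpose_transpose S, hST, Matrix.transpose_smul, hST, smul_smul]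
    by_contra hne
    apply hS0
    have h' : (1 - ε * ε) • S = 0 := by rw [sub_smul, one_smul, ← hSS, sub_self]
    rcases smul_eq_zero.mp h' with h | h
    · exact absurd (sub_eq_zero.mp h).symm hne
    · exact h
  have hε1 : ε = 1 := by
    have : (ε - 1) * (ε + 1) = 0 := by linear_combination hε2
    rcases mul_eq_zero.mp this with h | h
    · exact sub_eq_zero.mp h
    · exfalso
      have hεm : ε = -1 := eq_neg_of_add_eq_zero_left h
      have hd1 : S.det = (-1 : ℂ) ^ n * S.det := by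
        conv_lhs => rw [← Matrix.det_transpose, hST, hεm, Matrix.det_smul, Fintype.card_fin]
      have hodd' : (-1 : ℂ) ^ n = -1 := Odd.neg_one_pow hodd
      rw [hodd'] at hd1
      have : S.det = 0 := by linear_combination (1/2 : ℂ) * hd1
      exact hdet this
  have hSsymm : Sᵀ = S := by rw [hST, hε1, one_smul]
  have hMg : ∀ g, repMat ρ g = S⁻¹ * (repMat ρ g⁻¹)ᵀ * S := by
    intro g
    rw [Matrix.mul_assoc, ← hSM, ← Matrix.mul_assoc, Matrix.nonsing_inv_mul _ hunit, Matrix.one_mul]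
  have e : ∀ s : G, ρ.character (s * s) = (repMat ρ s * S⁻¹ * (repMat ρ s⁻¹)ᵀ * S).trace := by
    intro s
    rw [← repMat_trace, repMat_mul]
    congr 1
    calc repMat ρ s * repMat ρ s = repMat ρ s * (S⁻¹ * (repMat ρ s⁻¹)ᵀ * S) := by rw [← hMg s]
      _ = _ := by simp only [Matrix.mul_assoc]
  rw [Finset.sum_congr rfl (fun s _ => e s), ← Matrix.trace_sum, ← Finset.sum_mul,
    repMat_sum_transpose ρ hρ, Matrix.smul_mul, Matrix.trace_smul, Matrix.transpose_nonsing_inv,
    hSsymm, Matrix.nonsing_inv_mul _ hunit, Matrix.trace_one, Fintype.card_fin, smul_eq_mul]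
  field_simp

/-- Let χ be a real-valued irreducible character of a finite group G whose degree is an odd natural number. Then the average over s in G of χ (s * s) equals 1. -/
theorem result {G : Type*} [Group G] [Fintype G] (χ : G → ℂ) (hχ : Cfsg.IsIrrCharacter G χ) (hreal : ∀ g : G, (χ g).im = 0) (d : ℕ) (hd : χ 1 = d) (hodd : Odd d) : (Nat.card G : ℂ)⁻¹ * ∑ s : G, χ (s * s) = 1 := by
  obtain ⟨n, ρ, hρ, rfl⟩ := hχ
  have hn : (n : ℂ) = d := by rw [← hd]; exact (Cfsg.Agent.Helper25.rep_char_one ρ).symm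
  have hnd : n = d := by exact_mod_cast hn
  subst hnd
  rw [fs_aux ρ hρ hreal hodd, inv_mul_cancel₀ Cfsg.Agent.Helper25.card_ne_zero]

end Cfsg.Agent.S0895
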