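import Cfsg.Statements.S0899
import Mathlib
import Cfsg.Agent.Helper24.NormSyl

set_option autoImplicit false
open Cfsg

namespace Cfsg.Agent.S0899

open Cfsg.Agent Cfsg.Agent.Helper24

/-- Let G be a finite group with a faithful complex representation of degree n (on Fin n → ℂ) and p a prime. Suppose either that (n + 1) ^ 2 ≤ p, or that n + 1 < p and every subgroup of G whose order is not divisible by p ^ 2 has a normal Sylow p-subgroup. Then every Sylow p-subgroup of G is normal. -/
theorem result {G : Type*} [Group G] [Finite G] (n : ℕ) (ρ : Representation ℂ G (Fin n → ℂ)) (hρ : Function.Injective ρ) (p : ℕ) [Fact p.Prime] (h : (n + 1) ^ 2 ≤ p ∨ (n + 1 < p ∧ ∀ K : Subgroup G, ¬ p ^ 2 ∣ Nat.card K → ∀ Q : Sylow p K, (Q : Subgroup K).Normal)) (P : Sylow p G) : (P : Subgroup G).Normal := by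
  classical
  have hp' := (Fact.out : p.Prime)
  have hψ : IsCharacter G ρ.character := ⟨n, ρ, rfl⟩
  have hn : ρ.character 1 = n := Helper25.rep_char_one ρ
  have hfaith : ∀ x : G, ρ.character x = ρ.character 1 → x = 1 := by
    intro x hx
    have h1 : ρ x = 1 := Helper25.rep_apply_eq_one_of_char ρ x (by rw [hx, hn]; simp)
    exact hρ (by rw [h1, map_one])
  have hnp : n + 1 < p := by
    rcases h with h | h
    · have := hp'.two_le
      nlinarith
    · exact h.1
  have key : ∀ (N : ℕ) (K : Subgroup G), Nat.card K = N → ns_NS p K := by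
    intro N
    induction N using Nat.strong_induction_on with
    | _ N ih =>
      intro K hK
      obtain ⟨Q⟩ := (inferInstance : Nonempty (Sylow p K))
      by_cases hsmall : (n + 1 < p ∧ ∀ K : Subgroup G, ¬ p ^ 2 ∣ Nat.card K →
          ∀ Q : Sylow p K, (Q : Subgroup K).Normal) ∧ ¬ p ^ 2 ∣ Nat.card K
      · exact ns_of_normal_sylow p K Q (hsmall.1.2 K hsmall.2 Q)
      · have hbig : (n + 1) ^ 2 ≤ p ∨ p ^ 2 ∣ Nat.card K := by
          rcases h with h | h
          · exact Or.inl h
          · right
            by_contra hnd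
            exact hsmall ⟨h, hnd⟩
        have hψK := Helper2.isCharacter_restrict K hψ
        have hnK : (fun k : K => ρ.character k) 1 = n := by
          show ρ.character ((1 : K) : G) = n
          rw [Subgroup.coe_one]
          exact hn
        have hfK : ∀ x : K, (fun k : K => ρ.character k) x = (fun k : K => ρ.character k) 1 →
            x = 1 := by
          intro x hx
          have h1 : ρ.character (x : G) = ρ.character 1 := by simpa using hx
          exact Subtype.ext (hfaith _ h1)
        have hminK : ∀ L : Subgroup K, L ≠ ⊤ → ns_NS p L := by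
          intro L hL
          have hlt : Nat.card (L.map K.subtype) < N := by
            rw [Subgroup.card_map_of_injective K.subtype_injective, ← hK]
            exact lt_of_le_of_ne (Subgroup.card_le_card_group L)
              (fun heq => hL (Subgroup.eq_top_of_card_eq L heq))
          have hNS := ih _ hlt (L.map K.subtype) rfl
          intro x hx y hy hpx hpy
          have hx' : (x : G) ∈ L.map K.subtype := ⟨x, hx, rfl⟩
          have hy' : (y : G) ∈ L.map K.subtype := ⟨y, hy, rfl⟩
          have h1 := hNS _ hx' _ hy'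
            (by obtain ⟨k, hk⟩ := hpx; exact ⟨k, by rw [Subgroup.orderOf_coe, hk]⟩)
            (by obtain ⟨k, hk⟩ := hpy; exact ⟨k, by rw [Subgroup.orderOf_coe, hk]⟩)
          obtain ⟨k, hk⟩ := h1
          exact ⟨k, by rw [← Subgroup.orderOf_coe, Subgroup.coe_mul, hk]⟩
        have hnorm := ns_main p n hψK hnK hfK hnp hbig hminK Q
        have hNStop := ns_top_of_normal p Q hnorm
        intro x hx y hy hpx hpy
        have h1 := hNStop ⟨x, hx⟩ (Subgroup.mem_top _) ⟨y, hy⟩ (Subgroup.mem_top _)
          (by obtain ⟨k, hk⟩ := hpx; exact ⟨k, by rw [← Subgroup.orderOf_coe]; exact hk⟩)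
          (by obtain ⟨k, hk⟩ := hpy; exact ⟨k, by rw [← Subgroup.orderOf_coe]; exact hk⟩)
        obtain ⟨k, hk⟩ := h1
        exact ⟨k, by rw [← hk, ← Subgroup.orderOf_coe]; rfl⟩
  exact ns_normal_of_top p (key _ ⊤ rfl) P

end Cfsg.Agent.S0899
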