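import Cfsg.Statements.S0900
import Mathlib
import Cfsg.Agent.Helper7.Clifford

set_option autoImplicit false
open Cfsg

namespace Cfsg.Agent.S0900

theorem sum_normSq_irr {G : Type*} [Group G] [Fintype G] (χ : G → ℂ) (hχ : Cfsg.IsIrrCharacter G χ) :
    ∑ g : G, Complex.normSq (χ g) = (Nat.card G : ℝ) := by
  have h := Cfsg.Agent.Helper25.irr_classInner (⟨χ, hχ⟩ : Cfsg.IrrCharacter G) ⟨χ, hχ⟩
  rw [if_pos rfl] at h
  rw [Cfsg.Agent.Helper2.classInner_self_eq] at h
  have h' : (Nat.card G : ℝ)⁻¹ * ∑ g : G, Complex.normSq (χ g) = 1 := by exact_mod_cast h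
  have hG : (Nat.card G : ℝ) ≠ 0 := Nat.cast_ne_zero.mpr Nat.card_pos.ne'
  field_simp at h'
  linarith

open Classical in
theorem sum_split {G : Type*} [Group G] [Fintype G] (N : Subgroup G) [Fintype N] (F : G → ℝ) :
    ∑ g : G, F g = ∑ n : N, F n + ∑ g ∈ Finset.univ.filter (fun g : G => g ∉ N), F g := by
  rw [← Finset.sum_filter_add_sum_filter_not Finset.univ (fun g : G => g ∈ N) F]
  congr 1
  exact Finset.sum_subtype (F := inferInstance) (Finset.univ.filter (· ∈ N)) (p := (· ∈ N)) (by simp) F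

/-- Let N be a normal subgroup of the finite group G, χ an irreducible character of G and ϑ an irreducible character of N having nonzero inner product with the restriction of χ. Consider: (a) the restriction of χ to N is e • ϑ for a natural number e with e ^ 2 equal to the index of N; (b) χ vanishes outside N and ϑ is invariant under conjugation by G; (c) ϑ is invariant and every irreducible character of G having nonzero inner product with the function induced from ϑ equals χ. Then (a) ↔ (b) and (a) ↔ (c). -/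
theorem result {G : Type*} [Group G] [Fintype G] (N : Subgroup G) [hN : N.Normal] [Fintype N] (χ : G → ℂ) (hχ : Cfsg.IsIrrCharacter G χ) (ϑ : N → ℂ) (hϑ : Cfsg.IsIrrCharacter N ϑ) (hcon : Cfsg.classInner (fun n : N => χ n) ϑ ≠ 0) : ((∃ e : ℕ, (fun n : N => χ n) = (e : ℂ) • ϑ ∧ e ^ 2 = N.index) ↔ ((∀ g : G, g ∉ N → χ g = 0) ∧ ∀ (g : G) (n : N), ϑ ⟨g * n * g⁻¹, hN.conj_mem (n : G) n.2 g⟩ = ϑ n)) ∧ ((∃ e : ℕ, (fun n : N => χ n) = (e : ℂ) • ϑ ∧ e ^ 2 = N.index) ↔ (∀ (g : G) (n : N), ϑ ⟨g * n * g⁻¹, hN.conj_mem (n : G) n.2 g⟩ = ϑ n ∧ ∀ ψ : G → ℂ, Cfsg.IsIrrCharacter G ψ → Cfsg.classInner (Cfsg.indFun N ϑ) ψ ≠ 0 → ψ = χ)) := by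
  classical
  have hχc : Cfsg.IsCharacter G χ := Cfsg.Agent.Helper2.isCharacter_of_isIrrCharacter hχ
  have hχcl : Cfsg.IsClassFunction G χ := Cfsg.Agent.Helper2.isClassFunction_of_isCharacter hχc
  have hϑc : Cfsg.IsCharacter N ϑ := Cfsg.Agent.Helper2.isCharacter_of_isIrrCharacter hϑ
  have hϑϑ : Cfsg.classInner ϑ ϑ = 1 := by
    have := Cfsg.Agent.Helper25.irr_classInner (⟨ϑ, hϑ⟩ : Cfsg.IrrCharacter N) ⟨ϑ, hϑ⟩
    rwa [if_pos rfl] at this
  have hNr : (Nat.card N : ℝ) ≠ 0 := Nat.cast_ne_zero.mpr Nat.card_pos.ne'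
  have hidx : (N.index : ℝ) * (Nat.card N : ℝ) = (Nat.card G : ℝ) := by
    rw [← Nat.cast_mul, Subgroup.index_mul_card]
  have hS2 : ∀ e : ℕ, (fun n : N => χ n) = (e : ℂ) • ϑ →
      ∑ n : N, Complex.normSq (χ n) = (e : ℝ) ^ 2 * (Nat.card N : ℝ) := by
    intro e he
    have h1 : Cfsg.classInner (fun n : N => χ n) (fun n : N => χ n) = ((e : ℂ)) ^ 2 := by
      rw [he, Cfsg.Agent.Helper2.classInner_smul_left, Cfsg.Agent.Helper2.classInner_smul_right, hϑϑ,
        Complex.conj_natCast]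
      ring
    rw [Cfsg.Agent.Helper2.classInner_self_eq] at h1
    have h2 : (Nat.card N : ℝ)⁻¹ * ∑ n : N, Complex.normSq (χ n) = (e : ℝ) ^ 2 := by exact_mod_cast h1
    field_simp at h2
    linarith
  have hsumG := sum_normSq_irr χ hχ
  have hsplit := sum_split N (fun g => Complex.normSq (χ g))
  have hinv_of_a : ∀ e : ℕ, (fun n : N => χ n) = (e : ℂ) • ϑ → e ^ 2 = N.index →
      ∀ (g : G) (n : N), ϑ ⟨g * n * g⁻¹, hN.conj_mem (n : G) n.2 g⟩ = ϑ n := by
    intro e he he2 g n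
    have e0 : (e : ℂ) ≠ 0 := by
      intro h
      have h' : e = 0 := by exact_mod_cast h
      rw [h'] at he2
      exact Subgroup.index_ne_zero_of_finite (H := N) (by simpa using he2.symm)
    have h1 := congrFun he ⟨g * n * g⁻¹, hN.conj_mem (n : G) n.2 g⟩
    have h2 := congrFun he n
    simp only [Pi.smul_apply, smul_eq_mul] at h1 h2
    have h3 : χ (g * n * g⁻¹) = χ n := hχcl n g
    rw [h3, h2] at h1
    exact (mul_left_cancel₀ e0 h1).symm
  have hS1 : ∀ e : ℕ, (fun n : N => χ n) = (e : ℂ) • ϑ → Cfsg.classInner (Cfsg.indFun N ϑ) χ = e := by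
    intro e he
    rw [Cfsg.Agent.Helper2.frobenius_reciprocity N ϑ χ hχcl, he,
      Cfsg.Agent.Helper2.classInner_smul_right, hϑϑ, Complex.conj_natCast, mul_one]
  have hΘ : Cfsg.IsCharacter G (Cfsg.indFun N ϑ) := Cfsg.Agent.Helper2.isCharacter_indFun N hϑc
  have ha : ∀ ψ : Cfsg.IrrCharacter G, ∃ a : ℕ,
      Cfsg.classInner (Cfsg.indFun N ϑ) (ψ : G → ℂ) = (a : ℂ) :=
    fun ψ => Cfsg.Agent.Helper2.classInner_char_nat hΘ (Cfsg.Agent.Helper2.isCharacter_of_isIrrCharacter ψ.2)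
  choose a ha using ha
  have hϑdeg : ϑ 1 = (Cfsg.charDegree ϑ : ℂ) := Cfsg.Agent.Helper25.irr_one_eq_degree ⟨ϑ, hϑ⟩
  have hϑpos : 0 < Cfsg.charDegree ϑ := Cfsg.Agent.Helper25.irr_degree_pos ⟨ϑ, hϑ⟩
  -- (T): sum of multiplicities times degrees
  have hT : (∀ (g : G) (n : N), ϑ ⟨g * n * g⁻¹, hN.conj_mem (n : G) n.2 g⟩ = ϑ n) →
      ∑ φ : Cfsg.IrrCharacter G, a φ * Cfsg.charDegree (φ : G → ℂ) = N.index * Cfsg.charDegree ϑ := by
    intro hinv
    have h1 := congrFun (Cfsg.Agent.Helper2.classFun_eq_sum_classInner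
      (Cfsg.Agent.Helper2.isClassFunction_of_isCharacter hΘ)) 1
    have h2 := Cfsg.Agent.Helper7.indFun_apply_invariant N ϑ hinv 1
    rw [Subgroup.coe_one] at h2
    rw [h2, Finset.sum_apply] at h1
    have h3 : ((N.index * Cfsg.charDegree ϑ : ℕ) : ℂ)
        = ((∑ φ : Cfsg.IrrCharacter G, a φ * Cfsg.charDegree (φ : G → ℂ) : ℕ) : ℂ) := by
      rw [Nat.cast_mul, ← hϑdeg, h1, Nat.cast_sum]
      apply Finset.sum_congr rfl
      intro φ _
      rw [Pi.smul_apply, smul_eq_mul, ha, Cfsg.Agent.Helper25.irr_one_eq_degree φ, Nat.cast_mul]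
    exact (Nat.cast_injective h3).symm
  -- (U), (V)
  have hU : ∀ e : ℕ, (fun n : N => χ n) = (e : ℂ) • ϑ → a ⟨χ, hχ⟩ = e := by
    intro e he
    have h1 := ha ⟨χ, hχ⟩
    rw [hS1 e he] at h1
    exact (Nat.cast_injective h1).symm
  have hV : ∀ e : ℕ, (fun n : N => χ n) = (e : ℂ) • ϑ → Cfsg.charDegree χ = e * Cfsg.charDegree ϑ := by
    intro e he
    have h1 := congrFun he 1
    simp only [Pi.smul_apply, smul_eq_mul, Subgroup.coe_one] at h1
    have h2 : χ 1 = (Cfsg.charDegree χ : ℂ) := Cfsg.Agent.Helper25.irr_one_eq_degree ⟨χ, hχ⟩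
    rw [h2, hϑdeg, ← Nat.cast_mul] at h1
    exact Nat.cast_injective h1
  constructor
  · constructor
    · rintro ⟨e, he, he2⟩
      refine ⟨?_, hinv_of_a e he he2⟩
      intro g hg
      have h1 := hS2 e he
      have he2' : (e : ℝ) ^ 2 = (N.index : ℝ) := by exact_mod_cast he2
      rw [he2', hidx] at h1
      rw [h1, hsumG] at hsplit
      have h0 : ∑ g ∈ Finset.univ.filter (fun g : G => g ∉ N), Complex.normSq (χ g) = 0 := by linarith
      have h2 := (Finset.sum_eq_zero_iff_of_nonneg (fun g _ => Complex.normSq_nonneg _)).mp h0 g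
        (by simp [hg])
      exact Complex.normSq_eq_zero.mp h2
    · rintro ⟨hvan, hinv⟩
      obtain ⟨e, he0, he, hee⟩ := Cfsg.Agent.Helper7.clifford_invariant N ϑ hϑ hinv χ hχ hcon
      refine ⟨e, he, ?_⟩
      have h1 := hS2 e he
      have h0 : ∑ g ∈ Finset.univ.filter (fun g : G => g ∉ N), Complex.normSq (χ g) = 0 := by
        apply Finset.sum_eq_zero
        intro g hg
        rw [hvan g (by simpa using hg)]
        simp
      rw [hsumG, h1, h0, add_zero, ← hidx] at hsplit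
      have : (N.index : ℝ) = (e : ℝ) ^ 2 := mul_right_cancel₀ hNr hsplit
      exact_mod_cast this.symm
  · constructor
    · rintro ⟨e, he, he2⟩ g n
      have hinv := hinv_of_a e he he2
      refine ⟨hinv g n, ?_⟩
      intro ψ hψ hψne
      by_contra hne
      have hne' : (⟨ψ, hψ⟩ : Cfsg.IrrCharacter G) ≠ ⟨χ, hχ⟩ := fun h => hne (congrArg Subtype.val h)
      have hT' := hT hinv
      rw [← Finset.add_sum_erase Finset.univ _ (Finset.mem_univ (⟨χ, hχ⟩ : Cfsg.IrrCharacter G)),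
        hU e he, hV e he, ← he2] at hT'
      have h0 : ∑ φ ∈ Finset.univ.erase (⟨χ, hχ⟩ : Cfsg.IrrCharacter G),
          a φ * Cfsg.charDegree (φ : G → ℂ) = 0 := by
        have h5 : e * (e * Cfsg.charDegree ϑ) + ∑ φ ∈ Finset.univ.erase (⟨χ, hχ⟩ : Cfsg.IrrCharacter G),
            a φ * Cfsg.charDegree (φ : G → ℂ) = e * (e * Cfsg.charDegree ϑ) + 0 := by
          rw [hT']; ring
        exact Nat.add_left_cancel h5
      have h1 := (Finset.sum_eq_zero_iff.mp h0) ⟨ψ, hψ⟩ (Finset.mem_erase.mpr ⟨hne', Finset.mem_univ _⟩)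
      have hpos : 0 < Cfsg.charDegree ψ := Cfsg.Agent.Helper25.irr_degree_pos ⟨ψ, hψ⟩
      have h2 : a ⟨ψ, hψ⟩ = 0 := by
        rcases Nat.mul_eq_zero.mp h1 with h | h
        · exact h
        · exact absurd h hpos.ne'
      apply hψne
      have := ha ⟨ψ, hψ⟩
      rw [h2, Nat.cast_zero] at this
      exact this
    · intro hc
      have hinv : ∀ (g : G) (n : N), ϑ ⟨g * n * g⁻¹, hN.conj_mem (n : G) n.2 g⟩ = ϑ n :=
        fun g n => (hc g n).1
      have huniq := (hc 1 1).2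
      obtain ⟨e, he0, he, hee⟩ := Cfsg.Agent.Helper7.clifford_invariant N ϑ hϑ hinv χ hχ hcon
      refine ⟨e, he, ?_⟩
      have hT' := hT hinv
      rw [Finset.sum_eq_single (⟨χ, hχ⟩ : Cfsg.IrrCharacter G), hU e he, hV e he] at hT'
      · have : e * (e * Cfsg.charDegree ϑ) = e ^ 2 * Cfsg.charDegree ϑ := by ring
        rw [this] at hT'
        exact Nat.eq_of_mul_eq_mul_right hϑpos hT'
      · intro φ _ hφ
        have h2 : a φ = 0 := by
          by_contra h
          apply hφ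
          apply Subtype.ext
          apply huniq φ.1 φ.2
          rw [ha]
          exact_mod_cast h
        rw [h2, zero_mul]
      · intro h
        exact absurd (Finset.mem_univ _) h

end Cfsg.Agent.S0900
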