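import Cfsg.Statements.S0901
import Mathlib
import Cfsg.Agent.Helper25.Local

set_option autoImplicit false
open Cfsg

namespace Cfsg.Agent.S0901

open Cfsg Cfsg.Agent.Helper25

theorem part1 (p : ℕ) [Fact p.Prime] (M : Ideal Cfsg.AlgInt) (hM : Cfsg.IsPModular p M)
    (ε₁ ε₂ : Cfsg.AlgInt) (h1 : ∃ m : ℕ, ¬ p ∣ m ∧ (ε₁ : ℂ) ^ m = 1)
    (h2 : ∃ m : ℕ, ¬ p ∣ m ∧ (ε₂ : ℂ) ^ m = 1) (h : ε₁ - ε₂ ∈ M) : ε₁ = ε₂ := by
  obtain ⟨m₁, hm₁, e₁⟩ := h1
  obtain ⟨m₂, hm₂, e₂⟩ := h2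
  have hp : p.Prime := Fact.out
  obtain ⟨m, hmdef⟩ : ∃ m : ℕ, m = m₁ * m₂ := ⟨_, rfl⟩
  have hm : ¬ p ∣ m := fun hd => by
    rw [hmdef] at hd
    exact (hp.dvd_mul.mp hd).elim hm₁ hm₂
  have hmpos : 0 < m := Nat.pos_of_ne_zero (fun h0 => hm (h0 ▸ dvd_zero p))
  have e₁' : ε₁ ^ m = 1 := Subtype.ext (by
    push_cast
    rw [hmdef, pow_mul, e₁, one_pow])
  have e₂' : ε₂ ^ m = 1 := Subtype.ext (by
    push_cast
    rw [hmdef, mul_comm, pow_mul, e₂, one_pow])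
  by_contra hne
  obtain ⟨η, hη⟩ : ∃ η : Cfsg.AlgInt, η = ε₁ * ε₂ ^ (m - 1) := ⟨_, rfl⟩
  have hε₂ : ε₂ * ε₂ ^ (m - 1) = 1 := by
    rw [← pow_succ', Nat.sub_add_cancel hmpos, e₂']
  have hη1 : η - 1 ∈ M := by
    have : η - 1 = (ε₁ - ε₂) * ε₂ ^ (m - 1) := by rw [sub_mul, hε₂, hη]
    rw [this]
    exact M.mul_mem_right _ h
  have hηm : η ^ m = 1 := by
    rw [hη, mul_pow, e₁', one_mul, ← pow_mul, mul_comm, pow_mul, e₂', one_pow]
  have hηne : η ≠ 1 := by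
    intro h1
    apply hne
    calc ε₁ = ε₁ * (ε₂ * ε₂ ^ (m - 1)) := by rw [hε₂, mul_one]
      _ = η * ε₂ := by rw [hη]; ring
      _ = ε₂ := by rw [h1, one_mul]
  have hgeom : (η - 1) * ∑ i ∈ Finset.range m, η ^ i = 0 := by
    rw [mul_comm, geom_sum_mul, hηm, sub_self]
  have hsum : ∑ i ∈ Finset.range m, η ^ i = 0 := by
    rcases mul_eq_zero.mp hgeom with h0 | h0
    · exact absurd (sub_eq_zero.mp h0) hηne
    · exact h0
  have hpow : ∀ i : ℕ, η ^ i - 1 ∈ M := by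
    intro i
    induction i with
    | zero => simp
    | succ i ih =>
      have : η ^ (i + 1) - 1 = η ^ i * (η - 1) + (η ^ i - 1) := by ring
      rw [this]
      exact M.add_mem (M.mul_mem_left _ hη1) ih
  have hmM : (m : Cfsg.AlgInt) ∈ M := by
    have : (m : Cfsg.AlgInt) = - ∑ i ∈ Finset.range m, (η ^ i - 1) := by
      rw [Finset.sum_sub_distrib, hsum]
      simp
    rw [this]
    exact M.neg_mem (M.sum_mem (fun i _ => hpow i))
  have h3 : MemLocalIdeal M ((m : ℕ) : ℂ) := by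
    have := (li_algInt_iff hM (m : Cfsg.AlgInt)).mpr hmM
    simpa using this
  exact hm ((li_natCast_iff hM m).mp h3)

/-- Let M be a maximal ideal of the ring of algebraic integers containing the prime p, and let U be the set of complex roots of unity of order prime to p. Then reduction modulo M is injective on U, and every algebraic integer not in M is congruent modulo M to an element of U (so U maps bijectively onto the nonzero residues). -/
theorem result (p : ℕ) [Fact p.Prime] (M : Ideal Cfsg.AlgInt) (hM : Cfsg.IsPModular p M) : (∀ ε₁ ε₂ : Cfsg.AlgInt, (∃ m : ℕ, ¬ p ∣ m ∧ (ε₁ : ℂ) ^ m = 1) → (∃ m : ℕ, ¬ p ∣ m ∧ (ε₂ : ℂ) ^ m = 1) → ε₁ - ε₂ ∈ M → ε₁ = ε₂) ∧ (∀ a : Cfsg.AlgInt, a ∉ M → ∃ ε : Cfsg.AlgInt, (∃ m : ℕ, ¬ p ∣ m ∧ (ε : ℂ) ^ m = 1) ∧ a - ε ∈ M) := by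
  classical
  have hp : p.Prime := Fact.out
  refine ⟨fun ε₁ ε₂ h1 h2 h => part1 p M hM ε₁ ε₂ h1 h2 h, ?_⟩
  haveI hmax : M.IsMaximal := hM.2.1
  letI : Field (Cfsg.AlgInt ⧸ M) := Ideal.Quotient.field M
  have hp0 : ((p : ℕ) : Cfsg.AlgInt ⧸ M) = 0 := by
    have : (Ideal.Quotient.mk M (p : Cfsg.AlgInt)) = 0 := Ideal.Quotient.eq_zero_iff_mem.mpr hM.2.2
    simpa using this
  haveI : CharP (Cfsg.AlgInt ⧸ M) p := (CharP.charP_iff_prime_eq_zero hp).mpr hp0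
  letI : Algebra (ZMod p) (Cfsg.AlgInt ⧸ M) := ZMod.algebra _ p
  intro a ha
  obtain ⟨b, hb⟩ : ∃ b : Cfsg.AlgInt ⧸ M, b = Ideal.Quotient.mk M a := ⟨_, rfl⟩
  have hb0 : b ≠ 0 := fun h => ha (Ideal.Quotient.eq_zero_iff_mem.mp (hb ▸ h))
  have hintA : IsIntegral ℤ a := IsIntegralClosure.isIntegral ℤ ℂ a
  have hintZ : IsIntegral ℤ b := by
    rw [hb]
    exact hintA.map (Ideal.Quotient.mkₐ ℤ M)
  have hint : IsIntegral (ZMod p) b := hintZ.tower_top
  haveI : FiniteDimensional (ZMod p) (IntermediateField.adjoin (ZMod p) {b}) :=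
    IntermediateField.adjoin.finiteDimensional hint
  haveI : Finite (IntermediateField.adjoin (ZMod p) {b}) := Module.finite_of_finite (ZMod p)
  haveI : Fintype (IntermediateField.adjoin (ZMod p) {b}) := Fintype.ofFinite _
  obtain ⟨x, hx⟩ : ∃ x : IntermediateField.adjoin (ZMod p) {b}, (x : Cfsg.AlgInt ⧸ M) = b :=
    ⟨⟨b, IntermediateField.mem_adjoin_simple_self _ _⟩, rfl⟩
  have hx0 : x ≠ 0 := by
    intro h
    apply hb0
    rw [← hx, h]
    rfl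
  have hpow := FiniteField.pow_card_sub_one_eq_one x hx0
  have hq : 1 < Fintype.card (IntermediateField.adjoin (ZMod p) {b}) := Fintype.one_lt_card
  obtain ⟨j, k, hk, hjk⟩ := Nat.exists_eq_pow_mul_and_not_dvd
    (show Fintype.card (IntermediateField.adjoin (ZMod p) {b}) - 1 ≠ 0 by omega) p hp.ne_one
  have hbpow : b ^ (p ^ j * k) = 1 := by
    have h := congrArg (fun y : IntermediateField.adjoin (ZMod p) {b} => (y : Cfsg.AlgInt ⧸ M)) hpow
    simp only [IntermediateField.coe_pow, IntermediateField.coe_one, hx] at h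
    rw [← hjk]
    exact h
  have hbk : b ^ k = 1 := by
    have h1 : (b ^ k - 1) ^ p ^ j = 0 := by
      rw [sub_pow_char_pow, ← pow_mul, mul_comm, hbpow, one_pow, sub_self]
    exact sub_eq_zero.mp (pow_eq_zero_iff (pow_ne_zero j hp.ne_zero) |>.mp h1)
  have hk0 : k ≠ 0 := fun h => hk (h ▸ dvd_zero p)
  have hkpos : 0 < k := Nat.pos_of_ne_zero hk0
  -- primitive k-th root of unity
  have hζ := Complex.isPrimitiveRoot_exp k hk0
  obtain ⟨ζ, hζdef⟩ : ∃ ζ : ℂ, ζ = Complex.exp (2 * Real.pi * Complex.I / k) := ⟨_, rfl⟩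
  rw [← hζdef] at hζ
  have hζint : IsIntegral ℤ ζ := IsIntegral.of_pow hkpos (by rw [hζ.pow_eq_one]; exact isIntegral_one)
  obtain ⟨z, hz⟩ : ∃ z : Cfsg.AlgInt, (z : ℂ) = ζ := ⟨⟨ζ, hζint⟩, rfl⟩
  have hzk : z ^ k = 1 := Subtype.ext (by push_cast; rw [hz, hζ.pow_eq_one])
  have hzpow : ∀ i : ℕ, ∃ m : ℕ, ¬ p ∣ m ∧ ((z ^ i : Cfsg.AlgInt) : ℂ) ^ m = 1 := by
    intro i
    refine ⟨k, hk, ?_⟩
    push_cast
    rw [← pow_mul, mul_comm, pow_mul, hz, hζ.pow_eq_one, one_pow]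
  have hinj : Set.InjOn (fun i : ℕ => Ideal.Quotient.mk M (z ^ i)) (Finset.range k : Set ℕ) := by
    intro i hi i' hi' heq
    simp only [Finset.coe_range, Set.mem_Iio] at hi hi'
    have h1 : z ^ i - z ^ i' ∈ M := Ideal.Quotient.eq.mp heq
    have h2 := part1 p M hM (z ^ i) (z ^ i') (hzpow i) (hzpow i') h1
    have h3 : ζ ^ i = ζ ^ i' := by
      have := congrArg (Subtype.val) h2
      push_cast at this
      rwa [hz] at this
    exact hζ.pow_inj hi hi' h3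
  have hsub : (Finset.range k).image (fun i : ℕ => Ideal.Quotient.mk M (z ^ i))
      ⊆ Polynomial.nthRootsFinset k (1 : Cfsg.AlgInt ⧸ M) := by
    intro y hy
    obtain ⟨i, -, rfl⟩ := Finset.mem_image.mp hy
    rw [Polynomial.mem_nthRootsFinset hkpos]
    rw [← map_pow, ← pow_mul, mul_comm, pow_mul, hzk, one_pow, map_one]
  have hcard : (Polynomial.nthRootsFinset k (1 : Cfsg.AlgInt ⧸ M)).card
      ≤ ((Finset.range k).image (fun i : ℕ => Ideal.Quotient.mk M (z ^ i))).card := by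
    rw [Finset.card_image_of_injOn hinj, Finset.card_range]
    exact le_trans (Multiset.toFinset_card_le _) (Polynomial.card_nthRoots k 1)
  have heq := Finset.eq_of_subset_of_card_le hsub hcard
  have hbmem : b ∈ Polynomial.nthRootsFinset k (1 : Cfsg.AlgInt ⧸ M) := by
    rw [Polynomial.mem_nthRootsFinset hkpos]
    exact hbk
  rw [← heq] at hbmem
  obtain ⟨i, -, hi⟩ := Finset.mem_image.mp hbmem
  refine ⟨z ^ i, hzpow i, ?_⟩
  rw [hb] at hi
  exact Ideal.Quotient.eq.mp hi.symm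

end Cfsg.Agent.S0901
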