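import Cfsg.Statements.S0902
import Cfsg.Agent.Helper25.BlockRank
import Cfsg.Agent.Helper2.CharExtra

set_option autoImplicit false
open Cfsg

namespace Cfsg.Agent.S0902


open Cfsg.Agent.Helper25 in
/-- Sylow integrality: a combination of irreducible characters with algebraic-integer coefficients
that vanishes on all `p`-singular elements has value at `1` divisible by the `p`-part of `|G|`. -/
theorem s0902_sylow {G : Type*} [Group G] [Fintype G] (p : ℕ) [Fact p.Prime]
    (S : Finset (IrrCharacter G)) (c : IrrCharacter G → ℂ) (hc : ∀ χ, IsIntegral ℤ (c χ))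
    (hv : ∀ x : G, p ∣ orderOf x → ∑ χ ∈ S, c χ * (χ : G → ℂ) x = 0) :
    ∃ z : ℂ, IsIntegral ℤ z ∧
      ∑ χ ∈ S, c χ * (χ : G → ℂ) 1 = ((p ^ (Nat.card G).factorization p : ℕ) : ℂ) * z := by
  classical
  have hp : p.Prime := Fact.out
  obtain ⟨P⟩ : Nonempty (Sylow p G) := inferInstance
  have hPcard : Nat.card (P : Subgroup G) = p ^ (Nat.card G).factorization p :=
    Sylow.card_eq_multiplicity P
  have hP0 : (Nat.card (P : Subgroup G) : ℂ) ≠ 0 := by
    rw [hPcard]
    exact_mod_cast (pow_pos hp.pos _).ne'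
  have hm : ∀ χ : IrrCharacter G, ∃ m : ℕ,
      ∑ x : (P : Subgroup G), (χ : G → ℂ) x = (Nat.card (P : Subgroup G) : ℂ) * m := by
    intro χ
    obtain ⟨m, hm⟩ := Cfsg.Agent.Helper2.classInner_char_nat
      (Cfsg.Agent.Helper2.isCharacter_restrict (P : Subgroup G) (irr_isCharacter χ))
      (Cfsg.Agent.Helper2.isCharacter_one (G := (P : Subgroup G)))
    refine ⟨m, ?_⟩
    unfold classInner at hm
    simp only [map_one, mul_one] at hm
    rw [← hm, ← mul_assoc, mul_inv_cancel₀ hP0, one_mul]
  choose m hm using hm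
  refine ⟨∑ χ ∈ S, c χ * (m χ : ℂ), IsIntegral.sum _ (fun χ _ => (hc χ).mul (isIntegral_natCast (R := ℤ) (m χ))), ?_⟩
  have h1 : ∑ x : (P : Subgroup G), ∑ χ ∈ S, c χ * (χ : G → ℂ) x
      = ∑ χ ∈ S, c χ * (χ : G → ℂ) 1 := by
    rw [Finset.sum_eq_single (1 : (P : Subgroup G))]
    · rfl
    · intro x _ hx
      apply hv
      obtain ⟨k, hk⟩ := (IsPGroup.iff_orderOf.mp P.isPGroup') x
      have hk0 : k ≠ 0 := by
        rintro rfl
        rw [pow_zero, orderOf_eq_one_iff] at hk
        exact hx hk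
      rw [Subgroup.orderOf_coe, hk]
      exact dvd_pow_self p hk0
    · intro h
      exact absurd (Finset.mem_univ _) h
  rw [← h1, Finset.sum_comm, ← hPcard, Finset.mul_sum]
  apply Finset.sum_congr rfl
  intro χ _
  rw [← Finset.mul_sum, hm χ]
  ring

/-- If two irreducible characters of a finite group lie in the same block relative to one maximal ideal M of the algebraic integers containing the prime p, then at every element the difference of their central characters is an algebraic integer lying in every maximal ideal containing p; in particular they lie in the same block relative to any such ideal. -/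
theorem result {G : Type*} [Group G] [Finite G] (p : ℕ) [Fact p.Prime] (M : Ideal Cfsg.AlgInt) (hM : Cfsg.IsPModular p M) (χ ψ : Cfsg.IrrCharacter G) (h : Cfsg.SameBlock M (χ : G → ℂ) (ψ : G → ℂ)) (M' : Ideal Cfsg.AlgInt) (hM' : Cfsg.IsPModular p M') (g : G) : ∃ r : Cfsg.AlgInt, r ∈ M' ∧ (r : ℂ) = Cfsg.centralChar (χ : G → ℂ) g - Cfsg.centralChar (ψ : G → ℂ) g := by
  classical
  have := Fintype.ofFinite G
  have hp : p.Prime := Fact.out
  set A : Set (IrrCharacter G) := blockOf M' (χ : G → ℂ) with hA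
  have hAblk : IsPBlock M' A := Cfsg.Agent.Helper25.isPBlock_blockOf χ
  have hχA : χ ∈ A := Cfsg.Agent.Helper25.self_mem_blockOf hM' χ
  have hlr : ∀ y, MemLocalRing M (blockCoeff A y) := by
    intro y
    by_cases hy : p ∣ orderOf y
    · rw [Cfsg.Agent.Helper25.blockCoeff_eq_zero_of_singular hM' hAblk y hy]
      exact Cfsg.Agent.Helper25.lr_zero hM
    · rw [Cfsg.Agent.Helper25.blockCoeff_eq_sum]
      obtain ⟨z, hz, hzeq⟩ := s0902_sylow p (Set.toFinite A).toFinset
        (fun χ => (χ : G → ℂ) y⁻¹) (fun χ => Cfsg.Agent.Helper25.irr_isIntegral χ _) (by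
          intro x hx
          have h1 := Cfsg.Agent.Helper25.weak_block_orth hM' hAblk y⁻¹ x⁻¹
            (by rwa [orderOf_inv]) (by rwa [orderOf_inv])
          rw [inv_inv] at h1
          exact h1)
      have h2 : ∑ χ ∈ (Set.toFinite A).toFinset, (χ : G → ℂ) 1 * (χ : G → ℂ) y⁻¹
          = ((p ^ (Nat.card G).factorization p : ℕ) : ℂ) * z := by
        rw [← hzeq]
        apply Finset.sum_congr rfl
        intro χ _
        ring
      rw [h2]
      have hG0 : Nat.card G ≠ 0 := Nat.card_pos.ne'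
      obtain ⟨m, hm⟩ : p ^ (Nat.card G).factorization p ∣ Nat.card G := Nat.ordProj_dvd _ _
      have hpm : ¬ p ∣ m := by
        have h3 := Nat.not_dvd_ordCompl hp hG0
        have h4 : Nat.card G / p ^ (Nat.card G).factorization p = m :=
          Nat.div_eq_of_eq_mul_right (pow_pos hp.pos _) hm
        rwa [h4] at h3
      have hm0 : (m : ℂ) ≠ 0 := by
        rintro h0
        have : m = 0 := by exact_mod_cast h0
        rw [this, mul_zero] at hm
        exact hG0 hm
      have hpp0 : ((p ^ (Nat.card G).factorization p : ℕ) : ℂ) ≠ 0 := by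
        exact_mod_cast (pow_pos hp.pos _).ne'
      have hmC : (Nat.card G : ℂ) = ((p ^ (Nat.card G).factorization p : ℕ) : ℂ) * (m : ℂ) := by
        exact_mod_cast hm
      have h5 : (Nat.card G : ℂ)⁻¹ * (((p ^ (Nat.card G).factorization p : ℕ) : ℂ) * z)
          = (m : ℂ)⁻¹ * z := by
        generalize ((p ^ (Nat.card G).factorization p : ℕ) : ℂ) = q at hmC hpp0 ⊢
        rw [hmC]
        field_simp
      rw [h5]
      exact Cfsg.Agent.Helper25.lr_mul hM (Cfsg.Agent.Helper25.lr_natCast_inv hM hpm)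
        (Cfsg.Agent.Helper25.lr_of_isIntegral hM hz)
  have hom := Cfsg.Agent.Helper25.omega_congr hM (blockCoeff A)
    (Cfsg.Agent.Helper25.blockCoeff_conj A) hlr h
  rw [Cfsg.Agent.Helper25.omega_blockCoeff, Cfsg.Agent.Helper25.omega_blockCoeff, if_pos hχA] at hom
  have hψA : ψ ∈ A := by
    by_contra hn
    rw [if_neg hn, sub_zero] at hom
    exact Cfsg.Agent.Helper25.not_li_one hM hom
  have hsb : SameBlock M' (χ : G → ℂ) (ψ : G → ℂ) := hψA
  have hint : IsIntegral ℤ (centralChar (χ : G → ℂ) g - centralChar (ψ : G → ℂ) g) :=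
    (Cfsg.Agent.Helper25.centralChar_isIntegral χ g).sub
      (Cfsg.Agent.Helper25.centralChar_isIntegral ψ g)
  refine ⟨⟨_, hint⟩, ?_, rfl⟩
  exact (Cfsg.Agent.Helper25.li_algInt_iff hM' ⟨_, hint⟩).mp (hsb g)

end Cfsg.Agent.S0902
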