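import Cfsg.Statements.S0903
import Mathlib

set_option autoImplicit false
open Cfsg

namespace Cfsg.Agent.S0903

/-- Let P be a p-subgroup of the finite group G, let c centralize P and let g, h ∈ G. The number of pairs (x, y) with x conjugate to g, y conjugate to h and x * y = c is congruent modulo p to the number of such pairs in which x and y both centralize P. (This is why the Brauer map on class sums is multiplicative.) -/
theorem result {G : Type*} [Group G] [Finite G] (p : ℕ) [Fact p.Prime] (P : Subgroup G) (hP : IsPGroup p P) (c : G) (hc : c ∈ Subgroup.centralizer (P : Set G)) (g h : G) : Nat.card {xy : G × G // IsConj g xy.1 ∧ IsConj h xy.2 ∧ xy.1 * xy.2 = c} ≡ Nat.card {xy : G × G // IsConj g xy.1 ∧ IsConj h xy.2 ∧ xy.1 * xy.2 = c ∧ xy.1 ∈ Subgroup.centralizer (P : Set G) ∧ xy.2 ∈ Subgroup.centralizer (P : Set G)} [MOD p] := by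
  classical
  have hcq : ∀ q ∈ P, q * c * q⁻¹ = c := by
    intro q hq
    have := (Subgroup.mem_centralizer_iff.mp hc) q hq
    rw [this]; group
  let X := {xy : G × G // IsConj g xy.1 ∧ IsConj h xy.2 ∧ xy.1 * xy.2 = c}
  let act : P → X → X := fun q xy =>
    ⟨((q : G) * xy.1.1 * (q : G)⁻¹, (q : G) * xy.1.2 * (q : G)⁻¹), by
      obtain ⟨⟨x, y⟩, h1, h2, h3⟩ := xy
      refine ⟨?_, ?_, ?_⟩
      · exact h1.trans (isConj_iff.mpr ⟨q, rfl⟩)
      · exact h2.trans (isConj_iff.mpr ⟨q, rfl⟩)
      · simp only at h3 ⊢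
        rw [show (q : G) * x * (q : G)⁻¹ * ((q : G) * y * (q : G)⁻¹) = (q : G) * (x * y) * (q : G)⁻¹ by group, h3]
        exact hcq q q.2⟩
  let _inst : MulAction P X :=
    { smul := act
      one_smul := by
        rintro ⟨⟨x, y⟩, hxy⟩
        apply Subtype.ext
        show (((1 : P) : G) * x * ((1 : P) : G)⁻¹, ((1 : P) : G) * y * ((1 : P) : G)⁻¹) = (x, y)
        simp
      mul_smul := by
        rintro a b ⟨⟨x, y⟩, hxy⟩
        apply Subtype.ext
        show (((a * b : P) : G) * x * ((a * b : P) : G)⁻¹, ((a * b : P) : G) * y * ((a * b : P) : G)⁻¹)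
          = ((a : G) * ((b : G) * x * (b : G)⁻¹) * (a : G)⁻¹, (a : G) * ((b : G) * y * (b : G)⁻¹) * (a : G)⁻¹)
        simp [mul_assoc] }
  have hsmul : ∀ (q : P) (xy : X), q • xy = act q xy := fun _ _ => rfl
  have key := hP.card_modEq_card_fixedPoints X
  refine key.trans ?_
  have e : MulAction.fixedPoints P X ≃ {xy : G × G // IsConj g xy.1 ∧ IsConj h xy.2 ∧ xy.1 * xy.2 = c ∧ xy.1 ∈ Subgroup.centralizer (P : Set G) ∧ xy.2 ∈ Subgroup.centralizer (P : Set G)} :=
    { toFun := fun z => ⟨z.1.1, z.1.2.1, z.1.2.2.1, z.1.2.2.2, by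
        rw [Subgroup.mem_centralizer_iff]
        intro q hq
        have h1 := z.2 ⟨q, hq⟩
        rw [hsmul] at h1
        have h2 := congrArg (fun w : X => w.1.1) h1
        simp only [act] at h2
        calc q * (z.1.1.1) = (q * z.1.1.1 * q⁻¹) * q := by group
          _ = z.1.1.1 * q := by rw [h2], by
        rw [Subgroup.mem_centralizer_iff]
        intro q hq
        have h1 := z.2 ⟨q, hq⟩
        rw [hsmul] at h1
        have h2 := congrArg (fun w : X => w.1.2) h1
        simp only [act] at h2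
        calc q * (z.1.1.2) = (q * z.1.1.2 * q⁻¹) * q := by group
          _ = z.1.1.2 * q := by rw [h2]⟩
      invFun := fun z => ⟨⟨z.1, z.2.1, z.2.2.1, z.2.2.2.1⟩, by
        intro q
        rw [hsmul]
        apply Subtype.ext
        have h1 := (Subgroup.mem_centralizer_iff.mp z.2.2.2.2.1) q q.2
        have h2 := (Subgroup.mem_centralizer_iff.mp z.2.2.2.2.2) q q.2
        simp only [act]
        rw [h1, h2]
        simp⟩
      left_inv := fun z => rfl
      right_inv := fun z => rfl }
  rw [Nat.card_congr e]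

end Cfsg.Agent.S0903
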