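import Cfsg.Statements.S0909
import Mathlib
import Cfsg.Agent.Helper25.BlockIdem

set_option autoImplicit false
open Cfsg

namespace Cfsg.Agent.S0909

open Cfsg Cfsg.Agent.Helper25 in
/-- For a class function with local-integer values, the central-character values at two
characters of the same block differ by an element of the local ideal. -/
theorem omega_sub_li {G : Type*} [Group G] [Fintype G] {p : ℕ} {M : Ideal Cfsg.AlgInt}
    (hM : Cfsg.IsPModular p M) (f : G → ℂ) (hf : ∀ g x : G, f (x * g * x⁻¹) = f g)
    (hlr : ∀ g, Cfsg.MemLocalRing M (f g)) (χ ψ : Cfsg.IrrCharacter G)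
    (h : Cfsg.SameBlock M (χ : G → ℂ) (ψ : G → ℂ)) :
    Cfsg.MemLocalIdeal M (omega f χ - omega f ψ) := by
  have h1 : omega f χ - omega f ψ
      = ∑ g : G, f g * ((χ : G → ℂ) g / (χ : G → ℂ) 1 - (ψ : G → ℂ) g / (ψ : G → ℂ) 1) := by
    unfold omega
    rw [Finset.sum_div, Finset.sum_div, ← Finset.sum_sub_distrib]
    apply Finset.sum_congr rfl
    intro g _
    ring
  rw [h1]
  apply li_sum_classFun hM
  · intro g x
    rw [hf, irr_conj, irr_conj]
  · intro g
    have e : ((Subgroup.centralizer ({g} : Set G)).index : ℂ) *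
        (f g * ((χ : G → ℂ) g / (χ : G → ℂ) 1 - (ψ : G → ℂ) g / (ψ : G → ℂ) 1))
        = f g * (centralChar (χ : G → ℂ) g - centralChar (ψ : G → ℂ) g) := by
      unfold centralChar
      ring
    rw [e]
    exact lr_mul_li hM (hlr g) (h g)

/-- Let A be a set of irreducible characters of the finite group G such that, for every g, the inverse of the group order times the sum over χ ∈ A of χ 1 * conj (χ g) is a local integer at the maximal ideal M (containing the prime p) of the algebraic integers. Then A is a union of blocks relative to M: it contains the whole block of each of its members. -/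
theorem result {G : Type*} [Group G] [Finite G] (p : ℕ) [Fact p.Prime] (M : Ideal Cfsg.AlgInt) (hM : Cfsg.IsPModular p M) (A : Set (Cfsg.IrrCharacter G)) (hA : ∀ g : G, Cfsg.MemLocalRing M (Cfsg.blockCoeff A g)) (χ : Cfsg.IrrCharacter G) (hχ : χ ∈ A) : Cfsg.blockOf M (χ : G → ℂ) ⊆ A := by
  classical
  haveI := Fintype.ofFinite G
  intro ψ hψ
  by_contra hcon
  have h1 := omega_sub_li hM (Cfsg.blockCoeff A) (Cfsg.Agent.Helper25.blockCoeff_conj A) hA χ ψ hψ
  rw [Cfsg.Agent.Helper25.omega_blockCoeff, Cfsg.Agent.Helper25.omega_blockCoeff, if_pos hχ,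
    if_neg hcon, sub_zero] at h1
  exact Cfsg.Agent.Helper25.not_li_one hM h1

end Cfsg.Agent.S0909
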