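import Cfsg.Statements.S0910
import Mathlib
import Cfsg.Agent.Helper25.BlockFong
import Cfsg.Agent.Helper25.CharZ

set_option autoImplicit false
open Cfsg

namespace Cfsg.Agent.S0910

open Cfsg

/-- Let G be a non-abelian finite simple group and p a prime. If an irreducible character χ lies in the principal block (relative to a maximal ideal of the algebraic integers containing p) and χ 1 is a power of p, then χ is the principal character. -/
theorem result {G : Type*} [Group G] [Finite G] (p : ℕ) [Fact p.Prime] (M : Ideal Cfsg.AlgInt) (hM : Cfsg.IsPModular p M) [IsSimpleGroup G] (hna : ∃ a b : G, a * b ≠ b * a) (χ : Cfsg.IrrCharacter G) (hχ : χ ∈ Cfsg.principalBlock M G) (k : ℕ) (hdeg : (χ : G → ℂ) 1 = (p : ℂ) ^ k) : (χ : G → ℂ) = fun _ => 1 := by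
  classical
  have hp : p.Prime := Fact.out
  by_contra hne
  -- faithfulness
  have hker : Helper25.irrKer χ = ⊥ := by
    rcases (Helper25.irrKer_normal χ).eq_bot_or_eq_top with h | h
    · exact h
    · exfalso
      have h1 := Helper25.irr_eq_trivChar_of_ker_eq_top χ h
      apply hne
      rw [h1]
      rfl
  have hfaith : ∀ g : G, (χ : G → ℂ) g = (χ : G → ℂ) 1 → g = 1 := by
    intro g hg
    have h1 : g ∈ Helper25.irrKer χ := hg
    rw [hker] at h1
    exact Subgroup.mem_bot.mp h1
  have hcenter : Subgroup.center G = ⊥ := by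
    rcases (inferInstance : (Subgroup.center G).Normal).eq_bot_or_eq_top with h | h
    · exact h
    · exfalso
      obtain ⟨a, b, hab⟩ := hna
      apply hab
      have h1 : a ∈ Subgroup.center G := by rw [h]; trivial
      exact (Subgroup.mem_center_iff.mp h1 b).symm
  have hdeg' : charDegree (χ : G → ℂ) = p ^ k := by
    have h1 := Helper25.irr_one_eq_degree χ
    rw [hdeg] at h1
    exact_mod_cast h1.symm
  -- an element g ≠ 1 whose class has size prime to p
  obtain ⟨g, hg1, hgp⟩ : ∃ g : G, g ≠ 1 ∧
      ¬ p ∣ (Subgroup.centralizer ({g} : Set G)).index := by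
    by_cases hpG : p ∣ Nat.card G
    · obtain ⟨P⟩ : Nonempty (Sylow p G) := inferInstance
      have hPnt : Nontrivial (P : Subgroup G) := by
        rw [← Finite.one_lt_card_iff_nontrivial]
        have h1 : p ∣ Nat.card (P : Subgroup G) := by
          rw [Sylow.card_eq_multiplicity]
          apply dvd_pow_self
          intro h0
          exact (Nat.factorization_eq_zero_iff _ _).mp h0 |>.elim (fun h => h hp)
            (fun h => h.elim (fun h => h hpG) (fun h => Nat.card_pos.ne' h))
        exact lt_of_lt_of_le hp.one_lt (Nat.le_of_dvd Nat.card_pos h1)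
      haveI := hPnt
      have hc := IsPGroup.center_nontrivial (P.isPGroup')
      obtain ⟨⟨z, hz⟩, hz1⟩ := exists_ne (1 : Subgroup.center (P : Subgroup G))
      refine ⟨(z : G), ?_, ?_⟩
      · intro h
        apply hz1
        apply Subtype.ext
        apply Subtype.ext
        exact h
      · have hle : (P : Subgroup G) ≤ Subgroup.centralizer ({(z : G)} : Set G) := by
          intro y hy
          rw [Subgroup.mem_centralizer_singleton_iff]
          have h2 := Subgroup.mem_center_iff.mp hz ⟨y, hy⟩
          exact congrArg Subtype.val h2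
        intro hdvd
        exact P.not_dvd_index (hdvd.trans (Subgroup.index_dvd_of_le hle))
    · obtain ⟨g, hg⟩ := exists_ne (1 : G)
      refine ⟨g, hg, ?_⟩
      intro hdvd
      exact hpG (hdvd.trans (Subgroup.index_dvd_card _))
  have hgc : g ∉ Subgroup.center G := by
    rw [hcenter]
    exact fun h => hg1 (Subgroup.mem_bot.mp h)
  have hcop : Nat.Coprime (charDegree (χ : G → ℂ))
      (Subgroup.centralizer ({g} : Set G)).index := by
    rw [hdeg']
    exact Nat.Coprime.pow_left k ((Nat.Prime.coprime_iff_not_dvd hp).mpr hgp)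
  have h0 := Helper25.irr_eq_zero_of_coprime χ hfaith g hgc hcop
  have h1 := (Helper25.mem_principalBlock_iff χ).mp hχ g
  have h2 : centralChar (χ : G → ℂ) g = 0 := by
    unfold centralChar
    rw [h0, mul_zero, zero_div]
  rw [h2, sub_zero] at h1
  exact hgp ((Helper25.li_natCast_iff hM _).mp h1)

end Cfsg.Agent.S0910
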