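import Cfsg.Statements.S0914
import Mathlib
import Cfsg.Agent.Helper25.BlockRank

set_option autoImplicit false
open Cfsg

namespace Cfsg.Agent.S0914

open Cfsg
open scoped ComplexConjugate

/-- Let χ be an irreducible character of the finite group G, p a prime and M a maximal ideal of the algebraic integers containing p. Then p does not divide the integer (Nat.card G) / χ(1) if and only if the block of χ relative to M consists of χ alone. -/
theorem result {G : Type*} [Group G] [Finite G] (p : ℕ) [Fact p.Prime] (M : Ideal Cfsg.AlgInt) (hM : Cfsg.IsPModular p M) (χ : Cfsg.IrrCharacter G) : ¬ p ∣ Nat.card G / Cfsg.charDegree (χ : G → ℂ) ↔ Cfsg.blockOf M (χ : G → ℂ) = {χ} := by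
  classical
  have hp : p.Prime := Fact.out
  have hdvd := Helper25.irr_degree_dvd_card χ
  have hGpos : 0 < Nat.card G := Nat.card_pos
  obtain ⟨m, hm⟩ := hdvd
  have hdpos : 0 < charDegree (χ : G → ℂ) := by
    rcases Nat.eq_zero_or_pos (charDegree (χ : G → ℂ)) with h0 | h0
    · rw [h0, zero_mul] at hm
      omega
    · exact h0
  have hdiv : Nat.card G / charDegree (χ : G → ℂ) = m := by
    rw [hm]
    exact Nat.mul_div_cancel_left m hdpos
  have hmpos : 0 < m := by
    rcases Nat.eq_zero_or_pos m with h0 | h0
    · rw [h0, mul_zero] at hm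
      omega
    · exact h0
  rw [hdiv]
  constructor
  · intro hpm
    have hd : (Nat.card G).factorization p ≤ (charDegree (χ : G → ℂ)).factorization p := by
      rw [hm, Nat.factorization_mul hdpos.ne' hmpos.ne']
      simp only [Finsupp.coe_add, Pi.add_apply]
      rw [Nat.factorization_eq_zero_of_not_dvd hpm]
      omega
    ext ψ
    constructor
    · intro hψ
      exact Helper25.eq_of_mem_block_of_defect_zero hM (Helper25.isPBlock_blockOf χ)
        (Helper25.self_mem_blockOf hM χ) hψ hd
    · intro hψ
      rw [Set.mem_singleton_iff] at hψ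
      rw [hψ]
      exact Helper25.self_mem_blockOf hM χ
  · intro hblock
    have hB : IsPBlock M ({χ} : Set (IrrCharacter G)) := by
      rw [← hblock]
      exact Helper25.isPBlock_blockOf χ
    have hvan : ∀ y : G, p ∣ orderOf y → (χ : G → ℂ) y = 0 := by
      intro y hy
      have h0 := Helper25.blockCoeff_eq_zero_of_singular hM hB y hy
      unfold blockCoeff at h0
      rw [finsum_mem_singleton] at h0
      have hG : (Nat.card G : ℂ)⁻¹ ≠ 0 := inv_ne_zero (Nat.cast_ne_zero.mpr hGpos.ne')
      rcases mul_eq_zero.mp h0 with h1 | h1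
      · exact absurd h1 hG
      · rcases mul_eq_zero.mp h1 with h2 | h2
        · exact absurd h2 (Helper25.irr_one_ne_zero χ)
        · exact (map_eq_zero _).mp h2
    have h3 := Helper25.pow_dvd_degree_of_vanish hp χ hvan
    intro hpm
    have h4 : p ^ ((Nat.card G).factorization p + 1) ∣ Nat.card G := by
      rw [pow_succ]
      conv_rhs => rw [hm]
      exact Nat.mul_dvd_mul h3 hpm
    exact Nat.pow_succ_factorization_not_dvd hGpos.ne' hp h4

end Cfsg.Agent.S0914
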