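import Cfsg.Statements.S0915
import Mathlib
import Cfsg.Agent.Helper25.BlockFong
import Cfsg.Agent.Helper13.PSolv
import Cfsg.Agent.Helper28.Basic

set_option autoImplicit false
open Cfsg

namespace Cfsg.Agent.S0915

open Cfsg

/-- Let G be a finite p-solvable group with trivial largest normal subgroup of order prime to p. Then any two irreducible characters of G lie in the same block relative to every maximal ideal M of the algebraic integers containing p: G has a single p-block. -/
theorem result {G : Type*} [Group G] [Finite G] (p : ℕ) [Fact p.Prime] (M : Ideal Cfsg.AlgInt) (hM : Cfsg.IsPModular p M) (hsolv : Cfsg.IsPSolvable p G) (hcore : Cfsg.pPrimeCore p G = ⊥) (χ ψ : Cfsg.IrrCharacter G) : Cfsg.SameBlock M (χ : G → ℂ) (ψ : G → ℂ) := by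
  have hC := Helper13.centralizer_pCore_le_of_isPSolvable hsolv hcore
  haveI : (pCore p G).Normal := Helper28.pCore_normal p G
  have h1 := Helper25.mem_principalBlock_of_centralizer_le hM (pCore p G)
    (Helper28.pCore_isPGroup p G) hC χ
  have h2 := Helper25.mem_principalBlock_of_centralizer_le hM (pCore p G)
    (Helper28.pCore_isPGroup p G) hC ψ
  exact Helper25.sameBlock_trans hM (Helper25.sameBlock_symm h1) h2

end Cfsg.Agent.S0915
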