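import Cfsg.Statements.S0925
import Mathlib
import Cfsg.Agent.Helper7.SecOrth

set_option autoImplicit false
open Cfsg

namespace Cfsg.Agent.S0925

open Cfsg Cfsg.Agent.Helper25 in
theorem blockPart_eq_sum {G : Type*} [Group G] [Finite G] (B : Set (IrrCharacter G))
    (ϑ : G → ℂ) (u : G) :
    blockPart B ϑ u = (Nat.card G : ℂ)⁻¹ * ∑ᶠ g : G, ϑ g *
      ∑ χ ∈ (Set.toFinite B).toFinset, (χ : G → ℂ) u * (χ : G → ℂ) g⁻¹ := by
  classical
  letI := Fintype.ofFinite G
  have h1 : blockPart B ϑ u = ∑ᶠ χ ∈ B, classInner ϑ (χ : G → ℂ) * (χ : G → ℂ) u := rfl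
  rw [h1, finsum_mem_eq_finite_toFinset_sum _ (Set.toFinite B), finsum_eq_sum_of_fintype]
  unfold classInner
  simp only [Finset.mul_sum, Finset.sum_mul]
  rw [Finset.sum_comm]
  apply Finset.sum_congr rfl
  intro g _
  apply Finset.sum_congr rfl
  intro χ _
  rw [← irr_inv]
  ring

/-- (i) Let ϑ be a class function on the finite group G and x a p-element, and suppose ϑ vanishes at every element whose p-part is conjugate to x. Then for every block B (relative to a maximal ideal M of the algebraic integers containing p) the B-part of ϑ — the sum over χ ∈ B of the inner product of ϑ with χ, times χ — also vanishes at every such element. (ii) Block orthogonality, its corollary: if the p-parts of g and h are not conjugate, then the sum over χ ∈ B of χ g * χ h⁻¹ is zero for every block B. -/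
theorem result {G : Type*} [Group G] [Finite G] (p : ℕ) [Fact p.Prime] (M : Ideal Cfsg.AlgInt) (hM : Cfsg.IsPModular p M) : (∀ (ϑ : G → ℂ), Cfsg.IsClassFunction G ϑ → ∀ x : G, (∃ k : ℕ, orderOf x = p ^ k) → (∀ u z : G, Cfsg.IsPPart p u z → IsConj x z → ϑ u = 0) → ∀ B : Set (Cfsg.IrrCharacter G), Cfsg.IsPBlock M B → ∀ u z : G, Cfsg.IsPPart p u z → IsConj x z → Cfsg.blockPart B ϑ u = 0) ∧ (∀ g h x y : G, Cfsg.IsPPart p g x → Cfsg.IsPPart p h y → ¬ IsConj x y → ∀ B : Set (Cfsg.IrrCharacter G), Cfsg.IsPBlock M B → ∑ᶠ χ ∈ B, (χ : G → ℂ) g * (χ : G → ℂ) h⁻¹ = 0) := by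
  classical
  have hp := hM.1
  refine ⟨?_, ?_⟩
  · intro ϑ _ x _ hvan B hB u z hu hxz
    rw [blockPart_eq_sum]
    have h0 : ∀ g : G, ϑ g *
        ∑ χ ∈ (Set.toFinite B).toFinset, (χ : G → ℂ) u * (χ : G → ℂ) g⁻¹ = 0 := by
      intro g
      obtain ⟨z', hz'⟩ := Helper7.exists_isPPart hp g
      by_cases hc : IsConj x z'
      · rw [hvan g z' hz' hc, zero_mul]
      · have hzz : ¬ IsConj z z' := fun h => hc (hxz.trans h)
        rw [Helper7.block_orth hM hB u g z z' hu hz' hzz, mul_zero]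
    simp only [h0, finsum_zero, mul_zero]
  · intro g h x y hx hy hxy B hB
    rw [finsum_mem_eq_finite_toFinset_sum _ (Set.toFinite B)]
    exact Helper7.block_orth hM hB g h x y hx hy hxy

end Cfsg.Agent.S0925
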