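import Cfsg.Statements.S0928
import Mathlib
import Cfsg.Agent.Helper7.BlockQuot
import Cfsg.Agent.Helper7.FirstMain
import Cfsg.Agent.S0165
import Cfsg.Agent.Helper25.CharArith

set_option autoImplicit false
open Cfsg

namespace Cfsg.Agent.S0928

/-- Let χ be an irreducible character of the finite group G and p a prime. If χ g = 0 for every element g of order p, then the exponent of p in the degree χ(1) equals the exponent of p in the order of G (χ has p-defect zero). -/
theorem result {G : Type*} [Group G] [Finite G] (p : ℕ) [Fact p.Prime] (χ : Cfsg.IrrCharacter G) (hvan : ∀ g : G, orderOf g = p → (χ : G → ℂ) g = 0) : (Cfsg.charDegree (χ : G → ℂ)).factorization p = (Nat.card G).factorization p := by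
  classical
  obtain ⟨M, hM⟩ := Cfsg.Agent.S0165.exists_modular p (Fact.out)
  have hp := hM.1
  haveI := Fintype.ofFinite G
  obtain ⟨B, hBdef⟩ : ∃ B, B = Cfsg.blockOf M (χ : G → ℂ) := ⟨_, rfl⟩
  have hB : Cfsg.IsPBlock M B := hBdef ▸ Helper25.isPBlock_blockOf χ
  have hχB : χ ∈ B := hBdef ▸ Helper25.self_mem_blockOf hM χ
  obtain ⟨y, hy⟩ := Helper25.exists_isDefectClass hM hB
  obtain ⟨P⟩ : Nonempty (Sylow p (Subgroup.centralizer ({y} : Set G))) := inferInstance
  obtain ⟨D, hDdef⟩ : ∃ D : Subgroup G, D = (P : Subgroup _).map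
      (Subgroup.centralizer ({y} : Set G)).subtype := ⟨_, rfl⟩
  have hD : Cfsg.IsDefectGroup p M B D := ⟨y, hy, P, hDdef⟩
  have hcard := Helper7.card_defectGroup hM hB hD
  by_cases hbot : Cfsg.blockDefect p B = 0
  · have h1 : Cfsg.charDegree (χ : G → ℂ) ∣ Nat.card G := Helper25.irr_degree_dvd_card χ
    unfold Cfsg.blockDefect at hbot
    have h2 : sInf ((fun χ : Cfsg.IrrCharacter G =>
        (Cfsg.charDegree (χ : G → ℂ)).factorization p) '' B)
        ≤ (Cfsg.charDegree (χ : G → ℂ)).factorization p := Nat.sInf_le ⟨χ, hχB, rfl⟩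
    have hdeg : Cfsg.charDegree (χ : G → ℂ) ≠ 0 := by
      intro h0
      rw [h0, zero_dvd_iff] at h1
      exact Nat.card_pos.ne' h1
    have h3 : (Cfsg.charDegree (χ : G → ℂ)).factorization p ≤ (Nat.card G).factorization p :=
      (Nat.factorization_le_iff_dvd hdeg Nat.card_pos.ne').mpr h1 p
    omega
  · exfalso
    have hpD : p ∣ Nat.card D := by rw [hcard]; exact dvd_pow_self p hbot
    obtain ⟨N, hNdef⟩ : ∃ N : Subgroup G, N = Subgroup.normalizer (D : Set G) := ⟨_, rfl⟩
    have hDN : D ≤ N := hNdef ▸ Subgroup.le_normalizer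
    obtain ⟨b, hind⟩ := Helper7.exists_induced_block_of_defect hM hB hD
      (Subgroup.normalizer (D : Set G)) Subgroup.le_normalizer
      (Subgroup.centralizer_le_normalizer _) le_rfl
    have hb := hind.1
    haveI hn : (D.subgroupOf (Subgroup.normalizer (D : Set G))).Normal :=
      Subgroup.normal_in_normalizer
    have hDp := Helper7.isPGroup_of_isDefectGroup hD
    obtain ⟨ψ, θ, hθ, hθψ⟩ := Helper7.exists_inflated_mem hM
      (D.subgroupOf (Subgroup.normalizer (D : Set G))) hDp.comap_subtype hb
    have hθD : ∀ h : Subgroup.normalizer (D : Set G), (h : G) ∈ D →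
        (θ : Subgroup.normalizer (D : Set G) → ℂ) h
          = (θ : Subgroup.normalizer (D : Set G) → ℂ) 1 := by
      intro h hh
      rw [hθψ]
      simp only [Function.comp]
      have e0 : (QuotientGroup.mk h : Subgroup.normalizer (D : Set G) ⧸
          D.subgroupOf (Subgroup.normalizer (D : Set G))) = QuotientGroup.mk 1 := by
        rw [QuotientGroup.mk_one]
        exact (QuotientGroup.eq_one_iff h).mpr (Subgroup.mem_subgroupOf.mpr hh)
      rw [e0]
    have hθ0 : ∀ h : Subgroup.normalizer (D : Set G), (h : G) ∉ D → h ^ p = 1 →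
        (θ : Subgroup.normalizer (D : Set G) → ℂ) h = 0 := by
      intro h hh hhp
      apply Helper7.irr_eq_zero_of_ppart_not_mem_defect hM θ h h
      · refine ⟨1, mul_one h, Commute.one_right h, ⟨1, ?_⟩, ?_⟩
        · have h0 : orderOf h ∣ p := orderOf_dvd_of_pow_eq_one hhp
          rcases (Nat.dvd_prime hp).mp h0 with h1 | h1
          · exfalso
            apply hh
            rw [orderOf_eq_one_iff] at h1
            rw [h1]
            exact D.one_mem
          · rw [h1, pow_one]
        · rw [orderOf_one]
          exact hp.one_lt.ne' ∘ Nat.dvd_one.mp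
      · intro D' hD'
        rw [← Helper25.eq_blockOf_of_mem hM hb hθ] at hD'
        rw [Helper7.defectGroup_normalizer_eq hM hB hD hind hD']
        intro hmem
        exact hh (Subgroup.mem_subgroupOf.mp hmem)
    obtain ⟨F, hF⟩ : ∃ F : G → ℂ, F = fun g => if g ^ p = 1 then 1 else 0 := ⟨_, rfl⟩
    have hFc : ∀ g x : G, F (x * g * x⁻¹) = F g := by
      intro g x
      rw [hF]
      beta_reduce
      have e : (x * g * x⁻¹) ^ p = 1 ↔ g ^ p = 1 := by
        rw [conj_pow]
        constructor
        · intro h
          have h2 : x⁻¹ * (x * g ^ p * x⁻¹) * x = g ^ p := by group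
          rw [← h2, h]
          group
        · intro h
          rw [h]
          group
      by_cases hg : g ^ p = 1
      · rw [if_pos hg, if_pos (e.mpr hg)]
      · rw [if_neg hg, if_neg (fun h => hg (e.mp h))]
    have hFlr : ∀ g, Cfsg.MemLocalRing M (F g) := by
      intro g
      rw [hF]
      beta_reduce
      split_ifs
      · exact Helper25.lr_one hM
      · exact Helper25.lr_zero hM
    haveI := Fintype.ofFinite (Subgroup.normalizer (D : Set G))
    have h1 := Helper7.li_omega_res_sub hM (Subgroup.normalizer (D : Set G)) hind hθ hχB F hFc hFlr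
    have e1 : Helper25.omega F χ = 1 := by
      unfold Helper25.omega
      rw [Finset.sum_eq_single (1 : G)]
      · have hF1 : F 1 = 1 := by
          rw [hF]
          beta_reduce
          rw [if_pos (one_pow p)]
        rw [hF1, one_mul]
        exact div_self (Helper25.irr_one_ne_zero χ)
      · intro g _ hg1
        rw [hF]
        beta_reduce
        by_cases hgp : g ^ p = 1
        · rw [if_pos hgp, one_mul]
          apply hvan
          have h0 : orderOf g ∣ p := orderOf_dvd_of_pow_eq_one hgp
          rcases (Nat.dvd_prime hp).mp h0 with h1 | h1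
          · exact absurd (orderOf_eq_one_iff.mp h1) hg1
          · exact h1
        · rw [if_neg hgp, zero_mul]
      · intro h
        exact absurd (Finset.mem_univ _) h
    have e2 : Helper25.omega (fun h : Subgroup.normalizer (D : Set G) => F (h : G)) θ
        = ((Set.ncard {h : Subgroup.normalizer (D : Set G) |
            h ∈ D.subgroupOf (Subgroup.normalizer (D : Set G)) ∧ h ^ p = 1} : ℕ) : ℂ) := by
      unfold Helper25.omega
      have hsum : ∀ h : Subgroup.normalizer (D : Set G),
          F (h : G) * (θ : Subgroup.normalizer (D : Set G) → ℂ) h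
            = if (h ∈ D.subgroupOf (Subgroup.normalizer (D : Set G)) ∧ h ^ p = 1)
              then (θ : Subgroup.normalizer (D : Set G) → ℂ) 1 else 0 := by
        intro h
        have ecoe : ((h : G)) ^ p = 1 ↔ h ^ p = 1 := by
          rw [← Subgroup.coe_pow]
          exact OneMemClass.coe_eq_one
        by_cases hhp : h ^ p = 1
        · have hFh : F (h : G) = 1 := by
            rw [hF]
            beta_reduce
            rw [if_pos (ecoe.mpr hhp)]
          rw [hFh, one_mul]
          by_cases hhD : (h : G) ∈ D
          · rw [if_pos ⟨Subgroup.mem_subgroupOf.mpr hhD, hhp⟩, hθD h hhD]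
          · rw [if_neg (fun hc => hhD (Subgroup.mem_subgroupOf.mp hc.1)), hθ0 h hhD hhp]
        · have hFh : F (h : G) = 0 := by
            rw [hF]
            beta_reduce
            rw [if_neg (fun hc => hhp (ecoe.mp hc))]
          rw [hFh, zero_mul, if_neg (fun hc => hhp hc.2)]
      rw [Finset.sum_congr rfl (fun h _ => hsum h), ← Finset.sum_filter, Finset.sum_const,
        nsmul_eq_mul, mul_div_assoc, div_self (Helper25.irr_one_ne_zero θ), mul_one]
      congr 1
      rw [Set.ncard_eq_toFinset_card']
      congr 1
      ext h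
      simp
    rw [e1, e2] at h1
    have hcardD : Nat.card (D.subgroupOf (Subgroup.normalizer (D : Set G))) = Nat.card D :=
      Nat.card_congr (Subgroup.subgroupOfEquivOfLe Subgroup.le_normalizer).toEquiv
    have h3 := Helper7.dvd_ncard_pow_eq_one (p := p)
      (D.subgroupOf (Subgroup.normalizer (D : Set G))) (hcardD ▸ hpD)
    have h4 := (Helper25.li_natCast_iff hM _).mpr h3
    apply Helper25.not_li_one hM
    have h5 := Helper25.li_sub hM h4 h1
    rwa [sub_sub_cancel] at h5

end Cfsg.Agent.S0928
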