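import Cfsg.Statements.S0929
import Mathlib
import Cfsg.Agent.Helper7.FirstMain

set_option autoImplicit false
open Cfsg

namespace Cfsg.Agent.S0929

/-- Let B be a block of the finite group G with defect group P (relative to a maximal ideal M of the algebraic integers containing p), and let g be an element at which the central character of some member of B is not in the local ideal at M. Then some conjugate x of g centralizes P and has its p-part in the centre of P. -/
theorem result {G : Type*} [Group G] [Finite G] (p : ℕ) [Fact p.Prime] (M : Ideal Cfsg.AlgInt) (hM : Cfsg.IsPModular p M) (B : Set (Cfsg.IrrCharacter G)) (hB : Cfsg.IsPBlock M B) (P : Subgroup G) (hP : Cfsg.IsDefectGroup p M B P) (g : G) (hg : ∃ χ ∈ B, ¬ Cfsg.MemLocalIdeal M (Cfsg.centralChar (χ : G → ℂ) g)) : ∃ x : G, IsConj g x ∧ x ∈ Subgroup.centralizer (P : Set G) ∧ ∀ z : G, Cfsg.IsPPart p x z → z ∈ P ∧ ∀ w ∈ P, z * w = w * z := by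
  classical
  have hp := hM.1
  obtain ⟨χ, hχ, hχg⟩ := hg
  have hPp := Helper7.isPGroup_of_isDefectGroup hP
  obtain ⟨b, hind⟩ := Helper7.exists_induced_block_of_defect hM hB hP
    (Subgroup.normalizer (P : Set G)) Subgroup.le_normalizer
    (Subgroup.centralizer_le_normalizer _) le_rfl
  have hb := hind.1
  obtain ⟨θ, hθ⟩ : ∃ θ, θ ∈ b := by
    obtain ⟨θ₀, h0⟩ := hb
    exact ⟨θ₀, h0 ▸ Helper25.self_mem_blockOf hM θ₀⟩
  have h1 := hind.2.2 θ hθ χ hχ g
  have h2 := Helper7.li_induced_sub_brauer hM P (Subgroup.normalizer (P : Set G)) hPp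
    Subgroup.le_normalizer le_rfl θ g
  have hex : ∃ h : Subgroup.normalizer (P : Set G), IsConj g (h : G) ∧
      (h : G) ∈ Subgroup.centralizer (P : Set G) ∧
      (θ : Subgroup.normalizer (P : Set G) → ℂ) h ≠ 0 := by
    by_contra hcon
    push Not at hcon
    have h3 : Cfsg.brauerCentralChar P (Subgroup.normalizer (P : Set G))
        (θ : Subgroup.normalizer (P : Set G) → ℂ) g = 0 := by
      unfold Cfsg.brauerCentralChar
      apply finsum_mem_eq_zero_of_forall_eq_zero
      intro h hh
      rw [hcon h hh.1 hh.2, zero_div]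
    rw [h3, sub_zero] at h2
    apply hχg
    have h4 := Helper25.li_sub hM h2 h1
    rwa [sub_sub_cancel] at h4
  obtain ⟨h, hconj, hC, hne⟩ := hex
  refine ⟨(h : G), hconj, hC, ?_⟩
  intro z hz
  have hcomm : ∀ w ∈ P, z * w = w * z := by
    intro w hw
    have hxw : (h : G) ^ 1 = w * (h : G) ^ 1 * w⁻¹ := by
      rw [pow_one]
      have := Subgroup.mem_centralizer_iff.mp hC w hw
      rw [this, mul_inv_cancel_right]
    have h5 := Helper7.ppart_conj_of_pow_eq hp hz hz 1 (Nat.Prime.not_dvd_one hp) hxw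
    calc z * w = w * z * w⁻¹ * w := by rw [← h5]
      _ = w * z := by group
  refine ⟨?_, hcomm⟩
  by_contra hzP
  apply hne
  have hzC : z ∈ Subgroup.centralizer (P : Set G) :=
    Subgroup.mem_centralizer_iff.mpr (fun w hw => (hcomm w hw).symm)
  have hzN : z ∈ Subgroup.normalizer (P : Set G) := Subgroup.centralizer_le_normalizer _ hzC
  apply Helper7.irr_eq_zero_of_ppart_not_mem_defect hM θ h ⟨z, hzN⟩
  · obtain ⟨y₁, e1, e2, ⟨k, e3⟩, e4⟩ := hz
    have hy₁N : y₁ ∈ Subgroup.normalizer (P : Set G) := by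
      have : y₁ = z⁻¹ * (h : G) := by rw [← e1]; group
      rw [this]
      exact Subgroup.mul_mem _ (Subgroup.inv_mem _ hzN) h.2
    refine ⟨⟨y₁, hy₁N⟩, Subtype.ext e1, Subtype.ext e2.eq, ⟨k, ?_⟩, ?_⟩
    · rw [Subgroup.orderOf_mk]; exact e3
    · rw [Subgroup.orderOf_mk]; exact e4
  · intro D' hD'
    rw [← Helper25.eq_blockOf_of_mem hM hb hθ] at hD'
    rw [Helper7.defectGroup_normalizer_eq hM hB hP hind hD']
    intro hmem
    exact hzP (Subgroup.mem_subgroupOf.mp hmem)

end Cfsg.Agent.S0929
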