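import Cfsg.Statements.S0930
import Mathlib
import Cfsg.Agent.Helper7.FirstMain
import Cfsg.Agent.S0929

set_option autoImplicit false
open Cfsg

namespace Cfsg.Agent.S0930

/-- Let H be a subgroup of the finite group G and fix a maximal ideal M of the algebraic integers containing the prime p. If the block b of H with defect group D induces the block B of G with defect group P, then every element of the centre of P is conjugate in G to an element of the centre of D. -/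
theorem result {G : Type*} [Group G] [Finite G] (p : ℕ) [Fact p.Prime] (M : Ideal Cfsg.AlgInt) (hM : Cfsg.IsPModular p M) (H : Subgroup G) (b : Set (Cfsg.IrrCharacter H)) (B : Set (Cfsg.IrrCharacter G)) (hind : Cfsg.IsInducedBlock M H b B) (D : Subgroup H) (hD : Cfsg.IsDefectGroup p M b D) (P : Subgroup G) (hP : Cfsg.IsDefectGroup p M B P) (x : G) (hx : x ∈ P) (hxc : ∀ w ∈ P, x * w = w * x) : ∃ g : G, g * x * g⁻¹ ∈ D.map H.subtype ∧ ∀ w ∈ D.map H.subtype, (g * x * g⁻¹) * w = w * (g * x * g⁻¹) := by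
  classical
  have hp := hM.1
  have hb := hind.1
  have hB := hind.2.1
  obtain ⟨y, hy, Q, rfl⟩ := hP
  obtain ⟨x', hx', rfl⟩ := Subgroup.mem_map.mp hx
  have hcomm' : ∀ w ∈ (Q : Subgroup (Subgroup.centralizer ({y} : Set G))),
      x' * w = w * x' := by
    intro w hw
    apply Subtype.ext
    exact hxc (w : G) (Subgroup.mem_map.mpr ⟨w, hw, rfl⟩)
  have hunits := (Helper7.defect_section_units hM hB y hy Q x' hx').2 hcomm'
  obtain ⟨χ, hχ⟩ : ∃ χ, χ ∈ B := by
    obtain ⟨χ₀, h0⟩ := hB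
    exact ⟨χ₀, h0 ▸ Helper25.self_mem_blockOf hM χ₀⟩
  obtain ⟨ξ, hξ⟩ : ∃ ξ, ξ ∈ b := by
    obtain ⟨ξ₀, h0⟩ := hb
    exact ⟨ξ₀, h0 ▸ Helper25.self_mem_blockOf hM ξ₀⟩
  have h1 := hind.2.2 ξ hξ χ hχ ((x' : G) * y)
  have h2 : ¬ Cfsg.MemLocalIdeal M (Cfsg.inducedCentralChar H (ξ : H → ℂ) ((x' : G) * y)) := by
    intro h
    apply hunits χ hχ
    have h3 := Helper25.li_sub hM h h1
    rwa [sub_sub_cancel] at h3
  obtain ⟨k, hk, hkli⟩ := Helper7.exists_conj_not_li_of_induced hM H ξ _ h2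
  obtain ⟨k', hkk', hk'C, hk'⟩ := Cfsg.Agent.S0929.result p M hM b hb D hD k ⟨ξ, hξ, hkli⟩
  obtain ⟨z, hz⟩ := Helper7.exists_isPPart hp k'
  obtain ⟨hzD, hzc⟩ := hk' z hz
  have hconj : IsConj ((x' : G) * y) (k' : G) := by
    obtain ⟨c, hc⟩ := isConj_iff.mp hkk'
    have : IsConj (k : G) (k' : G) := isConj_iff.mpr ⟨(c : G), by rw [← hc]; rfl⟩
    exact hk.trans this
  obtain ⟨t, ht⟩ := isConj_iff.mp hconj
  have hpp : Cfsg.IsPPart p ((x' : G) * y) (x' : G) := by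
    refine ⟨y, rfl, ?_, ?_, Helper7.isDefectClass_regular hM hB hy⟩
    · have := Subgroup.mem_centralizer_iff.mp x'.2 y rfl
      exact this.symm
    · obtain ⟨j, hj⟩ := (IsPGroup.iff_orderOf.mp Q.isPGroup') ⟨x', hx'⟩
      refine ⟨j, ?_⟩
      rw [← hj, Subgroup.orderOf_mk, Subgroup.orderOf_coe]
  have hpp' := Helper7.isPPart_conj hpp t
  rw [ht] at hpp'
  have hzG := Helper7.isPPart_coe hz
  have heq := Helper7.isPPart_unique hp hpp' hzG
  refine ⟨t, ?_, ?_⟩
  · show t * (x' : G) * t⁻¹ ∈ Subgroup.map H.subtype D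
    rw [heq]
    exact Subgroup.mem_map.mpr ⟨z, hzD, rfl⟩
  · intro w hw
    obtain ⟨w', hw', rfl⟩ := Subgroup.mem_map.mp hw
    show t * (x' : G) * t⁻¹ * (w' : G) = (w' : G) * (t * (x' : G) * t⁻¹)
    rw [heq]
    exact congrArg (Subtype.val : H → G) (hzc w' hw')

end Cfsg.Agent.S0930
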