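import Cfsg.Statements.S0931
import Mathlib
import Cfsg.Agent.Helper7.Defect
import Cfsg.Agent.S0917

set_option autoImplicit false
open Cfsg

namespace Cfsg.Agent.S0931

open Cfsg

/-- Let H be a subgroup of the finite group G and fix a maximal ideal M of the algebraic integers containing the prime p. If the block b of H induces the block B of G, then b has defect 0 if and only if B has defect 0. -/
theorem result {G : Type*} [Group G] [Finite G] (p : ℕ) [Fact p.Prime] (M : Ideal Cfsg.AlgInt) (hM : Cfsg.IsPModular p M) (H : Subgroup G) (b : Set (Cfsg.IrrCharacter H)) (B : Set (Cfsg.IrrCharacter G)) (hind : Cfsg.IsInducedBlock M H b B) : Cfsg.blockDefect p b = 0 ↔ Cfsg.blockDefect p B = 0 := by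
  classical
  have hp : p.Prime := Fact.out
  have hb := hind.1
  have hB := hind.2.1
  constructor
  · exact Helper7.defect_zero_of_induced hM H hind
  · intro h0
    obtain ⟨h₁, hh₁⟩ := Helper25.exists_isDefectClass hM hb
    obtain ⟨P⟩ := (inferInstance : Nonempty (Sylow p (Subgroup.centralizer ({h₁} : Set H))))
    have hD : IsDefectGroup p M b ((P : Subgroup (Subgroup.centralizer ({h₁} : Set H))).map
        (Subgroup.centralizer ({h₁} : Set H)).subtype) := ⟨h₁, hh₁, P, rfl⟩
    have hcardD := Helper7.card_defectGroup hM hb hD
    obtain ⟨E, hE, hle⟩ := Cfsg.Agent.S0917.result p M hM H b hb B hB hind _ hD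
    have hcardE := Helper7.card_defectGroup hM hB hE
    rw [h0, pow_zero] at hcardE
    have hEbot : E = ⊥ := Subgroup.card_eq_one.mp hcardE
    rw [hEbot] at hle
    have h1 : Nat.card (((P : Subgroup (Subgroup.centralizer ({h₁} : Set H))).map
        (Subgroup.centralizer ({h₁} : Set H)).subtype).map H.subtype) = 1 := by
      rw [le_bot_iff.mp hle]
      exact Subgroup.card_bot
    rw [Subgroup.card_map_of_injective (Subgroup.subtype_injective _), hcardD] at h1
    by_contra hne
    have h2 := Nat.one_lt_pow hne hp.one_lt
    omega

end Cfsg.Agent.S0931
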