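import Cfsg.Statements.S0932
import Mathlib
import Cfsg.Agent.Helper7.Basic

set_option autoImplicit false
open Cfsg

namespace Cfsg.Agent.S0932

/-- Let H be a subgroup of the finite group G and ξ a character of H. For every g ∈ G, the sum of ξ h / ξ 1 over the elements h ∈ H that are conjugate in G to g equals the central character at g of the character of G induced from ξ (class size times value divided by degree). -/
theorem result {G : Type*} [Group G] [Fintype G] (H : Subgroup G) (ξ : H → ℂ) (hξ : Cfsg.IsCharacter H ξ) (g : G) : Cfsg.inducedCentralChar H ξ g = Cfsg.centralChar (Cfsg.indFun H ξ) g := by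
  unfold Cfsg.inducedCentralChar Cfsg.centralChar
  rw [Cfsg.Agent.Helper7.indFun_eq H ξ g, Cfsg.Agent.Helper7.indFun_one H ξ]
  have hidx : ((Subgroup.centralizer ({g} : Set G)).index : ℂ) * (Nat.card (Subgroup.centralizer ({g} : Set G)) : ℂ) = (Nat.card G : ℂ) := by
    rw [← Nat.cast_mul, Subgroup.index_mul_card]
  have hfin : ∑ᶠ h ∈ {h : H | IsConj g (h : G)}, ξ h / ξ 1 = (∑ᶠ h ∈ {h : H | IsConj g (h : G)}, ξ h) / ξ 1 := by
    simp_rw [div_eq_mul_inv]
    rw [finsum_mem_mul]
  rw [hfin]
  have hH : (Nat.card H : ℂ) ≠ 0 := Nat.cast_ne_zero.mpr Nat.card_pos.ne'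
  have hG : (Nat.card G : ℂ) ≠ 0 := Nat.cast_ne_zero.mpr Nat.card_pos.ne'
  by_cases hξ1 : ξ 1 = 0
  · simp [hξ1]
  · rw [← hidx]
    have hC : (Nat.card (Subgroup.centralizer ({g} : Set G)) : ℂ) ≠ 0 := Nat.cast_ne_zero.mpr Nat.card_pos.ne'
    have hI : ((Subgroup.centralizer ({g} : Set G)).index : ℂ) ≠ 0 := by
      intro h0
      rw [h0, zero_mul] at hidx
      exact hG hidx.symm
    field_simp

end Cfsg.Agent.S0932
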