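import Cfsg.Statements.S0934
import Mathlib
import Cfsg.Agent.Helper7.IndBlock
import Cfsg.Agent.Helper2.CharExtra

set_option autoImplicit false
open Cfsg

namespace Cfsg.Agent.S0934

open Cfsg
open scoped ComplexConjugate

/-- Let H be a subgroup of the finite group G and fix a maximal ideal M of the algebraic integers containing the prime p. If the block b of H induces the block B of G and ξ ∈ b, then there is χ ∈ B whose restriction to H has nonzero inner product with ξ. -/
theorem result {G : Type*} [Group G] [Fintype G] (p : ℕ) [Fact p.Prime] (M : Ideal Cfsg.AlgInt) (hM : Cfsg.IsPModular p M) (H : Subgroup G) [Fintype H] (b : Set (Cfsg.IrrCharacter H)) (B : Set (Cfsg.IrrCharacter G)) (hind : Cfsg.IsInducedBlock M H b B) (ξ : Cfsg.IrrCharacter H) (hξ : ξ ∈ b) : ∃ χ ∈ B, Cfsg.classInner (fun h : H => (χ : G → ℂ) h) (ξ : H → ℂ) ≠ 0 := by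
  classical
  by_contra hcon
  push Not at hcon
  have h1 := Helper7.li_one_sub_omega_res hM H hind ξ hξ
  have hHne : (Nat.card H : ℂ) ≠ 0 := Nat.cast_ne_zero.mpr Nat.card_pos.ne'
  have hzero : ∀ χ ∈ B, ∑ h : H, (ξ : H → ℂ) h * conj ((χ : G → ℂ) h) = 0 := by
    intro χ hχ
    have h2 := Helper2.classInner_conj_symm (fun h : H => (χ : G → ℂ) h) (ξ : H → ℂ)
    rw [hcon χ hχ, map_zero] at h2
    unfold classInner at h2
    rcases mul_eq_zero.mp h2 with h3 | h3
    · exact absurd (inv_eq_zero.mp h3) hHne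
    · exact h3
  have h4 : ∑ h : H, blockCoeff B (h : G) * ((ξ : H → ℂ) h / (ξ : H → ℂ) 1) = 0 := by
    have h5 : ∀ h : H, blockCoeff B (h : G) * ((ξ : H → ℂ) h / (ξ : H → ℂ) 1)
        = ∑ χ ∈ (Set.toFinite B).toFinset, (Nat.card G : ℂ)⁻¹ * (χ : G → ℂ) 1 / (ξ : H → ℂ) 1
            * ((ξ : H → ℂ) h * conj ((χ : G → ℂ) h)) := by
      intro h
      unfold blockCoeff
      rw [finsum_mem_eq_finite_toFinset_sum _ (Set.toFinite B), Finset.mul_sum, Finset.sum_mul]
      apply Finset.sum_congr rfl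
      intro χ _
      ring
    rw [Finset.sum_congr rfl (fun h _ => h5 h), Finset.sum_comm]
    apply Finset.sum_eq_zero
    intro χ hχ
    rw [← Finset.mul_sum, hzero χ ((Set.Finite.mem_toFinset _).mp hχ), mul_zero]
  rw [h4, sub_zero] at h1
  exact Helper25.not_li_one hM h1

end Cfsg.Agent.S0934
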