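import Cfsg.Statements.S0937
import Cfsg.Agent.Helper24.HtZero

set_option autoImplicit false
open Cfsg

namespace Cfsg.Agent.S0937

open Cfsg.Agent.Helper25 Cfsg.Agent.Helper24 Cfsg.Agent.Helper2

/-- Let H be a subgroup of the finite group G and fix a maximal ideal M of the algebraic integers containing the prime p. If the block b of H induces the block B of G and χ ∈ B has height zero, then there is ξ ∈ b of height zero whose multiplicity in the restriction of χ to H is a natural number not divisible by p. -/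
theorem result {G : Type*} [Group G] [Fintype G] (p : ℕ) [Fact p.Prime] (M : Ideal Cfsg.AlgInt) (hM : Cfsg.IsPModular p M) (H : Subgroup G) [Fintype H] (b : Set (Cfsg.IrrCharacter H)) (B : Set (Cfsg.IrrCharacter G)) (hind : Cfsg.IsInducedBlock M H b B) (χ : Cfsg.IrrCharacter G) (hχ : χ ∈ B) (h0 : Cfsg.blockHeight p B (χ : G → ℂ) = 0) : ∃ ξ ∈ b, Cfsg.blockHeight p b (ξ : H → ℂ) = 0 ∧ ∃ n : ℕ, Cfsg.classInner (fun h : H => (χ : G → ℂ) h) (ξ : H → ℂ) = (n : ℂ) ∧ ¬ p ∣ n := by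
  classical
  have hp := hM.1
  obtain ⟨hb, hB, -⟩ := id hind
  obtain ⟨VH, hVH⟩ : ∃ VH, VH = (fun ξ : Cfsg.IrrCharacter H =>
      (Cfsg.charDegree (ξ : H → ℂ)).factorization p) '' b := ⟨_, rfl⟩
  have hVne : VH.Nonempty := by
    obtain ⟨ξ₁, hξ₁⟩ := hb
    rw [hVH]
    exact ⟨_, ξ₁, by rw [hξ₁]; exact self_mem_blockOf hM ξ₁, rfl⟩
  have hmem := Nat.sInf_mem hVne
  rw [hVH] at hmem
  obtain ⟨ξ₀, hξ₀, hξ₀e⟩ := hmem
  rw [← hVH] at hξ₀e
  simp only at hξ₀e
  by_contra hcon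
  push Not at hcon
  choose m hm using fun ξ : Cfsg.IrrCharacter H =>
    classInner_char_nat (isCharacter_restrict H (irr_isCharacter χ)) (irr_isCharacter ξ)
  have hcong := hz_congr hM H hind ξ₀ hξ₀ χ hχ χ
  rw [hz_gram_decomp] at hcong
  have hmin : ∀ ψ ∈ B, (Cfsg.charDegree (χ : G → ℂ)).factorization p ≤
      (Cfsg.charDegree (ψ : G → ℂ)).factorization p := by
    intro ψ hψ
    unfold Cfsg.blockHeight at h0
    have h1 : sInf ((fun ψ : Cfsg.IrrCharacter G =>
        (Cfsg.charDegree (ψ : G → ℂ)).factorization p) '' B)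
        ≤ (Cfsg.charDegree (ψ : G → ℂ)).factorization p := Nat.sInf_le ⟨ψ, hψ, rfl⟩
    omega
  have hX := gram_div_not_li_of_min hM hB hχ hmin
  have hd0 : Cfsg.charDegree (ξ₀ : H → ℂ) ≠ 0 := (irr_degree_pos ξ₀).ne'
  have hterm : ∀ ξ : Cfsg.IrrCharacter H, Cfsg.MemLocalIdeal M ((m ξ : ℂ) *
      (((p ^ (Nat.card H).factorization p : ℕ) : ℂ) * gram p (ξ : H → ℂ) (ξ₀ : H → ℂ) /
        (ξ₀ : H → ℂ) 1)) := by
    intro ξ
    by_cases hξb : ξ ∈ b
    · by_cases hht : Cfsg.blockHeight p b (ξ : H → ℂ) = 0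
      · have h1 := hcon ξ hξb hht (m ξ) (hm ξ)
        exact li_mul_lr hM ((li_natCast_iff hM _).mpr h1) (lr_gram_div hM ξ ξ₀)
      · have h1 : (Cfsg.charDegree (ξ₀ : H → ℂ)).factorization p
            < (Cfsg.charDegree (ξ : H → ℂ)).factorization p := by
          unfold Cfsg.blockHeight at hht
          rw [← hVH] at hht
          omega
        have h2 := lr_gram_div hM ξ₀ ξ
        have h3 : Cfsg.MemLocalIdeal M (((Cfsg.charDegree (ξ : H → ℂ) : ℤ) : ℂ) /
            (Cfsg.charDegree (ξ₀ : H → ℂ) : ℂ)) := by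
          apply li_div_of_pow_dvd hM _ _ hd0 ((Cfsg.charDegree (ξ₀ : H → ℂ)).factorization p + 1)
            (Nat.lt_succ_self _)
          have h4 : p ^ ((Cfsg.charDegree (ξ₀ : H → ℂ)).factorization p + 1) ∣
              Cfsg.charDegree (ξ : H → ℂ) :=
            (pow_dvd_pow p h1).trans (Nat.ordProj_dvd _ _)
          exact_mod_cast h4
        have e : ((p ^ (Nat.card H).factorization p : ℕ) : ℂ) * gram p (ξ : H → ℂ) (ξ₀ : H → ℂ) /
            (ξ₀ : H → ℂ) 1
            = (((p ^ (Nat.card H).factorization p : ℕ) : ℂ) * gram p (ξ₀ : H → ℂ) (ξ : H → ℂ) /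
              (ξ : H → ℂ) 1) * (((Cfsg.charDegree (ξ : H → ℂ) : ℤ) : ℂ) /
                (Cfsg.charDegree (ξ₀ : H → ℂ) : ℂ)) := by
          rw [gram_symm hp ξ₀ ξ, irr_one_eq_degree ξ, irr_one_eq_degree ξ₀]
          have h5 : (Cfsg.charDegree (ξ : H → ℂ) : ℂ) ≠ 0 := by
            exact_mod_cast (irr_degree_pos ξ).ne'
          have h6 : (Cfsg.charDegree (ξ₀ : H → ℂ) : ℂ) ≠ 0 := by exact_mod_cast hd0
          push_cast
          field_simp
        rw [e]
        exact lr_mul_li hM (lr_natCast hM _) (lr_mul_li hM h2 h3)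
    · have h1 : gram p (ξ₀ : H → ℂ) (ξ : H → ℂ) = 0 :=
        gram_eq_zero_of_lr hM b (fun g => blockCoeff_lr hM hb g) hξ₀ hξb
      rw [gram_symm hp ξ₀ ξ, h1, mul_zero, zero_div, mul_zero]
      exact li_zero hM
  have hsum : Cfsg.MemLocalIdeal M ((Nat.card H : ℂ) *
      (∑ ξ : Cfsg.IrrCharacter H, Cfsg.classInner (fun h : H => (χ : G → ℂ) h) (ξ : H → ℂ) *
        gram p (ξ : H → ℂ) (ξ₀ : H → ℂ)) / (ξ₀ : H → ℂ) 1) := by
    have e : (Nat.card H : ℂ) *
        (∑ ξ : Cfsg.IrrCharacter H, Cfsg.classInner (fun h : H => (χ : G → ℂ) h) (ξ : H → ℂ) *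
          gram p (ξ : H → ℂ) (ξ₀ : H → ℂ)) / (ξ₀ : H → ℂ) 1
        = ((Nat.card H / p ^ (Nat.card H).factorization p : ℕ) : ℂ) *
          ∑ ξ : Cfsg.IrrCharacter H, (m ξ : ℂ) *
            (((p ^ (Nat.card H).factorization p : ℕ) : ℂ) * gram p (ξ : H → ℂ) (ξ₀ : H → ℂ) /
              (ξ₀ : H → ℂ) 1) := by
      have h7 : (Nat.card H : ℂ) = ((p ^ (Nat.card H).factorization p : ℕ) : ℂ) *
          ((Nat.card H / p ^ (Nat.card H).factorization p : ℕ) : ℂ) := by
        exact_mod_cast (Nat.ordProj_mul_ordCompl_eq_self (Nat.card H) p).symm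
      rw [Finset.mul_sum, Finset.mul_sum, Finset.sum_div]
      apply Finset.sum_congr rfl
      intro ξ _
      rw [hm]
      conv_lhs => rw [h7]
      ring
    rw [e]
    exact lr_mul_li hM (lr_natCast hM _) (li_sum hM _ _ (fun ξ _ => hterm ξ))
  have hG : Cfsg.MemLocalIdeal M ((Nat.card G : ℂ) * gram p (χ : G → ℂ) (χ : G → ℂ) /
      (χ : G → ℂ) 1) := by
    have h8 := li_sub hM hsum hcong
    rw [sub_sub_cancel] at h8
    exact h8
  apply hX
  have h9 : (Nat.card G : ℂ) = ((p ^ (Nat.card G).factorization p : ℕ) : ℂ) *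
      ((Nat.card G / p ^ (Nat.card G).factorization p : ℕ) : ℂ) := by
    exact_mod_cast (Nat.ordProj_mul_ordCompl_eq_self (Nat.card G) p).symm
  have hnd : ¬ p ∣ Nat.card G / p ^ (Nat.card G).factorization p :=
    Nat.not_dvd_ordCompl hp Nat.card_pos.ne'
  have hne : ((Nat.card G / p ^ (Nat.card G).factorization p : ℕ) : ℂ) ≠ 0 := by
    intro h
    apply hnd
    have : Nat.card G / p ^ (Nat.card G).factorization p = 0 := by exact_mod_cast h
    rw [this]
    exact dvd_zero p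
  have e : ((p ^ (Nat.card G).factorization p : ℕ) : ℂ) * gram p (χ : G → ℂ) (χ : G → ℂ) /
      (χ : G → ℂ) 1
      = ((Nat.card G / p ^ (Nat.card G).factorization p : ℕ) : ℂ)⁻¹ *
        ((Nat.card G : ℂ) * gram p (χ : G → ℂ) (χ : G → ℂ) / (χ : G → ℂ) 1) := by
    conv_rhs => rw [h9]
    field_simp
  rw [e]
  exact lr_mul_li hM (lr_natCast_inv hM hnd) hG

end Cfsg.Agent.S0937
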