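import Cfsg.Statements.S0935
import Cfsg.Agent.Helper24.HtZero
import Cfsg.Agent.S0937

set_option autoImplicit false
open Cfsg

namespace Cfsg.Agent.S0935

open Cfsg.Agent.Helper25 Cfsg.Agent.Helper24 Cfsg.Agent.Helper2

/-- Let H be a subgroup of the finite group G and χ an irreducible character of G whose restriction to H is irreducible; fix a maximal ideal M of the algebraic integers containing the prime p and suppose χ and its restriction have height zero in their blocks B and b. If e is a block of H whose induced block is defined, then e induces B if and only if e = b. -/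
theorem result {G : Type*} [Group G] [Finite G] (p : ℕ) [Fact p.Prime] (M : Ideal Cfsg.AlgInt) (hM : Cfsg.IsPModular p M) (H : Subgroup G) (χ : Cfsg.IrrCharacter G) (hres : Cfsg.IsIrrCharacter H (fun h : H => (χ : G → ℂ) h)) (hχ0 : Cfsg.blockHeight p (Cfsg.blockOf M (χ : G → ℂ)) (χ : G → ℂ) = 0) (hψ0 : Cfsg.blockHeight p (Cfsg.blockOf M (fun h : H => (χ : G → ℂ) h)) (fun h : H => (χ : G → ℂ) h) = 0) (e : Set (Cfsg.IrrCharacter H)) (he : Cfsg.InducedBlockDefined M H e) : Cfsg.IsInducedBlock M H e (Cfsg.blockOf M (χ : G → ℂ)) ↔ e = Cfsg.blockOf M (fun h : H => (χ : G → ℂ) h) := by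
  classical
  haveI : Fintype G := Fintype.ofFinite G
  haveI : Fintype H := Fintype.ofFinite H
  have hp := hM.1
  obtain ⟨ξ₀, hξ₀def⟩ : ∃ ξ₀ : Cfsg.IrrCharacter H, (ξ₀ : H → ℂ) = fun h : H => (χ : G → ℂ) h :=
    ⟨⟨_, hres⟩, rfl⟩
  rw [← hξ₀def] at hψ0 ⊢
  have hres_eq : ∀ ξ : Cfsg.IrrCharacter H,
      Cfsg.classInner (fun h : H => (χ : G → ℂ) h) (ξ : H → ℂ) = if ξ₀ = ξ then 1 else 0 := by
    intro ξ
    rw [← hξ₀def]
    exact classInner_irr_irr ξ₀ ξ
  constructor
  · intro hind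
    obtain ⟨ξ, hξ, -, n, hn, hpn⟩ := Cfsg.Agent.S0937.result p M hM H e
      (Cfsg.blockOf M (χ : G → ℂ)) hind χ (self_mem_blockOf hM χ) hχ0
    rw [hres_eq ξ] at hn
    by_cases h : ξ₀ = ξ
    · rw [← h] at hξ
      exact eq_blockOf_of_mem hM hind.1 hξ
    · rw [if_neg h] at hn
      have : n = 0 := by exact_mod_cast hn.symm
      rw [this] at hpn
      exact absurd (dvd_zero p) hpn
  · intro he'
    rw [he'] at he ⊢
    obtain ⟨B₁, hind₁⟩ := he
    have hB₁ := hind₁.2.1
    have hb := hind₁.1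
    have hmem : χ ∈ B₁ := by
      by_contra hχ
      obtain ⟨χ₁, hχ₁⟩ : ∃ χ₁, χ₁ ∈ B₁ := by
        obtain ⟨χ', h'⟩ := hB₁
        exact ⟨χ', by rw [h']; exact self_mem_blockOf hM χ'⟩
      have hcong := hz_congr hM H hind₁ ξ₀ (self_mem_blockOf hM ξ₀) χ₁ hχ₁ χ
      have h1 : gram p (χ₁ : G → ℂ) (χ : G → ℂ) = 0 :=
        gram_eq_zero_of_lr hM B₁ (fun g => blockCoeff_lr hM hB₁ g) hχ₁ hχ
      rw [gram_symm hp χ₁ χ, h1, mul_zero, zero_div, sub_zero, ← hξ₀def] at hcong
      have hmin : ∀ ψ ∈ Cfsg.blockOf M (ξ₀ : H → ℂ),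
          (Cfsg.charDegree (ξ₀ : H → ℂ)).factorization p ≤
          (Cfsg.charDegree (ψ : H → ℂ)).factorization p := by
        intro ψ hψ
        unfold Cfsg.blockHeight at hψ0
        have h2 : sInf ((fun ψ : Cfsg.IrrCharacter H =>
            (Cfsg.charDegree (ψ : H → ℂ)).factorization p) '' Cfsg.blockOf M (ξ₀ : H → ℂ))
            ≤ (Cfsg.charDegree (ψ : H → ℂ)).factorization p := Nat.sInf_le ⟨ψ, hψ, rfl⟩
        omega
      have hX := gram_div_not_li_of_min hM hb (self_mem_blockOf hM ξ₀) hmin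
      apply hX
      have h9 : (Nat.card H : ℂ) = ((p ^ (Nat.card H).factorization p : ℕ) : ℂ) *
          ((Nat.card H / p ^ (Nat.card H).factorization p : ℕ) : ℂ) := by
        exact_mod_cast (Nat.ordProj_mul_ordCompl_eq_self (Nat.card H) p).symm
      have hnd : ¬ p ∣ Nat.card H / p ^ (Nat.card H).factorization p :=
        Nat.not_dvd_ordCompl hp Nat.card_pos.ne'
      have hne : ((Nat.card H / p ^ (Nat.card H).factorization p : ℕ) : ℂ) ≠ 0 := by
        intro h
        apply hnd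
        have : Nat.card H / p ^ (Nat.card H).factorization p = 0 := by exact_mod_cast h
        rw [this]
        exact dvd_zero p
      have e : ((p ^ (Nat.card H).factorization p : ℕ) : ℂ) *
          gram p (ξ₀ : H → ℂ) (ξ₀ : H → ℂ) / (ξ₀ : H → ℂ) 1
          = ((Nat.card H / p ^ (Nat.card H).factorization p : ℕ) : ℂ)⁻¹ *
            ((Nat.card H : ℂ) * gram p (ξ₀ : H → ℂ) (ξ₀ : H → ℂ) / (ξ₀ : H → ℂ) 1) := by
        conv_rhs => rw [h9]
        field_simp
      rw [e]
      exact lr_mul_li hM (lr_natCast_inv hM hnd) hcong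
    rw [← eq_blockOf_of_mem hM hB₁ hmem]
    exact hind₁

end Cfsg.Agent.S0935
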