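import Cfsg.Statements.S0939
import Mathlib
import Cfsg.Agent.Helper25.BlockFong
import Cfsg.Agent.Helper10.PComp

set_option autoImplicit false
open Cfsg

namespace Cfsg.Agent.S0939

open Cfsg

/-- Let G be a finite group with a normal p-complement (the largest normal subgroup O_p'(G) of order prime to p has p-power index). Then, relative to any maximal ideal M of the algebraic integers containing p, the principal block of G is the set of irreducible characters χ with χ n = χ 1 for every n ∈ O_p'(G). -/
theorem result {G : Type*} [Group G] [Finite G] (p : ℕ) [Fact p.Prime] (M : Ideal Cfsg.AlgInt) (hM : Cfsg.IsPModular p M) (hnc : ∃ k : ℕ, (Cfsg.pPrimeCore p G).index = p ^ k) : Cfsg.principalBlock M G = {χ : Cfsg.IrrCharacter G | ∀ n ∈ Cfsg.pPrimeCore p G, (χ : G → ℂ) n = (χ : G → ℂ) 1} := by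
  classical
  obtain ⟨k, hk⟩ := hnc
  haveI hNn : (pPrimeCore p G).Normal := Subgroup.sSup_normal _ (fun _ h => h.1)
  have hp : p.Prime := Fact.out
  have hcop : ¬ p ∣ Nat.card (pPrimeCore p G) := by
    intro hdvd
    have h1 := Helper10.pPrimeCore_coprime p G
    have h2 := Nat.dvd_gcd hdvd (dvd_refl p)
    rw [Nat.Coprime] at h1
    rw [h1] at h2
    exact hp.one_lt.ne' (Nat.dvd_one.mp h2)
  ext χ
  constructor
  · intro hχ n hn
    exact Helper25.le_irrKer_of_mem_principalBlock hM (pPrimeCore p G) hcop χ hχ hn
  · intro hχ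
    have hle : pPrimeCore p G ≤ Helper25.irrKer χ := fun n hn => hχ n hn
    obtain ⟨ψ, hψ⟩ := Helper25.exists_deflate χ (pPrimeCore p G) hle
    have hQ : IsPGroup p (G ⧸ pPrimeCore p G) := by
      apply IsPGroup.of_card (n := k)
      rw [← hk]
      rfl
    have hψB : ψ ∈ principalBlock M (G ⧸ pPrimeCore p G) := by
      haveI : (⊤ : Subgroup (G ⧸ pPrimeCore p G)).Normal := inferInstance
      apply Helper25.mem_principalBlock_of_centralizer_le hM
        (⊤ : Subgroup (G ⧸ pPrimeCore p G))
      · exact hQ.to_subgroup ⊤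
      · exact le_top
    have h3 := Helper25.irrComp_mem_principalBlock hM (pPrimeCore p G) ψ hψB
    have h4 : Helper25.irrComp ψ (QuotientGroup.mk' (pPrimeCore p G))
        (QuotientGroup.mk'_surjective (pPrimeCore p G)) = χ := by
      apply Subtype.ext
      funext g
      exact hψ g
    rw [h4] at h3
    exact h3

end Cfsg.Agent.S0939
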