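import Cfsg.Statements.S0943
import Mathlib

set_option autoImplicit false
open Cfsg

namespace Cfsg.Agent.S0943

theorem schur {G : Type*} [Group G] {n : ℕ} (ρ : Representation ℂ G (Fin n → ℂ)) (hirr : ρ.IsIrreducible)
    (T : (Fin n → ℂ) →ₗ[ℂ] (Fin n → ℂ)) (hT : ∀ g : G, T ∘ₗ ρ g = ρ g ∘ₗ T) :
    ∃ ω : ℂ, T = ω • (1 : (Fin n → ℂ) →ₗ[ℂ] (Fin n → ℂ)) := by
  have _i := hirr
  let f : Representation.IntertwiningMap ρ ρ := ⟨T, hT⟩
  obtain ⟨ω, hω⟩ := (Representation.IsIrreducible.algebraMap_intertwiningMap_bijective_of_isAlgClosed (ρ := ρ)).2 f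
  refine ⟨ω, ?_⟩
  have h2 := congrArg (fun h : Representation.IntertwiningMap ρ ρ => h.toLinearMap) hω
  simp only [Representation.IntertwiningMap.algebraMap_apply] at h2
  rw [Representation.IntertwiningMap.toLinearMap_smul] at h2
  exact h2.symm

/-- Let χ be an irreducible character of the finite group G and u, v ∈ G. If χ (x * y) = χ (u * v) whenever x is conjugate to u and y is conjugate to v, then χ u * χ v = χ 1 * χ (u * v). (Multiply the class sums of u and v and apply the central character of χ.) -/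
theorem result {G : Type*} [Group G] [Finite G] (χ : Cfsg.IrrCharacter G) (u v : G) (hc : ∀ x y : G, IsConj u x → IsConj v y → (χ : G → ℂ) (x * y) = (χ : G → ℂ) (u * v)) : (χ : G → ℂ) u * (χ : G → ℂ) v = (χ : G → ℂ) 1 * (χ : G → ℂ) (u * v) := by
  classical
  obtain ⟨χf, n, ρ, hirr, hρ⟩ := χ
  subst hρ
  show ρ.character u * ρ.character v = ρ.character 1 * ρ.character (u * v)
  change ∀ x y : G, IsConj u x → IsConj v y → ρ.character (x * y) = ρ.character (u * v) at hc
  letI := Fintype.ofFinite G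
  let cl : G → Finset G := fun w => Finset.univ.filter (fun x => IsConj w x)
  let T : G → ((Fin n → ℂ) →ₗ[ℂ] (Fin n → ℂ)) := fun w => ∑ x ∈ cl w, ρ x
  have hcomm : ∀ w g : G, T w ∘ₗ ρ g = ρ g ∘ₗ T w := by
    intro w g
    show T w * ρ g = ρ g * T w
    simp only [T, Finset.sum_mul, Finset.mul_sum, ← map_mul]
    symm
    apply Finset.sum_equiv (MulAut.conj g).toEquiv
    · intro x
      simp only [cl, Finset.mem_filter, Finset.mem_univ, true_and]
      constructor
      · intro h
        exact h.trans (isConj_iff.mpr ⟨g, rfl⟩)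
      · intro h
        refine h.trans (isConj_iff.mpr ⟨g⁻¹, ?_⟩)
        simp [mul_assoc]
    · intro x _
      simp [mul_assoc]
  have hclass : ∀ w x : G, x ∈ cl w → ρ.character x = ρ.character w := by
    intro w x hx
    simp only [cl, Finset.mem_filter, Finset.mem_univ, true_and] at hx
    obtain ⟨k, hk⟩ := isConj_iff.mp hx
    rw [← hk, Representation.char_conj]
  have htr : ∀ w : G, LinearMap.trace ℂ _ (T w) = ((cl w).card : ℂ) * ρ.character w := by
    intro w
    simp only [T, map_sum]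
    exact (Finset.sum_eq_card_nsmul (fun x hx => hclass w x hx)).trans (nsmul_eq_mul _ _)
  obtain ⟨ωu, hωu⟩ := schur ρ hirr (T u) (hcomm u)
  obtain ⟨ωv, hωv⟩ := schur ρ hirr (T v) (hcomm v)
  have h1 : ρ.character 1 = (n : ℂ) := by
    rw [Representation.char_one]; simp
  have htr1 : LinearMap.trace ℂ (Fin n → ℂ) (1 : (Fin n → ℂ) →ₗ[ℂ] (Fin n → ℂ)) = (n : ℂ) := by
    rw [LinearMap.trace_one]; simp
  have e1 : ωu * n = ((cl u).card : ℂ) * ρ.character u := by
    rw [← htr u, hωu, map_smul, htr1, smul_eq_mul]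
  have e2 : ωv * n = ((cl v).card : ℂ) * ρ.character v := by
    rw [← htr v, hωv, map_smul, htr1, smul_eq_mul]
  have e3 : ωu * ωv * n = ((cl u).card : ℂ) * ((cl v).card : ℂ) * ρ.character (u * v) := by
    have h3 : LinearMap.trace ℂ _ (T u * T v) = ωu * ωv * n := by
      rw [hωu, hωv, smul_mul_smul_comm, mul_one, map_smul, htr1, smul_eq_mul]
    rw [← h3]
    simp only [T, Finset.sum_mul, Finset.mul_sum, ← map_mul, map_sum]
    have h4 : ∀ x ∈ cl u, ∀ y ∈ cl v, LinearMap.trace ℂ _ (ρ (x * y)) = ρ.character (u * v) := by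
      intro x hx y hy
      simp only [cl, Finset.mem_filter, Finset.mem_univ, true_and] at hx hy
      exact hc x y hx hy
    rw [Finset.sum_congr rfl (fun y hy => Finset.sum_congr rfl (fun x hx => h4 x hx y hy))]
    simp only [Finset.sum_const, nsmul_eq_mul]
    ring
  have hcu : ((cl u).card : ℂ) ≠ 0 := by
    have : u ∈ cl u := Finset.mem_filter.mpr ⟨Finset.mem_univ _, IsConj.refl u⟩
    exact Nat.cast_ne_zero.mpr (Finset.card_pos.mpr ⟨u, this⟩).ne'
  have hcv : ((cl v).card : ℂ) ≠ 0 := by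
    have : v ∈ cl v := Finset.mem_filter.mpr ⟨Finset.mem_univ _, IsConj.refl v⟩
    exact Nat.cast_ne_zero.mpr (Finset.card_pos.mpr ⟨v, this⟩).ne'
  rw [h1]
  have key : ((cl u).card : ℂ) * ((cl v).card : ℂ) * (ρ.character u * ρ.character v)
      = ((cl u).card : ℂ) * ((cl v).card : ℂ) * ((n : ℂ) * ρ.character (u * v)) := by
    linear_combination (-(ωv * n)) * e1 + (-(cl u).card * ρ.character u) * e2 + (n : ℂ) * e3
  exact mul_left_cancel₀ (mul_ne_zero hcu hcv) key

end Cfsg.Agent.S0943
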