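import Cfsg.Statements.S0944
import Mathlib

set_option autoImplicit false
open Cfsg

namespace Cfsg.Agent.S0944

/-- Let χ be an irreducible character of the finite group G and u an involution. Then χ u is a rational integer n with n ≡ χ 1 (mod 2). -/
theorem result {G : Type*} [Group G] [Finite G] (χ : Cfsg.IrrCharacter G) (u : G) (hu : orderOf u = 2) : ∃ n : ℤ, (χ : G → ℂ) u = (n : ℂ) ∧ (2 : ℤ) ∣ (Cfsg.charDegree (χ : G → ℂ) : ℤ) - n := by
  obtain ⟨χf, n, ρ, hirr, hρ⟩ := χ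
  subst hρ
  show ∃ m : ℤ, ρ.character u = (m : ℂ) ∧ (2 : ℤ) ∣ (Cfsg.charDegree ρ.character : ℤ) - m
  have hdeg : Cfsg.charDegree ρ.character = n := by
    unfold Cfsg.charDegree
    rw [Representation.char_one]
    simp
  set T : (Fin n → ℂ) →ₗ[ℂ] (Fin n → ℂ) := ρ u with hT
  have hTT : T * T = 1 := by
    rw [hT, ← map_mul, ← pow_two, ← hu, pow_orderOf_eq_one, map_one]
  set Pr : (Fin n → ℂ) →ₗ[ℂ] (Fin n → ℂ) := (2 : ℂ)⁻¹ • (1 - T) with hPr
  have hidem : IsIdempotentElem Pr := by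
    unfold IsIdempotentElem
    rw [hPr, smul_mul_smul_comm, mul_sub, sub_mul, sub_mul, hTT]
    simp only [one_mul, mul_one]
    rw [show (1 : (Fin n → ℂ) →ₗ[ℂ] (Fin n → ℂ)) - T - (T - 1) = (2 : ℂ) • (1 - T) by
      rw [two_smul]; abel]
    rw [smul_smul]
    congr 1
    norm_num
  have htr := ((LinearMap.isProj_range_iff_isIdempotentElem Pr).mpr hidem).trace
  have hTeq : T = 1 - (2 : ℂ) • Pr := by
    rw [hPr, smul_smul]
    norm_num
  refine ⟨(n : ℤ) - 2 * (Module.finrank ℂ (LinearMap.range Pr) : ℤ), ?_, ?_⟩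
  · show LinearMap.trace ℂ (Fin n → ℂ) (ρ u) = _
    rw [← hT, hTeq, map_sub, map_smul, htr, LinearMap.trace_one]
    simp
  · rw [hdeg]
    exact ⟨(Module.finrank ℂ (LinearMap.range Pr) : ℤ), by ring⟩

end Cfsg.Agent.S0944
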