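import Cfsg.Statements.S0947
import Mathlib
import Cfsg.Agent.Helper7.SectionSum

set_option autoImplicit false
open Cfsg

namespace Cfsg.Agent.S0947

/-- Let z ≠ 1 be a p-element of the finite group G with centralizer H, and fix a maximal ideal M of the algebraic integers containing p. (i) For every y ∈ H of order prime to p, the sum over ζ in the principal block of G of |ζ (z * y)|² equals the sum over χ in the principal block of H of |χ y|². (ii) If moreover H has a normal p-complement (its largest normal subgroup of order prime to p has p-power index), that common value is the largest power of p dividing the order of H. -/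
theorem result {G : Type*} [Group G] [Finite G] (p : ℕ) [Fact p.Prime] (M : Ideal Cfsg.AlgInt) (hM : Cfsg.IsPModular p M) (z : G) (hz : ∃ k : ℕ, orderOf z = p ^ k) (hz1 : z ≠ 1) (y : Subgroup.centralizer ({z} : Set G)) (hy : ¬ p ∣ orderOf y) : (∑ᶠ ζ ∈ Cfsg.principalBlock M G, ‖(ζ : G → ℂ) (z * (y : G))‖ ^ 2 = ∑ᶠ χ ∈ Cfsg.principalBlock M (Subgroup.centralizer ({z} : Set G)), ‖(χ : Subgroup.centralizer ({z} : Set G) → ℂ) y‖ ^ 2) ∧ ((∃ k : ℕ, (Cfsg.pPrimeCore p (Subgroup.centralizer ({z} : Set G))).index = p ^ k) → ∑ᶠ ζ ∈ Cfsg.principalBlock M G, ‖(ζ : G → ℂ) (z * (y : G))‖ ^ 2 = ((p ^ (Nat.card (Subgroup.centralizer ({z} : Set G))).factorization p : ℕ) : ℝ)) := by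
  classical
  obtain ⟨k, hk⟩ := hz
  have key := Helper7.section_sum_eq hM z k hk y hy
  have cast : ∀ {α : Type _} (s : Finset α) (f : α → ℂ),
      ((∑ i ∈ s, ‖f i‖ ^ 2 : ℝ) : ℂ) = ∑ i ∈ s, f i * starRingEnd ℂ (f i) := by
    intro α s f
    rw [Complex.ofReal_sum]
    apply Finset.sum_congr rfl
    intro i _
    rw [Complex.mul_conj']
    push_cast
    rfl
  have h1 : ∑ᶠ ζ ∈ Cfsg.principalBlock M G, ‖(ζ : G → ℂ) (z * (y : G))‖ ^ 2
      = ∑ᶠ χ ∈ Cfsg.principalBlock M (Subgroup.centralizer ({z} : Set G)),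
        ‖(χ : Subgroup.centralizer ({z} : Set G) → ℂ) y‖ ^ 2 := by
    rw [finsum_mem_eq_finite_toFinset_sum _ (Set.toFinite _),
      finsum_mem_eq_finite_toFinset_sum _ (Set.toFinite _)]
    apply Complex.ofReal_injective
    rw [cast, cast]
    exact key
  refine ⟨h1, ?_⟩
  rintro ⟨j, hj⟩
  rw [h1, finsum_mem_eq_finite_toFinset_sum _ (Set.toFinite _)]
  apply Complex.ofReal_injective
  rw [cast, Helper7.sum_sq_principal_of_pNilpotent hM j hj y hy]
  push_cast
  rfl

end Cfsg.Agent.S0947
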