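import Cfsg.Statements.S0952
import Mathlib
import Cfsg.Agent.Helper25.BlockRank

set_option autoImplicit false
open scoped ComplexConjugate
open Cfsg

namespace Cfsg.Agent.S0952

open Cfsg.Agent.Helper25

/-- Let χ and ψ be irreducible characters of the finite group G lying in different blocks relative to a maximal ideal M of the algebraic integers containing the prime p. Then the sum of χ x * conj (ψ x) over the elements x of order prime to p is zero. -/
theorem result {G : Type*} [Group G] [Finite G] (p : ℕ) [Fact p.Prime] (M : Ideal Cfsg.AlgInt) (hM : Cfsg.IsPModular p M) (χ ψ : Cfsg.IrrCharacter G) (h : ¬ Cfsg.SameBlock M (χ : G → ℂ) (ψ : G → ℂ)) : ∑ᶠ x ∈ {x : G | ¬ p ∣ orderOf x}, (χ : G → ℂ) x * conj ((ψ : G → ℂ) x) = 0 := by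
  classical
  haveI : Fintype G := Fintype.ofFinite G
  have hψ : ψ ∉ blockOf M (χ : G → ℂ) := fun hmem => h ((mem_blockOf_iff _ _).mp hmem)
  have h0 := gram_eq_zero_of_lr hM (blockOf M (χ : G → ℂ))
    (blockCoeff_lr hM (isPBlock_blockOf χ)) (self_mem_blockOf hM χ) hψ
  rw [gram_eq] at h0
  have hG : (Nat.card G : ℂ)⁻¹ ≠ 0 := by
    apply inv_ne_zero
    exact_mod_cast (Nat.card_pos (α := G)).ne'
  have h1 : ∑ g : G, pRegularPart p (χ : G → ℂ) g * (ψ : G → ℂ) g⁻¹ = 0 := by
    rcases mul_eq_zero.mp h0 with h2 | h2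
    · exact absurd h2 hG
    · exact h2
  rw [finsum_mem_eq_finite_toFinset_sum _ (Set.toFinite _)]
  rw [← h1]
  rw [← Finset.sum_filter_add_sum_filter_not Finset.univ (fun x : G => ¬ p ∣ orderOf x)
    (fun g => pRegularPart p (χ : G → ℂ) g * (ψ : G → ℂ) g⁻¹)]
  have h3 : ∑ x ∈ Finset.univ.filter (fun x : G => ¬ ¬ p ∣ orderOf x),
      pRegularPart p (χ : G → ℂ) x * (ψ : G → ℂ) x⁻¹ = 0 := by
    apply Finset.sum_eq_zero
    intro x hx
    rw [Finset.mem_filter] at hx
    rw [pRegularPart_of_sing (not_not.mp hx.2), zero_mul]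
  rw [h3, add_zero]
  apply Finset.sum_congr
  · ext x
    simp
  · intro x hx
    rw [Finset.mem_filter] at hx
    rw [pRegularPart_of_reg hx.2, irr_inv ψ x]

end Cfsg.Agent.S0952
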