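import Cfsg.Statements.S0955
import Mathlib
import Cfsg.Agent.Helper7.FirstMain

set_option autoImplicit false
open Cfsg

namespace Cfsg.Agent.S0955

/-- Let D be a defect group of a block of the finite group G relative to a maximal ideal M of the algebraic integers containing the prime p. Then D is the largest normal p-subgroup of its own normalizer: O_p(N_G(D)) = D. -/
theorem result {G : Type*} [Group G] [Finite G] (p : ℕ) [Fact p.Prime] (M : Ideal Cfsg.AlgInt) (hM : Cfsg.IsPModular p M) (B : Set (Cfsg.IrrCharacter G)) (hB : Cfsg.IsPBlock M B) (D : Subgroup G) (hD : Cfsg.IsDefectGroup p M B D) : (Cfsg.pCore p (Subgroup.normalizer (D : Set G))).map (Subgroup.normalizer (D : Set G)).subtype = D := by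
  classical
  obtain ⟨b, hb, hbD, hind⟩ := Helper7.first_main_exists hM D hB hD
  have hDp := Helper7.isPGroup_of_isDefectGroup hD
  haveI hn : (D.subgroupOf (Subgroup.normalizer (D : Set G))).Normal :=
    Subgroup.normal_in_normalizer
  have h1 : D.subgroupOf (Subgroup.normalizer (D : Set G))
      ≤ Cfsg.pCore p (Subgroup.normalizer (D : Set G)) :=
    Cfsg.Agent.Helper28.le_pCore hn hDp.comap_subtype
  have h2 : Cfsg.pCore p (Subgroup.normalizer (D : Set G))
      ≤ D.subgroupOf (Subgroup.normalizer (D : Set G)) :=
    Cfsg.Agent.S0912.result p M hM b hb _ hbD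
  rw [le_antisymm h2 h1]
  exact Subgroup.map_subgroupOf_eq_of_le Subgroup.le_normalizer

end Cfsg.Agent.S0955
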