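import Cfsg.Statements.S0957
import Mathlib

set_option autoImplicit false
open Cfsg

namespace Cfsg.Agent.S0957

/-- Let P be a Sylow p-subgroup of the finite group G, let g, h ∈ G and let p ^ d be the order of a Sylow p-subgroup of the centralizer of g. Then the number of pairs (y, z) with y conjugate to g, z conjugate to h and z * y⁻¹ ∈ P is divisible by the order of P divided by p ^ d. -/
theorem result {G : Type*} [Group G] [Finite G] (p : ℕ) [Fact p.Prime] (P : Sylow p G) (g h : G) (S : Sylow p (Subgroup.centralizer ({g} : Set G))) : Nat.card P / Nat.card S ∣ Nat.card {yz : G × G // IsConj g yz.1 ∧ IsConj h yz.2 ∧ yz.2 * yz.1⁻¹ ∈ (P : Subgroup G)} := by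
  classical
  have hp : p.Prime := Fact.out
  -- p-power divisibility helper
  have aux : ∀ s N : ℕ, N ≠ 0 → p ^ s ∣ N → p ^ s ∣ p ^ (N.factorization p) := by
    intro s N hN hdvd
    exact pow_dvd_pow p ((hp.pow_dvd_iff_le_factorization hN).mp hdvd)
  have hcardS : Nat.card S = p ^ (Nat.card (Subgroup.centralizer ({g} : Set G))).factorization p :=
    Sylow.card_eq_multiplicity S
  have hcardP : Nat.card P = p ^ (Nat.card G).factorization p := Sylow.card_eq_multiplicity P
  have hSP : Nat.card S ∣ Nat.card P := by
    rw [hcardS, hcardP]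
    apply aux _ _ Nat.card_pos.ne'
    rw [← hcardS]
    exact (Subgroup.card_subgroup_dvd_card _).trans (Subgroup.card_subgroup_dvd_card _)
  let X := {yz : G × G // IsConj g yz.1 ∧ IsConj h yz.2 ∧ yz.2 * yz.1⁻¹ ∈ (P : Subgroup G)}
  let act : ↥(P : Subgroup G) → X → X := fun q yz =>
    ⟨((q : G) * yz.1.1 * (q : G)⁻¹, (q : G) * yz.1.2 * (q : G)⁻¹), by
      obtain ⟨⟨y, z⟩, h1, h2, h3⟩ := yz
      refine ⟨?_, ?_, ?_⟩
      · exact h1.trans (isConj_iff.mpr ⟨q, rfl⟩)
      · exact h2.trans (isConj_iff.mpr ⟨q, rfl⟩)
      · simp only at h3 ⊢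
        rw [show (q : G) * z * (q : G)⁻¹ * ((q : G) * y * (q : G)⁻¹)⁻¹ = (q : G) * (z * y⁻¹) * (q : G)⁻¹ by group]
        exact Subgroup.mul_mem _ (Subgroup.mul_mem _ q.2 h3) (Subgroup.inv_mem _ q.2)⟩
  let _inst : MulAction (P : Subgroup G) X :=
    { smul := act
      one_smul := by
        rintro ⟨⟨x, y⟩, hxy⟩
        apply Subtype.ext
        show ((((1 : (P : Subgroup G)) : G)) * x * (((1 : (P : Subgroup G)) : G))⁻¹, (((1 : (P : Subgroup G)) : G)) * y * (((1 : (P : Subgroup G)) : G))⁻¹) = (x, y)
        simp
      mul_smul := by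
        rintro a b ⟨⟨x, y⟩, hxy⟩
        apply Subtype.ext
        show (((a * b : (P : Subgroup G)) : G) * x * ((a * b : (P : Subgroup G)) : G)⁻¹, ((a * b : (P : Subgroup G)) : G) * y * ((a * b : (P : Subgroup G)) : G)⁻¹)
          = ((a : G) * ((b : G) * x * (b : G)⁻¹) * (a : G)⁻¹, (a : G) * ((b : G) * y * (b : G)⁻¹) * (a : G)⁻¹)
        simp [mul_assoc] }
  have hsmul : ∀ (q : (P : Subgroup G)) (xy : X), q • xy = act q xy := fun _ _ => rfl
  -- each stabilizer has index divisible by |P|/|S|
  have hidx : ∀ x : X, Nat.card P / Nat.card S ∣ (MulAction.stabilizer (P : Subgroup G) x).index := by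
    intro x
    set St := MulAction.stabilizer (P : Subgroup G) x with hSt
    have hStP : Nat.card St ∣ Nat.card P := Subgroup.card_subgroup_dvd_card St
    have hStS : Nat.card St ∣ Nat.card S := by
      have hpg : IsPGroup p St := (P.isPGroup').to_subgroup St
      obtain ⟨s, hs⟩ := IsPGroup.iff_card.mp hpg
      rw [hs, hcardS]
      apply aux _ _ Nat.card_pos.ne'
      rw [← hs]
      obtain ⟨k, hk⟩ := isConj_iff.mp x.2.1
      -- injective hom St → centralizer {g}
      let f : St →* Subgroup.centralizer ({g} : Set G) :=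
        { toFun := fun q => ⟨k⁻¹ * ((q : (P : Subgroup G)) : G) * k, by
            rw [Subgroup.mem_centralizer_iff]
            intro a ha
            rw [Set.mem_singleton_iff] at ha
            rw [ha]
            have h1 : (q : (P : Subgroup G)) • x = x := q.2
            rw [hsmul] at h1
            have h2 := congrArg (fun w : X => w.1.1) h1
            simp only [act] at h2
            rw [← hk] at h2
            have h4 : k⁻¹ * ((q : (P : Subgroup G)) : G) * k * g = g * (k⁻¹ * ((q : (P : Subgroup G)) : G) * k) := by
              calc k⁻¹ * ((q : (P : Subgroup G)) : G) * k * g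
                  = k⁻¹ * (((q : (P : Subgroup G)) : G) * (k * g * k⁻¹) * ((q : (P : Subgroup G)) : G)⁻¹) * (((q : (P : Subgroup G)) : G) * k) := by group
                _ = k⁻¹ * (k * g * k⁻¹) * (((q : (P : Subgroup G)) : G) * k) := by rw [h2]
                _ = g * (k⁻¹ * ((q : (P : Subgroup G)) : G) * k) := by group
            exact h4.symm⟩
          map_one' := by
            apply Subtype.ext
            simp
          map_mul' := by
            intro a b
            apply Subtype.ext
            simp [mul_assoc] }
      have hf : Function.Injective f := by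
        intro a b hab
        have := congrArg (fun w : Subgroup.centralizer ({g} : Set G) => (w : G)) hab
        simp only [f, MonoidHom.coe_mk, OneHom.coe_mk] at this
        have h2 : ((a : (P : Subgroup G)) : G) = ((b : (P : Subgroup G)) : G) := by
          have := congrArg (fun w => k * w * k⁻¹) this
          simpa [mul_assoc] using this
        exact Subtype.ext (Subtype.ext h2)
      exact Subgroup.card_dvd_of_injective f hf
    have hmul : St.index * Nat.card St = Nat.card P := St.index_mul_card
    have hidx_eq : St.index = Nat.card P / Nat.card St := by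
      rw [← hmul, Nat.mul_div_cancel _ Nat.card_pos]
    rw [hidx_eq]
    exact Nat.div_dvd_div_left hSP hStS
  have _i1 : Fintype X := Fintype.ofFinite X
  have _i2 : Fintype (Quotient (MulAction.orbitRel (P : Subgroup G) X)) := Fintype.ofFinite _
  have e := MulAction.selfEquivSigmaOrbitsQuotientStabilizer (P : Subgroup G) X
  show Nat.card P / Nat.card S ∣ Nat.card X
  rw [Nat.card_congr e, Nat.card_sigma]
  apply Finset.dvd_sum
  intro ω _
  exact hidx _

end Cfsg.Agent.S0957
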