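import Cfsg.Statements.S0958
import Mathlib
import Cfsg.Agent.Helper7.FirstMain

set_option autoImplicit false
open Cfsg

namespace Cfsg.Agent.S0958

/-- Let P be a p-subgroup of the finite group G and H a subgroup with P ⊔ C_G(P) ≤ H ≤ N_G(P); fix a maximal ideal M of the algebraic integers containing p. Then a block B of G is induced by some block of H if and only if some conjugate of P is contained in a defect group of B. -/
theorem result {G : Type*} [Group G] [Finite G] (p : ℕ) [Fact p.Prime] (M : Ideal Cfsg.AlgInt) (hM : Cfsg.IsPModular p M) (P H : Subgroup G) (hP : IsPGroup p P) (hPH : P ⊔ Subgroup.centralizer (P : Set G) ≤ H) (hHN : H ≤ Subgroup.normalizer (P : Set G)) (B : Set (Cfsg.IrrCharacter G)) (hB : Cfsg.IsPBlock M B) : (∃ b : Set (Cfsg.IrrCharacter H), Cfsg.IsInducedBlock M H b B) ↔ ∃ D : Subgroup G, Cfsg.IsDefectGroup p M B D ∧ ∃ x : G, P.map (MulAut.conj x).toMonoidHom ≤ D := by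
  classical
  have hPH' : P ≤ H := le_sup_left.trans hPH
  have hCH : Subgroup.centralizer (P : Set G) ≤ H := le_sup_right.trans hPH
  constructor
  · rintro ⟨b, hind⟩
    have hb := hind.1
    obtain ⟨g₀, hg₀⟩ := Helper25.exists_isDefectClass hM hb
    obtain ⟨Q⟩ : Nonempty (Sylow p (Subgroup.centralizer ({g₀} : Set H))) := inferInstance
    have hDb : Cfsg.IsDefectGroup p M b ((Q : Subgroup (Subgroup.centralizer
        ({g₀} : Set H))).map (Subgroup.centralizer ({g₀} : Set H)).subtype) := ⟨g₀, hg₀, Q, rfl⟩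
    obtain ⟨E, hE, hle⟩ := Cfsg.Agent.S0917.result p M hM H b hb B hB hind _ hDb
    haveI hn : (P.subgroupOf H).Normal :=
      (Subgroup.normal_subgroupOf_iff_le_normalizer hPH').mpr hHN
    have h1 : P.subgroupOf H ≤ Cfsg.pCore p H :=
      Cfsg.Agent.Helper28.le_pCore hn hP.comap_subtype
    have h2 := Cfsg.Agent.S0912.result p M hM b hb _ hDb
    refine ⟨E, hE, 1, ?_⟩
    intro x hx
    obtain ⟨x', hx', rfl⟩ := Subgroup.mem_map.mp hx
    have e : (MulAut.conj (1 : G)).toMonoidHom x' = x' := by simp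
    rw [e]
    apply hle
    exact Subgroup.mem_map.mpr ⟨⟨x', hPH' hx'⟩,
      h2 (h1 (Subgroup.mem_subgroupOf.mpr hx')), rfl⟩
  · rintro ⟨D, hD, x, hx⟩
    have hD' := Helper7.isDefectGroup_conj hD x⁻¹
    have hPD' : P ≤ D.map (MulAut.conj x⁻¹).toMonoidHom := by
      intro u hu
      have h1 : x * u * x⁻¹ ∈ D := hx (Subgroup.mem_map.mpr ⟨u, hu, by simp⟩)
      refine Subgroup.mem_map.mpr ⟨x * u * x⁻¹, h1, ?_⟩
      simp only [MulEquiv.coe_toMonoidHom, MulAut.conj_apply]
      group
    exact Helper7.exists_induced_block_of_le_defect hM hB hD' P H hPD' hPH' hCH hHN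

end Cfsg.Agent.S0958
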