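import Cfsg.Statements.S0959
import Mathlib
import Cfsg.Agent.Helper7.MinMax

set_option autoImplicit false
open Cfsg

namespace Cfsg.Agent.S0959

open Cfsg.Agent.Helper25 Cfsg.Agent.Helper7

/-- Let B be a block of the finite group G with defect group D (relative to a maximal ideal M of the algebraic integers containing the prime p), and let P be a p-subgroup. Then there is an element g whose idempotent coefficient for B is a local integer outside the local ideal at M and which has a conjugate centralizing P, if and only if some conjugate of P is contained in D. -/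
theorem result {G : Type*} [Group G] [Finite G] (p : ℕ) [Fact p.Prime] (M : Ideal Cfsg.AlgInt) (hM : Cfsg.IsPModular p M) (B : Set (Cfsg.IrrCharacter G)) (hB : Cfsg.IsPBlock M B) (D : Subgroup G) (hD : Cfsg.IsDefectGroup p M B D) (P : Subgroup G) (hP : IsPGroup p P) : (∃ g : G, Cfsg.MemLocalRing M (Cfsg.blockCoeff B g) ∧ ¬ Cfsg.MemLocalIdeal M (Cfsg.blockCoeff B g) ∧ ∃ c : G, IsConj g c ∧ c ∈ Subgroup.centralizer (P : Set G)) ↔ ∃ x : G, P.map (MulAut.conj x).toMonoidHom ≤ D := by
  classical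
  obtain ⟨g₀, hg₀, Pd, rfl⟩ := hD
  constructor
  · rintro ⟨g, hlr, hli, c, hgc, hcP⟩
    have hc : ¬ MemLocalIdeal M (blockCoeff B c) := by
      obtain ⟨t, ht⟩ := isConj_iff.mp hgc
      rw [← ht, blockCoeff_conj]
      exact hli
    have hPc : P ≤ Subgroup.centralizer ({c} : Set G) := by
      intro u hu
      rw [Subgroup.mem_centralizer_singleton_iff]
      have := Subgroup.mem_centralizer_iff.mp hcP u hu
      exact this
    obtain ⟨x, hx⟩ := minmax_a hM hB g₀ hg₀.2.2 Pd c hc P hP hPc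
    refine ⟨x⁻¹, ?_⟩
    intro q hq
    obtain ⟨u, hu, rfl⟩ := Subgroup.mem_map.mp hq
    obtain ⟨w, hw, hwu⟩ := Subgroup.mem_map.mp (hx hu)
    have : (MulAut.conj x⁻¹).toMonoidHom u = w := by
      rw [← hwu]
      simp [MulAut.conj_apply, mul_assoc]
    rw [this]
    exact hw
  · rintro ⟨x, hx⟩
    refine ⟨g₀, hg₀.1, hg₀.2.1, x⁻¹ * g₀ * x, isConj_iff.mpr ⟨x⁻¹, by simp⟩, ?_⟩
    rw [Subgroup.mem_centralizer_iff]
    intro u hu
    have h1 : x * u * x⁻¹ ∈ (Pd : Subgroup (Subgroup.centralizer ({g₀} : Set G))).map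
        (Subgroup.centralizer ({g₀} : Set G)).subtype :=
      hx (Subgroup.mem_map.mpr ⟨u, hu, by simp [MulAut.conj_apply]⟩)
    obtain ⟨w, -, hw⟩ := Subgroup.mem_map.mp h1
    have h2 : x * u * x⁻¹ ∈ Subgroup.centralizer ({g₀} : Set G) := by
      rw [← hw]
      exact w.2
    rw [Subgroup.mem_centralizer_singleton_iff] at h2
    have h3 : u * (x⁻¹ * g₀ * x) = x⁻¹ * ((x * u * x⁻¹) * g₀) * x := by group
    have h4 : x⁻¹ * g₀ * x * u = x⁻¹ * (g₀ * (x * u * x⁻¹)) * x := by group
    rw [h3, h4, h2]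

end Cfsg.Agent.S0959
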