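import Cfsg.Statements.S0966
import Mathlib
import Cfsg.Agent.Helper2.BlockCov2

set_option autoImplicit false
open Cfsg

namespace Cfsg.Agent.S0966

open Cfsg.Agent.Helper2 Cfsg.Agent.Helper25 Cfsg.Agent.Helper7

/-- Let N be a normal subgroup of p-power index in the finite group G and b a block of N relative to a maximal ideal M of the algebraic integers containing p. Then there is exactly one block B of G containing a character whose restriction to N has a constituent in b. -/
theorem result {G : Type*} [Group G] [Fintype G] (p : ℕ) [Fact p.Prime] (M : Ideal Cfsg.AlgInt) (hM : Cfsg.IsPModular p M) (N : Subgroup G) [N.Normal] [Fintype N] (hidx : ∃ k : ℕ, N.index = p ^ k) (b : Set (Cfsg.IrrCharacter N)) (hb : Cfsg.IsPBlock M b) : ∃! B : Set (Cfsg.IrrCharacter G), Cfsg.IsPBlock M B ∧ ∃ χ ∈ B, ∃ θ ∈ b, Cfsg.classInner (fun n : N => (χ : G → ℂ) n) (θ : N → ℂ) ≠ 0 := by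
  classical
  have hp : p.Prime := Fact.out
  obtain ⟨k, hk⟩ := hidx
  obtain ⟨θ, rfl⟩ := hb
  have hθ := self_mem_blockOf hM θ
  have hψ1 : indFun N (θ : N → ℂ) 1 ≠ 0 := by
    rw [indFun_one]
    apply mul_ne_zero (inv_ne_zero (Nat.cast_ne_zero.mpr Nat.card_pos.ne'))
    exact mul_ne_zero (Nat.cast_ne_zero.mpr Nat.card_pos.ne') (irr_one_ne_zero θ)
  obtain ⟨χ, hχ⟩ := Cfsg.Agent.Helper24.exists_constituent
    (isCharacter_indFun N (isCharacter_of_isIrrCharacter θ.2)) hψ1
  have hχθ : classInner (fun n : N => (χ : G → ℂ) n) (θ : N → ℂ) ≠ 0 := by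
    rw [classInner_conj_symm, ← frobenius_reciprocity N (θ : N → ℂ) (χ : G → ℂ)
      (isClassFunction_of_isCharacter (isCharacter_of_isIrrCharacter χ.2))]
    intro h0
    apply hχ
    have := congrArg (starRingEnd ℂ) h0
    simpa using this
  refine ⟨blockOf M (χ : G → ℂ), ⟨isPBlock_blockOf χ, χ, self_mem_blockOf hM χ, θ, hθ, hχθ⟩, ?_⟩
  rintro B' ⟨hB', χ', hχ', θ', hθ', hcon'⟩
  rw [eq_blockOf_of_mem hM hB' hχ']
  apply blockOf_eq_of_sameBlock hM
  apply sameBlock_of_regular hM χ' χ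
  intro g hg
  have hgN : g ∈ N := mem_of_regular_of_index_pow hp N k hk g hg
  have e1 := centralChar_eq_induced_of_constituent N χ' θ' hcon' ⟨g, hgN⟩
  have e2 := centralChar_eq_induced_of_constituent N χ θ hχθ ⟨g, hgN⟩
  change centralChar (χ' : G → ℂ) g = inducedCentralChar N (θ' : N → ℂ) g at e1
  change centralChar (χ : G → ℂ) g = inducedCentralChar N (θ : N → ℂ) g at e2
  rw [e1, e2]
  exact li_inducedCentralChar_sub hM N θ θ' hθ' g

end Cfsg.Agent.S0966
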