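import Cfsg.Statements.S0968
import Mathlib
import Cfsg.Agent.Helper2.CentProd4

set_option autoImplicit false
open Cfsg

namespace Cfsg.Agent.S0968

open Cfsg Cfsg.Agent.Helper25 Cfsg.Agent.Helper7 Cfsg.Agent.Helper2

/-- Let P be a p-subgroup of the finite group G with P ⊔ C_G(P) = G, and let B be a block with defect group P relative to a maximal ideal M of the algebraic integers containing p. Then there is exactly one θ ∈ B with θ x = θ 1 for all x ∈ P; for this θ the exponent of p in θ(1) equals the exponent of p in the index of P; and the number of members of B equals the number of conjugacy classes of P. -/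
theorem result {G : Type*} [Group G] [Finite G] (p : ℕ) [Fact p.Prime] (M : Ideal Cfsg.AlgInt) (hM : Cfsg.IsPModular p M) (P : Subgroup G) (hP : IsPGroup p P) (hG : P ⊔ Subgroup.centralizer (P : Set G) = ⊤) (B : Set (Cfsg.IrrCharacter G)) (hB : Cfsg.IsPBlock M B) (hD : Cfsg.IsDefectGroup p M B P) : (∃! θ : Cfsg.IrrCharacter G, θ ∈ B ∧ ∀ x ∈ P, (θ : G → ℂ) x = (θ : G → ℂ) 1) ∧ (∀ θ ∈ B, (∀ x ∈ P, (θ : G → ℂ) x = (θ : G → ℂ) 1) → (Cfsg.charDegree (θ : G → ℂ)).factorization p = P.index.factorization p) ∧ Nat.card B = Nat.card (ConjClasses P) := by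
  classical
  haveI : Fintype P := Fintype.ofFinite P
  obtain ⟨θ, hθ, hk, huniq, hdeg, F, hFB, hFinj, hFsurj, -⟩ := centProd_param hM P hP hG B hB hD
  refine ⟨⟨θ, ⟨hθ, fun x hx => (mem_irrKer θ x).mp (hk hx)⟩, ?_⟩, ?_, ?_⟩
  · rintro θ' ⟨hθ', hk'⟩
    exact huniq θ' hθ' (fun x hx => (mem_irrKer θ' x).mpr (hk' x hx))
  · intro θ' hθ' hk'
    rw [huniq θ' hθ' (fun x hx => (mem_irrKer θ' x).mpr (hk' x hx))]
    exact hdeg
  · rw [← Cfsg.Agent.Helper1.card_irr]
    symm
    apply Nat.card_congr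
    exact Equiv.ofBijective (fun ζ : IrrCharacter P => (⟨F ζ, hFB ζ⟩ : B))
      ⟨fun ζ ζ' h => hFinj (congrArg Subtype.val h), fun ⟨χ, hχ⟩ => by
        obtain ⟨ζ, hζ⟩ := hFsurj χ hχ
        exact ⟨ζ, Subtype.ext hζ⟩⟩

end Cfsg.Agent.S0968
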