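import Cfsg.Statements.S0970
import Mathlib
import Cfsg.Agent.Helper2.Fong

set_option autoImplicit false
open Cfsg

namespace Cfsg.Agent.S0970

open Cfsg Cfsg.Agent.Helper2 Cfsg.Agent.Helper25 Cfsg.Agent.Helper7

/-- Let N be a normal subgroup of the finite group G and fix a maximal ideal M of the algebraic integers containing the prime p. Let b be a block of N that is invariant under conjugation by G, and B a block of G covering b (some χ ∈ B has a constituent in b) whose defect is at least that of every block covering b. If P is a defect group of B, then p does not divide the index of P ⊔ N, the subgroup P ∩ N of N is a defect group of b, and the defect of B equals the defect of b plus the exponent of p in the index of N. -/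
theorem result {G : Type*} [Group G] [Fintype G] (p : ℕ) [Fact p.Prime] (M : Ideal Cfsg.AlgInt) (hM : Cfsg.IsPModular p M) (N : Subgroup G) [hN : N.Normal] [Fintype N] (b : Set (Cfsg.IrrCharacter N)) (hb : Cfsg.IsPBlock M b) (hinv : ∀ g : G, ∀ θ ∈ b, ∀ θ' : Cfsg.IrrCharacter N, (∀ n : N, (θ' : N → ℂ) n = (θ : N → ℂ) ⟨g * n * g⁻¹, hN.conj_mem n n.2 g⟩) → θ' ∈ b) (B : Set (Cfsg.IrrCharacter G)) (hB : Cfsg.IsPBlock M B) (hcov : ∃ χ ∈ B, ∃ θ ∈ b, Cfsg.classInner (fun n : N => (χ : G → ℂ) n) (θ : N → ℂ) ≠ 0) (hmax : ∀ B' : Set (Cfsg.IrrCharacter G), Cfsg.IsPBlock M B' → (∃ χ ∈ B', ∃ θ ∈ b, Cfsg.classInner (fun n : N => (χ : G → ℂ) n) (θ : N → ℂ) ≠ 0) → Cfsg.blockDefect p B' ≤ Cfsg.blockDefect p B) (P : Subgroup G) (hP : Cfsg.IsDefectGroup p M B P) : ¬ p ∣ (P ⊔ N).index ∧ Cfsg.IsDefectGroup p M b ((P ⊓ N).subgroupOf N) ∧ Cfsg.blockDefect p B = Cfsg.blockDefect p b + N.index.factorization p := by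
  classical
  have hp := hM.1
  have hst : ∀ (x : G) (ξ : IrrCharacter N), ξ ∈ b → conjIrrEquiv N x ξ ∈ b :=
    fun x ξ hξ => hinv x ξ hξ (conjIrrEquiv N x ξ) (fun n => rfl)
  obtain ⟨mB, hmB⟩ : ∃ mB : ℕ, mB = sInf ((fun χ : IrrCharacter G =>
      (charDegree (χ : G → ℂ)).factorization p) '' B) := ⟨_, rfl⟩
  obtain ⟨mb, hmb⟩ : ∃ mb : ℕ, mb = sInf ((fun χ : IrrCharacter N =>
      (charDegree (χ : N → ℂ)).factorization p) '' b) := ⟨_, rfl⟩
  obtain ⟨B', hB', hcov', hmin'⟩ := exists_cover_same_min hM N b hb hst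
  have h1 : mb ≤ mB := by
    rw [hmb, hmB]
    exact sInf_le_of_cover hM N b hb hst B hB hcov
  have hmax' := hmax B' hB' hcov'
  unfold blockDefect at hmax'
  rw [hmin', ← hmb, ← hmB] at hmax'
  obtain ⟨χ₀, hχ₀, θ₀, hθ₀, hcon0⟩ := hcov
  have hfacle : ∀ {K : Type _} [Group K] [Finite K] (χ : IrrCharacter K),
      (charDegree (χ : K → ℂ)).factorization p ≤ (Nat.card K).factorization p := by
    intro K _ _ χ
    exact (Nat.factorization_le_iff_dvd (irr_degree_pos χ).ne' Nat.card_pos.ne').mpr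
      (irr_degree_dvd_card χ) p
  have h2 : mB ≤ (Nat.card G).factorization p := by
    rw [hmB]
    exact le_trans (Nat.sInf_le ⟨χ₀, hχ₀, rfl⟩) (hfacle χ₀)
  have h3 : mb ≤ (Nat.card N).factorization p := by
    rw [hmb]
    exact le_trans (Nat.sInf_le ⟨θ₀, hθ₀, rfl⟩) (hfacle θ₀)
  have hmeq : mB = mb := by omega
  have hcard : (Nat.card G).factorization p
      = (Nat.card N).factorization p + N.index.factorization p := by
    rw [← N.card_mul_index, Nat.factorization_mul Nat.card_pos.ne' Subgroup.index_ne_zero_of_finite]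
    rfl
  have hdef : blockDefect p B = blockDefect p b + N.index.factorization p := by
    unfold blockDefect
    rw [← hmB, ← hmb]
    omega
  have hPcard := card_defectGroup hM hB hP
  obtain ⟨y, hy, Pd, hPeq⟩ := hP
  have hPy : P ≤ Subgroup.centralizer ({y} : Set G) := by
    rw [hPeq]
    exact Subgroup.map_subtype_le _
  have hPp : IsPGroup p P := IsPGroup.of_card hPcard
  have hQp : IsPGroup p (P ⊓ N : Subgroup G) := hPp.to_le inf_le_left
  obtain ⟨x, hx, hxQ⟩ := exists_fixed_coeff hM N b hb hst B hB ⟨χ₀, hχ₀, θ₀, hθ₀, hcon0⟩ y hy.2.1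
    (P ⊓ N) hQp (fun q hq => by
      have h4 := Subgroup.mem_centralizer_iff.mp (hPy hq.1) y (Set.mem_singleton y)
      exact h4.symm)
  have hle : (P ⊓ N).subgroupOf N ≤ Subgroup.centralizer ({x} : Set N) := by
    intro h hh
    rw [Subgroup.mem_centralizer_iff]
    intro z hz
    rw [Set.mem_singleton_iff] at hz
    subst hz
    apply Subtype.ext
    have h4 := hxQ (h : G) (Subgroup.mem_subgroupOf.mp hh)
    exact h4.symm
  obtain ⟨D, hD, hle2⟩ := exists_defectGroup_ge hM hb x hx ((P ⊓ N).subgroupOf N)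
    hQp.comap_subtype hle
  have hDcard := card_defectGroup hM hb hD
  have hc1 : Nat.card ((P ⊓ N).subgroupOf N) = Nat.card (P ⊓ N : Subgroup G) :=
    Nat.card_congr (Subgroup.subgroupOfEquivOfLe (inf_le_right : P ⊓ N ≤ N)).toEquiv
  have e1 := card_inf_mul_relIndex N P
  have e2 := Subgroup.relIndex_mul_index (le_sup_left : N ≤ N ⊔ P)
  rw [Subgroup.relIndex_sup_left] at e2
  have hdvdP : Nat.card (N ⊓ P : Subgroup G) ∣ p ^ blockDefect p B := by
    rw [← hPcard, ← e1]
    exact Dvd.intro _ rfl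
  obtain ⟨j, -, hj⟩ := (Nat.dvd_prime_pow hp).mp hdvdP
  have hdvdR : N.relIndex P ∣ p ^ blockDefect p B := by
    rw [← hPcard, ← e1]
    exact Dvd.intro_left _ rfl
  obtain ⟨i, -, hi⟩ := (Nat.dvd_prime_pow hp).mp hdvdR
  have hji : j + i = blockDefect p B := by
    rw [hj, hi, hPcard, ← pow_add] at e1
    exact Nat.pow_right_injective hp.two_le e1
  have hjle : j ≤ blockDefect p b := by
    have h5 : Nat.card ((P ⊓ N).subgroupOf N) ∣ Nat.card D := Subgroup.card_dvd_of_le hle2
    rw [hc1, inf_comm, hj, hDcard] at h5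
    exact (Nat.pow_dvd_pow_iff_le_right hp.one_lt).mp h5
  have hile : i ≤ N.index.factorization p := by
    have h5 : p ^ i ∣ N.index := by
      rw [← hi, ← e2]
      exact Dvd.intro _ rfl
    exact (hp.pow_dvd_iff_le_factorization Subgroup.index_ne_zero_of_finite).mp h5
  have hj' : j = blockDefect p b := by omega
  have hi' : i = N.index.factorization p := by omega
  refine ⟨?_, ?_, hdef⟩
  · rw [sup_comm]
    intro hdvd
    have h5 : p ^ (N.index.factorization p + 1) ∣ N.index := by
      have h6 : p ^ N.index.factorization p * p ∣ N.relIndex P * (N ⊔ P).index := by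
        rw [hi, hi']
        exact mul_dvd_mul_left _ hdvd
      rw [e2] at h6
      rw [pow_succ]
      exact h6
    exact Nat.pow_succ_factorization_not_dvd Subgroup.index_ne_zero_of_finite hp h5
  · have heq : (P ⊓ N).subgroupOf N = D := by
      apply Subgroup.eq_of_le_of_card_ge hle2
      rw [hc1, inf_comm, hj, hj', hDcard]
    rw [heq]
    exact hD

end Cfsg.Agent.S0970
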