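import Cfsg.Statements.S0972
import Mathlib
import Cfsg.Agent.Helper2.NormalDefect
import Cfsg.Agent.S0169
import Cfsg.Agent.Helper25.CharClass
import Cfsg.Agent.Helper7.FirstMain

set_option autoImplicit false
open Cfsg

namespace Cfsg.Agent.S0972

open Cfsg Cfsg.Agent.Helper25 Cfsg.Agent.Helper7 Cfsg.Agent.Helper2
open scoped ComplexConjugate

/-- Let B be a block of the finite group G (relative to a maximal ideal M of the algebraic integers containing the prime p) with a defect group P that is normal in G. Then P is commutative if and only if every member of B has height zero. -/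
theorem result {G : Type*} [Group G] [Finite G] (p : ℕ) [Fact p.Prime] (M : Ideal Cfsg.AlgInt) (hM : Cfsg.IsPModular p M) (B : Set (Cfsg.IrrCharacter G)) (hB : Cfsg.IsPBlock M B) (P : Subgroup G) [P.Normal] (hP : Cfsg.IsDefectGroup p M B P) : (∀ a ∈ P, ∀ c ∈ P, a * c = c * a) ↔ ∀ χ ∈ B, Cfsg.blockHeight p B (χ : G → ℂ) = 0 := by
  classical
  haveI : Fintype G := Fintype.ofFinite G
  haveI : Fintype P := Fintype.ofFinite P
  have hp : p.Prime := Fact.out
  have hPidx0 : P.index ≠ 0 := Subgroup.index_ne_zero_of_finite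
  have ha : (Nat.card P).factorization p + P.index.factorization p
      = (Nat.card G).factorization p := by
    rw [← Subgroup.card_mul_index P, Nat.factorization_mul Nat.card_pos.ne' hPidx0]
    rfl
  have hcd := card_defectGroup hM hB hP
  unfold blockDefect at hcd
  have hc : (Nat.card P).factorization p = (Nat.card G).factorization p -
      sInf ((fun χ : IrrCharacter G => (charDegree (χ : G → ℂ)).factorization p) '' B) := by
    rw [hcd, hp.factorization_pow, Finsupp.single_eq_same]
  have hPp : IsPGroup p P := isPGroup_of_isDefectGroup hP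
  constructor
  · intro hab χ hχ
    obtain ⟨n, ρ, hρ, hχρ⟩ := χ.2
    haveI : ρ.IsIrreducible := hρ
    have hito := Cfsg.Agent.S0169.result ρ P hab
    have hdeg : charDegree (χ : G → ℂ) = Module.finrank ℂ (Fin n → ℂ) := by
      have h1 := irr_one_eq_degree χ
      have h2 : (χ : G → ℂ) 1 = (Module.finrank ℂ (Fin n → ℂ) : ℂ) := by
        rw [← hχρ]
        exact Representation.char_one ρ
      rw [h2] at h1
      exact (Nat.cast_injective h1).symm
    have h1 : (charDegree (χ : G → ℂ)).factorization p ≤ P.index.factorization p :=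
      (Nat.factorization_le_iff_dvd (irr_degree_pos χ).ne' hPidx0).mpr (hdeg ▸ hito) p
    have h3 : sInf ((fun χ : IrrCharacter G => (charDegree (χ : G → ℂ)).factorization p) '' B)
        ≤ (charDegree (χ : G → ℂ)).factorization p := Nat.sInf_le ⟨χ, hχ, rfl⟩
    unfold blockHeight
    omega
  · intro hht a ha' c hc'
    by_contra hne
    obtain ⟨w, hwdef⟩ : ∃ w : P, w = ⟨a, ha'⟩ * ⟨c, hc'⟩ * ⟨a, ha'⟩⁻¹ * ⟨c, hc'⟩⁻¹ := ⟨_, rfl⟩
    have hw1 : w ≠ 1 := by
      intro h
      apply hne
      rw [hwdef] at h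
      have h2 := congrArg Subtype.val h
      simp only [Subgroup.coe_mul, Subgroup.coe_inv, Subgroup.coe_one] at h2
      have h3 : a * c = (a * c * a⁻¹ * c⁻¹) * (c * a) := by group
      rw [h3, h2, one_mul]
    have hval : ∀ χ ∈ B, (χ : G → ℂ) (w : G) = (χ : G → ℂ) 1 := by
      intro χ hχ
      have hχP : IsCharacter P (fun y : P => (χ : G → ℂ) y) :=
        isCharacter_restrict P (isCharacter_of_isIrrCharacter χ.2)
      have hexp := classFun_eq_sum_classInner (isClassFunction_of_isCharacter hχP)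
      have hw := congrFun hexp w
      have h1' := congrFun hexp 1
      simp only [Finset.sum_apply, Pi.smul_apply, smul_eq_mul] at hw h1'
      rw [hw, show (χ : G → ℂ) 1 = (χ : G → ℂ) ((1 : P) : G) from rfl, h1']
      apply Finset.sum_congr rfl
      intro ζ _
      by_cases hζ : classInner (fun y : P => (χ : G → ℂ) y) (ζ : P → ℂ) = 0
      · rw [hζ, zero_mul, zero_mul]
      · have h2 := degree_val_ge_of_normal_defect hM P hB hP χ hχ ζ hζ
        have h3 := hht χ hχ
        unfold blockHeight at h3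
        have h4 : sInf ((fun χ : IrrCharacter G => (charDegree (χ : G → ℂ)).factorization p) '' B)
            ≤ (charDegree (χ : G → ℂ)).factorization p := Nat.sInf_le ⟨χ, hχ, rfl⟩
        have h5 : (charDegree (χ : G → ℂ)).factorization p ≤ (Nat.card G).factorization p :=
          (Nat.factorization_le_iff_dvd (irr_degree_pos χ).ne' Nat.card_pos.ne').mpr
            (irr_degree_dvd_card χ) p
        have hζ0 : (charDegree (ζ : P → ℂ)).factorization p = 0 := by omega
        obtain ⟨n, hn⟩ := IsPGroup.iff_card.mp hPp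
        obtain ⟨j, -, hj⟩ := (Nat.dvd_prime_pow hp).mp (hn ▸ irr_degree_dvd_card ζ)
        have hj0 : j = 0 := by
          rw [hj, hp.factorization_pow, Finsupp.single_eq_same] at hζ0
          exact hζ0
        have hζ1 : (ζ : P → ℂ) 1 = 1 := by
          rw [irr_one_eq_degree, hj, hj0, pow_zero, Nat.cast_one]
        have hmul := irr_linear_mul ζ hζ1
        have hζw : (ζ : P → ℂ) w = 1 := by
          rw [hwdef, hmul, hmul, hmul]
          have e1 : (ζ : P → ℂ) ⟨a, ha'⟩ * (ζ : P → ℂ) (⟨a, ha'⟩ : P)⁻¹ = 1 := by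
            rw [← hmul, mul_inv_cancel, hζ1]
          have e2 : (ζ : P → ℂ) ⟨c, hc'⟩ * (ζ : P → ℂ) (⟨c, hc'⟩ : P)⁻¹ = 1 := by
            rw [← hmul, mul_inv_cancel, hζ1]
          calc (ζ : P → ℂ) ⟨a, ha'⟩ * (ζ : P → ℂ) ⟨c, hc'⟩ * (ζ : P → ℂ) (⟨a, ha'⟩ : P)⁻¹
                * (ζ : P → ℂ) (⟨c, hc'⟩ : P)⁻¹
              = ((ζ : P → ℂ) ⟨a, ha'⟩ * (ζ : P → ℂ) (⟨a, ha'⟩ : P)⁻¹)
                * ((ζ : P → ℂ) ⟨c, hc'⟩ * (ζ : P → ℂ) (⟨c, hc'⟩ : P)⁻¹) := by ring
            _ = 1 := by rw [e1, e2, one_mul]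
        rw [hζw, hζ1]
    have hsing : p ∣ orderOf (w : G) := by
      have hord : orderOf (w : G) = orderOf w := Subgroup.orderOf_coe w
      obtain ⟨k, hk⟩ := (IsPGroup.iff_orderOf.mp hPp) w
      rw [hord, hk]
      cases k with
      | zero =>
        rw [pow_zero, orderOf_eq_one_iff] at hk
        exact absurd hk hw1
      | succ k => exact dvd_pow_self p (Nat.succ_ne_zero k)
    have h0 := blockCoeff_eq_zero_of_singular hM hB (w : G) hsing
    unfold blockCoeff at h0
    rw [finsum_mem_eq_finite_toFinset_sum _ (Set.toFinite B)] at h0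
    have hG0 : (Nat.card G : ℂ) ≠ 0 := Nat.cast_ne_zero.mpr Nat.card_pos.ne'
    have hsum0 : ∑ χ ∈ (Set.toFinite B).toFinset,
        (χ : G → ℂ) 1 * conj ((χ : G → ℂ) (w : G)) = 0 := by
      rcases mul_eq_zero.mp h0 with h | h
      · exact absurd (inv_eq_zero.mp h) hG0
      · exact h
    have hterm : ∀ χ ∈ (Set.toFinite B).toFinset,
        (χ : G → ℂ) 1 * conj ((χ : G → ℂ) (w : G)) = ((charDegree (χ : G → ℂ) ^ 2 : ℕ) : ℂ) := by
      intro χ hχ
      rw [Set.Finite.mem_toFinset] at hχ
      rw [hval χ hχ, irr_one_eq_degree, Complex.conj_natCast]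
      push_cast
      ring
    rw [Finset.sum_congr rfl hterm] at hsum0
    have hsumN : ∑ χ ∈ (Set.toFinite B).toFinset, charDegree (χ : G → ℂ) ^ 2 = 0 := by
      exact_mod_cast hsum0
    obtain ⟨χ₀, hχ₀⟩ : ∃ χ₀, χ₀ ∈ B := by
      obtain ⟨ψ, rfl⟩ := hB
      exact ⟨ψ, self_mem_blockOf hM ψ⟩
    have h6 := (Finset.sum_eq_zero_iff.mp hsumN) χ₀ ((Set.Finite.mem_toFinset _).mpr hχ₀)
    have hpos := irr_degree_pos χ₀
    have h7 : charDegree (χ₀ : G → ℂ) = 0 := by simpa using h6
    omega

end Cfsg.Agent.S0972
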