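import Cfsg.Statements.S0985
import Mathlib

set_option autoImplicit false
open Cfsg

namespace Cfsg.Agent.S0985

/-- the orbit of a Sylow subgroup `R` under conjugation by the Sylow subgroup `P` has
`|P : P ∩ R|` elements. -/
lemma card_orbit_sylow {G : Type*} [Group G] [Finite G] (p : ℕ) [Fact p.Prime] (P R : Sylow p G) :
    Nat.card (MulAction.orbit (P : Subgroup G) R) =
      ((R : Subgroup G).subgroupOf (P : Subgroup G)).index := by
  have hstab : MulAction.stabilizer (P : Subgroup G) R =
      (Subgroup.normalizer ((R : Subgroup G) : Set G)).subgroupOf (P : Subgroup G) := by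
    ext x
    rw [MulAction.mem_stabilizer_iff, Subgroup.mem_subgroupOf]
    exact Sylow.smul_eq_iff_mem_normalizer
  rw [Nat.card_coe_set_eq, ← MulAction.index_stabilizer, hstab]
  change (Subgroup.normalizer ((R : Subgroup G) : Set G)).relIndex (P : Subgroup G) =
    (R : Subgroup G).relIndex (P : Subgroup G)
  have e : (P : Subgroup G) ⊓ Subgroup.normalizer ((R : Subgroup G) : Set G) =
      (P : Subgroup G) ⊓ (R : Subgroup G) := P.isPGroup'.inf_normalizer_sylow R
  rw [← Subgroup.inf_relIndex_left, e, Subgroup.inf_relIndex_left]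

/-- If the number of Sylow p-subgroups of a finite group is not congruent to 1 modulo p^k, then there are two distinct Sylow p-subgroups P and R such that the index of P ∩ R in P is at most p^(k-1). -/
theorem result {G : Type*} [Group G] [Finite G] (p k : ℕ) [Fact p.Prime] (h : ¬ Nat.card (Sylow p G) ≡ 1 [MOD p ^ k]) : ∃ P R : Sylow p G, P ≠ R ∧ ((R : Subgroup G).subgroupOf (P : Subgroup G)).index ≤ p ^ (k - 1) := by
  classical
  by_contra hcon
  push Not at hcon
  apply h
  have hk : k ≠ 0 := by
    rintro rfl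
    exact h (by rw [pow_zero]; exact Nat.modEq_one)
  obtain ⟨P⟩ : Nonempty (Sylow p G) := inferInstance
  haveI : Fintype (MulAction.orbitRel.Quotient (P : Subgroup G) (Sylow p G)) := Fintype.ofFinite _
  rw [Nat.card_congr (MulAction.selfEquivSigmaOrbits' (P : Subgroup G) (Sylow p G)), Nat.card_sigma]
  have h0 : Nat.card (MulAction.orbitRel.Quotient.orbit
      (Quotient.mk'' P : MulAction.orbitRel.Quotient (P : Subgroup G) (Sylow p G))) = 1 := by
    rw [MulAction.orbitRel.Quotient.orbit_mk, card_orbit_sylow]
    rw [Subgroup.subgroupOf_self, Subgroup.index_top]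
  have hrest : ∀ ω ∈ (Finset.univ : Finset (MulAction.orbitRel.Quotient (P : Subgroup G)
      (Sylow p G))).erase (Quotient.mk'' P), p ^ k ∣ Nat.card (MulAction.orbitRel.Quotient.orbit ω) := by
    intro ω hω
    obtain ⟨R, rfl⟩ := Quotient.exists_rep ω
    have hne : P ≠ R := by
      rintro rfl
      exact (Finset.mem_erase.mp hω).1 rfl
    have h1 := hcon P R hne
    change p ^ k ∣ Nat.card (MulAction.orbitRel.Quotient.orbit
      (Quotient.mk'' R : MulAction.orbitRel.Quotient (P : Subgroup G) (Sylow p G)))
    rw [MulAction.orbitRel.Quotient.orbit_mk, card_orbit_sylow]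
    obtain ⟨n, hn⟩ := IsPGroup.index P.isPGroup' ((R : Subgroup G).subgroupOf (P : Subgroup G))
    rw [hn] at h1 ⊢
    have h2 : k - 1 < n := (Nat.pow_lt_pow_iff_right (Fact.out : p.Prime).one_lt).mp h1
    exact pow_dvd_pow p (by omega)
  rw [← Finset.add_sum_erase Finset.univ _ (Finset.mem_univ (Quotient.mk'' P)), h0]
  have h3 := Nat.modEq_zero_iff_dvd.mpr (Finset.dvd_sum hrest)
  exact Nat.ModEq.add_left 1 h3

end Cfsg.Agent.S0985
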