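import Cfsg.Statements.S0986
import Cfsg.Agent.Lead.SylowSub
import Cfsg.Agent.Lead.CharSub
import Cfsg.Agent.S0001
import Mathlib

set_option autoImplicit false
open Cfsg

namespace Cfsg.Agent.S0986

/-- Let P and Q be distinct Sylow p-subgroups of a finite group G chosen so that the order of P ∩ Q is as large as possible among intersections of two distinct Sylow p-subgroups, and let N be the normalizer of P ∩ Q. Then N has more than one Sylow p-subgroup, any two distinct Sylow p-subgroups of N intersect exactly in P ∩ Q, and each Sylow p-subgroup of N lies in exactly one Sylow p-subgroup of G. -/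
theorem result {G : Type*} [Group G] [Finite G] (p : ℕ) [Fact p.Prime] (P Q : Sylow p G) (hPQ : P ≠ Q) (hmax : ∀ P' Q' : Sylow p G, P' ≠ Q' → Nat.card ↥((P' : Subgroup G) ⊓ (Q' : Subgroup G)) ≤ Nat.card ↥((P : Subgroup G) ⊓ (Q : Subgroup G))) : 1 < Nat.card (Sylow p ↥(Subgroup.normalizer (((P : Subgroup G) ⊓ (Q : Subgroup G) : Subgroup G) : Set G))) ∧ (∀ S T : Sylow p ↥(Subgroup.normalizer (((P : Subgroup G) ⊓ (Q : Subgroup G) : Subgroup G) : Set G)), S ≠ T → (S : Subgroup _) ⊓ (T : Subgroup _) = ((P : Subgroup G) ⊓ (Q : Subgroup G)).subgroupOf (Subgroup.normalizer (((P : Subgroup G) ⊓ (Q : Subgroup G) : Subgroup G) : Set G))) ∧ ∀ S : Sylow p ↥(Subgroup.normalizer (((P : Subgroup G) ⊓ (Q : Subgroup G) : Subgroup G) : Set G)), ∃! T : Sylow p G, (S : Subgroup _).map (Subgroup.normalizer (((P : Subgroup G) ⊓ (Q : Subgroup G) : Subgroup G) : Set G)).subtype ≤ (T : Subgroup G) := by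
  generalize hD : (P : Subgroup G) ⊓ (Q : Subgroup G) = D at hmax ⊢
  generalize hN : Subgroup.normalizer (D : Set G) = N
  have hDP : D ≤ P := hD ▸ inf_le_left
  have hDQ : D ≤ Q := hD ▸ inf_le_right
  have hDN : D ≤ N := hN ▸ Subgroup.le_normalizer
  have hDp : IsPGroup p D := P.isPGroup'.to_le hDP
  have hDltP : D < P := lt_of_le_of_ne hDP (fun h => hPQ (by
    have hle : (P : Subgroup G) ≤ Q := h ▸ hDQ
    exact Sylow.ext (P.is_maximal' Q.isPGroup' hle).symm))
  have hDltQ : D < Q := lt_of_le_of_ne hDQ (fun h => hPQ (by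
    have hle : (Q : Subgroup G) ≤ P := h ▸ hDP
    exact Sylow.ext (Q.is_maximal' P.isPGroup' hle)))
  have hgrow : ∀ R : Sylow p G, D < (R : Subgroup G) →
      Nat.card D < Nat.card ((R : Subgroup G) ⊓ N : Subgroup G) := by
    intro R hlt
    obtain ⟨x, hxR, hxD, hxN⟩ := Lead.exists_mem_normalizer_not_mem R.isPGroup' hlt
    apply S0001.card_lt_of_lt
    refine lt_of_le_of_ne (le_inf hlt.le hDN) ?_
    intro h
    apply hxD
    rw [h]
    exact Subgroup.mem_inf.mpr ⟨hxR, hN ▸ hxN⟩
  have hSyl : ∀ R : Sylow p G, ∃ S₁ : Sylow p N,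
      (R : Subgroup G) ⊓ N ≤ (S₁ : Subgroup N).map N.subtype := by
    intro R
    have hp' : IsPGroup p (((R : Subgroup G) ⊓ N).subgroupOf N) :=
      (R.isPGroup'.to_le inf_le_left).comap_subtype
    obtain ⟨S₁, hS₁⟩ := hp'.exists_le_sylow
    refine ⟨S₁, ?_⟩
    have := Subgroup.map_mono (f := N.subtype) hS₁
    rwa [Subgroup.map_subgroupOf_eq_of_le inf_le_right] at this
  have hcardS : ∀ S : Sylow p N, Nat.card D < Nat.card S := by
    intro S
    obtain ⟨S₁, hS₁⟩ := hSyl P
    have h1 := hgrow P hDltP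
    have h2 := Subgroup.card_le_of_le hS₁
    rw [Lead.card_map_subtype] at h2
    rw [S.card_eq_multiplicity, ← S₁.card_eq_multiplicity]
    omega
  have huniq : ∀ (S : Sylow p N) (T₁ T₂ : Sylow p G), (S : Subgroup N).map N.subtype ≤ T₁ →
      (S : Subgroup N).map N.subtype ≤ T₂ → T₁ = T₂ := by
    intro S T₁ T₂ h1 h2
    by_contra hne
    have h3 := hmax T₁ T₂ hne
    have h4 := Subgroup.card_le_of_le (le_inf h1 h2)
    rw [Lead.card_map_subtype] at h4
    have := hcardS S
    omega
  have hex : ∀ S : Sylow p N, ∃ T : Sylow p G, (S : Subgroup N).map N.subtype ≤ T :=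
    fun S => (S.isPGroup'.map N.subtype).exists_le_sylow
  refine ⟨?_, ?_, ?_⟩
  · by_contra hcon
    have hle : Nat.card (Sylow p N) ≤ 1 := by omega
    haveI : Subsingleton (Sylow p N) := Finite.card_le_one_iff_subsingleton.mp hle
    obtain ⟨S⟩ : Nonempty (Sylow p N) := inferInstance
    obtain ⟨U, hU⟩ := hex S
    have hR : ∀ R : Sylow p G, D < (R : Subgroup G) → R = U := by
      intro R hlt
      by_contra hne
      have h1 := hmax R U hne
      obtain ⟨S₁, hS₁⟩ := hSyl R
      rw [Subsingleton.elim S₁ S] at hS₁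
      have h2 : (R : Subgroup G) ⊓ N ≤ (R : Subgroup G) ⊓ U := le_inf inf_le_left (hS₁.trans hU)
      have h3 := Subgroup.card_le_of_le h2
      have h4 := hgrow R hlt
      omega
    exact hPQ ((hR P hDltP).trans (hR Q hDltQ).symm)
  · intro S T hST
    obtain ⟨S', hS'⟩ := hex S
    obtain ⟨T', hT'⟩ := hex T
    have hne : S' ≠ T' := by
      rintro rfl
      apply hST
      have hp' : IsPGroup p (((S' : Subgroup G) ⊓ N).subgroupOf N) :=
        (S'.isPGroup'.to_le inf_le_left).comap_subtype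
      have hS1 : (S : Subgroup N) ≤ ((S' : Subgroup G) ⊓ N).subgroupOf N := by
        intro s hs
        rw [Subgroup.mem_subgroupOf]
        exact Subgroup.mem_inf.mpr ⟨hS' (Subgroup.mem_map_of_mem _ hs), s.2⟩
      have hT1 : (T : Subgroup N) ≤ ((S' : Subgroup G) ⊓ N).subgroupOf N := by
        intro s hs
        rw [Subgroup.mem_subgroupOf]
        exact Subgroup.mem_inf.mpr ⟨hT' (Subgroup.mem_map_of_mem _ hs), s.2⟩
      exact Sylow.ext ((S.is_maximal' hp' hS1).symm.trans (T.is_maximal' hp' hT1))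
    have h1 := hmax S' T' hne
    have hD' : D.subgroupOf N ≤ (S : Subgroup N) ⊓ T := by
      haveI : (D.subgroupOf N).Normal := by
        subst hN; exact Subgroup.normal_in_normalizer
      have hp' : IsPGroup p (D.subgroupOf N) := hDp.comap_subtype
      exact le_inf (hp'.le_sylow_of_normal S) (hp'.le_sylow_of_normal T)
    have h2 : ((S : Subgroup N) ⊓ T).map N.subtype ≤ (S' : Subgroup G) ⊓ T' := by
      rintro _ ⟨s, hs, rfl⟩
      exact Subgroup.mem_inf.mpr
        ⟨hS' (Subgroup.mem_map_of_mem _ hs.1), hT' (Subgroup.mem_map_of_mem _ hs.2)⟩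
    have h3 := Subgroup.card_le_of_le h2
    rw [Lead.card_map_subtype] at h3
    have h4 : Nat.card (D.subgroupOf N) = Nat.card D := S0001.card_subgroupOf_of_le hDN
    exact (Subgroup.eq_of_le_of_card_ge hD' (by omega)).symm
  · intro S
    obtain ⟨T, hT⟩ := hex S
    exact ⟨T, hT, fun T' hT' => huniq S T' T hT' hT⟩

end Cfsg.Agent.S0986
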