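import Cfsg.Statements.S0987
import Cfsg.Agent.Helper4.SylowExtra
import Cfsg.Agent.S0001
import Mathlib

set_option autoImplicit false
open Cfsg

namespace Cfsg.Agent.S0987

/-- If a finite group has order pqr for primes p < q < r, then its Sylow r-subgroups are normal. -/
theorem result {G : Type*} [Group G] [Finite G] (p q r : ℕ) (hp : p.Prime) (hq : q.Prime) [Fact r.Prime] (hpq : p < q) (hqr : q < r) (hG : Nat.card G = p * q * r) (R : Sylow r G) : (R : Subgroup G).Normal := by
  haveI hpf : Fact p.Prime := ⟨hp⟩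
  have hr : r.Prime := Fact.out
  have hpr : p < r := hpq.trans hqr
  have hfp : (Nat.card G).factorization p = 1 := by
    rw [hG, Nat.factorization_mul (mul_ne_zero hp.ne_zero hq.ne_zero) hr.ne_zero,
      Nat.factorization_mul hp.ne_zero hq.ne_zero]
    simp only [Finsupp.add_apply]
    rw [hp.factorization_self,
      Nat.factorization_eq_zero_of_not_dvd (fun h => hpq.ne ((Nat.prime_dvd_prime_iff_eq hp hq).mp h)),
      Nat.factorization_eq_zero_of_not_dvd (fun h => hpr.ne ((Nat.prime_dvd_prime_iff_eq hp hr).mp h))]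
  have hfr : (Nat.card G).factorization r = 1 := by
    rw [hG, Nat.factorization_mul (mul_ne_zero hp.ne_zero hq.ne_zero) hr.ne_zero,
      Nat.factorization_mul hp.ne_zero hq.ne_zero]
    simp only [Finsupp.add_apply]
    rw [hr.factorization_self,
      Nat.factorization_eq_zero_of_not_dvd (fun h => hpr.ne' ((Nat.prime_dvd_prime_iff_eq hr hp).mp h)),
      Nat.factorization_eq_zero_of_not_dvd (fun h => hqr.ne' ((Nat.prime_dvd_prime_iff_eq hr hq).mp h))]
  have hmin : (Nat.card G).minFac = p := by
    have h1 : (Nat.card G).minFac ∣ p * q * r := hG ▸ Nat.minFac_dvd _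
    have hne : Nat.card G ≠ 1 := by
      rw [hG]
      intro h
      have h2 : p ∣ 1 := h ▸ Dvd.intro (q * r) (mul_assoc p q r).symm
      exact hp.one_lt.ne' (Nat.dvd_one.mp h2)
    have hmp := Nat.minFac_prime hne
    rcases (Nat.Prime.dvd_mul hmp).mp h1 with h | h
    · rcases (Nat.Prime.dvd_mul hmp).mp h with h | h
      · exact (Nat.prime_dvd_prime_iff_eq hmp hp).mp h
      · have h2 : (Nat.card G).minFac ≤ p :=
          Nat.minFac_le_of_dvd hp.two_le (hG ▸ Dvd.intro (q * r) (mul_assoc p q r).symm)
        have := (Nat.prime_dvd_prime_iff_eq hmp hq).mp h; omega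
    · have h2 : (Nat.card G).minFac ≤ p :=
        Nat.minFac_le_of_dvd hp.two_le (hG ▸ Dvd.intro (q * r) (mul_assoc p q r).symm)
      have := (Nat.prime_dvd_prime_iff_eq hmp hr).mp h; omega
  obtain ⟨P⟩ : Nonempty (Sylow p G) := inferInstance
  have hPcard : Nat.card P = p := by rw [P.card_eq_multiplicity, hfp, pow_one]
  have hPcyc : IsCyclic P := isCyclic_of_prime_card hPcard
  have hcompl := IsCyclic.isComplement' hmin hPcyc
  obtain ⟨N, hN⟩ : ∃ N : Subgroup G,
      N = (MonoidHom.transferSylow P (hPcyc.normalizer_le_centralizer hmin)).ker := ⟨_, rfl⟩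
  rw [← hN] at hcompl
  haveI hNn : N.Normal := hN ▸ MonoidHom.normal_ker _
  have h1 := hcompl.card_mul_card
  have h1' : Nat.card N * Nat.card (P : Subgroup G) = Nat.card G := h1
  rw [hPcard, hG] at h1'
  have hNq : Nat.card N = q * r := by
    apply Nat.eq_of_mul_eq_mul_right hp.pos
    rw [h1']; ring
  have hidx : N.index = p := by
    have h2 := N.card_mul_index
    rw [hNq, hG] at h2
    apply Nat.eq_of_mul_eq_mul_left (Nat.mul_pos hq.pos hr.pos)
    rw [h2]; ring
  have hRN : (R : Subgroup G) ≤ N := Helper4.sylow_le_normal_of_not_dvd_index R N (by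
    rw [hidx]
    intro h
    exact hpr.ne' ((Nat.prime_dvd_prime_iff_eq hr hp).mp h))
  have hRcard : Nat.card R = r := by rw [R.card_eq_multiplicity, hfr, pow_one]
  have hsub : Subsingleton (Sylow r N) := by
    have h3 := card_sylow_modEq_one r N
    have h4 := (R.subtype hRN).card_dvd_index
    have h5 : ((R.subtype hRN : Sylow r N) : Subgroup N).index = q := by
      rw [Sylow.coe_subtype]
      have h6 := ((R : Subgroup G).subgroupOf N).card_mul_index
      rw [S0001.card_subgroupOf_of_le hRN] at h6
      have h6' : Nat.card (R : Subgroup G) * ((R : Subgroup G).subgroupOf N).index = Nat.card N := h6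
      rw [hRcard, hNq] at h6'
      apply Nat.eq_of_mul_eq_mul_left hr.pos
      rw [h6']; ring
    rw [h5] at h4
    have h7 : Nat.card (Sylow r N) ≤ q := Nat.le_of_dvd hq.pos h4
    have h8 : Nat.card (Sylow r N) = 1 := by
      unfold Nat.ModEq at h3
      rw [Nat.mod_eq_of_lt (by omega : Nat.card (Sylow r N) < r), Nat.mod_eq_of_lt hr.one_lt] at h3
      exact h3
    exact (Nat.card_eq_one_iff_unique.mp h8).1
  have hn : ((R : Subgroup G).subgroupOf N).Normal := by
    have := Sylow.normal_of_subsingleton (R.subtype hRN)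
    rwa [Sylow.coe_subtype] at this
  exact Helper4.sylow_normal_of_normal_subgroupOf R N hRN hn

end Cfsg.Agent.S0987
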