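import Cfsg.Statements.S0992
import Cfsg.Agent.Lead.Transfer
import Mathlib

set_option autoImplicit false
open Cfsg

namespace Cfsg.Agent.S0992

/-- Let G be a non-abelian finite simple group of even order not divisible by 8, and T a Sylow 2-subgroup. Then T is a Klein four-group and the centralizer of T has index 3 in the normalizer of T. -/
theorem result {G : Type*} [Group G] [Finite G] [IsSimpleGroup G] (hG : ¬ IsMulCommutative G) (h2 : Even (Nat.card G)) (h8 : ¬ 8 ∣ Nat.card G) (T : Sylow 2 G) : IsKleinFour ↥(T : Subgroup G) ∧ (Subgroup.centralizer ((T : Subgroup G) : Set G)).relIndex (Subgroup.normalizer ((T : Subgroup G) : Set G)) = 3 := by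
  have h2' : 2 ∣ Nat.card G := even_iff_two_dvd.mp h2
  have hmin : (Nat.card G).minFac = 2 := (Nat.minFac_eq_two_iff _).mpr h2'
  -- `T ≠ G`
  have hTG : Nat.card T ≠ Nat.card G := by
    intro h
    apply hG
    have htop : (T : Subgroup G) = ⊤ := Subgroup.eq_top_of_card_eq _ h
    have hp : IsPGroup 2 G := by
      have := T.isPGroup'
      rw [htop] at this
      exact IsPGroup.of_surjective this (⊤ : Subgroup G).subtype (by
        intro g; exact ⟨⟨g, Subgroup.mem_top g⟩, rfl⟩)
    haveI : Group.IsNilpotent G := hp.isNilpotent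
    exact ⟨⟨IsSimpleGroup.comm_iff_isSolvable.mpr inferInstance⟩⟩
  have hk1 : 1 ≤ (Nat.card G).factorization 2 :=
    (Nat.prime_two.pow_dvd_iff_le_factorization Nat.card_pos.ne').mp (by simpa using h2')
  have hk2 : (Nat.card G).factorization 2 ≤ 2 := by
    by_contra hcon
    push Not at hcon
    apply h8
    have : 2 ^ 3 ∣ Nat.card G :=
      (Nat.prime_two.pow_dvd_iff_le_factorization Nat.card_pos.ne').mpr hcon
    simpa using this
  have hTcard : Nat.card T = 2 ^ (Nat.card G).factorization 2 := T.card_eq_multiplicity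
  have hT1 : Nat.card T ≠ 1 := by
    rw [hTcard]
    have : 2 ^ 1 ≤ 2 ^ (Nat.card G).factorization 2 := Nat.pow_le_pow_right (by norm_num) hk1
    omega
  -- `T` is not cyclic
  have hncyc : ¬ IsCyclic T := by
    intro hcyc
    rcases Lead.simple_sylow_card T (hcyc.normalizer_le_centralizer hmin) with h | h
    · exact hT1 h
    · exact hTG h
  have hT4 : Nat.card T = 4 := by
    have h3 : (Nat.card G).factorization 2 = 1 ∨ (Nat.card G).factorization 2 = 2 := by omega
    rcases h3 with h3 | h3
    · exfalso
      rw [h3] at hTcard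
      exact hncyc (isCyclic_of_prime_card (p := 2) (by simpa using hTcard))
    · rw [hTcard, h3]; norm_num
  have hexp : Monoid.exponent T = 2 := by
    have hdvd : Monoid.exponent T ∣ 2 := by
      apply Monoid.exponent_dvd_of_forall_pow_eq_one
      intro x
      have h1 : orderOf x ∣ 4 := hT4 ▸ orderOf_dvd_natCard x
      have h2 : orderOf x ≠ 4 := fun h => hncyc (isCyclic_of_orderOf_eq_card x (h.trans hT4.symm))
      have h3 : orderOf x ≤ 4 := Nat.le_of_dvd (by norm_num) h1
      have h4 : orderOf x ∣ 2 := by
        interval_cases (orderOf x) <;> omega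
      exact orderOf_dvd_iff_pow_eq_one.mp h4
    have hne : Monoid.exponent T ≠ 1 := by
      intro h
      rw [Monoid.exp_eq_one_iff] at h
      have := Nat.card_eq_one_iff_unique.mpr ⟨h, ⟨1⟩⟩
      omega
    have hle : Monoid.exponent T ≤ 2 := Nat.le_of_dvd (by norm_num) hdvd
    have hpos : 0 < Monoid.exponent T := Nat.pos_of_dvd_of_pos hdvd (by norm_num)
    omega
  have hK : IsKleinFour ↥(T : Subgroup G) := ⟨hT4, hexp⟩
  refine ⟨hK, ?_⟩
  haveI := hK
  haveI : IsMulCommutative ↥(T : Subgroup G) := IsKleinFour.isMulCommutative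
  have hTC : (T : Subgroup G) ≤ Subgroup.centralizer ((T : Subgroup G) : Set G) :=
    Subgroup.le_centralizer _
  have hd1 := Lead.relIndex_centralizer_dvd_card_mulAut (T : Subgroup G)
  have hd2 := Lead.card_mulAut_dvd_factorial ↥(T : Subgroup G)
  have hT4' : Nat.card ↥(T : Subgroup G) = 4 := hT4
  rw [hT4'] at hd2
  have hd3 : (Subgroup.centralizer ((T : Subgroup G) : Set G)).relIndex
      (Subgroup.normalizer ((T : Subgroup G) : Set G)) ∣ 6 := by
    have e : (4 - 1).factorial = 6 := by decide
    rw [e] at hd2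
    exact hd1.trans hd2
  have hodd : ¬ 2 ∣ (Subgroup.centralizer ((T : Subgroup G) : Set G)).relIndex
      (Subgroup.normalizer ((T : Subgroup G) : Set G)) := by
    intro h
    have h1 := Subgroup.relIndex_dvd_of_le_left
      (Subgroup.normalizer ((T : Subgroup G) : Set G)) hTC
    have h3 := Subgroup.relIndex_dvd_index_of_le (Subgroup.le_normalizer (H := (T : Subgroup G)))
    exact T.not_dvd_index ((h.trans h1).trans h3)
  have hne1 : (Subgroup.centralizer ((T : Subgroup G) : Set G)).relIndex
      (Subgroup.normalizer ((T : Subgroup G) : Set G)) ≠ 1 := by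
    intro h
    rcases Lead.simple_sylow_card T (Subgroup.relIndex_eq_one.mp h) with h' | h'
    · exact hT1 h'
    · exact hTG h'
  generalize (Subgroup.centralizer ((T : Subgroup G) : Set G)).relIndex
      (Subgroup.normalizer ((T : Subgroup G) : Set G)) = d at hd3 hodd hne1 ⊢
  have hle : d ≤ 6 := Nat.le_of_dvd (by norm_num) hd3
  interval_cases d <;> omega

end Cfsg.Agent.S0992
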