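import Cfsg.Statements.S0995
import Cfsg.Agent.Helper24.SelfCent
import Cfsg.Agent.Lead.Transfer
import Cfsg.Agent.S0001
import Mathlib

set_option autoImplicit false
open Cfsg

namespace Cfsg.Agent.S0995

/-- Let G be a finite perfect group containing an element z of prime order p whose centralizer is the cyclic group it generates. Let t be the number of conjugacy classes of elements of order p. Then t divides p - 1, the number of Sylow p-subgroups has the form 1 + n * p, and |G| * t = (p - 1) * p * (1 + n * p). -/
theorem result {G : Type*} [Group G] [Finite G] (hperf : commutator G = ⊤) (p : ℕ) [Fact p.Prime] (z : G) (hz : orderOf z = p) (hC : Subgroup.centralizer ({z} : Set G) = Subgroup.zpowers z) : ∃ n t : ℕ, t = Nat.card {c : ConjClasses G // ∃ g : G, ConjClasses.mk g = c ∧ orderOf g = p} ∧ t ∣ p - 1 ∧ Nat.card (Sylow p G) = 1 + n * p ∧ Nat.card G * t = (p - 1) * p * (1 + n * p) := by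
  have hp : p.Prime := Fact.out
  obtain ⟨Q, hQ⟩ := Helper24.sc_exists_sylow hp hz hC
  have h1 := Helper24.sc_class_count hp hz hC
  have hmod := card_sylow_modEq_one p G
  have hNQ := Lead.card_normalizer_mul_card_sylow Q
  rw [hQ] at hNQ
  have hN : Nat.card (Subgroup.normalizer ((Subgroup.zpowers z : Subgroup G) : Set G)) =
      p * (Subgroup.zpowers z).relIndex
        (Subgroup.normalizer ((Subgroup.zpowers z : Subgroup G) : Set G)) := by
    have h2 := ((Subgroup.zpowers z).subgroupOf
      (Subgroup.normalizer ((Subgroup.zpowers z : Subgroup G) : Set G))).card_mul_index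
    rw [S0001.card_subgroupOf_of_le Subgroup.le_normalizer, Nat.card_zpowers, hz] at h2
    exact h2.symm
  have hn : Nat.card (Sylow p G) = 1 + Nat.card (Sylow p G) / p * p := by
    have h3 := Nat.div_add_mod (Nat.card (Sylow p G)) p
    unfold Nat.ModEq at hmod
    rw [hmod, Nat.mod_eq_of_lt hp.one_lt] at h3
    rw [mul_comm] at h3
    omega
  have hteq : Nat.card {C : ConjClasses G // ∃ g ∈ C.carrier, orderOf g = p} =
      Nat.card {c : ConjClasses G // ∃ g : G, ConjClasses.mk g = c ∧ orderOf g = p} := by
    apply Nat.card_congr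
    refine Equiv.subtypeEquivRight ?_
    intro c
    constructor
    · rintro ⟨g, hg, ho⟩
      exact ⟨g, ConjClasses.mem_carrier_iff_mk_eq.mp hg, ho⟩
    · rintro ⟨g, hg, ho⟩
      exact ⟨g, ConjClasses.mem_carrier_iff_mk_eq.mpr hg, ho⟩
  rw [hteq] at h1
  refine ⟨Nat.card (Sylow p G) / p, _, rfl, Dvd.intro _ h1, hn, ?_⟩
  rw [← hn, ← hNQ, hN, ← h1]
  ring

end Cfsg.Agent.S0995
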