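import Cfsg.Statements.S1002
import Mathlib
import Cfsg.Agent.Helper23.SimpleOrd

set_option autoImplicit false
open Cfsg

namespace Cfsg.Agent.S1002

open Cfsg.Agent.Helper23.SimpleOrd

/-- Divisors of `3 ^ 3 * b * c` for primes `b`, `c`. -/
lemma dvd_cases {n b c : ℕ} (hb : b.Prime) (hc : c.Prime) (h : n ∣ 27 * (b * c)) :
    ∃ x y z : ℕ, (x = 1 ∨ x = 3 ∨ x = 9 ∨ x = 27) ∧ (y = 1 ∨ y = b) ∧ (z = 1 ∨ z = c) ∧
      n = x * (y * z) := by
  obtain ⟨x, w, hx, hw, rfl⟩ := Nat.dvd_mul.mp h
  obtain ⟨y, z, hy, hz, rfl⟩ := Nat.dvd_mul.mp hw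
  refine ⟨x, y, z, ?_, (Nat.dvd_prime hb).mp hy, (Nat.dvd_prime hc).mp hz, rfl⟩
  have hx27 : x ≤ 27 := Nat.le_of_dvd (by norm_num) hx
  interval_cases x <;> omega

/-- There is no finite simple group of order 1004913 = 3^3 * 7 * 13 * 409. -/
theorem result {G : Type*} [Group G] [Finite G] [IsSimpleGroup G] : Nat.card G ≠ 1004913 := by
  intro h
  haveI : Fact (Nat.Prime 409) := ⟨by norm_num⟩
  haveI : Fact (Nat.Prime 13) := ⟨by norm_num⟩
  haveI : Fact (Nat.Prime 7) := ⟨by norm_num⟩
  have c409 : ∀ P : Sylow 409 G, Nat.card (P : Subgroup G) = 409 := fun P =>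
    sylow_card_eq P (m := 2457) (by rw [h]) (by norm_num)
  have c13 : ∀ P : Sylow 13 G, Nat.card (P : Subgroup G) = 13 := fun P =>
    sylow_card_eq P (m := 77301) (by rw [h]) (by norm_num)
  have c7 : ∀ P : Sylow 7 G, Nat.card (P : Subgroup G) = 7 := fun P =>
    sylow_card_eq P (m := 143559) (by rw [h]) (by norm_num)
  -- the Sylow numbers
  obtain ⟨P⟩ : Nonempty (Sylow 409 G) := inferInstance
  have n409 : Nat.card (Sylow 409 G) = 819 := by
    have hd : Nat.card (Sylow 409 G) ∣ 2457 :=
      card_sylow_dvd_of_eq P (k := 409) (by rw [h]) (c409 P) (by norm_num)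
    have hm : Nat.card (Sylow 409 G) ≡ 1 [MOD 409] := card_sylow_modEq_one 409 G
    have h1 : Nat.card (Sylow 409 G) ≠ 1 := card_sylow_ne_one P (c409 P) (by rw [h]; norm_num)
    have hle : Nat.card (Sylow 409 G) ≤ 2457 := Nat.le_of_dvd (by norm_num) hd
    generalize Nat.card (Sylow 409 G) = n at *
    unfold Nat.ModEq at hm
    obtain ⟨t, ht⟩ : ∃ t, n = 409 * t + 1 := ⟨n / 409, by omega⟩
    have ht6 : t ≤ 6 := by omega
    subst ht
    interval_cases t <;> omega
  obtain ⟨Q⟩ : Nonempty (Sylow 13 G) := inferInstance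
  have n13 : Nat.card (Sylow 13 G) = 25767 := by
    have hd : Nat.card (Sylow 13 G) ∣ 77301 :=
      card_sylow_dvd_of_eq Q (k := 13) (by rw [h]) (c13 Q) (by norm_num)
    have hm : Nat.card (Sylow 13 G) ≡ 1 [MOD 13] := card_sylow_modEq_one 13 G
    have h1 : Nat.card (Sylow 13 G) ≠ 1 := card_sylow_ne_one Q (c13 Q) (by rw [h]; norm_num)
    have h27 : Nat.card (Sylow 13 G) ≠ 27 := by
      intro h27
      have hN := card_normalizer_eq Q h27 (m := 37219) (by rw [h]) (by norm_num)
      apply not_coprime_of_simple Q (c13 Q) (by rw [h]; norm_num)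
      rw [hN]; norm_num
    generalize Nat.card (Sylow 13 G) = n at *
    unfold Nat.ModEq at hm
    obtain ⟨x, y, z, hx, hy, hz, rfl⟩ := dvd_cases (b := 7) (c := 409) (by norm_num)
      (by norm_num) (by norm_num at hd ⊢; exact hd)
    rcases hx with rfl | rfl | rfl | rfl <;> rcases hy with rfl | rfl <;>
      rcases hz with rfl | rfl <;> omega
  obtain ⟨R⟩ : Nonempty (Sylow 7 G) := inferInstance
  have n7 : Nat.card (Sylow 7 G) = 47853 := by
    have hd : Nat.card (Sylow 7 G) ∣ 143559 :=
      card_sylow_dvd_of_eq R (k := 7) (by rw [h]) (c7 R) (by norm_num)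
    have hm : Nat.card (Sylow 7 G) ≡ 1 [MOD 7] := card_sylow_modEq_one 7 G
    have h1 : Nat.card (Sylow 7 G) ≠ 1 := card_sylow_ne_one R (c7 R) (by rw [h]; norm_num)
    have h351 : Nat.card (Sylow 7 G) ≠ 351 := by
      intro h351
      have hN := card_normalizer_eq R h351 (m := 2863) (by rw [h]) (by norm_num)
      apply not_coprime_of_simple R (c7 R) (by rw [h]; norm_num)
      rw [hN]; norm_num
    generalize Nat.card (Sylow 7 G) = n at *
    unfold Nat.ModEq at hm
    obtain ⟨x, y, z, hx, hy, hz, rfl⟩ := dvd_cases (b := 13) (c := 409) (by norm_num)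
      (by norm_num) (by norm_num at hd ⊢; exact hd)
    rcases hx with rfl | rfl | rfl | rfl <;> rcases hy with rfl | rfl <;>
      rcases hz with rfl | rfl <;> omega
  -- counting elements of orders 409, 13, 7
  have e409 := card_orderOf_ge (G := G) 409 c409
  have e13 := card_orderOf_ge (G := G) 13 c13
  have e7 := card_orderOf_ge (G := G) 7 c7
  rw [n409] at e409
  rw [n13] at e13
  rw [n7] at e7
  -- an element `x` of the normaliser of `P` not centralising `P`
  obtain ⟨N, hN⟩ : ∃ N : Subgroup G, N = Subgroup.normalizer ((P : Subgroup G) : Set G) :=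
    ⟨_, rfl⟩
  have hPN : (P : Subgroup G) ≤ N := hN ▸ Subgroup.le_normalizer
  have hNcard : Nat.card N = 1227 := by
    rw [hN]; exact card_normalizer_eq P n409 (m := 1227) (by rw [h]) (by norm_num)
  have hnc := not_le_centralizer_of_simple P (c409 P) (by rw [h]; norm_num)
  rw [← hN] at hnc
  obtain ⟨x, hxN, hxC⟩ := SetLike.not_le_iff_exists.mp hnc
  -- if `w ∈ P` is nontrivial and commutes with `x` then `x` centralises `P`
  have hcent : ∀ w : G, w ∈ (P : Subgroup G) → w ≠ 1 → x * w = w * x → False := by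
    intro w hw hw1 hcomm
    apply hxC
    rw [Subgroup.mem_centralizer_iff]
    intro q hq
    have hq' : q ∈ Subgroup.zpowers w := by
      rw [S1018.zpowers_eq_of_card (by norm_num) (c409 P) hw hw1]; exact hq
    obtain ⟨k, rfl⟩ := Subgroup.mem_zpowers_iff.mp hq'
    exact ((Commute.zpow_left (show Commute w x from hcomm.symm) k)).eq
  -- the order of `x`
  have hox : orderOf x ∣ 1227 := hNcard ▸ Subgroup.orderOf_dvd_natCard N hxN
  have hox409 : orderOf x ≠ 409 := by
    intro ho
    have hx409 : x ^ 409 = 1 := ho ▸ pow_orderOf_eq_one x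
    have hxP : x ∈ (P : Subgroup G) := S1018.mem_of_mem_normalizer P (hN ▸ hxN) hx409
    have hx1 : x ≠ 1 := by
      rintro rfl
      rw [orderOf_one] at ho
      omega
    exact hcent x hxP hx1 rfl
  have hox13 : orderOf x ≠ 13 := by
    intro ho; rw [ho] at hox; omega
  have hox7 : orderOf x ≠ 7 := by
    intro ho; rw [ho] at hox; omega
  -- fixed points of `x`
  have hfix : Nat.card (MulAction.fixedBy (G ⧸ N) x) ≤ 3 := by
    have h1 := (S1018.result 409 P (c409 P)).2 x (hN ▸ hxN) hxC
    have h2 := card_orbits_mul 409 P (c409 P)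
    rw [n409] at h2
    rw [hN]
    omega
  -- conjugates of `x` in `N`
  have hconjN : 409 ≤ Nat.card {g : G // IsConj x g ∧ g ∈ N} := by
    rw [← c409 P]
    apply Nat.card_le_card_of_injective (fun u : (P : Subgroup G) =>
      (⟨(u : G) * x * (u : G)⁻¹, isConj_iff.mpr ⟨(u : G), rfl⟩,
        N.mul_mem (N.mul_mem (hPN u.2) hxN) (N.inv_mem (hPN u.2))⟩ :
        {g : G // IsConj x g ∧ g ∈ N}))
    intro u v huv
    have h1 : (u : G) * x * (u : G)⁻¹ = (v : G) * x * (v : G)⁻¹ := congrArg Subtype.val huv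
    by_contra hne
    have hw : (v : G)⁻¹ * (u : G) ∈ (P : Subgroup G) :=
      (P : Subgroup G).mul_mem ((P : Subgroup G).inv_mem v.2) u.2
    have hw1 : (v : G)⁻¹ * (u : G) ≠ 1 := by
      intro h0
      apply hne
      apply Subtype.ext
      have : (u : G) = (v : G) * ((v : G)⁻¹ * (u : G)) := by group
      rw [this, h0, mul_one]
    apply hcent _ hw hw1
    have : x * ((v : G)⁻¹ * (u : G)) = (v : G)⁻¹ * ((v : G) * x * (v : G)⁻¹) * (u : G) := by group
    rw [this, ← h1]
    group
  -- the class of `x`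
  have hcls := S1019.result N x hxN
  have hidx : N.index = 819 := by
    rw [hN]; exact (P.card_eq_index_normalizer).symm.trans n409
  rw [hidx] at hcls
  have hclass : 111657 ≤ Nat.card {g : G // IsConj x g} := by
    have h1 : 819 * 409 ≤ Nat.card (MulAction.fixedBy (G ⧸ N) x) * Nat.card {g : G // IsConj x g} :=
      by rw [hcls]; exact Nat.mul_le_mul_left _ hconjN
    have h2 : Nat.card (MulAction.fixedBy (G ⧸ N) x) * Nat.card {g : G // IsConj x g} ≤
        3 * Nat.card {g : G // IsConj x g} := Nat.mul_le_mul_right _ hfix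
    omega
  have hord : Nat.card {g : G // IsConj x g} ≤ Nat.card {g : G // orderOf g = orderOf x} := by
    apply Nat.card_le_card_of_injective (fun g : {g : G // IsConj x g} =>
      (⟨g.1, by
        obtain ⟨c, hc⟩ := isConj_iff.mp g.2
        rw [← hc]
        exact (MulAut.conj c).orderOf_eq x⟩ : {g : G // orderOf g = orderOf x}))
    intro g g' hgg
    have h3 : (g : G) = (g' : G) := congrArg (fun t : {g : G // orderOf g = orderOf x} => (t : G)) hgg
    exact Subtype.ext h3
  have hfour := four_orders_le (G := G) 409 13 7 (orderOf x) (by norm_num) (by norm_num)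
    (Ne.symm hox409) (by norm_num) (Ne.symm hox13) (Ne.symm hox7)
  rw [h] at hfour
  omega

end Cfsg.Agent.S1002
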