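import Cfsg.Statements.S1009
import Cfsg.Agent.Helper13.Syl
import Mathlib

set_option autoImplicit false
open Cfsg

namespace Cfsg.Agent.S1009

lemma le_normalizer_of_comm {G : Type*} [Group G] {P D : Subgroup G} [IsMulCommutative P]
    (hD : D ≤ P) : P ≤ Subgroup.normalizer (D : Set G) := by
  intro x hx
  rw [Subgroup.mem_normalizer_iff]
  intro d
  constructor
  · intro hd
    have h1 : x * d = d * x := setLike_mul_comm hx (hD hd)
    have h2 : x * d * x⁻¹ = d := by rw [h1]; group
    rw [h2]; exact hd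
  · intro hd
    have hdP : d ∈ P := by
      have := P.mul_mem (P.mul_mem (P.inv_mem hx) (hD hd)) hx
      have e : x⁻¹ * (x * d * x⁻¹) * x = d := by group
      rw [e] at this; exact this
    have h1 : x * d = d * x := setLike_mul_comm hx hdP
    have h2 : x * d * x⁻¹ = d := by rw [h1]; group
    rw [h2] at hd; exact hd

/-- Brodkey's Theorem: if a finite group has abelian Sylow p-subgroups, then there are two Sylow p-subgroups whose intersection equals the intersection of all Sylow p-subgroups. -/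
theorem result {G : Type*} [Group G] [Finite G] (p : ℕ) [Fact p.Prime] (hab : ∀ P : Sylow p G, IsMulCommutative ↥(P : Subgroup G)) : ∃ P Q : Sylow p G, (P : Subgroup G) ⊓ (Q : Subgroup G) = ⨅ R : Sylow p G, (R : Subgroup G) := by
  obtain ⟨P₀⟩ : Nonempty (Sylow p G) := inferInstance
  obtain ⟨D, -, hDmin⟩ := Finite.exists_le_minimal
    (p := fun D : Subgroup G => ∃ P Q : Sylow p G, D = (P : Subgroup G) ⊓ Q)
    (a := (P₀ : Subgroup G) ⊓ P₀) ⟨P₀, P₀, rfl⟩
  obtain ⟨⟨P, Q, hD⟩, hmin⟩ := hDmin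
  refine ⟨P, Q, ?_⟩
  rw [← hD]
  apply le_antisymm
  · apply le_iInf
    intro S
    have hDP : D ≤ P := hD ▸ inf_le_left
    have hDQ : D ≤ Q := hD ▸ inf_le_right
    haveI := hab P
    haveI := hab Q
    have hPN : (P : Subgroup G) ≤ Subgroup.normalizer (D : Set G) := le_normalizer_of_comm hDP
    have hQN : (Q : Subgroup G) ≤ Subgroup.normalizer (D : Set G) := le_normalizer_of_comm hDQ
    obtain ⟨n, hn, hconj⟩ := Helper13.exists_conj_le_sylow_in (Subgroup.normalizer (D : Set G)) P hPN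
      ((S : Subgroup G) ⊓ Subgroup.normalizer (D : Set G)) inf_le_right
      (S.isPGroup'.to_le inf_le_left)
    have hle : ((n • S : Sylow p G) : Subgroup G) ⊓ Q ≤ D := by
      intro x hx
      obtain ⟨hxS, hxQ⟩ := Subgroup.mem_inf.mp hx
      have h1 : n⁻¹ * x * n ∈ (S : Subgroup G) := (Helper13.mem_smul_sylow S n x).mp hxS
      have h2 : n⁻¹ * x * n ∈ Subgroup.normalizer (D : Set G) :=
        Subgroup.mul_mem _ (Subgroup.mul_mem _ (Subgroup.inv_mem _ hn) (hQN hxQ)) hn
      have h3 := hconj _ (Subgroup.mem_inf.mpr ⟨h1, h2⟩)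
      have h4 : n * (n⁻¹ * x * n) * n⁻¹ = x := by group
      rw [h4] at h3
      rw [hD]; exact Subgroup.mem_inf.mpr ⟨h3, hxQ⟩
    have hDle : D ≤ ((n • S : Sylow p G) : Subgroup G) ⊓ Q := hmin ⟨n • S, Q, rfl⟩ hle
    intro d hd
    have h5 : n * d * n⁻¹ ∈ D := (Subgroup.mem_normalizer_iff.mp hn d).mp hd
    have h6 := (Subgroup.mem_inf.mp (hDle h5)).1
    have h7 := (Helper13.mem_smul_sylow S n _).mp h6
    have h8 : n⁻¹ * (n * d * n⁻¹) * n = d := by group
    rw [h8] at h7; exact h7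
  · rw [hD]; exact le_inf (iInf_le _ P) (iInf_le _ Q)

end Cfsg.Agent.S1009
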