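import Cfsg.Statements.S1014
import Mathlib
import Cfsg.Agent.Helper23.SimpleOrd
import Cfsg.Agent.S0989
import Cfsg.Agent.S0990
import Cfsg.Agent.S0991

set_option autoImplicit false
open Cfsg

namespace Cfsg.Agent.S1014

open Cfsg.Agent.Helper23.SimpleOrd

/-- If a finite group `G` embeds in `A_24` and `P` is a subgroup of order 23, then the order of
the normaliser of `P` divides `253 = 23 * 11`. -/
lemma card_normalizer_dvd {G : Type*} [Group G] [Finite G] (n : ℕ) (hn : n = 24)
    (f : G →* ↥(alternatingGroup (Fin n))) (hf : Function.Injective f) (P : Subgroup G)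
    (hP : Nat.card P = 23) : Nat.card (Subgroup.normalizer (P : Set G)) ∣ 253 := by
  subst hn
  haveI : Fact (Nat.Prime 23) := ⟨by norm_num⟩
  obtain ⟨P', hP'⟩ : ∃ P' : Subgroup ↥(alternatingGroup (Fin 24)), P' = P.map f := ⟨_, rfl⟩
  have hP'card : Nat.card P' = 23 := by
    rw [hP', Subgroup.card_map_of_injective hf, hP]
  obtain ⟨P'', hP''⟩ : ∃ P'' : Subgroup (Equiv.Perm (Fin 24)),
      P'' = P'.map (alternatingGroup (Fin 24)).subtype := ⟨_, rfl⟩
  have hP''card : Nat.card P'' = 23 := by
    rw [hP'', Subgroup.card_map_of_injective (Subgroup.subtype_injective _), hP'card]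
  have hfac : (Nat.card (Equiv.Perm (Fin 24))).factorization 23 = 1 := by
    rw [Nat.card_perm, Nat.card_eq_fintype_card, Fintype.card_fin]
    have e : (24 : ℕ).factorial = 23 * 26976017466662584320000 := by decide
    rw [e, Nat.factorization_mul (by norm_num) (by norm_num), Finsupp.add_apply,
      Nat.Prime.factorization_self (by norm_num),
      Nat.factorization_eq_zero_of_not_dvd (by norm_num)]
  obtain ⟨S, hS⟩ : ∃ S : Sylow 23 (Equiv.Perm (Fin 24)), (S : Subgroup _) = P'' :=
    ⟨Sylow.ofCard P'' (by rw [hP''card, hfac, pow_one]), rfl⟩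
  have h1 := S0989.result (α := Fin 24) 23 (Or.inr (by simp)) S
  have h2 := (S0990.result (α := Fin 24) (by simp) 23 (by norm_num) S).2
  rw [h1] at h2
  have h3 : (S : Subgroup (Equiv.Perm (Fin 24))).subgroupOf (alternatingGroup (Fin 24)) = P' := by
    rw [hS, hP'']
    exact Subgroup.comap_map_eq_self_of_injective (Subgroup.subtype_injective _) P'
  rw [h3] at h2
  have h4 : Nat.card (Subgroup.normalizer (P' : Set ↥(alternatingGroup (Fin 24)))) = 253 := by
    omega
  have h5 : (Subgroup.normalizer (P : Set G)).map f ≤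
      Subgroup.normalizer (P' : Set ↥(alternatingGroup (Fin 24))) := by
    rw [hP']
    exact Subgroup.le_normalizer_map f
  have h6 := Subgroup.card_dvd_of_le h5
  rw [Subgroup.card_map_of_injective hf, h4] at h6
  exact h6

theorem result {G : Type*} [Group G] [Finite G] [IsSimpleGroup G] : Nat.card G ≠ 1104 := by
  intro h
  haveI : Fact (Nat.Prime 23) := ⟨by norm_num⟩
  obtain ⟨P⟩ : Nonempty (Sylow 23 G) := inferInstance
  have hP : Nat.card (P : Subgroup G) = 23 :=
    sylow_card_eq P (m := 48) (by rw [h]) (by norm_num)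
  have hd : Nat.card (Sylow 23 G) ∣ 48 :=
    card_sylow_dvd_of_eq P (k := 23) (by rw [h]) hP (by norm_num)
  have hm : Nat.card (Sylow 23 G) ≡ 1 [MOD 23] := card_sylow_modEq_one 23 G
  have h1 : Nat.card (Sylow 23 G) ≠ 1 := card_sylow_ne_one P hP (by rw [h]; norm_num)
  have hn : Nat.card (Sylow 23 G) = 24 := by
    have hle : Nat.card (Sylow 23 G) ≤ 48 := Nat.le_of_dvd (by norm_num) hd
    generalize Nat.card (Sylow 23 G) = n at *
    unfold Nat.ModEq at hm
    interval_cases n <;> omega
  have hNcard := card_normalizer_eq P hn (m := 46) (by rw [h]) (by norm_num)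
  have hidx : (Subgroup.normalizer ((P : Subgroup G) : Set G)).index = 24 :=
    (P.card_eq_index_normalizer).symm.trans hn
  have hne : Subgroup.normalizer ((P : Subgroup G) : Set G) ≠ ⊤ := by
    intro h0
    rw [h0, Subgroup.index_top] at hidx
    omega
  have hnc : ¬ IsMulCommutative G := by
    intro hc
    apply hne
    rw [Subgroup.normalizer_eq_top_iff]
    constructor
    intro n hn g
    have : g * n * g⁻¹ = n := by
      rw [hc.is_comm.comm g n]; group
    rw [this]; exact hn
  obtain ⟨f, hf⟩ := S0991.result hnc _ hne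
  have h2 := card_normalizer_dvd _ hidx f hf (P : Subgroup G) hP
  rw [hNcard] at h2
  omega

end Cfsg.Agent.S1014
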