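import Cfsg.Statements.S1015
import Mathlib
import Cfsg.Agent.Helper23.SimpleOrd
import Cfsg.Agent.S0985

set_option autoImplicit false
open Cfsg

namespace Cfsg.Agent.S1015

open Cfsg.Agent.Helper23.SimpleOrd

theorem result {G : Type*} [Group G] [Finite G] [IsSimpleGroup G] : Nat.card G ≠ 1200 := by
  intro h
  haveI : Fact (Nat.Prime 5) := ⟨by norm_num⟩
  have c5 : ∀ P : Sylow 5 G, Nat.card (P : Subgroup G) = 25 := fun P => by
    have := sylow_card_eq_pow P (k := 2) (m := 48) (by rw [h]; norm_num) (by norm_num)
    rw [this]; norm_num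
  obtain ⟨P₀⟩ : Nonempty (Sylow 5 G) := inferInstance
  have hd : Nat.card (Sylow 5 G) ∣ 48 :=
    card_sylow_dvd_of_eq P₀ (k := 25) (by rw [h]) (c5 P₀) (by norm_num)
  have hm : Nat.card (Sylow 5 G) ≡ 1 [MOD 5] := card_sylow_modEq_one 5 G
  have h1 : Nat.card (Sylow 5 G) ≠ 1 := by
    apply Lead.simple_card_sylow_ne_one P₀
    · intro h0
      have : Nat.card (P₀ : Subgroup G) = 1 := h0
      rw [c5 P₀] at this; omega
    · intro h0
      have : Nat.card (P₀ : Subgroup G) = Nat.card G := h0
      rw [c5 P₀, h] at this; omega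
  have hn : Nat.card (Sylow 5 G) = 6 ∨ Nat.card (Sylow 5 G) = 16 := by
    have hle : Nat.card (Sylow 5 G) ≤ 48 := Nat.le_of_dvd (by norm_num) hd
    generalize Nat.card (Sylow 5 G) = n at *
    unfold Nat.ModEq at hm
    interval_cases n <;> omega
  rcases hn with hn | hn
  · -- six Sylow subgroups: `G` embeds in `S_6`
    have hidx : (Subgroup.normalizer ((P₀ : Subgroup G) : Set G)).index = 6 :=
      (P₀.card_eq_index_normalizer).symm.trans hn
    have hne : Subgroup.normalizer ((P₀ : Subgroup G) : Set G) ≠ ⊤ := by
      intro h0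
      rw [h0, Subgroup.index_top] at hidx
      omega
    have h2 := card_dvd_factorial_index _ hne
    rw [hidx, h] at h2
    revert h2
    decide
  · -- sixteen Sylow subgroups: two of them meet in a subgroup of order 5
    have hnm : ¬ Nat.card (Sylow 5 G) ≡ 1 [MOD 5 ^ 2] := by
      rw [hn]; decide
    obtain ⟨P, R, hPR, hidx⟩ := S0985.result 5 2 hnm
    obtain ⟨D, hD⟩ : ∃ D : Subgroup G, D = (R : Subgroup G) ⊓ (P : Subgroup G) := ⟨_, rfl⟩
    have hDP : D ≤ (P : Subgroup G) := hD ▸ inf_le_right
    have hDR : D ≤ (R : Subgroup G) := hD ▸ inf_le_left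
    have hrel : D.relIndex (P : Subgroup G) ≤ 5 := by
      rw [hD, Subgroup.inf_relIndex_right]
      exact hidx
    have hDcard : Nat.card D * D.relIndex (P : Subgroup G) = 25 := by
      have h2 := Subgroup.relIndex_mul_index hDP
      have h3 := D.card_mul_index
      have h4 := (P : Subgroup G).card_mul_index
      rw [c5 P, h] at h4
      rw [h] at h3
      have h5 : (P : Subgroup G).index = 48 := by omega
      rw [h5] at h2
      rw [← h2, ← mul_assoc] at h3
      omega
    have hD5 : Nat.card D = 5 := by
      have hdv : Nat.card D ∣ 25 := Dvd.intro _ hDcard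
      have hle : Nat.card D ≤ 25 := Nat.le_of_dvd (by norm_num) hdv
      have hne25 : Nat.card D ≠ 25 := by
        intro h25
        apply hPR
        have hDeqP : D = (P : Subgroup G) :=
          Subgroup.eq_of_le_of_card_ge hDP (by rw [h25, c5 P])
        have hPR' : (P : Subgroup G) ≤ (R : Subgroup G) := hDeqP ▸ hDR
        apply Sylow.ext
        exact Subgroup.eq_of_le_of_card_ge hPR' (by rw [c5 P, c5 R])
      generalize Nat.card D = d at *
      generalize D.relIndex (P : Subgroup G) = i at *
      interval_cases d <;> omega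
    -- `P` and `R` are abelian, so they normalise `D`
    have hPab : ∀ a b : (P : Subgroup G), a * b = b * a :=
      (IsPGroup.isMulCommutative_of_card_eq_prime_sq (p := 5) (by rw [c5 P]; norm_num)).is_comm.comm
    have hRab : ∀ a b : (R : Subgroup G), a * b = b * a :=
      (IsPGroup.isMulCommutative_of_card_eq_prime_sq (p := 5) (by rw [c5 R]; norm_num)).is_comm.comm
    have hPM : (P : Subgroup G) ≤ Subgroup.normalizer (D : Set G) := by
      intro u hu
      rw [Subgroup.mem_normalizer_iff]
      intro d
      have key : ∀ d : G, d ∈ D → u * d * u⁻¹ = d := by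
        intro d hd
        have h2 := congrArg Subtype.val (hPab ⟨u, hu⟩ ⟨d, hDP hd⟩)
        have h3 : u * d = d * u := h2
        rw [h3]; group
      constructor
      · intro hd
        rw [key d hd]; exact hd
      · intro hd
        have h2 := key _ hd
        have h3 : d = u⁻¹ * (u * d * u⁻¹) * u := by group
        have h4 : u * (u * d * u⁻¹) * u⁻¹ = u * d * u⁻¹ := h2
        have h5 : u * d * u⁻¹ = d := by
          have : u * d * u⁻¹ = u⁻¹ * (u * (u * d * u⁻¹) * u⁻¹) * u := by group
          rw [this, h4]; group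
        rw [← h5]; exact hd
    have hRM : (R : Subgroup G) ≤ Subgroup.normalizer (D : Set G) := by
      intro u hu
      rw [Subgroup.mem_normalizer_iff]
      intro d
      have key : ∀ d : G, d ∈ D → u * d * u⁻¹ = d := by
        intro d hd
        have h2 := congrArg Subtype.val (hRab ⟨u, hu⟩ ⟨d, hDR hd⟩)
        have h3 : u * d = d * u := h2
        rw [h3]; group
      constructor
      · intro hd
        rw [key d hd]; exact hd
      · intro hd
        have h2 := key _ hd
        have h4 : u * (u * d * u⁻¹) * u⁻¹ = u * d * u⁻¹ := h2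
        have h5 : u * d * u⁻¹ = d := by
          have : u * d * u⁻¹ = u⁻¹ * (u * (u * d * u⁻¹) * u⁻¹) * u := by group
          rw [this, h4]; group
        rw [← h5]; exact hd
    have hMne : Subgroup.normalizer (D : Set G) ≠ ⊤ :=
      normalizer_ne_top D (by rw [hD5]; norm_num) (by rw [hD5, h]; norm_num)
    obtain ⟨j, hj, hMcard⟩ := card_ge_of_two_sylow P R hPR _ hPM hRM
    rw [c5 P] at hMcard
    have hMidx : (Subgroup.normalizer (D : Set G)).index ≤ 8 := by
      have h2 := (Subgroup.normalizer (D : Set G)).card_mul_index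
      rw [hMcard, h] at h2
      by_contra hgt
      push Not at hgt
      have : 25 * j * 9 ≤ 25 * j * (Subgroup.normalizer (D : Set G)).index :=
        Nat.mul_le_mul_left _ hgt
      omega
    have h2 := card_dvd_factorial_of_index_le _ hMne hMidx
    rw [h] at h2
    revert h2
    decide

end Cfsg.Agent.S1015
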