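import Cfsg.Statements.S1016
import Mathlib
import Cfsg.Agent.Helper23.FixTools

set_option autoImplicit false
open Cfsg

namespace Cfsg.Agent.S1016

open Cfsg.Agent.Helper23.SimpleOrd Cfsg.Agent.Helper23.FixTools

theorem result {G : Type*} [Group G] [Finite G] [IsSimpleGroup G] : Nat.card G ≠ 1440 := by
  intro h
  haveI : Fact (Nat.Prime 5) := ⟨by norm_num⟩
  haveI : Fact (Nat.Prime 3) := ⟨by norm_num⟩
  haveI : Fact (Nat.Prime 2) := ⟨by norm_num⟩
  obtain ⟨P⟩ : Nonempty (Sylow 5 G) := inferInstance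
  have hP : Nat.card (P : Subgroup G) = 5 :=
    sylow_card_eq P (m := 288) (by rw [h]) (by norm_num)
  have hd : Nat.card (Sylow 5 G) ∣ 288 :=
    card_sylow_dvd_of_eq P (k := 5) (by rw [h]) hP (by norm_num)
  have hm : Nat.card (Sylow 5 G) ≡ 1 [MOD 5] := card_sylow_modEq_one 5 G
  have hG5 : Nat.card G ≠ 5 := by rw [h]; norm_num
  have h1 : Nat.card (Sylow 5 G) ≠ 1 := card_sylow_ne_one P hP hG5
  obtain ⟨hNne, hidx, hNn, hrel, hrel1, hrelmul, hPC⟩ := setup P hP hG5
  obtain ⟨N, hN⟩ : ∃ N : Subgroup G, N = Subgroup.normalizer ((P : Subgroup G) : Set G) :=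
    ⟨_, rfl⟩
  obtain ⟨C, hC⟩ : ∃ C : Subgroup G, C = Subgroup.centralizer ((P : Subgroup G) : Set G) :=
    ⟨_, rfl⟩
  rw [← hN] at hNne hidx hNn hrel hrel1 hrelmul
  rw [← hC] at hrel hrel1 hrelmul hPC
  rw [h] at hNn
  rw [hP] at hPC
  have hCN : C ≤ N := by rw [hC, hN]; exact Subgroup.centralizer_le_normalizer _
  have hn : Nat.card (Sylow 5 G) = 6 ∨ Nat.card (Sylow 5 G) = 16 ∨
      Nat.card (Sylow 5 G) = 36 ∨ Nat.card (Sylow 5 G) = 96 := by
    have hle : Nat.card (Sylow 5 G) ≤ 288 := Nat.le_of_dvd (by norm_num) hd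
    generalize Nat.card (Sylow 5 G) = n at *
    unfold Nat.ModEq at hm
    obtain ⟨t, ht⟩ : ∃ t, n = 5 * t + 1 := ⟨n / 5, by omega⟩
    have ht6 : t ≤ 57 := by omega
    subst ht
    interval_cases t <;> omega
  rcases hn with hn | hn | hn | hn
  · -- six Sylow 5-subgroups
    rw [hn] at hidx
    have h2 := card_dvd_factorial_index N hNne
    rw [hidx, h] at h2
    revert h2
    decide
  · -- sixteen Sylow 5-subgroups: a subgroup of order 9 in `C` acts semiregularly
    rw [hn] at hidx hNn
    have hNcard : Nat.card N = 90 := by omega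
    rw [hNcard] at hrelmul
    have h9 : 3 ^ 2 ∣ Nat.card C := by
      have hr : C.relIndex N = 1 ∨ C.relIndex N = 2 := by
        have hle : C.relIndex N ≤ 4 := Nat.le_of_dvd (by norm_num) hrel
        have hdv : C.relIndex N ∣ 90 := Dvd.intro _ hrelmul
        generalize C.relIndex N = i at *
        interval_cases i <;> omega
      rcases hr with hr | hr
      · rw [hr] at hrelmul; omega
      · rw [hr] at hrelmul; omega
    obtain ⟨E, hEC, hE⟩ := exists_le_card_pow C 3 2 h9
    have hfix : ∀ e ∈ E, e ≠ 1 → Nat.card (MulAction.fixedBy (G ⧸ N) e) = 1 := by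
      intro e he he1
      have m5 : Nat.card (MulAction.fixedBy (G ⧸ N) e) ≡ 1 [MOD 5] := by
        rw [hN]; exact fix_modEq_one P e (hC ▸ hEC he)
      have m3 := fix_modEq_of_pow N e 3 2 (by rw [← hE]; exact pow_card_eq_one_of_mem E he)
      have hlt := fix_lt_index N hNne e he1
      rw [hidx] at m3 hlt
      unfold Nat.ModEq at m5 m3
      omega
    have h2 := card_dvd_of_fix_const N E 1 hfix
    rw [hE, hidx] at h2
    omega
  · -- thirty-six Sylow 5-subgroups: an involution of `C`
    rw [hn] at hidx hNn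
    have hNcard : Nat.card N = 40 := by omega
    rw [hNcard] at hrelmul
    have hCcard : Nat.card C = 10 ∨ Nat.card C = 20 := by
      have hle : C.relIndex N ≤ 4 := Nat.le_of_dvd (by norm_num) hrel
      generalize C.relIndex N = i at *
      interval_cases i <;> omega
    have h2C : 2 ∣ Nat.card C := by rcases hCcard with h0 | h0 <;> rw [h0] <;> norm_num
    obtain ⟨u, huC, hu⟩ := exists_mem_orderOf C 2 h2C
    have hu2 : u ^ 2 = 1 := by rw [← hu]; exact pow_orderOf_eq_one u
    have hu1 : u ≠ 1 := by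
      rintro rfl
      rw [orderOf_one] at hu
      omega
    have huN : u ∈ N := hCN huC
    have m5 : Nat.card (MulAction.fixedBy (G ⧸ N) u) ≡ 1 [MOD 5] := by
      rw [hN]; exact fix_modEq_one P u (hC ▸ huC)
    have m2 := fix_modEq_of_pow N u 2 1 (by rw [pow_one]; exact hu2)
    have hlt := fix_lt_index N hNne u hu1
    have h4 := four_dvd_of_sq (by rw [h]; norm_num) N u hu2
    rw [hidx] at m2 hlt h4
    have hF : Nat.card (MulAction.fixedBy (G ⧸ N) u) = 16 := by
      unfold Nat.ModEq at m5 m2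
      omega
    have hcls := S1019.result N u huN
    rw [hidx, hF] at hcls
    have hc1 : 0 < Nat.card {g : G // IsConj u g ∧ g ∈ N} :=
      Nat.card_pos_iff.mpr ⟨⟨⟨u, IsConj.refl u, huN⟩⟩, inferInstance⟩
    have hc3 : Nat.card {g : G // IsConj u g ∧ g ∈ N} ≤ 3 := by
      have h5 := card_conj_le P hP u (by rw [← hN, hF, hn]; norm_num)
      have h6 := card_invol_centralizer_lt P hP (by decide)
      rw [← hN, ← hC, hu] at h5
      rw [← hC] at h6
      have h7 : (P : Subgroup G).relIndex C ≤ 4 := by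
        rcases hCcard with h0 | h0 <;> rw [h0] at hPC <;> omega
      omega
    omega
  · -- ninety-six Sylow 5-subgroups
    rw [hn] at hNn
    have hNcard : Nat.card N = 15 := by omega
    apply not_coprime_of_simple P hP hG5
    rw [← hN, hNcard]
    norm_num

end Cfsg.Agent.S1016
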