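import Cfsg.Statements.S1017
import Mathlib
import Cfsg.Agent.Helper23.FixTools

set_option autoImplicit false
open Cfsg

namespace Cfsg.Agent.S1017

open Cfsg.Agent.Helper23.SimpleOrd Cfsg.Agent.Helper23.FixTools

/-- The set of elements of square one in `C` is the set of involutions together with `1`. -/
lemma sq_set_eq {G : Type*} [Group G] (C : Subgroup G) :
    ({g : G | g ∈ C ∧ g ^ 2 = 1} : Set G) = insert 1 {g : G | g ∈ C ∧ orderOf g = 2} := by
  ext g
  constructor
  · rintro ⟨hgC, hg2⟩
    have ho : orderOf g ∣ 2 := orderOf_dvd_of_pow_eq_one hg2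
    rcases (Nat.dvd_prime Nat.prime_two).mp ho with h | h
    · left; exact orderOf_eq_one_iff.mp h
    · right; exact ⟨hgC, h⟩
  · rintro (rfl | ⟨hgC, hg⟩)
    · exact ⟨C.one_mem, one_pow 2⟩
    · exact ⟨hgC, by rw [← hg]; exact pow_orderOf_eq_one g⟩

/-- A finite set `I` of odd size at most three cannot be covered by "classes" of even size. -/
lemma class_parity {G : Type*} [Finite G] (I : Set G) (K : G → Set G) (hI3 : I.ncard ≤ 3)
    (hIodd : I.ncard % 2 = 1) (hsub : ∀ u ∈ I, K u ⊆ I) (hmem : ∀ u ∈ I, u ∈ K u)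
    (heven : ∀ u ∈ I, (K u).ncard % 2 = 0)
    (htrans : ∀ u ∈ I, ∀ w ∈ I, ∀ g, g ∈ K u → g ∈ K w → w ∈ K u) : False := by
  have hne : I.Nonempty := by
    rw [← Set.ncard_pos (Set.toFinite _)]; omega
  obtain ⟨u, hu⟩ := hne
  have two : ∀ v ∈ I, (K v).ncard = 2 := by
    intro v hv
    have h1 : (K v).ncard ≤ I.ncard := Set.ncard_le_ncard (hsub v hv) (Set.toFinite _)
    have h2 : 0 < (K v).ncard := (Set.ncard_pos (Set.toFinite _)).mpr ⟨v, hmem v hv⟩
    have := heven v hv
    omega
  have hKu2 := two u hu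
  have hle : (K u).ncard ≤ I.ncard := Set.ncard_le_ncard (hsub u hu) (Set.toFinite _)
  obtain ⟨w, hwI, hwK⟩ : ∃ w ∈ I, w ∉ K u := by
    by_contra hcon
    push Not at hcon
    have h1 : I ⊆ K u := hcon
    have := Set.ncard_le_ncard h1 (Set.toFinite _)
    omega
  have hKw2 := two w hwI
  have hdisj : Disjoint (K u) (K w) := by
    rw [Set.disjoint_left]
    intro g hgu hgw
    exact hwK (htrans u hu w hwI g hgu hgw)
  have hunion : (K u ∪ K w).ncard = 4 := by
    rw [Set.ncard_union_eq hdisj (Set.toFinite _) (Set.toFinite _), hKu2, hKw2]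
  have := Set.ncard_le_ncard (Set.union_subset (hsub u hu) (hsub w hwI)) (Set.toFinite _)
  omega

theorem result {G : Type*} [Group G] [Finite G] [IsSimpleGroup G] : Nat.card G ≠ 2016 := by
  intro h
  haveI : Fact (Nat.Prime 7) := ⟨by norm_num⟩
  haveI : Fact (Nat.Prime 2) := ⟨by norm_num⟩
  obtain ⟨P⟩ : Nonempty (Sylow 7 G) := inferInstance
  have hP : Nat.card (P : Subgroup G) = 7 :=
    sylow_card_eq P (m := 288) (by rw [h]) (by norm_num)
  have hd : Nat.card (Sylow 7 G) ∣ 288 :=
    card_sylow_dvd_of_eq P (k := 7) (by rw [h]) hP (by norm_num)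
  have hm : Nat.card (Sylow 7 G) ≡ 1 [MOD 7] := card_sylow_modEq_one 7 G
  have hG7 : Nat.card G ≠ 7 := by rw [h]; norm_num
  have h1 : Nat.card (Sylow 7 G) ≠ 1 := card_sylow_ne_one P hP hG7
  obtain ⟨hNne, hidx, hNn, hrel, hrel1, hrelmul, hPC⟩ := setup P hP hG7
  obtain ⟨N, hN⟩ : ∃ N : Subgroup G, N = Subgroup.normalizer ((P : Subgroup G) : Set G) :=
    ⟨_, rfl⟩
  obtain ⟨C, hC⟩ : ∃ C : Subgroup G, C = Subgroup.centralizer ((P : Subgroup G) : Set G) :=
    ⟨_, rfl⟩
  rw [← hN] at hNne hidx hNn hrel hrel1 hrelmul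
  rw [← hC] at hrel hrel1 hrelmul hPC
  rw [h] at hNn
  rw [hP] at hPC
  have hCN : C ≤ N := by rw [hC, hN]; exact Subgroup.centralizer_le_normalizer _
  have hn : Nat.card (Sylow 7 G) = 8 ∨ Nat.card (Sylow 7 G) = 36 ∨
      Nat.card (Sylow 7 G) = 288 := by
    have hle : Nat.card (Sylow 7 G) ≤ 288 := Nat.le_of_dvd (by norm_num) hd
    generalize Nat.card (Sylow 7 G) = n at *
    unfold Nat.ModEq at hm
    obtain ⟨t, ht⟩ : ∃ t, n = 7 * t + 1 := ⟨n / 7, by omega⟩
    have ht6 : t ≤ 41 := by omega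
    subst ht
    interval_cases t <;> omega
  rcases hn with hn | hn | hn
  · -- eight Sylow 7-subgroups: an involution of `C` would have exactly one fixed point
    rw [hn] at hidx hNn
    have hNcard : Nat.card N = 252 := by omega
    rw [hNcard] at hrelmul
    have h2C : 2 ∣ Nat.card C := by
      have hle : C.relIndex N ≤ 6 := Nat.le_of_dvd (by norm_num) hrel
      generalize C.relIndex N = i at *
      interval_cases i <;> omega
    obtain ⟨u, huC, hu⟩ := exists_mem_orderOf C 2 h2C
    have hu2 : u ^ 2 = 1 := by rw [← hu]; exact pow_orderOf_eq_one u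
    have hu1 : u ≠ 1 := by
      rintro rfl
      rw [orderOf_one] at hu
      omega
    have m7 : Nat.card (MulAction.fixedBy (G ⧸ N) u) ≡ 1 [MOD 7] := by
      rw [hN]; exact fix_modEq_one P u (hC ▸ huC)
    have m2 := fix_modEq_of_pow N u 2 1 (by rw [pow_one]; exact hu2)
    have hlt := fix_lt_index N hNne u hu1
    rw [hidx] at m2 hlt
    unfold Nat.ModEq at m7 m2
    omega
  · -- thirty-six Sylow 7-subgroups
    rw [hn] at hidx hNn
    have hNcard : Nat.card N = 56 := by omega
    rw [hNcard] at hrelmul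
    have hCcard : Nat.card C = 28 := by
      have hle : C.relIndex N ≤ 6 := Nat.le_of_dvd (by norm_num) hrel
      generalize C.relIndex N = i at *
      interval_cases i <;> omega
    rw [hCcard] at hPC
    have hrelPC : (P : Subgroup G).relIndex C = 4 := by omega
    -- every involution of `C` fixes exactly 8 points
    have hF : ∀ u : G, u ∈ C → orderOf u = 2 →
        Nat.card (MulAction.fixedBy (G ⧸ N) u) = 8 := by
      intro u huC hu
      have hu2 : u ^ 2 = 1 := by rw [← hu]; exact pow_orderOf_eq_one u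
      have hu1 : u ≠ 1 := by
        rintro rfl
        rw [orderOf_one] at hu
        omega
      have m7 : Nat.card (MulAction.fixedBy (G ⧸ N) u) ≡ 1 [MOD 7] := by
        rw [hN]; exact fix_modEq_one P u (hC ▸ huC)
      have m2 := fix_modEq_of_pow N u 2 1 (by rw [pow_one]; exact hu2)
      have hlt := fix_lt_index N hNne u hu1
      have h4 := four_dvd_of_sq (by rw [h]; norm_num) N u hu2
      rw [hidx] at m2 hlt h4
      unfold Nat.ModEq at m7 m2
      omega
    apply class_parity ({g : G | g ∈ C ∧ orderOf g = 2} : Set G)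
      (fun u => ({g : G | IsConj u g ∧ g ∈ N} : Set G))
    · -- at most three involutions
      have h6 := card_invol_centralizer_lt P hP (by decide)
      rw [← hC, hrelPC] at h6
      have e1 : Nat.card {g : G // g ∈ C ∧ orderOf g = 2} =
          ({g : G | g ∈ C ∧ orderOf g = 2} : Set G).ncard := Nat.card_coe_set_eq _
      rw [e1] at h6
      omega
    · -- an odd number of involutions
      have h7 := even_card_sq_eq_one C (by rw [hCcard]; decide)
      have e1 : Nat.card {g : G // g ∈ C ∧ g ^ 2 = 1} =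
          ({g : G | g ∈ C ∧ g ^ 2 = 1} : Set G).ncard := Nat.card_coe_set_eq _
      rw [e1, sq_set_eq, Set.ncard_insert_of_notMem (by
        rintro ⟨-, h0⟩
        rw [orderOf_one] at h0
        omega) (Set.toFinite _)] at h7
      rw [Nat.even_iff] at h7
      omega
    · -- classes stay inside the set of involutions of `C`
      rintro u ⟨huC, hu⟩ g ⟨hconj, hgN⟩
      refine ⟨?_, ?_⟩
      · rw [hC]
        apply conj_mem_centralizer P hP u g hconj (hN ▸ hgN)
        rw [← hN, hF u huC hu, hn]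
        norm_num
      · obtain ⟨c, hc⟩ := isConj_iff.mp hconj
        rw [← hc, ← hu]
        exact (MulAut.conj c).orderOf_eq u
    · rintro u ⟨huC, hu⟩
      exact ⟨IsConj.refl u, hCN huC⟩
    · -- classes have even size
      rintro u ⟨huC, hu⟩
      have hcls := S1019.result N u (hCN huC)
      rw [hidx, hF u huC hu] at hcls
      have e1 : Nat.card {g : G // IsConj u g ∧ g ∈ N} =
          ({g : G | IsConj u g ∧ g ∈ N} : Set G).ncard := Nat.card_coe_set_eq _
      rw [e1] at hcls
      omega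
    · rintro u ⟨huC, hu⟩ w ⟨hwC, hw⟩ g ⟨hgu, -⟩ ⟨hgw, -⟩
      exact ⟨hgu.trans hgw.symm, hCN hwC⟩
  · -- 288 Sylow 7-subgroups
    rw [hn] at hNn
    have hNcard : Nat.card N = 7 := by omega
    apply not_coprime_of_simple P hP hG7
    rw [← hN, hNcard]
    norm_num

end Cfsg.Agent.S1017
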