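import Cfsg.Statements.S1042
import Cfsg.Agent.Helper8.BNAux
import Cfsg.Agent.S1043
-- import your own Cfsg.Agent.* helpers here

set_option autoImplicit false
open Cfsg

namespace Cfsg.Agent.S1042

open Cfsg.Lie Cfsg.Agent.Helper8

/-- The Chevalley group has a (B,N)-pair with `B = UH`, `N` the monomial subgroup and the `n_p`, `p` fundamental, as representatives of the distinguished involutions of `W = N/H`. -/
theorem result {F : Type*} [Field F] (D : Cfsg.Lie.ChevalleyDatum) (hD : D ∈ [Cfsg.Lie.chevG2, Cfsg.Lie.chevB2, Cfsg.Lie.chevD4, Cfsg.Lie.chevF4, Cfsg.Lie.chevE6, Cfsg.Lie.chevE7, Cfsg.Lie.chevE8]) :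
    ∃ P : Cfsg.BNPair ↥(D.group F),
      P.B = (D.borelSubgroup F).subgroupOf (D.group F) ∧ P.N = (D.monomialSubgroup F).subgroupOf (D.group F) ∧
      P.S = {n : ↥(D.group F) | ∃ i < D.rank, ((n : GL D.Idx F) : Matrix D.Idx D.Idx F) = D.nMat F (D.simple i) 1} := by
  have hBG : D.borelSubgroup F ≤ D.group F := (Cfsg.Agent.S1043.result D hD).1
  have hNG : D.monomialSubgroup F ≤ D.group F := (Cfsg.Agent.S1043.result D hD).2.1
  have hsup : D.borelSubgroup F ⊔ D.monomialSubgroup F = D.group F := (Cfsg.Agent.S1043.result D hD).2.2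
  have hHG : D.diagonalSubgroup F ≤ D.group F := diagonalSubgroup_le_group D hD F
  have hS : ∀ s : ↥(D.group F),
      (∃ i < D.rank, ((s : GL D.Idx F) : Matrix D.Idx D.Idx F) = D.nMat F (D.simple i) 1) →
        ∃ i < D.rank, (s : GL D.Idx F) = nGL D F (D.simple i) := by
    rintro s ⟨i, hi, hs⟩
    exact ⟨i, hi, Units.ext (by rw [hs, nGL_val D hD F _ (std_simple_lt D hD i hi)])⟩
  have hBN : (D.borelSubgroup F).subgroupOf (D.group F) ⊓ (D.monomialSubgroup F).subgroupOf (D.group F) =
      (D.diagonalSubgroup F).subgroupOf (D.group F) := by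
    ext x
    rw [Subgroup.mem_inf, Subgroup.mem_subgroupOf, Subgroup.mem_subgroupOf, Subgroup.mem_subgroupOf,
      ← borel_inf_monomial D hD, Subgroup.mem_inf]
  refine ⟨{ B := (D.borelSubgroup F).subgroupOf (D.group F)
            N := (D.monomialSubgroup F).subgroupOf (D.group F)
            S := {n : ↥(D.group F) | ∃ i < D.rank,
              ((n : GL D.Idx F) : Matrix D.Idx D.Idx F) = D.nMat F (D.simple i) 1}
            sup_eq_top := ?_
            conj_mem := ?_
            subset := ?_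
            sq_mem := ?_
            inj := ?_
            closure_sup := ?_
            mul_mem_union := ?_
            conj_ne := ?_ }, rfl, rfl, rfl⟩
  · rw [← Subgroup.subgroupOf_sup hBG hNG, hsup, Subgroup.subgroupOf_self]
  · intro n hn t ht
    rw [hBN] at ht
    rw [Subgroup.mem_subgroupOf] at hn ht ⊢
    have hnorm := monomial_le_normalizer_diagonal D hD hn
    have h1 := (Subgroup.mem_normalizer_iff.mp hnorm _).mp ht
    exact diagonal_le_borel D h1
  · intro s hs
    obtain ⟨i, hi, hs'⟩ := hS s hs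
    show s ∈ (D.monomialSubgroup F).subgroupOf (D.group F)
    rw [Subgroup.mem_subgroupOf, hs']
    exact nGL_mem D hD F _ (std_simple_lt D hD i hi)
  · intro s hs
    obtain ⟨i, hi, hs'⟩ := hS s hs
    rw [Subgroup.mem_subgroupOf]
    show (s : GL D.Idx F) * (s : GL D.Idx F) ∈ _
    rw [hs']
    exact diagonal_le_borel D (nGL_sq_mem D hD _ (std_simple_lt D hD i hi))
  · intro s hs s' hs' hmem
    obtain ⟨i, hi, e⟩ := hS s hs
    obtain ⟨j, hj, e'⟩ := hS s' hs'
    rw [Subgroup.mem_subgroupOf] at hmem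
    have hmem' : (nGL D F (D.simple i))⁻¹ * nGL D F (D.simple j) ∈ D.borelSubgroup F := by
      rw [← e, ← e']
      exact hmem
    have hij := bn_inj D hD i j hi hj hmem'
    apply Subtype.ext
    rw [e, e', hij]
  · rw [hBN]
    apply Subgroup.map_injective (Subgroup.subtype_injective (D.group F))
    rw [Subgroup.map_sup, MonoidHom.map_closure, Subgroup.map_subgroupOf_eq_of_le hHG,
      Subgroup.map_subgroupOf_eq_of_le hNG, ← bn_closure_sup D hD]
    congr 2
    ext n
    constructor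
    · rintro ⟨s, ⟨i, hi, hs⟩, rfl⟩
      exact ⟨i, hi, hs⟩
    · rintro ⟨i, hi, hn⟩
      have hnG : n ∈ D.group F := by
        have e : n = nGL D F (D.simple i) := Units.ext (by rw [hn, nGL_val D hD F _ (std_simple_lt D hD i hi)])
        rw [e]
        exact hNG (nGL_mem D hD F _ (std_simple_lt D hD i hi))
      exact ⟨⟨n, hnG⟩, ⟨i, hi, hn⟩, rfl⟩
  · intro s hs n hn b hb
    obtain ⟨i, hi, e⟩ := hS s hs
    rw [Subgroup.mem_subgroupOf] at hn hb
    have key := bn_mul_mem_union D hD i hi (b : GL D.Idx F) (n : GL D.Idx F) hb hn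
    rw [← e] at key
    rcases key with h1 | h1
    · left
      rw [DoubleCoset.mem_doubleCoset] at h1 ⊢
      obtain ⟨b1, hb1, b2, hb2, h1⟩ := h1
      exact ⟨⟨b1, hBG hb1⟩, hb1, ⟨b2, hBG hb2⟩, hb2, Subtype.ext h1⟩
    · right
      rw [DoubleCoset.mem_doubleCoset] at h1 ⊢
      obtain ⟨b1, hb1, b2, hb2, h1⟩ := h1
      exact ⟨⟨b1, hBG hb1⟩, hb1, ⟨b2, hBG hb2⟩, hb2, Subtype.ext h1⟩
  · intro s hs hEq
    obtain ⟨i, hi, e⟩ := hS s hs
    have hp := std_simple_lt D hD i hi
    have hxB : xGL D hD F (D.simple i) hp 1 ∈ D.borelSubgroup F :=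
      pos_le_borel D (Subgroup.subset_closure ⟨_, 1, simple_pos D hD i hi, rfl⟩)
    have hmem : s * ⟨xGL D hD F (D.simple i) hp 1, hBG hxB⟩ * s ∈
        (fun b : ↥(D.group F) => s * b * s) ''
          (((D.borelSubgroup F).subgroupOf (D.group F) : Subgroup ↥(D.group F)) : Set ↥(D.group F)) :=
      ⟨_, hxB, rfl⟩
    rw [hEq] at hmem
    have hmem' : (s : GL D.Idx F) * xGL D hD F (D.simple i) hp 1 * (s : GL D.Idx F) ∈ D.borelSubgroup F := hmem
    rw [e] at hmem'
    exact bn_conj_not_mem D hD i hi hmem'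

end Cfsg.Agent.S1042
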