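import Cfsg.Statements.S1051
import Cfsg.Agent.Helper8.Core
-- import your own Cfsg.Agent.* helpers here

set_option autoImplicit false
open Cfsg

namespace Cfsg.Agent.S1051

open Cfsg.Lie Cfsg.Agent.Helper8

/-- `⋂_g g B g⁻¹ = 1`: the normal core of `B` in the Chevalley group is trivial. -/
theorem result {F : Type*} [Field F] (D : Cfsg.Lie.ChevalleyDatum) (hD : D ∈ [Cfsg.Lie.chevG2, Cfsg.Lie.chevB2, Cfsg.Lie.chevD4, Cfsg.Lie.chevF4, Cfsg.Lie.chevE6, Cfsg.Lie.chevE7, Cfsg.Lie.chevE8]) : ((D.borelSubgroup F).subgroupOf (D.group F)).normalCore = ⊥ := by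
  rw [eq_bot_iff]
  intro x hx
  rw [Subgroup.mem_bot]
  apply Subtype.ext
  apply core_eq_one D hD
  intro b hb
  have h1 : (⟨b, hb⟩ : ↥(D.group F)) * x * (⟨b, hb⟩ : ↥(D.group F))⁻¹ ∈
      (D.borelSubgroup F).subgroupOf (D.group F) := hx ⟨b, hb⟩
  rw [Subgroup.mem_subgroupOf] at h1
  exact h1

end Cfsg.Agent.S1051
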