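import Cfsg.Statements.S1052
import Cfsg.Agent.Helper8.PerfChk
-- import your own Cfsg.Agent.* helpers here

set_option autoImplicit false
open Cfsg

namespace Cfsg.Agent.S1052

open Cfsg.Lie Cfsg.Agent.Helper8

/-- `G = G'` for every type G₂, B₂, D₄, F₄, E₆, E₇, E₈ over every field, except G₂ and B₂ over the field with two elements. -/
theorem result {F : Type*} [Field F] (D : Cfsg.Lie.ChevalleyDatum) (hD : D ∈ [Cfsg.Lie.chevG2, Cfsg.Lie.chevB2, Cfsg.Lie.chevD4, Cfsg.Lie.chevF4, Cfsg.Lie.chevE6, Cfsg.Lie.chevE7, Cfsg.Lie.chevE8]) (h2 : D = Cfsg.Lie.chevG2 ∨ D = Cfsg.Lie.chevB2 → ∃ a : F, a ≠ 0 ∧ a ≠ 1) :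
    commutator ↥(D.group F) = ⊤ := by
  apply perfect_of_kgood D hD
  have hD' := hD
  simp only [List.mem_cons, List.mem_nil_iff, or_false] at hD'
  rcases hD' with rfl | rfl | rfl | rfl | rfl | rfl | rfl
  · -- G2
    obtain ⟨a, ha0, ha1⟩ := h2 (Or.inl rfl)
    obtain ⟨f1, f2, f3⟩ := perf_G2_facts
    have hp0 := std_simple_lt Cfsg.Lie.chevG2 hD 0 (by decide)
    have hp1 := std_simple_lt Cfsg.Lie.chevG2 hD 1 (by decide)
    have hc : ∀ m : ℕ, ∀ i, i < Cfsg.Lie.chevG2.rank → (fun k => if k = m then a else (1 : F)) i ≠ 0 := by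
      intro m i _
      show (if i = m then a else 1) ≠ 0
      split_ifs
      · exact ha0
      · exact one_ne_zero
    have g0 : KGood Cfsg.Lie.chevG2 F (Cfsg.Lie.chevG2.simple 0) := by
      apply kgood_of_h Cfsg.Lie.chevG2 hD _ hp0 (fun k => if k = 1 then a else 1) (hc 1)
      rw [dOf_single _ 1 (by decide), f1]
      simpa using ha1
    have g1 : KGood Cfsg.Lie.chevG2 F (Cfsg.Lie.chevG2.simple 1) := by
      by_cases hsq : a ^ 2 = 1
      · apply kgood_of_h Cfsg.Lie.chevG2 hD _ hp1 (fun k => if k = 0 then a else 1) (hc 0)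
        rw [dOf_single _ 0 (by decide), f2]
        intro h
        have h3 : a ^ (3 : ℕ) = 1 := by
          have h4 : (a ^ (3 : ℕ))⁻¹ = 1 := by
            rw [← h, zpow_neg]
            norm_cast
          simpa using h4
        apply ha1
        calc a = a ^ 2 * a := by rw [hsq, one_mul]
          _ = a ^ 3 := by ring
          _ = 1 := h3
      · apply kgood_of_h Cfsg.Lie.chevG2 hD _ hp1 (fun k => if k = 1 then a else 1) (hc 1)
        rw [dOf_single _ 1 (by decide), f3]
        exact_mod_cast hsq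
    intro j hj
    have hj' : j < 2 := hj
    interval_cases j
    · exact g0
    · exact g1
  · -- B2
    obtain ⟨a, ha0, ha1⟩ := h2 (Or.inr rfl)
    obtain ⟨f1, f2, f3⟩ := perf_B2_facts
    have hp0 := std_simple_lt Cfsg.Lie.chevB2 hD 0 (by decide)
    have hp1 := std_simple_lt Cfsg.Lie.chevB2 hD 1 (by decide)
    have hc : ∀ i, i < Cfsg.Lie.chevB2.rank → (fun k => if k = 1 then a else (1 : F)) i ≠ 0 := by
      intro i _
      show (if i = 1 then a else 1) ≠ 0
      split_ifs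
      · exact ha0
      · exact one_ne_zero
    have g0 : KGood Cfsg.Lie.chevB2 F (Cfsg.Lie.chevB2.simple 0) := by
      apply kgood_of_h Cfsg.Lie.chevB2 hD _ hp0 (fun k => if k = 1 then a else 1) hc
      rw [dOf_single _ 1 (by decide), f3]
      simpa using ha1
    have g6 : KGood Cfsg.Lie.chevB2 F 6 := by
      rw [← f1]
      exact kgood_refl Cfsg.Lie.chevB2 hD 1 (by decide) _ hp0 g0
    have g7 : KGood Cfsg.Lie.chevB2 F 7 :=
      kgood_of_comm2 Cfsg.Lie.chevB2 hD _ _ 6 7 (-1) (-1) hp0 hp1 (by decide) perf_B2_chk perf_B2_terms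
        (Or.inr rfl) g6
    have g1 : KGood Cfsg.Lie.chevB2 F (Cfsg.Lie.chevB2.simple 1) := by
      apply kgood_refl' Cfsg.Lie.chevB2 hD 0 (by decide) _ hp1
      rw [f2]
      exact g7
    intro j hj
    have hj' : j < 2 := hj
    interval_cases j
    · exact g0
    · exact g1
  · exact kgood_of_perfAll Cfsg.Lie.chevD4 hD _ perfAll_D4
  · exact kgood_of_perfAll Cfsg.Lie.chevF4 hD _ perfAll_F4
  · exact kgood_of_perfAll Cfsg.Lie.chevE6 hD _ perfAll_E6
  · exact kgood_of_perfAll Cfsg.Lie.chevE7 hD _ perfAll_E7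
  · exact kgood_of_perfAll Cfsg.Lie.chevE8 hD _ perfAll_E8

end Cfsg.Agent.S1052
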