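import Cfsg.Statements.S1054
import Cfsg.Agent.Helper8.Tits2
import Cfsg.Agent.S1051
import Cfsg.Agent.S1052
-- import your own Cfsg.Agent.* helpers here

set_option autoImplicit false
open Cfsg

namespace Cfsg.Agent.S1054

open Cfsg.Lie Cfsg.Agent.Helper8

/-- The Chevalley groups of types D₄, F₄, E₆, E₇, E₈ are simple over every field. -/
theorem result {F : Type*} [Field F] (D : Cfsg.Lie.ChevalleyDatum)
    (hD : D ∈ [Cfsg.Lie.chevD4, Cfsg.Lie.chevF4, Cfsg.Lie.chevE6, Cfsg.Lie.chevE7, Cfsg.Lie.chevE8]) :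
    IsSimpleGroup ↥(D.group F) ∧ ¬ IsMulCommutative ↥(D.group F) := by
  have hD7 : Std7 D := by
    simp only [List.mem_cons, List.mem_nil_iff, or_false] at hD
    rcases hD with rfl | rfl | rfl | rfl | rfl <;> simp [Std7]
  refine chev_simple D hD7 (Cfsg.Agent.S1052.result D hD7 ?_) (Cfsg.Agent.S1051.result D hD7)
  intro h
  exfalso
  simp only [List.mem_cons, List.mem_nil_iff, or_false] at hD
  rcases hD with rfl | rfl | rfl | rfl | rfl <;> rcases h with h | h <;>
    exact absurd (congrArg ChevalleyDatum.nroots h) (by decide)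

end Cfsg.Agent.S1054
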