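import Cfsg.Statements.S1055
import Cfsg.Agent.Helper8.Tits2
import Cfsg.Agent.S1051
import Cfsg.Agent.S1052
-- import your own Cfsg.Agent.* helpers here

set_option autoImplicit false
open Cfsg

namespace Cfsg.Agent.S1055

open Cfsg.Lie Cfsg.Agent.Helper8

/-- G₂(F) is simple for every field `F` other than the field with two elements. -/
theorem result {F : Type*} [Field F] (hF : ∃ a : F, a ≠ 0 ∧ a ≠ 1) : IsSimpleGroup ↥(Cfsg.Lie.chevG2.group F) ∧ ¬ IsMulCommutative ↥(Cfsg.Lie.chevG2.group F) := by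
  have hD7 : Std7 chevG2 := by simp [Std7]
  exact chev_simple chevG2 hD7 (Cfsg.Agent.S1052.result chevG2 hD7 (fun _ => hF)) (Cfsg.Agent.S1051.result chevG2 hD7)

end Cfsg.Agent.S1055
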