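import Cfsg.Statements.S1058
import Cfsg.Agent.Helper8.B2S2
import Cfsg.Agent.S1060
-- import your own Cfsg.Agent.* helpers here

set_option autoImplicit false
open Cfsg

namespace Cfsg.Agent.S1058

open Cfsg.Lie Cfsg.Agent.Helper8

/-- B₂(2) ≅ S₆. -/
theorem result {F : Type*} [Field F] [Fintype F] (hF : Fintype.card F = 2) :
    Nonempty (↥(Cfsg.Lie.chevB2.group F) ≃* Equiv.Perm (Fin 6)) := by
  have e : ZMod 2 ≃+* F := ZMod.ringEquivOfPrime F Nat.prime_two hF
  have hcard : Nat.card ↥(chevB2.group (ZMod 2)) = 720 := by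
    have h := Cfsg.Agent.S1060.result (F := ZMod 2) (q := 2) (ZMod.card 2)
    norm_num at h
    exact h
  have hbij : Function.Bijective b2Hom := by
    apply b2Hom_surjective.bijective_of_nat_card_le
    rw [hcard, Nat.card_eq_fintype_card, Fintype.card_perm, Fintype.card_fin]
    decide
  exact ⟨(groupRingEquiv chevB2 e.symm).trans (MulEquiv.ofBijective b2Hom hbij)⟩

end Cfsg.Agent.S1058
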