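import Cfsg.Statements.S1080

set_option autoImplicit false
open Cfsg

namespace Cfsg.Agent.S1080

theorem xMat_map (D : Cfsg.Lie.ChevalleyDatum) {F : Type*} [Field F] (f : F →+* F) (r : Fin D.nroots) (t : F) :
    (D.xMat F r t).map f = D.xMat F r (f t) := by
  ext row col
  rcases col with i | s
  · rcases row with i' | u
    · simp only [Cfsg.Lie.ChevalleyDatum.xMat, Matrix.map_apply, Matrix.of_apply]
      split_ifs <;> simp
    · simp only [Cfsg.Lie.ChevalleyDatum.xMat, Matrix.map_apply, Matrix.of_apply]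
      split_ifs <;> simp
  · by_cases hs : s = r
    · rcases row with i' | u
      · simp [Cfsg.Lie.ChevalleyDatum.xMat, hs]
      · simp only [Cfsg.Lie.ChevalleyDatum.xMat, Matrix.map_apply, Matrix.of_apply, if_pos hs]
        split_ifs <;> simp
    · by_cases hs2 : s.val = D.negIdx.getD r.val 0
      · rcases row with i' | u
        · simp [Cfsg.Lie.ChevalleyDatum.xMat, hs, hs2]
        · simp only [Cfsg.Lie.ChevalleyDatum.xMat, Matrix.map_apply, Matrix.of_apply, if_neg hs, if_pos hs2]
          split_ifs <;> simp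
      · rcases row with i' | u
        · simp only [Cfsg.Lie.ChevalleyDatum.xMat, Matrix.map_apply, Matrix.of_apply, if_neg hs, if_neg hs2]
          simp
        · simp only [Cfsg.Lie.ChevalleyDatum.xMat, Matrix.map_apply, Matrix.of_apply, if_neg hs, if_neg hs2]
          rw [map_add, map_list_sum, List.map_map]
          congr 1
          · split_ifs <;> simp
          · congr 1
            apply List.map_congr_left
            intro km _
            simp

noncomputable def glMap (D : Cfsg.Lie.ChevalleyDatum) {F : Type*} [Field F] (f : F ≃+* F) : GL D.Idx F ≃* GL D.Idx F :=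
  Units.mapEquiv (RingEquiv.mapMatrix f).toMulEquiv

theorem glMap_coe (D : Cfsg.Lie.ChevalleyDatum) {F : Type*} [Field F] (f : F ≃+* F) (g : GL D.Idx F) :
    ((glMap D f g : GL D.Idx F) : Matrix D.Idx D.Idx F) = (g : Matrix D.Idx D.Idx F).map f := rfl

theorem glMap_symm_coe (D : Cfsg.Lie.ChevalleyDatum) {F : Type*} [Field F] (f : F ≃+* F) (g : GL D.Idx F) :
    (((glMap D f).symm g : GL D.Idx F) : Matrix D.Idx D.Idx F) = (g : Matrix D.Idx D.Idx F).map f.symm := rfl

theorem map_group (D : Cfsg.Lie.ChevalleyDatum) {F : Type*} [Field F] (f : F ≃+* F) :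
    (D.group F).map (glMap D f).toMonoidHom = D.group F := by
  unfold Cfsg.Lie.ChevalleyDatum.group
  rw [MonoidHom.map_closure]
  congr 1
  ext g
  simp only [Set.mem_image, Set.mem_ofPred_eq]
  constructor
  · rintro ⟨g0, ⟨r, t, hg0⟩, rfl⟩
    refine ⟨r, f t, ?_⟩
    change ((glMap D f g0 : GL D.Idx F) : Matrix D.Idx D.Idx F) = _
    rw [glMap_coe, hg0]
    exact xMat_map D (f : F →+* F) r t
  · rintro ⟨r, t, hg⟩
    refine ⟨(glMap D f).symm g, ⟨r, f.symm t, ?_⟩, ?_⟩
    · rw [glMap_symm_coe, hg]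
      exact xMat_map D (f.symm : F →+* F) r t
    · change glMap D f ((glMap D f).symm g) = g
      simp

/-- Field automorphisms: for every field automorphism `f` there is a group automorphism sending each `x_r(t)` to `x_r(f t)`. -/
theorem result {F : Type*} [Field F] (D : Cfsg.Lie.ChevalleyDatum) (hD : D ∈ [Cfsg.Lie.chevG2, Cfsg.Lie.chevB2, Cfsg.Lie.chevD4, Cfsg.Lie.chevF4, Cfsg.Lie.chevE6, Cfsg.Lie.chevE7, Cfsg.Lie.chevE8]) (f : F ≃+* F) :
    ∃ α : ↥(D.group F) ≃* ↥(D.group F), ∀ (g : ↥(D.group F)) (r : ℕ) (t : F), r < D.nroots →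
      ((g : GL D.Idx F) : Matrix D.Idx D.Idx F) = D.x F r t → ((α g : GL D.Idx F) : Matrix D.Idx D.Idx F) = D.x F r (f t) := by
  refine ⟨((glMap D f).subgroupMap (D.group F)).trans (MulEquiv.subgroupCongr (map_group D f)), ?_⟩
  intro g r t hr hg
  change ((glMap D f (g : GL D.Idx F) : GL D.Idx F) : Matrix D.Idx D.Idx F) = _
  rw [glMap_coe, hg, Cfsg.Lie.ChevalleyDatum.x, dif_pos hr, Cfsg.Lie.ChevalleyDatum.x, dif_pos hr]
  exact xMat_map D (f : F →+* F) ⟨r, hr⟩ t

end Cfsg.Agent.S1080
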