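import Cfsg.Statements.S1118
import Cfsg.Agent.Helper14.RankOne

set_option autoImplicit false
open Cfsg

namespace Cfsg.Agent.S1118

open MulAction Cfsg.Agent.Helper14

/-- In the rank-one set-up (`G` finite and doubly transitive on `Ω`, `t` an involution moving `a`, `Q` normal in `G_a` with `G_a = Q D`, `Q ⊓ D = 1` for the two-point stabiliser `D = G_a ⊓ G_{t • a}`, `|Q|` even, `|D|` odd), the normaliser of a subset of `Q` containing a non-identity element lies in `G_a`; consequently `N_G(Q) = N_G(G_a) = G_a`. -/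
theorem result {G Ω : Type*} [Group G] [Finite G] [MulAction G Ω] {a : Ω} {t : G} {Q : Subgroup G}
    (hS : Cfsg.IsRankOneSetup G Ω a t Q) :
    (∀ X : Set G, X ⊆ (Q : Set G) → (∃ x ∈ X, x ≠ 1) → Subgroup.normalizer X ≤ MulAction.stabilizer G a) ∧
      Subgroup.normalizer (Q : Set G) = MulAction.stabilizer G a ∧
      Subgroup.normalizer (MulAction.stabilizer G a : Set G) = MulAction.stabilizer G a := by
  have part1 : ∀ X : Set G, X ⊆ (Q : Set G) → (∃ x ∈ X, x ≠ 1) →
      Subgroup.normalizer X ≤ MulAction.stabilizer G a := by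
    rintro X hXQ ⟨x, hxX, hx1⟩ g hg
    rw [Subgroup.mem_set_normalizer_iff] at hg
    have h1 : g * x * g⁻¹ ∈ Q := hXQ ((hg x).mp hxX)
    have h2 : g * x * g⁻¹ ≠ 1 := by
      intro h
      apply hx1
      calc x = g⁻¹ * (g * x * g⁻¹) * g := by group
        _ = 1 := by rw [h]; group
    have h3 : (g * x * g⁻¹) • (g • a) = g • a := by
      rw [mul_smul, mul_smul, inv_smul_smul, ro_Q_fix hS (hXQ hxX)]
    exact mem_stabilizer_iff.mpr ((ro_fix_iff hS h1 h2 (g • a)).mp h3)
  obtain ⟨s, hsQ, hs1, hs2⟩ := ro_exists_invol hS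
  refine ⟨part1, ?_, ?_⟩
  · apply le_antisymm
    · exact part1 (Q : Set G) (le_refl _) ⟨s, hsQ, hs1⟩
    · intro h hh
      rw [Subgroup.mem_set_normalizer_iff]
      intro x
      constructor
      · intro hx
        exact hS.conj_mem h hh x hx
      · intro hx
        have := hS.conj_mem h⁻¹ (inv_mem hh) _ hx
        have e : h⁻¹ * (h * x * h⁻¹) * h⁻¹⁻¹ = x := by group
        rw [e] at this
        exact this
  · apply le_antisymm
    · intro g hg
      rw [Subgroup.mem_set_normalizer_iff] at hg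
      have h1 : g * s * g⁻¹ ∈ stabilizer G a := (hg s).mp (hS.le hsQ)
      have h2 : s • (g⁻¹ • a) = g⁻¹ • a := by
        have := mem_stabilizer_iff.mp h1
        rw [mul_smul, mul_smul] at this
        calc s • (g⁻¹ • a) = g⁻¹ • (g • s • g⁻¹ • a) := by rw [inv_smul_smul]
          _ = g⁻¹ • a := by rw [this]
      have h3 := (ro_fix_iff hS hsQ hs1 (g⁻¹ • a)).mp h2
      have : g⁻¹ ∈ stabilizer G a := mem_stabilizer_iff.mpr h3
      simpa using inv_mem this
    · exact Subgroup.le_normalizer

end Cfsg.Agent.S1118
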