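import Cfsg.Statements.S1119
import Cfsg.Agent.Helper14.RankOne

set_option autoImplicit false
open Cfsg

namespace Cfsg.Agent.S1119

open MulAction Cfsg.Agent.Helper14

/-- In the rank-one set-up (`G` finite and doubly transitive on `Ω`, `t` an involution moving `a`, `Q` normal in `G_a` with `G_a = Q D`, `Q ⊓ D = 1` for the two-point stabiliser `D = G_a ⊓ G_{t • a}`, `|Q|` even, `|D|` odd): `Q` acts regularly on `Ω` minus `a`; hence `|Ω| = |Q| + 1`, `|G| = |Q| |D| (|Q| + 1)`, some Sylow 2-subgroup of `G` lies in `Q`, and each `g ∉ G_a` is uniquely `x t y` with `x ∈ G_a`, `y ∈ Q` (canonical form). -/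
theorem result {G Ω : Type*} [Group G] [Finite G] [MulAction G Ω] {a : Ω} {t : G} {Q : Subgroup G}
    (hS : Cfsg.IsRankOneSetup G Ω a t Q) :
    (∀ b c : Ω, b ≠ a → c ≠ a → ∃! x : Q, (x : G) • b = c) ∧
      Nat.card Ω = Nat.card Q + 1 ∧
      Nat.card G = Nat.card Q * Nat.card ↥(MulAction.stabilizer G a ⊓ MulAction.stabilizer G (t • a)) * (Nat.card Q + 1) ∧
      (∃ P : Sylow 2 G, (P : Subgroup G) ≤ Q) ∧
      ∀ g : G, g ∉ MulAction.stabilizer G a → ∃! p : G × G, p.1 ∈ MulAction.stabilizer G a ∧ p.2 ∈ Q ∧ g = p.1 * t * p.2 := by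
  refine ⟨fun b c hb hc => ro_regular hS hb hc, ro_card_Omega hS, ro_card_G hS, ?_, ?_⟩
  · -- Sylow
    obtain ⟨P₀⟩ : Nonempty (Sylow 2 Q) := inferInstance
    have hcardG := ro_card_G hS
    have hQpos : Nat.card Q ≠ 0 := Nat.card_pos.ne'
    have hDpos : Nat.card ↥(stabilizer G a ⊓ stabilizer G (t • a)) ≠ 0 := Nat.card_pos.ne'
    have hodd : Odd (Nat.card ↥(stabilizer G a ⊓ stabilizer G (t • a)) * (Nat.card Q + 1)) :=
      Odd.mul hS.odd_card (Even.add_one hS.even_card)
    have hfac : (Nat.card G).factorization 2 = (Nat.card Q).factorization 2 := by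
      rw [hcardG, mul_assoc, Nat.factorization_mul hQpos (by positivity)]
      have : (Nat.card ↥(stabilizer G a ⊓ stabilizer G (t • a)) * (Nat.card Q + 1)).factorization 2 = 0 := by
        apply Nat.factorization_eq_zero_of_not_dvd
        intro h2
        exact (Nat.not_even_iff_odd.mpr hodd) (even_iff_two_dvd.mpr h2)
      rw [Finsupp.add_apply, this, add_zero]
    have hcard : Nat.card ((P₀ : Subgroup Q).map Q.subtype) = 2 ^ (Nat.card G).factorization 2 := by
      rw [hfac, ← P₀.card_eq_multiplicity]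
      exact Nat.card_congr ((P₀ : Subgroup Q).equivMapOfInjective Q.subtype Q.subtype_injective).symm.toEquiv
    refine ⟨Sylow.ofCard _ hcard, ?_⟩
    rw [Sylow.coe_ofCard]
    exact Subgroup.map_subtype_le _
  · intro g hg
    have hc : g⁻¹ • a ≠ a := by
      intro h
      apply hg
      have : g⁻¹ ∈ stabilizer G a := mem_stabilizer_iff.mpr h
      simpa using inv_mem this
    obtain ⟨z, hz, hzb⟩ := ro_trans hS hc
    have htinv := ro_inv hS
    refine ⟨(g * z * t, z⁻¹), ⟨?_, Q.inv_mem hz, ?_⟩, ?_⟩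
    · rw [mem_stabilizer_iff, mul_smul, mul_smul, hzb, smul_inv_smul]
    · show g = g * z * t * t * z⁻¹
      rw [mul_assoc (g * z), hS.mul_self]
      group
    · rintro ⟨x', y'⟩ ⟨hx', hy', hg'⟩
      have hx'a : x'⁻¹ • a = a := mem_stabilizer_iff.mp (inv_mem hx')
      have h1 : g⁻¹ • a = y'⁻¹ • (t • a) := by
        have : g⁻¹ = y'⁻¹ * t * x'⁻¹ := by
          rw [hg']
          simp only [mul_inv_rev, htinv, mul_assoc]
        rw [this, mul_smul, mul_smul, hx'a]
      have h2 : (z⁻¹ * y'⁻¹) • (t • a) = t • a := by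
        rw [mul_smul, ← h1, ← hzb, inv_smul_smul]
      have h3 := ro_QD_bot hS (Q.mul_mem (Q.inv_mem hz) (Q.inv_mem hy')) h2
      have hy'z : y' = z⁻¹ := by
        have : y'⁻¹ = z := by
          calc y'⁻¹ = z * (z⁻¹ * y'⁻¹) := by group
            _ = z := by rw [h3, mul_one]
        rw [← this, inv_inv]
      have hx'eq : x' = g * z * t := by
        have : x' = g * y'⁻¹ * t⁻¹ := by rw [hg']; group
        rw [this, hy'z, inv_inv, htinv]
      exact Prod.ext hx'eq hy'z

end Cfsg.Agent.S1119
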