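import Cfsg.Statements.S1120
import Cfsg.Agent.Helper14.RankOne2
import Cfsg.Agent.Helper10.CopGen

set_option autoImplicit false
open Cfsg

namespace Cfsg.Agent.S1120

open MulAction Cfsg.Agent.Helper14

theorem klein_pgroup {G : Type*} [Group G] (x y : G) (hx : x * x = 1) (hy : y * y = 1)
    (hxy : x * y = y * x) : IsPGroup 2 (Subgroup.closure ({x, y} : Set G)) := by
  have h1 : ∀ g ∈ Subgroup.closure ({x, y} : Set G), g * x = x * g ∧ g * y = y * g := by
    intro g hg
    induction hg using Subgroup.closure_induction with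
    | mem z hz =>
      rcases hz with hz | hz
      · rw [hz]; exact ⟨rfl, hxy⟩
      · rw [Set.mem_singleton_iff] at hz
        rw [hz]; exact ⟨hxy.symm, rfl⟩
    | one => simp
    | mul a b _ _ iha ihb =>
      constructor
      · calc a * b * x = a * (b * x) := by group
          _ = a * (x * b) := by rw [ihb.1]
          _ = (a * x) * b := by group
          _ = x * (a * b) := by rw [iha.1]; group
      · calc a * b * y = a * (b * y) := by group
          _ = a * (y * b) := by rw [ihb.2]
          _ = (a * y) * b := by group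
          _ = y * (a * b) := by rw [iha.2]; group
    | inv a _ iha =>
      constructor
      · calc a⁻¹ * x = a⁻¹ * (x * a) * a⁻¹ := by group
          _ = a⁻¹ * (a * x) * a⁻¹ := by rw [iha.1]
          _ = x * a⁻¹ := by group
      · calc a⁻¹ * y = a⁻¹ * (y * a) * a⁻¹ := by group
          _ = a⁻¹ * (a * y) * a⁻¹ := by rw [iha.2]
          _ = y * a⁻¹ := by group
  have h2 : ∀ g ∈ Subgroup.closure ({x, y} : Set G), ∀ h ∈ Subgroup.closure ({x, y} : Set G),
      h * g = g * h := by
    intro g hg h hh
    induction hh using Subgroup.closure_induction with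
    | mem z hz =>
      rcases hz with hz | hz
      · rw [hz]; exact (h1 g hg).1.symm
      · rw [Set.mem_singleton_iff] at hz
        rw [hz]; exact (h1 g hg).2.symm
    | one => simp
    | mul a b _ _ iha ihb =>
      calc a * b * g = a * (b * g) := by group
        _ = a * (g * b) := by rw [ihb]
        _ = (a * g) * b := by group
        _ = g * (a * b) := by rw [iha]; group
    | inv a _ iha =>
      calc a⁻¹ * g = a⁻¹ * (g * a) * a⁻¹ := by group
        _ = a⁻¹ * (a * g) * a⁻¹ := by rw [iha]
        _ = g * a⁻¹ := by group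
  have h3 : ∀ g ∈ Subgroup.closure ({x, y} : Set G), g * g = 1 := by
    intro g hg
    induction hg using Subgroup.closure_induction with
    | mem z hz =>
      rcases hz with hz | hz
      · rw [hz]; exact hx
      · rw [Set.mem_singleton_iff] at hz
        rw [hz]; exact hy
    | one => simp
    | mul a b ha hb iha ihb =>
      calc a * b * (a * b) = a * (b * a) * b := by group
        _ = a * (a * b) * b := by rw [h2 a ha b hb]
        _ = (a * a) * (b * b) := by group
        _ = 1 := by rw [iha, ihb, one_mul]
    | inv a _ iha =>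
      calc a⁻¹ * a⁻¹ = (a * a)⁻¹ := by group
        _ = 1 := by rw [iha, inv_one]
  intro g
  refine ⟨1, ?_⟩
  apply Subtype.ext
  show (g : G) ^ 2 ^ 1 = 1
  rw [pow_one, pow_two]
  exact h3 g.1 g.2

/-- In the rank-one set-up (`G` finite and doubly transitive on `Ω`, `t` an involution moving `a`, `Q` normal in `G_a` with `G_a = Q D`, `Q ⊓ D = 1` for the two-point stabiliser `D = G_a ⊓ G_{t • a}`, `|Q|` even, `|D|` odd), if `G` has 2-rank at least 2 then `O_{2'}(G)` equals the normal core of `G_a`. -/
theorem result {G Ω : Type*} [Group G] [Finite G] [MulAction G Ω] {a : Ω} {t : G} {Q : Subgroup G}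
    (hS : Cfsg.IsRankOneSetup G Ω a t Q)
    (h2 : ∃ x y : G, x ≠ 1 ∧ y ≠ 1 ∧ x ≠ y ∧ x * x = 1 ∧ y * y = 1 ∧ x * y = y * x) :
    Cfsg.pPrimeCore 2 G = (MulAction.stabilizer G a).normalCore := by
  obtain ⟨x, y, hx1, hy1, hxy, hx2, hy2, hcomm⟩ := h2
  have hpre := ro_pretrans hS
  apply le_antisymm
  · -- pPrimeCore ≤ core
    apply sSup_le
    rintro N ⟨hN, hNodd⟩
    haveI := hN
    rw [Subgroup.normal_le_normalCore]
    -- the unique fixed point of x
    obtain ⟨c, hc, hcu⟩ := ro_invol_unique_fix hS hx1 hx2
    have hyc : y • c = c := by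
      apply hcu
      show x • y • c = y • c
      rw [← mul_smul, hcomm, mul_smul, hc]
    -- centralizers of involutions fixing c fix c
    have hcent : ∀ e : G, e ≠ 1 → e * e = 1 → e • c = c →
        N ⊓ Subgroup.centralizer {e} ≤ stabilizer G c := by
      intro e he1 he2 hec n hn
      have hne : e * n = n * e := Subgroup.mem_centralizer_iff.mp hn.2 e (Set.mem_singleton e)
      obtain ⟨c', hc', hc'u⟩ := ro_invol_unique_fix hS he1 he2
      rw [mem_stabilizer_iff]
      have h1 : e • (n • c) = n • c := by rw [← mul_smul, hne, mul_smul, hec]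
      rw [hc'u _ h1, hc'u _ hec]
    have hA := klein_pgroup x y hx2 hy2 hcomm
    have hgen := Cfsg.Agent.Helper10.rank_two_generation 2 (Subgroup.closure ({x, y} : Set G)) N hA
      ((Nat.prime_two.coprime_iff_not_dvd).mp hNodd.symm)
      (by rw [Subgroup.normalizer_eq_top]; exact le_top) x y
      (Subgroup.subset_closure (by simp)) (Subgroup.subset_closure (by simp)) hcomm
      (by rw [pow_two]; exact hx2) (by rw [pow_two]; exact hy2)
    have hNc : N ≤ stabilizer G c := by
      refine hgen.trans (sup_le (hcent y hy1 hy2 hyc) (iSup_le fun i => ?_))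
      rcases Nat.even_or_odd' i with ⟨k, rfl | rfl⟩
      · have : y ^ (2 * k) = 1 := by rw [pow_mul, pow_two, hy2, one_pow]
        rw [this, mul_one]
        exact hcent x hx1 hx2 hc
      · have : y ^ (2 * k + 1) = y := by rw [pow_succ, pow_mul, pow_two, hy2, one_pow, one_mul]
        rw [this]
        apply hcent (x * y)
        · intro h
          apply hxy
          calc x = x * (y * y) := by rw [hy2, mul_one]
            _ = (x * y) * y := by group
            _ = y := by rw [h, one_mul]
        · calc x * y * (x * y) = x * (y * x) * y := by group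
            _ = x * (x * y) * y := by rw [hcomm]
            _ = (x * x) * (y * y) := by group
            _ = 1 := by rw [hx2, hy2, one_mul]
        · rw [mul_smul, hyc, hc]
    -- transfer to a
    obtain ⟨g, hg⟩ := exists_smul_eq G c a
    intro n hn
    rw [mem_stabilizer_iff]
    have h1 : g⁻¹ * n * g⁻¹⁻¹ ∈ N := hN.conj_mem n hn g⁻¹
    have h2 := mem_stabilizer_iff.mp (hNc h1)
    rw [mul_smul, mul_smul, inv_inv] at h2
    rw [← hg]
    calc n • g • c = g • (g⁻¹ • n • g • c) := (smul_inv_smul g _).symm
      _ = g • c := by rw [h2]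
  · -- core ≤ pPrimeCore
    apply le_sSup
    refine ⟨Subgroup.normalCore_normal _, ?_⟩
    have hle : (stabilizer G a).normalCore ≤ stabilizer G a ⊓ stabilizer G (t • a) := by
      intro n hn
      refine Subgroup.mem_inf.mpr ⟨Subgroup.normalCore_le _ hn, ?_⟩
      have h1 : t⁻¹ * n * t⁻¹⁻¹ ∈ (stabilizer G a).normalCore :=
        (Subgroup.normalCore_normal _).conj_mem n hn t⁻¹
      have h2 := mem_stabilizer_iff.mp (Subgroup.normalCore_le _ h1)
      rw [inv_inv, mul_smul, mul_smul] at h2
      rw [mem_stabilizer_iff]
      calc n • t • a = t • (t⁻¹ • n • t • a) := (smul_inv_smul t _).symm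
        _ = t • a := by rw [h2]
    have hdvd := Subgroup.card_dvd_of_le hle
    have hodd : Odd (Nat.card (stabilizer G a).normalCore) := Odd.of_dvd_nat hS.odd_card hdvd
    exact Nat.coprime_two_right.mpr hodd

end Cfsg.Agent.S1120
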