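import Cfsg.Statements.S1123
import Cfsg.Agent.Helper14.RankOne

set_option autoImplicit false
open Cfsg

namespace Cfsg.Agent.S1123

open MulAction Cfsg.Agent.Helper14

/-- the structure equation in a usable form -/
theorem structure_eq {G Ω : Type*} [Group G] [Finite G] [MulAction G Ω] {a : Ω} {t : G}
    {Q : Subgroup G} (hS : Cfsg.IsRankOneSetup G Ω a t Q) :
    ∃ (s r : G) (c : Ω), s ∈ stabilizer G a ∧ s ≠ 1 ∧ s * s = 1 ∧ r ∈ Q ∧
      t * s * t = r⁻¹ * t * r ∧ r • (t • a) = c ∧ t • c = c ∧ c ≠ a ∧ s = t * r⁻¹ * t * r * t ∧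
      ∀ s' r' : G, s' ∈ stabilizer G a → r' ∈ Q → t * s' * t = r'⁻¹ * t * r' → s' = s ∧ r' = r := by
  have htt := hS.mul_self
  have htinv := ro_inv hS
  obtain ⟨c, hc, hcu⟩ := ro_invol_unique_fix hS hS.ne_one hS.mul_self
  have hca : c ≠ a := by
    rintro rfl
    exact ro_ne hS hc
  obtain ⟨r, hr, hrc⟩ := ro_trans hS hca
  have hrinv : r⁻¹ • c = t • a := by rw [← hrc, inv_smul_smul]
  have hs_eq : t * r⁻¹ * t * r * t = (t * r⁻¹) * t * (t * r⁻¹)⁻¹ := by
    rw [mul_inv_rev, inv_inv, htinv]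
    group
  refine ⟨t * r⁻¹ * t * r * t, r, c, ?_, ?_, ?_, hr, ?_, hrc, hc, hca, rfl, ?_⟩
  · rw [mem_stabilizer_iff, mul_smul, mul_smul, mul_smul, mul_smul, hrc, hc, hrinv, ro_tt hS]
  · rw [hs_eq]
    intro h
    apply hS.ne_one
    calc t = (t * r⁻¹)⁻¹ * ((t * r⁻¹) * t * (t * r⁻¹)⁻¹) * (t * r⁻¹) := by group
      _ = 1 := by rw [h]; group
  · rw [hs_eq]
    calc (t * r⁻¹) * t * (t * r⁻¹)⁻¹ * ((t * r⁻¹) * t * (t * r⁻¹)⁻¹)
        = (t * r⁻¹) * (t * t) * (t * r⁻¹)⁻¹ := by group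
      _ = 1 := by rw [htt]; group
  · calc t * (t * r⁻¹ * t * r * t) * t = (t * t) * r⁻¹ * t * r * (t * t) := by group
      _ = r⁻¹ * t * r := by rw [htt]; group
  · intro s' r' hs' hr' heq
    have hs'eq : s' = t * r'⁻¹ * t * r' * t := by
      calc s' = (t * t) * s' * (t * t) := by rw [htt]; group
        _ = t * (t * s' * t) * t := by group
        _ = t * (r'⁻¹ * t * r') * t := by rw [heq]
        _ = t * r'⁻¹ * t * r' * t := by group
    have h1 : t • (r' • (t • a)) = r' • (t • a) := by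
      have h2 : s' • a = a := mem_stabilizer_iff.mp hs'
      rw [hs'eq, mul_smul, mul_smul, mul_smul, mul_smul] at h2
      have h3 : r'⁻¹ • t • r' • t • a = t • a := by
        calc r'⁻¹ • t • r' • t • a = t • (t • r'⁻¹ • t • r' • t • a) := by
              rw [← mul_smul t t, htt, one_smul]
          _ = t • a := by rw [h2]
      calc t • (r' • (t • a)) = r' • (r'⁻¹ • t • r' • t • a) := by rw [smul_inv_smul]
        _ = r' • (t • a) := by rw [h3]
    have h4 : r' • (t • a) = c := hcu _ h1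
    have hrr : r' = r := by
      have h5 : (r⁻¹ * r') • (t • a) = t • a := by
        rw [mul_smul, h4, hrinv]
      have h6 := ro_QD_bot hS (Q.mul_mem (Q.inv_mem hr) hr') h5
      calc r' = r * (r⁻¹ * r') := by group
        _ = r := by rw [h6, mul_one]
    refine ⟨?_, hrr⟩
    rw [hs'eq, hrr]

/-- In the rank-one set-up (`G` finite and doubly transitive on `Ω`, `t` an involution moving `a`, `Q` normal in `G_a` with `G_a = Q D`, `Q ⊓ D = 1` for the two-point stabiliser `D = G_a ⊓ G_{t • a}`, `|Q|` even, `|D|` odd), there is a unique pair `(s, r)` with `s` an involution of `G_a`, `r ∈ Q` and `t s t = r⁻¹ t r`. -/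
theorem result {G Ω : Type*} [Group G] [Finite G] [MulAction G Ω] {a : Ω} {t : G} {Q : Subgroup G}
    (hS : Cfsg.IsRankOneSetup G Ω a t Q) :
    ∃! p : G × G, p.1 ∈ Cfsg.involutionsIn (MulAction.stabilizer G a : Set G) ∧ p.2 ∈ Q ∧
      t * p.1 * t = p.2⁻¹ * t * p.2 := by
  obtain ⟨s, r, c, hs, hs1, hs2, hr, heq, _, _, _, _, huniq⟩ := structure_eq hS
  refine ⟨(s, r), ⟨⟨hs, hs1, hs2⟩, hr, heq⟩, ?_⟩
  rintro ⟨s', r'⟩ ⟨⟨hs', _, _⟩, hr', heq'⟩
  obtain ⟨h1, h2⟩ := huniq s' r' hs' hr' heq'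
  exact Prod.ext h1 h2

end Cfsg.Agent.S1123
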