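import Cfsg.Statements.S1124

set_option autoImplicit false
open scoped Pointwise
open Cfsg

namespace Cfsg.Agent.S1124

/-- powers of inverted elements are inverted -/
theorem inv_pow_mem {M : Type*} [Group M] (t : M) (X : Subgroup M) {z : M}
    (hz : z ∈ Cfsg.invertedBy X t) (k : ℕ) : z ^ k ∈ Cfsg.invertedBy X t := by
  refine ⟨X.pow_mem hz.1 k, ?_⟩
  rw [← conj_pow, hz.2, inv_pow]

/-- the decomposition `X = C_X(t) Z` -/
theorem decomp {M : Type*} [Group M] [Finite M]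
    (t : M) (htt : t * t = 1) (X : Subgroup M) (hodd : Odd (Nat.card X))
    (hnorm : ∀ x ∈ X, t * x * t⁻¹ ∈ X) :
    ∀ x ∈ X, ∃! p : M × M, p.1 ∈ X ⊓ Subgroup.centralizer {t} ∧ p.2 ∈ Cfsg.invertedBy X t ∧
      x = p.1 * p.2 := by
  have htinv : t⁻¹ = t := inv_eq_of_mul_eq_one_left htt
  obtain ⟨m, hm⟩ := hodd
  have hpow : ∀ x ∈ X, x ^ (2 * m + 1) = 1 := by
    intro x hx
    have h1 : (⟨x, hx⟩ : X) ^ Nat.card X = 1 := pow_card_eq_one'
    rw [hm] at h1
    exact congrArg Subtype.val h1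
  -- unique square roots
  have hsqrt : ∀ z ∈ X, z = (z * z) ^ (m + 1) := by
    intro z hz
    have h1 : (z * z) ^ (m + 1) = z ^ (2 * m + 1) * z := by
      rw [← pow_two, ← pow_mul, ← pow_succ]
      congr 1
    rw [h1, hpow z hz, one_mul]
  intro x hx
  obtain ⟨w, hw⟩ : ∃ w, w = (t * x * t⁻¹)⁻¹ * x := ⟨_, rfl⟩
  have hwX : w ∈ X := by
    rw [hw]
    exact X.mul_mem (X.inv_mem (hnorm x hx)) hx
  have hwZ : w ∈ Cfsg.invertedBy X t := by
    refine ⟨hwX, ?_⟩
    rw [hw, htinv]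
    calc t * ((t * x * t)⁻¹ * x) * t = x⁻¹ * t⁻¹ * x * t := by group
      _ = x⁻¹ * t * x * t := by rw [htinv]
      _ = ((t * x * t)⁻¹ * x)⁻¹ := by group
  obtain ⟨z, hz⟩ : ∃ z, z = w ^ (m + 1) := ⟨_, rfl⟩
  have hzZ : z ∈ Cfsg.invertedBy X t := by
    rw [hz]
    exact inv_pow_mem t X hwZ (m + 1)
  have hzz : z * z = w := by
    rw [hz, ← pow_add]
    have : m + 1 + (m + 1) = (2 * m + 1) + 1 := by ring
    rw [this, pow_succ, hpow w hwX, one_mul]
  have hzinv : t * z⁻¹ * t⁻¹ = z := by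
    have := hzZ.2
    calc t * z⁻¹ * t⁻¹ = (t * z * t⁻¹)⁻¹ := by group
      _ = z := by rw [this, inv_inv]
  refine ⟨(x * z⁻¹, z), ⟨⟨X.mul_mem hx (X.inv_mem hzZ.1), ?_⟩, hzZ, by group⟩, ?_⟩
  · show x * z⁻¹ ∈ Subgroup.centralizer {t}
    rw [Subgroup.mem_centralizer_iff]
    intro h hh
    rw [Set.mem_singleton_iff] at hh
    subst hh
    have h1 : h * (x * z⁻¹) * h⁻¹ = x * z⁻¹ := by
      calc h * (x * z⁻¹) * h⁻¹ = (h * x * h⁻¹) * (h * z⁻¹ * h⁻¹) := by group
        _ = (h * x * h⁻¹) * z := by rw [hzinv]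
        _ = (h * x * h⁻¹) * (z * z) * z⁻¹ := by group
        _ = (h * x * h⁻¹) * ((h * x * h⁻¹)⁻¹ * x) * z⁻¹ := by rw [hzz, hw]
        _ = x * z⁻¹ := by group
    calc h * (x * z⁻¹) = (h * (x * z⁻¹) * h⁻¹) * h := by group
      _ = x * z⁻¹ * h := by rw [h1]
  · rintro ⟨y', z'⟩ ⟨⟨hy'X, hy'C⟩, hz'Z, hxe⟩
    have hy't : t * y' * t⁻¹ = y' := by
      have := (Subgroup.mem_centralizer_iff.mp hy'C) t (Set.mem_singleton t)
      calc t * y' * t⁻¹ = (y' * t) * t⁻¹ := by rw [this]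
        _ = y' := by group
    have hz'z' : z' * z' = w := by
      have hxe' : x = y' * z' := hxe
      rw [hw, hxe']
      calc z' * z' = ((t * y' * t⁻¹) * (t * z' * t⁻¹))⁻¹ * (y' * z') := by
            rw [hy't, hz'Z.2]; group
        _ = (t * (y' * z') * t⁻¹)⁻¹ * (y' * z') := by group
    have hz'eq : z' = z := by
      rw [hsqrt z' hz'Z.1, hz'z', hz]
    have hy'eq : y' = x * z⁻¹ := by
      have hxe' : x = y' * z' := hxe
      rw [hxe', hz'eq]
      group
    exact Prod.ext hy'eq hz'eq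

/-- Let `t` be an element of order 2 of a finite group normalising a subgroup `X` of odd order, `Y = C_X(t)` and `Z` the set of elements of `X` inverted by `t`. Then `(y, z) ↦ y z` is a bijection `Y × Z → X`, so `|X| = |Y| |Z|`, and the subgroup generated by `Z` is normal in `X`. -/
theorem result {M : Type*} [Group M] [Finite M]
    (t : M) (ht : orderOf t = 2) (X : Subgroup M) (hodd : Odd (Nat.card X))
    (hnorm : ∀ x ∈ X, t * x * t⁻¹ ∈ X) :
    (∀ x ∈ X, ∃! p : M × M, p.1 ∈ X ⊓ Subgroup.centralizer {t} ∧ p.2 ∈ Cfsg.invertedBy X t ∧ x = p.1 * p.2) ∧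
      Nat.card X = Nat.card ↥(X ⊓ Subgroup.centralizer {t}) * Nat.card (Cfsg.invertedBy X t) ∧
      ∀ x ∈ X, MulAut.conj x • Subgroup.closure (Cfsg.invertedBy X t) = Subgroup.closure (Cfsg.invertedBy X t) := by
  have htt : t * t = 1 := by
    have := pow_orderOf_eq_one t
    rw [ht, pow_two] at this
    exact this
  have htinv : t⁻¹ = t := inv_eq_of_mul_eq_one_left htt
  have hdec := decomp t htt X hodd hnorm
  refine ⟨hdec, ?_, ?_⟩
  · let f : ↥(X ⊓ Subgroup.centralizer {t}) × ↥(Cfsg.invertedBy X t) → ↥X := fun p =>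
      ⟨(p.1 : M) * (p.2 : M), X.mul_mem p.1.2.1 p.2.2.1⟩
    have hf : Function.Bijective f := by
      constructor
      · rintro ⟨y, z⟩ ⟨y', z'⟩ h
        have h' : (y : M) * (z : M) = (y' : M) * (z' : M) := congrArg Subtype.val h
        obtain ⟨p, _, hp⟩ := hdec ((y : M) * (z : M)) (X.mul_mem y.2.1 z.2.1)
        have e1 := hp ((y : M), (z : M)) ⟨y.2, z.2, rfl⟩
        have e2 := hp ((y' : M), (z' : M)) ⟨y'.2, z'.2, h'⟩
        have e3 : ((y : M), (z : M)) = ((y' : M), (z' : M)) := e1.trans e2.symm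
        exact Prod.ext (Subtype.ext (congrArg Prod.fst e3)) (Subtype.ext (congrArg Prod.snd e3))
      · rintro ⟨x, hx⟩
        obtain ⟨p, ⟨hp1, hp2, hp3⟩, _⟩ := hdec x hx
        exact ⟨(⟨p.1, hp1⟩, ⟨p.2, hp2⟩), Subtype.ext hp3.symm⟩
    rw [← Nat.card_congr (Equiv.ofBijective f hf), Nat.card_prod]
  · -- conjugation by elements of the centralizer preserves Z
    have hC : ∀ y ∈ X ⊓ Subgroup.centralizer {t}, ∀ h ∈ Subgroup.closure (Cfsg.invertedBy X t),
        y * h * y⁻¹ ∈ Subgroup.closure (Cfsg.invertedBy X t) := by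
      intro y hy h hh
      have hyt : t * y = y * t := (Subgroup.mem_centralizer_iff.mp hy.2) t (Set.mem_singleton t)
      induction hh using Subgroup.closure_induction with
      | mem z hz =>
        apply Subgroup.subset_closure
        refine ⟨X.mul_mem (X.mul_mem hy.1 hz.1) (X.inv_mem hy.1), ?_⟩
        have hyt' : t * y * t⁻¹ = y := by
          calc t * y * t⁻¹ = (y * t) * t⁻¹ := by rw [hyt]
            _ = y := by group
        calc t * (y * z * y⁻¹) * t⁻¹ = (t * y * t⁻¹) * (t * z * t⁻¹) * (t * y * t⁻¹)⁻¹ := by group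
          _ = y * z⁻¹ * y⁻¹ := by rw [hyt', hz.2]
          _ = (y * z * y⁻¹)⁻¹ := by group
      | one => simp
      | mul h h' _ _ ih ih' =>
        have : y * (h * h') * y⁻¹ = (y * h * y⁻¹) * (y * h' * y⁻¹) := by group
        rw [this]
        exact Subgroup.mul_mem _ ih ih'
      | inv h _ ih =>
        have : y * h⁻¹ * y⁻¹ = (y * h * y⁻¹)⁻¹ := by group
        rw [this]
        exact Subgroup.inv_mem _ ih
    have hX : ∀ x ∈ X, ∀ h ∈ Subgroup.closure (Cfsg.invertedBy X t),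
        x * h * x⁻¹ ∈ Subgroup.closure (Cfsg.invertedBy X t) := by
      intro x hx h hh
      obtain ⟨p, ⟨hp1, hp2, hp3⟩, _⟩ := hdec x hx
      have hp3' : x = p.1 * p.2 := hp3
      have e : x * h * x⁻¹ = p.1 * (p.2 * h * p.2⁻¹) * p.1⁻¹ := by rw [hp3']; group
      rw [e]
      apply hC p.1 hp1
      exact Subgroup.mul_mem _ (Subgroup.mul_mem _ (Subgroup.subset_closure hp2) hh)
        (Subgroup.inv_mem _ (Subgroup.subset_closure hp2))
    intro x hx
    apply le_antisymm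
    · intro g hg
      rw [Subgroup.mem_pointwise_smul_iff_inv_smul_mem] at hg
      have hg' : x⁻¹ * g * x⁻¹⁻¹ ∈ Subgroup.closure (Cfsg.invertedBy X t) := by
        simpa [MulAut.smul_def] using hg
      have := hX x hx _ hg'
      have e : x * (x⁻¹ * g * x⁻¹⁻¹) * x⁻¹ = g := by group
      rw [e] at this
      exact this
    · intro g hg
      rw [Subgroup.mem_pointwise_smul_iff_inv_smul_mem]
      have := hX x⁻¹ (X.inv_mem hx) g hg
      simpa [MulAut.smul_def] using this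

end Cfsg.Agent.S1124
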