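import Cfsg.Statements.S1125
import Cfsg.Agent.Helper14.RankOne2

set_option autoImplicit false
open Cfsg

namespace Cfsg.Agent.S1125

open MulAction Cfsg.Agent.Helper14

section
variable {G Ω : Type*} [Group G] [MulAction G Ω] {a : Ω} {t : G} {Q : Subgroup G}

/-- (A): for a fixed point `c ≠ a` of `X`, there is `r ∈ C_Q(X)` with `r • (t • a) = c`. -/
theorem exA (hS : Cfsg.IsRankOneSetup G Ω a t Q) (X : Set G)
    (hX : X ⊆ ((stabilizer G a ⊓ stabilizer G (t • a)) : Set G)) {c : Ω}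
    (hc : ∀ x ∈ X, x • c = c) (hca : c ≠ a) :
    ∃ r ∈ Subgroup.centralizer X ⊓ Q, r • (t • a) = c := by
  obtain ⟨r, hr, hrc⟩ := ro_trans hS hca
  refine ⟨r, Subgroup.mem_inf.mpr ⟨Subgroup.mem_centralizer_iff.mpr ?_, hr⟩, hrc⟩
  intro x hx
  have hxD : x ∈ stabilizer G a ⊓ stabilizer G (t • a) := hX hx
  have h1 : x * r * x⁻¹ = r := by
    apply ro_Q_inj hS (hS.conj_mem x hxD.1 r hr) hr
    rw [mul_smul, mul_smul, mem_stabilizer_iff.mp (inv_mem hxD).2, hrc, hc x hx]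
  calc x * r = (x * r * x⁻¹) * x := by group
    _ = r * x := by rw [h1]

/-- (B): for a fixed point `c ≠ t • a` of `X`, there is `g ∈ C(X)` fixing `t • a` with
`g • a = c`. -/
theorem exB (hS : Cfsg.IsRankOneSetup G Ω a t Q) (X : Set G)
    (hX : X ⊆ ((stabilizer G a ⊓ stabilizer G (t • a)) : Set G)) {c : Ω}
    (hc : ∀ x ∈ X, x • c = c) (hcb : c ≠ t • a) :
    ∃ g ∈ Subgroup.centralizer X, g • (t • a) = t • a ∧ g • a = c := by
  have htt := hS.mul_self
  have htinv := ro_inv hS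
  have htca : t • c ≠ a := by
    intro h
    apply hcb
    rw [← h, ← mul_smul, htt, one_smul]
  obtain ⟨r, hr, hrc⟩ := ro_trans hS htca
  refine ⟨t * r * t, Subgroup.mem_centralizer_iff.mpr ?_, ?_, ?_⟩
  · intro x hx
    have hxD : x ∈ stabilizer G a ⊓ stabilizer G (t • a) := hX hx
    have hyD := ro_t_norm_D hS hxD
    rw [htinv] at hyD
    have h1 : (t * x * t) * r * (t * x * t)⁻¹ = r := by
      apply ro_Q_inj hS (hS.conj_mem _ hyD.1 r hr) hr
      rw [mul_smul, mul_smul, mem_stabilizer_iff.mp (inv_mem hyD).2, hrc, mul_smul, mul_smul,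
        ← mul_smul t t, htt, one_smul, hc x hx]
    calc x * (t * r * t) = (t * t) * x * (t * r * t) := by rw [htt, one_mul]
      _ = t * ((t * x * t) * r * (t * x * t)⁻¹) * (t * x * t) * t := by group
      _ = t * r * (t * x * t) * t := by rw [h1]
      _ = t * r * t * x * (t * t) := by group
      _ = t * r * t * x := by rw [htt, mul_one]
  · rw [mul_smul, mul_smul, ro_tt hS, ro_Q_fix hS hr]
  · rw [mul_smul, mul_smul, hrc, ← mul_smul, htt, one_smul]

theorem fix_smul (X : Set G) {g : G} (hg : g ∈ Subgroup.centralizer X) {c : Ω}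
    (hc : ∀ x ∈ X, x • c = c) : ∀ x ∈ X, x • (g • c) = g • c := by
  intro x hx
  rw [← mul_smul, Subgroup.mem_centralizer_iff.mp hg x hx, mul_smul, hc x hx]

theorem trans_to_a (hS : Cfsg.IsRankOneSetup G Ω a t Q) (X : Set G)
    (hX : X ⊆ ((stabilizer G a ⊓ stabilizer G (t • a)) : Set G))
    (h3 : ∃ d : Ω, d ≠ a ∧ d ≠ t • a ∧ ∀ x ∈ X, x • d = d) {c : Ω}
    (hc : ∀ x ∈ X, x • c = c) : ∃ g ∈ Subgroup.centralizer X, g • c = a := by
  by_cases hca : c = a
  · exact ⟨1, one_mem _, by rw [one_smul, hca]⟩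
  by_cases hcb : c = t • a
  · obtain ⟨d, hda, hdb, hd⟩ := h3
    obtain ⟨g₂, hg₂, hg₂b⟩ := exA hS X hX hd hda
    obtain ⟨g₁, hg₁, _, hg₁a⟩ := exB hS X hX hd hdb
    refine ⟨g₁⁻¹ * g₂, mul_mem (inv_mem hg₁) hg₂.1, ?_⟩
    rw [hcb, mul_smul, hg₂b, ← hg₁a, inv_smul_smul]
  · obtain ⟨g₁, hg₁, _, hg₁a⟩ := exB hS X hX hc hcb
    exact ⟨g₁⁻¹, inv_mem hg₁, by rw [← hg₁a, inv_smul_smul]⟩

theorem two_to_ab (hS : Cfsg.IsRankOneSetup G Ω a t Q) (X : Set G)
    (hX : X ⊆ ((stabilizer G a ⊓ stabilizer G (t • a)) : Set G))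
    (h3 : ∃ d : Ω, d ≠ a ∧ d ≠ t • a ∧ ∀ x ∈ X, x • d = d) {b₁ b₂ : Ω}
    (h1 : ∀ x ∈ X, x • b₁ = b₁) (h2 : ∀ x ∈ X, x • b₂ = b₂) (hne : b₁ ≠ b₂) :
    ∃ g ∈ Subgroup.centralizer X, g • b₁ = a ∧ g • b₂ = t • a := by
  obtain ⟨g, hg, hga⟩ := trans_to_a hS X hX h3 h1
  have hgb : ∀ x ∈ X, x • (g • b₂) = g • b₂ := fix_smul X hg h2
  have hne' : g • b₂ ≠ a := by
    intro h
    apply hne
    rw [← hga] at h
    exact (MulAction.injective g h).symm
  obtain ⟨r, hr, hrb⟩ := exA hS X hX hgb hne'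
  refine ⟨r⁻¹ * g, mul_mem (inv_mem hr.1) hg, ?_, ?_⟩
  · rw [mul_smul, hga, ro_Q_fix hS (Q.inv_mem hr.2)]
  · rw [mul_smul, ← hrb, inv_smul_smul]

theorem third (a b' : Ω) {b c d : Ω} (hbc : b ≠ c) (hbd : b ≠ d) (hcd : c ≠ d) :
    (b ≠ a ∧ b ≠ b') ∨ (c ≠ a ∧ c ≠ b') ∨ (d ≠ a ∧ d ≠ b') := by
  grind

theorem h3_conv (X : Set G)
    (h3 : ∃ b c d : Ω, b ≠ c ∧ b ≠ d ∧ c ≠ d ∧ ∀ x ∈ X, x • b = b ∧ x • c = c ∧ x • d = d)
    (a b' : Ω) : ∃ d : Ω, d ≠ a ∧ d ≠ b' ∧ ∀ x ∈ X, x • d = d := by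
  obtain ⟨b, c, d, hbc, hbd, hcd, h⟩ := h3
  rcases third a b' hbc hbd hcd with h1 | h1 | h1
  · exact ⟨b, h1.1, h1.2, fun x hx => (h x hx).1⟩
  · exact ⟨c, h1.1, h1.2, fun x hx => (h x hx).2.1⟩
  · exact ⟨d, h1.1, h1.2, fun x hx => (h x hx).2.2⟩

end

/-- In the rank-one set-up (`G` finite and doubly transitive on `Ω`, `t` an involution moving `a`, `Q` normal in `G_a` with `G_a = Q D`, `Q ⊓ D = 1` for the two-point stabiliser `D = G_a ⊓ G_{t • a}`, `|Q|` even, `|D|` odd), let `X ⊆ D` fix at least three points of `Ω`. Then `C_G(X)` is doubly transitive on the fixed-point set of `X`, `|C_Q(X)|` is even, and `C_{G_a}(X) = C_Q(X) C_D(X)`. -/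
theorem result {G Ω : Type*} [Group G] [Finite G] [MulAction G Ω] {a : Ω} {t : G} {Q : Subgroup G}
    (hS : Cfsg.IsRankOneSetup G Ω a t Q)
    (X : Set G) (hX : X ⊆ ((MulAction.stabilizer G a ⊓ MulAction.stabilizer G (t • a)) : Set G))
    (h3 : ∃ b c d : Ω, b ≠ c ∧ b ≠ d ∧ c ≠ d ∧ ∀ x ∈ X, x • b = b ∧ x • c = c ∧ x • d = d) :
    (∀ b₁ b₂ c₁ c₂ : Ω, (∀ x ∈ X, x • b₁ = b₁ ∧ x • b₂ = b₂ ∧ x • c₁ = c₁ ∧ x • c₂ = c₂) →
        b₁ ≠ b₂ → c₁ ≠ c₂ → ∃ g ∈ Subgroup.centralizer X, g • b₁ = c₁ ∧ g • b₂ = c₂) ∧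
      Even (Nat.card ↥(Subgroup.centralizer X ⊓ Q)) ∧
      (Subgroup.centralizer X ⊓ Q) ⊔ (Subgroup.centralizer X ⊓ (MulAction.stabilizer G a ⊓ MulAction.stabilizer G (t • a))) = Subgroup.centralizer X ⊓ MulAction.stabilizer G a := by
  have h3' := h3_conv X h3 a (t • a)
  have hXa : ∀ x ∈ X, x • a = a := fun x hx => mem_stabilizer_iff.mp (hX hx).1
  have hXb : ∀ x ∈ X, x • (t • a) = t • a := fun x hx => mem_stabilizer_iff.mp (hX hx).2
  refine ⟨?_, ?_, ?_⟩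
  · intro b₁ b₂ c₁ c₂ hfix hb hc
    obtain ⟨gb, hgb, hgb1, hgb2⟩ := two_to_ab hS X hX h3' (fun x hx => (hfix x hx).1)
      (fun x hx => (hfix x hx).2.1) hb
    obtain ⟨gc, hgc, hgc1, hgc2⟩ := two_to_ab hS X hX h3' (fun x hx => (hfix x hx).2.2.1)
      (fun x hx => (hfix x hx).2.2.2) hc
    refine ⟨gc⁻¹ * gb, mul_mem (inv_mem hgc) hgb, ?_, ?_⟩
    · rw [mul_smul, hgb1, ← hgc1, inv_smul_smul]
    · rw [mul_smul, hgb2, ← hgc2, inv_smul_smul]
  · -- an element of `C(X)` swapping `a` and `t • a`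
    obtain ⟨g, hg, hg1, hg2⟩ := two_to_ab hS X hX h3' hXb hXa (ro_ne hS)
    -- `g` has even order
    have hev : Even (orderOf g) := by
      by_contra hodd
      rw [Nat.not_even_iff_odd] at hodd
      obtain ⟨k, hk⟩ := hodd
      have h1 : (g * g) ^ (k + 1) = g := by
        rw [← pow_two, ← pow_mul]
        have : 2 * (k + 1) = orderOf g + 1 := by omega
        rw [this, pow_succ, pow_orderOf_eq_one, one_mul]
      have h2 : (g * g) ∈ stabilizer G a := by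
        rw [mem_stabilizer_iff, mul_smul, hg2, hg1]
      have h3 : g ∈ stabilizer G a := by
        rw [← h1]
        exact pow_mem h2 _
      rw [mem_stabilizer_iff, hg2] at h3
      exact ro_ne hS h3
    obtain ⟨m, hm⟩ := hev
    have hpos : 0 < orderOf g := orderOf_pos g
    obtain ⟨u, hu⟩ : ∃ u, u = g ^ m := ⟨_, rfl⟩
    have hu1 : u ≠ 1 := by
      rw [hu]
      exact pow_ne_one_of_lt_orderOf (by omega) (by omega)
    have hu2 : u * u = 1 := by
      rw [hu, ← pow_add, ← hm, pow_orderOf_eq_one]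
    have huH : u ∈ Subgroup.centralizer X := by
      rw [hu]
      exact pow_mem hg _
    obtain ⟨c, hc, hcu⟩ := ro_invol_unique_fix hS hu1 hu2
    have hcF : ∀ x ∈ X, x • c = c := by
      intro x hx
      apply hcu
      show u • x • c = x • c
      rw [← mul_smul, ← Subgroup.mem_centralizer_iff.mp huH x hx, mul_smul, hc]
    obtain ⟨g', hg', hg'c⟩ := trans_to_a hS X hX h3' hcF
    obtain ⟨v, hv⟩ : ∃ v, v = g' * u * g'⁻¹ := ⟨_, rfl⟩
    have hvH : v ∈ Subgroup.centralizer X := by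
      rw [hv]
      exact mul_mem (mul_mem hg' huH) (inv_mem hg')
    have hv1 : v ≠ 1 := by
      intro h
      apply hu1
      calc u = g'⁻¹ * (g' * u * g'⁻¹) * g' := by group
        _ = 1 := by rw [← hv, h]; group
    have hv2 : v * v = 1 := by
      rw [hv]
      calc g' * u * g'⁻¹ * (g' * u * g'⁻¹) = g' * (u * u) * g'⁻¹ := by group
        _ = 1 := by rw [hu2]; group
    have hva : v ∈ stabilizer G a := by
      rw [mem_stabilizer_iff, hv, mul_smul, mul_smul, ← hg'c, inv_smul_smul, hc]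
    have hvQ : v ∈ Q := ro_invol_mem_Q hS hva hv2
    have hvm : v ∈ Subgroup.centralizer X ⊓ Q := Subgroup.mem_inf.mpr ⟨hvH, hvQ⟩
    have ho : orderOf (⟨v, hvm⟩ : ↥(Subgroup.centralizer X ⊓ Q)) = 2 := by
      apply orderOf_eq_prime
      · apply Subtype.ext
        show v ^ 2 = 1
        rw [pow_two, hv2]
      · intro h
        exact hv1 (congrArg Subtype.val h)
    rw [even_iff_two_dvd, ← ho]
    exact orderOf_dvd_natCard _
  · apply le_antisymm
    · apply sup_le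
      · exact inf_le_inf_left _ hS.le
      · exact inf_le_inf_left _ inf_le_left
    · rintro h ⟨hh0, hha0⟩
      have hhC : h ∈ Subgroup.centralizer X := hh0
      have hha : h ∈ stabilizer G a := hha0
      obtain ⟨r, hr, d, hd, rfl⟩ := ro_decomp hS hha
      have key : ∀ x ∈ X, x * r * x⁻¹ = r ∧ x * d * x⁻¹ = d := by
        intro x hx
        have hxD : x ∈ stabilizer G a ⊓ stabilizer G (t • a) := hX hx
        have hcomm : x * (r * d) = (r * d) * x := Subgroup.mem_centralizer_iff.mp hhC x hx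
        apply ro_decomp_unique hS (hS.conj_mem x hxD.1 r hr) hr
          (mul_mem (mul_mem hxD hd) (inv_mem hxD)) hd
        calc x * r * x⁻¹ * (x * d * x⁻¹) = (x * (r * d)) * x⁻¹ := by group
          _ = (r * d) * x * x⁻¹ := by rw [hcomm]
          _ = r * d := by group
      apply Subgroup.mul_mem_sup
      · refine Subgroup.mem_inf.mpr ⟨Subgroup.mem_centralizer_iff.mpr ?_, hr⟩
        intro x hx
        calc x * r = (x * r * x⁻¹) * x := by group
          _ = r * x := by rw [(key x hx).1]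
      · refine Subgroup.mem_inf.mpr ⟨Subgroup.mem_centralizer_iff.mpr ?_, hd⟩
        intro x hx
        calc x * d = (x * d * x⁻¹) * x := by group
          _ = d * x := by rw [(key x hx).2]

end Cfsg.Agent.S1125
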