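import Cfsg.Statements.S1126
import Cfsg.Agent.Helper14.RankOne2
import Cfsg.Agent.S1125

set_option autoImplicit false
open Cfsg

namespace Cfsg.Agent.S1126

open MulAction Cfsg.Agent.Helper14

/-- In the rank-one set-up (`G` finite and doubly transitive on `Ω`, `t` an involution moving `a`, `Q` normal in `G_a` with `G_a = Q D`, `Q ⊓ D = 1` for the two-point stabiliser `D = G_a ⊓ G_{t • a}`, `|Q|` even, `|D|` odd), a subset `X ⊆ D` fixing at least three points of `Ω` is conjugate by an element of `D` into `V = C_D(t)`. -/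
theorem result {G Ω : Type*} [Group G] [Finite G] [MulAction G Ω] {a : Ω} {t : G} {Q : Subgroup G}
    (hS : Cfsg.IsRankOneSetup G Ω a t Q)
    (X : Set G) (hX : X ⊆ ((MulAction.stabilizer G a ⊓ MulAction.stabilizer G (t • a)) : Set G))
    (h3 : ∃ b c d : Ω, b ≠ c ∧ b ≠ d ∧ c ≠ d ∧ ∀ x ∈ X, x • b = b ∧ x • c = c ∧ x • d = d) :
    ∃ k ∈ (MulAction.stabilizer G a ⊓ MulAction.stabilizer G (t • a)), ∀ x ∈ X, (k * x * k⁻¹) * t = t * (k * x * k⁻¹) := by
  have h3' := Cfsg.Agent.S1125.h3_conv X h3 a (t • a)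
  have hXa : ∀ x ∈ X, x • a = a := fun x hx => mem_stabilizer_iff.mp (hX hx).1
  have hXb : ∀ x ∈ X, x • (t • a) = t • a := fun x hx => mem_stabilizer_iff.mp (hX hx).2
  have htt := hS.mul_self
  have htinv := ro_inv hS
  obtain ⟨g, hg, hg1, hg2⟩ := Cfsg.Agent.S1125.two_to_ab hS X hX h3' hXb hXa (ro_ne hS)
  have hpos : 0 < orderOf g := orderOf_pos g
  obtain ⟨e, m, hm, hn⟩ := Nat.exists_eq_two_pow_mul_odd (Nat.pos_iff_ne_zero.mp hpos)
  obtain ⟨j, hj⟩ := hm
  have hgga : g * g ∈ stabilizer G a := by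
    rw [mem_stabilizer_iff, mul_smul, hg2, hg1]
  have hggb : g * g ∈ stabilizer G (t • a) := by
    rw [mem_stabilizer_iff, mul_smul, hg1, hg2]
  obtain ⟨u, hu⟩ : ∃ u, u = g ^ m := ⟨_, rfl⟩
  have hu' : u = (g * g) ^ j * g := by
    rw [hu, hj, ← pow_two, ← pow_mul, pow_succ]
  have huH : u ∈ Subgroup.centralizer X := by rw [hu]; exact pow_mem hg _
  have hua : u • a = t • a := by
    rw [hu', mul_smul, hg2]
    exact mem_stabilizer_iff.mp (pow_mem hggb j)
  have hub : u • (t • a) = a := by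
    rw [hu', mul_smul, hg1]
    exact mem_stabilizer_iff.mp (pow_mem hgga j)
  have hdD : u * u ∈ stabilizer G a ⊓ stabilizer G (t • a) := by
    refine Subgroup.mem_inf.mpr ⟨mem_stabilizer_iff.mpr ?_, mem_stabilizer_iff.mpr ?_⟩
    · rw [mul_smul, hua, hub]
    · rw [mul_smul, hub, hua]
  have hd1 : (u * u) ^ (2 ^ e) = 1 := by
    rw [hu, ← pow_add, ← pow_mul]
    have : (m + m) * 2 ^ e = orderOf g * 2 := by rw [hn]; ring
    rw [this, pow_mul, pow_orderOf_eq_one, one_pow]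
  have hu2 : u * u = 1 := by
    have ho1 : orderOf (u * u) ∣ 2 ^ e := orderOf_dvd_of_pow_eq_one hd1
    have ho2 : orderOf (u * u) ∣ Nat.card ↥(stabilizer G a ⊓ stabilizer G (t • a)) := by
      rw [← Subgroup.orderOf_mk (u * u) hdD]
      exact orderOf_dvd_natCard _
    have hcop : Nat.Coprime (2 ^ e) (Nat.card ↥(stabilizer G a ⊓ stabilizer G (t • a))) :=
      Nat.Coprime.pow_left e (Nat.coprime_two_left.mpr hS.odd_card)
    have := Nat.eq_one_of_dvd_coprimes hcop ho1 ho2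
    exact orderOf_eq_one_iff.mp this
  -- k' = t * u
  have hK := ro_K_of_invol hS hu2 hua
  obtain ⟨k', hk'⟩ : ∃ k', k' = t * u := ⟨_, rfl⟩
  rw [← hk'] at hK
  obtain ⟨hk'D, hk'inv⟩ := hK
  have hodd : Odd (orderOf k') := by
    have ho2 : orderOf k' ∣ Nat.card ↥(stabilizer G a ⊓ stabilizer G (t • a)) := by
      rw [← Subgroup.orderOf_mk k' hk'D]
      exact orderOf_dvd_natCard _
    exact Odd.of_dvd_nat hS.odd_card ho2
  obtain ⟨i, hi⟩ := hodd
  obtain ⟨w, hw⟩ : ∃ w, w = k' ^ (i + 1) := ⟨_, rfl⟩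
  have hwD : w ∈ stabilizer G a ⊓ stabilizer G (t • a) := by rw [hw]; exact pow_mem hk'D _
  have hww : w * w = k' := by
    rw [hw, ← pow_add]
    have : i + 1 + (i + 1) = orderOf k' + 1 := by omega
    rw [this, pow_succ, pow_orderOf_eq_one, one_mul]
  have hwinv : t * w * t = w⁻¹ := by
    have : t * w * t⁻¹ = w⁻¹ := by
      rw [hw, ← conj_pow, hk'inv, inv_pow]
    rw [htinv] at this
    exact this
  have hut : u = t * k' := by
    rw [hk', ← mul_assoc, htt, one_mul]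
  have hconj : w * u * w⁻¹ = t := by
    calc w * u * w⁻¹ = w * (t * (w * w)) * w⁻¹ := by rw [hut, hww]
      _ = (t * t) * w * t * w := by rw [htt]; group
      _ = t * (t * w * t) * w := by group
      _ = t := by rw [hwinv]; group
  refine ⟨w, hwD, ?_⟩
  intro x hx
  have hxu : x * u = u * x := Subgroup.mem_centralizer_iff.mp huH x hx
  calc w * x * w⁻¹ * t = w * x * w⁻¹ * (w * u * w⁻¹) := by rw [hconj]
    _ = w * (x * u) * w⁻¹ := by group
    _ = w * (u * x) * w⁻¹ := by rw [hxu]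
    _ = (w * u * w⁻¹) * (w * x * w⁻¹) := by group
    _ = t * (w * x * w⁻¹) := by rw [hconj]

end Cfsg.Agent.S1126
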