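import Cfsg.Statements.S1127
import Cfsg.Agent.Helper14.RankOne2
import Cfsg.Agent.S1123
import Cfsg.Agent.S1124

set_option autoImplicit false
open Cfsg

namespace Cfsg.Agent.S1127

open MulAction Cfsg.Agent.Helper14

theorem mem_centr_singleton {G : Type*} [Group G] (g x : G) :
    g ∈ Subgroup.centralizer ({x} : Set G) ↔ x * g = g * x := by
  rw [Subgroup.mem_centralizer_iff]
  constructor
  · intro h
    exact h x (Set.mem_singleton x)
  · intro h y hy
    rw [Set.mem_singleton_iff] at hy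
    rw [hy]
    exact h

/-- `C_D(t) ≤ C_D(s)` for the structure pair -/
theorem centr_le {G Ω : Type*} [Group G] [Finite G] [MulAction G Ω] {a : Ω} {t : G}
    {Q : Subgroup G} (hS : Cfsg.IsRankOneSetup G Ω a t Q) (s r : G)
    (hs : s ∈ Cfsg.involutionsIn (stabilizer G a : Set G)) (hr : r ∈ Q)
    (heq : t * s * t = r⁻¹ * t * r) :
    (stabilizer G a ⊓ stabilizer G (t • a)) ⊓ Subgroup.centralizer {t} ≤
      (stabilizer G a ⊓ stabilizer G (t • a)) ⊓ Subgroup.centralizer {s} := by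
  obtain ⟨s₀, r₀, c, _, _, _, _, _, hrc, htc, hca, hs_eq, huniq⟩ := Cfsg.Agent.S1123.structure_eq hS
  obtain ⟨e1, e2⟩ := huniq s r hs.1 hr heq
  subst e1
  subst e2
  rintro d ⟨hd0, hdt0⟩
  have hd : d ∈ stabilizer G a ⊓ stabilizer G (t • a) := hd0
  have hdt : t * d = d * t := (mem_centr_singleton d t).mp hdt0
  refine ⟨hd, (mem_centr_singleton d s).mpr ?_⟩
  have hdc : d • c = c := by
    obtain ⟨c', _, hc'u⟩ := ro_invol_unique_fix hS hS.ne_one hS.mul_self
    have h1 : t • (d • c) = d • c := by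
      rw [← mul_smul, hdt, mul_smul, htc]
    rw [hc'u _ h1, hc'u _ htc]
  have hdr : d * r * d⁻¹ = r := by
    apply ro_Q_inj hS (hS.conj_mem d hd.1 r hr) hr
    rw [mul_smul, mul_smul, mem_stabilizer_iff.mp (inv_mem hd).2, hrc, hdc]
  have hdt' : d * t * d⁻¹ = t := by
    calc d * t * d⁻¹ = (t * d) * d⁻¹ := by rw [hdt]
      _ = t := by group
  have hdr' : d * r⁻¹ * d⁻¹ = r⁻¹ := by
    calc d * r⁻¹ * d⁻¹ = (d * r * d⁻¹)⁻¹ := by group
      _ = r⁻¹ := by rw [hdr]
  have hds : d * s * d⁻¹ = s := by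
    rw [hs_eq]
    calc d * (t * r⁻¹ * t * r * t) * d⁻¹
        = (d * t * d⁻¹) * (d * r⁻¹ * d⁻¹) * (d * t * d⁻¹) * (d * r * d⁻¹) * (d * t * d⁻¹) := by
          group
      _ = t * r⁻¹ * t * r * t := by rw [hdt', hdr', hdr]
  calc s * d = (d * s * d⁻¹) * d := by rw [hds]
    _ = d * s := by group

/-- `C_D(t) = C_D(s)` for the structure pair -/
theorem centr_eq {G Ω : Type*} [Group G] [Finite G] [MulAction G Ω] {a : Ω} {t : G}
    {Q : Subgroup G} (hS : Cfsg.IsRankOneSetup G Ω a t Q) (s r : G)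
    (hs : s ∈ Cfsg.involutionsIn (stabilizer G a : Set G)) (hr : r ∈ Q)
    (heq : t * s * t = r⁻¹ * t * r) :
    (stabilizer G a ⊓ stabilizer G (t • a)) ⊓ Subgroup.centralizer {t} =
      (stabilizer G a ⊓ stabilizer G (t • a)) ⊓ Subgroup.centralizer {s} := by
  classical
  have hle := centr_le hS s r hs hr heq
  apply le_antisymm hle
  rintro d ⟨hd0, hds0⟩
  have hd : d ∈ stabilizer G a ⊓ stabilizer G (t • a) := hd0
  have hds : s * d = d * s := (mem_centr_singleton d s).mp hds0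
  refine ⟨hd, ?_⟩
  have htt := hS.mul_self
  -- decomposition d = y k
  obtain ⟨p, ⟨hp1, hp2, hp3⟩, _⟩ := Cfsg.Agent.S1124.decomp t htt
    (stabilizer G a ⊓ stabilizer G (t • a)) hS.odd_card (fun x hx => ro_t_norm_D hS hx) d hd
  have hp3' : d = p.1 * p.2 := hp3
  have hy : p.1 ∈ (stabilizer G a ⊓ stabilizer G (t • a)) ⊓ Subgroup.centralizer {s} := hle hp1
  have hys : s * p.1 = p.1 * s := (mem_centr_singleton p.1 s).mp hy.2
  have hks : p.2⁻¹ * s * p.2 = s := by
    have h1 : s * (p.1 * p.2) = (p.1 * p.2) * s := by rw [← hp3']; exact hds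
    have h2 : s * p.2 = p.2 * s := by
      calc s * p.2 = p.1⁻¹ * (p.1 * s) * p.2 := by group
        _ = p.1⁻¹ * (s * p.1) * p.2 := by rw [hys]
        _ = p.1⁻¹ * (s * (p.1 * p.2)) := by group
        _ = p.1⁻¹ * ((p.1 * p.2) * s) := by rw [h1]
        _ = p.2 * s := by group
    calc p.2⁻¹ * s * p.2 = p.2⁻¹ * (s * p.2) := by group
      _ = p.2⁻¹ * (p.2 * s) := by rw [h2]
      _ = s := by group
  -- the conjugation map K → involutions is injective
  have hmem : ∀ k : ↥(Cfsg.invertedBy (stabilizer G a ⊓ stabilizer G (t • a)) t),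
      (k : G)⁻¹ * s * (k : G) ∈ Cfsg.involutionsIn (stabilizer G a : Set G) := by
    rintro ⟨k, hk⟩
    refine ⟨?_, ?_, ?_⟩
    · exact mul_mem (mul_mem (inv_mem hk.1.1) hs.1) hk.1.1
    · intro h
      apply hs.2.1
      calc s = k * (k⁻¹ * s * k) * k⁻¹ := by group
        _ = 1 := by rw [h]; group
    · calc k⁻¹ * s * k * (k⁻¹ * s * k) = k⁻¹ * (s * s) * k := by group
        _ = 1 := by rw [hs.2.2]; group
  have hsurj : Function.Surjective (fun k : ↥(Cfsg.invertedBy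
      (stabilizer G a ⊓ stabilizer G (t • a)) t) =>
      (⟨_, hmem k⟩ : ↥(Cfsg.involutionsIn (stabilizer G a : Set G)))) := by
    rintro ⟨s', hs'⟩
    obtain ⟨k, hk, hk'⟩ := ro_K_conj hS hs hs'
    exact ⟨⟨k, hk⟩, Subtype.ext hk'⟩
  obtain ⟨e⟩ := Finite.card_eq.mp (ro_card_K hS)
  have hinj := (Finite.injective_iff_surjective_of_equiv e).mpr hsurj
  have h1K : (1 : G) ∈ Cfsg.invertedBy (stabilizer G a ⊓ stabilizer G (t • a)) t :=
    ⟨one_mem _, by simp⟩
  have hk1 : p.2 = 1 := by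
    have := @hinj ⟨p.2, hp2⟩ ⟨1, h1K⟩ (by
      apply Subtype.ext
      show p.2⁻¹ * s * p.2 = (1 : G)⁻¹ * s * 1
      rw [hks]
      group)
    exact congrArg Subtype.val this
  rw [hp3', hk1, mul_one]
  exact hp1.2

/-- In the rank-one set-up (`G` finite and doubly transitive on `Ω`, `t` an involution moving `a`, `Q` normal in `G_a` with `G_a = Q D`, `Q ⊓ D = 1` for the two-point stabiliser `D = G_a ⊓ G_{t • a}`, `|Q|` even, `|D|` odd): if `s` is an involution of `G_a` and `r ∈ Q` satisfy `t s t = r⁻¹ t r`, then `C_D(t) = C_D(s)`; moreover `C_D(t) ⊓ C_D(K) = C_D(I ∩ G_a)`, where `K` is the set of elements of `D` inverted by `t` and `I ∩ G_a` the set of involutions of `G_a`. -/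
theorem result {G Ω : Type*} [Group G] [Finite G] [MulAction G Ω] {a : Ω} {t : G} {Q : Subgroup G}
    (hS : Cfsg.IsRankOneSetup G Ω a t Q) :
    (∀ s r : G, s ∈ Cfsg.involutionsIn (MulAction.stabilizer G a : Set G) → r ∈ Q → t * s * t = r⁻¹ * t * r →
        (MulAction.stabilizer G a ⊓ MulAction.stabilizer G (t • a)) ⊓ Subgroup.centralizer {t} = (MulAction.stabilizer G a ⊓ MulAction.stabilizer G (t • a)) ⊓ Subgroup.centralizer {s}) ∧
      (MulAction.stabilizer G a ⊓ MulAction.stabilizer G (t • a)) ⊓ Subgroup.centralizer {t} ⊓ Subgroup.centralizer (Cfsg.invertedBy (MulAction.stabilizer G a ⊓ MulAction.stabilizer G (t • a)) t) =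
        (MulAction.stabilizer G a ⊓ MulAction.stabilizer G (t • a)) ⊓ Subgroup.centralizer (Cfsg.involutionsIn (MulAction.stabilizer G a : Set G)) := by
  refine ⟨fun s r hs hr heq => centr_eq hS s r hs hr heq, ?_⟩
  have htt := hS.mul_self
  obtain ⟨s₀, r₀, c, hs₀G, hs₀1, hs₀2, hr₀, heq₀, _, _, _, _, _⟩ := Cfsg.Agent.S1123.structure_eq hS
  have hs₀ : s₀ ∈ Cfsg.involutionsIn (stabilizer G a : Set G) := ⟨hs₀G, hs₀1, hs₀2⟩
  have E1 := centr_eq hS s₀ r₀ hs₀ hr₀ heq₀
  apply le_antisymm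
  · rintro g ⟨hg1, hgK0⟩
    have hg1' : g ∈ (stabilizer G a ⊓ stabilizer G (t • a)) ⊓ Subgroup.centralizer {s₀} := by
      rw [← E1]
      exact hg1
    obtain ⟨hgD, hgs₀0⟩ := hg1'
    have hgs₀ : s₀ * g = g * s₀ := (mem_centr_singleton g s₀).mp hgs₀0
    have hgK := Subgroup.mem_centralizer_iff.mp hgK0
    refine ⟨hgD, Subgroup.mem_centralizer_iff.mpr ?_⟩
    intro s' hs'
    obtain ⟨k, hk, hk'⟩ := ro_K_conj hS hs₀ hs'
    have hkg : k * g = g * k := hgK k hk
    have hkg' : k⁻¹ * g = g * k⁻¹ := by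
      calc k⁻¹ * g = k⁻¹ * (g * k) * k⁻¹ := by group
        _ = k⁻¹ * (k * g) * k⁻¹ := by rw [hkg]
        _ = g * k⁻¹ := by group
    rw [← hk']
    calc k⁻¹ * s₀ * k * g = k⁻¹ * s₀ * (k * g) := by group
      _ = k⁻¹ * s₀ * (g * k) := by rw [hkg]
      _ = k⁻¹ * (s₀ * g) * k := by group
      _ = k⁻¹ * (g * s₀) * k := by rw [hgs₀]
      _ = (k⁻¹ * g) * s₀ * k := by group
      _ = (g * k⁻¹) * s₀ * k := by rw [hkg']
      _ = g * (k⁻¹ * s₀ * k) := by group
  · rintro g ⟨hgD0, hgI0⟩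
    have hgD : g ∈ stabilizer G a ⊓ stabilizer G (t • a) := hgD0
    have hgI := Subgroup.mem_centralizer_iff.mp hgI0
    have hgt : g ∈ (stabilizer G a ⊓ stabilizer G (t • a)) ⊓ Subgroup.centralizer {t} := by
      rw [E1]
      exact ⟨hgD, (mem_centr_singleton g s₀).mpr (hgI s₀ hs₀)⟩
    refine ⟨hgt, Subgroup.mem_centralizer_iff.mpr ?_⟩
    have hgt' : t * g = g * t := (mem_centr_singleton g t).mp hgt.2
    intro k hk
    obtain ⟨hjj, hja⟩ := ro_invol_of_K hS hk
    have hS' := ro_swap_setup hS hjj hja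
    obtain ⟨s₁, r₁, c₁, hs₁G, hs₁1, hs₁2, hr₁, heq₁, _, _, _, _, _⟩ :=
      Cfsg.Agent.S1123.structure_eq hS'
    have hs₁ : s₁ ∈ Cfsg.involutionsIn (stabilizer G a : Set G) := ⟨hs₁G, hs₁1, hs₁2⟩
    have E2 := centr_eq hS' s₁ r₁ hs₁ hr₁ heq₁
    rw [hja] at E2
    have hgj : g ∈ (stabilizer G a ⊓ stabilizer G (t • a)) ⊓ Subgroup.centralizer {t * k} := by
      rw [E2]
      exact ⟨hgD, (mem_centr_singleton g s₁).mpr (hgI s₁ hs₁)⟩
    have hgj' : (t * k) * g = g * (t * k) := (mem_centr_singleton g (t * k)).mp hgj.2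
    calc k * g = (t * t) * k * g := by rw [htt, one_mul]
      _ = t * ((t * k) * g) := by group
      _ = t * (g * (t * k)) := by rw [hgj']
      _ = (t * g) * t * k := by group
      _ = (g * t) * t * k := by rw [hgt']
      _ = g * (t * t) * k := by group
      _ = g * k := by rw [htt, mul_one]

end Cfsg.Agent.S1127
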