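import Cfsg.Statements.S1128
import Cfsg.Agent.Helper14.RankOne2
import Cfsg.Agent.S1125

set_option autoImplicit false
open Cfsg

namespace Cfsg.Agent.S1128

open MulAction Cfsg.Agent.Helper14

theorem exists_invol_of_even {G : Type*} [Group G] [Finite G] (H : Subgroup G)
    (h : Even (Nat.card H)) : ∃ s ∈ H, s ≠ 1 ∧ s * s = 1 := by
  obtain ⟨s', hs'⟩ := exists_prime_orderOf_dvd_card' (G := ↥H) 2 (even_iff_two_dvd.mp h)
  refine ⟨s'.1, s'.2, ?_, ?_⟩
  · intro h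
    have : s' = 1 := Subtype.ext h
    rw [this, orderOf_one] at hs'
    exact absurd hs' (by norm_num)
  · have h := pow_orderOf_eq_one s'
    rw [hs', pow_two] at h
    exact congrArg Subtype.val h

/-- no faithfulness or 2-rank needed -/
theorem main {G Ω : Type*} [Group G] [Finite G] [MulAction G Ω] {a : Ω} {t : G} {Q : Subgroup G}
    (hS : Cfsg.IsRankOneSetup G Ω a t Q)
    (x : G) (hx : x ∈ Cfsg.invertedBy (MulAction.stabilizer G a ⊓ MulAction.stabilizer G (t • a)) t) (hx1 : x ≠ 1) :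
    Q ⊓ Subgroup.centralizer {x} = ⊥ := by
  obtain ⟨hxD, hxinv⟩ := hx
  have htt := hS.mul_self
  have htinv := ro_inv hS
  rw [htinv] at hxinv
  rw [eq_bot_iff]
  intro y hy
  rw [Subgroup.mem_bot]
  by_contra hy1
  have hyQ : y ∈ Q := hy.1
  have hyx : x * y = y * x := Subgroup.mem_centralizer_iff.mp hy.2 x (Set.mem_singleton x)
  have hX : ({x} : Set G) ⊆ ((stabilizer G a ⊓ stabilizer G (t • a) : Subgroup G) : Set G) := by
    intro z hz
    rw [Set.mem_singleton_iff] at hz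
    rw [hz]
    exact hxD
  have h3 : ∃ b c d : Ω, b ≠ c ∧ b ≠ d ∧ c ≠ d ∧
      ∀ z ∈ ({x} : Set G), z • b = b ∧ z • c = c ∧ z • d = d := by
    refine ⟨a, t • a, y • (t • a), (ro_ne hS).symm, (ro_Q_smul_ne hS hyQ).symm, ?_, ?_⟩
    · intro h
      exact hy1 (ro_QD_bot hS hyQ h.symm)
    · intro z hz
      rw [Set.mem_singleton_iff] at hz
      rw [hz]
      refine ⟨mem_stabilizer_iff.mp hxD.1, mem_stabilizer_iff.mp hxD.2, ?_⟩
      rw [← mul_smul, hyx, mul_smul, mem_stabilizer_iff.mp hxD.2]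
  obtain ⟨_, hev, _⟩ := Cfsg.Agent.S1125.result hS {x} hX h3
  obtain ⟨s, hsm, hs1, hs2⟩ := exists_invol_of_even _ hev
  have hsQ : s ∈ Q := hsm.2
  have hsx : x * s = s * x := Subgroup.mem_centralizer_iff.mp hsm.1 x (Set.mem_singleton x)
  have hsinv : s⁻¹ = s := inv_eq_of_mul_eq_one_left hs2
  have hodd := ro_odd_order hS (hS.le hsQ) hs1 hs2 hS.not_mem htt
  obtain ⟨ρ, hρ⟩ : ∃ ρ, ρ = s * t := ⟨_, rfl⟩
  rw [← hρ] at hodd
  have hρx : ρ * x * ρ⁻¹ = x⁻¹ := by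
    have hsx' : s * x⁻¹ * s = x⁻¹ := by
      calc s * x⁻¹ * s = x⁻¹ * (x * s) * x⁻¹ * s := by group
        _ = x⁻¹ * (s * x) * x⁻¹ * s := by rw [hsx]
        _ = x⁻¹ * (s * s) := by group
        _ = x⁻¹ := by rw [hs2, mul_one]
    calc ρ * x * ρ⁻¹ = s * (t * x * t⁻¹) * s⁻¹ := by rw [hρ]; group
      _ = s * x⁻¹ * s := by rw [htinv, hxinv, hsinv]
      _ = x⁻¹ := hsx'
  have hρ2 : Commute (ρ * ρ) x := by
    show ρ * ρ * x = x * (ρ * ρ)
    calc ρ * ρ * x = ρ * (ρ * x * ρ⁻¹) * ρ⁻¹ * (ρ * ρ) := by group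
      _ = ρ * x⁻¹ * ρ⁻¹ * (ρ * ρ) := by rw [hρx]
      _ = (ρ * x * ρ⁻¹)⁻¹ * (ρ * ρ) := by group
      _ = x * (ρ * ρ) := by rw [hρx, inv_inv]
  obtain ⟨k, hk⟩ := hodd
  have h1 : (ρ * ρ) ^ k * ρ = 1 := by
    rw [← pow_two, ← pow_mul, ← pow_succ, ← hk, pow_orderOf_eq_one]
  have hρc : Commute ρ x := by
    have h2 : ρ = ((ρ * ρ) ^ k)⁻¹ := eq_inv_of_mul_eq_one_right h1
    rw [h2]
    exact (hρ2.pow_left k).inv_left
  have hxx : x * x = 1 := by
    have : x = x⁻¹ := by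
      calc x = ρ * x * ρ⁻¹ := by rw [hρc.eq]; group
        _ = x⁻¹ := hρx
    exact mul_eq_one_iff_eq_inv.mpr this
  exact hx1 (ro_D_sq hS hxD hxx)

/-- In the rank-one set-up (`G` finite and doubly transitive on `Ω`, `t` an involution moving `a`, `Q` normal in `G_a` with `G_a = Q D`, `Q ⊓ D = 1` for the two-point stabiliser `D = G_a ⊓ G_{t • a}`, `|Q|` even, `|D|` odd), with the action faithful and `G` containing two distinct commuting involutions: every non-identity element of `D` inverted by `t` acts fixed-point-freely on `Q`. -/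
theorem result {G Ω : Type*} [Group G] [Finite G] [MulAction G Ω] [FaithfulSMul G Ω] {a : Ω} {t : G} {Q : Subgroup G}
    (hS : Cfsg.IsRankOneSetup G Ω a t Q)
    (h2 : ∃ x y : G, x ≠ 1 ∧ y ≠ 1 ∧ x ≠ y ∧ x * x = 1 ∧ y * y = 1 ∧ x * y = y * x)
    (x : G) (hx : x ∈ Cfsg.invertedBy (MulAction.stabilizer G a ⊓ MulAction.stabilizer G (t • a)) t) (hx1 : x ≠ 1) :
    Q ⊓ Subgroup.centralizer {x} = ⊥ :=
  main hS x hx hx1

end Cfsg.Agent.S1128
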