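import Cfsg.Statements.S1134
import Cfsg.Agent.Helper14.RankOne2
import Cfsg.Agent.S1125

set_option autoImplicit false
open Cfsg

namespace Cfsg.Agent.S1134

open MulAction Cfsg.Agent.Helper14

/-- an involution `u` swapping `a` and `t • a` is conjugate to `t` by a power of `t * u`
lying in `D` -/
theorem sqrt_conj {G Ω : Type*} [Group G] [Finite G] [MulAction G Ω] {a : Ω} {t : G}
    {Q : Subgroup G} (hS : Cfsg.IsRankOneSetup G Ω a t Q) {u : G} (hu2 : u * u = 1)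
    (hua : u • a = t • a) :
    ∃ w ∈ stabilizer G a ⊓ stabilizer G (t • a), w * u * w⁻¹ = t ∧ ∃ n : ℕ, w = (t * u) ^ n := by
  have htt := hS.mul_self
  have htinv := ro_inv hS
  have hK := ro_K_of_invol hS hu2 hua
  obtain ⟨k', hk'⟩ : ∃ k', k' = t * u := ⟨_, rfl⟩
  rw [← hk'] at hK
  obtain ⟨hk'D, hk'inv⟩ := hK
  have hodd : Odd (orderOf k') := by
    have ho2 : orderOf k' ∣ Nat.card ↥(stabilizer G a ⊓ stabilizer G (t • a)) := by
      rw [← Subgroup.orderOf_mk k' hk'D]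
      exact orderOf_dvd_natCard _
    exact Odd.of_dvd_nat hS.odd_card ho2
  obtain ⟨i, hi⟩ := hodd
  obtain ⟨w, hw⟩ : ∃ w, w = k' ^ (i + 1) := ⟨_, rfl⟩
  have hwD : w ∈ stabilizer G a ⊓ stabilizer G (t • a) := by rw [hw]; exact pow_mem hk'D _
  have hww : w * w = k' := by
    rw [hw, ← pow_add]
    have : i + 1 + (i + 1) = orderOf k' + 1 := by omega
    rw [this, pow_succ, pow_orderOf_eq_one, one_mul]
  have hwinv : t * w * t = w⁻¹ := by
    have : t * w * t⁻¹ = w⁻¹ := by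
      rw [hw, ← conj_pow, hk'inv, inv_pow]
    rw [htinv] at this
    exact this
  have hut : u = t * k' := by
    rw [hk', ← mul_assoc, htt, one_mul]
  have hconj : w * u * w⁻¹ = t := by
    calc w * u * w⁻¹ = w * (t * (w * w)) * w⁻¹ := by rw [hut, hww]
      _ = (t * t) * w * t * w := by rw [htt]; group
      _ = t * (t * w * t) * w := by group
      _ = t := by rw [hwinv]; group
  exact ⟨w, hwD, hconj, i + 1, by rw [← hk']; exact hw⟩

/-- elementwise version; no faithfulness or 2-rank needed -/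
theorem main {G Ω : Type*} [Group G] [Finite G] [MulAction G Ω] {a : Ω} {t : G} {Q : Subgroup G}
    (hS : Cfsg.IsRankOneSetup G Ω a t Q)
    (X : Set G) (hX : X ⊆ (((stabilizer G a ⊓ stabilizer G (t • a)) ⊓ Subgroup.centralizer {t} : Subgroup G) : Set G)) (g : G)
    (hY : (fun x => g * x * g⁻¹) '' X ⊆ (((stabilizer G a ⊓ stabilizer G (t • a)) ⊓ Subgroup.centralizer {t} : Subgroup G) : Set G)) :
    ∃ v ∈ (stabilizer G a ⊓ stabilizer G (t • a)) ⊓ Subgroup.centralizer {t},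
      ∀ x ∈ X, v * x * v⁻¹ = g * x * g⁻¹ := by
  have htt := hS.mul_self
  have htinv := ro_inv hS
  have hXD : ∀ x ∈ X, x ∈ stabilizer G a ⊓ stabilizer G (t • a) := fun x hx => (hX hx).1
  have hXt : ∀ x ∈ X, t * x = x * t := fun x hx =>
    Subgroup.mem_centralizer_iff.mp (hX hx).2 t (Set.mem_singleton t)
  have hYD : ∀ x ∈ X, g * x * g⁻¹ ∈ stabilizer G a ⊓ stabilizer G (t • a) := fun x hx =>
    (hY (Set.mem_image_of_mem _ hx)).1
  have hYt : ∀ x ∈ X, t * (g * x * g⁻¹) = (g * x * g⁻¹) * t := fun x hx =>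
    Subgroup.mem_centralizer_iff.mp (hY (Set.mem_image_of_mem _ hx)).2 t (Set.mem_singleton t)
  have hX' : X ⊆ ((stabilizer G a ⊓ stabilizer G (t • a) : Subgroup G) : Set G) :=
    fun x hx => hXD x hx
  -- the fixed point of t
  obtain ⟨c, hc, hcu⟩ := ro_invol_unique_fix hS hS.ne_one htt
  have hca : c ≠ a := by
    intro h
    rw [h] at hc
    exact ro_ne hS hc
  have hcb : c ≠ t • a := by
    intro h
    rw [h, ro_tt hS] at hc
    exact ro_ne hS hc.symm
  have h3 : ∃ b c d : Ω, b ≠ c ∧ b ≠ d ∧ c ≠ d ∧ ∀ x ∈ X, x • b = b ∧ x • c = c ∧ x • d = d := by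
    refine ⟨a, t • a, c, (ro_ne hS).symm, hca.symm, hcb.symm, ?_⟩
    intro x hx
    refine ⟨mem_stabilizer_iff.mp (hXD x hx).1, mem_stabilizer_iff.mp (hXD x hx).2, ?_⟩
    apply hcu
    show t • x • c = x • c
    rw [← mul_smul, hXt x hx, mul_smul, hc]
  obtain ⟨h2t, _, _⟩ := Cfsg.Agent.S1125.result hS X hX' h3
  have hfix : ∀ x ∈ X, x • a = a ∧ x • (t • a) = t • a ∧ x • (g⁻¹ • a) = g⁻¹ • a ∧
      x • (g⁻¹ • (t • a)) = g⁻¹ • (t • a) := by
    intro x hx
    refine ⟨mem_stabilizer_iff.mp (hXD x hx).1, mem_stabilizer_iff.mp (hXD x hx).2, ?_, ?_⟩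
    · have h := mem_stabilizer_iff.mp (hYD x hx).1
      rw [mul_smul, mul_smul] at h
      calc x • g⁻¹ • a = g⁻¹ • (g • x • g⁻¹ • a) := (inv_smul_smul g _).symm
        _ = g⁻¹ • a := by rw [h]
    · have h := mem_stabilizer_iff.mp (hYD x hx).2
      rw [mul_smul, mul_smul] at h
      calc x • g⁻¹ • (t • a) = g⁻¹ • (g • x • g⁻¹ • (t • a)) := (inv_smul_smul g _).symm
        _ = g⁻¹ • (t • a) := by rw [h]
  have hne : g⁻¹ • a ≠ g⁻¹ • (t • a) := fun h => ro_ne hS (MulAction.injective g⁻¹ h).symm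
  obtain ⟨h, hhC, hha, hhb⟩ := h2t a (t • a) (g⁻¹ • a) (g⁻¹ • (t • a)) hfix (ro_ne hS).symm hne
  -- d = g * h lies in D
  obtain ⟨d, hd⟩ : ∃ d, d = g * h := ⟨_, rfl⟩
  have hdD : d ∈ stabilizer G a ⊓ stabilizer G (t • a) := by
    refine Subgroup.mem_inf.mpr ⟨mem_stabilizer_iff.mpr ?_, mem_stabilizer_iff.mpr ?_⟩
    · rw [hd, mul_smul, hha, smul_inv_smul]
    · rw [hd, mul_smul, hhb, smul_inv_smul]
  have hdx : ∀ x ∈ X, d * x * d⁻¹ = g * x * g⁻¹ := by
    intro x hx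
    have hxh : x * h = h * x := Subgroup.mem_centralizer_iff.mp hhC x hx
    calc d * x * d⁻¹ = g * (h * x) * h⁻¹ * g⁻¹ := by rw [hd]; group
      _ = g * (x * h) * h⁻¹ * g⁻¹ := by rw [hxh]
      _ = g * x * g⁻¹ := by group
  -- t' = d⁻¹ t d
  obtain ⟨t', ht'⟩ : ∃ t', t' = d⁻¹ * t * d := ⟨_, rfl⟩
  have ht'2 : t' * t' = 1 := by
    calc t' * t' = d⁻¹ * (t * t) * d := by rw [ht']; group
      _ = 1 := by rw [htt]; group
  have ht'a : t' • a = t • a := by
    rw [ht', mul_smul, mul_smul, mem_stabilizer_iff.mp hdD.1, mem_stabilizer_iff.mp (inv_mem hdD).2]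
  have ht'x : ∀ x ∈ X, t' * x = x * t' := by
    intro x hx
    have h1 := hYt x hx
    rw [← hdx x hx] at h1
    calc t' * x = d⁻¹ * (t * (d * x * d⁻¹)) * d := by rw [ht']; group
      _ = d⁻¹ * ((d * x * d⁻¹) * t) * d := by rw [h1]
      _ = x * t' := by rw [ht']; group
  obtain ⟨w, hwD, hwconj, n, hwn⟩ := sqrt_conj hS ht'2 ht'a
  have hwx : ∀ x ∈ X, w * x = x * w := by
    intro x hx
    have h1 : Commute (t * t') x := by
      show t * t' * x = x * (t * t')
      calc t * t' * x = t * (t' * x) := by group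
        _ = t * (x * t') := by rw [ht'x x hx]
        _ = (t * x) * t' := by group
        _ = x * (t * t') := by rw [hXt x hx]; group
    rw [hwn]
    exact (h1.pow_left n).eq
  -- v = d * w⁻¹
  refine ⟨d * w⁻¹, Subgroup.mem_inf.mpr ⟨mul_mem hdD (inv_mem hwD), ?_⟩, ?_⟩
  · rw [Subgroup.mem_centralizer_iff]
    intro z hz
    rw [Set.mem_singleton_iff] at hz
    rw [hz]
    -- t * (d * w⁻¹) = d * w⁻¹ * t
    have h1 : w⁻¹ * t * w = t' := by
      calc w⁻¹ * t * w = w⁻¹ * (w * t' * w⁻¹) * w := by rw [hwconj]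
        _ = t' := by group
    calc t * (d * w⁻¹) = d * (d⁻¹ * t * d) * w⁻¹ := by group
      _ = d * t' * w⁻¹ := by rw [← ht']
      _ = d * (w⁻¹ * t * w) * w⁻¹ := by rw [h1]
      _ = d * w⁻¹ * t := by group
  · intro x hx
    rw [← hdx x hx]
    have hwx' := hwx x hx
    have hw' : w⁻¹ * x * w = x := by
      calc w⁻¹ * x * w = w⁻¹ * (x * w) := by group
        _ = w⁻¹ * (w * x) := by rw [hwx']
        _ = x := by group
    calc d * w⁻¹ * x * (d * w⁻¹)⁻¹ = d * (w⁻¹ * x * w) * d⁻¹ := by group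
      _ = d * x * d⁻¹ := by rw [hw']

/-- In the rank-one set-up (`G` finite and doubly transitive on `Ω`, `t` an involution moving `a`, `Q` normal in `G_a` with `G_a = Q D`, `Q ⊓ D = 1` for the two-point stabiliser `D = G_a ⊓ G_{t • a}`, `|Q|` even, `|D|` odd), with the action faithful and `G` containing two distinct commuting involutions, with `V = C_D(t)`: subsets of `V` conjugate in `G` are conjugate in `V`. -/
theorem result {G Ω : Type*} [Group G] [Finite G] [MulAction G Ω] [FaithfulSMul G Ω] {a : Ω} {t : G} {Q : Subgroup G}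
    (hS : Cfsg.IsRankOneSetup G Ω a t Q)
    (h2 : ∃ x y : G, x ≠ 1 ∧ y ≠ 1 ∧ x ≠ y ∧ x * x = 1 ∧ y * y = 1 ∧ x * y = y * x)
    (X : Set G) (hX : X ⊆ (((MulAction.stabilizer G a ⊓ MulAction.stabilizer G (t • a)) ⊓ Subgroup.centralizer {t} : Subgroup G) : Set G)) (g : G)
    (hY : (fun x => g * x * g⁻¹) '' X ⊆ (((MulAction.stabilizer G a ⊓ MulAction.stabilizer G (t • a)) ⊓ Subgroup.centralizer {t} : Subgroup G) : Set G)) :
    ∃ v ∈ (MulAction.stabilizer G a ⊓ MulAction.stabilizer G (t • a)) ⊓ Subgroup.centralizer {t}, (fun x => v * x * v⁻¹) '' X = (fun x => g * x * g⁻¹) '' X := by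
  obtain ⟨v, hv, hvx⟩ := main hS X hX g hY
  exact ⟨v, hv, Set.image_congr hvx⟩

end Cfsg.Agent.S1134
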