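import Cfsg.Statements.S1137
import Cfsg.Agent.Lead.Suz

set_option autoImplicit false
open Cfsg

namespace Cfsg.Agent.S1137

/-- In a Suzuki 2-group `P` (a finite non-abelian 2-group with more than one involution admitting a cyclic group of automorphisms regular on its involutions) the involutions are exactly the non-identity central elements, and `Z(P)` is elementary abelian. -/
theorem result {P : Type*} [Group P] (hP : Cfsg.IsSuzukiTwoGroup P) :
    (∀ x : P, (x ≠ 1 ∧ x * x = 1) ↔ (x ∈ Subgroup.center P ∧ x ≠ 1)) ∧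
      ∀ z ∈ Subgroup.center P, z * z = 1 := by
  obtain ⟨hfin, h2, ⟨x0, y0, hxy⟩, ⟨a, b, hab, ha1, ha2, hb1, hb2⟩, K, hK, hreg⟩ := hP
  have := hfin
  have : Nontrivial P := ⟨⟨a, 1, ha1⟩⟩
  letI : CommGroup K := IsCyclic.commGroup
  have hreg' : Cfsg.Agent.Lead.Suz.Reg (K.subtype) := by
    intro x y hx1 hx2 hy1 hy2
    exact hreg x y hx1 hx2 hy1 hy2
  obtain ⟨t, ht, ht1, ht2⟩ := Cfsg.Agent.Lead.Suz.exists_central_invol h2
  have hE := Cfsg.Agent.Lead.Suz.invol_central hreg' ht ht1 ht2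
  have hZ : ∀ z ∈ Subgroup.center P, z * z = 1 := by
    intro z hz
    by_contra h
    exact hxy (Cfsg.Agent.Lead.Suz.star (K.subtype) h2 hreg' ⟨z, hz, h⟩ x0 y0)
  exact ⟨fun x => ⟨fun h => ⟨hE x h.2, h.1⟩, fun h => ⟨h.2, hZ x h.1⟩⟩, hZ⟩

end Cfsg.Agent.S1137
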