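import Cfsg.Statements.S1140
import Cfsg.Agent.Helper9.FF1

set_option autoImplicit false
open Cfsg

namespace Cfsg.Agent.S1140

open Cfsg.Agent.Helper9

theorem result {F : Type*} [Field F] [Fintype F] [CharP F 2] :
    LinearIndependent F (fun σ : F ≃+* F => ((σ : F →+* F) : F → F)) ∧
      (∀ f : F →+ F, ∃ (s : Finset (F ≃+* F)) (c : (F ≃+* F) → F), ∀ x : F, f x = ∑ σ ∈ s, c σ * σ x) ∧
      ∀ B : F →+ F →+ F, ∃ (s : Finset ((F ≃+* F) × (F ≃+* F))) (c : (F ≃+* F) × (F ≃+* F) → F),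
        ∀ x y : F, B x y = ∑ p ∈ s, c p * (p.1 x * p.2 y) := by
  classical
  haveI : Finite (F ≃+* F) := Finite.of_injective (fun σ : F ≃+* F => (σ : F → F)) DFunLike.coe_injective
  letI : Fintype (F ≃+* F) := Fintype.ofFinite _
  refine ⟨ff_aut_li F, fun f => ?_, fun B => ?_⟩
  · obtain ⟨c, hc⟩ := ff_aut_exists F f
    exact ⟨Finset.univ, c, hc⟩
  · obtain ⟨d, hd⟩ := ff_biadd F B
    refine ⟨Finset.univ, fun p => d p.1 p.2, fun x y => ?_⟩
    rw [hd x y, ← Finset.univ_product_univ, Finset.sum_product]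

end Cfsg.Agent.S1140
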