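import Cfsg.Statements.S1166
import Cfsg.Agent.Helper9.RankOne

set_option autoImplicit false
open Cfsg

namespace Cfsg.Agent.S1166

open Cfsg.Agent.Helper9 in
/-- In the rank-one set-up (`G` finite and doubly transitive on `Ω`, `t` an involution moving `a`, `Q` normal in `G_a` with `G_a = Q D`, `Q ⊓ D = 1` for the two-point stabiliser `D = G_a ⊓ G_{t • a}`, `|Q|` even, `|D|` odd), with `t x t = g_x h_x t f_x` and `t y t = g_y h_y t f_y` (`g, f ∈ Q`, `h ∈ D`) for `x, y ∈ Q ∖ 1` with `x y ≠ 1`: then `z = f_x g_y ≠ 1`, and if `t z t = g_z h_z t f_z` and `t (x y) t = g' h' t f'` then `f' = (t h_y t)⁻¹ f_z (t h_y t) f_y` and `h' = h_x h_z h_y` (H6). -/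
theorem result {G Ω : Type*} [Group G] [Finite G] [MulAction G Ω] {a : Ω} {t : G} {Q : Subgroup G}
    (hS : Cfsg.IsRankOneSetup G Ω a t Q)
    (x y gx hx fx gy hy fy : G) (hxQ : x ∈ Q) (hx1 : x ≠ 1) (hyQ : y ∈ Q) (hy1 : y ≠ 1) (hxy : x * y ≠ 1)
    (hgx : gx ∈ Q) (hhx : hx ∈ (MulAction.stabilizer G a ⊓ MulAction.stabilizer G (t • a))) (hfx : fx ∈ Q) (ex : t * x * t = gx * hx * t * fx)
    (hgy : gy ∈ Q) (hhy : hy ∈ (MulAction.stabilizer G a ⊓ MulAction.stabilizer G (t • a))) (hfy : fy ∈ Q) (ey : t * y * t = gy * hy * t * fy) :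
    fx * gy ≠ 1 ∧
      ∀ gz hz fz g' h' f' : G, gz ∈ Q → hz ∈ (MulAction.stabilizer G a ⊓ MulAction.stabilizer G (t • a)) → fz ∈ Q → t * (fx * gy) * t = gz * hz * t * fz →
        g' ∈ Q → h' ∈ (MulAction.stabilizer G a ⊓ MulAction.stabilizer G (t • a)) → f' ∈ Q → t * (x * y) * t = g' * h' * t * f' →
          f' = (t * hy * t)⁻¹ * fz * (t * hy * t) * fy ∧ h' = hx * hz * hy := by
  have ht := r1_inv hS
  have htt := hS.mul_self
  have htt' : t⁻¹ * t⁻¹ = 1 := by rw [ht, htt]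
  have key : t * (x * y) * t = gx * hx * (t * (fx * gy)) * hy * t * fy := by
    calc t * (x * y) * t = (t * x * t) * (t⁻¹ * t⁻¹) * (t * y * t) := by group
      _ = (gx * hx * t * fx) * (t⁻¹ * t⁻¹) * (gy * hy * t * fy) := by rw [ex, ey]
      _ = (gx * hx * t * fx) * (gy * hy * t * fy) := by rw [htt', mul_one]
      _ = _ := by group
  have hQa : ∀ q ∈ Q, q ∈ MulAction.stabilizer G a := fun q hq => hS.le hq
  refine ⟨?_, ?_⟩
  · intro hz1
    have key' : t * (x * y) * t = gx * hx * (t * hy * t) * fy := by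
      rw [key, hz1, mul_one]; group
    have hmem : t * (x * y) * t ∈ MulAction.stabilizer G a := by
      rw [key']
      exact Subgroup.mul_mem _ (Subgroup.mul_mem _ (Subgroup.mul_mem _ (hQa _ hgx) (r1_D_le hS hhx))
        (r1_D_le hS (r1_conj_D hS hhy))) (hQa _ hfy)
    rw [MulAction.mem_stabilizer_iff, mul_smul, mul_smul] at hmem
    have e3 : (x * y) • (t • a) = t • a := by
      have := congrArg (fun b => t • b) hmem
      rw [← mul_smul t t, htt, one_smul] at this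
      exact this
    have e4 : x * y ∈ Q ⊓ MulAction.stabilizer G (t • a) :=
      Subgroup.mem_inf.mpr ⟨Q.mul_mem hxQ hyQ, MulAction.mem_stabilizer_iff.mpr e3⟩
    rw [hS.inf_eq_bot, Subgroup.mem_bot] at e4
    exact hxy e4
  · intro gz hz fz g' h' f' hgz hhz hfz ez hg' hh' hf' e'
    have ez' : t * (fx * gy) = gz * hz * t * fz * t := by
      have h1 : t * (fx * gy) = gz * hz * t * fz * t⁻¹ := by
        calc t * (fx * gy) = (t * (fx * gy) * t) * t⁻¹ := by group
          _ = gz * hz * t * fz * t⁻¹ := by rw [ez]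
      rw [ht] at h1
      exact h1
    have h1 : hy * t * (t * hy * t)⁻¹ = t := by
      rw [show hy * t * (t * hy * t)⁻¹ = t⁻¹ by group, ht]
    have e2 : t * (x * y) * t = gx * (hx * gz * hx⁻¹) * (hx * hz * hy) * t *
        ((t * hy * t)⁻¹ * fz * (t * hy * t) * fy) := by
      rw [key, ez']
      symm
      calc gx * (hx * gz * hx⁻¹) * (hx * hz * hy) * t * ((t * hy * t)⁻¹ * fz * (t * hy * t) * fy)
          = gx * hx * gz * hz * (hy * t * (t * hy * t)⁻¹) * fz * (t * hy * t) * fy := by group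
        _ = gx * hx * gz * hz * t * fz * (t * hy * t) * fy := by rw [h1]
        _ = gx * hx * (gz * hz * t * fz * t) * hy * t * fy := by group
    rw [e'] at e2
    have hD := r1_conj_D hS hhy
    obtain ⟨-, h2, h3⟩ := r1_unique hS hg' hh' hf'
      (Q.mul_mem hgx (r1_conj_Q hS hhx hgz))
      (Subgroup.mul_mem _ (Subgroup.mul_mem _ hhx hhz) hhy)
      (Q.mul_mem (r1_conj_Q' hS hD hfz) hfy) e2
    exact ⟨h3, h2⟩

end Cfsg.Agent.S1166
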