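import Cfsg.Statements.S1168
import Cfsg.Agent.Helper9.FF2

set_option autoImplicit false
open Cfsg

namespace Cfsg.Agent.S1168

open Cfsg.Agent.Helper9

theorem result {F : Type*} [Field F] [Fintype F] [CharP F 2]
    (q : F → F)
    (hq : ∀ x y z : F, q (x + y + z) + q (x + y) + q (x + z) + q (y + z) + q x + q y + q z = 0) :
    ∃ (s : Finset ((F ≃+* F) × (F ≃+* F))) (c : (F ≃+* F) × (F ≃+* F) → F),
      ∀ x : F, q x = ∑ p ∈ s, c p * (p.1 x * p.2 x) := by
  classical
  have : Finite (F ≃+* F) := Finite.of_injective (fun σ : F ≃+* F => (σ : F → F)) DFunLike.coe_injective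
  let _ : Fintype (F ≃+* F) := Fintype.ofFinite _
  let _ : LinearOrder (F ≃+* F) := LinearOrder.lift' (Fintype.equivFin (F ≃+* F)) (Equiv.injective _)
  obtain ⟨c, hc⟩ := ff_quadratic F q hq
  exact ⟨Finset.univ, c, hc⟩

end Cfsg.Agent.S1168
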