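import Cfsg.Statements.S1176
import Cfsg.Agent.Helper9.Isolated

set_option autoImplicit false
open Cfsg

namespace Cfsg.Agent.S1176

open scoped commutatorElement in
open Cfsg.Agent.Helper9 in
/-- Let x₀ be an involution of the finite group G and D its conjugacy class. Assume (a) for each x ∈ D the subgroup W(x) generated by the members of D commuting with x is a 2-group of nilpotency class at most 2, and (b) the product of two distinct commuting members of D again lies in D. Then for all x, y ∈ D, if xy has even order greater than 2, its order is 4. -/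
theorem result {G : Type*} [Group G] [Finite G] (x₀ : G) (hx₀ : orderOf x₀ = 2) (ha : ∀ x : G, IsConj x₀ x → IsPGroup 2 ↥(Subgroup.closure {y : G | IsConj x₀ y ∧ Commute y x}) ∧ ⁅⁅Subgroup.closure {y : G | IsConj x₀ y ∧ Commute y x}, Subgroup.closure {y : G | IsConj x₀ y ∧ Commute y x}⁆, Subgroup.closure {y : G | IsConj x₀ y ∧ Commute y x}⁆ = ⊥) (hb : ∀ x y : G, IsConj x₀ x → IsConj x₀ y → x ≠ y → Commute x y → IsConj x₀ (x * y)) (x y : G) (hx : IsConj x₀ x) (hy : IsConj x₀ y) (heven : Even (orderOf (x * y))) (hgt : 2 < orderOf (x * y)) : orderOf (x * y) = 4 := by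
  set c := x * y with hc
  have hxo : orderOf x = 2 := by
    obtain ⟨g, rfl⟩ := isConj_iff.mp hx
    exact orderOf_conj_two hx₀ g
  have hyo : orderOf y = 2 := by
    obtain ⟨g, rfl⟩ := isConj_iff.mp hy
    exact orderOf_conj_two hx₀ g
  have hx2 := inv_sq hxo
  have hy2 := inv_sq hyo
  obtain ⟨k, hk⟩ := heven
  have hk2 : 2 ≤ k := by omega
  set w := c ^ k with hw
  have hww : w * w = 1 := by rw [hw, ← pow_add, ← hk, pow_orderOf_eq_one]
  have hw1 : w ≠ 1 := by
    intro h
    have h1 := orderOf_dvd_of_pow_eq_one h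
    have h2 := Nat.le_of_dvd (by omega) h1
    omega
  have hxc : x * c * x⁻¹ = c⁻¹ := by
    rw [hc, inv_inv_eq hxo, mul_inv_rev, inv_inv_eq hxo, inv_inv_eq hyo]
    calc x * (x * y) * x = (x * x) * y * x := by group
      _ = y * x := by rw [hx2, one_mul]
  have hyc : y * c * y⁻¹ = c⁻¹ := by
    rw [hc, inv_inv_eq hyo, mul_inv_rev, inv_inv_eq hxo, inv_inv_eq hyo]
    calc y * (x * y) * y = y * x * (y * y) := by group
      _ = y * x := by rw [hy2, mul_one]
  have hxcm : ∀ m : ℕ, x * c ^ m * x⁻¹ = (c ^ m)⁻¹ := fun m => by rw [← conj_pow, hxc, inv_pow]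
  have hycm : ∀ m : ℕ, y * c ^ m * y⁻¹ = (c ^ m)⁻¹ := fun m => by rw [← conj_pow, hyc, inv_pow]
  have hwinv : w⁻¹ = w := inv_eq_of_mul_eq_one_left hww
  have hxw : x * w = w * x := by
    have := hxcm k
    rw [← hw, hwinv, mul_inv_eq_iff_eq_mul] at this
    exact this
  have hyw : y * w = w * y := by
    have := hycm k
    rw [← hw, hwinv, mul_inv_eq_iff_eq_mul] at this
    exact this
  have hwxD : IsConj x₀ (w * x) := by
    rcases Nat.even_or_odd k with ⟨j, hj⟩ | ⟨j, hj⟩
    · have : c ^ j * x * (c ^ j)⁻¹ = w * x := by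
        calc c ^ j * x * (c ^ j)⁻¹ = c ^ j * (x * (c ^ j)⁻¹) := by group
          _ = c ^ j * (c ^ j * x) := by rw [inv_swap (hxcm j)]
          _ = w * x := by rw [hw, hj, pow_add]; group
      rw [← this]
      exact hx.trans (isConj_iff.mpr ⟨c ^ j, rfl⟩)
    · have : (c ^ j * x) * y * (c ^ j * x)⁻¹ = w * x := by
        have e1 : x * y * x⁻¹ = c * x := by rw [hc, inv_inv_eq hxo]
        have e2 : x * (c ^ j)⁻¹ = c ^ j * x := inv_swap (hxcm j)
        calc (c ^ j * x) * y * (c ^ j * x)⁻¹ = c ^ j * (x * y * x⁻¹) * (c ^ j)⁻¹ := by group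
          _ = c ^ j * (c * x) * (c ^ j)⁻¹ := by rw [e1]
          _ = c ^ j * c * (x * (c ^ j)⁻¹) := by group
          _ = c ^ j * c * (c ^ j * x) := by rw [e2]
          _ = w * x := by
            rw [hw, hj, show 2 * j + 1 = j + 1 + j by omega, pow_add, pow_succ]; group
      rw [← this]
      exact hy.trans (isConj_iff.mpr ⟨c ^ j * x, rfl⟩)
  have hwD : IsConj x₀ w := by
    have h1 : x ≠ w * x := by
      intro h
      apply hw1
      have : w * x = 1 * x := by rw [one_mul]; exact h.symm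
      exact mul_right_cancel this
    have h2 : Commute x (w * x) := by
      show x * (w * x) = w * x * x
      rw [← mul_assoc, hxw]
    have := hb x (w * x) hx hwxD h1 h2
    have e : x * (w * x) = w := by rw [← mul_assoc, hxw, mul_assoc, hx2, mul_one]
    rwa [e] at this
  obtain ⟨-, hcl⟩ := ha w hwD
  have hxW : x ∈ Subgroup.closure {y : G | IsConj x₀ y ∧ Commute y w} :=
    Subgroup.subset_closure ⟨hx, hxw⟩
  have hyW : y ∈ Subgroup.closure {y : G | IsConj x₀ y ∧ Commute y w} :=
    Subgroup.subset_closure ⟨hy, hyw⟩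
  have h4 : ⁅⁅x, y⁆, x⁆ = 1 := by
    have := Subgroup.commutator_mem_commutator (Subgroup.commutator_mem_commutator hxW hyW) hxW
    rw [hcl] at this
    exact Subgroup.mem_bot.mp this
  have e1 : ⁅x, y⁆ = c ^ 2 := by
    rw [commutatorElement_def, inv_inv_eq hxo, inv_inv_eq hyo, hc, pow_two]; group
  have e2 : ⁅c ^ 2, x⁆ = c ^ 4 := by
    rw [commutatorElement_def]
    have h5 : x * (c ^ 2)⁻¹ * x⁻¹ = c ^ 2 := by
      rw [← conj_inv, hxcm 2, inv_inv]
    calc c ^ 2 * x * (c ^ 2)⁻¹ * x⁻¹ = c ^ 2 * (x * (c ^ 2)⁻¹ * x⁻¹) := by group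
      _ = c ^ 2 * c ^ 2 := by rw [h5]
      _ = c ^ 4 := by rw [← pow_add]
  have hc4 : c ^ 4 = 1 := by rw [← e2, ← e1, h4]
  have hdvd := orderOf_dvd_of_pow_eq_one hc4
  have hle := Nat.le_of_dvd (by norm_num) hdvd
  have h3 : orderOf c ≠ 3 := by
    intro h
    rw [h] at hdvd
    norm_num at hdvd
  omega

end Cfsg.Agent.S1176
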