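import Cfsg.Statements.S1177
import Cfsg.Agent.Helper9.Fusion

set_option autoImplicit false
open Cfsg

namespace Cfsg.Agent.S1177

open Cfsg.Agent.Helper9 in
/-- Let A be a nontrivial elementary abelian 2-subgroup of a finite group G which is a T.I. set (each conjugate of A meets A trivially or equals A) and which does not commute elementwise with any conjugate of A other than A itself. Then for every a ∈ A, a ≠ 1, every conjugate of A contained in C_G(a) is equal to A (A is weakly closed in C_G(a)). -/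
theorem result {G : Type*} [Group G] [Finite G] (A : Subgroup G) (hA : Cfsg.IsElementaryAbelian 2 A) (hA1 : A ≠ ⊥) (hTI : ∀ g : G, A.map (MulAut.conj g).toMonoidHom ⊓ A = ⊥ ∨ A.map (MulAut.conj g).toMonoidHom = A) (hb : ∀ g : G, (∀ a ∈ A, ∀ b ∈ A.map (MulAut.conj g).toMonoidHom, a * b = b * a) → A.map (MulAut.conj g).toMonoidHom = A) (a : G) (ha : a ∈ A) (ha1 : a ≠ 1) (g : G) (hg : A.map (MulAut.conj g).toMonoidHom ≤ Subgroup.centralizer ({a} : Set G)) : A.map (MulAut.conj g).toMonoidHom = A := by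
  by_contra hne
  have hdisj : A.map (MulAut.conj g).toMonoidHom ⊓ A = ⊥ := (hTI g).resolve_right hne
  -- (1) every element of B normalizes A
  have h1 : ∀ b ∈ A.map (MulAut.conj g).toMonoidHom, A.map (MulAut.conj b).toMonoidHom = A := by
    intro b hbB
    refine (hTI b).resolve_left ?_
    intro hbot
    have hab := hg hbB
    rw [Subgroup.mem_centralizer_singleton_iff] at hab
    have : a ∈ A.map (MulAut.conj b).toMonoidHom ⊓ A := by
      refine Subgroup.mem_inf.mpr ⟨?_, ha⟩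
      rw [mem_map_conj]
      have : b⁻¹ * a * b = a := by
        calc b⁻¹ * a * b = b⁻¹ * (a * b) := by group
          _ = b⁻¹ * (b * a) := by rw [hab]
          _ = a := by group
      rw [this]; exact ha
    rw [hbot, Subgroup.mem_bot] at this
    exact ha1 this
  have h1' : ∀ b ∈ A.map (MulAut.conj g).toMonoidHom, ∀ x ∈ A, b * x * b⁻¹ ∈ A := by
    intro b hbB x hx
    have := h1 b hbB
    rw [← this, mem_map_conj]
    convert hx using 1; group
  -- (2)
  have h2 : ∀ a' ∈ A, ∀ b ∈ A.map (MulAut.conj g).toMonoidHom, b ≠ 1 → a' * b = b * a' →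
      ∀ b' ∈ A.map (MulAut.conj g).toMonoidHom, a' * b' = b' * a' := by
    intro a' ha' b hbB hb1 hcomm b' hb'B
    have hn : A.map (MulAut.conj (g⁻¹ * a' * g)).toMonoidHom = A := by
      refine (hTI (g⁻¹ * a' * g)).resolve_left ?_
      intro hbot
      have hbA : g⁻¹ * b * g ∈ A := (mem_map_conj A g b).mp hbB
      have : g⁻¹ * b * g ∈ A.map (MulAut.conj (g⁻¹ * a' * g)).toMonoidHom ⊓ A := by
        refine Subgroup.mem_inf.mpr ⟨?_, hbA⟩
        rw [mem_map_conj]
        have : (g⁻¹ * a' * g)⁻¹ * (g⁻¹ * b * g) * (g⁻¹ * a' * g) = g⁻¹ * b * g := by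
          calc (g⁻¹ * a' * g)⁻¹ * (g⁻¹ * b * g) * (g⁻¹ * a' * g)
              = g⁻¹ * a'⁻¹ * (b * a') * g := by group
            _ = g⁻¹ * a'⁻¹ * (a' * b) * g := by rw [hcomm]
            _ = g⁻¹ * b * g := by group
        rw [this]; exact hbA
      rw [hbot, Subgroup.mem_bot] at this
      apply hb1
      calc b = g * (g⁻¹ * b * g) * g⁻¹ := by group
        _ = 1 := by rw [this]; group
    have hcA : a' * b' * a'⁻¹ * b'⁻¹ ∈ A := by
      have h3 := h1' b' hb'B a'⁻¹ (A.inv_mem ha')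
      have : a' * b' * a'⁻¹ * b'⁻¹ = a' * (b' * a'⁻¹ * b'⁻¹) := by group
      rw [this]
      exact A.mul_mem ha' h3
    have hcB : a' * b' * a'⁻¹ * b'⁻¹ ∈ A.map (MulAut.conj g).toMonoidHom := by
      rw [mem_map_conj]
      have hb'A : g⁻¹ * b' * g ∈ A := (mem_map_conj A g b').mp hb'B
      have h3 : (g⁻¹ * a' * g) * (g⁻¹ * b' * g) * (g⁻¹ * a' * g)⁻¹ ∈ A := by
        rw [← hn, mem_map_conj]
        convert hb'A using 1; group
      have : g⁻¹ * (a' * b' * a'⁻¹ * b'⁻¹) * g =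
          (g⁻¹ * a' * g) * (g⁻¹ * b' * g) * (g⁻¹ * a' * g)⁻¹ * (g⁻¹ * b' * g)⁻¹ := by group
      rw [this]
      exact A.mul_mem h3 (A.inv_mem hb'A)
    have : a' * b' * a'⁻¹ * b'⁻¹ ∈ A.map (MulAut.conj g).toMonoidHom ⊓ A :=
      Subgroup.mem_inf.mpr ⟨hcB, hcA⟩
    rw [hdisj, Subgroup.mem_bot] at this
    calc a' * b' = (a' * b' * a'⁻¹ * b'⁻¹) * b' * a' := by group
      _ = b' * a' := by rw [this, one_mul]
  -- (3)
  have h3 : ∃ a' ∈ A, ∃ b₀ ∈ A.map (MulAut.conj g).toMonoidHom, a' * b₀ ≠ b₀ * a' := by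
    by_contra hcon
    push Not at hcon
    exact hne (hb g hcon)
  obtain ⟨a', ha', b₀, hb₀, hnc⟩ := h3
  -- (4) counting
  have hcard : Nat.card (A.map (MulAut.conj g).toMonoidHom) = Nat.card A :=
    (Nat.card_congr (A.equivMapOfInjective _ (MulAut.conj g).injective).toEquiv).symm
  let φ : A.map (MulAut.conj g).toMonoidHom → A := fun b => ⟨b.1 * a' * b.1⁻¹, h1' b.1 b.2 a' ha'⟩
  have hφinj : Function.Injective φ := by
    intro b b' hbb
    have e : b.1 * a' * b.1⁻¹ = b'.1 * a' * b'.1⁻¹ := congrArg Subtype.val hbb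
    by_contra hbne
    have hc1 : b'.1⁻¹ * b.1 ≠ 1 := by
      intro h
      apply hbne
      apply Subtype.ext
      have := inv_mul_eq_one.mp h
      exact this.symm
    have hcB : b'.1⁻¹ * b.1 ∈ A.map (MulAut.conj g).toMonoidHom :=
      Subgroup.mul_mem _ (Subgroup.inv_mem _ b'.2) b.2
    have hcc : a' * (b'.1⁻¹ * b.1) = (b'.1⁻¹ * b.1) * a' := by
      calc a' * (b'.1⁻¹ * b.1) = b'.1⁻¹ * (b'.1 * a' * b'.1⁻¹) * b.1 := by group
        _ = b'.1⁻¹ * (b.1 * a' * b.1⁻¹) * b.1 := by rw [e]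
        _ = (b'.1⁻¹ * b.1) * a' := by group
    exact hnc (h2 a' ha' _ hcB hc1 hcc b₀ hb₀)
  have hφns : ¬ Function.Surjective φ := by
    intro hs
    obtain ⟨b, hb'⟩ := hs 1
    have e : b.1 * a' * b.1⁻¹ = 1 := congrArg Subtype.val hb'
    have : a' = 1 := by
      calc a' = b.1⁻¹ * (b.1 * a' * b.1⁻¹) * b.1 := by group
        _ = 1 := by rw [e]; group
    apply hnc
    rw [this, one_mul, mul_one]
  exact hφns (hφinj.bijective_of_nat_card_le hcard.ge).2

end Cfsg.Agent.S1177
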