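import Cfsg.Statements.S1178

set_option autoImplicit false
open Cfsg

namespace Cfsg.Agent.S1178

theorem mem_smul_sylow {G : Type*} [Group G] {p : ℕ} (P : Sylow p G) (h x : G) :
    x ∈ ((h • P : Sylow p G) : Subgroup G) ↔ h⁻¹ * x * h ∈ (P : Subgroup G) := by
  rw [Sylow.coe_subgroup_smul, Subgroup.mem_pointwise_smul_iff_inv_smul_mem, MulAut.smul_def]
  simp

theorem mem_map_conj {G : Type*} [Group G] (A : Subgroup G) (g x : G) :
    x ∈ A.map (MulAut.conj g).toMonoidHom ↔ g⁻¹ * x * g ∈ A := by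
  constructor
  · rintro ⟨a, ha, rfl⟩
    simpa [MulAut.conj_apply, mul_assoc] using ha
  · intro h
    refine ⟨g⁻¹ * x * g, h, ?_⟩
    simp [MulAut.conj_apply, mul_assoc]

/-- Let A be a subgroup of a Sylow 2-subgroup S of the finite group G which is weakly closed in S. If a conjugate g A g⁻¹ commutes elementwise with A, then g A g⁻¹ = A. -/
theorem result {G : Type*} [Group G] [Finite G] (S : Sylow 2 G) (A : Subgroup G) (hW : Cfsg.IsWeaklyClosed A (S : Subgroup G)) (g : G) (hc : ∀ a ∈ A, ∀ b ∈ A.map (MulAut.conj g).toMonoidHom, a * b = b * a) : A.map (MulAut.conj g).toMonoidHom = A := by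
  obtain ⟨hAS, hcl⟩ := hW
  set B := A.map (MulAut.conj g).toMonoidHom with hB
  have hA2 : IsPGroup 2 A := S.2.to_le hAS
  have hB2 : IsPGroup 2 B := hA2.map _
  have hnorm : A ≤ Subgroup.normalizer (B : Set G) := by
    rw [Subgroup.le_normalizer_iff]
    intro a ha b hb
    have : a * b * a⁻¹ = b := by rw [hc a ha b hb]; group
    rw [this]; exact hb
  have hAB : IsPGroup 2 (A ⊔ B : Subgroup G) := IsPGroup.to_sup_of_normal_right' hA2 hB2 hnorm
  obtain ⟨Q, hQ⟩ := hAB.exists_le_sylow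
  obtain ⟨h, rfl⟩ := MulAction.exists_smul_eq G S Q
  have hAQ : A ≤ ((h • S : Sylow 2 G) : Subgroup G) := le_trans le_sup_left hQ
  have hBQ : B ≤ ((h • S : Sylow 2 G) : Subgroup G) := le_trans le_sup_right hQ
  -- (1)
  have e1 : A.map (MulAut.conj h⁻¹).toMonoidHom = A := by
    apply hcl
    intro x hx
    rw [mem_map_conj] at hx
    have := (mem_smul_sylow S h _).1 (hAQ hx)
    simpa [mul_assoc] using this
  have e2 : A.map (MulAut.conj (h⁻¹ * g)).toMonoidHom = A := by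
    apply hcl
    intro x hx
    rw [mem_map_conj] at hx
    have hb : g * ((h⁻¹ * g)⁻¹ * x * (h⁻¹ * g)) * g⁻¹ ∈ B := by
      rw [hB, mem_map_conj]
      simpa [mul_assoc] using hx
    have := (mem_smul_sylow S h _).1 (hBQ hb)
    have e : h⁻¹ * (g * ((h⁻¹ * g)⁻¹ * x * (h⁻¹ * g)) * g⁻¹) * h = x := by group
    rw [e] at this
    exact this
  ext x
  rw [hB, mem_map_conj]
  have k2 : (h⁻¹ * x * h) ∈ A.map (MulAut.conj (h⁻¹ * g)).toMonoidHom ↔ (h⁻¹ * x * h) ∈ A := by rw [e2]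
  rw [mem_map_conj] at k2
  have k1 : (h⁻¹ * x * h) ∈ A.map (MulAut.conj h⁻¹).toMonoidHom ↔ (h⁻¹ * x * h) ∈ A := by rw [e1]
  rw [mem_map_conj] at k1
  have e3 : (h⁻¹ * g)⁻¹ * (h⁻¹ * x * h) * (h⁻¹ * g) = g⁻¹ * x * g := by group
  have e4 : h⁻¹⁻¹ * (h⁻¹ * x * h) * h⁻¹ = x := by group
  rw [e3] at k2
  rw [e4] at k1
  rw [k2, ← k1]

end Cfsg.Agent.S1178
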