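import Cfsg.Statements.S1182
import Cfsg.Agent.Helper9.Isolated

set_option autoImplicit false
open Cfsg

namespace Cfsg.Agent.S1182

open Cfsg.Agent.Helper9 in
/-- Let z be an isolated involution of the finite group G and H a subgroup normalized by z. If x, y ∈ H both commute with z and y = h x h⁻¹ for some h ∈ H, then y = c x c⁻¹ for some c ∈ H commuting with z. -/
theorem result {G : Type*} [Group G] [Finite G] (z : G) (hz : Cfsg.IsIsolatedInvolution z) (H : Subgroup G) (hzH : z ∈ Subgroup.normalizer (H : Set G)) (x y : G) (hx : x ∈ H) (hy : y ∈ H) (hxz : Commute x z) (hyz : Commute y z) (h : G) (hh : h ∈ H) (hconj : h * x * h⁻¹ = y) : ∃ c ∈ H, Commute c z ∧ c * x * c⁻¹ = y := by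
  have hzo := hz.1
  have hz2 := inv_sq hzo
  obtain ⟨k, -, -, hk, hmem⟩ := iso_exists_k hz h⁻¹
  rw [inv_inv] at hk hmem
  -- the generator lies in H
  have hgenH : h⁻¹ * z * h * z ∈ H := by
    have h1 : z * h * z⁻¹ ∈ H := (Subgroup.mem_normalizer_iff.mp hzH h).mp hh
    rw [inv_inv_eq hzo] at h1
    have : h⁻¹ * z * h * z = h⁻¹ * (z * h * z) := by group
    rw [this]
    exact H.mul_mem (H.inv_mem hh) h1
  have hkH : k ∈ H := by
    have : Subgroup.zpowers (h⁻¹ * z * h * z) ≤ H := by
      rw [Subgroup.zpowers_le]; exact hgenH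
    exact this hmem
  -- x commutes with the generator
  have hx1 : Commute x (h⁻¹ * z * h) := by
    have e := hyz.eq
    rw [← hconj] at e
    show x * (h⁻¹ * z * h) = h⁻¹ * z * h * x
    calc x * (h⁻¹ * z * h) = h⁻¹ * ((h * x * h⁻¹) * z) * h := by group
      _ = h⁻¹ * (z * (h * x * h⁻¹)) * h := by rw [e]
      _ = h⁻¹ * z * h * x := by group
  have hx2 : Commute x (h⁻¹ * z * h * z) := hx1.mul_right hxz
  have hxk : Commute x k := by
    have : Subgroup.zpowers (h⁻¹ * z * h * z) ≤ Subgroup.centralizer {x} := by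
      rw [Subgroup.zpowers_le, Subgroup.mem_centralizer_singleton_iff]
      exact hx2.eq.symm
    have := this hmem
    rw [Subgroup.mem_centralizer_singleton_iff] at this
    exact this.symm
  refine ⟨h * k, H.mul_mem hh hkH, ?_, ?_⟩
  · show h * k * z = z * (h * k)
    calc h * k * z = h * (k * z * k⁻¹) * k := by group
      _ = h * (h⁻¹ * z * h) * k := by rw [hk]
      _ = z * (h * k) := by group
  · have := hxk.eq
    calc h * k * x * (h * k)⁻¹ = h * (k * x) * k⁻¹ * h⁻¹ := by group
      _ = h * (x * k) * k⁻¹ * h⁻¹ := by rw [this]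
      _ = h * x * h⁻¹ := by group
      _ = y := hconj

end Cfsg.Agent.S1182
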