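import Cfsg.Statements.S1183
import Cfsg.Agent.Helper9.Residual
import Cfsg.Agent.Helper9.Isolated
import Cfsg.Agent.S1182

set_option autoImplicit false
open Cfsg

namespace Cfsg.Agent.S1183

open scoped commutatorElement in
open Cfsg.Agent.Helper9 in
/-- Let z be an isolated involution of the finite group G and C = C_G(z). Then the subgroup of G generated by its elements of odd order is all of G if and only if the subgroup of C generated by its elements of odd order is all of C. -/
theorem result {G : Type*} [Group G] [Finite G] (z : G) (hz : Cfsg.IsIsolatedInvolution z) : Cfsg.pResidual 2 G = ⊤ ↔ Cfsg.pResidual 2 ↥(Subgroup.centralizer ({z} : Set G)) = ⊤ := by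
  have hfact : Fact (Nat.Prime 2) := ⟨Nat.prime_two⟩
  have hzo := hz.1
  have hz2 := inv_sq hzo
  constructor
  · intro hG
    -- a Sylow 2-subgroup containing z
    have hzp : IsPGroup 2 (Subgroup.zpowers z) := by
      apply IsPGroup.of_card (n := 1)
      rw [Nat.card_zpowers, hzo, pow_one]
    obtain ⟨T, hT⟩ := hzp.exists_le_sylow
    have hzT : z ∈ (T : Subgroup G) := hT (Subgroup.mem_zpowers z)
    have hTC : (T : Subgroup G) ≤ Subgroup.centralizer ({z} : Set G) := by
      intro t ht
      rw [Subgroup.mem_centralizer_singleton_iff]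
      have hmem : z * (t * z * t⁻¹) ∈ (T : Subgroup G) :=
        mul_mem hzT (mul_mem (mul_mem ht hzT) (inv_mem ht))
      obtain ⟨k, hk⟩ := T.2 ⟨_, hmem⟩
      have hk' : (z * (t * z * t⁻¹)) ^ 2 ^ k = 1 := by
        have := congrArg Subtype.val hk
        simpa using this
      have hodd := iso_odd hz t
      have h1 : orderOf (z * (t * z * t⁻¹)) ∣ 2 ^ k := orderOf_dvd_of_pow_eq_one hk'
      have h2 : Nat.Coprime (orderOf (z * (t * z * t⁻¹))) (2 ^ k) :=
        (Nat.Coprime.symm (Nat.coprime_two_left.mpr hodd)).pow_right k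
      have h3 : orderOf (z * (t * z * t⁻¹)) = 1 := Nat.Coprime.eq_one_of_dvd h2 h1
      have h4 : z * (t * z * t⁻¹) = 1 := orderOf_eq_one_iff.mp h3
      have h5 : t * z * t⁻¹ = z := by
        calc t * z * t⁻¹ = (z * z) * (t * z * t⁻¹) := by rw [hz2, one_mul]
          _ = z * (z * (t * z * t⁻¹)) := by group
          _ = z := by rw [h4, mul_one]
      calc t * z = (t * z * t⁻¹) * t := by group
        _ = z * t := by rw [h5]
    have h1 : (T : Subgroup G) ≤ commutator G := sylow_le_commutator_of_pResidual T hG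
    have h2 : (T : Subgroup G) ≤ (T : Subgroup G).focalSubgroup := by
      rw [← Subgroup.commutator_inf_eq_focalSubgroup]
      exact le_inf h1 le_rfl
    have h3 : (T : Subgroup G).focalSubgroup ≤
        (commutator ↥(Subgroup.centralizer ({z} : Set G))).map
          (Subgroup.centralizer ({z} : Set G)).subtype := by
      rw [Subgroup.focalSubgroup_def, Subgroup.closure_le]
      rintro g ⟨hgT, x, hxT, u, rfl⟩
      have hxC := hTC hxT
      have hyT : u * x⁻¹ * u⁻¹ ∈ (T : Subgroup G) := by
        have : u * x⁻¹ * u⁻¹ = x⁻¹ * ⁅x, u⁆ := by rw [commutatorElement_def]; group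
        rw [this]
        exact mul_mem (inv_mem hxT) hgT
      have hyC := hTC hyT
      rw [Subgroup.mem_centralizer_singleton_iff] at hxC hyC
      have hxz : Commute x⁻¹ z := by
        have : Commute x z := hxC
        exact this.inv_left
      obtain ⟨c, -, hcz, hc⟩ := Cfsg.Agent.S1182.result z hz ⊤
        (by rw [Subgroup.mem_normalizer_iff]; intro h; simp) x⁻¹ (u * x⁻¹ * u⁻¹)
        (Subgroup.mem_top _) (Subgroup.mem_top _) hxz hyC u (Subgroup.mem_top _) rfl
      have hcC : c ∈ Subgroup.centralizer ({z} : Set G) := by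
        rw [Subgroup.mem_centralizer_singleton_iff]
        exact hcz.eq
      have hxC' : x ∈ Subgroup.centralizer ({z} : Set G) := hTC hxT
      refine ⟨⁅(⟨x, hxC'⟩ : Subgroup.centralizer ({z} : Set G)), ⟨c, hcC⟩⁆, ?_, ?_⟩
      · exact Subgroup.commutator_mem_commutator (Subgroup.mem_top _) (Subgroup.mem_top _)
      · show x * c * x⁻¹ * c⁻¹ = ⁅x, u⁆
        rw [commutatorElement_def]
        calc x * c * x⁻¹ * c⁻¹ = x * (c * x⁻¹ * c⁻¹) := by group
          _ = x * (u * x⁻¹ * u⁻¹) := by rw [hc]
          _ = x * u * x⁻¹ * u⁻¹ := by group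
    have h4 : ((T.subtype hTC : Sylow 2 ↥(Subgroup.centralizer ({z} : Set G))) :
        Subgroup ↥(Subgroup.centralizer ({z} : Set G))) ≤
        commutator ↥(Subgroup.centralizer ({z} : Set G)) := by
      rw [Sylow.coe_subtype]
      intro c hc
      rw [Subgroup.mem_subgroupOf] at hc
      obtain ⟨c', hc', hcc'⟩ := h3 (h2 hc)
      have : c' = c := Subtype.ext hcc'
      rw [← this]
      exact hc'
    exact pResidual_eq_top_of_sylow_le _ h4
  · intro hC
    rw [eq_top_iff]
    intro g _
    obtain ⟨k, hodd, -, hk, -⟩ := iso_exists_k hz g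
    have hkmem : k ∈ Cfsg.pResidual 2 G :=
      Subgroup.subset_closure (Nat.Coprime.symm (Nat.coprime_two_left.mpr hodd))
    have hcC : k⁻¹ * g ∈ Subgroup.centralizer ({z} : Set G) := by
      rw [Subgroup.mem_centralizer_singleton_iff]
      have : k⁻¹ * (g * z * g⁻¹) * k = z := by rw [← hk]; group
      calc k⁻¹ * g * z = k⁻¹ * (g * z * g⁻¹) * k * (k⁻¹ * g) := by group
        _ = z * (k⁻¹ * g) := by rw [this]
    have hmap : (Cfsg.pResidual 2 ↥(Subgroup.centralizer ({z} : Set G))).map
        (Subgroup.centralizer ({z} : Set G)).subtype ≤ Cfsg.pResidual 2 G := by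
      unfold Cfsg.pResidual
      rw [MonoidHom.map_closure, Subgroup.closure_le]
      rintro _ ⟨c, hc, rfl⟩
      apply Subgroup.subset_closure
      show Nat.Coprime (orderOf (c : G)) 2
      rw [Subgroup.orderOf_coe]
      exact hc
    have hcmem : k⁻¹ * g ∈ Cfsg.pResidual 2 G := by
      apply hmap
      refine ⟨⟨k⁻¹ * g, hcC⟩, ?_, rfl⟩
      rw [hC]
      trivial
    have : g = k * (k⁻¹ * g) := by group
    rw [this]
    exact mul_mem hkmem hcmem

end Cfsg.Agent.S1183
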