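import Cfsg.Statements.S1184
import Cfsg.Agent.Helper9.Isolated

set_option autoImplicit false
open Cfsg

namespace Cfsg.Agent.S1184

open Cfsg.Agent.Helper9 in
/-- Let z be an isolated involution of the finite group G. If s and t are distinct conjugates of z, then st does not commute with z. -/
theorem result {G : Type*} [Group G] [Finite G] (z : G) (hz : Cfsg.IsIsolatedInvolution z) (g h : G) (hne : g * z * g⁻¹ ≠ h * z * h⁻¹) : ¬ Commute (g * z * g⁻¹ * (h * z * h⁻¹)) z := by
  intro hcomm
  set s := g * z * g⁻¹ with hs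
  set t := h * z * h⁻¹ with ht
  have hzo := hz.1
  have hso : orderOf s = 2 := orderOf_conj_two hzo g
  have hto : orderOf t = 2 := orderOf_conj_two hzo h
  have hs2 := inv_sq hso
  have ht2 := inv_sq hto
  have hz2 := inv_sq hzo
  have hcodd : Odd (orderOf (s * t)) := iso_odd_conj hz g h
  have huodd : Odd (orderOf (s * z)) := iso_odd' hz g
  have hcinv : (s * t)⁻¹ = t * s := by
    rw [mul_inv_rev, inv_inv_eq hso, inv_inv_eq hto]
  -- s*z inverts c = s*t
  have hinv : SemiconjBy (s * z) (s * t) (s * t)⁻¹ := by
    have := hcomm.eq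
    show (s * z) * (s * t) = (s * t)⁻¹ * (s * z)
    rw [hcinv]
    calc (s * z) * (s * t) = s * (z * (s * t)) := by group
      _ = s * ((s * t) * z) := by rw [this]
      _ = (s * s) * t * z := by group
      _ = t * z := by rw [hs2, one_mul]
      _ = t * (s * s) * z := by rw [hs2, mul_one]
      _ = (t * s) * (s * z) := by group
  have hinv2 : SemiconjBy (s * z) (s * t)⁻¹ (s * t) := by
    have := hinv.inv_right
    rwa [inv_inv] at this
  have hsq : Commute ((s * z) * (s * z)) (s * t) := hinv2.mul_left hinv
  obtain ⟨m, hm⟩ := odd_eq_sq_pow huodd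
  have hcu : Commute (s * z) (s * t) := by
    rw [hm]
    exact hsq.pow_left m
  have hcc : (s * t)⁻¹ = s * t := by
    have h1 := hinv.eq
    have h2 := hcu.eq
    rw [h2] at h1
    exact (mul_right_cancel h1).symm
  have hc1 : s * t = 1 := by
    apply eq_one_of_odd_of_mul_self hcodd
    nth_rewrite 1 [← hcc]
    exact inv_mul_cancel _
  apply hne
  calc s = s * (t * t) := by rw [ht2, mul_one]
    _ = (s * t) * t := by group
    _ = t := by rw [hc1, one_mul]

end Cfsg.Agent.S1184
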