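import Cfsg.Statements.S1185
import Cfsg.Agent.Helper9.Isolated

set_option autoImplicit false
open Cfsg

namespace Cfsg.Agent.S1185

/-- Let z be an isolated involution of the finite group G with centralizer C. Then for every g ∈ G there is exactly one element k in the coset gC that has odd order and is inverted by z. -/
theorem result {G : Type*} [Group G] [Finite G] (z : G) (hz : Cfsg.IsIsolatedInvolution z) (g : G) : ∃! k : G, (Odd (orderOf k) ∧ z * k * z⁻¹ = k⁻¹) ∧ g⁻¹ * k ∈ Subgroup.centralizer ({z} : Set G) := by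
  obtain ⟨k, hodd, hinv, hk, -⟩ := Cfsg.Agent.Helper9.iso_exists_k hz g
  refine ⟨k, ⟨⟨hodd, hinv⟩, ?_⟩, ?_⟩
  · rw [Subgroup.mem_centralizer_singleton_iff]
    have : g⁻¹ * (k * z * k⁻¹) * g = z := by rw [hk]; group
    calc g⁻¹ * k * z = g⁻¹ * (k * z * k⁻¹) * g * (g⁻¹ * k) := by group
      _ = z * (g⁻¹ * k) := by rw [this]
  · rintro k' ⟨⟨hodd', hinv'⟩, hmem'⟩
    rw [Subgroup.mem_centralizer_singleton_iff] at hmem'
    apply Cfsg.Agent.Helper9.iso_unique_k hodd' hodd hinv' hinv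
    rw [hk]
    calc k' * z * k'⁻¹ = g * (g⁻¹ * k' * z) * k'⁻¹ := by group
      _ = g * (z * (g⁻¹ * k')) * k'⁻¹ := by rw [hmem']
      _ = g * z * g⁻¹ := by group

end Cfsg.Agent.S1185
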