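import Cfsg.Statements.S1186
import Cfsg.Agent.Helper9.IsoCount
import Cfsg.Agent.S1185

set_option autoImplicit false
open Cfsg

namespace Cfsg.Agent.S1186

theorem card_K {G : Type*} [Group G] [Finite G] (z : G) (hz : Cfsg.IsIsolatedInvolution z) :
    Nat.card {k : G // Odd (orderOf k) ∧ z * k * z⁻¹ = k⁻¹} =
      Nat.card (G ⧸ Subgroup.centralizer ({z} : Set G)) := by
  let f : {k : G // Odd (orderOf k) ∧ z * k * z⁻¹ = k⁻¹} → G ⧸ Subgroup.centralizer ({z} : Set G) :=
    fun k => (k.1 : G ⧸ Subgroup.centralizer ({z} : Set G))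
  apply Nat.card_congr (Equiv.ofBijective f ⟨?_, ?_⟩)
  · rintro ⟨k, hk⟩ ⟨k', hk'⟩ h
    have h' : (k : G ⧸ Subgroup.centralizer ({z} : Set G)) = (k' : G ⧸ Subgroup.centralizer ({z} : Set G)) := h
    rw [QuotientGroup.eq] at h'
    obtain ⟨k₀, -, hu⟩ := Cfsg.Agent.S1185.result z hz k
    have e1 := hu k ⟨hk, by rw [inv_mul_cancel]; exact Subgroup.one_mem _⟩
    have e2 := hu k' ⟨hk', h'⟩
    exact Subtype.ext (e1.trans e2.symm)
  · intro q
    obtain ⟨g, rfl⟩ := QuotientGroup.mk_surjective q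
    obtain ⟨k₀, ⟨hk, hmem⟩, -⟩ := Cfsg.Agent.S1185.result z hz g
    refine ⟨⟨k₀, hk⟩, ?_⟩
    show (k₀ : G ⧸ Subgroup.centralizer ({z} : Set G)) = (g : G ⧸ Subgroup.centralizer ({z} : Set G))
    symm
    rw [QuotientGroup.eq]
    exact hmem

/-- Let z be an isolated involution of the finite group G, C = C_G(z), K the set of elements of odd order inverted by z, and s an involution of C. Then |G| = |C| · |C_K(sz)| · |C_K(s)|. -/
theorem result {G : Type*} [Group G] [Finite G] (z : G) (hz : Cfsg.IsIsolatedInvolution z) (s : G) (hs : orderOf s = 2) (hsz : Commute s z) : Nat.card G = Nat.card (Subgroup.centralizer ({z} : Set G)) * Nat.card {k : G // Odd (orderOf k) ∧ z * k * z⁻¹ = k⁻¹ ∧ Commute k (s * z)} * Nat.card {k : G // Odd (orderOf k) ∧ z * k * z⁻¹ = k⁻¹ ∧ Commute k s} := by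
  rw [mul_assoc, ← Cfsg.Agent.Helper9.IK_card_mul hz hs hsz, card_K z hz, mul_comm]
  exact Subgroup.card_eq_card_quotient_mul_card_subgroup _

end Cfsg.Agent.S1186
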