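import Cfsg.Statements.S1228
import Cfsg.Agent.Helper9.CIT2

set_option autoImplicit false
open Cfsg

namespace Cfsg.Agent.S1228

open Cfsg.Agent.Helper9 in
/-- Let G be a finite group with a Sylow 2-subgroup T that is neither cyclic nor normal, such that the centralizer of every involution is an elementary abelian 2-group; put H = N_G(T), let u be an involution outside H and D = H ∩ uHu⁻¹. Then N_G(D) = D ⊔ ⟨u⟩, and a coset gH is fixed by every element of D exactly when gH = H or gH = uH. -/
theorem result {G : Type*} [Group G] [Finite G] (T : Sylow 2 G) (hnc : ¬ IsCyclic (T : Subgroup G)) (hnn : ¬ (T : Subgroup G).Normal) (hC : ∀ t : G, orderOf t = 2 → IsMulCommutative (Subgroup.centralizer ({t} : Set G)) ∧ ∀ c ∈ Subgroup.centralizer ({t} : Set G), c ^ 2 = 1) (u : G) (hu : orderOf u = 2) (huH : u ∉ Subgroup.normalizer ((T : Subgroup G) : Set G)) : Subgroup.normalizer ((Subgroup.normalizer ((T : Subgroup G) : Set G) ⊓ (Subgroup.normalizer ((T : Subgroup G) : Set G)).map (MulAut.conj u).toMonoidHom : Subgroup G) : Set G) = (Subgroup.normalizer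 ((T : Subgroup G) : Set G) ⊓ (Subgroup.normalizer ((T : Subgroup G) : Set G)).map (MulAut.conj u).toMonoidHom) ⊔ Subgroup.zpowers u ∧ ∀ g : G, ((∀ d ∈ Subgroup.normalizer ((T : Subgroup G) : Set G) ⊓ (Subgroup.normalizer ((T : Subgroup G) : Set G)).map (MulAut.conj u).toMonoidHom, d • (QuotientGroup.mk g : G ⧸ Subgroup.normalizer ((T : Subgroup G) : Set G)) = QuotientGroup.mk g) ↔ (QuotientGroup.mk g : G ⧸ Subgroup.normalizer ((T : Subgroup G) : Set G)) = QuotientGroup.mk 1 ∨ (QuotientGroup.mk g : G ⧸ Subgroup.normalizer ((T : Subgroup G) : Set G)) = QuotientGroup.mk u) := by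
  have hC' : CITHyp G := hC
  have hu_norm : u ∈ Subgroup.normalizer (citD T u : Set G) := by
    rw [Subgroup.mem_normalizer_iff]
    intro h
    constructor
    · intro hh
      rw [citD_inv T hnc hnn hC' u hu huH h hh]
      exact inv_mem hh
    · intro hh
      have := citD_inv T hnc hnn hC' u hu huH _ hh
      have e : u * (u * h * u⁻¹) * u⁻¹ = h := by
        rw [inv_inv_eq hu]
        calc u * (u * h * u) * u = (u * u) * h * (u * u) := by group
          _ = h := by rw [inv_sq hu, one_mul, mul_one]
      rw [e] at this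
      rw [this]
      exact inv_mem hh
  have key : ∀ m ∈ Subgroup.normalizer (citD T u : Set G), m ∈ citH T → m ∈ citD T u := by
    intro m hm hmH
    have hm' := Subgroup.mem_normalizer_iff.mp hm
    obtain ⟨e, he, t, ht, hmet⟩ := citD_factor T hnc hnn hC' u hu huH m hmH
    obtain ⟨d, hd, hd1⟩ := citD_exists_ne_one T hnc hnn hC' u hu huH
    have htd : t * d * t⁻¹ ∈ citD T u := by
      have h1 : m * d * m⁻¹ ∈ citD T u := (hm' d).mp hd
      have h2 : t * d * t⁻¹ = e⁻¹ * (m * d * m⁻¹) * e := by rw [hmet]; group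
      rw [h2]
      exact mul_mem (mul_mem (inv_mem he) h1) he
    have hdH : d ∈ citH T := (Subgroup.mem_inf.mp hd).1
    have h3 : d * t⁻¹ * d⁻¹ ∈ (T : Subgroup G) :=
      (Subgroup.mem_normalizer_iff.mp hdH t⁻¹).mp (inv_mem ht)
    have h4 : t * d * t⁻¹ * d⁻¹ = 1 := by
      apply citD_inf_T T hnc hnn hC' u huH (mul_mem htd (inv_mem hd))
      have : t * d * t⁻¹ * d⁻¹ = t * (d * t⁻¹ * d⁻¹) := by group
      rw [this]
      exact mul_mem ht h3
    have h5 : t * d = d * t := by
      calc t * d = (t * d * t⁻¹ * d⁻¹) * d * t := by group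
        _ = d * t := by rw [h4, one_mul]
    have ht1 := cit_T_commute T hnc hnn hC' u huH hd hd1 ht h5
    rw [hmet, ht1, mul_one]
    exact he
  constructor
  · apply le_antisymm
    · intro n hn
      have hn' := Subgroup.mem_normalizer_iff.mp hn
      have hfix : ∀ d ∈ citD T u, d • (n • ((1 : G) : G ⧸ citH T)) = n • ((1 : G) : G ⧸ citH T) := by
        intro d hd
        have h1 : n⁻¹ * d * n ∈ citD T u := by
          rw [hn' (n⁻¹ * d * n)]
          convert hd using 1
          group
        have h2 := ((citD_iff T u _).mp h1).1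
        calc d • n • ((1 : G) : G ⧸ citH T) = n • (n⁻¹ * d * n) • ((1 : G) : G ⧸ citH T) := by
              rw [← mul_smul, ← mul_smul]; congr 1; group
          _ = n • ((1 : G) : G ⧸ citH T) := by rw [h2]
      rcases cit_fix_D T hnc hnn hC' u hu huH _ hfix with h | h
      · have hnH : n ∈ citH T := (smul_mk_one_iff _ n).mp h
        exact Subgroup.mem_sup_left (key n hn hnH)
      · have hunH : u * n ∈ citH T := by
          rw [← smul_mk_one_iff, mul_smul, h, ← smul_mk_one (citH T) u, ← mul_smul, inv_sq hu,
            one_smul]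
        have hun : u * n ∈ Subgroup.normalizer (citD T u : Set G) := mul_mem hu_norm hn
        have := key _ hun hunH
        have e : n = u * (u * n) := by rw [← mul_assoc, inv_sq hu, one_mul]
        rw [e]
        exact mul_mem (Subgroup.mem_sup_right (Subgroup.mem_zpowers u)) (Subgroup.mem_sup_left this)
    · rw [sup_le_iff]
      exact ⟨Subgroup.le_normalizer, by rw [Subgroup.zpowers_le]; exact hu_norm⟩
  · intro g
    constructor
    · intro h
      exact cit_fix_D T hnc hnn hC' u hu huH _ h
    · rintro (h | h) d hd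
      · rw [h]; exact ((citD_iff T u d).mp hd).1
      · rw [h]; exact ((citD_iff T u d).mp hd).2

end Cfsg.Agent.S1228
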