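import Cfsg.Statements.S1229
import Cfsg.Agent.Helper9.CIT2

set_option autoImplicit false
open Cfsg

namespace Cfsg.Agent.S1229

open Cfsg.Agent.Helper9 in
/-- Let G be a finite group with a Sylow 2-subgroup T that is neither cyclic nor normal, such that the centralizer of every involution is an elementary abelian 2-group; put H = N_G(T) and X = G/H. Then G is triply transitive on X, an element fixing three distinct points of X is the identity, and T acts regularly on X minus the point H. -/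
theorem result {G : Type*} [Group G] [Finite G] (T : Sylow 2 G) (hnc : ¬ IsCyclic (T : Subgroup G)) (hnn : ¬ (T : Subgroup G).Normal) (hC : ∀ t : G, orderOf t = 2 → IsMulCommutative (Subgroup.centralizer ({t} : Set G)) ∧ ∀ c ∈ Subgroup.centralizer ({t} : Set G), c ^ 2 = 1) : (∀ x₁ x₂ x₃ y₁ y₂ y₃ : G ⧸ Subgroup.normalizer ((T : Subgroup G) : Set G), x₁ ≠ x₂ → x₁ ≠ x₃ → x₂ ≠ x₃ → y₁ ≠ y₂ → y₁ ≠ y₃ → y₂ ≠ y₃ → ∃ g : G, g • x₁ = y₁ ∧ g • x₂ = y₂ ∧ g • x₃ = y₃) ∧ (∀ g : G, ∀ x₁ x₂ x₃ : G ⧸ Subgroup.normalizer ((T : Subgroup G) : Set G), x₁ ≠ x₂ → x₁ ≠ x₃ → x₂ ≠ x₃ → g • x₁ = x₁ → g • x₂ = x₂ → g • x₃ = x₃ → g = 1) ∧ (∀ x y : G ⧸ Subgroup.normalizer ((T : Subgroup G) : Set G), x ≠ QuotientGroup.mk 1 → y ≠ QuotientGroup.mk 1 → ∃! t : G, t ∈ T ∧ t • x = y) := by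
  have hC' : CITHyp G := hC
  have hSE := cit_strEmb T hnc hnn hC'
  have hHne : ∃ x : G ⧸ citH T, x ≠ ((1 : G) : G ⧸ citH T) := by
    have h1 : citH T ≠ ⊤ := hSE.1
    obtain ⟨g, hg⟩ : ∃ g, g ∉ citH T := by
      by_contra h
      push Not at h
      exact h1 (eq_top_iff.mpr fun g _ => h g)
    refine ⟨(g : G ⧸ citH T), fun h => hg ?_⟩
    rw [eq_comm, QuotientGroup.eq] at h
    simpa using h
  obtain ⟨x₀, hx₀⟩ := hHne
  obtain ⟨u, hu, -, huH⟩ := cit_exists_inv_swap T hnc hnn hC' x₀ hx₀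
  have hTα : ∀ t ∈ (T : Subgroup G), t • ((1 : G) : G ⧸ citH T) = ((1 : G) : G ⧸ citH T) :=
    fun t ht => (smul_mk_one_iff _ t).mpr (Subgroup.le_normalizer ht)
  have hsurj : ∀ x : G ⧸ citH T, ∃ a : G, a • ((1 : G) : G ⧸ citH T) = x := by
    intro x
    obtain ⟨a, rfl⟩ := QuotientGroup.mk_surjective x
    exact ⟨a, smul_mk_one _ a⟩
  obtain ⟨t₀, ht₀T, ht₀, -⟩ := cit_exists_central T hnc
  have key : ∀ x₁ x₂ x₃ : G ⧸ citH T, x₁ ≠ x₂ → x₁ ≠ x₃ → x₂ ≠ x₃ →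
      ∃ g : G, g • x₁ = ((1 : G) : G ⧸ citH T) ∧ g • x₂ = (u : G ⧸ citH T) ∧
        g • x₃ = t₀ • (u : G ⧸ citH T) := by
    intro x₁ x₂ x₃ h12 h13 h23
    obtain ⟨a, ha⟩ := hsurj x₁
    have hy2 : a⁻¹ • x₂ ≠ ((1 : G) : G ⧸ citH T) := by
      intro h; apply h12; rw [← ha, ← h, smul_inv_smul]
    have hy3 : a⁻¹ • x₃ ≠ ((1 : G) : G ⧸ citH T) := by
      intro h; apply h13; rw [← ha, ← h, smul_inv_smul]
    obtain ⟨t, ht, htβ⟩ := cit_T_trans T hnc hnn hC' u hu huH _ hy2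
    have hz3α : t⁻¹ • a⁻¹ • x₃ ≠ ((1 : G) : G ⧸ citH T) := by
      intro h
      apply hy3
      rw [← smul_inv_smul t (a⁻¹ • x₃), h, hTα t ht]
    have hz3β : t⁻¹ • a⁻¹ • x₃ ≠ (u : G ⧸ citH T) := by
      intro h
      apply h23
      have : a⁻¹ • x₃ = a⁻¹ • x₂ := by rw [← htβ, ← h, smul_inv_smul]
      exact (smul_left_cancel a⁻¹ this).symm
    obtain ⟨t₃, ht₃, ht₃β⟩ := cit_T_trans T hnc hnn hC' u hu huH _ hz3α
    have ht₃1 : t₃ ≠ 1 := by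
      intro h; apply hz3β; rw [← ht₃β, h, one_smul]
    have ht₃o : orderOf t₃ = 2 := orderOf_two_of ((cit_elem_abelian T hnc hC').1 t₃ ht₃) ht₃1
    obtain ⟨d, hd, hdc⟩ := conj_by_two_point hSE u hu huH t₃ t₀ ht₃o (Subgroup.le_normalizer ht₃)
      ht₀ (Subgroup.le_normalizer ht₀T)
    obtain ⟨hdα, hdβ⟩ := (citD_iff T u d).mp hd
    refine ⟨d * t⁻¹ * a⁻¹, ?_, ?_, ?_⟩
    · rw [mul_smul, mul_smul, ← ha, inv_smul_smul, inv_smul_eq_iff.mpr (hTα t ht).symm, hdα]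
    · rw [mul_smul, mul_smul, ← htβ, inv_smul_smul, hdβ]
    · have e : d * t₃ = t₀ * d := by
        calc d * t₃ = (d * t₃ * d⁻¹) * d := by group
          _ = t₀ * d := by rw [hdc]
      rw [mul_smul, mul_smul, ← ht₃β, ← mul_smul, e, mul_smul, hdβ]
  refine ⟨?_, ?_, ?_⟩
  · intro x₁ x₂ x₃ y₁ y₂ y₃ h12 h13 h23 k12 k13 k23
    obtain ⟨g, hg1, hg2, hg3⟩ := key x₁ x₂ x₃ h12 h13 h23
    obtain ⟨g', hg1', hg2', hg3'⟩ := key y₁ y₂ y₃ k12 k13 k23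
    refine ⟨g'⁻¹ * g, ?_, ?_, ?_⟩
    · rw [mul_smul, hg1, ← hg1', inv_smul_smul]
    · rw [mul_smul, hg2, ← hg2', inv_smul_smul]
    · rw [mul_smul, hg3, ← hg3', inv_smul_smul]
  · intro g x₁ x₂ x₃ h12 h13 h23 hg1 hg2 hg3
    obtain ⟨a, ha⟩ := hsurj x₁
    have hy2 : a⁻¹ • x₂ ≠ ((1 : G) : G ⧸ citH T) := by
      intro h; apply h12; rw [← ha, ← h, smul_inv_smul]
    have hy3 : a⁻¹ • x₃ ≠ ((1 : G) : G ⧸ citH T) := by
      intro h; apply h13; rw [← ha, ← h, smul_inv_smul]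
    have hy23 : a⁻¹ • x₃ ≠ a⁻¹ • x₂ := fun h => h23 (smul_left_cancel a⁻¹ h).symm
    have hf1 : (a⁻¹ * g * a) • ((1 : G) : G ⧸ citH T) = ((1 : G) : G ⧸ citH T) := by
      rw [mul_smul, mul_smul, ha, hg1, ← ha, inv_smul_smul]
    have hf2 : (a⁻¹ * g * a) • (a⁻¹ • x₂) = a⁻¹ • x₂ := by
      rw [mul_smul, mul_smul, smul_inv_smul, hg2]
    have hf3 : (a⁻¹ * g * a) • (a⁻¹ • x₃) = a⁻¹ • x₃ := by
      rw [mul_smul, mul_smul, smul_inv_smul, hg3]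
    obtain ⟨w, hw, hwy, hwH⟩ := cit_exists_inv_swap T hnc hnn hC' _ hy2
    have hgD : a⁻¹ * g * a ∈ citD T w := by
      rw [citD_iff]
      exact ⟨hf1, by rw [hwy]; exact hf2⟩
    by_contra hg
    have hg' : a⁻¹ * g * a ≠ 1 := by
      intro h
      apply hg
      calc g = a * (a⁻¹ * g * a) * a⁻¹ := by group
        _ = 1 := by rw [h]; group
    rcases cit_fix_elt T hnc hnn hC' w hw hwH hgD hg' _ hf3 with h | h
    · exact hy3 h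
    · rw [hwy] at h; exact hy23 h
  · intro x y hx hy
    obtain ⟨t₁, ht₁, h1⟩ := cit_T_trans T hnc hnn hC' u hu huH x hx
    obtain ⟨t₂, ht₂, h2⟩ := cit_T_trans T hnc hnn hC' u hu huH y hy
    refine ⟨t₂ * t₁⁻¹, ⟨mul_mem ht₂ (inv_mem ht₁), by rw [mul_smul, ← h1, inv_smul_smul, h2]⟩, ?_⟩
    rintro t' ⟨ht', ht'x⟩
    have h3 : ((t₂ * t₁⁻¹)⁻¹ * t') • x = x := by
      rw [mul_smul, ht'x, inv_smul_eq_iff, mul_smul, ← h1, inv_smul_smul, h2]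
    have h4 := cit_T_free T hnc hnn hC' (mul_mem (inv_mem (mul_mem ht₂ (inv_mem ht₁))) ht') x hx h3
    exact (inv_mul_eq_one.mp h4).symm

end Cfsg.Agent.S1229
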