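import Mathlib
import Cfsg.Statements.S1230
import Cfsg.Agent.Helper18.BSW
import Cfsg.Agent.Helper18.SL2Type0
-- import your own Cfsg.Agent.* helpers here

set_option autoImplicit false
open Cfsg

namespace Cfsg.Agent.S1230

/-- Let G be a finite group with a Sylow 2-subgroup T that is neither cyclic nor normal, such that the centralizer of every involution is an elementary abelian 2-group. Then G ≅ PSL(2,F) for a finite field F with |F| = |T|. -/
theorem result {G : Type*} [Group G] [Finite G] (T : Sylow 2 G) (hnc : ¬ IsCyclic (T : Subgroup G)) (hnn : ¬ (T : Subgroup G).Normal) (hC : ∀ t : G, orderOf t = 2 → IsMulCommutative (Subgroup.centralizer ({t} : Set G)) ∧ ∀ c ∈ Subgroup.centralizer ({t} : Set G), c ^ 2 = 1) : ∃ (F : Type) (_ : Field F) (_ : Fintype F), Fintype.card F = Nat.card T ∧ Nonempty (G ≃* Matrix.ProjectiveSpecialLinearGroup (Fin 2) F) := by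
  classical
  obtain ⟨⟨a, b, c, hab, hac, hbc⟩, h3t, h3s, hcard⟩ := Cfsg.Agent.Helper18.bsw_core T hnc hnn hC
  haveI : Fact (Nat.Prime 2) := ⟨Nat.prime_two⟩
  have hodd : Odd (Nat.card (Sylow 2 G)) := by
    have h := card_sylow_modEq_one 2 G
    rw [Nat.odd_iff]
    exact h
  obtain ⟨E, hfE, hfinE, h2, hcardE, ⟨iso⟩⟩ :=
    Cfsg.Agent.Helper18.sharp3_sl2 hodd a b c hab hac hbc h3t h3s
  obtain ⟨F, hF, hFt, hcF, h2F, ⟨iso2⟩⟩ := Cfsg.Agent.Helper18.sl2_type0 (E := E) h2
  obtain ⟨iso3⟩ := Cfsg.Agent.Helper18.sl2_equiv_psl2 (F := F) h2F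
  refine ⟨F, hF, hFt, ?_, ⟨(iso.trans iso2).trans iso3⟩⟩
  have hcard' : Nat.card (Sylow 2 G) = Nat.card T + 1 := hcard
  rw [hcF]
  omega

end Cfsg.Agent.S1230
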