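import Mathlib
import Cfsg.Statements.S1231

set_option autoImplicit false
open Cfsg

namespace Cfsg.Agent.S1231

variable {G : Type*} [Group G]

theorem mem_smul_sylow {p : ℕ} (P : Sylow p G) (h x : G) :
    x ∈ ((h • P : Sylow p G) : Subgroup G) ↔ h⁻¹ * x * h ∈ (P : Subgroup G) := by
  rw [Sylow.coe_subgroup_smul, Subgroup.mem_pointwise_smul_iff_inv_smul_mem, MulAut.smul_def]
  simp

theorem mem_map_conj (A : Subgroup G) (g x : G) :
    x ∈ A.map (MulAut.conj g).toMonoidHom ↔ g⁻¹ * x * g ∈ A := by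
  constructor
  · rintro ⟨a, ha, rfl⟩
    simpa [MulAut.conj_apply, mul_assoc] using ha
  · intro h
    refine ⟨g⁻¹ * x * g, h, ?_⟩
    simp [MulAut.conj_apply, mul_assoc]

/-- a witness of "rank greater than `n`" inside a subgroup of `G` -/
def HR (p n : ℕ) (X : Subgroup G) : Prop :=
  ∃ A : Subgroup G, A ≤ X ∧ (∀ a ∈ A, ∀ b ∈ A, a * b = b * a) ∧ (∀ a ∈ A, a ^ p = 1) ∧
    p ^ n < Nat.card A

theorem HR.mono {p n : ℕ} {X Y : Subgroup G} (h : HR p n X) (hXY : X ≤ Y) : HR p n Y := by
  obtain ⟨A, hA, h1, h2, h3⟩ := h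
  exact ⟨A, hA.trans hXY, h1, h2, h3⟩

theorem hr_witness {K : Type*} [Group K] (p n : ℕ) (f : K →* G) (hf : Function.Injective f)
    (A : Subgroup K) (hc : IsMulCommutative A) (he : ∀ a ∈ A, a ^ p = 1)
    (hcard : p ^ n < Nat.card A) : HR p n (A.map f) := by
  refine ⟨A.map f, le_rfl, ?_, ?_, ?_⟩
  · rintro _ ⟨a, ha, rfl⟩ _ ⟨b, hb, rfl⟩
    rw [← map_mul, ← map_mul]
    congr 1
    have := (isMulCommutative_iff.1 hc) ⟨a, ha⟩ ⟨b, hb⟩
    exact congrArg Subtype.val this
  · rintro _ ⟨a, ha, rfl⟩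
    rw [← map_pow, he a ha, map_one]
  · rw [Nat.card_congr (A.equivMapOfInjective f hf).symm.toEquiv]
    exact hcard

theorem hr_of_not_prank {K : Type*} [Group K] (p n : ℕ) (f : K →* G) (hf : Function.Injective f)
    (h : ¬ Cfsg.PRankLE p n K) : HR p n f.range := by
  unfold Cfsg.PRankLE at h
  push Not at h
  obtain ⟨A, hc, he, hcard⟩ := h
  exact (hr_witness p n f hf A hc he hcard).mono (Subgroup.map_le_range f A)

theorem not_prank_of_hr (p n : ℕ) (X : Subgroup G) (h : HR p n X) : ¬ Cfsg.PRankLE p n ↥X := by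
  obtain ⟨A, hA, h1, h2, h3⟩ := h
  intro hr
  have key := hr (A.subgroupOf X) ?_ ?_
  · rw [Nat.card_congr (Subgroup.subgroupOfEquivOfLe hA).toEquiv] at key
    omega
  · rw [isMulCommutative_iff]
    rintro ⟨a, ha⟩ ⟨b, hb⟩
    apply Subtype.ext
    apply Subtype.ext
    exact h1 _ ha _ hb
  · intro a ha
    apply Subtype.ext
    simpa using h2 _ (Subgroup.mem_subgroupOf.1 ha)

theorem HR.conj {p n : ℕ} {X : Subgroup G} (h : HR p n X) (g : G) :
    HR p n (X.map (MulAut.conj g).toMonoidHom) := by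
  obtain ⟨A, hA, h1, h2, h3⟩ := h
  refine ⟨A.map (MulAut.conj g).toMonoidHom, Subgroup.map_mono hA, ?_, ?_, ?_⟩
  · rintro _ ⟨a, ha, rfl⟩ _ ⟨b, hb, rfl⟩
    rw [← map_mul, ← map_mul, h1 a ha b hb]
  · rintro _ ⟨a, ha, rfl⟩
    rw [← map_pow, h2 a ha, map_one]
  · rw [Nat.card_congr (A.equivMapOfInjective (MulAut.conj g).toMonoidHom
      (MulAut.conj g).injective).symm.toEquiv]
    exact h3

theorem normalizer_conj (X : Subgroup G) (g n : G) (hn : n ∈ Subgroup.normalizer (X : Set G)) :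
    g * n * g⁻¹ ∈ Subgroup.normalizer ((X.map (MulAut.conj g).toMonoidHom : Subgroup G) : Set G) := by
  rw [Subgroup.mem_normalizer_iff] at hn ⊢
  intro y
  rw [mem_map_conj, mem_map_conj, hn (g⁻¹ * y * g)]
  have : g⁻¹ * (g * n * g⁻¹ * y * (g * n * g⁻¹)⁻¹) * g = n * (g⁻¹ * y * g) * n⁻¹ := by group
  rw [this]

/-- normalizers grow in finite `p`-groups -/
theorem eq_of_normalizer_inf_le {p : ℕ} [Fact p.Prime] [Finite G] (R S : Subgroup G) (hRS : R ≤ S)
    (hS : IsPGroup p S) (h : Subgroup.normalizer (R : Set G) ⊓ S ≤ R) : R = S := by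
  by_contra hne
  have hnil : Group.IsNilpotent S := hS.isNilpotent
  have hnc : NormalizerCondition S := Group.normalizerCondition_of_isNilpotent
  have hlt : R.subgroupOf S < ⊤ := by
    rw [lt_top_iff_ne_top, Ne, Subgroup.subgroupOf_eq_top]
    intro hSR
    exact hne (le_antisymm hRS hSR)
  have h2 := hnc _ hlt
  obtain ⟨x, hx1, hx2⟩ := SetLike.exists_of_lt h2
  rw [← Subgroup.subgroupOf_normalizer_eq hRS, Subgroup.mem_subgroupOf] at hx1
  exact hx2 (Subgroup.mem_subgroupOf.2 (h ⟨hx1, x.2⟩))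

/-- Let H be a subgroup of the finite group G, p a prime, k ≥ 1, and P a Sylow p-subgroup of H whose p-rank is at least k. Then N_G(X) ≤ H for every subgroup X of P of p-rank at least k if and only if H ∩ gHg⁻¹ has p-rank less than k for every g ∉ H. -/
theorem result {G : Type*} [Group G] [Finite G] {p : ℕ} [Fact p.Prime] (k : ℕ) (hk : 1 ≤ k) (H : Subgroup G) (P : Sylow p ↥H) (hP : ¬ Cfsg.PRankLE p (k - 1) ↥(P : Subgroup ↥H)) : (∀ X : Subgroup G, X ≤ (P : Subgroup ↥H).map H.subtype → ¬ Cfsg.PRankLE p (k - 1) ↥X → Subgroup.normalizer (X : Set G) ≤ H) ↔ (∀ g : G, g ∉ H → Cfsg.PRankLE p (k - 1) ↥(H ⊓ H.map (MulAut.conj g).toMonoidHom)) := by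
  set P' : Subgroup G := (P : Subgroup ↥H).map H.subtype with hP'def
  have hP'H : P' ≤ H := Subgroup.map_subtype_le _
  have hP'p : IsPGroup p P' := P.2.map _
  have hP'HR : HR p (k - 1) P' := by
    have := hr_of_not_prank p (k - 1) (H.subtype.comp (P : Subgroup ↥H).subtype)
      (H.subtype_injective.comp (P : Subgroup ↥H).subtype_injective) hP
    rw [MonoidHom.range_comp, Subgroup.range_subtype] at this
    exact this
  constructor
  · intro hN g hg
    by_contra hcon
    set L : Subgroup G := H ⊓ H.map (MulAut.conj g).toMonoidHom with hL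
    have hNP : Subgroup.normalizer (P' : Set G) ≤ H := hN P' le_rfl (not_prank_of_hr _ _ _ hP'HR)
    -- L1: p-subgroups of H are conjugate in H into P'
    have L1 : ∀ R : Subgroup G, R ≤ H → IsPGroup p R →
        ∃ h ∈ H, R ≤ P'.map (MulAut.conj h).toMonoidHom := by
      intro R hRH hR
      have hR' : IsPGroup p (R.subgroupOf H) := hR.comap_subtype
      obtain ⟨Q, hQ⟩ := hR'.exists_le_sylow
      obtain ⟨h, rfl⟩ := MulAction.exists_smul_eq H P Q
      refine ⟨h, h.2, ?_⟩
      intro r hr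
      rw [mem_map_conj]
      have h1 : (⟨r, hRH hr⟩ : H) ∈ ((h • P : Sylow p H) : Subgroup H) :=
        hQ (by simpa [Subgroup.mem_subgroupOf] using hr)
      rw [mem_smul_sylow] at h1
      exact ⟨_, h1, by simp⟩
    -- Claim*: normalizers of high-rank p-subgroups of H lie in H
    have claim : ∀ R : Subgroup G, R ≤ H → IsPGroup p R → HR p (k - 1) R →
        Subgroup.normalizer (R : Set G) ≤ H := by
      intro R hRH hR hRHR
      obtain ⟨h, hh, hRh⟩ := L1 R hRH hR
      have h1 : R.map (MulAut.conj h⁻¹).toMonoidHom ≤ P' := by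
        intro x hx
        rw [mem_map_conj] at hx
        have := hRh hx
        rw [mem_map_conj] at this
        have e : h⁻¹ * (h⁻¹⁻¹ * x * h⁻¹) * h = x := by group
        rwa [e] at this
      have h2 := hN _ h1 (not_prank_of_hr _ _ _ (hRHR.conj h⁻¹))
      intro n hn
      have h3 := h2 (normalizer_conj R h⁻¹ n hn)
      have e : n = h * (h⁻¹ * n * h⁻¹⁻¹) * h⁻¹ := by group
      rw [e]
      exact H.mul_mem (H.mul_mem hh h3) (H.inv_mem hh)
    -- a witness in L and a Sylow p-subgroup of L containing it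
    unfold Cfsg.PRankLE at hcon
    push Not at hcon
    obtain ⟨A, hAc, hAe, hAcard⟩ := hcon
    have hAp : IsPGroup p A := by
      intro a
      refine ⟨1, ?_⟩
      rw [pow_one]
      apply Subtype.ext
      simpa using hAe a a.2
    obtain ⟨Q, hQ⟩ := hAp.exists_le_sylow
    set R : Subgroup G := (Q : Subgroup L).map L.subtype with hRdef
    have hRL : R ≤ L := Subgroup.map_subtype_le _
    have hRp : IsPGroup p R := Q.2.map _
    have hRHR : HR p (k - 1) R :=
      (hr_witness p (k - 1) L.subtype L.subtype_injective A hAc hAe hAcard).mono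
        (Subgroup.map_mono hQ)
    have hRmax : ∀ T : Subgroup G, IsPGroup p T → R ≤ T → T ≤ L → T ≤ R := by
      intro T hT hRT hTL
      have h1 : IsPGroup p (T.subgroupOf L) := hT.comap_subtype
      have h2 : (Q : Subgroup L) ≤ T.subgroupOf L := by
        intro q hq
        rw [Subgroup.mem_subgroupOf]
        exact hRT ⟨q, hq, rfl⟩
      have h3 := Q.is_maximal' h1 h2
      intro t ht
      have : (⟨t, hTL ht⟩ : L) ∈ T.subgroupOf L := by
        rw [Subgroup.mem_subgroupOf]; exact ht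
      rw [h3] at this
      exact ⟨_, this, rfl⟩
    have hLH : L ≤ H := inf_le_left
    have hLHg : L ≤ H.map (MulAut.conj g).toMonoidHom := inf_le_right
    have hNH : Subgroup.normalizer (R : Set G) ≤ H := claim R (hRL.trans hLH) hRp hRHR
    -- the g-side
    set R₂ : Subgroup G := R.map (MulAut.conj g⁻¹).toMonoidHom with hR₂
    have hR₂H : R₂ ≤ H := by
      intro x hx
      rw [hR₂, mem_map_conj] at hx
      have := hLHg (hRL hx)
      rw [mem_map_conj] at this
      have e : g⁻¹ * (g⁻¹⁻¹ * x * g⁻¹) * g = x := by group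
      rwa [e] at this
    have hR₂p : IsPGroup p R₂ := hRp.map _
    have hNH2 : Subgroup.normalizer (R₂ : Set G) ≤ H := claim R₂ hR₂H hR₂p (hRHR.conj g⁻¹)
    have hNL : Subgroup.normalizer (R : Set G) ≤ L := by
      intro n hn
      rw [hL, Subgroup.mem_inf]
      refine ⟨hNH hn, ?_⟩
      rw [mem_map_conj]
      have := hNH2 (normalizer_conj R g⁻¹ n hn)
      simpa using this
    -- R is a full Sylow p-subgroup of H (as a conjugate of P')
    obtain ⟨h₁, hh₁, hR1⟩ := L1 R (hRL.trans hLH) hRp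
    have e1 : R = P'.map (MulAut.conj h₁).toMonoidHom := by
      apply eq_of_normalizer_inf_le R _ hR1 (hP'p.map _)
      apply hRmax
      · exact (hP'p.map _).to_le inf_le_right
      · exact le_inf Subgroup.le_normalizer hR1
      · exact inf_le_left.trans hNL
    obtain ⟨h₂, hh₂, hR2⟩ := L1 R₂ hR₂H hR₂p
    have hR3 : R ≤ P'.map (MulAut.conj (g * h₂)).toMonoidHom := by
      intro r hr
      rw [mem_map_conj]
      have h1 : g⁻¹ * r * g ∈ R₂ := by
        rw [hR₂, mem_map_conj]
        have e : g⁻¹⁻¹ * (g⁻¹ * r * g) * g⁻¹ = r := by group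
        rwa [e]
      have h2 := hR2 h1
      rw [mem_map_conj] at h2
      have e : (g * h₂)⁻¹ * r * (g * h₂) = h₂⁻¹ * (g⁻¹ * r * g) * h₂ := by group
      rwa [e]
    have e2 : R = P'.map (MulAut.conj (g * h₂)).toMonoidHom := by
      apply eq_of_normalizer_inf_le R _ hR3 (hP'p.map _)
      apply hRmax
      · exact (hP'p.map _).to_le inf_le_right
      · exact le_inf Subgroup.le_normalizer hR3
      · exact inf_le_left.trans hNL
    have e3 : P'.map (MulAut.conj h₁).toMonoidHom = P'.map (MulAut.conj (g * h₂)).toMonoidHom :=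
      e1.symm.trans e2
    have hn : h₁⁻¹ * g * h₂ ∈ Subgroup.normalizer (P' : Set G) := by
      rw [Subgroup.mem_normalizer_iff]
      intro x
      have h1 : x ∈ P' ↔ (g * h₂) * x * (g * h₂)⁻¹ ∈ P'.map (MulAut.conj (g * h₂)).toMonoidHom := by
        rw [mem_map_conj]
        have e : (g * h₂)⁻¹ * (g * h₂ * x * (g * h₂)⁻¹) * (g * h₂) = x := by group
        rw [e]
      rw [h1, ← e3, mem_map_conj]
      have e : h₁⁻¹ * (g * h₂ * x * (g * h₂)⁻¹) * h₁ = h₁⁻¹ * g * h₂ * x * (h₁⁻¹ * g * h₂)⁻¹ := by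
        group
      rw [e]
    have hmem := hNP hn
    apply hg
    have e : g = h₁ * (h₁⁻¹ * g * h₂) * h₂⁻¹ := by group
    rw [e]
    exact H.mul_mem (H.mul_mem hh₁ hmem) (H.inv_mem hh₂)
  · intro hr X hXP hX n hn
    by_contra hnH
    apply hX
    have hXHR : HR p (k - 1) X := by
      have := hr_of_not_prank p (k - 1) X.subtype X.subtype_injective hX
      rwa [Subgroup.range_subtype] at this
    have hXL : X ≤ H ⊓ H.map (MulAut.conj n).toMonoidHom := by
      intro x hx
      rw [Subgroup.mem_inf]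
      refine ⟨hP'H (hXP hx), ?_⟩
      rw [mem_map_conj]
      apply hP'H
      apply hXP
      rw [Subgroup.mem_normalizer_iff''] at hn
      exact (hn x).1 hx
    exact absurd (hr n hnH) (not_prank_of_hr _ _ _ (hXHR.mono hXL))

end Cfsg.Agent.S1231
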