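import Cfsg.Statements.S1236
import Cfsg.Agent.Helper9.DQ1

set_option autoImplicit false
open Cfsg

namespace Cfsg.Agent.S1236

open Cfsg.Agent.Helper9

theorem result {R : Type*} [Group R] [Finite R] (t : R) (ht : orderOf t = 2) (htz : t ∈ Subgroup.center R) [(Subgroup.zpowers t).Normal] (hq : (∃ m : ℕ, 2 ≤ m ∧ Nonempty (R ⧸ Subgroup.zpowers t ≃* DihedralGroup m)) ∨ Cfsg.IsQuasiDihedral (R ⧸ Subgroup.zpowers t)) (A : Subgroup R) (hA : Cfsg.IsElementaryAbelian 2 A) (hA8 : Nat.card A = 8) (htA : t ∈ A) : Subgroup.centralizer (A : Set R) = A := by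
  apply elementary_eight_self_centralizing_h9 t ht _ A hA hA8 htA
  rcases hq with ⟨m, hm, ⟨e⟩⟩ | hq
  · exact klein_self_centralizing_of_equiv_h9 e
      (dihedral_klein_self_centralizing_h9 m (by omega))
  · exact qd_klein_self_centralizing_h9 hq

end Cfsg.Agent.S1236
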