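import Mathlib
import Cfsg.Statements.S1241

set_option autoImplicit false
open Cfsg

namespace Cfsg.Agent.S1241

open Subgroup

/-- Evaluation of the transfer at an element whose conjugates lying in `H` have the same image. -/
theorem transfer_eq_pow_of_conj {G : Type*} [Group G] {H : Subgroup G} [H.FiniteIndex]
    {A : Type*} [CommGroup A] (ϕ : H →* A) (g : G) (hg : g ∈ H)
    (key : ∀ (k : ℕ) (g₀ : G) (hk : g₀⁻¹ * g ^ k * g₀ ∈ H),
      ϕ ⟨g₀⁻¹ * g ^ k * g₀, hk⟩ = ϕ ⟨g ^ k, H.pow_mem hg k⟩) :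
    MonoidHom.transfer ϕ g = (ϕ ⟨g, hg⟩) ^ H.index := by
  have : Fintype (Quotient (MulAction.orbitRel (zpowers g) (G ⧸ H))) := Fintype.ofFinite _
  rw [index_eq_sum_minimalPeriod H g, ← Finset.prod_pow_eq_pow_sum,
    MonoidHom.transfer_eq_prod_quotient_orbitRel_zpowers_quot]
  apply Finset.prod_congr rfl
  intro q _
  rw [key, ← map_pow]
  rfl

open scoped IsMulCommutative in
/-- Let G be a finite group, p a prime, H a subgroup of index prime to p, K a subgroup of H normal in H with H/K commutative, and g ∈ H ∖ K an element of p-power order such that for all integers m and all a ∈ G with a g^m a⁻¹ ∈ H one has a g^m a⁻¹ ∈ g^m K. Then g ∉ G'. -/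
theorem result {G : Type*} [Group G] [Finite G] {p : ℕ} [Fact p.Prime] (H K : Subgroup G) (hHK : K ≤ H) (hKn : (K.subgroupOf H).Normal) (hab : ∀ x ∈ H, ∀ y ∈ H, x * y * x⁻¹ * y⁻¹ ∈ K) (hidx : Nat.Coprime p H.index) (g : G) (hgH : g ∈ H) (hgK : g ∉ K) (hgp : ∃ k : ℕ, orderOf g = p ^ k) (hctrl : ∀ (m : ℤ) (a : G), a * g ^ m * a⁻¹ ∈ H → (a * g ^ m * a⁻¹) * (g ^ m)⁻¹ ∈ K) : g ∉ commutator G := by
  intro hgc
  have hcomm : IsMulCommutative (H ⧸ K.subgroupOf H) := by
    rw [Subgroup.Normal.quotient_commutative_iff_commutator_le]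
    rw [commutator_def, Subgroup.commutator_le]
    intro x _ y _
    rw [mem_subgroupOf]
    have := hab x x.2 y y.2
    simpa [commutatorElement_def] using this
  let ϕ : H →* H ⧸ K.subgroupOf H := QuotientGroup.mk' (K.subgroupOf H)
  have h1 : MonoidHom.transfer ϕ g = (ϕ ⟨g, hgH⟩) ^ H.index := by
    apply transfer_eq_pow_of_conj ϕ g hgH
    intro k g₀ hk
    apply QuotientGroup.eq_iff_div_mem.mpr
    rw [mem_subgroupOf]
    have h2 := hctrl (k : ℤ) g₀⁻¹ (by simpa using hk)
    simp only [Subgroup.coe_div, div_eq_mul_inv]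
    simpa using h2
  have h4 : MonoidHom.transfer ϕ g = 1 :=
    (Abelianization.commutator_subset_ker (MonoidHom.transfer ϕ)) hgc
  rw [h4] at h1
  have h5 : g ^ H.index ∈ K := by
    have : ϕ (⟨g, hgH⟩ ^ H.index) = 1 := by rw [map_pow]; exact h1.symm
    have h6 := (QuotientGroup.eq_one_iff _).1 this
    rw [mem_subgroupOf] at h6
    simpa using h6
  obtain ⟨k, hk⟩ := hgp
  have hcop : Nat.Coprime H.index (orderOf g) := by
    rw [hk]
    exact Nat.Coprime.pow_right k hidx.symm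
  obtain ⟨m, hm⟩ := exists_pow_eq_self_of_coprime hcop
  apply hgK
  rw [← hm]
  exact K.pow_mem h5 m

end Cfsg.Agent.S1241
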