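import Cfsg.Statements.S1243
import Cfsg.Agent.Helper9.Fusion

set_option autoImplicit false
open Cfsg

namespace Cfsg.Agent.S1243

open Cfsg.Agent.Helper9 in
/-- Let T be a Sylow p-subgroup of the finite group G and W ≤ T a subgroup weakly closed in T. If d and g d g⁻¹ both centralize W, then g d g⁻¹ = h d h⁻¹ for some h ∈ N_G(W). -/
theorem result {G : Type*} [Group G] [Finite G] {p : ℕ} [Fact p.Prime] (T : Sylow p G) (W : Subgroup G) (hW : Cfsg.IsWeaklyClosed W (T : Subgroup G)) (d g : G) (hd : d ∈ Subgroup.centralizer (W : Set G)) (hgd : g * d * g⁻¹ ∈ Subgroup.centralizer (W : Set G)) : ∃ h ∈ Subgroup.normalizer (W : Set G), h * d * h⁻¹ = g * d * g⁻¹ := by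
  have hWp : IsPGroup p W := T.2.to_le hW.1
  set e := g * d * g⁻¹ with he
  have hWC : W ≤ Subgroup.centralizer {e} := by
    intro w hw
    rw [Subgroup.mem_centralizer_singleton_iff]
    rw [Subgroup.mem_centralizer_iff] at hgd
    exact hgd w hw
  have hVC : W.map (MulAut.conj g).toMonoidHom ≤ Subgroup.centralizer {e} := by
    intro v hv
    rw [mem_map_conj] at hv
    rw [Subgroup.mem_centralizer_singleton_iff]
    rw [Subgroup.mem_centralizer_iff] at hd
    have := hd _ hv
    rw [he]
    calc v * (g * d * g⁻¹) = g * ((g⁻¹ * v * g) * d) * g⁻¹ := by group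
      _ = g * (d * (g⁻¹ * v * g)) * g⁻¹ := by rw [this]
      _ = g * d * g⁻¹ * v := by group
  have hVp : IsPGroup p (W.map (MulAut.conj g).toMonoidHom) := hWp.map _
  obtain ⟨c, hc, hcp⟩ := sylow_pair (Subgroup.centralizer {e}) W _ hWC hVC hWp hVp
  obtain ⟨Q, hQ⟩ := hcp.exists_le_sylow
  obtain ⟨x, hx⟩ := MulAction.exists_smul_eq G T Q
  rw [← hx, sylow_smul_eq_map, sup_le_iff, map_conj_map_conj] at hQ
  obtain ⟨h1, h2⟩ := hQ
  -- W^(x⁻¹) ≤ T
  have h3 : W.map (MulAut.conj x⁻¹).toMonoidHom ≤ T := by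
    intro w hw
    rw [mem_map_conj, inv_inv] at hw
    have := h1 hw
    rw [mem_map_conj] at this
    convert this using 1; group
  have h4 := hW.2 _ h3
  have h5 : W.map (MulAut.conj (x⁻¹ * (c * g))).toMonoidHom ≤ T := by
    intro w hw
    rw [← map_conj_map_conj, mem_map_conj, inv_inv] at hw
    have := h2 hw
    rw [mem_map_conj] at this
    convert this using 1; group
  have h6 := hW.2 _ h5
  have h7 : W.map (MulAut.conj (c * g)).toMonoidHom = W := by
    rw [← map_conj_map_conj] at h6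
    have h8 := congrArg (fun A => A.map (MulAut.conj x).toMonoidHom) h6
    rw [map_conj_map_conj, mul_inv_cancel, map_conj_one] at h8
    rw [h8]
    exact map_conj_eq_iff_inv.mp h4
  refine ⟨c * g, mem_normalizer_of_map_conj_eq h7, ?_⟩
  rw [Subgroup.mem_centralizer_singleton_iff] at hc
  calc c * g * d * (c * g)⁻¹ = (c * e) * c⁻¹ := by rw [he]; group
    _ = (e * c) * c⁻¹ := by rw [hc]
    _ = e := by group

end Cfsg.Agent.S1243
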