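import Cfsg.Statements.S1244
import Cfsg.Agent.Helper9.Transfer2
import Cfsg.Agent.Helper9.StrEmb

set_option autoImplicit false
open Cfsg

namespace Cfsg.Agent.S1244

open scoped IsMulCommutative in
open Cfsg.Agent.Helper9 in
/-- Let G be a finite group with no subgroup of index 2 whose Sylow 2-subgroup S is commutative, and let R ≤ S be a subgroup whose 2-rank is exactly one less than the 2-rank r of S. Then every involution of S is conjugate, by an element of N_G(S), to an element of R. -/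
theorem result {G : Type*} [Group G] [Finite G] (hG : ∀ H : Subgroup G, H.index ≠ 2) (S : Sylow 2 G) (hS : IsMulCommutative (S : Subgroup G)) (r : ℕ) (hr1 : 1 ≤ r) (hSr : Cfsg.PRankLE 2 r (S : Subgroup G) ∧ ¬ Cfsg.PRankLE 2 (r - 1) (S : Subgroup G)) (R : Subgroup G) (hRS : R ≤ S) (hRr : Cfsg.PRankLE 2 (r - 1) R ∧ (r = 1 ∨ ¬ Cfsg.PRankLE 2 (r - 2) R)) (t : G) (ht : orderOf t = 2) (htS : t ∈ S) : ∃ n ∈ Subgroup.normalizer ((S : Subgroup G) : Set G), n * t * n⁻¹ ∈ R := by
  have hfact : Fact (Nat.Prime 2) := ⟨Nat.prime_two⟩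
  by_contra hcon
  push Not at hcon
  have htt : t * t = 1 := inv_sq ht
  have hSp : IsPGroup 2 (S : Subgroup G) := S.2
  let E : Subgroup (S : Subgroup G) :=
    (powMonoidHom 2 : (S : Subgroup G) →* (S : Subgroup G)).ker
  let E₀ : Subgroup (S : Subgroup G) := E ⊓ R.subgroupOf S
  have hE : ∀ x : (S : Subgroup G), x ∈ E ↔ x ^ 2 = 1 := fun x => by
    simp [E, MonoidHom.mem_ker]
  have hE₀ : ∀ x : (S : Subgroup G), x ∈ E₀ ↔ x ^ 2 = 1 ∧ (x : G) ∈ R := fun x => by
    rw [Subgroup.mem_inf, hE, Subgroup.mem_subgroupOf]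
  -- cardinality of E
  have hcE_le : Nat.card E ≤ 2 ^ r :=
    hSr.1 E (isMulCommutative_iff.mpr fun a b => mul_comm a b) (fun a ha => (hE a).mp ha)
  have hcE_gt : 2 ^ (r - 1) < Nat.card E := by
    have h := hSr.2
    unfold Cfsg.PRankLE at h
    push Not at h
    obtain ⟨A, hAc, hAe, hAcard⟩ := h
    have hAE : A ≤ E := fun a ha => (hE a).mpr (hAe a ha)
    exact lt_of_lt_of_le hAcard (Subgroup.card_le_of_le hAE)
  obtain ⟨m, hm⟩ := (hSp.to_subgroup E).exists_card_eq
  have hmr : m = r := by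
    rw [hm] at hcE_le hcE_gt
    have h1 : m ≤ r := (Nat.pow_le_pow_iff_right (by norm_num)).mp hcE_le
    have h2 : r - 1 < m := (Nat.pow_lt_pow_iff_right (by norm_num)).mp hcE_gt
    omega
  have hcE : Nat.card E = 2 ^ r := by rw [hm, hmr]
  -- cardinality of E₀
  have hcE₀_le : Nat.card E₀ ≤ 2 ^ (r - 1) := by
    let AR : Subgroup R := E₀.comap (Subgroup.inclusion hRS)
    have hARc : IsMulCommutative AR := by
      rw [isMulCommutative_iff]
      intro a b
      apply Subtype.ext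
      apply Subtype.ext
      have := mul_comm (⟨a.1.1, hRS a.1.2⟩ : (S : Subgroup G)) ⟨b.1.1, hRS b.1.2⟩
      show (a.1.1 : G) * b.1.1 = b.1.1 * a.1.1
      exact congrArg Subtype.val this
    have hARe : ∀ a ∈ AR, a ^ 2 = 1 := by
      intro a ha
      have h1 : Subgroup.inclusion hRS a ∈ E₀ := ha
      have h2 := ((hE₀ _).mp h1).1
      apply Subtype.ext
      have := congrArg Subtype.val h2
      simpa using this
    have h3 := hRr.1 AR hARc hARe
    refine le_trans ?_ h3
    have hmem : ∀ e : E₀, (e.1 : G) ∈ R := fun e => ((hE₀ e.1).mp e.2).2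
    have hmem2 : ∀ e : E₀, (⟨(e.1 : G), hmem e⟩ : R) ∈ AR := by
      intro e
      show Subgroup.inclusion hRS ⟨(e.1 : G), hmem e⟩ ∈ E₀
      have : Subgroup.inclusion hRS ⟨(e.1 : G), hmem e⟩ = e.1 := Subtype.ext rfl
      rw [this]
      exact e.2
    apply Nat.card_le_card_of_injective (fun e : E₀ => (⟨⟨(e.1 : G), hmem e⟩, hmem2 e⟩ : AR))
    intro e e' h
    apply Subtype.ext
    apply Subtype.ext
    have := congrArg (fun x : AR => (x.1.1 : G)) h
    exact this
  obtain ⟨j, hj⟩ := (hSp.to_subgroup E₀).exists_card_eq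
  have hcE₀_ge : 2 ^ (r - 1) ≤ Nat.card E₀ := by
    rcases hRr.2 with h1 | h2
    · rw [h1]
      simp only [Nat.sub_self, pow_zero]
      exact Nat.card_pos
    · unfold Cfsg.PRankLE at h2
      push Not at h2
      obtain ⟨A', hAc, hAe, hAcard⟩ := h2
      have hmem : ∀ a : A', Subgroup.inclusion hRS a.1 ∈ E₀ := by
        intro a
        rw [hE₀]
        refine ⟨?_, a.1.2⟩
        have := hAe a.1 a.2
        apply Subtype.ext
        have h3 := congrArg Subtype.val this
        simpa using h3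
      have hle : Nat.card A' ≤ Nat.card E₀ := by
        apply Nat.card_le_card_of_injective (fun a : A' => (⟨Subgroup.inclusion hRS a.1, hmem a⟩ : E₀))
        intro a a' h
        apply Subtype.ext
        apply Subtype.ext
        have := congrArg (fun x : E₀ => (x.1 : G)) h
        exact this
      have h4 : 2 ^ (r - 2) < 2 ^ j := by rw [← hj]; exact lt_of_lt_of_le hAcard hle
      have h5 : r - 2 < j := (Nat.pow_lt_pow_iff_right (by norm_num)).mp h4
      rw [hj]
      exact Nat.pow_le_pow_right (by norm_num) (by omega)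
  have hcE₀ : Nat.card E₀ = 2 ^ (r - 1) := le_antisymm hcE₀_le hcE₀_ge
  -- index two
  have hE₀E : E₀ ≤ E := inf_le_left
  have hidx : (E₀.subgroupOf E).index = 2 := by
    have h1 := (E₀.subgroupOf E).card_mul_index
    have h2 : Nat.card (E₀.subgroupOf E) = Nat.card E₀ :=
      Nat.card_congr (Subgroup.subgroupOfEquivOfLe hE₀E).toEquiv
    rw [h2, hcE₀, hcE] at h1
    have h3 : 2 ^ r = 2 ^ (r - 1) * 2 := by
      rw [← pow_succ]; congr 1; omega
    rw [h3] at h1
    exact Nat.eq_of_mul_eq_mul_left (by positivity) h1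
  have hmul : ∀ a ∈ E, ∀ b ∈ E, (a * b ∈ E₀ ↔ (a ∈ E₀ ↔ b ∈ E₀)) := by
    intro a ha b hb
    have := Subgroup.mul_mem_iff_of_index_two hidx (a := ⟨a, ha⟩) (b := ⟨b, hb⟩)
    simpa [Subgroup.mem_subgroupOf] using this
  -- transfer
  have hodd : Odd (S : Subgroup G).index := by
    rw [← Nat.not_even_iff_odd, even_iff_two_dvd]
    exact S.not_dvd_index
  have key : ∀ (x : G) (hx : x⁻¹ * t * x ∈ (S : Subgroup G)),
      (MonoidHom.id (S : Subgroup G)) ⟨x⁻¹ * t * x, hx⟩ ∈ E ∧
      (MonoidHom.id (S : Subgroup G)) ⟨x⁻¹ * t * x, hx⟩ ∉ E₀ := by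
    intro x hx
    show (⟨x⁻¹ * t * x, hx⟩ : (S : Subgroup G)) ∈ E ∧ (⟨x⁻¹ * t * x, hx⟩ : (S : Subgroup G)) ∉ E₀
    constructor
    · rw [hE]
      apply Subtype.ext
      show (x⁻¹ * t * x) ^ 2 = 1
      rw [pow_two]
      calc x⁻¹ * t * x * (x⁻¹ * t * x) = x⁻¹ * (t * t) * x := by group
        _ = 1 := by rw [htt]; group
    · intro hmem
      have hR : x⁻¹ * t * x ∈ R := ((hE₀ _).mp hmem).2
      obtain ⟨n, hn, hnx⟩ := S.conj_eq_normalizer_conj_of_mem t x htS hx
      have := hcon n⁻¹ (inv_mem hn)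
      rw [inv_inv, ← hnx] at this
      exact this hR
  have hV := transfer_inv_not_mem (MonoidHom.id (S : Subgroup G)) t htt hodd E E₀ hmul key
  have hV1 := no_index_two_hom_trivial hG hSp (MonoidHom.transfer (MonoidHom.id (S : Subgroup G))) t
  rw [hV1] at hV
  exact hV (one_mem _)

end Cfsg.Agent.S1244
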