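import Cfsg.Statements.S1247
import Cfsg.Agent.Helper9.Bend4

set_option autoImplicit false
open Cfsg

namespace Cfsg.Agent.S1247

open Cfsg.Agent.Helper9

theorem result {G : Type*} [Group G] [Finite G] [IsSimpleGroup G] (hna : ¬ IsMulCommutative G) (A : Subgroup G) (hA : IsCoatom A) (S : Subgroup G) (hSF : S ≤ (Cfsg.generalizedFittingSubgroup ↥A).map A.subtype) (hSsn : (S.subgroupOf ((Cfsg.generalizedFittingSubgroup ↥A).map A.subtype)).IsSubnormal) (hSC : (Cfsg.generalizedFittingSubgroup ↥A).map A.subtype ⊓ Subgroup.centralizer (S : Set G) ≤ S) (B : Subgroup G) (hSB : S ≤ B) : (∀ q : ℕ, q.Prime → ¬ q ∣ Nat.card (Cfsg.fittingSubgroup ↥A) → (Cfsg.pCore q ↥B).map B.subtype ⊓ A = ⊥) ∧ (∀ p : ℕ, p.Prime → p ∣ Nat.card (Cfsg.fittingSubgroup ↥A) → ∀ x ∈ (Cfsg.pCore p ↥B).map B.subtype, ∀ y ∈ (Cfsg.pResidual p ↥(Cfsg.generalizedFittingSubgroup ↥A)).map ((Cfsg.generalizedFittingSubgroup ↥A).subtype) , x * (A.subtype y) = (A.subtype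 y) * x) := by
  classical
  have hYn : ∀ p : ℕ, S ≤ Subgroup.normalizer
      (((Cfsg.pCore p ↥B).map B.subtype : Subgroup G) : Set G) := by
    intro p
    haveI := Cfsg.Agent.S0010.pCore_normal (G := ↥B) p
    exact hSB.trans (le_normalizer_map_subtype_h9 B (Cfsg.pCore p ↥B))
  have hSA : S ≤ A := hSF.trans (Subgroup.map_subtype_le _)
  refine ⟨?_, ?_⟩
  · intro q hq hqF
    haveI : Fact q.Prime := ⟨hq⟩
    have hYq : IsPGroup q ((Cfsg.pCore q ↥B).map B.subtype) :=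
      (Cfsg.Agent.S0010.pCore_isPGroup (G := ↥B) q).map B.subtype
    have hSN : S ≤ Subgroup.normalizer
        ((((Cfsg.pCore q ↥B).map B.subtype ⊓ A : Subgroup G)) : Set G) :=
      (le_inf (hYn q) (hSA.trans Subgroup.le_normalizer)).trans
        Subgroup.inf_normalizer_le_normalizer_inf
    exact (bender_transfer_h9 A S ((Cfsg.pCore q ↥B).map B.subtype ⊓ A) hSF hSsn hSC
      inf_le_right (hYq.to_le inf_le_left) hSN).2.2.2 hqF
  · intro p hp hpF x hx y hy
    haveI : Fact p.Prime := ⟨hp⟩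
    have hYp : IsPGroup p ((Cfsg.pCore p ↥B).map B.subtype) :=
      (Cfsg.Agent.S0010.pCore_isPGroup (G := ↥B) p).map B.subtype
    obtain ⟨h1, h2⟩ := bender_main_h9 A hA S _ hSF hSsn hSC hYp (hYn p) hpF
    exact bender_final_h9 A x (h1 x hx) (fun r hr hne => h2 r hr hne x hx) y hy

end Cfsg.Agent.S1247
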