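import Cfsg.Statements.S1258
import Mathlib
import Cfsg.Agent.Helper10.Layer

set_option autoImplicit false
open Cfsg
open scoped commutatorElement

namespace Cfsg.Agent.S1258

/-- If the central quotient of a finite group X is non-abelian simple, then X = X' Z(X) and the commutator subgroup X' is quasisimple. -/
theorem result {X : Type*} [Group X] [Finite X] (hs : IsSimpleGroup (X ⧸ Subgroup.center X)) (hna : ¬ IsMulCommutative (X ⧸ Subgroup.center X)) : commutator X ⊔ Subgroup.center X = ⊤ ∧ Cfsg.IsQuasisimple ↥(commutator X) := by
  have hZcomm : ∀ a ∈ commutator X, ∀ b ∈ Subgroup.center X, a * b = b * a := by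
    intro a _ b hb
    rw [Subgroup.mem_center_iff] at hb
    exact hb a
  have hZZ : ⁅Subgroup.center X, Subgroup.center X⁆ = ⊥ := by
    rw [Cfsg.Agent.Helper10.comm_bot_iff]
    intro a _ b hb
    rw [Subgroup.mem_center_iff] at hb
    exact hb a
  -- a normal subgroup of X is central or supplements the centre
  have hdichX : ∀ N : Subgroup X, N.Normal → N ≤ Subgroup.center X ∨ N ⊔ Subgroup.center X = ⊤ := by
    intro N hN
    have hmap : (N.map (QuotientGroup.mk' (Subgroup.center X))).Normal :=
      hN.map _ (QuotientGroup.mk'_surjective _)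
    rcases hmap.eq_bot_or_eq_top with h0 | h1
    · left
      rw [Subgroup.map_eq_bot_iff, QuotientGroup.ker_mk'] at h0
      exact h0
    · right
      have := congrArg (Subgroup.comap (QuotientGroup.mk' (Subgroup.center X))) h1
      rw [QuotientGroup.comap_map_mk', Subgroup.comap_top] at this
      rwa [sup_comm] at this
  -- the commutator subgroup is not central
  have hDnc : ¬ commutator X ≤ Subgroup.center X := by
    intro hle
    apply hna
    refine ⟨⟨fun a b => ?_⟩⟩
    induction a using QuotientGroup.induction_on with
    | H a =>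
      induction b using QuotientGroup.induction_on with
      | H b =>
        rw [← QuotientGroup.mk_mul, ← QuotientGroup.mk_mul, QuotientGroup.eq]
        apply hle
        rw [commutator_def]
        have : (a * b)⁻¹ * (b * a) = ⁅b⁻¹, a⁻¹⁆ := by
          rw [commutatorElement_def]; group
        rw [this]
        exact Subgroup.commutator_mem_commutator (Subgroup.mem_top _) (Subgroup.mem_top _)
  have hsup : commutator X ⊔ Subgroup.center X = ⊤ :=
    (hdichX (commutator X) inferInstance).resolve_left hDnc
  -- if N ⊔ Z = ⊤ then commutator X ≤ ⁅N, N⁆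
  have hcomm_le : ∀ N : Subgroup X, N ⊔ Subgroup.center X = ⊤ → commutator X ≤ ⁅N, N⁆ := by
    intro N hN
    have h1 := Cfsg.Agent.Helper10.commutator_sup_le_of_comm N (Subgroup.center X)
      (by
        intro a _ b hb
        rw [Subgroup.mem_center_iff] at hb
        exact hb a)
    rw [hN, hZZ, sup_bot_eq] at h1
    rw [commutator_def]
    exact h1
  refine ⟨hsup, ?_⟩
  apply Cfsg.Agent.Helper10.qs_of_dichotomy
  · -- perfect
    rw [← Subgroup.map_subtype_inj, Subgroup.map_subtype_commutator, ← MonoidHom.range_eq_map,
      Subgroup.range_subtype]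
    apply le_antisymm
    · rw [commutator_def]
      exact Subgroup.commutator_mono le_top le_top
    · exact hcomm_le _ hsup
  · rw [Subgroup.nontrivial_iff_ne_bot]
    intro hbot
    apply hDnc
    rw [hbot]
    exact bot_le
  · intro N hN
    -- N.map subtype is normal in X
    have hNX : (N.map (commutator X).subtype).Normal := by
      constructor
      rintro _ ⟨n, hn, rfl⟩ g
      have hg : g ∈ commutator X ⊔ Subgroup.center X := by rw [hsup]; trivial
      rw [← SetLike.mem_coe, Subgroup.mul_normal] at hg
      obtain ⟨d, hd, z, hz, rfl⟩ := hg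
      have hz' : ∀ y : X, z * y = y * z := by
        intro y
        rw [SetLike.mem_coe, Subgroup.mem_center_iff] at hz
        exact (hz y).symm
      refine ⟨⟨d, hd⟩ * n * ⟨d, hd⟩⁻¹, hN.conj_mem n hn ⟨d, hd⟩, ?_⟩
      show d * (n : X) * d⁻¹ = d * z * n * (d * z)⁻¹
      calc d * (n : X) * d⁻¹ = d * (n * z) * z⁻¹ * d⁻¹ := by group
        _ = d * (z * n) * z⁻¹ * d⁻¹ := by rw [hz' n]
        _ = d * z * n * (d * z)⁻¹ := by group
    rcases hdichX _ hNX with h1 | h2
    · right
      intro x hx
      rw [Subgroup.mem_center_iff]
      intro g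
      have hxz : (x : X) ∈ Subgroup.center X := h1 ⟨x, hx, rfl⟩
      rw [Subgroup.mem_center_iff] at hxz
      exact Subtype.ext (hxz g)
    · left
      have h3 := hcomm_le _ h2
      have h4 : ⁅N.map (commutator X).subtype, N.map (commutator X).subtype⁆ ≤
          N.map (commutator X).subtype :=
        (Subgroup.commutator_le_inf _ _).trans inf_le_left
      rw [eq_top_iff]
      intro x _
      obtain ⟨y, hy, hyx⟩ := h4 (h3 x.2)
      have : y = x := Subtype.ext hyx
      rw [← this]
      exact hy

end Cfsg.Agent.S1258
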