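import Cfsg.Statements.S1263
import Mathlib
import Cfsg.Agent.Helper10.Layer

set_option autoImplicit false
open Cfsg

namespace Cfsg.Agent.S1263

theorem aux {G : Type*} [Group G] [Finite G] (S : Finset (Subgroup G))
    (hS : ∀ K ∈ S, Cfsg.IsComponent K) :
    ∀ z ∈ ⨆ K ∈ S, K, (∀ K ∈ S, z ∈ Subgroup.centralizer (K : Set G)) →
      z ∈ ⨆ K ∈ S, (Subgroup.center ↥K).map K.subtype := by
  classical
  induction S using Finset.induction_on with
  | empty =>
    intro z hz _
    simp at hz ⊢
    exact hz
  | insert L S hL ih =>
    intro z hz hcen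
    rw [Finset.iSup_insert] at hz ⊢
    have hSc : ∀ K ∈ S, Cfsg.IsComponent K := fun K hK => hS K (Finset.mem_insert_of_mem hK)
    have hLc : Cfsg.IsComponent L := hS L (Finset.mem_insert_self L S)
    have hcomm : ∀ a ∈ L, ∀ b ∈ ⨆ K ∈ S, K, a * b = b * a := by
      intro a ha b hb
      have hle : (⨆ K ∈ S, K) ≤ Subgroup.centralizer {a} := by
        apply iSup₂_le
        intro K hK
        have hne : L ≠ K := fun h => hL (h ▸ hK)
        have := (Cfsg.Agent.Helper10.comp_eq_or_comm hLc (hSc K hK)).resolve_left hne
        rw [Cfsg.Agent.Helper10.comm_bot_iff] at this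
        intro k hk
        rw [Subgroup.mem_centralizer_iff]
        intro y hy
        rw [Set.mem_singleton_iff] at hy
        subst hy
        exact this y ha k hk
      have := hle hb
      rw [Subgroup.mem_centralizer_iff] at this
      exact this a rfl
    obtain ⟨l, hl, e, he, rfl⟩ := Cfsg.Agent.Helper10.mem_sup_of_comm hcomm hz
    have hlc : l ∈ (Subgroup.center ↥L).map L.subtype := by
      refine ⟨⟨l, hl⟩, ?_, rfl⟩
      rw [SetLike.mem_coe, Subgroup.mem_center_iff]
      intro m
      have h1 := hcen L (Finset.mem_insert_self L S)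
      rw [Subgroup.mem_centralizer_iff] at h1
      have h2 := h1 m m.2
      have h3 := hcomm m m.2 e he
      apply Subtype.ext
      show (m : G) * l = l * m
      have : (m : G) * l * e = l * m * e := by
        calc (m : G) * l * e = m * (l * e) := by group
          _ = l * e * m := h2
          _ = l * (e * m) := by group
          _ = l * (m * e) := by rw [h3]
          _ = l * m * e := by group
      exact mul_right_cancel this
    have hec : ∀ K ∈ S, e ∈ Subgroup.centralizer (K : Set G) := by
      intro K hK
      have h1 := hcen K (Finset.mem_insert_of_mem hK)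
      have hne : L ≠ K := fun h => hL (h ▸ hK)
      have h2 := (Cfsg.Agent.Helper10.comp_eq_or_comm hLc (hSc K hK)).resolve_left hne
      rw [Cfsg.Agent.Helper10.comm_bot_iff] at h2
      rw [Subgroup.mem_centralizer_iff] at h1 ⊢
      intro k hk
      have h3 := h1 k hk
      have h4 := h2 l hl k hk
      have : l * (k * e) = l * (e * k) := by
        calc l * (k * e) = (l * k) * e := by group
          _ = (k * l) * e := by rw [h4]
          _ = k * (l * e) := by group
          _ = l * e * k := h3
          _ = l * (e * k) := by group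
      exact mul_left_cancel this
    exact Subgroup.mul_mem _ (Subgroup.mem_sup_left hlc)
      (Subgroup.mem_sup_right (ih hSc e he hec))

/-- For a finite group G, Z(E(G)) is the subgroup generated by the centres Z(L) of the components L of G (all viewed as subgroups of G). -/
theorem result {G : Type*} [Group G] [Finite G] : (Subgroup.center ↥(Cfsg.layer G)).map (Cfsg.layer G).subtype = ⨆ L : {K : Subgroup G // Cfsg.IsComponent K}, (Subgroup.center ↥(L : Subgroup G)).map (L : Subgroup G).subtype := by
  classical
  have hfin : Set.Finite {K : Subgroup G | Cfsg.IsComponent K} := Set.toFinite _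
  apply le_antisymm
  · rintro _ ⟨z, hz, rfl⟩
    have hlay : Cfsg.layer G = ⨆ K ∈ hfin.toFinset, K := by
      unfold Cfsg.layer
      rw [sSup_eq_iSup]
      simp
    have hzE : (z : G) ∈ ⨆ K ∈ hfin.toFinset, K := by
      rw [← hlay]; exact z.2
    have hcen : ∀ K ∈ hfin.toFinset, (z : G) ∈ Subgroup.centralizer (K : Set G) := by
      intro K hK
      rw [Set.Finite.mem_toFinset] at hK
      rw [Subgroup.mem_centralizer_iff]
      intro k hk
      rw [SetLike.mem_coe, Subgroup.mem_center_iff] at hz
      have := hz ⟨k, Cfsg.Agent.Helper10.comp_le_layer hK hk⟩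
      exact congrArg Subtype.val this
    have h := aux hfin.toFinset (fun K hK => (Set.Finite.mem_toFinset hfin).mp hK) z hzE hcen
    refine (?_ : (⨆ K ∈ hfin.toFinset, (Subgroup.center ↥K).map K.subtype) ≤ _) h
    apply iSup₂_le
    intro K hK
    rw [Set.Finite.mem_toFinset] at hK
    exact le_iSup (fun L : {K : Subgroup G // Cfsg.IsComponent K} =>
      (Subgroup.center ↥(L : Subgroup G)).map (L : Subgroup G).subtype) ⟨K, hK⟩
  · apply iSup_le
    rintro ⟨L, hL⟩
    rintro _ ⟨c, hc, rfl⟩
    refine ⟨⟨c, Cfsg.Agent.Helper10.comp_le_layer hL c.2⟩, ?_, rfl⟩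
    rw [SetLike.mem_coe, Subgroup.mem_center_iff]
    intro g
    apply Subtype.ext
    show (g : G) * c = c * g
    have hle : Cfsg.layer G ≤ Subgroup.centralizer {(c : G)} := by
      apply sSup_le
      intro K hK k hk
      rw [Subgroup.mem_centralizer_iff]
      intro y hy
      rw [Set.mem_singleton_iff] at hy
      subst hy
      rcases Cfsg.Agent.Helper10.comp_eq_or_comm hL hK with h | h
      · subst h
        rw [SetLike.mem_coe, Subgroup.mem_center_iff] at hc
        have := hc ⟨k, hk⟩
        exact (congrArg Subtype.val this).symm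
      · rw [Cfsg.Agent.Helper10.comm_bot_iff] at h
        exact h c c.2 k hk
    have := hle g.2
    rw [Subgroup.mem_centralizer_iff] at this
    exact (this c rfl).symm

end Cfsg.Agent.S1263
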