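import Cfsg.Statements.S1264
import Mathlib
import Cfsg.Agent.Helper10.Layer

set_option autoImplicit false
open Cfsg

namespace Cfsg.Agent.S1264

/-- Let G be finite, C = C_G(F(G)) the centralizer of the Fitting subgroup, and N a solvable subgroup of C normalized by C. Then N ≤ Z(F(G)). -/
theorem result {G : Type*} [Group G] [Finite G] (N : Subgroup G) (hN : N ≤ Subgroup.centralizer (Cfsg.fittingSubgroup G : Set G)) (hnorm : Subgroup.centralizer (Cfsg.fittingSubgroup G : Set G) ≤ Subgroup.normalizer (N : Set G)) (hsolv : Group.IsSolvable ↥N) : N ≤ (Subgroup.center ↥(Cfsg.fittingSubgroup G)).map (Cfsg.fittingSubgroup G).subtype := by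
  have hFn : (Cfsg.fittingSubgroup G).Normal := Cfsg.Agent.Helper10.fitting_normal G
  have hCn : (Subgroup.centralizer (Cfsg.fittingSubgroup G : Set G)).Normal :=
    Subgroup.normal_centralizer
  have hZ : ∀ x, x ∈ Cfsg.fittingSubgroup G →
      x ∈ Subgroup.centralizer (Cfsg.fittingSubgroup G : Set G) →
      x ∈ (Subgroup.center ↥(Cfsg.fittingSubgroup G)).map (Cfsg.fittingSubgroup G).subtype := by
    intro x hxF hxC
    refine ⟨⟨x, hxF⟩, ?_, rfl⟩
    rw [SetLike.mem_coe, Subgroup.mem_center_iff]
    intro g
    rw [Subgroup.mem_centralizer_iff] at hxC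
    exact Subtype.ext (hxC g g.2)
  have key : ∀ k, (derivedSeries ↥N (k + 1)).map N.subtype ≤
        (Subgroup.center ↥(Cfsg.fittingSubgroup G)).map (Cfsg.fittingSubgroup G).subtype →
      (derivedSeries ↥N k).map N.subtype ≤
        (Subgroup.center ↥(Cfsg.fittingSubgroup G)).map (Cfsg.fittingSubgroup G).subtype := by
    intro k hk
    have hAN : (derivedSeries ↥N k).map N.subtype ≤ N := Subgroup.map_subtype_le _
    have hAC : (derivedSeries ↥N k).map N.subtype ≤
        Subgroup.centralizer (Cfsg.fittingSubgroup G : Set G) := hAN.trans hN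
    have hchar : (derivedSeries ↥N k).Characteristic := derivedSeries_characteristic _ k
    have hAnorm : Subgroup.centralizer (Cfsg.fittingSubgroup G : Set G) ≤
        Subgroup.normalizer (((derivedSeries ↥N k).map N.subtype : Subgroup G) : Set G) :=
      hnorm.trans (Cfsg.Agent.Helper10.char_normalizer' N (derivedSeries ↥N k))
    have hAsub : ((derivedSeries ↥N k).map N.subtype).IsSubnormal :=
      Subgroup.IsSubnormal.trans hAC
        ((Subgroup.normal_subgroupOf_iff_le_normalizer hAC).mpr hAnorm).isSubnormal
        hCn.isSubnormal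
    have hAnil : Group.IsNilpotent ((derivedSeries ↥N k).map N.subtype) := by
      apply Cfsg.Agent.Helper10.nilpotent_of_commutator_le_center
      intro x hx
      rw [Subgroup.mem_center_iff]
      intro a
      have hx' : (x : G) ∈ ⁅(derivedSeries ↥N k).map N.subtype,
          (derivedSeries ↥N k).map N.subtype⁆ := by
        rw [← Subgroup.map_subtype_commutator]
        exact ⟨x, hx, rfl⟩
      have hx'' : (x : G) ∈ (Subgroup.center ↥(Cfsg.fittingSubgroup G)).map
          (Cfsg.fittingSubgroup G).subtype := by
        apply hk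
        rw [derivedSeries_succ, Subgroup.map_commutator]
        exact hx'
      have hxF : (x : G) ∈ Cfsg.fittingSubgroup G := Subgroup.map_subtype_le _ hx''
      have haC := hAC a.2
      rw [Subgroup.mem_centralizer_iff] at haC
      exact Subtype.ext (haC _ hxF).symm
    have hAF := Cfsg.Agent.Helper10.subnormal_nilpotent_le_fitting _ hAsub hAnil
    intro x hx
    exact hZ x (hAF hx) (hAC hx)
  obtain ⟨n, hn⟩ := hsolv.solvable
  have all : ∀ k, k ≤ n → (derivedSeries ↥N (n - k)).map N.subtype ≤
      (Subgroup.center ↥(Cfsg.fittingSubgroup G)).map (Cfsg.fittingSubgroup G).subtype := by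
    intro k
    induction k with
    | zero => intro _; simp [hn]
    | succ k ih =>
      intro hk
      apply key
      have e : n - (k + 1) + 1 = n - k := by omega
      rw [e]
      exact ih (by omega)
  have h0 := all n le_rfl
  rw [Nat.sub_self, derivedSeries_zero, ← MonoidHom.range_eq_map, Subgroup.range_subtype] at h0
  exact h0

end Cfsg.Agent.S1264
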