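import Cfsg.Statements.S1266
import Mathlib
import Cfsg.Agent.Helper10.NormP

set_option autoImplicit false
open Cfsg
open Cfsg.Agent.Helper10

namespace Cfsg.Agent.S1266

/-- Let P be a p-subgroup of the finite group G and N = N_G(P). Then the preimage in N of E(N / O_{p'}(N)) centralizes O_p(G). -/
theorem result {G : Type*} [Group G] [Finite G] (p : ℕ) [Fact p.Prime] (P : Subgroup G) (hP : IsPGroup p ↥P) : (((Cfsg.layer (↥(Subgroup.normalizer ((P : Subgroup G) : Set G)) ⧸ Cfsg.pPrimeCore p ↥(Subgroup.normalizer ((P : Subgroup G) : Set G)))).comap (QuotientGroup.mk' (Cfsg.pPrimeCore p ↥(Subgroup.normalizer ((P : Subgroup G) : Set G))))).map (Subgroup.normalizer ((P : Subgroup G) : Set G)).subtype) ≤ Subgroup.centralizer (Cfsg.pCore p G : Set G) := by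
  have hRn : (pCore p G).Normal := Cfsg.Agent.S0010.pCore_normal p
  have hR : IsPGroup p (pCore p G) := Cfsg.Agent.S0010.pCore_isPGroup p
  have hNR : Subgroup.normalizer (P : Set G) ≤
      Subgroup.normalizer ((pCore p G : Subgroup G) : Set G) := by
    rw [Subgroup.normalizer_eq_top (pCore p G)]; exact le_top
  rw [← pLayer_map, Subgroup.comap_map_eq, QuotientGroup.ker_mk', Subgroup.map_sup]
  apply sup_le
  · rw [Subgroup.map_le_iff_le_comap]
    apply sSup_le
    intro K hK
    rw [← Subgroup.map_le_iff_le_comap, ← Subgroup.commutator_eq_bot_iff_le_centralizer,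
      Subgroup.commutator_comm]
    exact perfect_normalizer_comm p P _ hP hR hNR K (pComponent_perfect p hK)
      (fun U hU hUp => pComponent_comm_normal_pGroup p hK hU hUp)
  · rw [← Subgroup.commutator_eq_bot_iff_le_centralizer, Subgroup.commutator_comm]
    exact pPrimeCore_normalizer_comm p P _ hP hR hNR

end Cfsg.Agent.S1266
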