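import Cfsg.Statements.S1267
import Mathlib
import Cfsg.Agent.Helper10.NormP

set_option autoImplicit false
open Cfsg
open Cfsg.Agent.Helper10

namespace Cfsg.Agent.S1267

/-- Let G be finite and P ≤ O_p(G). Then E(N_G(P)) = E(G). -/
theorem result {G : Type*} [Group G] [Finite G] (p : ℕ) [Fact p.Prime] (P : Subgroup G) (hP : P ≤ Cfsg.pCore p G) : (Cfsg.layer ↥(Subgroup.normalizer ((P : Subgroup G) : Set G))).map (Subgroup.normalizer ((P : Subgroup G) : Set G)).subtype = Cfsg.layer G := by
  have hRn : (pCore p G).Normal := Cfsg.Agent.S0010.pCore_normal p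
  have hR : IsPGroup p (pCore p G) := Cfsg.Agent.S0010.pCore_isPGroup p
  have hNR : Subgroup.normalizer (P : Set G) ≤
      Subgroup.normalizer ((pCore p G : Subgroup G) : Set G) := by
    rw [Subgroup.normalizer_eq_top (pCore p G)]; exact le_top
  have hPp : IsPGroup p P := hR.to_le hP
  apply le_antisymm
  · rw [Subgroup.map_le_iff_le_comap]
    apply sSup_le
    intro K hK
    rw [← Subgroup.map_le_iff_le_comap]
    apply comp_le_layer
    have h1 := perfect_normalizer_comm p P _ hPp hR hNR K (comp_perfect hK)
      (fun U hU hUp => comp_comm_normal_pGroup p hK hU hUp)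
    rw [Subgroup.commutator_comm, Subgroup.commutator_eq_bot_iff_le_centralizer] at h1
    have hCN : Subgroup.centralizer (pCore p G : Set G) ≤ Subgroup.normalizer (P : Set G) :=
      (Subgroup.centralizer_le hP).trans (Subgroup.centralizer_le_normalizer _)
    have hCnormal : (Subgroup.centralizer (pCore p G : Set G)).Normal :=
      Subgroup.normal_centralizer
    refine ⟨?_, qs_of_equiv (K.equivMapOfInjective _ (Subgroup.subtype_injective _)) hK.2⟩
    apply Subgroup.IsSubnormal.trans h1 _ hCnormal.isSubnormal
    have e : (K.map (Subgroup.normalizer (P : Set G)).subtype).subgroupOf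
        (Subgroup.centralizer (pCore p G : Set G)) =
        ((K.map (Subgroup.normalizer (P : Set G)).subtype).subgroupOf
          (Subgroup.normalizer (P : Set G))).comap (Subgroup.inclusion hCN) := by
      ext x; rfl
    rw [e]
    apply Subgroup.IsSubnormal.comap
    have e2 : (K.map (Subgroup.normalizer (P : Set G)).subtype).subgroupOf
        (Subgroup.normalizer (P : Set G)) = K :=
      Subgroup.comap_map_eq_self_of_injective (Subgroup.subtype_injective _) K
    rw [e2]; exact hK.1
  · apply sSup_le
    intro L hL
    have h1 : ⁅L, fittingSubgroup G⁆ = ⊥ := by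
      rw [eq_bot_iff, ← layer_comm_fitting G]
      exact Subgroup.commutator_mono (comp_le_layer hL) le_rfl
    have hPF : P ≤ fittingSubgroup G := hP.trans (le_sSup ⟨hRn, hR.isNilpotent⟩)
    have hLN : L ≤ Subgroup.normalizer (P : Set G) := by
      have : L ≤ Subgroup.centralizer (P : Set G) :=
        (Subgroup.commutator_eq_bot_iff_le_centralizer.mp h1).trans (Subgroup.centralizer_le hPF)
      exact this.trans (Subgroup.centralizer_le_normalizer _)
    have := comp_le_layer (comp_subgroupOf hL hLN)
    calc L = (L.subgroupOf (Subgroup.normalizer (P : Set G))).map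
          (Subgroup.normalizer (P : Set G)).subtype :=
          (Subgroup.map_subgroupOf_eq_of_le hLN).symm
      _ ≤ (layer (Subgroup.normalizer (P : Set G))).map
          (Subgroup.normalizer (P : Set G)).subtype := Subgroup.map_mono this

end Cfsg.Agent.S1267
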