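import Cfsg.Statements.S1268
import Mathlib
import Cfsg.Agent.Helper10.NormP

set_option autoImplicit false
open Cfsg
open Cfsg.Agent.Helper10

namespace Cfsg.Agent.S1268

/-- Let G be finite with F*(G) = O_p(G). Then F*(N) = O_p(N) for N the normalizer of any p-subgroup P of G. -/
theorem result {G : Type*} [Group G] [Finite G] (p : ℕ) [Fact p.Prime] (h : Cfsg.generalizedFittingSubgroup G = Cfsg.pCore p G) (P : Subgroup G) (hP : IsPGroup p ↥P) : Cfsg.generalizedFittingSubgroup ↥(Subgroup.normalizer ((P : Subgroup G) : Set G)) = Cfsg.pCore p ↥(Subgroup.normalizer ((P : Subgroup G) : Set G)) := by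
  have hRn : (pCore p G).Normal := Cfsg.Agent.S0010.pCore_normal p
  have hR : IsPGroup p (pCore p G) := Cfsg.Agent.S0010.pCore_isPGroup p
  have hNR : Subgroup.normalizer (P : Set G) ≤
      Subgroup.normalizer ((pCore p G : Subgroup G) : Set G) := by
    rw [Subgroup.normalizer_eq_top (pCore p G)]; exact le_top
  have hcent : Subgroup.centralizer (pCore p G : Set G) ≤ pCore p G := by
    have := centralizer_gfitting_le G
    rwa [h] at this
  have hO : pPrimeCore p (Subgroup.normalizer (P : Set G)) = ⊥ := by
    have h1 := pPrimeCore_normalizer_comm p P _ hP hR hNR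
    rw [Subgroup.commutator_comm, Subgroup.commutator_eq_bot_iff_le_centralizer] at h1
    have h2 := h1.trans hcent
    have h3 : (pPrimeCore p (Subgroup.normalizer (P : Set G))).map
        (Subgroup.normalizer (P : Set G)).subtype = ⊥ := by
      have hWc : (Nat.card ((pPrimeCore p (Subgroup.normalizer (P : Set G))).map
          (Subgroup.normalizer (P : Set G)).subtype)).Coprime p := by
        rw [Subgroup.card_map_of_injective (Subgroup.subtype_injective _)]
        exact pPrimeCore_coprime p _
      rw [eq_bot_iff, ← inf_eq_bot_of_pGroup_coprime hR (coprime_of_card_coprime _ hWc)]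
      exact le_inf h2 le_rfl
    exact (Subgroup.map_eq_bot_iff_of_injective _ (Subgroup.subtype_injective _)).mp h3
  have hL : layer (Subgroup.normalizer (P : Set G)) = ⊥ := by
    rw [eq_bot_iff]
    apply sSup_le
    intro K hK
    exfalso
    have h1 := perfect_normalizer_comm p P _ hP hR hNR K (comp_perfect hK)
      (fun U hU hUp => comp_comm_normal_pGroup p hK hU hUp)
    rw [Subgroup.commutator_comm, Subgroup.commutator_eq_bot_iff_le_centralizer] at h1
    have h2 := h1.trans hcent
    have hsolv : Group.IsSolvable ((pCore p G).subgroupOf (Subgroup.normalizer (P : Set G))) :=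
      solvable_of_pGroup hR.comap_subtype
    exact comp_not_le_solvable hK hsolv (Subgroup.map_le_iff_le_comap.mp h2)
  unfold generalizedFittingSubgroup
  rw [hL, bot_sup_eq, fitting_eq_pCore_of_pPrimeCore_bot p hO]

end Cfsg.Agent.S1268
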