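import Cfsg.Statements.S1276
import Mathlib
import Cfsg.Agent.Helper10.PComp2

set_option autoImplicit false
open Cfsg

namespace Cfsg.Agent.S1276

/-- Let K be a 2-component of the finite group X. Then K is quasisimple if and only if ⁅K, O(K)⁆ = 1. -/
theorem result {X : Type*} [Group X] [Finite X] (K : Subgroup X) (hK : Cfsg.IsPComponent 2 K) : Cfsg.IsQuasisimple ↥K ↔ ⁅K, ((Cfsg.oddCore ↥K).map K.subtype)⁆ = ⊥ := by
  rw [Cfsg.Agent.Helper10.pComponent_qs_iff 2 hK, Cfsg.Agent.Helper10.comm_bot_iff]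
  constructor
  · rintro h a ha _ ⟨z, hz, rfl⟩
    have := Subgroup.mem_center_iff.mp (h hz) ⟨a, ha⟩
    exact congrArg Subtype.val this
  · intro h z hz
    rw [Subgroup.mem_center_iff]
    intro k
    exact Subtype.ext (h k k.2 z ⟨z, hz, rfl⟩)

end Cfsg.Agent.S1276
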