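import Cfsg.Statements.S1277
import Mathlib
import Cfsg.Agent.Helper10.PComp2

set_option autoImplicit false
open Cfsg

namespace Cfsg.Agent.S1277

/-- For a finite group X with core O(X): the image of E(X) in X / O(X) is all of E(X / O(X)) if and only if every 2-component of X is a component, i.e. L_{2'}(X) ≤ E(X). -/
theorem result {X : Type*} [Group X] [Finite X] : (Cfsg.layer X).map (QuotientGroup.mk' (Cfsg.oddCore X)) = Cfsg.layer (X ⧸ Cfsg.oddCore X) ↔ Cfsg.pLayer 2 X ≤ Cfsg.layer X := by
  constructor
  · intro h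
    apply sSup_le
    intro K hK
    have hle : K.map (QuotientGroup.mk' (pPrimeCore 2 X)) ≤
        (layer X).map (QuotientGroup.mk' (pPrimeCore 2 X)) := by
      rw [h]; exact Cfsg.Agent.Helper10.comp_le_layer hK.2.1
    obtain ⟨L, hL, hLK⟩ := Cfsg.Agent.Helper10.exists_comp_map_eq
      (QuotientGroup.mk' (pPrimeCore 2 X)) (QuotientGroup.mk'_surjective _) hK.2.1 hle
    have hLp : IsPComponent 2 L := Cfsg.Agent.Helper10.comp_isPComponent_of_map 2 hL (hLK ▸ hK.2.1)
    have : L = K := Cfsg.Agent.Helper10.pComponent_unique 2 hLp hK hLK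
    rw [← this]; exact Cfsg.Agent.Helper10.comp_le_layer hL
  · intro h
    apply le_antisymm
    · rw [Subgroup.map_le_iff_le_comap]
      apply sSup_le
      intro L hL
      rw [← Subgroup.map_le_iff_le_comap]
      rcases Cfsg.Agent.Helper10.comp_map_of_surjective (QuotientGroup.mk' (pPrimeCore 2 X))
        (QuotientGroup.mk'_surjective _) hL with h' | h'
      · rw [h']; exact bot_le
      · exact Cfsg.Agent.Helper10.comp_le_layer h'
    · rw [← Cfsg.Agent.Helper10.pLayer_map 2]
      exact Subgroup.map_mono h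

end Cfsg.Agent.S1277
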