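import Cfsg.Statements.S1279
import Mathlib
import Cfsg.Agent.Helper10.PLocal

set_option autoImplicit false
open Cfsg
open Cfsg.Agent.Helper10

namespace Cfsg.Agent.S1279

/-- Let A be a noncyclic elementary abelian p-subgroup of the finite group G such that C_G(a) is solvable for every non-identity a ∈ A. Then a ↦ O_{p'}(C_G(a)) is a solvable A-signalizer functor on G. -/
theorem result {G : Type*} [Group G] [Finite G] (p : ℕ) [Fact p.Prime] (A : Subgroup G) (hA : Cfsg.IsElementaryAbelian p A) (hA2 : p ^ 2 ≤ Nat.card ↥A) (hsolv : ∀ a ∈ A, a ≠ 1 → Group.IsSolvable ↥(Subgroup.centralizer ({a} : Set G))) : Cfsg.IsSolvableSignalizerFunctor p A (fun a => Cfsg.centralizerPPrimeCore p a) := by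
  have hcommA : ∀ a ∈ A, ∀ b ∈ A, a * b = b * a := by
    intro a ha b hb
    have := hA.1.is_comm.comm ⟨a, ha⟩ ⟨b, hb⟩
    exact congrArg Subtype.val this
  have hle : ∀ a : G, centralizerPPrimeCore p a ≤ Subgroup.centralizer ({a} : Set G) := by
    intro a; rintro _ ⟨c, _, rfl⟩; exact c.2
  have hcop : ∀ a : G, (Nat.card (centralizerPPrimeCore p a)).Coprime p := by
    intro a
    unfold centralizerPPrimeCore
    rw [Subgroup.card_map_of_injective (Subgroup.subtype_injective _)]
    exact pPrimeCore_coprime p _
  have hnorm : ∀ a : G, Subgroup.centralizer ({a} : Set G) ≤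
      Subgroup.normalizer ((centralizerPPrimeCore p a : Subgroup G) : Set G) :=
    fun a => le_normalizer_map_subtype _ _
  have hmemC : ∀ a b : G, a * b = b * a → b ∈ Subgroup.centralizer ({a} : Set G) := by
    intro a b hab
    rw [Subgroup.mem_centralizer_iff]
    intro h hh
    rw [Set.mem_singleton_iff] at hh
    rw [hh]; exact hab
  refine ⟨⟨fun a _ _ => hle a, ?_, ?_, ?_⟩, ?_⟩
  · intro a _ _
    exact (Nat.Prime.coprime_iff_not_dvd Fact.out).mp (hcop a).symm
  · intro a ha ha1 b hb x hx
    exact (Subgroup.mem_normalizer_iff.mp (hnorm a (hmemC a b (hcommA a ha b hb))) x).mp hx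
  · intro a ha ha1 b hb hb1
    have hsolvH : Group.IsSolvable (Subgroup.centralizer ({b} : Set G)) := hsolv b hb hb1
    have hLH : pLayer p (Subgroup.centralizer ({b} : Set G)) = ⊥ :=
      pLayer_eq_bot_of_solvable p hsolvH
    have haH : a ∈ Subgroup.centralizer ({b} : Set G) := hmemC b a (hcommA b hb a ha)
    have horder : orderOf (⟨a, haH⟩ : Subgroup.centralizer ({b} : Set G)) = p :=
      orderOf_eq_prime (Subtype.ext (by simpa using hA.2 a ha))
        (fun h => ha1 (congrArg Subtype.val h))
    have hPp : IsPGroup p (Subgroup.zpowers (⟨a, haH⟩ : Subgroup.centralizer ({b} : Set G))) :=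
      IsPGroup.of_card (n := 1) (by rw [Nat.card_zpowers, horder, pow_one])
    have hW : ∀ w ∈ (centralizerPPrimeCore p a ⊓ Subgroup.centralizer ({b} : Set G)).subgroupOf
        (Subgroup.centralizer ({b} : Set G)), (orderOf w).Coprime p := by
      intro w hw
      have h1 : (w : G) ∈ centralizerPPrimeCore p a := (Subgroup.mem_inf.mp hw).1
      have := Nat.Coprime.coprime_dvd_left
        ((centralizerPPrimeCore p a).orderOf_dvd_natCard h1) (hcop a)
      rwa [Subgroup.orderOf_coe] at this
    have hstep : ∀ c : Subgroup.centralizer ({b} : Set G),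
        (c : G) ∈ Subgroup.normalizer ((centralizerPPrimeCore p a : Subgroup G) : Set G) →
        c ∈ Subgroup.normalizer
          (((centralizerPPrimeCore p a ⊓ Subgroup.centralizer ({b} : Set G)).subgroupOf
            (Subgroup.centralizer ({b} : Set G)) : Subgroup _) : Set _) := by
      intro c hc
      rw [Subgroup.mem_normalizer_iff]
      intro w
      have hn := Subgroup.mem_normalizer_iff.mp hc (w : G)
      constructor
      · intro hw
        obtain ⟨h1, h2⟩ := Subgroup.mem_inf.mp (Subgroup.mem_subgroupOf.mp hw)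
        exact Subgroup.mem_subgroupOf.mpr (Subgroup.mem_inf.mpr ⟨hn.mp h1, (c * w * c⁻¹).2⟩)
      · intro hw
        obtain ⟨h1, h2⟩ := Subgroup.mem_inf.mp (Subgroup.mem_subgroupOf.mp hw)
        exact Subgroup.mem_subgroupOf.mpr (Subgroup.mem_inf.mpr ⟨hn.mpr h1, w.2⟩)
    have hcentz : ∀ c : Subgroup.centralizer ({b} : Set G),
        c ∈ Subgroup.centralizer ((Subgroup.zpowers
          (⟨a, haH⟩ : Subgroup.centralizer ({b} : Set G)) : Subgroup _) : Set _) ↔
        a * (c : G) = (c : G) * a := by
      intro c
      rw [Subgroup.zpowers_eq_closure, Subgroup.centralizer_closure,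
        Subgroup.mem_centralizer_iff]
      constructor
      · intro h; exact congrArg Subtype.val (h _ rfl)
      · intro h x hx
        rw [Set.mem_singleton_iff] at hx
        rw [hx]; exact Subtype.ext h
    have key := le_pPrimeCore_of_pLayer_bot p hLH
      (Subgroup.zpowers (⟨a, haH⟩ : Subgroup.centralizer ({b} : Set G)))
      ((centralizerPPrimeCore p a ⊓ Subgroup.centralizer ({b} : Set G)).subgroupOf
        (Subgroup.centralizer ({b} : Set G))) hPp hW ?_ ?_ ?_
    · intro x hx
      obtain ⟨hxθ, hxH⟩ := Subgroup.mem_inf.mp hx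
      have := key (show (⟨x, hxH⟩ : Subgroup.centralizer ({b} : Set G)) ∈
        (centralizerPPrimeCore p a ⊓ Subgroup.centralizer ({b} : Set G)).subgroupOf
          (Subgroup.centralizer ({b} : Set G)) from hx)
      exact ⟨⟨x, hxH⟩, this, rfl⟩
    · intro w hw
      apply Subgroup.centralizer_le_normalizer
      rw [hcentz]
      have h1 : (w : G) ∈ centralizerPPrimeCore p a := (Subgroup.mem_inf.mp hw).1
      exact Subgroup.mem_centralizer_iff.mp (hle a h1) a rfl
    · rw [Subgroup.zpowers_le]
      exact hstep _ (hnorm a (hmemC a a rfl))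
    · intro c hc
      rw [hcentz] at hc
      exact hstep c (hnorm a (hmemC a _ hc))
  · intro a ha ha1
    have hsolvH : Group.IsSolvable (Subgroup.centralizer ({a} : Set G)) := hsolv a ha ha1
    have h1 : Group.IsSolvable (pPrimeCore p (Subgroup.centralizer ({a} : Set G))) :=
      inferInstance
    exact Group.isSolvable_of_surjective
      ((Subgroup.centralizer ({a} : Set G)).subtype.subgroupMap_surjective
        (pPrimeCore p (Subgroup.centralizer ({a} : Set G))))

end Cfsg.Agent.S1279
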