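import Cfsg.Statements.S1281
import Mathlib
import Cfsg.Agent.Helper10.Coprime

set_option autoImplicit false
open Cfsg

namespace Cfsg.Agent.S1281

/-- Let θ be a solvable A-signalizer functor on the finite group G (A a noncyclic elementary abelian p-subgroup) and N a normal subgroup of order prime to p. Then for all non-identity a, b ∈ A, the image of θ a in G / N meets the centralizer of the image of b inside the image of θ b. -/
theorem result {G : Type*} [Group G] [Finite G] (p : ℕ) [Fact p.Prime] (A : Subgroup G) (hA : Cfsg.IsElementaryAbelian p A) (hA2 : p ^ 2 ≤ Nat.card ↥A) (θ : G → Subgroup G) (hθ : Cfsg.IsSolvableSignalizerFunctor p A θ) (N : Subgroup G) [N.Normal] (hN : ¬ p ∣ Nat.card ↥N) (a b : G) (ha : a ∈ A) (ha1 : a ≠ 1) (hb : b ∈ A) (hb1 : b ≠ 1) : (θ a).map (QuotientGroup.mk' N) ⊓ Subgroup.centralizer {QuotientGroup.mk' N b} ≤ (θ b).map (QuotientGroup.mk' N) := by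
  obtain ⟨⟨hθ1, hθ2, hθ3, hθ4⟩, hθs⟩ := hθ
  intro g hg
  obtain ⟨⟨x, hx, rfl⟩, hgb⟩ := Subgroup.mem_inf.mp hg
  have hgb' : QuotientGroup.mk' N b * QuotientGroup.mk' N x =
      QuotientGroup.mk' N x * QuotientGroup.mk' N b :=
    Subgroup.mem_centralizer_iff.mp hgb _ rfl
  have hbp : b ^ p = 1 := hA.2 b hb
  have hDp : ¬ p ∣ Nat.card (N ⊓ θ a : Subgroup G) :=
    fun h => hN (h.trans (Subgroup.card_dvd_of_le inf_le_left))
  have hinv : ∀ d ∈ N ⊓ θ a, x⁻¹ * (b * (x * d) * b⁻¹) ∈ N ⊓ θ a := by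
    intro d hd
    obtain ⟨hdN, hdθ⟩ := Subgroup.mem_inf.mp hd
    refine Subgroup.mem_inf.mpr ⟨?_, (θ a).mul_mem ((θ a).inv_mem hx)
      (hθ3 a ha ha1 b hb _ ((θ a).mul_mem hx hdθ))⟩
    rw [← QuotientGroup.eq_one_iff (N := N)]
    show QuotientGroup.mk' N (x⁻¹ * (b * (x * d) * b⁻¹)) = 1
    have hd1 : QuotientGroup.mk' N d = 1 := (QuotientGroup.eq_one_iff d).mpr hdN
    rw [map_mul, map_mul, map_mul, map_mul, map_inv, map_inv, hd1, mul_one, hgb']
    group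
  obtain ⟨d, hd, hfix⟩ := Cfsg.Agent.Helper10.exists_conj_fixed_coset b x hbp (N ⊓ θ a) hDp hinv
  obtain ⟨hdN, hdθ⟩ := Subgroup.mem_inf.mp hd
  have hs : x * d ∈ θ b := hθ4 a ha ha1 b hb hb1 (Subgroup.mem_inf.mpr
    ⟨(θ a).mul_mem hx hdθ, by
    rw [Subgroup.mem_centralizer_iff]; intro h hh; rw [Set.mem_singleton_iff] at hh; rw [hh]
    exact mul_inv_eq_iff_eq_mul.mp hfix⟩)
  have hd1 : QuotientGroup.mk' N d = 1 := (QuotientGroup.eq_one_iff d).mpr hdN
  refine ⟨x * d, hs, ?_⟩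
  rw [map_mul, hd1, mul_one]

end Cfsg.Agent.S1281
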