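import Cfsg.Statements.S1282
import Mathlib
import Cfsg.Agent.Helper10.CopGen

set_option autoImplicit false
open Cfsg
open Cfsg.Agent.Helper10

namespace Cfsg.Agent.S1282

/-- Let A be an elementary abelian p-subgroup of rank at least 3 of the finite group G, q ≠ p a prime, and Q₁, Q₂ q-subgroups normalized by A with D = Q₁ ∩ Q₂ different from both. Then there is a non-identity a ∈ A such that, for i = 1 and i = 2, N_{Q_i}(D) ∩ C_G(a) is not contained in D. -/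
theorem result {G : Type*} [Group G] [Finite G] (p : ℕ) [Fact p.Prime] (A : Subgroup G) (hA : Cfsg.IsElementaryAbelian p A) (hA3 : p ^ 3 ≤ Nat.card ↥A) (q : ℕ) [Fact q.Prime] (hqp : q ≠ p) (Q₁ Q₂ : Subgroup G) (h₁ : IsPGroup q ↥Q₁) (h₂ : IsPGroup q ↥Q₂) (hA₁ : A ≤ Subgroup.normalizer (Q₁ : Set G)) (hA₂ : A ≤ Subgroup.normalizer (Q₂ : Set G)) (hD₁ : Q₁ ⊓ Q₂ ≠ Q₁) (hD₂ : Q₁ ⊓ Q₂ ≠ Q₂) : ∃ a ∈ A, a ≠ 1 ∧ ¬ (Subgroup.normalizer ((Q₁ ⊓ Q₂ : Subgroup G) : Set G) ⊓ Q₁ ⊓ Subgroup.centralizer {a} ≤ Q₁ ⊓ Q₂) ∧ ¬ (Subgroup.normalizer ((Q₁ ⊓ Q₂ : Subgroup G) : Set G) ⊓ Q₂ ⊓ Subgroup.centralizer {a} ≤ Q₁ ⊓ Q₂) := by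
  have hAD : A ≤ Subgroup.normalizer ((Q₁ ⊓ Q₂ : Subgroup G) : Set G) := le_normalizer_inf hA₁ hA₂
  obtain ⟨B₁, hB₁A, hB₁p, hB₁⟩ := exists_hyperplane_centralizer_not_le p q hqp A hA Q₁ (Q₁ ⊓ Q₂) h₁
    hA₁ hAD inf_le_left hD₁
  obtain ⟨B₂, hB₂A, hB₂p, hB₂⟩ := exists_hyperplane_centralizer_not_le p q hqp A hA Q₂ (Q₁ ⊓ Q₂) h₂
    hA₂ hAD inf_le_right hD₂
  have hp1 : 1 < p := (Fact.out : p.Prime).one_lt
  -- B₁ ⊓ B₂ is nontrivial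
  have hcard : p ≤ Nat.card (B₁ ⊓ B₂ : Subgroup G) := by
    have h1 := card_eq_card_mul_relIndex (inf_le_of_left_le hB₁A : B₁ ⊓ B₂ ≤ A)
    have h2 : (B₁ ⊓ B₂).relIndex A ≤ p * p :=
      (Subgroup.relIndex_inf_le).trans (Nat.mul_le_mul hB₁p hB₂p)
    have h3 : p ^ 3 ≤ Nat.card (B₁ ⊓ B₂ : Subgroup G) * (p * p) := by
      calc p ^ 3 ≤ Nat.card A := hA3
        _ = Nat.card (B₁ ⊓ B₂ : Subgroup G) * (B₁ ⊓ B₂).relIndex A := h1
        _ ≤ Nat.card (B₁ ⊓ B₂ : Subgroup G) * (p * p) := Nat.mul_le_mul_left _ h2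
    have h4 : p ^ 3 = p * (p * p) := by ring
    rw [h4] at h3
    exact Nat.le_of_mul_le_mul_right h3 (Nat.mul_pos (by omega) (by omega))
  have hnt : (B₁ ⊓ B₂ : Subgroup G) ≠ ⊥ := by
    intro h
    rw [h, Subgroup.card_bot] at hcard
    omega
  obtain ⟨a, ha⟩ := (Subgroup.ne_bot_iff_exists_ne_one.mp hnt)
  have ha' := Subgroup.mem_inf.mp a.2
  refine ⟨a, hB₁A ha'.1, fun h => ha (Subtype.ext h), ?_, ?_⟩
  · intro hle
    apply hB₁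
    refine le_trans (inf_le_inf_left _ ?_) hle
    apply Subgroup.centralizer_le
    intro y hy
    rw [Set.mem_singleton_iff] at hy
    rw [hy]; exact ha'.1
  · intro hle
    apply hB₂
    refine le_trans (inf_le_inf_left _ ?_) hle
    apply Subgroup.centralizer_le
    intro y hy
    rw [Set.mem_singleton_iff] at hy
    rw [hy]; exact ha'.2

end Cfsg.Agent.S1282
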