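import Cfsg.Statements.S1289
import Mathlib
import Cfsg.Agent.Helper10.PComp2

set_option autoImplicit false
open Cfsg

namespace Cfsg.Agent.S1289

/-- A p-component K of the finite group X is subnormal, perfect, of order divisible by p, and minimal among the subnormal perfect subgroups of X of order divisible by p. -/
theorem result {X : Type*} [Group X] [Finite X] (p : ℕ) [Fact p.Prime] (K : Subgroup X) (hK : Cfsg.IsPComponent p K) : K.IsSubnormal ∧ ⁅K, K⁆ = K ∧ p ∣ Nat.card ↥K ∧ ∀ H : Subgroup X, H ≤ K → H.IsSubnormal → ⁅H, H⁆ = H → p ∣ Nat.card ↥H → H = K := by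
  refine ⟨hK.1, Cfsg.Agent.Helper10.pComponent_perfect p hK,
    Cfsg.Agent.Helper10.pComponent_dvd_card p hK, ?_⟩
  intro H hHK hH hperf hdvd
  have h1 : ((H.map (QuotientGroup.mk' (pPrimeCore p X))).subgroupOf
      (K.map (QuotientGroup.mk' (pPrimeCore p X)))).IsSubnormal :=
    (hH.map (QuotientGroup.mk'_surjective _)).subgroupOf
  have hHK' := Subgroup.map_mono (f := QuotientGroup.mk' (pPrimeCore p X)) hHK
  rcases Cfsg.Agent.Helper10.qs_subnormal hK.2.1.2 _ h1 with h2 | h2
  · apply hK.2.2 H hH hHK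
    exact le_antisymm hHK' (Subgroup.subgroupOf_eq_top.mp h2)
  · exfalso
    have h3 : ⁅H.map (QuotientGroup.mk' (pPrimeCore p X)),
        H.map (QuotientGroup.mk' (pPrimeCore p X))⁆ = ⊥ := by
      rw [Cfsg.Agent.Helper10.comm_bot_iff]
      intro a ha b hb
      have := Subgroup.mem_center_iff.mp
        (h2 (show (⟨a, hHK' ha⟩ : K.map (QuotientGroup.mk' (pPrimeCore p X))) ∈ _ from ha))
        ⟨b, hHK' hb⟩
      exact (congrArg Subtype.val this).symm
    rw [← Subgroup.map_commutator, hperf, Subgroup.map_eq_bot_iff, QuotientGroup.ker_mk'] at h3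
    have h5 : (Nat.card H).Coprime p :=
      Nat.Coprime.coprime_dvd_left (Subgroup.card_dvd_of_le h3)
        (Cfsg.Agent.Helper10.pPrimeCore_coprime p X)
    exact (Nat.Prime.coprime_iff_not_dvd Fact.out).mp h5.symm hdvd

end Cfsg.Agent.S1289
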