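import Cfsg.Statements.S1300
import Mathlib

set_option autoImplicit false
open Cfsg

namespace Cfsg.Agent.S1300

/-- For a finite group G, balance in the sense of commuting involutions is the same as 1-balance for the prime 2. -/
theorem result {G : Type*} [Group G] [Finite G] : Cfsg.IsBalanced G ↔ Cfsg.IsKBalanced 2 1 G := by
  constructor
  · intro hbal A hA hcard b hb hcomm
    have hnt : Nontrivial A := by
      rw [← Finite.one_lt_card_iff_nontrivial, hcard]; norm_num
    obtain ⟨⟨x, hxA⟩, hx1⟩ := exists_ne (1 : A)
    have hx1' : x ≠ 1 := fun h => hx1 (Subtype.ext h)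
    have hx2 : orderOf x = 2 := orderOf_eq_prime (hA.2 x hxA) hx1'
    have hle : signalizerDelta 2 A ≤ centralizerPPrimeCore 2 x :=
      iInf_le (fun a : {a : G // a ∈ A ∧ a ≠ 1} => centralizerPPrimeCore 2 (a : G))
        ⟨x, hxA, hx1'⟩
    have := hbal x b hx2 hb (hcomm x hxA)
    calc signalizerDelta 2 A ⊓ Subgroup.centralizer {b}
        ≤ centralizerPPrimeCore 2 x ⊓ Subgroup.centralizer {b} := inf_le_inf_right _ hle
      _ = centralizerPPrimeCore 2 b ⊓ Subgroup.centralizer {x} := this
      _ ≤ centralizerPPrimeCore 2 b := inf_le_left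
  · intro hk
    have key : ∀ x y : G, orderOf x = 2 → orderOf y = 2 → x * y = y * x →
        centralizerPPrimeCore 2 x ⊓ Subgroup.centralizer {y} ≤
          centralizerPPrimeCore 2 y ⊓ Subgroup.centralizer {x} := by
      intro x y hx hy hxy
      have hmem : ∀ a ∈ Subgroup.zpowers x, a = 1 ∨ a = x := by
        rintro a ⟨k, rfl⟩
        show x ^ k = 1 ∨ x ^ k = x
        rw [← zpow_mod_orderOf, hx]
        rw [Nat.cast_ofNat]
        rcases Int.emod_two_eq_zero_or_one k with h | h <;> rw [h] <;> simp
      have hA : IsElementaryAbelian 2 (Subgroup.zpowers x) := by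
        refine ⟨inferInstance, ?_⟩
        intro a ha
        rcases hmem a ha with rfl | rfl
        · simp
        · rw [← hx]; exact pow_orderOf_eq_one _
      have hcard : Nat.card (Subgroup.zpowers x) = 2 ^ 1 := by rw [Nat.card_zpowers, hx]; rfl
      have hcomm : ∀ a ∈ Subgroup.zpowers x, a * y = y * a := by
        intro a ha
        rcases hmem a ha with rfl | rfl
        · simp
        · exact hxy
      have h1 := hk (Subgroup.zpowers x) hA hcard y hy hcomm
      have h2 : centralizerPPrimeCore 2 x ≤ signalizerDelta 2 (Subgroup.zpowers x) := by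
        apply le_iInf
        rintro ⟨a, ha, ha1⟩
        rcases hmem a ha with rfl | rfl
        · exact absurd rfl ha1
        · exact le_rfl
      have h3 : centralizerPPrimeCore 2 x ≤ Subgroup.centralizer {x} := by
        rintro _ ⟨c, _, rfl⟩; exact c.2
      exact le_inf ((inf_le_inf_right _ h2).trans h1) (inf_le_left.trans h3)
    intro x y hx hy hxy
    exact le_antisymm (key x y hx hy hxy) (key y x hy hx hxy.symm)

end Cfsg.Agent.S1300
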