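import Cfsg.Statements.S1304
import Mathlib
-- import your own Cfsg.Agent.* helpers here

set_option autoImplicit false
open Cfsg

namespace Cfsg.Agent.S1304

/-- Let X be a perfect group and α an automorphism of X with α(x) x⁻¹ central for every x. Then α is the identity. -/
theorem result {X : Type*} [Group X] (hperf : commutator X = ⊤) (α : X ≃* X) (h : ∀ x : X, α x * x⁻¹ ∈ Subgroup.center X) : ∀ x : X, α x = x := by
  let f : X →* Subgroup.center X :=
    { toFun := fun x => ⟨α x * x⁻¹, h x⟩
      map_one' := by ext; simp
      map_mul' := by
        intro x y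
        ext
        have hy := h y
        rw [Subgroup.mem_center_iff] at hy
        simp only [map_mul, Subgroup.coe_mul, mul_inv_rev]
        calc α x * α y * (y⁻¹ * x⁻¹) = α x * ((α y * y⁻¹) * x⁻¹) := by group
          _ = α x * (x⁻¹ * (α y * y⁻¹)) := by rw [hy x⁻¹]
          _ = α x * x⁻¹ * (α y * y⁻¹) := by group }
  have hker : f.ker = ⊤ := by
    have hle : commutator X ≤ f.ker := by
      rw [commutator_eq_closure, Subgroup.closure_le]
      rintro _ ⟨a, b, rfl⟩
      rw [SetLike.mem_coe, MonoidHom.mem_ker, map_commutatorElement]
      have hc : ∀ u v : Subgroup.center X, u * v = v * u := by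
        intro u v
        ext
        have := u.2
        rw [Subgroup.mem_center_iff] at this
        simpa using (this v).symm
      rw [commutatorElement_def, hc (f a) (f b)]
      group
    rw [hperf] at hle
    exact top_le_iff.mp hle
  intro x
  have hx : f x = 1 := by
    have : x ∈ f.ker := by rw [hker]; trivial
    exact this
  have hx' : α x * x⁻¹ = 1 := congrArg Subtype.val hx
  exact mul_inv_eq_one.mp hx'

end Cfsg.Agent.S1304
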