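import Cfsg.Statements.S1306
import Mathlib
import Cfsg.Agent.Helper10.Std

set_option autoImplicit false
open Cfsg
open Cfsg.Agent.Helper10

namespace Cfsg.Agent.S1306

/-- Let G be finite, x an involution and L ≤ C_G(x) a component of C_G(x). Suppose L is a component of C_G(y) for every involution y ∈ C_G(L), and ⁅L, g L g⁻¹⁆ ≠ 1 whenever g L g⁻¹ ≠ L. Then L is a standard subgroup of G. -/
theorem result {G : Type*} [Group G] [Finite G] (x : G) (hx : orderOf x = 2) (L : Subgroup G) (hLx : L ≤ Subgroup.centralizer ({x} : Set G)) (hL : Cfsg.IsComponent (L.subgroupOf (Subgroup.centralizer ({x} : Set G)))) (hne : ∀ y : G, orderOf y = 2 → y ∈ Subgroup.centralizer (L : Set G) → L ≤ Subgroup.centralizer ({y} : Set G) ∧ Cfsg.IsComponent (L.subgroupOf (Subgroup.centralizer ({y} : Set G)))) (hnc : ∀ g : G, L.map (MulAut.conj g).toMonoidHom ≠ L → ⁅L, L.map (MulAut.conj g).toMonoidHom⁆ ≠ ⊥) : Cfsg.IsStandardSubgroup L := by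
  classical
  have hxK : x ∈ Subgroup.centralizer (L : Set G) := by
    rw [Subgroup.mem_centralizer_iff]; intro l hl
    have := hLx hl
    rw [Subgroup.mem_centralizer_iff] at this
    exact (this x rfl).symm
  have hord : ∀ (y g : G), orderOf y = 2 → orderOf (g * y * g⁻¹) = 2 := by
    intro y g hy
    have : g * y * g⁻¹ = MulAut.conj g y := by simp [MulAut.conj_apply]
    rw [this, MulEquiv.orderOf_eq]; exact hy
  have key : ∀ (g y : G), orderOf y = 2 → y ∈ Subgroup.centralizer (L : Set G) →
      g * y * g⁻¹ ∈ Subgroup.centralizer (L : Set G) → L.map (MulAut.conj g).toMonoidHom = L := by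
    intro g y hy hyK hgy
    obtain ⟨h1, h2⟩ := hne y hy hyK
    obtain ⟨h3, h4⟩ := hne (g*y*g⁻¹) (hord y g hy) hgy
    obtain ⟨h5, h6⟩ := comp_centralizer_conj y L g h1 h2
    by_contra hne'
    rcases comp_eq_or_comm h4 h6 with h | h
    · apply hne'
      exact le_antisymm ((subgroupOf_le_iff h5).mp h.ge) ((subgroupOf_le_iff h3).mp h.le)
    · rw [comm_subgroupOf_iff h3 h5] at h
      exact hnc g hne' h
  refine ⟨?_, ⟨?_, ?_⟩, hnc, ?_⟩
  · exact qs_of_equiv (Subgroup.subgroupOfEquivOfLe hLx) hL.2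
  · have : 2 ∣ Nat.card (Subgroup.centralizer (L : Set G)) := by
      have := orderOf_dvd_natCard (⟨x, hxK⟩ : Subgroup.centralizer (L : Set G))
      rwa [Subgroup.orderOf_mk, hx] at this
    exact even_iff_two_dvd.mpr this
  · intro g hg
    rw [← Nat.not_even_iff_odd]
    intro hev
    haveI : Fact (Nat.Prime 2) := ⟨Nat.prime_two⟩
    obtain ⟨y, hy⟩ := exists_prime_orderOf_dvd_card' 2 (even_iff_two_dvd.mp hev)
    have hyK : (y:G) ∈ Subgroup.centralizer (L : Set G) := y.2.1
    have hyKg : (y:G) ∈ (Subgroup.centralizer (L : Set G)).map (MulAut.conj g).toMonoidHom := y.2.2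
    have h1 : g⁻¹ * y * g ∈ Subgroup.centralizer (L : Set G) := by
      rw [Subgroup.mem_map_equiv] at hyKg
      simpa [MulAut.conj_symm_apply] using hyKg
    have h2 : orderOf (g⁻¹ * (y : G) * g) = 2 := by
      have := hord (y : G) g⁻¹ (by rw [Subgroup.orderOf_coe]; exact hy)
      simpa using this
    have h3 : g * (g⁻¹ * (y : G) * g) * g⁻¹ ∈ Subgroup.centralizer (L : Set G) := by
      have : g * (g⁻¹ * (y : G) * g) * g⁻¹ = y := by group
      rw [this]; exact hyK
    have := key g _ h2 h1 h3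
    exact hg (normalizer_le_normalizer_centralizer L (mem_normalizer_of_map_conj_eq this))
  · apply le_antisymm (normalizer_le_normalizer_centralizer L)
    intro g hg
    have h1 : g * x * g⁻¹ ∈ Subgroup.centralizer (L : Set G) :=
      (Subgroup.mem_normalizer_iff.mp hg x).mp hxK
    exact mem_normalizer_of_map_conj_eq (key g x hx hxK h1)

end Cfsg.Agent.S1306
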