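import Cfsg.Statements.S1314
import Mathlib
import Cfsg.Agent.Helper10.PComp2

set_option autoImplicit false
open Cfsg
open scoped commutatorElement

namespace Cfsg.Agent.S1314

theorem comm_mul_central {G : Type*} [Group G] (p z c : G) (h : z * c = c * z) :
    ⁅p * z, c⁆ = ⁅p, c⁆ := by
  rw [commutatorElement_def, commutatorElement_def]
  calc p * z * c * (p * z)⁻¹ * c⁻¹ = p * (z * c) * z⁻¹ * p⁻¹ * c⁻¹ := by group
    _ = p * (c * z) * z⁻¹ * p⁻¹ * c⁻¹ := by rw [h]
    _ = p * c * p⁻¹ * c⁻¹ := by group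

theorem comm_mul_central' {G : Type*} [Group G] (p q w : G) (h : w * p = p * w) :
    ⁅p, q * w⁆ = ⁅p, q⁆ := by
  have h' : w * p⁻¹ = p⁻¹ * w := (Commute.inv_right (show Commute w p from h)).eq
  rw [commutatorElement_def, commutatorElement_def]
  calc p * (q * w) * p⁻¹ * (q * w)⁻¹ = p * q * (w * p⁻¹) * w⁻¹ * q⁻¹ := by group
    _ = p * q * (p⁻¹ * w) * w⁻¹ * q⁻¹ := by rw [h']
    _ = p * q * p⁻¹ * q⁻¹ := by group

/-- Let x be an involution of a group G and L a perfect subgroup with ⁅L, x L x⁻¹⁆ = 1. Then l ↦ l (x l x⁻¹) is a group homomorphism π from L to G whose kernel is central in L and whose image lies in C_G(x); and the commutator subgroup of C_{L ⊔ xLx⁻¹}(x) equals the image of π. -/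
theorem result {G : Type*} [Group G] [Finite G] (x : G) (hx : orderOf x = 2) (L : Subgroup G) (hperf : ⁅L, L⁆ = L) (hcomm : ⁅L, L.map (MulAut.conj x).toMonoidHom⁆ = ⊥) : ∃ π : ↥L →* G, (∀ l : ↥L, π l = (l : G) * (x * (l : G) * x⁻¹)) ∧ π.ker ≤ Subgroup.center ↥L ∧ π.range ≤ Subgroup.centralizer ({x} : Set G) ∧ ⁅(L ⊔ L.map (MulAut.conj x).toMonoidHom) ⊓ Subgroup.centralizer ({x} : Set G), (L ⊔ L.map (MulAut.conj x).toMonoidHom) ⊓ Subgroup.centralizer ({x} : Set G)⁆ = π.range := by
  have hx2 : x * x = 1 := by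
    have := pow_orderOf_eq_one x
    rwa [hx, pow_two] at this
  have hxinv : x⁻¹ = x := inv_eq_of_mul_eq_one_left hx2
  have hc : ∀ u ∈ L, ∀ v ∈ L, u * (x * v * x) = x * v * x * u := by
    intro u hu v hv
    have := (Cfsg.Agent.Helper10.comm_bot_iff _ _).mp hcomm u hu (x * v * x⁻¹) ⟨v, hv, rfl⟩
    rwa [hxinv] at this
  have hsplit : ∀ u v : G, x * (u * v) * x = (x * u * x) * (x * v * x) := by
    intro u v
    calc x * (u * v) * x = x * u * 1 * v * x := by group
      _ = x * u * (x * x) * v * x := by rw [hx2]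
      _ = _ := by group
  obtain ⟨π, hπdef⟩ : ∃ π : ↥L →* G, ∀ l : ↥L, π l = (l : G) * (x * (l : G) * x⁻¹) :=
    ⟨{ toFun := fun l => (l : G) * (x * (l : G) * x⁻¹)
       map_one' := by simp
       map_mul' := by
        intro a b
        show ((a : G) * b) * (x * ((a : G) * b) * x⁻¹) = a * (x * a * x⁻¹) * (b * (x * b * x⁻¹))
        have k := hc b b.2 a a.2
        rw [hxinv]
        calc ((a : G) * b) * (x * ((a : G) * b) * x) = a * (b * (x * a * x)) * (x * b * x) := by
              rw [hsplit]; group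
          _ = a * (x * a * x * b) * (x * b * x) := by rw [k]
          _ = a * (x * a * x) * (b * (x * b * x)) := by group }, fun l => rfl⟩
  have hπ : ∀ l : L, π l = l * (x * l * x) := fun l => by rw [hπdef, hxinv]
  have hker : π.ker ≤ Subgroup.center ↥L := by
    intro l hl
    have hl' : (l : G) * (x * l * x) = 1 := by rw [← hπ]; exact hl
    rw [Subgroup.mem_center_iff]
    intro g
    have e : (l : G) = x * (l : G)⁻¹ * x := by
      calc (l : G) = (x * l * x)⁻¹ := eq_inv_of_mul_eq_one_left hl'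
        _ = x⁻¹ * (l : G)⁻¹ * x⁻¹ := by group
        _ = x * (l : G)⁻¹ * x := by rw [hxinv]
    apply Subtype.ext
    show (g : G) * l = l * g
    rw [e]
    exact hc g g.2 _ (L.inv_mem l.2)
  have hrC : π.range ≤ Subgroup.centralizer ({x} : Set G) := by
    rintro _ ⟨l, rfl⟩
    rw [Subgroup.mem_centralizer_iff]
    intro h hh
    rw [Set.mem_singleton_iff] at hh
    rw [hh, hπ]
    have k := hc l l.2 l l.2
    calc x * (↑l * (x * ↑l * x)) = x * ((x * ↑l * x) * ↑l) := by rw [k]
      _ = (x * x) * ↑l * x * ↑l := by group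
      _ = ↑l * x * ↑l * (x * x) := by rw [hx2]; group
      _ = ↑l * (x * ↑l * x) * x := by group
  have hrM : π.range ≤ L ⊔ L.map (MulAut.conj x).toMonoidHom := by
    rintro _ ⟨l, rfl⟩
    rw [hπdef]
    exact Subgroup.mul_mem _ (Subgroup.mem_sup_left l.2) (Subgroup.mem_sup_right ⟨l, l.2, rfl⟩)
  refine ⟨π, hπdef, hker, hrC, ?_⟩
  apply le_antisymm
  · rw [Subgroup.commutator_le]
    have hdecomp : ∀ c ∈ (L ⊔ L.map (MulAut.conj x).toMonoidHom) ⊓
        Subgroup.centralizer ({x} : Set G), ∃ a : L, ∃ z : G, c = π a * z ∧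
        ∀ g ∈ L ⊔ L.map (MulAut.conj x).toMonoidHom, z * g = g * z := by
      intro c hcc
      obtain ⟨hcM, hcx⟩ := Subgroup.mem_inf.mp hcc
      obtain ⟨a, ha, b', hb', rfl⟩ := Cfsg.Agent.Helper10.mem_sup_of_comm
        ((Cfsg.Agent.Helper10.comm_bot_iff _ _).mp hcomm) hcM
      obtain ⟨b, hb, rfl⟩ := hb'
      have hcx' : x * (a * (x * b * x)) = a * (x * b * x) * x := by
        have := Subgroup.mem_centralizer_iff.mp hcx x rfl
        have e : (MulAut.conj x).toMonoidHom b = x * b * x := by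
          show x * b * x⁻¹ = _; rw [hxinv]
        rwa [e] at this
      have E : x * a * x * b = a * (x * b * x) := by
        calc x * a * x * b = x * a * x * b * (x * x) := by rw [hx2, mul_one]
          _ = (x * (a * (x * b * x))) * x := by group
          _ = (a * (x * b * x) * x) * x := by rw [hcx']
          _ = a * (x * b * x) * (x * x) := by group
          _ = a * (x * b * x) := by rw [hx2, mul_one]
      have e2 : x * b * x = (x * a * x) * (a⁻¹ * b) := by
        have k := hc a⁻¹ (L.inv_mem ha) a ha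
        calc x * b * x = a⁻¹ * (a * (x * b * x)) := by group
          _ = a⁻¹ * (x * a * x * b) := by rw [E]
          _ = (a⁻¹ * (x * a * x)) * b := by group
          _ = (x * a * x * a⁻¹) * b := by rw [k]
          _ = (x * a * x) * (a⁻¹ * b) := by group
      have hzfix : x * (a⁻¹ * b) * x = a⁻¹ * b := by
        have e1 : x * (a⁻¹ * b) * x = (x * a * x)⁻¹ * (x * b * x) := by
          have : (x * a * x)⁻¹ * (x * b * x) = x⁻¹ * (a⁻¹ * b) * x := by group
          rw [this, hxinv]
        rw [e1, e2]; group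
      have hzL : a⁻¹ * b ∈ L := L.mul_mem (L.inv_mem ha) hb
      refine ⟨⟨a, ha⟩, a⁻¹ * b, ?_, ?_⟩
      · rw [hπ]
        show a * (x * b * x⁻¹) = a * (x * a * x) * (a⁻¹ * b)
        rw [hxinv, e2]; group
      · intro g hg
        have hle : L ⊔ L.map (MulAut.conj x).toMonoidHom ≤
            Subgroup.centralizer ({a⁻¹ * b} : Set G) := by
          apply sup_le
          · intro u hu
            rw [Subgroup.mem_centralizer_iff]
            intro h hh; rw [Set.mem_singleton_iff] at hh; rw [hh]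
            rw [← hzfix]
            exact (hc u hu _ hzL).symm
          · rintro _ ⟨v, hv, rfl⟩
            rw [Subgroup.mem_centralizer_iff]
            intro h hh; rw [Set.mem_singleton_iff] at hh; rw [hh]
            show a⁻¹ * b * (x * v * x⁻¹) = x * v * x⁻¹ * (a⁻¹ * b)
            rw [hxinv]
            exact hc _ hzL v hv
        exact Subgroup.mem_centralizer_iff.mp (hle hg) _ rfl
    intro c₁ hc₁ c₂ hc₂
    obtain ⟨a₁, z₁, rfl, hz₁⟩ := hdecomp c₁ hc₁
    obtain ⟨a₂, z₂, rfl, hz₂⟩ := hdecomp c₂ hc₂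
    refine ⟨⁅a₁, a₂⁆, ?_⟩
    rw [map_commutatorElement,
      comm_mul_central (π a₁) z₁ (π a₂ * z₂) (hz₁ _ (Subgroup.mem_inf.mp hc₂).1),
      comm_mul_central' (π a₁) (π a₂) z₂ (hz₂ _ (hrM ⟨a₁, rfl⟩))]
  · have hr : π.range = ⁅π.range, π.range⁆ := by
      conv_lhs => rw [MonoidHom.range_eq_map,
        ← Cfsg.Agent.Helper10.commutator_top_of_perfect hperf, commutator_def,
        Subgroup.map_commutator, ← MonoidHom.range_eq_map]
    rw [hr]
    exact Subgroup.commutator_mono (le_inf hrM hrC) (le_inf hrM hrC)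

end Cfsg.Agent.S1314
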