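import Cfsg.Statements.S1316
import Mathlib
import Cfsg.Agent.Helper10.Layer

set_option autoImplicit false
open Cfsg

namespace Cfsg.Agent.S1316

/-- For a finite group X, E(X) equals the intersection of the derived series of F*(X) (its last term). -/
theorem result {X : Type*} [Group X] [Finite X] : (⨅ n : ℕ, (derivedSeries ↥(Cfsg.generalizedFittingSubgroup X) n).map (Cfsg.generalizedFittingSubgroup X).subtype) = Cfsg.layer X := by
  have hD0 : (derivedSeries ↥(Cfsg.generalizedFittingSubgroup X) 0).map
      (Cfsg.generalizedFittingSubgroup X).subtype = Cfsg.generalizedFittingSubgroup X := by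
    rw [derivedSeries_zero, ← MonoidHom.range_eq_map, Subgroup.range_subtype]
  have hDs : ∀ n, (derivedSeries ↥(Cfsg.generalizedFittingSubgroup X) (n + 1)).map
      (Cfsg.generalizedFittingSubgroup X).subtype =
      ⁅(derivedSeries ↥(Cfsg.generalizedFittingSubgroup X) n).map
        (Cfsg.generalizedFittingSubgroup X).subtype,
       (derivedSeries ↥(Cfsg.generalizedFittingSubgroup X) n).map
        (Cfsg.generalizedFittingSubgroup X).subtype⁆ := by
    intro n
    rw [derivedSeries_succ, Subgroup.map_commutator]
  have hF0 : (derivedSeries ↥(Cfsg.fittingSubgroup X) 0).map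
      (Cfsg.fittingSubgroup X).subtype = Cfsg.fittingSubgroup X := by
    rw [derivedSeries_zero, ← MonoidHom.range_eq_map, Subgroup.range_subtype]
  have hFs : ∀ n, (derivedSeries ↥(Cfsg.fittingSubgroup X) (n + 1)).map
      (Cfsg.fittingSubgroup X).subtype =
      ⁅(derivedSeries ↥(Cfsg.fittingSubgroup X) n).map (Cfsg.fittingSubgroup X).subtype,
       (derivedSeries ↥(Cfsg.fittingSubgroup X) n).map (Cfsg.fittingSubgroup X).subtype⁆ := by
    intro n
    rw [derivedSeries_succ, Subgroup.map_commutator]
  apply le_antisymm
  · -- upper bound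
    have hclaim : ∀ n, (derivedSeries ↥(Cfsg.generalizedFittingSubgroup X) n).map
        (Cfsg.generalizedFittingSubgroup X).subtype ≤
        Cfsg.layer X ⊔ (derivedSeries ↥(Cfsg.fittingSubgroup X) n).map
          (Cfsg.fittingSubgroup X).subtype := by
      intro n
      induction n with
      | zero => rw [hD0, hF0]; exact le_rfl
      | succ n ih =>
        rw [hDs, hFs]
        refine (Subgroup.commutator_mono ih ih).trans ?_
        refine (Cfsg.Agent.Helper10.commutator_sup_le_of_comm _ _ ?_).trans ?_
        · intro a ha b hb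
          exact Cfsg.Agent.Helper10.layer_fitting_comm X a ha b (Subgroup.map_subtype_le _ hb)
        · rw [Cfsg.Agent.Helper10.layer_perfect]
    have hsolv := Cfsg.Agent.Helper10.fitting_solvable X
    obtain ⟨n, hn⟩ := hsolv.solvable
    refine (iInf_le _ n).trans ((hclaim n).trans ?_)
    rw [hn, Subgroup.map_bot, sup_bot_eq]
  · apply le_iInf
    intro n
    induction n with
    | zero => rw [hD0]; exact Cfsg.Agent.Helper10.layer_le_gfitting X
    | succ n ih =>
      rw [hDs]
      calc Cfsg.layer X = ⁅Cfsg.layer X, Cfsg.layer X⁆ := (Cfsg.Agent.Helper10.layer_perfect X).symm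
        _ ≤ _ := Subgroup.commutator_mono ih ih

end Cfsg.Agent.S1316
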