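import Cfsg.Statements.S1317
import Mathlib
import Cfsg.Agent.Helper10.Layer

set_option autoImplicit false
open Cfsg

namespace Cfsg.Agent.S1317

/-- For a finite group X, the centre of the layer E(X) is F(X) ∩ E(X). -/
theorem result {X : Type*} [Group X] [Finite X] : (Subgroup.center ↥(Cfsg.layer X)).map (Cfsg.layer X).subtype = Cfsg.fittingSubgroup X ⊓ Cfsg.layer X := by
  have hEn := Cfsg.Agent.Helper10.layer_normal X
  apply le_antisymm
  · apply le_inf
    · apply le_sSup
      refine ⟨?_, ?_⟩
      · exact Cfsg.Agent.Helper10.map_subtype_normal_of_char (Cfsg.layer X) _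
          (fun φ => Subgroup.characteristic_iff_map_le.mp Subgroup.centerCharacteristic φ)
      · have e := (Subgroup.center ↥(Cfsg.layer X)).equivMapOfInjective (Cfsg.layer X).subtype
          (Subgroup.subtype_injective _)
        rw [← Group.isNilpotent_congr e]
        apply Cfsg.Agent.Helper10.nilpotent_of_comm
        intro a b
        have := a.2
        rw [Subgroup.mem_center_iff] at this
        exact Subtype.ext (this b).symm
    · exact Subgroup.map_subtype_le _
  · rintro x ⟨hxF, hxE⟩
    refine ⟨⟨x, hxE⟩, ?_, rfl⟩
    rw [SetLike.mem_coe, Subgroup.mem_center_iff]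
    intro g
    exact Subtype.ext (Cfsg.Agent.Helper10.layer_fitting_comm X g g.2 x hxF)

end Cfsg.Agent.S1317
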