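import Cfsg.Statements.S1318
import Mathlib
import Cfsg.Agent.Helper10.Sub

set_option autoImplicit false
open Cfsg

namespace Cfsg.Agent.S1318

/-- Let X be finite and S ≤ F*(X) a subgroup subnormal in F*(X). Then F(S) = F(X) ∩ S (inside X) and S = F(S)E(S). -/
theorem result {X : Type*} [Group X] [Finite X] (S : Subgroup X) (hS : S ≤ Cfsg.generalizedFittingSubgroup X) (hsn : (S.subgroupOf (Cfsg.generalizedFittingSubgroup X)).IsSubnormal) : (Cfsg.fittingSubgroup ↥S).map S.subtype = Cfsg.fittingSubgroup X ⊓ S ∧ Cfsg.fittingSubgroup ↥S ⊔ Cfsg.layer ↥S = ⊤ := by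
  have hFn := Cfsg.Agent.Helper10.gfitting_normal X
  have hSsub : S.IsSubnormal := Subgroup.IsSubnormal.trans hS hsn hFn.isSubnormal
  have h1 := Cfsg.Agent.Helper10.fitting_subnormal_eq S hSsub
  refine ⟨h1, ?_⟩
  rw [eq_top_iff]
  intro s _
  obtain ⟨e, he, t, ht, hst⟩ :=
    Cfsg.Agent.Helper10.subnormal_le_gfitting_decomp S hSsub hS s.1 s.2
  obtain ⟨e', he', hee⟩ := Cfsg.Agent.Helper10.sSup_comps_le_map_layer S he
  rw [← h1] at ht
  obtain ⟨t', ht', htt⟩ := ht
  have : s = e' * t' := by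
    apply Subtype.ext
    rw [Subgroup.coe_mul]
    rw [hst]
    have h2 : (e' : X) = e := hee
    have h3 : (t' : X) = t := htt
    rw [h2, h3]
  rw [this]
  exact Subgroup.mul_mem _ (Subgroup.mem_sup_right he') (Subgroup.mem_sup_left ht')

end Cfsg.Agent.S1318
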