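import Cfsg.Statements.S1319
import Mathlib
import Cfsg.Agent.Helper10.Layer

set_option autoImplicit false
open Cfsg

namespace Cfsg.Agent.S1319

/-- Let A be a subnormal subgroup of the finite group X with E(A) = A. Then A ≤ E(X) and A is normal in E(X). -/
theorem result {X : Type*} [Group X] [Finite X] (A : Subgroup X) (hsn : A.IsSubnormal) (hA : Cfsg.layer ↥A = ⊤) : A ≤ Cfsg.layer X ∧ (A.subgroupOf (Cfsg.layer X)).Normal := by
  have hAE : A ≤ Cfsg.layer X := by
    have h1 : Cfsg.layer ↥A ≤ (Cfsg.layer X).comap A.subtype := by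
      apply sSup_le
      intro K hK
      rw [← Subgroup.map_le_iff_le_comap]
      exact Cfsg.Agent.Helper10.comp_le_layer (Cfsg.Agent.Helper10.comp_map_subtype hsn hK)
    intro x hx
    have : (⟨x, hx⟩ : A) ∈ Cfsg.layer ↥A := by rw [hA]; trivial
    exact h1 this
  refine ⟨hAE, ?_⟩
  rw [Subgroup.normal_subgroupOf_iff_le_normalizer hAE]
  apply sSup_le
  intro L hL
  rcases Cfsg.Agent.Helper10.comp_le_or_comm L A hL hsn with h | h
  · exact h.trans Subgroup.le_normalizer
  · rw [Subgroup.commutator_eq_bot_iff_le_centralizer] at h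
    exact h.trans (Subgroup.centralizer_le_normalizer _)

end Cfsg.Agent.S1319
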