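import Cfsg.Statements.S1320
import Mathlib
import Cfsg.Agent.Helper10.Sub

set_option autoImplicit false
open Cfsg

namespace Cfsg.Agent.S1320

/-- Let B be a normal subgroup of the finite group A. Then F*(A) ∩ B = F*(B). -/
theorem result {A : Type*} [Group A] [Finite A] (B : Subgroup A) [B.Normal] : Cfsg.generalizedFittingSubgroup A ⊓ B = (Cfsg.generalizedFittingSubgroup ↥B).map B.subtype := by
  have hAn := Cfsg.Agent.Helper10.gfitting_normal A
  have hBsub : B.IsSubnormal := Subgroup.Normal.isSubnormal inferInstance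
  have hFB := Cfsg.Agent.Helper10.fitting_subnormal_eq B hBsub
  apply le_antisymm
  · intro s hs
    have hSn : (Cfsg.generalizedFittingSubgroup A ⊓ B).Normal := Subgroup.normal_inf_normal _ _
    obtain ⟨e, he, t, ht, hst⟩ :=
      Cfsg.Agent.Helper10.subnormal_le_gfitting_decomp (Cfsg.generalizedFittingSubgroup A ⊓ B)
        hSn.isSubnormal inf_le_left s hs
    have he' : e ∈ (Cfsg.layer ↥B).map B.subtype := by
      apply Cfsg.Agent.Helper10.sSup_comps_le_map_layer B
      have hmono : sSup {L : Subgroup A | Cfsg.IsComponent L ∧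
            L ≤ Cfsg.generalizedFittingSubgroup A ⊓ B} ≤
          sSup {L : Subgroup A | Cfsg.IsComponent L ∧ L ≤ B} := by
        apply sSup_le_sSup
        rintro L ⟨hL, hLS⟩
        exact ⟨hL, hLS.trans inf_le_right⟩
      exact hmono he
    have ht' : t ∈ (Cfsg.fittingSubgroup ↥B).map B.subtype := by
      rw [hFB]
      exact ⟨ht.1, ht.2.2⟩
    rw [hst]
    unfold Cfsg.generalizedFittingSubgroup
    rw [Subgroup.map_sup]
    exact Subgroup.mul_mem _ (Subgroup.mem_sup_left he') (Subgroup.mem_sup_right ht')
  · refine le_inf ?_ (Subgroup.map_subtype_le _)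
    unfold Cfsg.generalizedFittingSubgroup
    rw [Subgroup.map_sup]
    apply sup_le_sup
    · rw [Subgroup.map_le_iff_le_comap]
      apply sSup_le
      intro K hK
      rw [← Subgroup.map_le_iff_le_comap]
      exact Cfsg.Agent.Helper10.comp_le_layer (Cfsg.Agent.Helper10.comp_map_subtype hBsub hK)
    · rw [hFB]
      exact inf_le_left

end Cfsg.Agent.S1320
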