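import Cfsg.Statements.S1326
import Mathlib
import Cfsg.Agent.Helper10.FStar

set_option autoImplicit false
open Cfsg

namespace Cfsg.Agent.S1326

/-- For a finite group X: the Fitting subgroup contains its centralizer if and only if the layer of X is trivial. -/
theorem result {X : Type*} [Group X] [Finite X] : Subgroup.centralizer (Cfsg.fittingSubgroup X : Set X) ≤ Cfsg.fittingSubgroup X ↔ Cfsg.layer X = ⊥ := by
  constructor
  · intro h
    have hle : Cfsg.layer X ≤ Cfsg.fittingSubgroup X := by
      have h1 := Cfsg.Agent.Helper10.layer_comm_fitting X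
      rw [Subgroup.commutator_eq_bot_iff_le_centralizer] at h1
      exact h1.trans h
    have hsolv : Group.IsSolvable (Cfsg.fittingSubgroup X) := by
      have := Cfsg.Agent.S0008.result (G := X)
      infer_instance
    unfold Cfsg.layer
    rw [sSup_eq_bot]
    intro L hL
    exfalso
    exact Cfsg.Agent.Helper10.comp_not_le_solvable hL hsolv
      ((Cfsg.Agent.Helper10.comp_le_layer hL).trans hle)
  · intro h
    have h1 := Cfsg.Agent.Helper10.centralizer_gfitting_le X
    have h2 : Cfsg.generalizedFittingSubgroup X = Cfsg.fittingSubgroup X := by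
      unfold Cfsg.generalizedFittingSubgroup
      rw [h, bot_sup_eq]
    rw [h2] at h1
    exact h1

end Cfsg.Agent.S1326
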