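import Cfsg.Statements.S1331
import Mathlib
import Cfsg.Agent.Helper10.CopGen

set_option autoImplicit false
open Cfsg
open Cfsg.Agent.Helper10

namespace Cfsg.Agent.S1331

/-- Let θ be a solvable A-signalizer functor on the finite group G for the prime p, A elementary abelian of rank at least 3, X a member of the family of θ, and B ≤ A with |B| ≥ p². Then X is generated by the subgroups X ∩ ⋂_{d ∈ D, d ≠ 1} θ d, D ranging over the subgroups of index p in B. -/
theorem result {G : Type*} [Group G] [Finite G] (p : ℕ) [Fact p.Prime] (A : Subgroup G) (hA : Cfsg.IsElementaryAbelian p A) (hA3 : p ^ 3 ≤ Nat.card ↥A) (θ : G → Subgroup G) (hθ : Cfsg.IsSolvableSignalizerFunctor p A θ) (X : Subgroup G) (hX : X ∈ Cfsg.signalizerFamily p A θ) (B : Subgroup G) (hB : B ≤ A) (hB2 : p ^ 2 ≤ Nat.card ↥B) : X = ⨆ D : {D : Subgroup G // D ≤ B ∧ D.relIndex B = p}, X ⊓ Cfsg.signalizerInf (D : Subgroup G) θ := by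
  obtain ⟨hsolv, hXp, hXinv, hXθ⟩ := hX
  have hBel : Cfsg.IsElementaryAbelian p B := elemAbelian_of_le hA hB
  have hBp : IsPGroup p B := elemAbelian_isPGroup hBel
  have hBX : B ≤ Subgroup.normalizer (X : Set G) := by
    intro b hb
    rw [Subgroup.mem_normalizer_iff]
    intro u
    constructor
    · intro hu; exact hXinv b (hB hb) u hu
    · intro hu
      have := hXinv b⁻¹ (A.inv_mem (hB hb)) _ hu
      simpa [mul_assoc] using this
  obtain ⟨D', hD'B, hD'p⟩ := exists_index_p_subgroup p B hBp hB2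
  have key : ∀ D : Subgroup G, D ≤ B →
      X ⊓ Subgroup.centralizer (D : Set G) ≤ X ⊓ Cfsg.signalizerInf D θ := by
    intro D hD x hx
    have hx' := Subgroup.mem_inf.mp hx
    refine Subgroup.mem_inf.mpr ⟨hx'.1, ?_⟩
    show x ∈ ⨅ a : {a : G // a ∈ D ∧ a ≠ 1}, θ (a : G)
    rw [Subgroup.mem_iInf]
    rintro ⟨d, hdD, hd1⟩
    apply hXθ d (hB (hD hdD)) hd1
    refine Subgroup.mem_inf.mpr ⟨hx'.1, ?_⟩
    rw [Subgroup.mem_centralizer_iff]
    intro y hy
    rw [Set.mem_singleton_iff] at hy
    rw [hy]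
    exact (Subgroup.mem_centralizer_iff.mp hx'.2) d hdD
  apply le_antisymm
  · conv_lhs => rw [coprime_generation p B X hBel hXp hBX]
    apply iSup_le
    rintro ⟨D, hDB, hDp⟩
    by_cases hDp' : D.relIndex B = p
    · exact (key D hDB).trans (le_iSup (fun D : {D : Subgroup G // D ≤ B ∧ D.relIndex B = p} =>
        X ⊓ Cfsg.signalizerInf (D : Subgroup G) θ) ⟨D, hDB, hDp'⟩)
    · have h1 : D.relIndex B = 1 := by
        obtain ⟨k, hk⟩ := IsPGroup.iff_card.mp hBp
        have hdvd : D.relIndex B ∣ p ^ k := hk ▸ Subgroup.relIndex_dvd_card D B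
        obtain ⟨m, hm, hme⟩ := (Nat.dvd_prime_pow Fact.out).mp hdvd
        rw [hme] at hDp hDp' ⊢
        have hp1 : 1 < p := (Fact.out : p.Prime).one_lt
        have hm1 : m ≤ 1 := by
          by_contra hm2
          have hm2' : 2 ≤ m := by omega
          have : p ^ 2 ≤ p ^ m := Nat.pow_le_pow_right (by omega) hm2'
          nlinarith
        interval_cases m
        · simp
        · simp at hDp'
      have hBD : B ≤ D := Subgroup.relIndex_eq_one.mp h1
      have h2 : X ⊓ Subgroup.centralizer (D : Set G) ≤ X ⊓ Subgroup.centralizer (D' : Set G) :=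
        inf_le_inf_left _ (Subgroup.centralizer_le (SetLike.coe_subset_coe.mpr (hD'B.trans hBD)))
      exact (h2.trans (key D' hD'B)).trans (le_iSup
        (fun D : {D : Subgroup G // D ≤ B ∧ D.relIndex B = p} =>
          X ⊓ Cfsg.signalizerInf (D : Subgroup G) θ) ⟨D', hD'B, hD'p⟩)
  · exact iSup_le fun _ => inf_le_left

end Cfsg.Agent.S1331
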