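import Cfsg.Statements.S1335
import Mathlib

set_option autoImplicit false
open Cfsg

namespace Cfsg.Agent.S1335

theorem pRankLE_of_injective {G G' : Type*} [Group G] [Group G'] {p k : ℕ} (f : G →* G')
    (hf : Function.Injective f) (h : PRankLE p k G') : PRankLE p k G := by
  intro A hAc hAe
  have h1 : IsMulCommutative (A.map f) := by
    refine ⟨⟨?_⟩⟩
    rintro ⟨_, a, ha, rfl⟩ ⟨_, b, hb, rfl⟩
    apply Subtype.ext
    show f a * f b = f b * f a
    have := hAc.is_comm.comm ⟨a, ha⟩ ⟨b, hb⟩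
    rw [← map_mul, ← map_mul]
    exact congrArg f (congrArg Subtype.val this)
  have h2 : ∀ y ∈ A.map f, y ^ p = 1 := by
    rintro _ ⟨a, ha, rfl⟩
    rw [← map_pow, hAe a ha, map_one]
  have := h (A.map f) h1 h2
  rwa [Subgroup.card_map_of_injective hf] at this

/-- Let H be a subgroup of the finite group G, p a prime, k ≥ 1, P a Sylow p-subgroup of H of p-rank at least k, and suppose N_G(X) ≤ H for every subgroup X ≤ P of p-rank at least k. Then P is a Sylow p-subgroup of G. -/
theorem result {G : Type*} [Group G] [Finite G] {p : ℕ} [Fact p.Prime] (k : ℕ) (hk : 1 ≤ k) (H : Subgroup G) (P : Sylow p ↥H) (hP : ¬ Cfsg.PRankLE p (k - 1) ↥(P : Subgroup ↥H)) (hΓ : (∀ X : Subgroup G, X ≤ (P : Subgroup ↥H).map H.subtype → ¬ Cfsg.PRankLE p (k - 1) ↥X → Subgroup.normalizer (X : Set G) ≤ H)) : ∃ Q : Sylow p G, (Q : Subgroup G) = (P : Subgroup ↥H).map H.subtype := by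
  have hP' : IsPGroup p ((P : Subgroup H).map H.subtype) := P.2.map _
  obtain ⟨Q, hQ⟩ := hP'.exists_le_sylow
  refine ⟨Q, ?_⟩
  by_contra hne
  have hlt : ((P : Subgroup H).map H.subtype).subgroupOf (Q : Subgroup G) < ⊤ := by
    rw [lt_top_iff_ne_top]
    intro h
    rw [Subgroup.subgroupOf_eq_top] at h
    exact hne (le_antisymm h hQ)
  have hnil : Group.IsNilpotent (Q : Subgroup G) := Q.2.isNilpotent
  have hnc := Group.normalizerCondition_of_isNilpotent (G := (Q : Subgroup G)) _ hlt
  obtain ⟨y, hyN, hyP⟩ := SetLike.exists_of_lt hnc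
  have hyP' : (y : G) ∉ (P : Subgroup H).map H.subtype := hyP
  have hyN' : (y : G) ∈ Subgroup.normalizer
      (((P : Subgroup H).map H.subtype : Subgroup G) : Set G) := by
    rw [Subgroup.mem_normalizer_iff] at hyN ⊢
    intro h
    constructor
    · intro hh
      exact (hyN ⟨h, hQ hh⟩).mp hh
    · intro hh
      have hhQ : h ∈ (Q : Subgroup G) := by
        have := (Q : Subgroup G).mul_mem
          ((Q : Subgroup G).mul_mem ((Q : Subgroup G).inv_mem y.2) (hQ hh)) y.2
        simpa [mul_assoc] using this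
      exact (hyN ⟨h, hhQ⟩).mpr hh
  have hrank : ¬ PRankLE p (k - 1) ↥((P : Subgroup H).map H.subtype) := by
    intro h
    exact hP (pRankLE_of_injective
      ((Subgroup.equivMapOfInjective (P : Subgroup H) H.subtype
        H.subtype_injective).toMonoidHom) (MulEquiv.injective _) h)
  have hyH : (y : G) ∈ H := hΓ _ le_rfl hrank hyN'
  have hR : IsPGroup p (((P : Subgroup H).map H.subtype ⊔
      Subgroup.zpowers (y : G)).subgroupOf H) :=
    (Q.2.to_le (sup_le hQ (Subgroup.zpowers_le.mpr y.2))).comap_subtype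
  have hPR : (P : Subgroup H) ≤ ((P : Subgroup H).map H.subtype ⊔
      Subgroup.zpowers (y : G)).subgroupOf H := by
    intro u hu
    rw [Subgroup.mem_subgroupOf]
    exact Subgroup.mem_sup_left ⟨u, hu, rfl⟩
  have hmax := P.is_maximal' hR hPR
  have : (⟨y, hyH⟩ : H) ∈ (P : Subgroup H) := by
    rw [← hmax, Subgroup.mem_subgroupOf]
    exact Subgroup.mem_sup_right (Subgroup.mem_zpowers _)
  exact hyP' ⟨⟨y, hyH⟩, this, rfl⟩

end Cfsg.Agent.S1335
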