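import Cfsg.Statements.S1441
import Mathlib

set_option autoImplicit false
open Cfsg
open scoped commutatorElement

namespace Cfsg.Agent.S1441

theorem conj_pow_aux {G : Type*} [Group G] (a h w : G) (haw : a * w = w * a)
    (hconj : a * h * a⁻¹ = w * h) (k : ℕ) : a ^ k * h * (a ^ k)⁻¹ = w ^ k * h := by
  induction k with
  | zero => simp
  | succ k ih =>
    have hw : a * w ^ k * a⁻¹ = w ^ k := by
      have : Commute a (w ^ k) := (show Commute a w from haw).pow_right k
      rw [this.eq, mul_inv_cancel_right]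
    calc a ^ (k + 1) * h * (a ^ (k + 1))⁻¹
        = a * (a ^ k * h * (a ^ k)⁻¹) * a⁻¹ := by
          rw [pow_succ']; group
      _ = a * (w ^ k * h) * a⁻¹ := by rw [ih]
      _ = (a * w ^ k * a⁻¹) * (a * h * a⁻¹) := by group
      _ = w ^ k * (w * h) := by rw [hw, hconj]
      _ = w ^ (k + 1) * h := by rw [pow_succ, mul_assoc]

theorem centralizes_of_coprime {G : Type*} [Group G] [Finite G] (H A : Subgroup G)
    (n : ℕ) (c : Fin (n + 1) → Subgroup G) (hc0 : c 0 = H) (hcn : c (Fin.last n) = ⊥) (hanti : Antitone c)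
    (htriv : ∀ i : Fin n, ⁅c i.castSucc, A⁆ ≤ c i.succ)
    (a : G) (ha : a ∈ A) (hcop : (orderOf a).Coprime (Nat.card H)) :
    ∀ i : Fin (n + 1), ∀ h ∈ c i, a * h = h * a := by
  intro i
  induction i using Fin.reverseInduction with
  | last =>
    intro h hh
    rw [hcn, Subgroup.mem_bot] at hh
    simp [hh]
  | cast i ih =>
    intro h hh
    have hz : ⁅h, a⁆ ∈ c i.succ := htriv i (Subgroup.commutator_mem_commutator hh ha)
    set w := (⁅h, a⁆)⁻¹ with hw
    have hwmem : w ∈ c i.succ := (c i.succ).inv_mem hz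
    have haw : a * w = w * a := ih w hwmem
    have hconj : a * h * a⁻¹ = w * h := by
      rw [hw, commutatorElement_def]; group
    have hpow := conj_pow_aux a h w haw hconj (orderOf a)
    rw [pow_orderOf_eq_one] at hpow
    have hw1 : w ^ orderOf a = 1 := by
      have : h = w ^ orderOf a * h := by simpa using hpow
      exact (mul_eq_right.mp this.symm)
    have hwH : w ∈ H := by
      rw [← hc0]
      exact hanti (Fin.zero_le _) hwmem
    have hw2 : w ^ Nat.card H = 1 := by
      have h0 : (⟨w, hwH⟩ : H) ^ Nat.card H = 1 := pow_card_eq_one'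
      have h1 : (((⟨w, hwH⟩ : H) ^ Nat.card H : H) : G) = ((1 : H) : G) := by rw [h0]
      rwa [Subgroup.coe_pow, Subgroup.coe_one] at h1
    have hw3 : w = 1 := by
      have h1 : orderOf w ∣ orderOf a := orderOf_dvd_of_pow_eq_one hw1
      have h2 : orderOf w ∣ Nat.card H := orderOf_dvd_of_pow_eq_one hw2
      have : orderOf w = 1 := Nat.eq_one_of_dvd_coprimes hcop h1 h2
      exact orderOf_eq_one_iff.mp this
    rw [hw3, one_mul] at hconj
    calc a * h = (a * h * a⁻¹) * a := by group
      _ = h * a := by rw [hconj]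

/-- Let G be a finite group, H a solvable subgroup and A a subgroup normalizing H. Suppose there is a chain H = H₀ ≥ H₁ ≥ ⋯ ≥ H_n = 1 of subgroups normal in H and normalized by A such that A acts trivially on each factor H_{i-1}/H_i (that is, [H_{i-1}, A] ≤ H_i). Then every prime dividing the index of C_A(H) in A divides the order of H. -/
theorem result {G : Type*} [Group G] [Finite G] (H A : Subgroup G) (hH : Group.IsSolvable H) (hA : (A ≤ Subgroup.normalizer (H : Set G)))
    (n : ℕ) (c : Fin (n + 1) → Subgroup G) (hc0 : c 0 = H) (hcn : c (Fin.last n) = ⊥) (hanti : Antitone c)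
    (hcN : ∀ i, H ≤ Subgroup.normalizer ((c i : Subgroup G) : Set G)) (hcA : ∀ i, A ≤ Subgroup.normalizer ((c i : Subgroup G) : Set G))
    (htriv : ∀ i : Fin n, ⁅c i.castSucc, A⁆ ≤ c i.succ) :
    ∀ p : ℕ, p.Prime → p ∣ (A ⊓ Subgroup.centralizer (H : Set G)).relIndex A → p ∣ Nat.card H := by
  intro p hp hdvd
  by_contra hnd
  have : Fact p.Prime := ⟨hp⟩
  obtain ⟨P⟩ : Nonempty (Sylow p A) := inferInstance
  have hPle : (P : Subgroup A) ≤ (A ⊓ Subgroup.centralizer (H : Set G)).subgroupOf A := by
    intro x hx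
    rw [Subgroup.mem_subgroupOf]
    refine ⟨x.2, ?_⟩
    -- the order of x is a power of p
    obtain ⟨k, hk⟩ := (P.isPGroup' ) ⟨x, hx⟩
    have hxk : (x : G) ^ p ^ k = 1 := by
      have := congrArg (fun y : (P : Subgroup A) => ((y : A) : G)) hk
      simpa using this
    have hord : orderOf (x : G) ∣ p ^ k := orderOf_dvd_of_pow_eq_one hxk
    have hcop : (orderOf (x : G)).Coprime (Nat.card H) := by
      apply Nat.Coprime.coprime_dvd_left hord
      exact Nat.Coprime.pow_left k ((Nat.Prime.coprime_iff_not_dvd hp).mpr hnd)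
    have := centralizes_of_coprime H A n c hc0 hcn hanti htriv (x : G) x.2 hcop 0
    rw [hc0] at this
    show (x : G) ∈ Subgroup.centralizer (H : Set G)
    rw [Subgroup.mem_centralizer_iff]
    intro h hh
    exact (this h hh).symm
  have h1 : ((A ⊓ Subgroup.centralizer (H : Set G)).subgroupOf A).index ∣ (P : Subgroup A).index :=
    Subgroup.index_dvd_of_le hPle
  have h2 : ¬ p ∣ (P : Subgroup A).index := P.not_dvd_index
  exact h2 (dvd_trans hdvd h1)

end Cfsg.Agent.S1441
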