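import Cfsg.Statements.S1442
import Cfsg.Agent.S1441
import Cfsg.Agent.Helper11.Basic

set_option autoImplicit false
open Cfsg

namespace Cfsg.Agent.S1442

open Cfsg.Agent.Helper11

/-- Let G be a finite group, H a nilpotent subgroup and A a subgroup normalizing H with the orders of A and H coprime. Put C = H ∩ C_G(A). If H ∩ C_G(C) ≤ C then A centralizes H. -/
theorem result {G : Type*} [Group G] [Finite G] (H A : Subgroup G) (hH : Group.IsNilpotent H) (hA : (A ≤ Subgroup.normalizer (H : Set G))) (hcop : (Nat.card A).Coprime (Nat.card H))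
    (hC : H ⊓ Subgroup.centralizer (((H ⊓ Subgroup.centralizer (A : Set G)) : Subgroup G) : Set G) ≤ (H ⊓ Subgroup.centralizer (A : Set G))) :
    A ≤ Subgroup.centralizer (H : Set G) := by
  set C := H ⊓ Subgroup.centralizer (A : Set G) with hCdef
  have hCH : C ≤ H := inf_le_left
  have hCA : ∀ c ∈ C, ∀ a ∈ A, a * c = c * a := by
    intro c hc a ha
    have := (Subgroup.mem_inf.mp hc).2
    rw [Subgroup.mem_centralizer_iff] at this
    exact this a ha
  -- key claim: any x ∈ H normalising C (both ways) lies in C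
  have key : ∀ x ∈ H, (∀ c ∈ C, x⁻¹ * c * x ∈ C) → x ∈ C := by
    intro x hx hxN
    refine Subgroup.mem_inf.mpr ⟨hx, ?_⟩
    rw [Subgroup.mem_centralizer_iff]
    intro a ha
    -- z = a x a⁻¹ x⁻¹
    have haxH : a * x * a⁻¹ ∈ H := (Subgroup.mem_set_normalizer_iff.mp (hA ha) x).mp hx
    have hzH : a * x * a⁻¹ * x⁻¹ ∈ H := H.mul_mem haxH (H.inv_mem hx)
    have hzC : a * x * a⁻¹ * x⁻¹ ∈ C := by
      apply hC
      refine Subgroup.mem_inf.mpr ⟨hzH, ?_⟩
      rw [Subgroup.mem_centralizer_iff]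
      intro c hc
      have hc₁ := hxN c hc
      have e1 : a⁻¹ * (x⁻¹ * c * x) * a = x⁻¹ * c * x := by
        have := hCA _ hc₁ a ha
        calc a⁻¹ * (x⁻¹ * c * x) * a = a⁻¹ * ((x⁻¹ * c * x) * a) := by group
          _ = a⁻¹ * (a * (x⁻¹ * c * x)) := by rw [this]
          _ = x⁻¹ * c * x := by group
      have e2 : a * c * a⁻¹ = c := by
        have := hCA c hc a ha
        rw [this]; group
      calc c * (a * x * a⁻¹ * x⁻¹) = (a * c * a⁻¹) * (a * x * a⁻¹ * x⁻¹) := by rw [e2]
        _ = a * x * (x⁻¹ * c * x) * a⁻¹ * x⁻¹ := by group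
        _ = a * x * (a⁻¹ * (x⁻¹ * c * x) * a) * a⁻¹ * x⁻¹ := by rw [e1]
        _ = a * x * a⁻¹ * x⁻¹ * c := by group
    set z := a * x * a⁻¹ * x⁻¹ with hz
    have haz : a * z = z * a := hCA z hzC a ha
    have hconj : a * x * a⁻¹ = z * x := by rw [hz]; group
    have hpow := Cfsg.Agent.S1441.conj_pow_aux a x z haz hconj (orderOf a)
    rw [pow_orderOf_eq_one] at hpow
    have hz1 : z ^ orderOf a = 1 := by
      have : x = z ^ orderOf a * x := by simpa using hpow
      exact mul_eq_right.mp this.symm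
    have hz2 : z ^ Nat.card H = 1 := pow_card_subgroup_eq_one H hzH
    have hz3 : z = 1 := by
      have h1 : orderOf z ∣ orderOf a := orderOf_dvd_of_pow_eq_one hz1
      have h2 : orderOf z ∣ Nat.card H := orderOf_dvd_of_pow_eq_one hz2
      have h3 : orderOf a ∣ Nat.card A :=
        orderOf_dvd_of_pow_eq_one (pow_card_subgroup_eq_one A ha)
      exact orderOf_eq_one_iff.mp (Nat.eq_one_of_dvd_coprimes hcop (h1.trans h3) h2)
    rw [hz3, one_mul] at hconj
    calc a * x = (a * x * a⁻¹) * a := by group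
      _ = x * a := by rw [hconj]
  -- normaliser condition inside H
  have hNC : NormalizerCondition H := normalizerCondition_of_isNilpotent
  have htop : C.subgroupOf H = ⊤ := by
    by_contra hne
    have hlt : C.subgroupOf H < ⊤ := lt_top_iff_ne_top.mpr hne
    have hlt' := hNC _ hlt
    obtain ⟨x', hx'N, hx'C⟩ := SetLike.exists_of_lt hlt'
    apply hx'C
    rw [Subgroup.mem_subgroupOf]
    apply key (x' : G) x'.2
    intro c hc
    have hx'inv : x'⁻¹ ∈ Subgroup.normalizer ((C.subgroupOf H : Subgroup H) : Set H) :=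
      Subgroup.inv_mem _ hx'N
    have h' : x'⁻¹ * ⟨c, hCH hc⟩ * x'⁻¹⁻¹ ∈ C.subgroupOf H :=
      (Subgroup.mem_set_normalizer_iff.mp hx'inv ⟨c, hCH hc⟩).mp
        (Subgroup.mem_subgroupOf.mpr hc)
    have h'' := Subgroup.mem_subgroupOf.mp h'
    simpa using h''
  have hHC : H ≤ C := by
    intro x hx
    have : (⟨x, hx⟩ : H) ∈ C.subgroupOf H := by rw [htop]; trivial
    exact Subgroup.mem_subgroupOf.mp this
  intro a ha
  rw [Subgroup.mem_centralizer_iff]
  intro x hx
  exact (hCA x (hHC hx) a ha).symm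

end Cfsg.Agent.S1442
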