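import Cfsg.Statements.S1443
import Mathlib
import Cfsg.Agent.Helper10.AxB
import Cfsg.Agent.Helper10.NormP
import Cfsg.Agent.Helper21.OmegaCoprime

set_option autoImplicit false
open Cfsg

namespace Cfsg.Agent.S1443

/-- Let G be a finite group, p an odd prime, H a p-subgroup, E an elementary abelian subgroup of H, and A a subgroup of order coprime to p normalizing H. If A centralizes every element of order p in H ∩ C_G(E), then A centralizes H. -/
theorem result {G : Type*} [Group G] [Finite G] (p : ℕ) [Fact p.Prime] (hp : p ≠ 2) (H E A : Subgroup G) (hH : IsPGroup p H) (hE : E ≤ H) (hEe : Cfsg.IsElementaryAbelian p E)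
    (hA : (A ≤ Subgroup.normalizer (H : Set G))) (hcop : (Nat.card A).Coprime p)
    (hfix : ∀ x ∈ (H ⊓ Subgroup.centralizer (E : Set G)), orderOf x = p → A ≤ Subgroup.centralizer ({x} : Set G)) :
    A ≤ Subgroup.centralizer (H : Set G) := by
  have hpp : p.Prime := Fact.out
  obtain ⟨hEc, hEp⟩ := hEe
  -- orders of elements of A are coprime to p
  have hAord : ∀ b ∈ A, (orderOf b).Coprime p := by
    intro b hb
    have h1 : orderOf b ∣ Nat.card A := by
      have := Subgroup.orderOf_dvd_natCard A hb
      exact this
    exact Nat.Coprime.coprime_dvd_left h1 hcop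
  -- an element with u^p = 1 in H ⊓ C(E) commutes with A
  have hfix' : ∀ u ∈ (H ⊓ Subgroup.centralizer (E : Set G)), u ^ p = 1 → ∀ a ∈ A, a * u = u * a := by
    intro u hu hup a ha
    by_cases hu1 : u = 1
    · subst hu1; simp
    · have ho : orderOf u = p := by
        have hd : orderOf u ∣ p := orderOf_dvd_of_pow_eq_one hup
        rcases (Nat.dvd_prime hpp).mp hd with h | h
        · exact absurd (orderOf_eq_one_iff.mp h) hu1
        · exact h
      have := hfix u hu ho ha
      exact Subgroup.mem_centralizer_singleton_iff.mp this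
  -- E ≤ H ⊓ C(E)
  have hEC : E ≤ H ⊓ Subgroup.centralizer (E : Set G) := by
    intro e he
    refine ⟨hE he, ?_⟩
    change e ∈ Subgroup.centralizer (E : Set G)
    rw [Subgroup.mem_centralizer_iff]
    intro g hg
    have := hEc.is_comm.comm (⟨g, hg⟩ : E) ⟨e, he⟩
    exact congrArg Subtype.val this
  -- A centralizes E
  have hAE : A ≤ Subgroup.centralizer (E : Set G) := by
    intro a ha
    rw [Subgroup.mem_centralizer_iff]
    intro e he
    exact (hfix' e (hEC he) (hEp e he) a ha).symm
  -- A normalizes C(E)
  have hAN : A ≤ Subgroup.normalizer ((Subgroup.centralizer (E : Set G) : Subgroup G) : Set G) :=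
    hAE.trans Subgroup.le_normalizer
  have hANC : A ≤ Subgroup.normalizer ((H ⊓ Subgroup.centralizer (E : Set G) : Subgroup G) : Set G) :=
    Cfsg.Agent.Helper10.le_normalizer_inf hA hAN
  -- A centralizes H ⊓ C(E)
  have hAC : A ≤ Subgroup.centralizer ((H ⊓ Subgroup.centralizer (E : Set G) : Subgroup G) : Set G) := by
    intro a ha
    exact Cfsg.Agent.Helper21.oc_centralizes_odd hp a (hAord a ha) _ (hH.to_le inf_le_left)
      (hANC ha) (fun u hu hup => hfix' u hu hup a ha)
  have hC : ⁅H ⊓ Subgroup.centralizer (E : Set G), A⁆ = ⊥ := by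
    rw [Subgroup.commutator_comm, Subgroup.commutator_eq_bot_iff_le_centralizer]
    exact hAC
  have hEA : ⁅E, A⁆ = ⊥ := by
    rw [Subgroup.commutator_comm, Subgroup.commutator_eq_bot_iff_le_centralizer]
    exact hAE
  have hfin := Cfsg.Agent.Helper10.thompson_AxB E A H hH (hH.to_le hE) hAord hEA
    (hE.trans Subgroup.le_normalizer) hA hC
  rw [Subgroup.commutator_comm, Subgroup.commutator_eq_bot_iff_le_centralizer] at hfin
  exact hfin

end Cfsg.Agent.S1443
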