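import Cfsg.Statements.S1460
import Mathlib
import Cfsg.Agent.Helper11.FusionCore

set_option autoImplicit false
open Cfsg

namespace Cfsg.Agent.S1460

open Cfsg.Agent.Helper11
open scoped commutatorElement

/-- Let G be a finite solvable group, K a normal subgroup and U a subgroup with G = KU, and H ≤ U a subgroup whose order is coprime to that of K. Then H ∩ G' = H ∩ U'; N_G(H) is generated by K ∩ C_G(H) and U ∩ N_G(H); and if gHg⁻¹ ≤ U for some g ∈ G then g = u c with u ∈ U and c ∈ K ∩ C_G(H). -/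
theorem result {G : Type*} [Group G] [Finite G] [Group.IsSolvable G] (K U H : Subgroup G) [K.Normal] (hKU : K ⊔ U = ⊤) (hH : H ≤ U) (hcop : (Nat.card H).Coprime (Nat.card K)) :
    H ⊓ commutator G = H ⊓ ⁅U, U⁆ ∧
      Subgroup.normalizer (H : Set G) = (K ⊓ Subgroup.centralizer (H : Set G)) ⊔ (U ⊓ Subgroup.normalizer (H : Set G)) ∧
      ∀ g : G, H.map (MulAut.conj g).toMonoidHom ≤ U → ∃ u ∈ U, ∃ c ∈ K ⊓ Subgroup.centralizer (H : Set G), g = u * c := by
  classical
  have hsolvK : Group.IsSolvable K := inferInstance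
  -- (iii) first
  have h3 : ∀ g : G, H.map (MulAut.conj g).toMonoidHom ≤ U → ∃ u ∈ U, ∃ c ∈ K ⊓ Subgroup.centralizer (H : Set G), g = u * c := by
    intro g hg
    have hgtop : g ∈ U ⊔ K := by rw [sup_comm, hKU]; trivial
    rw [Subgroup.mem_sup_of_normal_right] at hgtop
    obtain ⟨u, hu, k, hk, rfl⟩ := hgtop
    have hkU : ∀ h ∈ H, k * h * k⁻¹ ∈ U := by
      intro h hh
      have h1 : (MulAut.conj (u * k)).toMonoidHom h ∈ U := hg (Subgroup.mem_map_of_mem _ hh)
      have h2 : (MulAut.conj (u * k)).toMonoidHom h = u * (k * h * k⁻¹) * u⁻¹ := by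
        simp [MulAut.conj_apply, mul_assoc]
      rw [h2] at h1
      have h4 := U.mul_mem (U.mul_mem (U.inv_mem hu) h1) hu
      have h5 : u⁻¹ * (u * (k * h * k⁻¹) * u⁻¹) * u = k * h * k⁻¹ := by group
      rw [h5] at h4
      exact h4
    obtain ⟨w, hw, c, hc, rfl⟩ := fusion_core K U H hH hcop (Or.inr hsolvK) k hk hkU
    exact ⟨u * w, U.mul_mem hu hw.1, c, hc, by group⟩
  refine ⟨?_, ?_, h3⟩
  · -- (i)
    apply le_antisymm
    · rintro h ⟨hhH, hhG⟩
      refine ⟨hhH, ?_⟩
      -- G' ≤ ⁅U,U⁆ ⊔ K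
      have hG' : commutator G ≤ ⁅U, U⁆ ⊔ K := by
        rw [commutator_def, Subgroup.commutator_le]
        intro a _ b _
        have ha : a ∈ U ⊔ K := by rw [sup_comm, hKU]; trivial
        have hb : b ∈ U ⊔ K := by rw [sup_comm, hKU]; trivial
        rw [Subgroup.mem_sup_of_normal_right] at ha hb
        obtain ⟨u₁, hu₁, k₁, hk₁, rfl⟩ := ha
        obtain ⟨u₂, hu₂, k₂, hk₂, rfl⟩ := hb
        have h1 : (QuotientGroup.mk' K) ⁅u₁ * k₁, u₂ * k₂⁆ = (QuotientGroup.mk' K) ⁅u₁, u₂⁆ := by
          have e1 : (QuotientGroup.mk' K) (u₁ * k₁) = (QuotientGroup.mk' K) u₁ := by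
            have hk1' : (QuotientGroup.mk' K) k₁ = 1 := (QuotientGroup.eq_one_iff k₁).2 hk₁
            rw [map_mul, hk1', mul_one]
          have e2 : (QuotientGroup.mk' K) (u₂ * k₂) = (QuotientGroup.mk' K) u₂ := by
            have hk2' : (QuotientGroup.mk' K) k₂ = 1 := (QuotientGroup.eq_one_iff k₂).2 hk₂
            rw [map_mul, hk2', mul_one]
          rw [map_commutatorElement, map_commutatorElement, e1, e2]
        have h2 : (⁅u₁, u₂⁆)⁻¹ * ⁅u₁ * k₁, u₂ * k₂⁆ ∈ K := by
          have := QuotientGroup.eq.1 h1.symm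
          exact this
        have h4 : ⁅u₁ * k₁, u₂ * k₂⁆ = ⁅u₁, u₂⁆ * ((⁅u₁, u₂⁆)⁻¹ * ⁅u₁ * k₁, u₂ * k₂⁆) := by group
        rw [h4]
        exact Subgroup.mul_mem_sup (Subgroup.commutator_mem_commutator hu₁ hu₂) h2
      have hh' := hG' hhG
      rw [Subgroup.mem_sup_of_normal_right] at hh'
      obtain ⟨d, hd, k, hk, hdk⟩ := hh'
      have hUU : ⁅U, U⁆ ≤ U := by
        rw [Subgroup.commutator_le]
        intro a ha b hb
        exact U.mul_mem (U.mul_mem (U.mul_mem ha hb) (U.inv_mem ha)) (U.inv_mem hb)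
      have hdU : d ∈ U := hUU hd
      have hkU : k ∈ U := by
        have : k = d⁻¹ * h := by rw [← hdk]; group
        rw [this]; exact U.mul_mem (U.inv_mem hdU) (hH hhH)
      -- abelianization of U
      let φ : U →* Abelianization U := Abelianization.of
      have hker : ∀ x : U, φ x = 1 ↔ (x : G) ∈ ⁅U, U⁆ := by
        intro x
        have h1 : φ x = 1 ↔ x ∈ commutator U := by
          rw [← Abelianization.ker_of (G := U)]
          exact Iff.rfl
        rw [h1, ← Subgroup.map_subtype_commutator, commutator_def]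
        constructor
        · intro hx; exact Subgroup.mem_map_of_mem _ hx
        · rintro ⟨y, hy, hyx⟩
          have : y = x := Subtype.ext hyx
          rw [← this]; exact hy
      have hφd : φ ⟨d, hdU⟩ = 1 := (hker _).2 hd
      have hφ : φ ⟨h, hH hhH⟩ = φ ⟨k, hkU⟩ := by
        have : (⟨h, hH hhH⟩ : U) = ⟨d, hdU⟩ * ⟨k, hkU⟩ := Subtype.ext hdk.symm
        rw [this, map_mul, hφd, one_mul]
      have ho1 : orderOf (φ ⟨h, hH hhH⟩) ∣ Nat.card H := by
        refine (orderOf_map_dvd φ _).trans ?_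
        have : orderOf (⟨h, hH hhH⟩ : U) = orderOf h := by
          rw [← Subgroup.orderOf_coe]
        rw [this]
        have := orderOf_dvd_natCard (⟨h, hhH⟩ : H)
        rwa [← Subgroup.orderOf_coe] at this
      have ho2 : orderOf (φ ⟨h, hH hhH⟩) ∣ Nat.card K := by
        rw [hφ]
        refine (orderOf_map_dvd φ _).trans ?_
        have : orderOf (⟨k, hkU⟩ : U) = orderOf k := by
          rw [← Subgroup.orderOf_coe]
        rw [this]
        have := orderOf_dvd_natCard (⟨k, hk⟩ : K)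
        rwa [← Subgroup.orderOf_coe] at this
      have ho : orderOf (φ ⟨h, hH hhH⟩) = 1 := Nat.eq_one_of_dvd_coprimes hcop ho1 ho2
      rw [orderOf_eq_one_iff] at ho
      exact (hker _).1 ho
    · rintro h ⟨hhH, hhU⟩
      refine ⟨hhH, ?_⟩
      rw [commutator_def]
      exact Subgroup.commutator_mono le_top le_top hhU
  · -- (ii)
    apply le_antisymm
    · intro g hg
      have hmap : H.map (MulAut.conj g).toMonoidHom ≤ U := by
        rintro _ ⟨h, hh, rfl⟩
        exact hH ((Subgroup.mem_normalizer_iff.mp hg h).mp hh)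
      obtain ⟨u, hu, c, hc, rfl⟩ := h3 g hmap
      have hcN : c ∈ Subgroup.normalizer (H : Set G) := Subgroup.centralizer_le_normalizer _ hc.2
      have huN : u ∈ Subgroup.normalizer (H : Set G) := by
        have := (Subgroup.normalizer (H : Set G)).mul_mem hg ((Subgroup.normalizer (H : Set G)).inv_mem hcN)
        simpa using this
      rw [sup_comm]
      exact Subgroup.mul_mem_sup ⟨hu, huN⟩ hc
    · refine sup_le ?_ inf_le_right
      exact inf_le_right.trans (Subgroup.centralizer_le_normalizer _)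

end Cfsg.Agent.S1460
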