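import Cfsg.Statements.S1461
import Mathlib
import Cfsg.Agent.Helper11.FusionCore
import Cfsg.Agent.Helper11.PLength
import Cfsg.Agent.S1460

set_option autoImplicit false
open Cfsg

namespace Cfsg.Agent.S1461

open Cfsg.Agent.Helper11
open scoped commutatorElement

/-- Let G be a finite solvable group, p a prime with G = O_{p',p,p'}(G), and S a Sylow p-subgroup. Then: if S ≤ G' then S ≤ [N_G(S), N_G(S)]; if Y ⊆ S and xYx⁻¹ ⊆ S then x = g c for some g ∈ N_G(S) and c centralizing Y; and for every p-subgroup Q there is x ∈ C_G(Q ∩ S) with xQx⁻¹ ≤ S. -/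
theorem result {G : Type*} [Group G] [Finite G] [Group.IsSolvable G] (p : ℕ) [Fact p.Prime] (hpl : Cfsg.PLengthLE p 1 G) (S : Sylow p G) :
    ((S : Subgroup G) ≤ commutator G → (S : Subgroup G) ≤ ⁅Subgroup.normalizer ((S : Subgroup G) : Set G), Subgroup.normalizer ((S : Subgroup G) : Set G)⁆) ∧
      (∀ (Y : Set G) (x : G), Y ⊆ (S : Subgroup G) → (fun y => x * y * x⁻¹) '' Y ⊆ (S : Subgroup G) →
        ∃ g ∈ Subgroup.normalizer ((S : Subgroup G) : Set G), ∃ c ∈ Subgroup.centralizer Y, g * c = x) ∧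
      ∀ Q : Subgroup G, IsPGroup p Q → ∃ x ∈ Subgroup.centralizer ((Q ⊓ (S : Subgroup G) : Subgroup G) : Set G), Q.map (MulAut.conj x).toMonoidHom ≤ (S : Subgroup G) := by
  classical
  have hp := (Fact.out : p.Prime)
  set K := Cfsg.pPrimeCore p G with hKdef
  set U := Subgroup.normalizer ((S : Subgroup G) : Set G) with hUdef
  have hUK : U ⊔ K = ⊤ := plength_one_frattini p G hpl S
  have hKU : K ⊔ U = ⊤ := by rw [sup_comm]; exact hUK
  have hKcop : (Nat.card K).Coprime p := Cfsg.Agent.Helper10.pPrimeCore_coprime p G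
  have hSU : (S : Subgroup G) ≤ U := Subgroup.le_normalizer
  have hcopQ : ∀ Q : Subgroup G, IsPGroup p Q → (Nat.card Q).Coprime (Nat.card K) := by
    intro Q hQ
    obtain ⟨n, hn⟩ := IsPGroup.iff_card.mp hQ
    rw [hn]
    exact (Nat.Coprime.pow_right n hKcop).symm
  have hsolvK : Group.IsSolvable K := inferInstance
  refine ⟨?_, ?_, ?_⟩
  · intro hSG
    have h1 := (Cfsg.Agent.S1460.result K U (S : Subgroup G) hKU hSU (hcopQ _ S.2)).1
    have h2 : (S : Subgroup G) ≤ (S : Subgroup G) ⊓ commutator G := le_inf le_rfl hSG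
    rw [h1] at h2
    exact h2.trans inf_le_right
  · intro Y x hYS hxY
    have hH : Subgroup.closure Y ≤ (S : Subgroup G) := (Subgroup.closure_le _).2 hYS
    have hmap : (Subgroup.closure Y).map (MulAut.conj x).toMonoidHom ≤ U := by
      rw [MonoidHom.map_closure, Subgroup.closure_le]
      rintro _ ⟨y, hy, rfl⟩
      apply hSU
      apply hxY
      exact ⟨y, hy, by simp [MulAut.conj_apply]⟩
    have hcop' : (Nat.card (Subgroup.closure Y)).Coprime (Nat.card K) := hcopQ _ (S.2.to_le hH)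
    obtain ⟨u, hu, c, hc, hxuc⟩ := (Cfsg.Agent.S1460.result K U (Subgroup.closure Y) hKU (hH.trans hSU) hcop').2.2 x hmap
    refine ⟨u, hu, c, ?_, hxuc.symm⟩
    have := hc.2
    rw [Subgroup.centralizer_closure] at this
    exact this
  · intro Q hQ
    -- Q is conjugate into S
    obtain ⟨P', hQP'⟩ := hQ.exists_le_sylow
    obtain ⟨g, hg⟩ := MulAction.exists_smul_eq G P' S
    have hgQ : ∀ y ∈ Q, g * y * g⁻¹ ∈ (S : Subgroup G) := by
      intro y hy
      have h1 : g * y * g⁻¹ ∈ ((g • P' : Sylow p G) : Subgroup G) := by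
        rw [Sylow.coe_subgroup_smul, Cfsg.Agent.Lead.mem_conj_smul']
        have : g⁻¹ * (g * y * g⁻¹) * g = y := by group
        rw [this]; exact hQP' hy
      rw [hg] at h1
      exact h1
    have hgtop : g ∈ U ⊔ K := by rw [hUK]; trivial
    rw [Subgroup.mem_sup_of_normal_right] at hgtop
    obtain ⟨n, hn, k, hk, rfl⟩ := hgtop
    have hkQ : ∀ y ∈ Q, k * y * k⁻¹ ∈ (S : Subgroup G) := by
      intro y hy
      have h1 := hgQ y hy
      have h2 : n⁻¹ * (n * k * y * (n * k)⁻¹) * n⁻¹⁻¹ ∈ (S : Subgroup G) :=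
        (Subgroup.mem_normalizer_iff.mp (U.inv_mem hn) _).mp h1
      have h3 : n⁻¹ * (n * k * y * (n * k)⁻¹) * n⁻¹⁻¹ = k * y * k⁻¹ := by group
      rw [h3] at h2
      exact h2
    have hH : Q ⊓ (S : Subgroup G) ≤ (S : Subgroup G) := inf_le_right
    obtain ⟨w, hw, c, hc, hkwc⟩ := fusion_core K (S : Subgroup G) (Q ⊓ (S : Subgroup G)) hH
      (hcopQ _ (S.2.to_le hH)) (Or.inr hsolvK) k hk (fun y hy => hkQ y hy.1)
    refine ⟨c, hc.2, ?_⟩
    rintro _ ⟨y, hy, rfl⟩
    have h1 := hkQ y hy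
    rw [hkwc] at h1
    have h2 : w⁻¹ * (w * c * y * (w * c)⁻¹) * w ∈ (S : Subgroup G) :=
      (S : Subgroup G).mul_mem ((S : Subgroup G).mul_mem ((S : Subgroup G).inv_mem hw.1) h1) hw.1
    have h3 : w⁻¹ * (w * c * y * (w * c)⁻¹) * w = c * y * c⁻¹ := by group
    rw [h3] at h2
    simpa [MulAut.conj_apply] using h2

end Cfsg.Agent.S1461
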