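import Cfsg.Statements.S1462
import Mathlib
import Cfsg.Agent.Helper11.PLen2
import Cfsg.Agent.S1443

set_option autoImplicit false
open Cfsg

namespace Cfsg.Agent.S1462

/-- Let G be a finite solvable group, p an odd prime with G = O_{p',p,p'}(G), E an elementary abelian p-subgroup contained in no larger elementary abelian p-subgroup of G, and L a subgroup of order coprime to p normalized by E. Then L ≤ O_{p'}(G). -/
theorem result {G : Type*} [Group G] [Finite G] [Group.IsSolvable G] (p : ℕ) [Fact p.Prime] (hp : p ≠ 2) (hpl : Cfsg.PLengthLE p 1 G) (E L : Subgroup G) (hE : Cfsg.IsElementaryAbelian p E)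
    (hEmax : ∀ B : Subgroup G, Cfsg.IsElementaryAbelian p B → E ≤ B → B = E) (hL : (Nat.card L).Coprime p) (hEL : E ≤ Subgroup.normalizer (L : Set G)) :
    L ≤ Cfsg.pPrimeCore p G := by
  have hpp : p.Prime := Fact.out
  obtain ⟨hEc, hEp⟩ := hE
  have hEpg : IsPGroup p E := by
    intro x
    refine ⟨1, ?_⟩
    apply Subtype.ext
    simpa using hEp x.1 x.2
  set π := QuotientGroup.mk' (pPrimeCore p G) with hπ
  have hπs : Function.Surjective π := QuotientGroup.mk'_surjective _
  have hKcop : (Nat.card (pPrimeCore p G)).Coprime p := Cfsg.Agent.Helper10.pPrimeCore_coprime p G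
  have h0 : pPrimeCore p (G ⧸ pPrimeCore p G) = ⊥ := Cfsg.Agent.Helper10.pPrimeCore_quotient p G
  have hidx : (pCore p (G ⧸ pPrimeCore p G)).index.Coprime p := by
    have h1 := Cfsg.Agent.Helper11.plength_one_index p G hpl
    have h2 : (pPrimePCore p G).index = (pCore p (G ⧸ pPrimeCore p G)).index := by
      unfold pPrimePCore
      exact Subgroup.index_comap_of_surjective _ hπs
    rwa [h2] at h1
  have hcent := Cfsg.Agent.Helper11.centralizer_pCore_le_of_index_coprime p _ h0 hidx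
  have hPpg : IsPGroup p (pCore p (G ⧸ pPrimeCore p G)) := Cfsg.Agent.S0010.pCore_isPGroup p
  have hEM : E ≤ pPrimePCore p G := by
    have := Cfsg.Agent.Helper10.pPrimePCore_normal p G
    exact Cfsg.Agent.Helper11.pGroup_le_of_normal_index_coprime _
      (Cfsg.Agent.Helper11.plength_one_index p G hpl) E hEpg
  have hEbP : E.map π ≤ pCore p (G ⧸ pPrimeCore p G) := by
    rintro _ ⟨e, he, rfl⟩
    exact hEM he
  have hEbel : Cfsg.IsElementaryAbelian p (E.map π) := by
    refine ⟨⟨⟨?_⟩⟩, ?_⟩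
    · rintro ⟨_, ⟨a, ha, rfl⟩⟩ ⟨_, ⟨b, hb, rfl⟩⟩
      apply Subtype.ext
      have := congrArg Subtype.val (hEc.is_comm.comm (⟨a, ha⟩ : E) ⟨b, hb⟩)
      change π a * π b = π b * π a
      rw [← map_mul, ← map_mul]
      exact congrArg π this
    · rintro _ ⟨e, he, rfl⟩
      rw [← map_pow, hEp e he, map_one]
  have hLbcop : (Nat.card (L.map π)).Coprime p :=
    Nat.Coprime.coprime_dvd_left (Subgroup.card_map_dvd _ _) hL
  have hLbP : L.map π ⊓ pCore p (G ⧸ pPrimeCore p G) = ⊥ := by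
    rw [inf_comm]
    exact Cfsg.Agent.Helper10.inf_eq_bot_of_pGroup_coprime hPpg
      (Cfsg.Agent.Helper10.coprime_of_card_coprime _ hLbcop)
  have hLE : ∀ l ∈ L, ∀ e ∈ E, π l * π e = π e * π l := by
    intro l hl e he
    have h1 : e * l * e⁻¹ ∈ L := (Subgroup.mem_normalizer_iff.mp (hEL he) l).mp hl
    have h2 : l⁻¹ * (e * l * e⁻¹) ∈ L := L.mul_mem (L.inv_mem hl) h1
    have h3 : π (l⁻¹ * (e * l * e⁻¹)) ∈ pCore p (G ⧸ pPrimeCore p G) := by
      have he' : π e ∈ pCore p (G ⧸ pPrimeCore p G) := hEbP (Subgroup.mem_map_of_mem _ he)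
      have hn : (pCore p (G ⧸ pPrimeCore p G)).Normal := inferInstance
      have : π (l⁻¹ * (e * l * e⁻¹)) = (π l)⁻¹ * π e * (π l)⁻¹⁻¹ * (π e)⁻¹ := by
        simp [mul_assoc]
      rw [this]
      exact Subgroup.mul_mem _ (hn.conj_mem _ he' _) (Subgroup.inv_mem _ he')
    have h4 : π (l⁻¹ * (e * l * e⁻¹)) ∈ L.map π ⊓ pCore p (G ⧸ pPrimeCore p G) :=
      ⟨Subgroup.mem_map_of_mem _ h2, h3⟩
    rw [hLbP, Subgroup.mem_bot] at h4
    have h5 : (π l)⁻¹ * (π e * π l * (π e)⁻¹) = 1 := by
      rw [← h4]; simp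
    have h6 : π e * π l * (π e)⁻¹ = π l := (inv_mul_eq_one.mp h5).symm
    have h7 : π e * π l = π l * π e := by
      have := congrArg (· * π e) h6
      simpa using this
    exact h7.symm
  have key := Cfsg.Agent.S1443.result (G := G ⧸ pPrimeCore p G) p hp
    (pCore p (G ⧸ pPrimeCore p G)) (E.map π) (L.map π) hPpg hEbP hEbel
    (by rw [Subgroup.normalizer_eq_top]; exact le_top) hLbcop ?_
  · have h1 : L.map π ≤ L.map π ⊓ pCore p (G ⧸ pPrimeCore p G) :=
      le_inf le_rfl (key.trans hcent)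
    rw [hLbP] at h1
    intro l hl
    have : π l ∈ (⊥ : Subgroup (G ⧸ pPrimeCore p G)) := h1 (Subgroup.mem_map_of_mem _ hl)
    exact (QuotientGroup.eq_one_iff l).mp (Subgroup.mem_bot.mp this)
  · intro x hx hox
    have hxE : x ∈ E.map π := by
      have hxc : ∀ a ∈ E.map π, a * x = x * a := by
        intro a ha
        exact (Subgroup.mem_centralizer_iff.mp hx.2 a ha)
      have hxp : x ^ p = 1 := by
        have := pow_orderOf_eq_one x
        rwa [hox] at this
      have hBel := Cfsg.Agent.Helper11.elemAb_adjoin p (E.map π) hEbel x hxc hxp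
      have hle : E.map π ≤ Subgroup.closure (((E.map π : Subgroup (G ⧸ pPrimeCore p G)) : Set (G ⧸ pPrimeCore p G)) ∪ {x}) :=
        fun a ha => Subgroup.subset_closure (Or.inl ha)
      have := Cfsg.Agent.Helper11.elemAb_max_quotient p (pPrimeCore p G) hKcop E ⟨hEc, hEp⟩ hEmax _ hBel hle
      rw [← this]
      exact Subgroup.subset_closure (Or.inr rfl)
    obtain ⟨e, he, rfl⟩ := hxE
    rintro _ ⟨l, hl, rfl⟩
    rw [Subgroup.mem_centralizer_singleton_iff]
    exact hLE l hl e he

end Cfsg.Agent.S1462
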