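import Cfsg.Statements.S1466
import Mathlib
import Cfsg.Agent.Helper11.Puig

set_option autoImplicit false
open Cfsg

namespace Cfsg.Agent.S1466

/-- Let p be a prime and R a nontrivial finite p-group. Then for every i > 0, Z(R) ≤ C_R(L_i(R)) ≤ L_i(R); likewise Z(R) ≤ C_R(L_*(R)) ≤ L_*(R) and Z(R) ≤ C_R(L(R)) ≤ L(R); and L(R) ≠ 1, L_*(R) ≠ 1. -/
theorem result {R : Type*} [Group R] [Finite R] (p : ℕ) [Fact p.Prime] (hR : IsPGroup p R) [Nontrivial R] :
    (∀ i : ℕ, 0 < i → Subgroup.center R ≤ Subgroup.centralizer ((Cfsg.puigSeq R i : Subgroup R) : Set R) ∧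
        Subgroup.centralizer ((Cfsg.puigSeq R i : Subgroup R) : Set R) ≤ Cfsg.puigSeq R i) ∧
      (Subgroup.center R ≤ Subgroup.centralizer ((Cfsg.puigLower R : Subgroup R) : Set R) ∧ Subgroup.centralizer ((Cfsg.puigLower R : Subgroup R) : Set R) ≤ Cfsg.puigLower R) ∧
      (Subgroup.center R ≤ Subgroup.centralizer ((Cfsg.puigSubgroup R : Subgroup R) : Set R) ∧ Subgroup.centralizer ((Cfsg.puigSubgroup R : Subgroup R) : Set R) ≤ Cfsg.puigSubgroup R) ∧
      Cfsg.puigSubgroup R ≠ ⊥ ∧ Cfsg.puigLower R ≠ ⊥ := by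
  have hstep : ∀ j : ℕ, Subgroup.centralizer ((Cfsg.puigSeq R (j + 1) : Subgroup R) : Set R) ≤
      Cfsg.puigSeq R (j + 1) := by
    intro j
    exact Cfsg.Agent.Helper11.centralizer_puigStep_le p hR (Cfsg.puigSeq R j)
  have hZ : ∀ K : Subgroup R, Subgroup.center R ≤ Subgroup.centralizer ((K : Subgroup R) : Set R) :=
    fun K => Subgroup.center_le_centralizer _
  have h2L : Cfsg.puigSeq R 2 ≤ Cfsg.puigLower R := by
    have : Cfsg.puigSeq R (2 * 1) ≤ ⨆ n : ℕ, Cfsg.puigSeq R (2 * n) := le_iSup (fun n => Cfsg.puigSeq R (2 * n)) 1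
    exact this
  have hLow : Subgroup.centralizer ((Cfsg.puigLower R : Subgroup R) : Set R) ≤ Cfsg.puigLower R := by
    refine le_trans (Subgroup.centralizer_le ?_) ((hstep 1).trans h2L)
    exact h2L
  have hLL : Cfsg.puigLower R ≤ Cfsg.puigSubgroup R := Cfsg.Agent.Helper11.puigLower_le_puigSubgroup R
  have hUp : Subgroup.centralizer ((Cfsg.puigSubgroup R : Subgroup R) : Set R) ≤ Cfsg.puigSubgroup R := by
    refine le_trans (Subgroup.centralizer_le ?_) (hLow.trans hLL)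
    exact hLL
  have hZne : Subgroup.center R ≠ ⊥ := by
    have := hR.center_nontrivial
    exact (Subgroup.nontrivial_iff_ne_bot _).mp this
  refine ⟨?_, ⟨hZ _, hLow⟩, ⟨hZ _, hUp⟩, ?_, ?_⟩
  · intro i hi
    obtain ⟨j, rfl⟩ : ∃ j, i = j + 1 := ⟨i - 1, by omega⟩
    exact ⟨hZ _, hstep j⟩
  · intro h
    apply hZne
    have := (hZ (Cfsg.puigSubgroup R)).trans hUp
    rw [h] at this
    exact le_bot_iff.mp this
  · intro h
    apply hZne
    have := (hZ (Cfsg.puigLower R)).trans hLow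
    rw [h] at this
    exact le_bot_iff.mp this

end Cfsg.Agent.S1466
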