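import Cfsg.Statements.S1467
import Mathlib

set_option autoImplicit false
open Cfsg

namespace Cfsg.Agent.S1467

theorem step_anti {G : Type*} [Group G] {X Y : Subgroup G} (h : X ≤ Y) :
    Cfsg.puigStep Y ≤ Cfsg.puigStep X := by
  unfold Cfsg.puigStep
  apply sSup_le_sSup
  rintro A ⟨hA, hY⟩
  exact ⟨hA, h.trans hY⟩

theorem seq_one {G : Type*} [Group G] : Cfsg.puigSeq G 1 = ⊤ := by
  show Cfsg.puigStep (Cfsg.puigSeq G 0) = ⊤
  rw [eq_top_iff]
  intro g _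
  have : Subgroup.zpowers g ≤ Cfsg.puigStep (Cfsg.puigSeq G 0) := by
    unfold Cfsg.puigStep
    apply le_sSup
    refine ⟨inferInstance, ?_⟩
    show (⊥ : Subgroup G) ≤ _
    exact bot_le
  exact this (Subgroup.mem_zpowers g)

theorem seq_succ {G : Type*} [Group G] (n : ℕ) :
    Cfsg.puigSeq G (n + 1) = Cfsg.puigStep (Cfsg.puigSeq G n) := rfl

theorem seq_even {G : Type*} [Group G] (n : ℕ) :
    Cfsg.puigSeq G (2 * n + 2) = Cfsg.puigStep (Cfsg.puigSeq G (2 * n + 1)) := rfl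

theorem seq_odd {G : Type*} [Group G] (n : ℕ) :
    Cfsg.puigSeq G (2 * n + 1) = Cfsg.puigStep (Cfsg.puigSeq G (2 * n)) := rfl

theorem seq_odd3 {G : Type*} [Group G] (n : ℕ) :
    Cfsg.puigSeq G (2 * n + 3) = Cfsg.puigStep (Cfsg.puigSeq G (2 * n + 2)) := rfl

theorem mono_step {G : Type*} [Group G] (n : ℕ) :
    Cfsg.puigSeq G (2 * n) ≤ Cfsg.puigSeq G (2 * n + 2) ∧
      Cfsg.puigSeq G (2 * n + 3) ≤ Cfsg.puigSeq G (2 * n + 1) := by
  induction n with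
  | zero =>
    refine ⟨?_, ?_⟩
    · show (⊥ : Subgroup G) ≤ _
      exact bot_le
    · show Cfsg.puigSeq G 3 ≤ Cfsg.puigSeq G 1
      rw [seq_one]; exact le_top
  | succ n ih =>
    have h1 : Cfsg.puigSeq G (2 * n + 2) ≤ Cfsg.puigSeq G (2 * n + 2 + 2) := by
      show Cfsg.puigSeq G (2 * n + 2) ≤ Cfsg.puigStep (Cfsg.puigSeq G (2 * n + 3))
      rw [seq_even]
      exact step_anti ih.2
    have h2 : Cfsg.puigSeq G (2 * n + 2 + 3) ≤ Cfsg.puigSeq G (2 * n + 2 + 1) := by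
      show Cfsg.puigStep (Cfsg.puigSeq G (2 * n + 2 + 2)) ≤ Cfsg.puigStep (Cfsg.puigSeq G (2 * n + 2))
      exact step_anti h1
    exact ⟨h1, h2⟩

theorem even_mono {G : Type*} [Group G] : Monotone (fun n => Cfsg.puigSeq G (2 * n)) := by
  apply monotone_nat_of_le_succ
  intro n
  exact (mono_step n).1

theorem odd_anti {G : Type*} [Group G] : Antitone (fun n => Cfsg.puigSeq G (2 * n + 1)) := by
  apply antitone_nat_of_succ_le
  intro n
  exact (mono_step n).2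

theorem even_le_odd_diag {G : Type*} [Group G] (n : ℕ) :
    Cfsg.puigSeq G (2 * n) ≤ Cfsg.puigSeq G (2 * n + 1) := by
  induction n with
  | zero =>
    show (⊥ : Subgroup G) ≤ _
    exact bot_le
  | succ n ih =>
    have h1 : Cfsg.puigSeq G (2 * n + 2) ≤ Cfsg.puigSeq G (2 * n + 1) := by
      rw [seq_even, seq_odd]
      exact step_anti ih
    show Cfsg.puigSeq G (2 * n + 2) ≤ Cfsg.puigStep (Cfsg.puigSeq G (2 * n + 2))
    calc Cfsg.puigSeq G (2 * n + 2) = Cfsg.puigStep (Cfsg.puigSeq G (2 * n + 1)) := seq_even n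
      _ ≤ Cfsg.puigStep (Cfsg.puigSeq G (2 * n + 2)) := step_anti h1

theorem even_le_odd {G : Type*} [Group G] (n m : ℕ) :
    Cfsg.puigSeq G (2 * n) ≤ Cfsg.puigSeq G (2 * m + 1) :=
  calc Cfsg.puigSeq G (2 * n) ≤ Cfsg.puigSeq G (2 * (max n m)) := even_mono (le_max_left n m)
    _ ≤ Cfsg.puigSeq G (2 * (max n m) + 1) := even_le_odd_diag _
    _ ≤ Cfsg.puigSeq G (2 * m + 1) := odd_anti (le_max_right n m)

/-- Let G be a finite group with Puig series L_n(G). Then L_0 = 1, L_1 = G; L_{2n} ≤ L_{2n+2} ≤ L_{2m+3} ≤ L_{2m+1} for all n, m; there is k with L_{2n}(G) = L_*(G) and L_{2n+1}(G) = L(G) for all n ≥ k; L_*(G) ≤ L(G); and applying one Puig step to L_*(G) gives L(G) and to L(G) gives L_*(G). -/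
theorem result {G : Type*} [Group G] [Finite G] :
    Cfsg.puigSeq G 0 = ⊥ ∧ Cfsg.puigSeq G 1 = ⊤ ∧
      (∀ n m : ℕ, Cfsg.puigSeq G (2 * n) ≤ Cfsg.puigSeq G (2 * n + 2) ∧ Cfsg.puigSeq G (2 * n) ≤ Cfsg.puigSeq G (2 * m + 1) ∧
        Cfsg.puigSeq G (2 * m + 3) ≤ Cfsg.puigSeq G (2 * m + 1)) ∧
      (∃ k : ℕ, ∀ n : ℕ, k ≤ n → Cfsg.puigSeq G (2 * n) = Cfsg.puigLower G ∧ Cfsg.puigSeq G (2 * n + 1) = Cfsg.puigSubgroup G) ∧
      Cfsg.puigLower G ≤ Cfsg.puigSubgroup G ∧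
      Cfsg.puigStep (Cfsg.puigLower G) = Cfsg.puigSubgroup G ∧ Cfsg.puigStep (Cfsg.puigSubgroup G) = Cfsg.puigLower G := by
  obtain ⟨k₁, hk₁⟩ := WellFoundedGT.monotone_chain_condition
    (⟨fun n => Cfsg.puigSeq G (2 * n), even_mono⟩ : ℕ →o Subgroup G)
  obtain ⟨k₂, hk₂⟩ := WellFoundedLT.antitone_chain_condition (odd_anti (G := G))
  simp only [OrderHom.coe_mk] at hk₁
  have hL : ∀ n, k₁ ≤ n → Cfsg.puigSeq G (2 * n) = Cfsg.puigLower G := by
    intro n hn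
    unfold Cfsg.puigLower
    apply le_antisymm
    · exact le_iSup (fun n => Cfsg.puigSeq G (2 * n)) n
    · apply iSup_le
      intro m
      calc Cfsg.puigSeq G (2 * m) ≤ Cfsg.puigSeq G (2 * (max m n)) := even_mono (le_max_left m n)
        _ = Cfsg.puigSeq G (2 * k₁) := (hk₁ _ (hn.trans (le_max_right m n))).symm
        _ = Cfsg.puigSeq G (2 * n) := hk₁ _ hn
  have hU : ∀ n, k₂ ≤ n → Cfsg.puigSeq G (2 * n + 1) = Cfsg.puigSubgroup G := by
    intro n hn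
    unfold Cfsg.puigSubgroup
    apply le_antisymm
    · apply le_iInf
      intro m
      calc Cfsg.puigSeq G (2 * n + 1) = Cfsg.puigSeq G (2 * k₂ + 1) := (hk₂ _ hn).symm
        _ = Cfsg.puigSeq G (2 * (max m n) + 1) := hk₂ _ (hn.trans (le_max_right m n))
        _ ≤ Cfsg.puigSeq G (2 * m + 1) := odd_anti (le_max_left m n)
    · exact iInf_le (fun n => Cfsg.puigSeq G (2 * n + 1)) n
  set k := max k₁ k₂ with hk
  have hkL := hL k (le_max_left _ _)
  have hkU := hU k (le_max_right _ _)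
  have hkL' := hL (k + 1) ((le_max_left _ _).trans (Nat.le_succ _))
  refine ⟨rfl, seq_one, ?_, ?_, ?_, ?_, ?_⟩
  · intro n m
    exact ⟨(mono_step n).1, even_le_odd n m, (mono_step m).2⟩
  · exact ⟨k, fun n hn => ⟨hL n ((le_max_left _ _).trans hn), hU n ((le_max_right _ _).trans hn)⟩⟩
  · rw [← hkL, ← hkU]
    exact even_le_odd k k
  · rw [← hkL, ← hkU]
    rfl
  · rw [← hkU, ← hkL']
    rfl

end Cfsg.Agent.S1467
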