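import Cfsg.Statements.S1470
import Mathlib

set_option autoImplicit false
open Cfsg

namespace Cfsg.Agent.S1470

/-- Let p and q be odd primes with (p^q − 1)/(p − 1) coprime to p − 1, and let E be the set of elements a of the field with p ^ q elements whose norm to the prime field is 1 and for which 2 − a also has norm 1. If a⁻¹ ∈ E for every a ∈ E and E has at least two elements, then p ≤ q. -/
theorem result (p q : ℕ) [Fact p.Prime] [Fact q.Prime] (hp : p ≠ 2) (hq : q ≠ 2) (hA : Nat.Coprime ((p ^ q - 1) / (p - 1)) (p - 1))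
    (hinv : ∀ a ∈ {a : GaloisField p q | Algebra.norm (ZMod p) a = 1 ∧ Algebra.norm (ZMod p) (2 - a) = 1}, a⁻¹ ∈ {a : GaloisField p q | Algebra.norm (ZMod p) a = 1 ∧ Algebra.norm (ZMod p) (2 - a) = 1})
    (h2 : 2 ≤ Set.ncard {a : GaloisField p q | Algebra.norm (ZMod p) a = 1 ∧ Algebra.norm (ZMod p) (2 - a) = 1}) :
    p ≤ q := by
  classical
  set E : Set (GaloisField p q) := {a : GaloisField p q | Algebra.norm (ZMod p) a = 1 ∧ Algebra.norm (ZMod p) (2 - a) = 1} with hE
  have hmemE : ∀ a : GaloisField p q, a ∈ E ↔ (Algebra.norm (ZMod p) a = 1 ∧ Algebra.norm (ZMod p) (2 - a) = 1) := fun a => Iff.rfl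
  have hq0 : q ≠ 0 := (Fact.out : q.Prime).ne_zero
  -- pick a ≠ 1 in E
  obtain ⟨a, haE, ha1⟩ : ∃ a ∈ E, a ≠ 1 := by
    by_contra hcon
    push Not at hcon
    have hsub : E ⊆ {1} := fun x hx => by simpa using hcon x hx
    have := Set.ncard_le_ncard hsub (Set.finite_singleton _)
    rw [Set.ncard_singleton] at this
    omega
  set b : GaloisField p q := a - 1 with hb
  have hb0 : b ≠ 0 := sub_ne_zero.mpr ha1
  have hnz : ∀ x : GaloisField p q, Algebra.norm (ZMod p) x = 1 → x ≠ 0 := by
    intro x hx h0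
    rw [h0, Algebra.norm_zero] at hx
    exact zero_ne_one hx
  have key : ∀ k : ℕ, Algebra.norm (ZMod p) (1 + (k : GaloisField p q) * b) = 1 ∧
      (1 + ((k : GaloisField p q) + 1) * b) * (1 + (k : GaloisField p q) * b)⁻¹ ∈ E := by
    intro k
    induction k with
    | zero =>
      refine ⟨by simp, ?_⟩
      have : (1 + (((0 : ℕ) : GaloisField p q) + 1) * b) * (1 + ((0 : ℕ) : GaloisField p q) * b)⁻¹ = a := by
        simp [hb]
      rw [this]; exact haE
    | succ k ih =>
      obtain ⟨ih1, ih2⟩ := ih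
      have hk0 : (1 + (k : GaloisField p q) * b) ≠ 0 := hnz _ ih1
      set c := (1 + ((k : GaloisField p q) + 1) * b) * (1 + (k : GaloisField p q) * b)⁻¹ with hc
      have hcN : Algebra.norm (ZMod p) c = 1 := ((hmemE c).1 ih2).1
      have hN1 : Algebra.norm (ZMod p) (1 + ((k : GaloisField p q) + 1) * b) = 1 := by
        have h1 : (1 + ((k : GaloisField p q) + 1) * b) = c * (1 + (k : GaloisField p q) * b) := by
          rw [hc, mul_assoc, inv_mul_cancel₀ hk0, mul_one]
        rw [h1, map_mul, hcN, ih1, mul_one]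
      have hk1 : (1 + ((k : GaloisField p q) + 1) * b) ≠ 0 := hnz _ hN1
      have hcinv : c⁻¹ ∈ E := hinv c ih2
      have hcinv' := (hmemE _).1 hcinv
      refine ⟨by push_cast; exact hN1, ?_⟩
      have h2 : (1 + (((k + 1 : ℕ) : GaloisField p q) + 1) * b) * (1 + ((k + 1 : ℕ) : GaloisField p q) * b)⁻¹ = 2 - c⁻¹ := by
        rw [hc]
        push_cast
        field_simp
        ring
      rw [h2, hmemE]
      refine ⟨hcinv'.2, ?_⟩
      have : (2 : GaloisField p q) - (2 - c⁻¹) = c⁻¹ := by ring
      rw [this]; exact hcinv'.1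
  -- the polynomial
  let P : Polynomial (GaloisField p q) :=
    ∏ σ : (GaloisField p q) ≃ₐ[ZMod p] (GaloisField p q), (1 + Polynomial.X * Polynomial.C (σ b))
  have hPeval : ∀ k : ℕ, P.eval (k : GaloisField p q) = 1 := by
    intro k
    have h1 := Algebra.norm_eq_prod_automorphisms (ZMod p) (1 + (k : GaloisField p q) * b)
    rw [(key k).1, map_one] at h1
    show Polynomial.eval (k : GaloisField p q) (∏ σ : (GaloisField p q) ≃ₐ[ZMod p] (GaloisField p q), (1 + Polynomial.X * Polynomial.C (σ b))) = 1
    rw [Polynomial.eval_prod, h1]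
    refine Finset.prod_congr rfl (fun σ _ => ?_)
    rw [Polynomial.eval_add, Polynomial.eval_one, Polynomial.eval_mul, Polynomial.eval_X, Polynomial.eval_C,
      map_add, map_one, map_mul, map_natCast]
  have hPne : P - 1 ≠ 0 := by
    intro h0
    have h1 : (P - 1).eval (-b⁻¹) = -1 := by
      rw [Polynomial.eval_sub, Polynomial.eval_one]
      have : P.eval (-b⁻¹) = 0 := by
        show Polynomial.eval (-b⁻¹) (∏ σ : (GaloisField p q) ≃ₐ[ZMod p] (GaloisField p q), (1 + Polynomial.X * Polynomial.C (σ b))) = 0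
        rw [Polynomial.eval_prod]
        refine Finset.prod_eq_zero (Finset.mem_univ (AlgEquiv.refl)) ?_
        simp [hb0]
      rw [this, zero_sub]
    rw [h0, Polynomial.eval_zero] at h1
    exact one_ne_zero (neg_eq_zero.mp h1.symm)
  have hdeg : (P - 1).natDegree ≤ q := by
    have h1 : (P - 1).natDegree ≤ max P.natDegree (1 : Polynomial (GaloisField p q)).natDegree :=
      Polynomial.natDegree_sub_le _ _
    have h2 : P.natDegree ≤ ∑ σ : (GaloisField p q) ≃ₐ[ZMod p] (GaloisField p q), (1 + Polynomial.X * Polynomial.C (σ b)).natDegree :=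
      Polynomial.natDegree_prod_le _ _
    have h3 : ∀ σ : (GaloisField p q) ≃ₐ[ZMod p] (GaloisField p q), (1 + Polynomial.X * Polynomial.C (σ b)).natDegree ≤ 1 := by
      intro σ
      refine (Polynomial.natDegree_add_le _ _).trans ?_
      rw [Polynomial.natDegree_one]
      refine max_le (by norm_num) ?_
      refine (Polynomial.natDegree_mul_le).trans ?_
      simp
    have h4 : ∑ σ : (GaloisField p q) ≃ₐ[ZMod p] (GaloisField p q), (1 + Polynomial.X * Polynomial.C (σ b)).natDegree ≤ q := by
      refine (Finset.sum_le_card_nsmul _ _ 1 (fun σ _ => h3 σ)).trans ?_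
      rw [smul_eq_mul, mul_one, Finset.card_univ, ← Nat.card_eq_fintype_card,
        IsGalois.card_aut_eq_finrank, GaloisField.finrank p hq0]
    rw [Polynomial.natDegree_one] at h1
    omega
  let Z : Finset (GaloisField p q) := (Finset.range p).image (fun k : ℕ => (k : GaloisField p q))
  have hZcard : Z.card = p := by
    rw [Finset.card_image_of_injOn, Finset.card_range]
    intro x hx y hy hxy
    exact CharP.natCast_injOn_Iio (GaloisField p q) p (by simpa using hx) (by simpa using hy) hxy
  have hZroots : Z.val ⊆ (P - 1).roots := by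
    intro x hx
    rw [Finset.mem_val, Finset.mem_image] at hx
    obtain ⟨k, _, rfl⟩ := hx
    rw [Polynomial.mem_roots hPne, Polynomial.IsRoot, Polynomial.eval_sub, hPeval k, Polynomial.eval_one, sub_self]
  have := Polynomial.card_le_degree_of_subset_roots hZroots
  omega

end Cfsg.Agent.S1470
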