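import Cfsg.Statements.S1471
import Cfsg.Agent.Helper1.NormPair
import Mathlib

set_option autoImplicit false
open Cfsg

namespace Cfsg.Agent.S1471

/-- Let p and q be odd primes with (p^q − 1)/(p − 1) coprime to p − 1. Then there are at least two elements a of the field with p ^ q elements such that both a and 2 − a have norm 1 to the prime field. -/
theorem result (p q : ℕ) [Fact p.Prime] [Fact q.Prime] (hp : p ≠ 2) (hq : q ≠ 2) (hA : Nat.Coprime ((p ^ q - 1) / (p - 1)) (p - 1)) :
    2 ≤ Set.ncard {a : GaloisField p q | Algebra.norm (ZMod p) a = 1 ∧ Algebra.norm (ZMod p) (2 - a) = 1} := by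
  have hq' : q.Prime := Fact.out
  by_cases h3 : q = 3
  · subst h3
    obtain ⟨a, ha1, hNa, hN2⟩ := Cfsg.Agent.Helper1.NormPair.case_three (p := p)
    have hfin : Set.Finite {a : GaloisField p 3 | Algebra.norm (ZMod p) a = 1 ∧
        Algebra.norm (ZMod p) (2 - a) = 1} := Set.toFinite _
    have h1 : (1 : GaloisField p 3) ∈ {a : GaloisField p 3 | Algebra.norm (ZMod p) a = 1 ∧
        Algebra.norm (ZMod p) (2 - a) = 1} := by
      refine ⟨map_one _, ?_⟩
      have e : (2 : GaloisField p 3) - 1 = 1 := by ring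
      rw [e, map_one]
    exact (Set.one_lt_ncard_iff hfin).mpr ⟨1, a, h1, ⟨hNa, hN2⟩, Ne.symm ha1⟩
  · have h5 : 5 ≤ q := by
      have h2 := hq'.two_le
      by_contra hlt
      have h4 : q = 4 := by omega
      rw [h4] at hq'
      exact absurd hq' (by norm_num)
    exact Cfsg.Agent.Helper1.NormPair.case_large hp h5

end Cfsg.Agent.S1471
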