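import Cfsg.Statements.S1485
import Mathlib

set_option autoImplicit false
open Cfsg

namespace Cfsg.Agent.S1485

open Finset

/-- Value of `extendByZero` at a member of the subgroup. -/
theorem extendByZero_mem {G : Type*} [Group G] (H : Subgroup G) (θ : H → ℂ) (x : G) (hx : x ∈ H) :
    Cfsg.extendByZero H θ x = θ ⟨x, hx⟩ := by
  unfold Cfsg.extendByZero
  exact Subtype.val_injective.extend_apply θ 0 ⟨x, hx⟩

/-- Value of `extendByZero` off the subgroup. -/
theorem extendByZero_not_mem {G : Type*} [Group G] (H : Subgroup G) (θ : H → ℂ) (x : G) (hx : x ∉ H) :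
    Cfsg.extendByZero H θ x = 0 := by
  unfold Cfsg.extendByZero
  rw [Function.extend_apply']
  · rfl
  · rintro ⟨a, ha⟩
    exact hx (ha ▸ a.2)

/-- Let H be a normal subgroup of the finite group G and θ an irreducible character of H. On H, the function induced from θ equals r times the sum of the distinct G-conjugates of θ, where r is the number of elements of G fixing θ under conjugation divided by the order of H (the index of H in the inertia group). -/
theorem result {G : Type*} [Group G] [Fintype G] (H : Subgroup G) [hN : H.Normal] (θ : H → ℂ) (hθ : Cfsg.IsIrrCharacter H θ) : (fun h : H => Cfsg.indFun H θ h) = ((Nat.card {g : G // ∀ h : H, θ ⟨g * h * g⁻¹, hN.conj_mem h h.2 g⟩ = θ h} : ℂ) / (Nat.card H : ℂ)) • ∑ᶠ ψ ∈ {ψ : H → ℂ | ∃ g : G, ψ = fun h : H => θ ⟨g * h * g⁻¹, hN.conj_mem h h.2 g⟩}, ψ := by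
  classical
  set cj : G → (H → ℂ) := fun g h => θ ⟨g * h * g⁻¹, hN.conj_mem h h.2 g⟩ with hcj
  -- composition rule
  have hmul : ∀ (a b : G) (h : H), cj (a * b) h = cj a ⟨b * h * b⁻¹, hN.conj_mem h h.2 b⟩ := by
    intro a b h
    show θ _ = θ _
    congr 1
    apply Subtype.ext
    show a * b * (h : G) * (a * b)⁻¹ = a * (b * (h : G) * b⁻¹) * a⁻¹
    group
  have hone : cj 1 = θ := by
    funext h
    show θ _ = θ h
    congr 1
    apply Subtype.ext
    show (1 : G) * (h : G) * (1 : G)⁻¹ = h
    group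
  -- the inertia set
  set T : Finset G := univ.filter (fun g => ∀ h : H, cj g h = θ h) with hT
  have hcardT : Nat.card {g : G // ∀ h : H, θ ⟨g * h * g⁻¹, hN.conj_mem h h.2 g⟩ = θ h} = T.card := by
    rw [Nat.card_eq_fintype_card, Fintype.card_subtype]
  -- fibres
  have hfib : ∀ g₀ : G, (univ.filter (fun x => cj x = cj g₀)).card = T.card := by
    intro g₀
    apply Finset.card_nbij' (fun x => x * g₀⁻¹) (fun t => t * g₀)
    · intro x hx
      simp only [Finset.coe_filter, Finset.mem_univ, true_and, Set.mem_setOf_eq] at hx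
      simp only [hT, Finset.coe_filter, Finset.mem_univ, true_and, Set.mem_setOf_eq]
      intro h
      rw [hmul, hx, ← hmul]
      have : g₀ * g₀⁻¹ = 1 := mul_inv_cancel g₀
      rw [this, hone]
    · intro t ht
      simp only [hT, Finset.coe_filter, Finset.mem_univ, true_and, Set.mem_setOf_eq] at ht
      simp only [Finset.coe_filter, Finset.mem_univ, true_and, Set.mem_setOf_eq]
      funext h
      rw [hmul, ht]
    · intro x _
      simp
    · intro t _
      simp
  -- rewrite the finsum
  have hset : {ψ : H → ℂ | ∃ g : G, ψ = fun h : H => θ ⟨g * h * g⁻¹, hN.conj_mem h h.2 g⟩} =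
      ((univ.image cj : Finset (H → ℂ)) : Set (H → ℂ)) := by
    ext ψ
    simp only [Set.mem_setOf_eq, Finset.coe_image, Finset.coe_univ, Set.image_univ, Set.mem_range]
    constructor
    · rintro ⟨g, rfl⟩; exact ⟨g, rfl⟩
    · rintro ⟨g, rfl⟩; exact ⟨g, rfl⟩
  rw [hset, finsum_mem_coe_finset, hcardT]
  funext h
  -- left side
  have hleft : Cfsg.indFun H θ h = (Nat.card H : ℂ)⁻¹ * ∑ x : G, cj x h := by
    unfold Cfsg.indFun
    congr 1
    rw [← Equiv.sum_comp (Equiv.inv G) (fun x => cj x h)]
    apply Finset.sum_congr rfl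
    intro x _
    have hmem : x⁻¹ * (h : G) * x ∈ H := by
      have := hN.conj_mem h h.2 x⁻¹
      simpa using this
    rw [extendByZero_mem H θ _ hmem]
    show θ _ = θ _
    congr 1
    apply Subtype.ext
    show x⁻¹ * (h : G) * x = x⁻¹ * (h : G) * x⁻¹⁻¹
    group
  rw [hleft]
  have hsum : ∑ x : G, cj x h = ∑ ψ ∈ univ.image cj, (T.card : ℂ) * ψ h := by
    rw [Finset.sum_comp (fun ψ : H → ℂ => ψ h) cj]
    apply Finset.sum_congr rfl
    intro ψ hψ
    obtain ⟨g₀, _, rfl⟩ := Finset.mem_image.mp hψ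
    rw [hfib g₀, nsmul_eq_mul]
  rw [hsum, ← Finset.mul_sum]
  simp only [Pi.smul_apply, Finset.sum_apply, smul_eq_mul]
  ring

end Cfsg.Agent.S1485
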