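import Cfsg.Statements.S1486
import Mathlib
import Cfsg.Agent.Helper11.ConjChar
import Cfsg.Agent.Helper2.Ind
import Cfsg.Agent.Helper25.CharBasic

set_option autoImplicit false
open Cfsg

namespace Cfsg.Agent.S1486

open Cfsg.Agent.Helper11

/-- Let H be a normal subgroup of the finite group G and θ, φ irreducible characters of H. If φ is a G-conjugate of θ then the functions induced from θ and φ coincide; if φ is not a G-conjugate of θ then the induced functions are orthogonal. -/
theorem result {G : Type*} [Group G] [Fintype G] (H : Subgroup G) [hN : H.Normal] (θ φ : H → ℂ) (hθ : Cfsg.IsIrrCharacter H θ) (hφ : Cfsg.IsIrrCharacter H φ) : ((∃ g : G, φ = fun h : H => θ ⟨g * h * g⁻¹, hN.conj_mem h h.2 g⟩) → Cfsg.indFun H φ = Cfsg.indFun H θ) ∧ ((¬ ∃ g : G, φ = fun h : H => θ ⟨g * h * g⁻¹, hN.conj_mem h h.2 g⟩) → Cfsg.classInner (Cfsg.indFun H φ) (Cfsg.indFun H θ) = 0) := by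
  classical
  have : Fintype H := Fintype.ofFinite H
  constructor
  · rintro ⟨g, rfl⟩
    funext y
    rw [Cfsg.Agent.Helper2.indFun_apply, Cfsg.Agent.Helper2.indFun_apply]
    congr 1
    have hext : ∀ z : G, extendByZero H (fun h : H => θ ⟨g * h * g⁻¹, hN.conj_mem h h.2 g⟩) z =
        extendByZero H θ (g * z * g⁻¹) := by
      intro z
      by_cases hz : z ∈ H
      · rw [Cfsg.Agent.Helper2.extendByZero_of_mem _ _ hz,
          Cfsg.Agent.Helper2.extendByZero_of_mem _ _ (hN.conj_mem z hz g)]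
      · have hz' : g * z * g⁻¹ ∉ H := by
          intro h
          apply hz
          have := hN.conj_mem _ h g⁻¹
          simpa [mul_assoc] using this
        rw [Cfsg.Agent.Helper2.extendByZero_of_not_mem _ _ hz,
          Cfsg.Agent.Helper2.extendByZero_of_not_mem _ _ hz']
    rw [← Equiv.sum_comp (Equiv.mulRight g⁻¹) (fun x : G => extendByZero H θ (x⁻¹ * y * x))]
    apply Finset.sum_congr rfl
    intro x _
    rw [hext]
    congr 1
    simp only [Equiv.coe_mulRight, mul_inv_rev, inv_inv]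
    group
  · intro hne
    rw [Cfsg.Agent.Helper2.frobenius_reciprocity H φ (indFun H θ)
      (Cfsg.Agent.Helper2.indFun_isClassFunction H θ)]
    unfold classInner
    have hval : ∀ h : H, indFun H θ (h : G) = (Nat.card H : ℂ)⁻¹ *
        ∑ x : G, θ ⟨x⁻¹ * h * x⁻¹⁻¹, hN.conj_mem h h.2 x⁻¹⟩ := by
      intro h
      rw [Cfsg.Agent.Helper2.indFun_apply]
      congr 1
      apply Finset.sum_congr rfl
      intro x _
      have hm : x⁻¹ * (h : G) * x ∈ H := by
        have := hN.conj_mem h h.2 x⁻¹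
        simpa using this
      rw [Cfsg.Agent.Helper2.extendByZero_of_mem _ _ hm]
      congr 1
      apply Subtype.ext
      simp
    have hzero : ∀ x : G, ∑ h : H, φ h *
        (starRingEnd ℂ) (θ ⟨x⁻¹ * h * x⁻¹⁻¹, hN.conj_mem h h.2 x⁻¹⟩) = 0 := by
      intro x
      have hirr : IsIrrCharacter H (fun h : H => θ ⟨x⁻¹ * h * x⁻¹⁻¹, hN.conj_mem h h.2 x⁻¹⟩) :=
        isIrrCharacter_comp_mulEquiv (MulAut.conjNormal x⁻¹ : H ≃* H) hθ
      have hne' : (⟨φ, hφ⟩ : IrrCharacter H) ≠ ⟨_, hirr⟩ := by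
        intro h
        apply hne
        exact ⟨x⁻¹, congrArg Subtype.val h⟩
      have h1 := Cfsg.Agent.Helper25.irr_classInner (⟨φ, hφ⟩ : IrrCharacter H) ⟨_, hirr⟩
      rw [if_neg hne'] at h1
      unfold classInner at h1
      rcases mul_eq_zero.mp h1 with h2 | h2
      · exfalso; exact (inv_ne_zero (Nat.cast_ne_zero.mpr Nat.card_pos.ne')) h2
      · exact h2
    have : ∑ h : H, φ h * (starRingEnd ℂ) (indFun H θ (h : G)) = 0 := by
      have e : ∀ h : H, φ h * (starRingEnd ℂ) (indFun H θ (h : G)) =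
          (Nat.card H : ℂ)⁻¹ * ∑ x : G, φ h *
            (starRingEnd ℂ) (θ ⟨x⁻¹ * h * x⁻¹⁻¹, hN.conj_mem h h.2 x⁻¹⟩) := by
        intro h
        rw [hval h, map_mul, map_inv₀, Complex.conj_natCast, map_sum, Finset.mul_sum,
          Finset.mul_sum, Finset.mul_sum]
        apply Finset.sum_congr rfl
        intro x _
        ring
      rw [Finset.sum_congr rfl (fun h _ => e h), ← Finset.mul_sum, Finset.sum_comm,
        Finset.sum_congr rfl (fun x _ => hzero x), Finset.sum_const_zero, mul_zero]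
    rw [this, mul_zero]

end Cfsg.Agent.S1486
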