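import Cfsg.Statements.S1487
import Mathlib
import Cfsg.Agent.Helper2.Ind
import Cfsg.Agent.Helper25.CharMore

set_option autoImplicit false
open Cfsg

namespace Cfsg.Agent.S1487

/-- Let A ≤ H be normal subgroups of the finite group G and θ an irreducible character of H. Then θ takes the value θ 1 on all of A if and only if the function induced from θ to G takes its value at 1 on all of A. -/
theorem result {G : Type*} [Group G] [Fintype G] (A H : Subgroup G) [A.Normal] [H.Normal] (hAH : A ≤ H) (θ : H → ℂ) (hθ : Cfsg.IsIrrCharacter H θ) : (∀ a : H, (a : G) ∈ A → θ a = θ 1) ↔ (∀ a : G, a ∈ A → Cfsg.indFun H θ a = Cfsg.indFun H θ 1) := by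
  classical
  have hAn : A.Normal := inferInstance
  have hθc : IsCharacter H θ := Cfsg.Agent.Helper25.isCharacter_of_irr hθ
  have hmem : ∀ a ∈ A, ∀ x : G, x⁻¹ * a * x ∈ H := by
    intro a ha x
    apply hAH
    have := hAn.conj_mem a ha x⁻¹
    simpa using this
  have hmemA : ∀ a ∈ A, ∀ x : G, x⁻¹ * a * x ∈ A := by
    intro a ha x
    have := hAn.conj_mem a ha x⁻¹
    simpa using this
  have key1 : ∀ a (ha : a ∈ A), indFun H θ a =
      (Nat.card H : ℂ)⁻¹ * ∑ x : G, θ ⟨x⁻¹ * a * x, hmem a ha x⟩ := by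
    intro a ha
    rw [Cfsg.Agent.Helper2.indFun_apply]
    congr 1
    apply Finset.sum_congr rfl
    intro x _
    rw [Cfsg.Agent.Helper2.extendByZero_of_mem _ _ (hmem a ha x)]
  have hone : ∀ x : G, (⟨x⁻¹ * 1 * x, hmem 1 A.one_mem x⟩ : H) = 1 := by
    intro x
    apply Subtype.ext
    simp
  have hH0 : (Nat.card H : ℂ) ≠ 0 := Nat.cast_ne_zero.mpr Nat.card_pos.ne'
  constructor
  · intro h a ha
    rw [key1 a ha, key1 1 A.one_mem]
    congr 1
    apply Finset.sum_congr rfl
    intro x _
    rw [h ⟨x⁻¹ * a * x, hmem a ha x⟩ (hmemA a ha x), hone x]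
  · intro h a ha
    have h1 := h a ha
    rw [key1 a ha, key1 1 A.one_mem] at h1
    have h2 : ∑ x : G, θ ⟨x⁻¹ * (a : G) * x, hmem a ha x⟩ = ∑ x : G, θ 1 := by
      have := mul_left_cancel₀ (inv_ne_zero hH0) h1
      rw [this]
      apply Finset.sum_congr rfl
      intro x _
      rw [hone x]
    have hd := Cfsg.Agent.Helper25.char_one_eq_degree hθc
    set d := charDegree θ with hdd
    have hle : ∀ b : H, (θ b).re ≤ (d : ℝ) := by
      intro b
      have := Cfsg.Agent.Helper25.char_norm_le hθc b
      rw [hd] at this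
      simp only [Complex.norm_natCast] at this
      exact le_trans (Complex.re_le_norm _) this
    have h3 : ∑ x : G, ((d : ℝ) - (θ ⟨x⁻¹ * (a : G) * x, hmem a ha x⟩).re) = 0 := by
      have := congrArg Complex.re h2
      rw [Complex.re_sum, Complex.re_sum] at this
      rw [Finset.sum_sub_distrib, this, hd]
      simp
    have h4 := (Finset.sum_eq_zero_iff_of_nonneg (fun x _ => sub_nonneg.mpr (hle _))).mp h3 1
      (Finset.mem_univ _)
    have h5 : (⟨(1 : G)⁻¹ * (a : G) * 1, hmem a ha 1⟩ : H) = a := by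
      apply Subtype.ext
      simp
    rw [h5] at h4
    have hre : (θ a).re = (d : ℝ) := by linarith
    have hnorm := Cfsg.Agent.Helper25.char_norm_le hθc a
    rw [hd] at hnorm
    simp only [Complex.norm_natCast] at hnorm
    have him : (θ a).im = 0 := by
      have hsq := Complex.sq_norm (θ a)
      rw [Complex.normSq_apply, hre] at hsq
      have h6 : ‖θ a‖ ^ 2 ≤ (d : ℝ) ^ 2 := pow_le_pow_left₀ (norm_nonneg _) hnorm 2
      nlinarith [sq_nonneg (θ a).im]
    rw [hd]
    apply Complex.ext
    · simpa using hre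
    · simpa using him

end Cfsg.Agent.S1487
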