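import Cfsg.Statements.S1488
import Cfsg.Agent.S1485

set_option autoImplicit false
open Cfsg

namespace Cfsg.Agent.S1488

open Finset Cfsg.Agent.S1485

theorem sum_mk {G : Type*} [Group G] [Fintype G] (A : Subgroup G) [A.Normal] [Fintype (G ⧸ A)]
    (F : G ⧸ A → ℂ) :
    ∑ x : G, F (QuotientGroup.mk' A x) = (Nat.card A : ℂ) * ∑ q : G ⧸ A, F q := by
  classical
  rw [Finset.sum_comp F (QuotientGroup.mk' A)]
  have himg : (univ.image (QuotientGroup.mk' A)) = univ :=
    Finset.image_univ_of_surjective (QuotientGroup.mk'_surjective A)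
  rw [himg, Finset.mul_sum]
  apply Finset.sum_congr rfl
  intro q _
  obtain ⟨g₀, rfl⟩ := QuotientGroup.mk'_surjective A q
  have hcard : (univ.filter (fun a => QuotientGroup.mk' A a = QuotientGroup.mk' A g₀)).card =
      Nat.card A := by
    have h1 : Nat.card A = (univ.filter (fun a : G => a ∈ A)).card := by
      rw [Nat.card_eq_fintype_card, Fintype.card_subtype]
    rw [h1]
    apply Finset.card_nbij' (fun x => g₀⁻¹ * x) (fun a => g₀ * a)
    · intro x hx
      simp only [Finset.coe_filter, Finset.mem_univ, true_and, Set.mem_setOf_eq] at hx ⊢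
      have : (g₀ : G ⧸ A) = (x : G ⧸ A) := hx.symm
      exact QuotientGroup.eq.mp this
    · intro a ha
      simp only [Finset.coe_filter, Finset.mem_univ, true_and, Set.mem_setOf_eq] at ha ⊢
      show ((g₀ * a : G) : G ⧸ A) = (g₀ : G ⧸ A)
      symm
      apply QuotientGroup.eq.mpr
      simpa using ha
    · intro x _; simp
    · intro a _; simp
  rw [hcard, nsmul_eq_mul]

/-- Let A be a normal subgroup of the finite group G contained in the subgroup H, let θ be a function on H and θ₁ a function on the image of H in G ⧸ A whose composite with the projection is θ. Then the function induced from θ₁ to G ⧸ A, composed with the projection G → G ⧸ A, equals the function induced from θ to G. -/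
theorem result {G : Type*} [Group G] [Fintype G] (A H : Subgroup G) [A.Normal] (hAH : A ≤ H) [Fintype (G ⧸ A)] [Fintype ↥(H.map (QuotientGroup.mk' A))] (θ : H → ℂ) (θ₁ : ↥(H.map (QuotientGroup.mk' A)) → ℂ) (hθ : ∀ x : H, θ₁ ⟨QuotientGroup.mk' A x, Subgroup.mem_map_of_mem _ x.2⟩ = θ x) (g : G) : Cfsg.indFun (H.map (QuotientGroup.mk' A)) θ₁ (QuotientGroup.mk' A g) = Cfsg.indFun H θ g := by
  classical
  -- membership in the image
  have hmem : ∀ y : G, QuotientGroup.mk' A y ∈ H.map (QuotientGroup.mk' A) ↔ y ∈ H := by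
    intro y
    constructor
    · rintro ⟨h, hh, hhy⟩
      have h1 : (h : G ⧸ A) = (y : G ⧸ A) := hhy
      have h2 : h⁻¹ * y ∈ A := QuotientGroup.eq.mp h1
      have h3 : h⁻¹ * y ∈ H := hAH h2
      have : y = h * (h⁻¹ * y) := by group
      rw [this]
      exact H.mul_mem hh h3
    · intro hy
      exact Subgroup.mem_map_of_mem _ hy
  -- the two extensions agree
  have hext : ∀ y : G, Cfsg.extendByZero H θ y =
      Cfsg.extendByZero (H.map (QuotientGroup.mk' A)) θ₁ (QuotientGroup.mk' A y) := by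
    intro y
    by_cases hy : y ∈ H
    · rw [extendByZero_mem H θ y hy, extendByZero_mem _ θ₁ _ ((hmem y).mpr hy)]
      exact (hθ ⟨y, hy⟩).symm
    · rw [extendByZero_not_mem H θ y hy, extendByZero_not_mem _ θ₁ _ (fun h => hy ((hmem y).mp h))]
  -- cardinalities
  have hcard : (Nat.card H : ℂ) = (Nat.card A : ℂ) * (Nat.card ↥(H.map (QuotientGroup.mk' A)) : ℂ) := by
    have h1 : (Nat.card H : ℂ) = ∑ x : G, (if x ∈ H then (1 : ℂ) else 0) := by
      rw [Finset.sum_ite, Finset.sum_const_zero, add_zero, Finset.sum_const, nsmul_eq_mul, mul_one,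
        Nat.card_eq_fintype_card, Fintype.card_subtype]
    have h2 : (Nat.card ↥(H.map (QuotientGroup.mk' A)) : ℂ) =
        ∑ q : G ⧸ A, (if q ∈ H.map (QuotientGroup.mk' A) then (1 : ℂ) else 0) := by
      rw [Finset.sum_ite, Finset.sum_const_zero, add_zero, Finset.sum_const, nsmul_eq_mul, mul_one,
        Nat.card_eq_fintype_card, Fintype.card_subtype]
    rw [h1, h2, ← sum_mk A (fun q => if q ∈ H.map (QuotientGroup.mk' A) then (1 : ℂ) else 0)]
    apply Finset.sum_congr rfl
    intro x _
    simp only [hmem]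
  have hA0 : (Nat.card A : ℂ) ≠ 0 := Nat.cast_ne_zero.mpr Nat.card_pos.ne'
  have hH0 : (Nat.card ↥(H.map (QuotientGroup.mk' A)) : ℂ) ≠ 0 :=
    Nat.cast_ne_zero.mpr Nat.card_pos.ne'
  unfold Cfsg.indFun
  have hsum : ∑ x : G, Cfsg.extendByZero H θ (x⁻¹ * g * x) =
      (Nat.card A : ℂ) * ∑ q : G ⧸ A, Cfsg.extendByZero (H.map (QuotientGroup.mk' A)) θ₁
        (q⁻¹ * QuotientGroup.mk' A g * q) := by
    rw [← sum_mk A (fun q => Cfsg.extendByZero (H.map (QuotientGroup.mk' A)) θ₁
        (q⁻¹ * QuotientGroup.mk' A g * q))]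
    apply Finset.sum_congr rfl
    intro x _
    rw [hext]
    simp
  rw [hsum, hcard]
  field_simp

end Cfsg.Agent.S1488
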