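import Cfsg.Statements.S1491
import Mathlib
import Cfsg.Agent.Helper11.CliffAb
import Cfsg.Agent.Helper11.CliffExt

set_option autoImplicit false
open Cfsg

namespace Cfsg.Agent.S1491

/-- Let H be a normal subgroup of the finite group G and θ an irreducible character of H with inertia group T, where T/H is abelian (commutators of T lie in H) and the index of H in T is coprime to the order of H. Then the function induced from θ is the sum of a set of exactly [T:H] irreducible characters of G, each of degree [G:T] * θ(1). -/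
theorem result {G : Type*} [Group G] [Fintype G] (H T : Subgroup G) [hN : H.Normal] (θ : H → ℂ) (hθ : Cfsg.IsIrrCharacter H θ) (hT : ∀ g : G, g ∈ T ↔ ∀ h : H, θ ⟨g * h * g⁻¹, hN.conj_mem h h.2 g⟩ = θ h) (hab : ∀ x ∈ T, ∀ y ∈ T, x * y * x⁻¹ * y⁻¹ ∈ H) (hcop : Nat.Coprime (Nat.card H) (H.relIndex T)) : ∃ C : Finset (G → ℂ), (∀ χ ∈ C, Cfsg.IsIrrCharacter G χ) ∧ C.card = H.relIndex T ∧ Cfsg.indFun H θ = ∑ χ ∈ C, χ ∧ ∀ χ ∈ C, χ 1 = (T.index : ℂ) * θ 1 := by
  classical
  have : Fintype H := Fintype.ofFinite H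
  have : Fintype T := Fintype.ofFinite T
  have hHT : H ≤ T := by
    intro g hg
    rw [hT]
    intro h
    have hcl := Cfsg.Agent.Helper2.isClassFunction_of_isCharacter
      (Cfsg.Agent.Helper2.isCharacter_of_isIrrCharacter hθ)
    exact hcl h ⟨g, hg⟩
  have hKn : (H.subgroupOf T).Normal := inferInstance
  let θ' : H.subgroupOf T → ℂ := fun x => θ ⟨((x : T) : G), Subgroup.mem_subgroupOf.mp x.2⟩
  have hθ' : Cfsg.IsIrrCharacter (H.subgroupOf T) θ' :=
    Cfsg.Agent.Helper2.isIrrCharacter_comp_of_surjective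
      (Subgroup.subgroupOfEquivOfLe hHT).toMonoidHom (Subgroup.subgroupOfEquivOfLe hHT).surjective hθ
  have hinv' : ∀ (t : T) (n : H.subgroupOf T),
      θ' ⟨t * n * t⁻¹, hKn.conj_mem (n : T) n.2 t⟩ = θ' n := by
    intro t n
    exact (hT t).mp t.2 ⟨((n : T) : G), Subgroup.mem_subgroupOf.mp n.2⟩
  have hsolv : Group.IsSolvable (T ⧸ H.subgroupOf T) := by
    apply Group.isSolvable_of_comm
    intro a b
    obtain ⟨x, rfl⟩ := QuotientGroup.mk_surjective a
    obtain ⟨y, rfl⟩ := QuotientGroup.mk_surjective b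
    rw [← QuotientGroup.mk_mul, ← QuotientGroup.mk_mul, QuotientGroup.eq]
    rw [Subgroup.mem_subgroupOf]
    have := hab (y : G)⁻¹ (T.inv_mem y.2) (x : G)⁻¹ (T.inv_mem x.2)
    have e : (((x * y)⁻¹ * (y * x) : T) : G) = (y : G)⁻¹ * (x : G)⁻¹ * (y : G)⁻¹⁻¹ * (x : G)⁻¹⁻¹ := by
      simp [mul_assoc]
    rw [e]
    exact this
  have hcardK : Nat.card (H.subgroupOf T) = Nat.card H :=
    Nat.card_congr (Subgroup.subgroupOfEquivOfLe hHT).toEquiv
  have hcop' : Nat.Coprime (Nat.card (H.subgroupOf T)) (H.subgroupOf T).index := by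
    rw [hcardK]
    exact hcop
  obtain ⟨χ₀, hχ₀, hχ₀N⟩ := Cfsg.Agent.Helper11.exists_ext_of_solvable_coprime (H.subgroupOf T)
    hsolv θ' hθ' hinv' hcop'
  obtain ⟨e, C, he, hC, hcard, hind, hdeg, hconst⟩ :=
    Cfsg.Agent.Helper11.cc_abelian H T θ hHT hT hab hθ
  have hres : (fun n : H => χ₀ ⟨(n : G), hHT n.2⟩) = θ := by
    funext n
    exact hχ₀N ⟨⟨(n : G), hHT n.2⟩, Subgroup.mem_subgroupOf.mpr n.2⟩
  have h1 : Cfsg.classInner (fun n : H => χ₀ ⟨(n : G), hHT n.2⟩) θ = 1 := by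
    rw [hres]
    have := Cfsg.Agent.Helper2.classInner_irr_irr (⟨θ, hθ⟩ : Cfsg.IrrCharacter H) ⟨θ, hθ⟩
    rwa [if_pos rfl] at this
  have he1 : e = 1 := by
    have := hconst χ₀ hχ₀ (by rw [h1]; exact one_ne_zero)
    rw [h1] at this
    exact_mod_cast this.symm
  subst he1
  refine ⟨C, hC, ?_, ?_, ?_⟩
  · have h2 : Nat.card (H.subgroupOf T) * (H.subgroupOf T).index = Nat.card T :=
      Subgroup.card_mul_index _
    rw [hcardK] at h2
    have h3 : C.card * Nat.card H = H.relIndex T * Nat.card H := by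
      have : H.relIndex T = (H.subgroupOf T).index := rfl
      rw [this, mul_comm (H.subgroupOf T).index (Nat.card H), h2, ← hcard]
      ring
    exact Nat.eq_of_mul_eq_mul_right Nat.card_pos h3
  · rw [hind, Nat.cast_one, one_smul]
  · intro χ hχ
    rw [hdeg χ hχ, Nat.cast_one, mul_one]

end Cfsg.Agent.S1491
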