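import Cfsg.Statements.S1492
import Mathlib
import Cfsg.Agent.Helper11.CharBound

set_option autoImplicit false
open Cfsg

namespace Cfsg.Agent.S1492

open Cfsg.Agent.Helper11

/-- Let ψ be an irreducible character of the finite group G and B ≤ D ≤ C subgroups with B normal in C, every commutator of an element of D with an element of C lying in B (so D/B is central in C/B), and ψ constant equal to ψ 1 on B. Then ψ(1) ^ 2 * |C| * |D| ≤ |G| ^ 2. -/
theorem result {G : Type*} [Group G] [Finite G] (ψ : G → ℂ) (hψ : Cfsg.IsIrrCharacter G ψ) (B C D : Subgroup G) (hBD : B ≤ D) (hDC : D ≤ C) (hBn : ∀ c ∈ C, ∀ b ∈ B, c * b * c⁻¹ ∈ B) (hcent : ∀ d ∈ D, ∀ c ∈ C, d * c * d⁻¹ * c⁻¹ ∈ B) (hker : ∀ b ∈ B, ψ b = ψ 1) : ‖ψ 1‖ ^ 2 * (Nat.card C : ℝ) * (Nat.card D : ℝ) ≤ (Nat.card G : ℝ) ^ 2 := by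
  classical
  have : Fintype G := Fintype.ofFinite G
  have : Fintype C := Fintype.ofFinite C
  have hψc : IsCharacter G ψ := Cfsg.Agent.Helper25.isCharacter_of_irr hψ
  set φ : C → ℂ := fun c => ψ c with hφdef
  have hφc : IsCharacter C φ := Cfsg.Agent.Helper2.isCharacter_restrict C hψc
  have hcl := Cfsg.Agent.Helper25.char_isClassFunction hφc
  have hm : ∀ θ : IrrCharacter C, ∃ m : ℕ, classInner φ (θ : C → ℂ) = (m : ℂ) :=
    fun θ => Cfsg.Agent.Helper2.classInner_char_nat hφc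
      (Cfsg.Agent.Helper2.isCharacter_of_isIrrCharacter θ.2)
  choose m hm using hm
  have hCpos : (0 : ℝ) < Nat.card C := by exact_mod_cast Nat.card_pos
  have hDpos : (0 : ℝ) < Nat.card D := by exact_mod_cast Nat.card_pos
  have hGpos : (0 : ℝ) < Nat.card G := by exact_mod_cast Nat.card_pos
  -- degree bound for the constituents
  have hbound : ∀ θ : IrrCharacter C, m θ ≠ 0 →
      (charDegree (θ : C → ℂ) : ℝ) ^ 2 * Nat.card D ≤ Nat.card C := by
    intro θ hmθ
    have hθB : ∀ b : C, (b : G) ∈ B → (θ : C → ℂ) b = (θ : C → ℂ) 1 := by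
      intro b hb
      apply irr_const_of_char_const hφc b _ θ (by rw [hm θ]; exact_mod_cast hmθ)
      exact hker b hb
    have h := irr_degree_sq_card_le θ (Finset.univ.filter (fun c : C => (c : G) ∈ D)) (by
      intro d hd y
      simp only [Finset.mem_filter, Finset.mem_univ, true_and] at hd
      apply hθB
      have := hcent (d : G)⁻¹ (D.inv_mem hd) y y.2
      simpa [mul_assoc] using this)
    have hcard : (Finset.univ.filter (fun c : C => (c : G) ∈ D)).card = Nat.card D := by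
      rw [← Fintype.card_subtype, ← Nat.card_eq_fintype_card]
      exact Nat.card_congr (Subgroup.subgroupOfEquivOfLe hDC).toEquiv
    rw [hcard] at h
    exact h
  -- Parseval
  have hpars : ∑ θ : IrrCharacter C, (m θ : ℝ) ^ 2 ≤ (Nat.card G : ℝ) / Nat.card C := by
    have h1 := Cfsg.Agent.Helper2.classInner_eq_sum_mul hcl φ
    rw [Cfsg.Agent.Helper2.classInner_self_eq φ] at h1
    have h2 : (Nat.card C : ℝ)⁻¹ * ∑ c : C, Complex.normSq (φ c) =
        ∑ θ : IrrCharacter C, (m θ : ℝ) ^ 2 := by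
      have : (((Nat.card C : ℝ)⁻¹ * ∑ c : C, Complex.normSq (φ c) : ℝ) : ℂ) =
          ((∑ θ : IrrCharacter C, (m θ : ℝ) ^ 2 : ℝ) : ℂ) := by
        rw [h1]
        push_cast
        apply Finset.sum_congr rfl
        intro θ _
        rw [hm θ]
        simp [sq]
      exact_mod_cast this
    rw [← h2]
    have h3 : ∑ c : C, Complex.normSq (φ c) ≤ (Nat.card G : ℝ) := by
      rw [← irr_sum_normSq (⟨ψ, hψ⟩ : IrrCharacter G)]
      have h4 : ∑ c : C, Complex.normSq (φ c) =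
          ∑ g ∈ Finset.univ.filter (fun g : G => g ∈ C), Complex.normSq (ψ g) := by
        rw [Finset.sum_subtype (p := fun g : G => g ∈ C) (Finset.univ.filter (fun g : G => g ∈ C))
          (by intro x; simp) (fun g : G => Complex.normSq (ψ g))]
      rw [h4]
      exact Finset.sum_le_sum_of_subset_of_nonneg (Finset.subset_univ _)
        (fun _ _ _ => Complex.normSq_nonneg _)
    rw [inv_mul_eq_div]
    exact div_le_div_of_nonneg_right h3 hCpos.le
  -- the degree of ψ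
  have hψ1 : ψ 1 = ((∑ θ : IrrCharacter C, (m θ : ℝ) * (charDegree (θ : C → ℂ) : ℝ) : ℝ) : ℂ) := by
    have hsum := Cfsg.Agent.Helper2.classFun_eq_sum_classInner hcl
    have e2 := congrFun hsum 1
    simp only [Finset.sum_apply, Pi.smul_apply, smul_eq_mul, hm] at e2
    have e3 : ψ 1 = ∑ θ : IrrCharacter C, (m θ : ℂ) * (θ : C → ℂ) 1 := e2
    rw [e3]
    push_cast
    apply Finset.sum_congr rfl
    intro θ _
    rw [Cfsg.Agent.Helper25.irr_one_eq_degree]
  set S : ℝ := ∑ θ : IrrCharacter C, (m θ : ℝ) * (charDegree (θ : C → ℂ) : ℝ) with hS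
  have hS0 : 0 ≤ S := Finset.sum_nonneg (fun θ _ => by positivity)
  have hnorm : ‖ψ 1‖ = S := by
    rw [hψ1, Complex.norm_real, Real.norm_of_nonneg hS0]
  set r : ℝ := Real.sqrt ((Nat.card C : ℝ) / Nat.card D) with hr
  have hr0 : 0 ≤ r := Real.sqrt_nonneg _
  have hrsq : r ^ 2 = (Nat.card C : ℝ) / Nat.card D := Real.sq_sqrt (by positivity)
  have hterm : ∀ θ : IrrCharacter C, (m θ : ℝ) * (charDegree (θ : C → ℂ) : ℝ) ≤ r * (m θ : ℝ) ^ 2 := by
    intro θ
    by_cases hmθ : m θ = 0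
    · rw [hmθ]; simp
    · have h1 := hbound θ hmθ
      have h2 : (charDegree (θ : C → ℂ) : ℝ) ≤ r := by
        rw [hr, ← Real.sqrt_sq (Nat.cast_nonneg (charDegree (θ : C → ℂ)))]
        apply Real.sqrt_le_sqrt
        rw [le_div_iff₀ hDpos]
        exact h1
      have h3 : (m θ : ℝ) ≤ (m θ : ℝ) ^ 2 := by
        have : (1 : ℝ) ≤ (m θ : ℝ) := by exact_mod_cast Nat.one_le_iff_ne_zero.mpr hmθ
        nlinarith
      calc (m θ : ℝ) * (charDegree (θ : C → ℂ) : ℝ) ≤ (m θ : ℝ) * r :=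
            mul_le_mul_of_nonneg_left h2 (Nat.cast_nonneg _)
        _ = r * (m θ : ℝ) := mul_comm _ _
        _ ≤ r * (m θ : ℝ) ^ 2 := mul_le_mul_of_nonneg_left h3 hr0
  have hSle : S ≤ r * ((Nat.card G : ℝ) / Nat.card C) := by
    calc S ≤ ∑ θ : IrrCharacter C, r * (m θ : ℝ) ^ 2 := Finset.sum_le_sum (fun θ _ => hterm θ)
      _ = r * ∑ θ : IrrCharacter C, (m θ : ℝ) ^ 2 := by rw [Finset.mul_sum]
      _ ≤ r * ((Nat.card G : ℝ) / Nat.card C) := mul_le_mul_of_nonneg_left hpars hr0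
  rw [hnorm]
  have hsq : S ^ 2 ≤ (r * ((Nat.card G : ℝ) / Nat.card C)) ^ 2 := pow_le_pow_left₀ hS0 hSle 2
  rw [mul_pow, hrsq] at hsq
  have hfin : (Nat.card C : ℝ) / Nat.card D * ((Nat.card G : ℝ) / Nat.card C) ^ 2 *
      (Nat.card C : ℝ) * (Nat.card D : ℝ) = (Nat.card G : ℝ) ^ 2 := by
    field_simp
  calc S ^ 2 * (Nat.card C : ℝ) * (Nat.card D : ℝ)
      ≤ (Nat.card C : ℝ) / Nat.card D * ((Nat.card G : ℝ) / Nat.card C) ^ 2 *
        (Nat.card C : ℝ) * (Nat.card D : ℝ) := by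
        apply mul_le_mul_of_nonneg_right _ hDpos.le
        exact mul_le_mul_of_nonneg_right hsq hCpos.le
    _ = (Nat.card G : ℝ) ^ 2 := hfin

end Cfsg.Agent.S1492
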