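import Cfsg.Statements.S1494
import Mathlib
import Cfsg.Agent.Helper11.AbelChar

set_option autoImplicit false
open Cfsg

namespace Cfsg.Agent.S1494

open Cfsg.Agent.Helper11

/-- Let χ be a generalized character of the finite group G, p a prime, x an element of order p and y an element commuting with x. Then χ(x * y) − χ(y) = (1 − ε) * ω for some algebraic integer ω, where ε = exp(2πi/p). -/
theorem result {G : Type*} [Group G] [Finite G] (χ : G → ℂ) (hχ : Cfsg.IsGeneralizedCharacter G χ) (p : ℕ) (hp : p.Prime) (x y : G) (hx : orderOf x = p) (hxy : x * y = y * x) : ∃ ω : ℂ, IsIntegral ℤ ω ∧ χ (x * y) - χ y = (1 - Complex.exp (2 * Real.pi * Complex.I / p)) * ω := by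
  classical
  set A := Subgroup.closure ({x, y} : Set G) with hA
  have : Fintype A := Fintype.ofFinite A
  have hcomm : ∀ a b : A, a * b = b * a := closure_pair_comm hxy
  have hxA : x ∈ A := Subgroup.subset_closure (by simp)
  have hyA : y ∈ A := Subgroup.subset_closure (by simp)
  set a : A := ⟨x, hxA⟩ with ha
  set b : A := ⟨y, hyA⟩ with hb
  obtain ⟨χ₁, χ₂, h1, h2, rfl⟩ := hχ
  have hres : IsGeneralizedCharacter A (fun h : A => (χ₁ - χ₂) h) :=
    ⟨fun h => χ₁ h, fun h => χ₂ h, Cfsg.Agent.Helper2.isCharacter_restrict A h1,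
      Cfsg.Agent.Helper2.isCharacter_restrict A h2, rfl⟩
  obtain ⟨hcl, hm⟩ := Cfsg.Agent.Helper2.isGeneralizedCharacter_iff.mp hres
  choose m hm using hm
  have hsum := Cfsg.Agent.Helper2.classFun_eq_sum_classInner hcl
  set ε := Complex.exp (2 * Real.pi * Complex.I / p) with hε
  have hprim : IsPrimitiveRoot ε p := Complex.isPrimitiveRoot_exp p hp.ne_zero
  have : NeZero p := ⟨hp.ne_zero⟩
  have hεint : IsIntegral ℤ ε := hprim.isIntegral hp.pos
  have hroot : ∀ l : IrrCharacter A, ∃ k : ℕ, (l : A → ℂ) a = ε ^ k := by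
    intro l
    have hpow : ((l : A → ℂ) a) ^ p = 1 := by
      rw [← irr_pow_of_comm hcomm l a p]
      have : a ^ p = 1 := by
        apply Subtype.ext
        show x ^ p = 1
        rw [← hx]
        exact pow_orderOf_eq_one x
      rw [this, irr_one_of_comm hcomm l]
    obtain ⟨i, -, hi⟩ := hprim.eq_pow_of_pow_eq_one hpow
    exact ⟨i, hi.symm⟩
  choose k hk using hroot
  refine ⟨∑ l : IrrCharacter A, (m l : ℂ) * ((l : A → ℂ) b *
    (-∑ j ∈ Finset.range (k l), ε ^ j)), ?_, ?_⟩
  · apply IsIntegral.sum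
    intro l _
    apply IsIntegral.mul
    · exact isIntegral_algebraMap (R := ℤ) (A := ℂ) (x := m l)
    · apply IsIntegral.mul
      · exact Cfsg.Agent.Helper25.irr_isIntegral l b
      · apply IsIntegral.neg
        apply IsIntegral.sum
        intro j _
        exact hεint.pow j
  · have e1 : (χ₁ - χ₂) (x * y) = ∑ l : IrrCharacter A, (m l : ℂ) * (l : A → ℂ) (a * b) := by
      have := congrFun hsum (a * b)
      simp only [Finset.sum_apply, Pi.smul_apply, smul_eq_mul, hm] at this
      exact this
    have e2 : (χ₁ - χ₂) y = ∑ l : IrrCharacter A, (m l : ℂ) * (l : A → ℂ) b := by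
      have := congrFun hsum b
      simp only [Finset.sum_apply, Pi.smul_apply, smul_eq_mul, hm] at this
      exact this
    rw [e1, e2, ← Finset.sum_sub_distrib, Finset.mul_sum]
    apply Finset.sum_congr rfl
    intro l _
    rw [irr_mul_of_comm hcomm, hk l]
    have hgeom : ε ^ (k l) - 1 = (ε - 1) * ∑ j ∈ Finset.range (k l), ε ^ j := by
      rw [mul_comm]
      exact (geom_sum_mul ε (k l)).symm
    linear_combination (m l : ℂ) * (l : A → ℂ) b * hgeom

end Cfsg.Agent.S1494
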