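import Cfsg.Statements.S1495
import Mathlib

set_option autoImplicit false
open Cfsg

namespace Cfsg.Agent.S1495

open Finset

/-- For a primitive `p`-th root `ε` (`p` prime) and `0 < i < p`, `1 - ε = (1 - ε ^ i) * b` with `b`
an algebraic integer. -/
theorem exists_factor (p : ℕ) (hp : p.Prime) (ε : ℂ) (hε : IsPrimitiveRoot ε p) (i : ℕ)
    (hi0 : 0 < i) (hip : i < p) :
    ∃ b : ℂ, IsIntegral ℤ b ∧ 1 - ε = (1 - ε ^ i) * b := by
  have : NeZero p := ⟨hp.ne_zero⟩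
  have hcop : i.Coprime p := by
    rw [Nat.coprime_comm, Nat.Prime.coprime_iff_not_dvd hp]
    intro h
    exact absurd (Nat.le_of_dvd hi0 h) (not_le.mpr hip)
  have hζ : IsPrimitiveRoot (ε ^ i) p := hε.pow_of_coprime i hcop
  obtain ⟨j, _, hj⟩ := hζ.eq_pow_of_pow_eq_one hε.pow_eq_one
  refine ⟨∑ t ∈ range j, (ε ^ i) ^ t, ?_, ?_⟩
  · apply IsIntegral.sum
    intro t _
    exact ((hε.isIntegral hp.pos).pow i).pow t
  · rw [mul_neg_geom_sum, hj]

/-- Let p be a prime, ε = exp(2πi/p), and n an integer such that n = (1 − ε) * ω for some algebraic integer ω. Then p divides n. -/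
theorem result (p : ℕ) (hp : p.Prime) (n : ℤ) (ω : ℂ) (hω : IsIntegral ℤ ω) (h : (n : ℂ) = (1 - Complex.exp (2 * Real.pi * Complex.I / p)) * ω) : (p : ℤ) ∣ n := by
  obtain ⟨ε, hεdef⟩ : ∃ ε, ε = Complex.exp (2 * Real.pi * Complex.I / p) := ⟨_, rfl⟩
  rw [← hεdef] at h
  have hε : IsPrimitiveRoot ε p := by rw [hεdef]; exact Complex.isPrimitiveRoot_exp p hp.ne_zero
  obtain ⟨m, hm⟩ : ∃ m, p = m + 1 := ⟨p - 1, by have := hp.pos; omega⟩
  have hprod : ∏ k ∈ range m, (1 - ε ^ (k + 1)) = (p : ℂ) := by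
    have hε' : IsPrimitiveRoot ε (m + 1) := hm ▸ hε
    rw [hε'.prod_one_sub_pow_eq_order, hm]; push_cast; ring
  have key : ∀ k : ℕ, ∃ b : ℂ, IsIntegral ℤ b ∧ (k < m → 1 - ε = (1 - ε ^ (k + 1)) * b) := by
    intro k
    by_cases hk : k < m
    · obtain ⟨b, hb, hb'⟩ := exists_factor p hp ε hε (k + 1) (Nat.succ_pos k) (by omega)
      exact ⟨b, hb, fun _ => hb'⟩
    · exact ⟨0, isIntegral_zero, fun h => absurd h hk⟩
  choose b hb hb' using key
  have h1 : ((n : ℂ)) ^ m = (p : ℂ) * ∏ k ∈ range m, (b k * ω) := by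
    rw [← hprod, ← Finset.prod_mul_distrib]
    have hc : ((n : ℂ)) ^ m = ∏ _k ∈ range m, (n : ℂ) := by
      rw [Finset.prod_const, Finset.card_range]
    rw [hc]
    apply Finset.prod_congr rfl
    intro k hk
    rw [h, hb' k (Finset.mem_range.mp hk)]
    ring
  have hβ : IsIntegral ℤ (∏ k ∈ range m, (b k * ω)) :=
    IsIntegral.prod _ (fun k _ => (hb k).mul hω)
  -- the rational number n^m / p
  have hp0 : (p : ℂ) ≠ 0 := Nat.cast_ne_zero.mpr hp.ne_zero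
  have h2 : ∏ k ∈ range m, (b k * ω) = (((n ^ m : ℤ) : ℚ) / (p : ℚ) : ℚ) := by
    push_cast
    rw [eq_div_iff hp0, mul_comm, ← h1]
  rw [h2] at hβ
  have h3 : IsIntegral ℤ (((n ^ m : ℤ) : ℚ) / (p : ℚ) : ℚ) := by
    have := (isIntegral_algebraMap_iff (R := ℤ) (A := ℚ) (B := ℂ)
      (x := (((n ^ m : ℤ) : ℚ) / (p : ℚ) : ℚ)) (algebraMap ℚ ℂ).injective).mp
    exact this hβ
  obtain ⟨y, hy⟩ := IsIntegrallyClosed.isIntegral_iff.mp h3
  have hpq : (p : ℚ) ≠ 0 := Nat.cast_ne_zero.mpr hp.ne_zero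
  have h4 : (n ^ m : ℤ) = (p : ℤ) * y := by
    have : ((n ^ m : ℤ) : ℚ) = (p : ℚ) * (y : ℚ) := by
      have hy' : (y : ℚ) = ((n ^ m : ℤ) : ℚ) / (p : ℚ) := by simpa using hy
      rw [hy']; field_simp
    exact_mod_cast this
  have h5 : (p : ℤ) ∣ n ^ m := ⟨y, h4⟩
  exact Int.Prime.dvd_pow' hp h5

end Cfsg.Agent.S1495
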