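import Cfsg.Statements.S1498
import Cfsg.Agent.Helper11.Basic

set_option autoImplicit false
open Cfsg

namespace Cfsg.Agent.S1498

open Cfsg.Agent.Helper11

theorem mem_H_of_coprime {G : Type*} [Group G] [Finite G] (A : Set G) (L : Subgroup G)
    (H : G → Subgroup G) (hD : Cfsg.DadeHypothesis A L H) (a : G) (ha : a ∈ A) (k : G)
    (hk : k ∈ Subgroup.centralizer ({a} : Set G))
    (hcop : (orderOf k).Coprime (Nat.card ↥(L ⊓ Subgroup.centralizer ({a} : Set G)))) :
    k ∈ H a :=
  mem_of_sup_eq_of_coprime (Subgroup.centralizer ({a} : Set G)) (H a)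
    (L ⊓ Subgroup.centralizer ({a} : Set G)) (hD.conj_mem_H a ha) (hD.sup_eq a ha) k hk hcop

/-- Under the Dade hypothesis for (A, L, H): for a ∈ A and x ∈ L, the subgroup attached to x * a * x⁻¹ is the conjugate of H a by x. -/
theorem result {G : Type*} [Group G] [Finite G] (A : Set G) (L : Subgroup G) (H : G → Subgroup G) (hD : Cfsg.DadeHypothesis A L H) (a : G) (ha : a ∈ A) (x : G) (hx : x ∈ L) : H (x * a * x⁻¹) = (H a).map (MulAut.conj x).toMonoidHom := by
  have hb : x * a * x⁻¹ ∈ A := hD.conj_mem x hx a ha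
  set b := x * a * x⁻¹ with hbdef
  apply le_antisymm
  · intro v hv
    have hvb : v * b = b * v := by
      have := hD.le_centralizer b hb hv
      rwa [Subgroup.mem_centralizer_singleton_iff] at this
    have h1 : x⁻¹ * v * x ∈ Subgroup.centralizer ({a} : Set G) := by
      rw [Subgroup.mem_centralizer_singleton_iff]
      have hab : a = x⁻¹ * b * x := by rw [hbdef]; group
      rw [hab]
      calc x⁻¹ * v * x * (x⁻¹ * b * x) = x⁻¹ * (v * b) * x := by group
        _ = x⁻¹ * (b * v) * x := by rw [hvb]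
        _ = x⁻¹ * b * x * (x⁻¹ * v * x) := by group
    have hord : orderOf (x⁻¹ * v * x) = orderOf v := by
      have := orderOf_conj' x⁻¹ v
      simpa using this
    have h2 : (orderOf (x⁻¹ * v * x)).Coprime
        (Nat.card ↥(L ⊓ Subgroup.centralizer ({a} : Set G))) := by
      rw [hord]
      exact Nat.Coprime.coprime_dvd_left (orderOf_dvd_of_pow_eq_one
        (pow_card_subgroup_eq_one _ hv)) (hD.coprime b hb a ha)
    have h3 := mem_H_of_coprime A L H hD a ha _ h1 h2
    refine ⟨x⁻¹ * v * x, h3, ?_⟩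
    simp [MulAut.conj_apply]; group
  · rintro _ ⟨u, hu, rfl⟩
    have hua : u * a = a * u := by
      have := hD.le_centralizer a ha hu
      rwa [Subgroup.mem_centralizer_singleton_iff] at this
    have h1 : x * u * x⁻¹ ∈ Subgroup.centralizer ({b} : Set G) := by
      rw [Subgroup.mem_centralizer_singleton_iff, hbdef]
      calc x * u * x⁻¹ * (x * a * x⁻¹) = x * (u * a) * x⁻¹ := by group
        _ = x * (a * u) * x⁻¹ := by rw [hua]
        _ = x * a * x⁻¹ * (x * u * x⁻¹) := by group
    have hord : orderOf (x * u * x⁻¹) = orderOf u := orderOf_conj' x u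
    have h2 : (orderOf (x * u * x⁻¹)).Coprime
        (Nat.card ↥(L ⊓ Subgroup.centralizer ({b} : Set G))) := by
      rw [hord]
      exact Nat.Coprime.coprime_dvd_left (orderOf_dvd_of_pow_eq_one
        (pow_card_subgroup_eq_one _ hu)) (hD.coprime a ha b hb)
    have h3 := mem_H_of_coprime A L H hD b hb _ h1 h2
    simpa [MulAut.conj_apply] using h3

end Cfsg.Agent.S1498
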