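import Cfsg.Statements.S1499
import Cfsg.Agent.Helper11.Basic

set_option autoImplicit false
open Cfsg

namespace Cfsg.Agent.S1499

open Cfsg.Agent.Helper11

/-- Under the Dade hypothesis for (A, L, H), let a, b ∈ A. If an element of the coset a·H(a) is conjugate in G to an element of b·H(b), then a and b are conjugate by an element of L. Moreover the set normaliser of the coset a·H(a) is the centraliser of a. -/
theorem result {G : Type*} [Group G] [Finite G] (A : Set G) (L : Subgroup G) (H : G → Subgroup G) (hD : Cfsg.DadeHypothesis A L H) (a b : G) (ha : a ∈ A) (hb : b ∈ A) : ((∃ u ∈ H a, ∃ v ∈ H b, ∃ g : G, g * (a * u) * g⁻¹ = b * v) → ∃ x ∈ L, x * a * x⁻¹ = b) ∧ Subgroup.normalizer ((fun u : G => a * u) '' (H a : Set G)) = Subgroup.centralizer ({a} : Set G) := by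
  -- basic facts
  have hmemCL : ∀ c ∈ A, c ∈ L ⊓ Subgroup.centralizer ({c} : Set G) := by
    intro c hc
    refine ⟨hD.subset hc, ?_⟩
    show c ∈ Subgroup.centralizer ({c} : Set G)
    rw [Subgroup.mem_centralizer_singleton_iff]
  have hcomm : ∀ c ∈ A, ∀ u ∈ H c, Commute c u := by
    intro c hc u hu
    have := hD.le_centralizer c hc hu
    rw [Subgroup.mem_centralizer_iff] at this
    exact this c (Set.mem_singleton c)
  constructor
  · rintro ⟨u, hu, v, hv, g, hg⟩
    set m := Nat.card ↥(L ⊓ Subgroup.centralizer ({a} : Set G)) *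
      Nat.card ↥(L ⊓ Subgroup.centralizer ({b} : Set G)) with hm
    set n := Nat.card (H a) * Nat.card (H b) with hn
    have hmn : m.Coprime n := by
      rw [hm, hn]
      apply Nat.Coprime.mul_left
      · apply Nat.Coprime.mul_right
        · exact (hD.coprime a ha a ha).symm
        · exact (hD.coprime b hb a ha).symm
      · apply Nat.Coprime.mul_right
        · exact (hD.coprime a ha b hb).symm
        · exact (hD.coprime b hb b hb).symm
    obtain ⟨k, hk⟩ := exists_pow_eq_left m n hmn
    have ham : a ^ m = 1 := by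
      rw [hm, pow_mul, pow_card_subgroup_eq_one _ (hmemCL a ha), one_pow]
    have hbm : b ^ m = 1 := by
      rw [hm, mul_comm, pow_mul, pow_card_subgroup_eq_one _ (hmemCL b hb), one_pow]
    have hun : u ^ n = 1 := by
      rw [hn, pow_mul, pow_card_subgroup_eq_one _ hu, one_pow]
    have hvn : v ^ n = 1 := by
      rw [hn, mul_comm, pow_mul, pow_card_subgroup_eq_one _ hv, one_pow]
    have h1 : (a * u) ^ k = a := hk a u (hcomm a ha u hu) ham hun
    have h2 : (b * v) ^ k = b := hk b v (hcomm b hb v hv) hbm hvn
    have h3 : g * a * g⁻¹ = b := by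
      rw [← h1, ← conj_pow', hg, h2]
    obtain ⟨x, hx, hxa⟩ := hD.fusion a ha g (h3 ▸ hb)
    exact ⟨x, hx, hxa.trans h3⟩
  · apply le_antisymm
    · intro g hg
      rw [Subgroup.mem_set_normalizer_iff] at hg
      have h1 : a ∈ (fun u : G => a * u) '' (H a : Set G) := ⟨1, (H a).one_mem, mul_one a⟩
      obtain ⟨u', hu', hgu⟩ := (hg a).mp h1
      simp only at hgu
      set m := Nat.card ↥(L ⊓ Subgroup.centralizer ({a} : Set G)) with hm
      set n := Nat.card (H a) with hn
      have hmn : m.Coprime n := (hD.coprime a ha a ha).symm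
      obtain ⟨k, hk⟩ := exists_pow_eq_left m n hmn
      have ham : a ^ m = 1 := pow_card_subgroup_eq_one _ (hmemCL a ha)
      have hun : u' ^ n = 1 := pow_card_subgroup_eq_one _ hu'
      have h2 : (a * u') ^ k = a := hk a u' (hcomm a ha u' hu') ham hun
      have h3 : a ^ k = a := by
        have := hk a 1 (Commute.one_right a) ham (one_pow n)
        rwa [mul_one] at this
      have h4 : g * a * g⁻¹ = a := by
        calc g * a * g⁻¹ = g * a ^ k * g⁻¹ := by rw [h3]
          _ = (g * a * g⁻¹) ^ k := (conj_pow' g a k).symm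
          _ = (a * u') ^ k := by rw [hgu]
          _ = a := h2
      rw [Subgroup.mem_centralizer_iff]
      intro y hy
      rw [Set.mem_singleton_iff] at hy
      rw [hy]
      calc a * g = (g * a * g⁻¹) * g := by rw [h4]
        _ = g * a := by group
    · intro c hc
      have hca : c * a = a * c := by
        rw [Subgroup.mem_centralizer_iff] at hc
        exact (hc a (Set.mem_singleton a)).symm
      have hc' : c⁻¹ ∈ Subgroup.centralizer ({a} : Set G) := Subgroup.inv_mem _ hc
      have hca' : c⁻¹ * a = a * c⁻¹ := by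
        rw [Subgroup.mem_centralizer_iff] at hc'
        exact (hc' a (Set.mem_singleton a)).symm
      rw [Subgroup.mem_set_normalizer_iff]
      intro y
      constructor
      · rintro ⟨u, hu, rfl⟩
        refine ⟨c * u * c⁻¹, hD.conj_mem_H a ha c hc u hu, ?_⟩
        show a * (c * u * c⁻¹) = c * (a * u) * c⁻¹
        rw [← mul_assoc, ← mul_assoc, ← hca]; group
      · rintro ⟨u, hu, hy⟩
        simp only at hy
        refine ⟨c⁻¹ * u * c⁻¹⁻¹, hD.conj_mem_H a ha c⁻¹ hc' u hu, ?_⟩
        show a * (c⁻¹ * u * c⁻¹⁻¹) = y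
        have : y = c⁻¹ * (a * u) * c := by rw [hy]; group
        rw [this, ← mul_assoc, ← mul_assoc, ← hca']; group

end Cfsg.Agent.S1499
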