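import Cfsg.Statements.S1503
import Mathlib
import Cfsg.Agent.Helper11.CyclicTI2
import Cfsg.Agent.Helper25.CharBasic

set_option autoImplicit false
open Cfsg

namespace Cfsg.Agent.S1503

open Cfsg.Agent.Helper11

/-- Let W₁, W₂ ≤ G with W = W₁ ⊔ W₂ and let χ an orthonormal family of irreducible characters of G up to sign, indexed by the linear characters ω of W, with χ_1 = 1, χ_ω = ω on W outside W₁ ∪ W₂, and the induction identity for (1 − φ)(1 − ψ). If θ is an irreducible character of G orthogonal to χ ω for every linear character ω of W, then θ vanishes at every element of W lying outside W₁ ∪ W₂. -/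
theorem result {G : Type*} [Group G] [Fintype G] (W₁ W₂ : Subgroup G) (hW : Cfsg.IsSelfNormalizingCyclic W₁ W₂) (χ : (↥(W₁ ⊔ W₂) →* ℂˣ) → (G → ℂ)) (hχ : Cfsg.IsCyclicTIFamily W₁ W₂ χ) (θ : G → ℂ) (hθ : Cfsg.IsIrrCharacter G θ) (horth : ∀ ω, Cfsg.classInner θ (χ ω) = 0) (w : ↥(W₁ ⊔ W₂)) (hw₁ : (w : G) ∉ W₁) (hw₂ : (w : G) ∉ W₂) : θ w = 0 := by
  classical
  obtain ⟨hW₁, hW₂, hdisj, hcomm, hcyc, hnorm⟩ := hW
  have hθc : IsClassFunction G θ :=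
    Cfsg.Agent.Helper25.char_isClassFunction (Cfsg.Agent.Helper25.isCharacter_of_irr hθ)
  have : Fintype ↥(W₁ ⊔ W₂) := Fintype.ofFinite _
  have : Fintype (↥(W₁ ⊔ W₂) →* ℂˣ) := Fintype.ofFinite _
  have hcommW : ∀ x y : ↥(W₁ ⊔ W₂), x * y = y * x := fun x y => IsMulCommutative.is_comm.comm x y
  set P₁ : ↥(W₁ ⊔ W₂) →* ↥(W₁ ⊔ W₂) :=
    (Subgroup.inclusion le_sup_left).comp (proj₁ W₁ W₂ hdisj hcomm) with hP₁
  set P₂ : ↥(W₁ ⊔ W₂) →* ↥(W₁ ⊔ W₂) :=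
    (Subgroup.inclusion le_sup_right).comp (proj₂ W₁ W₂ hdisj hcomm) with hP₂
  have hP₁mem : ∀ v, ((P₁ v : ↥(W₁ ⊔ W₂)) : G) ∈ W₁ := fun v => (proj₁ W₁ W₂ hdisj hcomm v).2
  have hP₂mem : ∀ v, ((P₂ v : ↥(W₁ ⊔ W₂)) : G) ∈ W₂ := fun v => (proj₂ W₁ W₂ hdisj hcomm v).2
  have hstep : ∀ ω : ↥(W₁ ⊔ W₂) →* ℂˣ, ∑ v : ↥(W₁ ⊔ W₂),
      (1 - ((ω (P₁ v) : ℂˣ) : ℂ) - ((ω (P₂ v) : ℂˣ) : ℂ) + ((ω v : ℂˣ) : ℂ)) *
        (starRingEnd ℂ) (θ v) = 0 := by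
    intro ω
    have h1 := cyclicTI_inner_alpha W₁ W₂ χ hχ θ (lift₁ W₁ W₂ hdisj hcomm (res₁ W₁ W₂ ω))
      (lift₂ W₁ W₂ hdisj hcomm (res₂ W₁ W₂ ω))
      (fun v hv => lift₁_of_mem_right W₁ W₂ hdisj hcomm _ v hv)
      (fun v hv => lift₂_of_mem_left W₁ W₂ hdisj hcomm _ v hv)
    rw [horth, horth, horth, horth] at h1
    rw [← classInner_conj_symm, Cfsg.Agent.Helper2.frobenius_reciprocity _ _ θ hθc] at h1
    have h2 := congrArg (starRingEnd ℂ) h1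
    rw [Complex.conj_conj] at h2
    simp only [sub_zero, add_zero, map_zero] at h2
    unfold classInner at h2
    rcases mul_eq_zero.mp h2 with h3 | h3
    · exfalso; exact (inv_ne_zero (Nat.cast_ne_zero.mpr Nat.card_pos.ne')) h3
    · rw [← h3]
      apply Finset.sum_congr rfl
      intro v _
      congr 1
      have e := congrArg (fun f : ↥(W₁ ⊔ W₂) →* ℂˣ => ((f v : ℂˣ) : ℂ))
        (lift_res W₁ W₂ hdisj hcomm ω)
      simp only [MonoidHom.mul_apply, Units.val_mul] at e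
      rw [← e]
      rfl
  have hfinal : ∑ ω : ↥(W₁ ⊔ W₂) →* ℂˣ, ((ω w⁻¹ : ℂˣ) : ℂ) * ∑ v : ↥(W₁ ⊔ W₂),
      (1 - ((ω (P₁ v) : ℂˣ) : ℂ) - ((ω (P₂ v) : ℂˣ) : ℂ) + ((ω v : ℂˣ) : ℂ)) *
        (starRingEnd ℂ) (θ v) = 0 := by
    apply Finset.sum_eq_zero
    intro ω _
    rw [hstep, mul_zero]
  have hswap : ∑ ω : ↥(W₁ ⊔ W₂) →* ℂˣ, ((ω w⁻¹ : ℂˣ) : ℂ) * ∑ v : ↥(W₁ ⊔ W₂),
      (1 - ((ω (P₁ v) : ℂˣ) : ℂ) - ((ω (P₂ v) : ℂˣ) : ℂ) + ((ω v : ℂˣ) : ℂ)) *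
        (starRingEnd ℂ) (θ v) =
      ∑ v : ↥(W₁ ⊔ W₂), (∑ ω : ↥(W₁ ⊔ W₂) →* ℂˣ, (((ω w⁻¹ : ℂˣ) : ℂ) -
        ((ω (w⁻¹ * P₁ v) : ℂˣ) : ℂ) - ((ω (w⁻¹ * P₂ v) : ℂˣ) : ℂ) + ((ω (w⁻¹ * v) : ℂˣ) : ℂ))) *
        (starRingEnd ℂ) (θ v) := by
    simp_rw [Finset.mul_sum, Finset.sum_mul]
    rw [Finset.sum_comm]
    apply Finset.sum_congr rfl
    intro v _
    apply Finset.sum_congr rfl
    intro ω _
    simp only [map_mul, Units.val_mul]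
    ring
  have hinner : ∀ v : ↥(W₁ ⊔ W₂), ∑ ω : ↥(W₁ ⊔ W₂) →* ℂˣ, (((ω w⁻¹ : ℂˣ) : ℂ) -
        ((ω (w⁻¹ * P₁ v) : ℂˣ) : ℂ) - ((ω (w⁻¹ * P₂ v) : ℂˣ) : ℂ) + ((ω (w⁻¹ * v) : ℂˣ) : ℂ)) =
      if v = w then (Nat.card ↥(W₁ ⊔ W₂) : ℂ) else 0 := by
    intro v
    rw [Finset.sum_add_distrib, Finset.sum_sub_distrib, Finset.sum_sub_distrib,
      sum_chars hcommW, sum_chars hcommW, sum_chars hcommW, sum_chars hcommW]
    have e1 : w⁻¹ ≠ 1 := by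
      intro h
      apply hw₁
      rw [inv_eq_one] at h
      rw [h]
      exact W₁.one_mem
    have e2 : w⁻¹ * P₁ v ≠ 1 := by
      intro h
      apply hw₁
      rw [inv_mul_eq_one] at h
      rw [h]
      exact hP₁mem v
    have e3 : w⁻¹ * P₂ v ≠ 1 := by
      intro h
      apply hw₂
      rw [inv_mul_eq_one] at h
      rw [h]
      exact hP₂mem v
    rw [if_neg e1, if_neg e2, if_neg e3]
    by_cases hv : v = w
    · rw [if_pos hv, if_pos (by rw [hv]; exact inv_mul_cancel w)]; ring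
    · rw [if_neg hv, if_neg (by intro h; rw [inv_mul_eq_one] at h; exact hv h.symm)]; ring
  rw [hswap] at hfinal
  rw [Finset.sum_congr rfl (fun v _ => by rw [hinner v])] at hfinal
  simp only [ite_mul, zero_mul, Finset.sum_ite_eq', Finset.mem_univ, if_true] at hfinal
  rcases mul_eq_zero.mp hfinal with h | h
  · exfalso; exact (Nat.cast_ne_zero.mpr Nat.card_pos.ne') h
  · have := congrArg (starRingEnd ℂ) h
    simpa using this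

end Cfsg.Agent.S1503
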