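import Cfsg.Statements.S1504
import Mathlib
import Cfsg.Agent.Helper11.ProdDecomp

set_option autoImplicit false
open Cfsg

namespace Cfsg.Agent.S1504

open Cfsg.Agent.Helper11

/-- Let W₁, W₂ be subgroups of a finite group with W₁ ⊓ W₂ = ⊥ whose elements commute, and W = W₁ ⊔ W₂. For linear characters φ, ψ of W with φ trivial on W₂ and ψ trivial on W₁, the function (1 − φ)(1 − ψ) vanishes on W₁ ∪ W₂; and the family of these functions, indexed by pairs (φ, ψ) with φ ≠ 1 ≠ ψ, is linearly independent over ℂ. -/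
theorem result {G : Type*} [Group G] [Finite G] (W₁ W₂ : Subgroup G) (hdisj : W₁ ⊓ W₂ = ⊥) (hcomm : ∀ a ∈ W₁, ∀ b ∈ W₂, a * b = b * a) : (∀ φ ψ : ↥(W₁ ⊔ W₂) →* ℂˣ, (∀ w : ↥(W₁ ⊔ W₂), (w : G) ∈ W₂ → φ w = 1) → (∀ w : ↥(W₁ ⊔ W₂), (w : G) ∈ W₁ → ψ w = 1) → ∀ w : ↥(W₁ ⊔ W₂), ((w : G) ∈ W₁ ∨ (w : G) ∈ W₂) → (1 - (φ w : ℂ) - (ψ w : ℂ) + (φ w : ℂ) * (ψ w : ℂ)) = 0) ∧ LinearIndependent ℂ (fun p : {p : (↥(W₁ ⊔ W₂) →* ℂˣ) × (↥(W₁ ⊔ W₂) →* ℂˣ) // p.1 ≠ 1 ∧ p.2 ≠ 1 ∧ (∀ w : ↥(W₁ ⊔ W₂), (w : G) ∈ W₂ → p.1 w = 1) ∧ (∀ w : ↥(W₁ ⊔ W₂), (w : G) ∈ W₁ → p.2 w = 1)} => fun w : ↥(W₁ ⊔ W₂) => 1 - (p.1.1 w : ℂ) - (p.1.2 w : ℂ) + (p.1.1 w : ℂ) * (p.1.2 w : ℂ)) := by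
  classical
  refine ⟨?_, ?_⟩
  · intro φ ψ hφ hψ w hw
    rcases hw with hw | hw
    · rw [hψ w hw]; simp
    · rw [hφ w hw]; simp
  · have hv := chars_linInd ↥(W₁ ⊔ W₂)
    rw [linearIndependent_iff']
    intro s g hsum p₀ hp₀
    rw [linearIndependent_iff] at hv
    set l : (↥(W₁ ⊔ W₂) →* ℂˣ) →₀ ℂ := ∑ p ∈ s, g p • (Finsupp.single (1 : ↥(W₁ ⊔ W₂) →* ℂˣ) (1 : ℂ) - Finsupp.single p.1.1 1 - Finsupp.single p.1.2 1 + Finsupp.single (p.1.1 * p.1.2) 1) with hl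
    have hl0 : l = 0 := by
      apply hv
      rw [hl, map_sum, ← hsum]
      apply Finset.sum_congr rfl
      intro p _
      rw [map_smul, map_add, map_sub, map_sub]
      simp only [Finsupp.linearCombination_single, one_smul]
      congr 1
    have hev := congrArg (fun l : (↥(W₁ ⊔ W₂) →* ℂˣ) →₀ ℂ => l (p₀.1.1 * p₀.1.2)) hl0
    simp only [hl, Finsupp.coe_finsetSum, Finset.sum_apply, Finsupp.coe_smul, Pi.smul_apply, Finsupp.coe_add, Finsupp.coe_sub, Pi.add_apply, Pi.sub_apply, Finsupp.single_apply, Finsupp.coe_zero, Pi.zero_apply, smul_eq_mul] at hev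
    -- facts about p₀
    obtain ⟨⟨φ₀, ψ₀⟩, hφ₀, hψ₀, hφ₀2, hψ₀1⟩ := p₀
    simp only at hev hφ₀ hψ₀ hφ₀2 hψ₀1
    have hone : ∀ φ ψ : ↥(W₁ ⊔ W₂) →* ℂˣ, (∀ w : ↥(W₁ ⊔ W₂), (w : G) ∈ W₁ → φ w = 1) → (∀ w : ↥(W₁ ⊔ W₂), (w : G) ∈ W₂ → φ w = 1) → φ = 1 := by
      intro φ _ h1 h2
      exact hom_eq_of_eq_on W₁ W₂ hdisj hcomm φ 1 (fun w hw => by rw [h1 w hw]; rfl) (fun w hw => by rw [h2 w hw]; rfl)
    have hterm : ∀ p ∈ s, g p * ((if (1 : ↥(W₁ ⊔ W₂) →* ℂˣ) = φ₀ * ψ₀ then (1 : ℂ) else 0) - (if p.1.1 = φ₀ * ψ₀ then 1 else 0) - (if p.1.2 = φ₀ * ψ₀ then 1 else 0) + (if p.1.1 * p.1.2 = φ₀ * ψ₀ then 1 else 0)) = if p = ⟨(φ₀, ψ₀), hφ₀, hψ₀, hφ₀2, hψ₀1⟩ then g p else 0 := by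
      intro p _
      obtain ⟨⟨φ, ψ⟩, hφ, hψ, hφ2, hψ1⟩ := p
      simp only
      have e1 : (1 : ↥(W₁ ⊔ W₂) →* ℂˣ) ≠ φ₀ * ψ₀ := by
        intro h
        apply hφ₀
        apply hone φ₀ φ₀ _ hφ₀2
        intro w hw
        have := congrArg (fun f : ↥(W₁ ⊔ W₂) →* ℂˣ => f w) h
        simp only [MonoidHom.one_apply, MonoidHom.mul_apply] at this
        rw [hψ₀1 w hw, mul_one] at this
        exact this.symm
      have e2 : φ ≠ φ₀ * ψ₀ := by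
        intro h
        apply hψ₀
        apply hone ψ₀ ψ₀ hψ₀1
        intro w hw
        have := congrArg (fun f : ↥(W₁ ⊔ W₂) →* ℂˣ => f w) h
        simp only [MonoidHom.mul_apply] at this
        rw [hφ₀2 w hw, one_mul, hφ2 w hw] at this
        exact this.symm
      have e3 : ψ ≠ φ₀ * ψ₀ := by
        intro h
        apply hφ₀
        apply hone φ₀ φ₀ _ hφ₀2
        intro w hw
        have := congrArg (fun f : ↥(W₁ ⊔ W₂) →* ℂˣ => f w) h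
        simp only [MonoidHom.mul_apply] at this
        rw [hψ₀1 w hw, mul_one, hψ1 w hw] at this
        exact this.symm
      rw [if_neg e1, if_neg e2, if_neg e3]
      by_cases e4 : φ * ψ = φ₀ * ψ₀
      · have eφ : φ = φ₀ := by
          apply hom_eq_of_eq_on W₁ W₂ hdisj hcomm
          · intro w hw
            have := congrArg (fun f : ↥(W₁ ⊔ W₂) →* ℂˣ => f w) e4
            simp only [MonoidHom.mul_apply] at this
            rwa [hψ₀1 w hw, mul_one, hψ1 w hw, mul_one] at this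
          · intro w hw
            rw [hφ2 w hw, hφ₀2 w hw]
        have eψ : ψ = ψ₀ := by
          apply hom_eq_of_eq_on W₁ W₂ hdisj hcomm
          · intro w hw
            rw [hψ1 w hw, hψ₀1 w hw]
          · intro w hw
            have := congrArg (fun f : ↥(W₁ ⊔ W₂) →* ℂˣ => f w) e4
            simp only [MonoidHom.mul_apply] at this
            rwa [hφ₀2 w hw, one_mul, hφ2 w hw, one_mul] at this
        subst eφ; subst eψ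
        rw [if_pos e4, if_pos rfl]; ring
      · rw [if_neg e4, if_neg]
        · ring
        · intro h
          apply e4
          have h' := congrArg (fun q : {p : (↥(W₁ ⊔ W₂) →* ℂˣ) × (↥(W₁ ⊔ W₂) →* ℂˣ) // p.1 ≠ 1 ∧ p.2 ≠ 1 ∧ (∀ w : ↥(W₁ ⊔ W₂), (w : G) ∈ W₂ → p.1 w = 1) ∧ (∀ w : ↥(W₁ ⊔ W₂), (w : G) ∈ W₁ → p.2 w = 1)} => q.1.1 * q.1.2) h
          exact h'
    rw [Finset.sum_congr rfl hterm, Finset.sum_ite_eq' s _ g, if_pos hp₀] at hev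
    exact hev

end Cfsg.Agent.S1504
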