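import Cfsg.Statements.S1505
import Mathlib
import Cfsg.Agent.Helper11.CycTI3

set_option autoImplicit false
open Cfsg

namespace Cfsg.Agent.S1505

open Classical in
/-- Let W₁, W₂ ≤ G form a self-normalising cyclic subgroup W = W₁ ⊔ W₂. For nontrivial linear characters φ, φ' of W trivial on W₂ and ψ, ψ' trivial on W₁, put α = (1 − φ)(1 − ψ) and α' = (1 − φ')(1 − ψ'). Then the function induced from α to G has inner product 1 with the principal character, and the inner product of the functions induced from α and α' is 1 + a + b + ab where a = 1 if φ = φ' (else 0) and b = 1 if ψ = ψ' (else 0). -/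
theorem result {G : Type*} [Group G] [Fintype G] (W₁ W₂ : Subgroup G) (hW : Cfsg.IsSelfNormalizingCyclic W₁ W₂) (φ φ' ψ ψ' : ↥(W₁ ⊔ W₂) →* ℂˣ) (hφ : φ ≠ 1) (hφ' : φ' ≠ 1) (hψ : ψ ≠ 1) (hψ' : ψ' ≠ 1) (hφ₂ : ∀ w : ↥(W₁ ⊔ W₂), (w : G) ∈ W₂ → φ w = 1 ∧ φ' w = 1) (hψ₁ : ∀ w : ↥(W₁ ⊔ W₂), (w : G) ∈ W₁ → ψ w = 1 ∧ ψ' w = 1) : Cfsg.classInner (Cfsg.indFun (W₁ ⊔ W₂) (fun w => 1 - (φ w : ℂ) - (ψ w : ℂ) + (φ w : ℂ) * (ψ w : ℂ))) (fun _ => 1) = 1 ∧ Cfsg.classInner (Cfsg.indFun (W₁ ⊔ W₂) (fun w => 1 - (φ w : ℂ) - (ψ w : ℂ) + (φ w : ℂ) * (ψ w : ℂ))) (Cfsg.indFun (W₁ ⊔ W₂) (fun w => 1 - (φ' w : ℂ) - (ψ' w : ℂ) + (φ' w : ℂ) * (ψ' w : ℂ))) = 1 + (if φ = φ' then 1 else 0) + (if ψ = ψ' then 1 else 0) + (if φ = φ' then 1 else 0) * (if ψ = ψ' then 1 else 0) := by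
  classical
  let _ : Fintype ↥(W₁ ⊔ W₂) := Fintype.ofFinite _
  have triv : ∀ χ : ↥(W₁ ⊔ W₂) →* ℂˣ, (∀ w : ↥(W₁ ⊔ W₂), (w : G) ∈ W₁ → χ w = 1) →
      (∀ w : ↥(W₁ ⊔ W₂), (w : G) ∈ W₂ → χ w = 1) → χ = 1 := by
    intro χ h₁ h₂
    exact Cfsg.Agent.Helper11.hom_ext_sup W₁ W₂ χ 1 (fun w hw => by rw [h₁ w hw, MonoidHom.one_apply])
      (fun w hw => by rw [h₂ w hw, MonoidHom.one_apply])
  have ev : ∀ {χ χ' : ↥(W₁ ⊔ W₂) →* ℂˣ}, χ = χ' → ∀ w, χ w = χ' w := fun h w => by rw [h]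
  -- the facts on the characters
  have fa : φ * ψ ≠ 1 := by
    intro h
    apply hφ
    apply triv _ _ (fun w hw => (hφ₂ w hw).1)
    intro w hw
    have := ev h w
    rw [MonoidHom.mul_apply, (hψ₁ w hw).1, mul_one, MonoidHom.one_apply] at this
    exact this
  have fh : φ' * ψ' ≠ 1 := by
    intro h
    apply hφ'
    apply triv _ _ (fun w hw => (hφ₂ w hw).2)
    intro w hw
    have := ev h w
    rw [MonoidHom.mul_apply, (hψ₁ w hw).2, mul_one, MonoidHom.one_apply] at this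
    exact this
  have fc : ψ ≠ φ' := by
    intro h
    apply hψ
    apply triv _ (fun w hw => (hψ₁ w hw).1)
    intro w hw
    rw [h]
    exact (hφ₂ w hw).2
  have ff : φ ≠ ψ' := by
    intro h
    apply hφ
    apply triv _ _ (fun w hw => (hφ₂ w hw).1)
    intro w hw
    rw [h]
    exact (hψ₁ w hw).2
  have fd : φ * ψ ≠ φ' := by
    intro h
    apply hψ
    apply triv _ (fun w hw => (hψ₁ w hw).1)
    intro w hw
    have := ev h w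
    rw [MonoidHom.mul_apply, (hφ₂ w hw).1, one_mul, (hφ₂ w hw).2] at this
    exact this
  have fg : φ * ψ ≠ ψ' := by
    intro h
    apply hφ
    apply triv _ _ (fun w hw => (hφ₂ w hw).1)
    intro w hw
    have := ev h w
    rw [MonoidHom.mul_apply, (hψ₁ w hw).1, mul_one, (hψ₁ w hw).2] at this
    exact this
  have fi : φ ≠ φ' * ψ' := by
    intro h
    apply hψ'
    apply triv _ (fun w hw => (hψ₁ w hw).2)
    intro w hw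
    have := ev h w
    rw [MonoidHom.mul_apply, (hφ₂ w hw).1, (hφ₂ w hw).2, one_mul] at this
    exact this.symm
  have fj : ψ ≠ φ' * ψ' := by
    intro h
    apply hφ'
    apply triv _ _ (fun w hw => (hφ₂ w hw).2)
    intro w hw
    have := ev h w
    rw [MonoidHom.mul_apply, (hψ₁ w hw).1, (hψ₁ w hw).2, mul_one] at this
    exact this.symm
  have fk : φ * ψ = φ' * ψ' ↔ (φ = φ' ∧ ψ = ψ') := by
    constructor
    · intro h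
      constructor
      · apply Cfsg.Agent.Helper11.hom_ext_sup W₁ W₂
        · intro w hw
          have := ev h w
          rw [MonoidHom.mul_apply, MonoidHom.mul_apply, (hψ₁ w hw).1, (hψ₁ w hw).2, mul_one,
            mul_one] at this
          exact this
        · intro w hw
          rw [(hφ₂ w hw).1, (hφ₂ w hw).2]
      · apply Cfsg.Agent.Helper11.hom_ext_sup W₁ W₂
        · intro w hw
          rw [(hψ₁ w hw).1, (hψ₁ w hw).2]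
        · intro w hw
          have := ev h w
          rw [MonoidHom.mul_apply, MonoidHom.mul_apply, (hφ₂ w hw).1, (hφ₂ w hw).2, one_mul,
            one_mul] at this
          exact this
    · rintro ⟨h1, h2⟩
      rw [h1, h2]
  -- the values of ⟨α, χ⟩
  have key := Cfsg.Agent.Helper11.classInner_alpha_hom φ ψ
  have e1 : (fun _ : ↥(W₁ ⊔ W₂) => (1 : ℂ)) =
      (fun w : ↥(W₁ ⊔ W₂) => (((1 : ↥(W₁ ⊔ W₂) →* ℂˣ) w : ℂˣ) : ℂ)) := by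
    funext w
    simp
  have hα1 : Cfsg.classInner (fun w : ↥(W₁ ⊔ W₂) => 1 - (φ w : ℂ) - (ψ w : ℂ) + (φ w : ℂ) * (ψ w : ℂ))
      (fun _ : ↥(W₁ ⊔ W₂) => (1 : ℂ)) = 1 := by
    rw [e1, key 1, if_pos rfl, if_neg hφ, if_neg hψ, if_neg fa]
    ring
  have part1 : Cfsg.classInner (Cfsg.indFun (W₁ ⊔ W₂)
      (fun w => 1 - (φ w : ℂ) - (ψ w : ℂ) + (φ w : ℂ) * (ψ w : ℂ))) (fun _ => 1) = 1 := by
    rw [Cfsg.Agent.Helper2.frobenius_reciprocity (W₁ ⊔ W₂) _ (fun _ => 1) (fun _ _ => rfl)]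
    exact hα1
  refine ⟨part1, ?_⟩
  -- vanishing off T
  have hvan : ∀ (φ ψ : ↥(W₁ ⊔ W₂) →* ℂˣ), (∀ w : ↥(W₁ ⊔ W₂), (w : G) ∈ W₂ → φ w = 1) →
      (∀ w : ↥(W₁ ⊔ W₂), (w : G) ∈ W₁ → ψ w = 1) →
      ∀ x : ↥(W₁ ⊔ W₂), (x : G) ∉ ((↑(W₁ ⊔ W₂) : Set G) \ (↑W₁ ∪ ↑W₂)) →
      (fun w : ↥(W₁ ⊔ W₂) => 1 - (φ w : ℂ) - (ψ w : ℂ) + (φ w : ℂ) * (ψ w : ℂ)) x = 0 := by
    intro φ ψ h2 h1 x hx
    have hx' : (x : G) ∈ W₁ ∨ (x : G) ∈ W₂ := by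
      by_contra hcon
      exact hx ⟨x.2, hcon⟩
    show 1 - (φ x : ℂ) - (ψ x : ℂ) + (φ x : ℂ) * (ψ x : ℂ) = 0
    rcases hx' with h | h
    · rw [h1 x h]; simp
    · rw [h2 x h]; simp
  have hT : ((↑(W₁ ⊔ W₂) : Set G) \ (↑W₁ ∪ ↑W₂)).Nonempty := by
    by_contra hcon
    rw [Set.not_nonempty_iff_eq_empty] at hcon
    have hz : (fun w : ↥(W₁ ⊔ W₂) => 1 - (φ w : ℂ) - (ψ w : ℂ) + (φ w : ℂ) * (ψ w : ℂ)) =
        fun _ => 0 := by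
      funext x
      apply hvan φ ψ (fun w hw => (hφ₂ w hw).1) (fun w hw => (hψ₁ w hw).1)
      rw [hcon]
      exact Set.notMem_empty _
    rw [hz] at hα1
    unfold Cfsg.classInner at hα1
    simp at hα1
  obtain ⟨hNT, hTI⟩ := Cfsg.Agent.Helper11.selfNormCyclic_ti W₁ W₂ hW hT
  have hcls : ∀ χ : ↥(W₁ ⊔ W₂) →* ℂˣ, ∀ g h : ↥(W₁ ⊔ W₂), χ (h * g * h⁻¹) = χ g := by
    intro χ g h
    rw [map_mul, map_mul, map_inv, mul_comm, inv_mul_cancel_left]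
  have hcf : Cfsg.IsClassFunction ↥(W₁ ⊔ W₂)
      (fun w : ↥(W₁ ⊔ W₂) => 1 - (φ' w : ℂ) - (ψ' w : ℂ) + (φ' w : ℂ) * (ψ' w : ℂ)) := by
    intro g h
    show 1 - (φ' (h * g * h⁻¹) : ℂ) - (ψ' (h * g * h⁻¹) : ℂ) + (φ' (h * g * h⁻¹) : ℂ) * (ψ' (h * g * h⁻¹) : ℂ) = _
    rw [hcls, hcls]
  rw [Cfsg.Agent.Helper11.classInner_indFun_ti' (W₁ ⊔ W₂) _ hNT hTI _ _ hcf
    (hvan φ ψ (fun w hw => (hφ₂ w hw).1) (fun w hw => (hψ₁ w hw).1))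
    (hvan φ' ψ' (fun w hw => (hφ₂ w hw).2) (fun w hw => (hψ₁ w hw).2))
    (by simp)]
  have e2 : (fun w : ↥(W₁ ⊔ W₂) => 1 - (φ' w : ℂ) - (ψ' w : ℂ) + (φ' w : ℂ) * (ψ' w : ℂ)) =
      (fun w : ↥(W₁ ⊔ W₂) => (((1 : ↥(W₁ ⊔ W₂) →* ℂˣ) w : ℂˣ) : ℂ) - ((φ' w : ℂˣ) : ℂ) - ((ψ' w : ℂˣ) : ℂ)
        + (((φ' * ψ') w : ℂˣ) : ℂ)) := by
    funext w
    simp
  rw [e2, Cfsg.Agent.Helper11.classInner_add_right _
      (fun w : ↥(W₁ ⊔ W₂) => (((1 : ↥(W₁ ⊔ W₂) →* ℂˣ) w : ℂˣ) : ℂ) - ((φ' w : ℂˣ) : ℂ) - ((ψ' w : ℂˣ) : ℂ))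
      (fun w : ↥(W₁ ⊔ W₂) => (((φ' * ψ') w : ℂˣ) : ℂ)),
    Cfsg.Agent.Helper11.classInner_sub_right _
      (fun w : ↥(W₁ ⊔ W₂) => (((1 : ↥(W₁ ⊔ W₂) →* ℂˣ) w : ℂˣ) : ℂ) - ((φ' w : ℂˣ) : ℂ))
      (fun w : ↥(W₁ ⊔ W₂) => ((ψ' w : ℂˣ) : ℂ)),
    Cfsg.Agent.Helper11.classInner_sub_right _
      (fun w : ↥(W₁ ⊔ W₂) => (((1 : ↥(W₁ ⊔ W₂) →* ℂˣ) w : ℂˣ) : ℂ))
      (fun w : ↥(W₁ ⊔ W₂) => ((φ' w : ℂˣ) : ℂ)),
    key 1, key φ', key ψ', key (φ' * ψ')]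
  rw [if_pos rfl, if_neg hφ, if_neg hψ, if_neg fa, if_neg (Ne.symm hφ'), if_neg fc, if_neg fd,
    if_neg (Ne.symm hψ'), if_neg ff, if_neg fg, if_neg (Ne.symm fh), if_neg fi, if_neg fj]
  by_cases h1 : φ = φ'
  · by_cases h2 : ψ = ψ'
    · simp only [if_pos h1, if_pos h2, if_pos (fk.mpr ⟨h1, h2⟩)]
      ring
    · simp only [if_pos h1, if_neg h2, if_neg (fun h => h2 (fk.mp h).2)]
      ring
  · by_cases h2 : ψ = ψ'
    · simp only [if_neg h1, if_pos h2, if_neg (fun h => h1 (fk.mp h).1)]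
      ring
    · simp only [if_neg h1, if_neg h2, if_neg (fun h => h1 (fk.mp h).1)]
      ring

end Cfsg.Agent.S1505
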