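import Cfsg.Statements.S1507
import Cfsg.Agent.Helper11.CyclicTI
import Cfsg.Agent.Helper11.MatrixLemma
import Cfsg.Agent.Helper11.ProdDecomp

set_option autoImplicit false
open Cfsg

namespace Cfsg.Agent.S1507

open Cfsg.Agent.Helper11

open Classical in
/-- Let W₁, W₂ ≤ G form a self-normalising cyclic subgroup W = W₁ ⊔ W₂ of odd order with Nat.card W₁ < Nat.card W₂, and χ an orthonormal family of irreducible characters of G up to sign, indexed by the linear characters ω of W, with χ_1 = 1, χ_ω = ω on W outside W₁ ∪ W₂, and the induction identity for (1 − φ)(1 − ψ). Let θ be a class function of G vanishing on W outside W₁ ∪ W₂, and suppose fewer than 2 · Nat.card W₁ linear characters ω of W have ⟨θ, χ ω⟩ ≠ 0. Then one of: all ⟨θ, χ ω⟩ vanish; or there are ψ₀ and a with ⟨θ, χ ω⟩ = a when ω ψ₀⁻¹ is trivial on W₂ and 0 otherwise; or there are φ₀ and a with ⟨θ, χ ω⟩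 = a when ω φ₀⁻¹ is trivial on W₁ and 0 otherwise. -/
theorem result {G : Type*} [Group G] [Fintype G] (W₁ W₂ : Subgroup G) (hW : Cfsg.IsSelfNormalizingCyclic W₁ W₂) (hodd : Odd (Nat.card ↥(W₁ ⊔ W₂))) (χ : (↥(W₁ ⊔ W₂) →* ℂˣ) → (G → ℂ)) (hχ : Cfsg.IsCyclicTIFamily W₁ W₂ χ) (hlt : Nat.card W₁ < Nat.card W₂) (θ : G → ℂ) (hθ : Cfsg.IsClassFunction G θ) (hθV : ∀ w : ↥(W₁ ⊔ W₂), (w : G) ∉ W₁ → (w : G) ∉ W₂ → θ w = 0) (hfew : Nat.card {ω : ↥(W₁ ⊔ W₂) →* ℂˣ // Cfsg.classInner θ (χ ω) ≠ 0} < 2 * Nat.card W₁) : (∀ ω, Cfsg.classInner θ (χ ω) = 0) ∨ (∃ (ψ₀ : ↥(W₁ ⊔ W₂) →* ℂˣ) (a : ℂ), ∀ ω, Cfsg.classInner θ (χ ω) = if (∀ w : ↥(W₁ ⊔ W₂), (w : G) ∈ W₂ → (ω * ψ₀⁻¹) w = 1) then a else 0) ∨ (∃ (φ₀ : ↥(W₁ ⊔ W₂) →* ℂˣ) (a : ℂ), ∀ ω, Cfsg.classInner θ (χ ω) = if (∀ w : ↥(W₁ ⊔ W₂), (w : G) ∈ W₁ → (ω * φ₀⁻¹) w = 1) then a else 0) := by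
  classical
  obtain ⟨hW₁, hW₂, hdisj, hcomm, hcyc, hnorm⟩ := hW
  -- abbreviations
  set a : (↥(W₁ ⊔ W₂) →* ℂˣ) → ℂ := fun ω => Cfsg.classInner θ (χ ω) with ha
  set L₁ := lift₁ W₁ W₂ hdisj hcomm with hL₁
  set L₂ := lift₂ W₁ W₂ hdisj hcomm with hL₂
  set r : (W₁ →* ℂˣ) → ℂ := fun φ => a (L₁ φ) - a 1 with hr
  set c : (W₂ →* ℂˣ) → ℂ := fun ψ => a (L₂ ψ) with hc
  have key : ∀ φ ψ, a (L₁ φ * L₂ ψ) = r φ + c ψ := by
    intro φ ψ
    have := cyclicTI_add W₁ W₂ χ hχ θ hθ hθV (L₁ φ) (L₂ ψ)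
      (fun w hw => lift₁_of_mem_right W₁ W₂ hdisj hcomm φ w hw)
      (fun w hw => lift₂_of_mem_left W₁ W₂ hdisj hcomm ψ w hw)
    simp only [ha, hr, hc]
    rw [this]; ring
  have keyω : ∀ ω, a ω = r (res₁ W₁ W₂ ω) + c (res₂ W₁ W₂ ω) := by
    intro ω
    rw [← key, hL₁, hL₂, lift_res]
  -- commutativity
  have hcommW : ∀ x y : ↥(W₁ ⊔ W₂), x * y = y * x := fun x y => IsMulCommutative.is_comm.comm x y
  have hcomm₁ : ∀ x y : W₁, x * y = y * x := by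
    intro x y
    apply Subtype.ext
    have := congrArg Subtype.val (hcommW (Subgroup.inclusion le_sup_left x)
      (Subgroup.inclusion le_sup_left y))
    exact this
  have hcomm₂ : ∀ x y : W₂, x * y = y * x := by
    intro x y
    apply Subtype.ext
    have := congrArg Subtype.val (hcommW (Subgroup.inclusion le_sup_right x)
      (Subgroup.inclusion le_sup_right y))
    exact this
  have hcard₁ : Nat.card (W₁ →* ℂˣ) = Nat.card W₁ := card_hom_of_comm hcomm₁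
  have hcard₂ : Nat.card (W₂ →* ℂˣ) = Nat.card W₂ := card_hom_of_comm hcomm₂
  have : Fintype (W₁ →* ℂˣ) := Fintype.ofFinite _
  have : Fintype (W₂ →* ℂˣ) := Fintype.ofFinite _
  -- oddness
  have hodd₁ : Odd (Nat.card W₁) :=
    Odd.of_dvd_nat hodd (Subgroup.card_dvd_of_le (le_sup_left : W₁ ≤ W₁ ⊔ W₂))
  have hodd₂ : Odd (Nat.card W₂) :=
    Odd.of_dvd_nat hodd (Subgroup.card_dvd_of_le (le_sup_right : W₂ ≤ W₁ ⊔ W₂))
  have hge : Nat.card W₁ + 2 ≤ Nat.card W₂ := by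
    obtain ⟨k₁, hk₁⟩ := hodd₁
    obtain ⟨k₂, hk₂⟩ := hodd₂
    omega
  -- the count
  have hcount : ∑ φ : W₁ →* ℂˣ, (Finset.univ.filter (fun ψ : W₂ →* ℂˣ => r φ + c ψ ≠ 0)).card
      < 2 * Nat.card W₁ := by
    refine lt_of_le_of_lt ?_ hfew
    have h1 : ∑ φ : W₁ →* ℂˣ, (Finset.univ.filter (fun ψ : W₂ →* ℂˣ => r φ + c ψ ≠ 0)).card =
        Nat.card (Σ φ : W₁ →* ℂˣ, {ψ : W₂ →* ℂˣ // r φ + c ψ ≠ 0}) := by
      rw [Nat.card_eq_fintype_card, Fintype.card_sigma]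
      apply Finset.sum_congr rfl
      intro φ _
      rw [Fintype.card_subtype]
    rw [h1]
    apply Nat.card_le_card_of_injective
      (fun p : (Σ φ : W₁ →* ℂˣ, {ψ : W₂ →* ℂˣ // r φ + c ψ ≠ 0}) =>
        (⟨L₁ p.1 * L₂ p.2.1, by show a (L₁ p.1 * L₂ p.2.1) ≠ 0; rw [key]; exact p.2.2⟩ :
          {ω : ↥(W₁ ⊔ W₂) →* ℂˣ // Cfsg.classInner θ (χ ω) ≠ 0}))
    rintro ⟨φ, ψ, h⟩ ⟨φ', ψ', h'⟩ heq
    have heq' : L₁ φ * L₂ ψ = L₁ φ' * L₂ ψ' := congrArg Subtype.val heq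
    have e1 : φ = φ' := by
      have := congrArg (res₁ W₁ W₂) heq'
      rwa [hL₁, hL₂, res₁_lift, res₁_lift] at this
    have e2 : ψ = ψ' := by
      have := congrArg (res₂ W₁ W₂) heq'
      rwa [hL₁, hL₂, res₂_lift, res₂_lift] at this
    subst e1; subst e2; rfl
  have hR : Nat.card W₁ ≤ Fintype.card (W₁ →* ℂˣ) := by
    rw [← Nat.card_eq_fintype_card, hcard₁]
  have hC : Nat.card W₁ + 2 ≤ Fintype.card (W₂ →* ℂˣ) := by
    rw [← Nat.card_eq_fintype_card, hcard₂]; exact hge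
  rcases matrix_lemma r c (Nat.card W₁) hR hC hcount with h | ⟨ψ₀, a₀, h⟩ | ⟨φ₀, a₀, h⟩
  · left
    intro ω
    show a ω = 0
    rw [keyω, h]
  · right; left
    refine ⟨L₂ ψ₀, a₀, ?_⟩
    intro ω
    show a ω = _
    rw [keyω, h]
    have hiff : (∀ w : ↥(W₁ ⊔ W₂), (w : G) ∈ W₂ → (ω * (L₂ ψ₀)⁻¹) w = 1) ↔
        res₂ W₁ W₂ ω = ψ₀ := by
      constructor
      · intro hall
        ext b
        have h1 := hall (Subgroup.inclusion le_sup_right b) b.2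
        rw [MonoidHom.mul_apply, MonoidHom.inv_apply, mul_inv_eq_one] at h1
        show ((ω (Subgroup.inclusion le_sup_right b) : ℂˣ) : ℂ) = ψ₀ b
        rw [h1, hL₂, lift₂_of_mem_right W₁ W₂ hdisj hcomm ψ₀ _ b.2]
        rfl
      · intro hres w hw
        rw [MonoidHom.mul_apply, MonoidHom.inv_apply, mul_inv_eq_one, hL₂,
          lift₂_of_mem_right W₁ W₂ hdisj hcomm ψ₀ w hw, ← hres]
        rfl
    by_cases hc' : res₂ W₁ W₂ ω = ψ₀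
    · rw [if_pos hc', if_pos (hiff.mpr hc')]
    · rw [if_neg hc', if_neg (fun hh => hc' (hiff.mp hh))]
  · right; right
    refine ⟨L₁ φ₀, a₀, ?_⟩
    intro ω
    show a ω = _
    rw [keyω, h]
    have hiff : (∀ w : ↥(W₁ ⊔ W₂), (w : G) ∈ W₁ → (ω * (L₁ φ₀)⁻¹) w = 1) ↔
        res₁ W₁ W₂ ω = φ₀ := by
      constructor
      · intro hall
        ext b
        have h1 := hall (Subgroup.inclusion le_sup_left b) b.2
        rw [MonoidHom.mul_apply, MonoidHom.inv_apply, mul_inv_eq_one] at h1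
        show ((ω (Subgroup.inclusion le_sup_left b) : ℂˣ) : ℂ) = φ₀ b
        rw [h1, hL₁, lift₁_of_mem_left W₁ W₂ hdisj hcomm φ₀ _ b.2]
        rfl
      · intro hres w hw
        rw [MonoidHom.mul_apply, MonoidHom.inv_apply, mul_inv_eq_one, hL₁,
          lift₁_of_mem_left W₁ W₂ hdisj hcomm φ₀ w hw, ← hres]
        rfl
    by_cases hc' : res₁ W₁ W₂ ω = φ₀
    · rw [if_pos hc', if_pos (hiff.mpr hc')]
    · rw [if_neg hc', if_neg (fun hh => hc' (hiff.mp hh))]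

end Cfsg.Agent.S1507
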