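import Cfsg.Statements.S1509
import Mathlib
import Cfsg.Agent.Helper11.SignedIrr

set_option autoImplicit false
open Cfsg

namespace Cfsg.Agent.S1509

open Cfsg.Agent.Helper11

/-- Let α, β, γ, δ be functions on a finite group X each of which is an irreducible character or the negative of one, and u, v nonzero real numbers. Suppose ⟨α, β⟩ = ⟨γ, δ⟩ = 0, ⟨α − β, uγ − vδ⟩ = 0, α 1 = β 1 and u γ 1 = v δ 1. Then also ⟨α, γ⟩ = ⟨α, δ⟩ = ⟨β, γ⟩ = ⟨β, δ⟩ = 0. -/
theorem result {X : Type*} [Group X] [Fintype X] (α β γ δ : X → ℂ) (hα : Cfsg.IsIrrCharacter X α ∨ Cfsg.IsIrrCharacter X (-α)) (hβ : Cfsg.IsIrrCharacter X β ∨ Cfsg.IsIrrCharacter X (-β)) (hγ : Cfsg.IsIrrCharacter X γ ∨ Cfsg.IsIrrCharacter X (-γ)) (hδ : Cfsg.IsIrrCharacter X δ ∨ Cfsg.IsIrrCharacter X (-δ)) (u v : ℝ) (hu : u ≠ 0) (hv : v ≠ 0) (hab : Cfsg.classInner α β = 0) (hcd : Cfsg.classInner γ δ = 0) (hmix : Cfsg.classInner (α - β) ((u : ℂ) • γ - (v : ℂ) • δ) = 0) (h1 : α 1 = β 1)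 (h2 : (u : ℂ) * γ 1 = (v : ℂ) * δ 1) : Cfsg.classInner α γ = 0 ∧ Cfsg.classInner α δ = 0 ∧ Cfsg.classInner β γ = 0 ∧ Cfsg.classInner β δ = 0 := by
  classical
  obtain ⟨ea, χa, hea, rfl⟩ := signed_irr hα
  obtain ⟨eb, χb, heb, rfl⟩ := signed_irr hβ
  obtain ⟨ec, χc, hec, rfl⟩ := signed_irr hγ
  obtain ⟨ed, χd, hed, rfl⟩ := signed_irr hδ
  rw [classInner_signed_irr] at hab hcd
  rw [classInner_sub_smul_sub, classInner_signed_irr, classInner_signed_irr, classInner_signed_irr,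
    classInner_signed_irr] at hmix
  rw [classInner_signed_irr, classInner_signed_irr, classInner_signed_irr, classInner_signed_irr]
  simp only [Complex.conj_ofReal] at hmix
  beta_reduce at h1 h2
  rw [Cfsg.Agent.Helper25.irr_one_eq_degree χa, Cfsg.Agent.Helper25.irr_one_eq_degree χb] at h1
  rw [Cfsg.Agent.Helper25.irr_one_eq_degree χc, Cfsg.Agent.Helper25.irr_one_eq_degree χd] at h2
  have hda : (0 : ℝ) < (charDegree (χa : X → ℂ) : ℝ) := by
    exact_mod_cast Cfsg.Agent.Helper25.irr_degree_pos χa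
  have hdb : (0 : ℝ) < (charDegree (χb : X → ℂ) : ℝ) := by
    exact_mod_cast Cfsg.Agent.Helper25.irr_degree_pos χb
  have hdc : (0 : ℝ) < (charDegree (χc : X → ℂ) : ℝ) := by
    exact_mod_cast Cfsg.Agent.Helper25.irr_degree_pos χc
  have hdd : (0 : ℝ) < (charDegree (χd : X → ℂ) : ℝ) := by
    exact_mod_cast Cfsg.Agent.Helper25.irr_degree_pos χd
  have h1R : ea * (charDegree (χa : X → ℂ) : ℝ) = eb * (charDegree (χb : X → ℂ) : ℝ) := by
    exact_mod_cast h1
  have h2R : u * (ec * (charDegree (χc : X → ℂ) : ℝ)) = v * (ed * (charDegree (χd : X → ℂ) : ℝ)) := by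
    exact_mod_cast h2
  have hea0 : ea ≠ 0 := by rcases hea with h | h <;> rw [h] <;> norm_num
  have heb0 : eb ≠ 0 := by rcases heb with h | h <;> rw [h] <;> norm_num
  have hec0 : ec ≠ 0 := by rcases hec with h | h <;> rw [h] <;> norm_num
  have hed0 : ed ≠ 0 := by rcases hed with h | h <;> rw [h] <;> norm_num
  have hab' : χa ≠ χb := by
    intro h
    rw [if_pos h, mul_one] at hab
    have : ea * eb = 0 := by exact_mod_cast hab
    rcases mul_eq_zero.mp this with h | h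
    · exact hea0 h
    · exact heb0 h
  have hcd' : χc ≠ χd := by
    intro h
    rw [if_pos h, mul_one] at hcd
    have : ec * ed = 0 := by exact_mod_cast hcd
    rcases mul_eq_zero.mp this with h | h
    · exact hec0 h
    · exact hed0 h
  have heab : ea = eb := by
    rcases hea with h | h <;> rcases heb with h' | h' <;> rw [h, h'] at h1R ⊢ <;> nlinarith
  subst heab
  set U : ℝ := u * ec with hU
  set V : ℝ := v * ed with hV
  have hV0 : V ≠ 0 := mul_ne_zero hv hed0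
  have hUV : 0 < U * V := by
    have e : U * V * (charDegree (χc : X → ℂ) : ℝ) = V ^ 2 * (charDegree (χd : X → ℂ) : ℝ) := by
      rw [hU, hV]; linear_combination (v * ed) * h2R
    have hpos : 0 < V ^ 2 * (charDegree (χd : X → ℂ) : ℝ) := by positivity
    rw [← e] at hpos
    exact (mul_pos_iff_of_pos_right hdc).mp hpos
  set x₁ : ℝ := if χa = χc then 1 else 0 with hx₁
  set x₂ : ℝ := if χb = χc then 1 else 0 with hx₂
  set x₃ : ℝ := if χa = χd then 1 else 0 with hx₃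
  set x₄ : ℝ := if χb = χd then 1 else 0 with hx₄
  have e1 : (if χa = χc then (1 : ℂ) else 0) = ((x₁ : ℝ) : ℂ) := by
    rw [hx₁]; split_ifs <;> simp
  have e2 : (if χb = χc then (1 : ℂ) else 0) = ((x₂ : ℝ) : ℂ) := by
    rw [hx₂]; split_ifs <;> simp
  have e3 : (if χa = χd then (1 : ℂ) else 0) = ((x₃ : ℝ) : ℂ) := by
    rw [hx₃]; split_ifs <;> simp
  have e4 : (if χb = χd then (1 : ℂ) else 0) = ((x₄ : ℝ) : ℂ) := by
    rw [hx₄]; split_ifs <;> simp
  rw [e1, e2, e3, e4] at hmix ⊢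
  have hmixR : u * (ea * ec * x₁) - v * (ea * ed * x₃) - u * (ea * ec * x₂) + v * (ea * ed * x₄) = 0 := by
    exact_mod_cast hmix
  have hm : U * (x₁ - x₂) = V * (x₃ - x₄) := by
    have : ea * (U * (x₁ - x₂) - V * (x₃ - x₄)) = 0 := by
      rw [hU, hV]; linear_combination hmixR
    rcases mul_eq_zero.mp this with h | h
    · exact absurd h hea0
    · linarith
  have h12 : x₁ * x₂ = 0 := by
    rw [hx₁, hx₂]
    by_cases h : χa = χc
    · by_cases h' : χb = χc
      · exact absurd (h.trans h'.symm) hab'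
      · rw [if_neg h', mul_zero]
    · rw [if_neg h, zero_mul]
  have h34 : x₃ * x₄ = 0 := by
    rw [hx₃, hx₄]
    by_cases h : χa = χd
    · by_cases h' : χb = χd
      · exact absurd (h.trans h'.symm) hab'
      · rw [if_neg h', mul_zero]
    · rw [if_neg h, zero_mul]
  have h13 : x₁ * x₃ = 0 := by
    rw [hx₁, hx₃]
    by_cases h : χa = χc
    · by_cases h' : χa = χd
      · exact absurd (h.symm.trans h') hcd'
      · rw [if_neg h', mul_zero]
    · rw [if_neg h, zero_mul]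
  have h24 : x₂ * x₄ = 0 := by
    rw [hx₂, hx₄]
    by_cases h : χb = χc
    · by_cases h' : χb = χd
      · exact absurd (h.symm.trans h') hcd'
      · rw [if_neg h', mul_zero]
    · rw [if_neg h, zero_mul]
  have hx₁' : x₁ = 0 ∨ x₁ = 1 := by rw [hx₁]; split_ifs <;> simp
  have hx₂' : x₂ = 0 ∨ x₂ = 1 := by rw [hx₂]; split_ifs <;> simp
  have hx₃' : x₃ = 0 ∨ x₃ = 1 := by rw [hx₃]; split_ifs <;> simp
  have hx₄' : x₄ = 0 ∨ x₄ = 1 := by rw [hx₄]; split_ifs <;> simp
  have hmV : U * (x₁ - x₂) * V = V * (x₃ - x₄) * V := by rw [hm]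
  have hmU : U * (x₁ - x₂) * U = V * (x₃ - x₄) * U := by rw [hm]
  have hVV := mul_self_nonneg V
  have key : x₁ = 0 ∧ x₂ = 0 ∧ x₃ = 0 ∧ x₄ = 0 := by
    clear_value x₁ x₂ x₃ x₄
    rcases hx₁' with rfl | rfl <;> rcases hx₂' with rfl | rfl <;> rcases hx₃' with rfl | rfl <;>
      rcases hx₄' with rfl | rfl <;>
      first
        | exact ⟨rfl, rfl, rfl, rfl⟩
        | (exfalso; linarith)
  obtain ⟨k1, k2, k3, k4⟩ := key
  rw [k1, k2, k3, k4]
  simp

end Cfsg.Agent.S1509
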