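import Cfsg.Statements.S1510
import Cfsg.Agent.Helper11.Basic

set_option autoImplicit false
open Cfsg

namespace Cfsg.Agent.S1510

open Cfsg.Agent.Helper11

/-- Let L be a finite group with a normal subgroup K and a nontrivial cyclic subgroup W₁ of order coprime to its index, K ⊓ W₁ = ⊥ and K ⊔ W₁ = ⊤; let W₂ ≠ ⊥ be a cyclic subgroup of K with K ⊓ C_L(x) = W₂ for every non-identity x ∈ W₁, and suppose W₁ ⊔ W₂ has odd order. Then (W₁, W₂) is a self-normalising cyclic pair in L. -/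
theorem result {L : Type*} [Group L] [Fintype L] (K W₁ W₂ : Subgroup L) [hK : K.Normal] (hKW₁ : K ⊓ W₁ = ⊥) (hKW₁' : K ⊔ W₁ = ⊤) (hW₁ : W₁ ≠ ⊥) (hW₁c : IsCyclic W₁) (hHall : Nat.Coprime (Nat.card W₁) W₁.index) (hW₂ : W₂ ≠ ⊥) (hW₂c : IsCyclic W₂) (hW₂K : W₂ ≤ K) (hC : ∀ x ∈ W₁, x ≠ 1 → K ⊓ Subgroup.centralizer ({x} : Set L) = W₂) (hodd : Odd (Nat.card ↥(W₁ ⊔ W₂))) : Cfsg.IsSelfNormalizingCyclic W₁ W₂ := by
  -- elements of W₁ and W₂ commute
  have hcomm : ∀ a ∈ W₁, ∀ b ∈ W₂, a * b = b * a := by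
    intro a ha b hb
    by_cases h1 : a = 1
    · simp [h1]
    · have : b ∈ K ⊓ Subgroup.centralizer ({a} : Set L) := by rw [hC a ha h1]; exact hb
      have := (Subgroup.mem_inf.mp this).2
      rw [Subgroup.mem_centralizer_singleton_iff] at this
      exact this.symm
  -- coprimality of orders
  have hcompl : Subgroup.IsComplement' K W₁ := by
    apply Subgroup.isComplement'_of_disjoint_and_mul_eq_univ (disjoint_iff.mpr hKW₁)
    rw [← Subgroup.normal_mul, hKW₁']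
    rfl
  have hcardK : W₁.index = Nat.card K := hcompl.index_eq_card
  have hcop : (Nat.card W₁).Coprime (Nat.card W₂) := by
    apply Nat.Coprime.coprime_dvd_right (Subgroup.card_dvd_of_le hW₂K)
    rw [← hcardK]; exact hHall
  obtain ⟨k₁, hk₁⟩ := exists_pow_eq_left (Nat.card W₁) (Nat.card W₂) hcop
  obtain ⟨k₂, hk₂⟩ := exists_pow_eq_left (Nat.card W₂) (Nat.card W₁) hcop.symm
  -- generators
  obtain ⟨g₁, hg₁⟩ := (Subgroup.isCyclic_iff_exists_zpowers_eq_top W₁).mp hW₁c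
  obtain ⟨g₂, hg₂⟩ := (Subgroup.isCyclic_iff_exists_zpowers_eq_top W₂).mp hW₂c
  have hg₁W : g₁ ∈ W₁ := hg₁ ▸ Subgroup.mem_zpowers g₁
  have hg₂W : g₂ ∈ W₂ := hg₂ ▸ Subgroup.mem_zpowers g₂
  have hg12 : Commute g₁ g₂ := hcomm g₁ hg₁W g₂ hg₂W
  have hW : W₁ ⊔ W₂ = Subgroup.zpowers (g₁ * g₂) := by
    apply le_antisymm
    · apply sup_le
      · rw [← hg₁, Subgroup.zpowers_le]
        have e := hk₁ g₁ g₂ hg12 (pow_card_subgroup_eq_one W₁ hg₁W) (pow_card_subgroup_eq_one W₂ hg₂W)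
        have : (g₁ * g₂) ^ k₁ ∈ Subgroup.zpowers (g₁ * g₂) :=
          Subgroup.pow_mem _ (Subgroup.mem_zpowers _) _
        rwa [e] at this
      · rw [← hg₂, Subgroup.zpowers_le]
        have e := hk₂ g₂ g₁ hg12.symm (pow_card_subgroup_eq_one W₂ hg₂W) (pow_card_subgroup_eq_one W₁ hg₁W)
        have : (g₂ * g₁) ^ k₂ ∈ Subgroup.zpowers (g₂ * g₁) :=
          Subgroup.pow_mem _ (Subgroup.mem_zpowers _) _
        rw [e, ← hg12.eq] at this
        exact this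
    · rw [Subgroup.zpowers_le]
      exact Subgroup.mul_mem_sup hg₁W hg₂W
  -- W is commutative
  have hWcomm : ∀ x ∈ W₁ ⊔ W₂, ∀ y ∈ W₁ ⊔ W₂, x * y = y * x := by
    intro x hx y hy
    rw [hW] at hx hy
    obtain ⟨i, rfl⟩ := Subgroup.mem_zpowers_iff.mp hx
    obtain ⟨j, rfl⟩ := Subgroup.mem_zpowers_iff.mp hy
    exact zpow_mul_comm _ _ _
  -- decomposition of elements of W
  have hdec : ∀ x ∈ W₁ ⊔ W₂, ∃ x₁ ∈ W₁, ∃ x₂ ∈ W₂, x = x₁ * x₂ := by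
    intro x hx
    rw [hW] at hx
    obtain ⟨i, rfl⟩ := Subgroup.mem_zpowers_iff.mp hx
    exact ⟨g₁ ^ i, W₁.zpow_mem hg₁W i, g₂ ^ i, W₂.zpow_mem hg₂W i, hg12.mul_zpow i⟩
  refine ⟨hW₁, hW₂, ?_, hcomm, ?_, ?_⟩
  · rw [eq_bot_iff, ← hKW₁]
    exact le_inf (inf_le_right.trans hW₂K) inf_le_left
  · rw [hW]; infer_instance
  · intro X hX hXne
    apply le_antisymm
    · intro g hg
      rw [Subgroup.mem_set_normalizer_iff] at hg
      obtain ⟨x, hxX⟩ := hXne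
      have hx' : g * x * g⁻¹ ∈ X := (hg x).mp hxX
      obtain ⟨hxW, hxn⟩ := hX hxX
      obtain ⟨hx'W, hx'n⟩ := hX hx'
      have hxW' : x ∈ W₁ ⊔ W₂ := hxW
      have hx'W' : g * x * g⁻¹ ∈ W₁ ⊔ W₂ := hx'W
      have hxn1 : x ∉ W₁ := fun h => hxn (Or.inl h)
      have hxn2 : x ∉ W₂ := fun h => hxn (Or.inr h)
      -- write g = k * w
      have hgKW : g ∈ ((K ⊔ W₁ : Subgroup L) : Set L) := by rw [hKW₁']; trivial
      rw [Subgroup.normal_mul] at hgKW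
      obtain ⟨k, hk, w, hw, rfl⟩ := Set.mem_mul.mp hgKW
      have hk : k ∈ K := hk
      have hw : w ∈ W₁ := hw
      have hwW : w ∈ W₁ ⊔ W₂ := (le_sup_left : W₁ ≤ W₁ ⊔ W₂) hw
      -- conjugation by w is trivial on x
      have hkx : k * w * x * (k * w)⁻¹ = k * x * k⁻¹ := by
        have := hWcomm w hwW x hxW'
        calc k * w * x * (k * w)⁻¹ = k * (w * x) * w⁻¹ * k⁻¹ := by group
          _ = k * (x * w) * w⁻¹ * k⁻¹ := by rw [this]
          _ = k * x * k⁻¹ := by group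
      rw [hkx] at hx'W' hx'
      obtain ⟨x₁, hx₁, x₂, hx₂, hxe⟩ := hdec x hxW'
      obtain ⟨y₁, hy₁, y₂, hy₂, hye⟩ := hdec _ hx'W'
      have hx₁ne : x₁ ≠ 1 := by
        rintro rfl
        apply hxn2
        rw [hxe, one_mul]; exact hx₂
      -- y₁ = x₁
      have hy₁x₁ : y₁ = x₁ := by
        have h1 : k * x * k⁻¹ * x⁻¹ ∈ K := by
          have : k * x * k⁻¹ * x⁻¹ = k * (x * k⁻¹ * x⁻¹) := by group
          rw [this]
          exact K.mul_mem hk (hK.conj_mem _ (K.inv_mem hk) x)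
        have h2 : k * x * k⁻¹ * x⁻¹ = (y₁ * x₁⁻¹) * (y₂ * x₂⁻¹) := by
          rw [hye, hxe]
          have c1 := hcomm x₁ hx₁ x₂ hx₂
          have c2 := hcomm x₁ hx₁ y₂ hy₂
          have c3 : x₁⁻¹ * y₂ = y₂ * x₁⁻¹ := by
            have := hcomm x₁⁻¹ (W₁.inv_mem hx₁) y₂ hy₂
            exact this
          calc y₁ * y₂ * (x₁ * x₂)⁻¹ = y₁ * (y₂ * x₂⁻¹) * x₁⁻¹ := by group
            _ = y₁ * (x₁⁻¹ * (y₂ * x₂⁻¹)) := by
                have := hcomm x₁⁻¹ (W₁.inv_mem hx₁) (y₂ * x₂⁻¹) (W₂.mul_mem hy₂ (W₂.inv_mem hx₂))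
                rw [mul_assoc, this]
            _ = y₁ * x₁⁻¹ * (y₂ * x₂⁻¹) := by group
        have h3 : y₁ * x₁⁻¹ ∈ K := by
          have h4 : y₂ * x₂⁻¹ ∈ K := hW₂K (W₂.mul_mem hy₂ (W₂.inv_mem hx₂))
          have : y₁ * x₁⁻¹ = (k * x * k⁻¹ * x⁻¹) * (y₂ * x₂⁻¹)⁻¹ := by rw [h2]; group
          rw [this]
          exact K.mul_mem h1 (K.inv_mem h4)
        have h5 : y₁ * x₁⁻¹ ∈ K ⊓ W₁ := ⟨h3, W₁.mul_mem hy₁ (W₁.inv_mem hx₁)⟩
        rw [hKW₁, Subgroup.mem_bot] at h5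
        exact mul_inv_eq_one.mp h5
      subst hy₁x₁
      -- k commutes with x₁
      have hkx₁ : k * y₁ * k⁻¹ = y₁ := by
        have e1 : (y₁ * x₂) ^ k₁ = y₁ := hk₁ y₁ x₂ (hcomm y₁ hx₁ x₂ hx₂)
          (pow_card_subgroup_eq_one W₁ hx₁) (pow_card_subgroup_eq_one W₂ hx₂)
        have e2 : (y₁ * y₂) ^ k₁ = y₁ := hk₁ y₁ y₂ (hcomm y₁ hx₁ y₂ hy₂)
          (pow_card_subgroup_eq_one W₁ hx₁) (pow_card_subgroup_eq_one W₂ hy₂)
        calc k * y₁ * k⁻¹ = k * (y₁ * x₂) ^ k₁ * k⁻¹ := by rw [e1]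
          _ = (k * (y₁ * x₂) * k⁻¹) ^ k₁ := (conj_pow' k _ k₁).symm
          _ = (y₁ * y₂) ^ k₁ := by rw [← hxe, hye]
          _ = y₁ := e2
      have hkW₂ : k ∈ W₂ := by
        rw [← hC y₁ hx₁ hx₁ne]
        refine Subgroup.mem_inf.mpr ⟨hk, ?_⟩
        rw [Subgroup.mem_centralizer_singleton_iff]
        calc k * y₁ = (k * y₁ * k⁻¹) * k := by group
          _ = y₁ * k := by rw [hkx₁]
      exact (W₁ ⊔ W₂).mul_mem ((le_sup_right : W₂ ≤ W₁ ⊔ W₂) hkW₂) hwW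
    · intro w hw
      rw [Subgroup.mem_set_normalizer_iff]
      intro h
      constructor
      · intro hh
        have := hWcomm w hw h (hX hh).1
        rw [this, mul_inv_cancel_right]
        exact hh
      · intro hh
        have h1 : w * h * w⁻¹ ∈ W₁ ⊔ W₂ := (hX hh).1
        have h2 : h ∈ W₁ ⊔ W₂ := by
          have : h = w⁻¹ * (w * h * w⁻¹) * w := by group
          rw [this]
          exact (W₁ ⊔ W₂).mul_mem ((W₁ ⊔ W₂).mul_mem ((W₁ ⊔ W₂).inv_mem hw) h1) hw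
        have := hWcomm w hw h h2
        rw [this, mul_inv_cancel_right] at hh
        exact hh

end Cfsg.Agent.S1510
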