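import Cfsg.Statements.S1514
import Mathlib
import Cfsg.Agent.Helper11.Virtual
import Cfsg.Agent.Helper11.ConjFun
import Cfsg.Agent.S1509

set_option autoImplicit false
open Cfsg

namespace Cfsg.Agent.S1514

open Cfsg.Agent.Helper11

/-- Let S be a nonempty set of irreducible characters of the finite group L, closed under complex conjugation and containing no real-valued member, and τ a linear isometry on the integer combinations of S vanishing at 1, with values virtual characters of G vanishing at 1. Then there is a choice R making (S, τ, R) a coherence system. -/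
theorem result {L : Type*} [Group L] [Fintype L] {G : Type*} [Group G] [Fintype G] (S : Set (L → ℂ)) (hS : S.Nonempty) (hirr : ∀ χ ∈ S, Cfsg.IsIrrCharacter L χ) (hconj : ∀ χ ∈ S, Cfsg.conjFun χ ∈ S ∧ Cfsg.conjFun χ ≠ χ) (τ : (L → ℂ) → (G → ℂ)) (hτ : Cfsg.IsLinearIsometryOn (Cfsg.zspanOn S {1}ᶜ) τ) (hτ1 : ∀ α ∈ Cfsg.zspanOn S {1}ᶜ, τ α 1 = 0) : ∃ R : (L → ℂ) → Finset (G → ℂ), Cfsg.IsCoherenceSystem S τ R := by
  classical
  obtain ⟨hadd, hsmul, hiso, hvirt⟩ := hτ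
  have hmem : ∀ χ ∈ S, χ - conjFun χ ∈ zspanOn S {1}ᶜ := by
    intro χ hχ
    refine ⟨Submodule.sub_mem _ (Submodule.subset_span hχ)
      (Submodule.subset_span (hconj χ hχ).1), ?_⟩
    intro x hx
    have hx1 : x = 1 := by simpa using hx
    subst hx1
    have hd := Cfsg.Agent.Helper25.char_one_eq_degree
      (Cfsg.Agent.Helper25.isCharacter_of_irr (hirr χ hχ))
    simp only [Pi.sub_apply, conjFun]
    rw [hd]
    simp
  have horth : ∀ χ ∈ S, ∀ φ ∈ S, χ ≠ φ → classInner χ φ = 0 := by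
    intro χ hχ φ hφ hne
    have := Cfsg.Agent.Helper25.irr_classInner (⟨χ, hirr χ hχ⟩ : IrrCharacter L) ⟨φ, hirr φ hφ⟩
    rw [if_neg (fun h => hne (congrArg Subtype.val h))] at this
    exact this
  have hself : ∀ χ ∈ S, classInner χ χ = 1 := by
    intro χ hχ
    have := Cfsg.Agent.Helper25.irr_classInner (⟨χ, hirr χ hχ⟩ : IrrCharacter L) ⟨χ, hirr χ hχ⟩
    rwa [if_pos rfl] at this
  have hnorm : ∀ χ ∈ S, classInner (τ (χ - conjFun χ)) (τ (χ - conjFun χ)) = 2 := by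
    intro χ hχ
    rw [hiso _ (hmem χ hχ) _ (hmem χ hχ), Cfsg.Agent.Helper2.classInner_sub_left,
      Cfsg.Agent.Helper2.classInner_sub_right, Cfsg.Agent.Helper2.classInner_sub_right,
      hself χ hχ, hself _ (hconj χ hχ).1, horth χ hχ _ (hconj χ hχ).1 (hconj χ hχ).2.symm,
      horth _ (hconj χ hχ).1 χ hχ (hconj χ hχ).2]
    norm_num
  have hex : ∀ χ ∈ S, ∃ ψ₁ ψ₂ : IrrCharacter G, ψ₁ ≠ ψ₂ ∧
      τ (χ - conjFun χ) = (ψ₁ : G → ℂ) - (ψ₂ : G → ℂ) :=
    fun χ hχ => virtual_norm_two (hvirt _ (hmem χ hχ)) (hnorm χ hχ) (hτ1 _ (hmem χ hχ))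
  choose P₁ P₂ hP using hex
  set R : (L → ℂ) → Finset (G → ℂ) := fun χ =>
    if h : χ ∈ S then {(P₁ χ h : G → ℂ), -(P₂ χ h : G → ℂ)} else ∅ with hRdef
  have hR : ∀ χ (h : χ ∈ S), R χ = {(P₁ χ h : G → ℂ), -(P₂ χ h : G → ℂ)} := by
    intro χ h
    simp only [hRdef, dif_pos h]
  have hRmem : ∀ χ (h : χ ∈ S) (α : G → ℂ), α ∈ R χ →
      α = (P₁ χ h : G → ℂ) ∨ α = -(P₂ χ h : G → ℂ) := by
    intro χ h α hα
    rw [hR χ h] at hα
    simpa using hα
  have hGself : ∀ ψ : IrrCharacter G, classInner (ψ : G → ℂ) (ψ : G → ℂ) = 1 := by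
    intro ψ
    have := Cfsg.Agent.Helper25.irr_classInner ψ ψ
    rwa [if_pos rfl] at this
  have hGorth : ∀ ψ ψ' : IrrCharacter G, ψ ≠ ψ' → classInner (ψ : G → ℂ) (ψ' : G → ℂ) = 0 := by
    intro ψ ψ' hne
    have := Cfsg.Agent.Helper25.irr_classInner ψ ψ'
    rwa [if_neg hne] at this
  refine ⟨R, ?_⟩
  refine
    { nonempty := hS
      isCharacter := fun χ hχ => Cfsg.Agent.Helper25.isCharacter_of_irr (hirr χ hχ)
      conj_mem := fun χ hχ => (hconj χ hχ).1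
      conj_ne := fun χ hχ => (hconj χ hχ).2
      isometry := ⟨hadd, hsmul, hiso, hvirt⟩
      map_one := hτ1
      orthogonal := horth
      orthonormal := ?_
      virtual := ?_
      sum_eq := ?_
      disjoint := ?_ }
  · intro χ hχ α hα β hβ
    rcases hRmem χ hχ α hα with rfl | rfl <;> rcases hRmem χ hχ β hβ with rfl | rfl
    · rw [if_pos rfl, hGself]
    · rw [if_neg (irr_ne_neg_irr _ _), Cfsg.Agent.Helper2.classInner_neg_right,
        hGorth _ _ (hP χ hχ).1, neg_zero]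
    · rw [if_neg (fun h => irr_ne_neg_irr _ _ h.symm), Cfsg.Agent.Helper2.classInner_neg_left,
        hGorth _ _ (hP χ hχ).1.symm, neg_zero]
    · rw [if_pos rfl, Cfsg.Agent.Helper2.classInner_neg_left,
        Cfsg.Agent.Helper2.classInner_neg_right, hGself, neg_neg]
  · intro χ hχ α hα
    rcases hRmem χ hχ α hα with rfl | rfl
    · exact irr_generalized _
    · exact neg_irr_generalized _
  · intro χ hχ
    rw [hR χ hχ, Finset.sum_pair (irr_ne_neg_irr _ _), (hP χ hχ).2, sub_eq_add_neg]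
  · intro χ hχ φ hφ h1 h2 α hα β hβ
    have hmix : classInner ((P₁ φ hφ : G → ℂ) - (P₂ φ hφ : G → ℂ))
        (((1 : ℝ) : ℂ) • (P₁ χ hχ : G → ℂ) - ((1 : ℝ) : ℂ) • (P₂ χ hχ : G → ℂ)) = 0 := by
      rw [Complex.ofReal_one, one_smul, one_smul, ← (hP φ hφ).2, ← (hP χ hχ).2,
        hiso _ (hmem φ hφ) _ (hmem χ hχ), Cfsg.Agent.Helper2.classInner_sub_left,
        Cfsg.Agent.Helper2.classInner_sub_right, Cfsg.Agent.Helper2.classInner_sub_right,
        classInner_conjFun_conjFun, classInner_conjFun_left, h1, h2]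
      simp
    have hv1 : (P₁ φ hφ : G → ℂ) 1 = (P₂ φ hφ : G → ℂ) 1 := by
      have := hτ1 _ (hmem φ hφ)
      rw [(hP φ hφ).2, Pi.sub_apply] at this
      exact sub_eq_zero.mp this
    have hv2 : ((1 : ℝ) : ℂ) * (P₁ χ hχ : G → ℂ) 1 = ((1 : ℝ) : ℂ) * (P₂ χ hχ : G → ℂ) 1 := by
      have := hτ1 _ (hmem χ hχ)
      rw [(hP χ hχ).2, Pi.sub_apply] at this
      rw [sub_eq_zero.mp this]
    obtain ⟨r1, r2, r3, r4⟩ := Cfsg.Agent.S1509.result (P₁ φ hφ : G → ℂ) (P₂ φ hφ : G → ℂ)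
      (P₁ χ hχ : G → ℂ) (P₂ χ hχ : G → ℂ) (Or.inl (P₁ φ hφ).2) (Or.inl (P₂ φ hφ).2)
      (Or.inl (P₁ χ hχ).2) (Or.inl (P₂ χ hχ).2) 1 1 one_ne_zero one_ne_zero
      (hGorth _ _ (hP φ hφ).1) (hGorth _ _ (hP χ hχ).1) hmix hv1 hv2
    rcases hRmem φ hφ α hα with rfl | rfl <;> rcases hRmem χ hχ β hβ with rfl | rfl
    · exact r1
    · rw [Cfsg.Agent.Helper2.classInner_neg_right, r2, neg_zero]
    · rw [Cfsg.Agent.Helper2.classInner_neg_left, r3, neg_zero]
    · rw [Cfsg.Agent.Helper2.classInner_neg_left, Cfsg.Agent.Helper2.classInner_neg_right, r4]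
      simp

end Cfsg.Agent.S1514
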