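import Cfsg.Statements.S1515
import Mathlib
import Cfsg.Agent.Helper11.ConjFun

set_option autoImplicit false
open Cfsg

namespace Cfsg.Agent.S1515

open Cfsg.Agent.Helper11

/-- Let (S, τ, R) be a coherence system from L to G, χ ∈ S, and ψ an integer combination of S with ⟨χ, ψ⟩ = ⟨conj χ, ψ⟩ = 0. Let τ₁ be a linear isometry on the integer combinations of χ − ψ and χ − conj χ, with virtual-character values, agreeing with τ on integer multiples of χ − conj χ. Then the sum over α ∈ R χ of the squared absolute values of ⟨τ₁(χ − ψ), α⟩ is at least ⟨χ, χ⟩; and if ⟨τ₁(χ − ψ), τ₁(χ − ψ)⟩ minus that sum is at least ⟨ψ, ψ⟩, then the sum equals ⟨χ, χ⟩ and every ⟨τ₁(χ − ψ), α⟩ with α ∈ R χ is 0 or 1. -/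
theorem result {L : Type*} [Group L] [Fintype L] {G : Type*} [Group G] [Fintype G] (S : Set (L → ℂ)) (τ : (L → ℂ) → (G → ℂ)) (R : (L → ℂ) → Finset (G → ℂ)) (hS : Cfsg.IsCoherenceSystem S τ R) (χ : L → ℂ) (hχ : χ ∈ S) (ψ : L → ℂ) (hψ : ψ ∈ Cfsg.zspan S) (h1 : Cfsg.classInner χ ψ = 0) (h2 : Cfsg.classInner (Cfsg.conjFun χ) ψ = 0) (τ₁ : (L → ℂ) → (G → ℂ)) (hτ₁ : Cfsg.IsLinearIsometryOn (Cfsg.zspan {χ - ψ, χ - Cfsg.conjFun χ}) τ₁) (hagree : ∀ n : ℤ, τ₁ (n • (χ - Cfsg.conjFun χ)) = τ (n • (χ - Cfsg.conjFun χ))) : (Cfsg.classInner χ χ).re ≤ ∑ α ∈ R χ, ‖Cfsg.classInner (τ₁ (χ - ψ)) α‖ ^ 2 ∧ ((Cfsg.classInner ψ ψ).re ≤ (Cfsg.classInner (τ₁ (χ - ψ)) (τ₁ (χ - ψ))).re - ∑ α ∈ R χ, ‖Cfsg.classInner (τ₁ (χ - ψ)) α‖ ^ 2 → (∑ α ∈ R χ, ‖Cfsg.classInner (τ₁ (χ - ψ)) α‖ ^ 2 = (Cfsg.classInner χ χ).re ∧ ∀ α ∈ R χ, Cfsg.classInner (τ₁ (χ - ψ)) α = 0 ∨ Cfsg.classInner (τ₁ (χ - ψ)) α = 1)) := by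
  classical
  obtain ⟨hadd, hsmul, hiso, hvirt⟩ := hτ₁
  set X := τ₁ (χ - ψ) with hX
  have hE1 : χ - ψ ∈ zspan {χ - ψ, χ - conjFun χ} := Submodule.subset_span (by simp)
  have hE2 : χ - conjFun χ ∈ zspan {χ - ψ, χ - conjFun χ} := Submodule.subset_span (by simp)
  have hXv : IsGeneralizedCharacter G X := hvirt _ hE1
  have hint : ∀ α ∈ R χ, ∃ k : ℤ, classInner X α = (k : ℂ) :=
    fun α hα => classInner_virtual_int hXv (hS.virtual χ hχ α hα)
  choose! k hk using hint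
  obtain ⟨m, hm⟩ := Cfsg.Agent.Helper2.classInner_char_nat (hS.isCharacter χ hχ)
    (hS.isCharacter χ hχ)
  have hF1 : τ₁ (χ - conjFun χ) = ∑ α ∈ R χ, α := by
    have := hagree 1
    rw [one_smul] at this
    rw [this, hS.sum_eq χ hχ]
  have hc1 : classInner χ (conjFun χ) = 0 :=
    hS.orthogonal χ hχ _ (hS.conj_mem χ hχ) (hS.conj_ne χ hχ).symm
  have hc2 : classInner ψ χ = 0 := by
    rw [Cfsg.Agent.Helper2.classInner_conj_symm χ ψ, h1, map_zero]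
  have hc3 : classInner ψ (conjFun χ) = 0 := by
    rw [Cfsg.Agent.Helper2.classInner_conj_symm (conjFun χ) ψ, h2, map_zero]
  have hF5 : ∑ α ∈ R χ, (k α : ℂ) = (m : ℂ) := by
    have e1 : classInner X (τ₁ (χ - conjFun χ)) = classInner (χ - ψ) (χ - conjFun χ) :=
      hiso _ hE1 _ hE2
    rw [hF1, Cfsg.Agent.Helper2.classInner_sum_right, Cfsg.Agent.Helper2.classInner_sub_left,
      Cfsg.Agent.Helper2.classInner_sub_right, Cfsg.Agent.Helper2.classInner_sub_right, hc1, hc2,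
      hc3, hm] at e1
    rw [← Finset.sum_congr rfl (fun α hα => hk α hα), e1]
    ring
  have hF5Z : ∑ α ∈ R χ, k α = (m : ℤ) := by exact_mod_cast hF5
  have hF6 : classInner X X = (m : ℂ) + classInner ψ ψ := by
    rw [hX, hiso _ hE1 _ hE1, Cfsg.Agent.Helper2.classInner_sub_left,
      Cfsg.Agent.Helper2.classInner_sub_right, Cfsg.Agent.Helper2.classInner_sub_right, h1, hc2, hm]
    ring
  have hnorm : ∀ α ∈ R χ, ‖classInner X α‖ ^ 2 = ((k α ^ 2 : ℤ) : ℝ) := by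
    intro α hα
    rw [hk α hα, Complex.norm_intCast]
    push_cast
    exact sq_abs _
  have hsumnorm : ∑ α ∈ R χ, ‖classInner X α‖ ^ 2 = ((∑ α ∈ R χ, k α ^ 2 : ℤ) : ℝ) := by
    rw [Finset.sum_congr rfl hnorm]
    push_cast
    rfl
  have hre : (classInner χ χ).re = (m : ℝ) := by rw [hm]; simp
  have hkk : ∀ α, k α ≤ k α ^ 2 := by
    intro α
    rcases le_or_gt (k α) 0 with h | h
    · nlinarith [sq_nonneg (k α)]
    · nlinarith
  have hle : (m : ℤ) ≤ ∑ α ∈ R χ, k α ^ 2 := by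
    rw [← hF5Z]
    exact Finset.sum_le_sum (fun α _ => hkk α)
  constructor
  · rw [hre, hsumnorm]
    exact_mod_cast hle
  · intro hprem
    rw [hF6, hsumnorm] at hprem
    simp only [Complex.add_re, Complex.natCast_re] at hprem
    have hle2 : ∑ α ∈ R χ, k α ^ 2 ≤ (m : ℤ) := by
      have : ((∑ α ∈ R χ, k α ^ 2 : ℤ) : ℝ) ≤ (m : ℝ) := by linarith
      exact_mod_cast this
    have heq : ∑ α ∈ R χ, k α ^ 2 = (m : ℤ) := le_antisymm hle2 hle
    refine ⟨by rw [hsumnorm, hre, heq]; simp, ?_⟩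
    intro α hα
    have hz : ∑ α ∈ R χ, (k α ^ 2 - k α) = 0 := by
      rw [Finset.sum_sub_distrib, heq, hF5Z]; ring
    have h0 := (Finset.sum_eq_zero_iff_of_nonneg (fun α _ => sub_nonneg.mpr (hkk α))).mp hz α hα
    have hk01 : k α = 0 ∨ k α = 1 := by
      have : k α * (k α - 1) = 0 := by linear_combination h0
      rcases mul_eq_zero.mp this with h | h
      · left; exact h
      · right; omega
    rcases hk01 with h | h
    · left; rw [hk α hα, h]; simp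
    · right; rw [hk α hα, h]; simp

end Cfsg.Agent.S1515
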