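import Cfsg.Statements.S1525
import Cfsg.Agent.Helper11.DadeIso

set_option autoImplicit false
open Cfsg

namespace Cfsg.Agent.S1525

open Cfsg.Agent.Helper11

/-- Under the Dade hypothesis for (A, L, H), let χ be a class function of G and let ψ be a function on L whose value at each a ∈ A is the average of χ over the coset a·H(a). Then (1/|G|) Σ |χ g|² over the elements g of G conjugate into some coset a·H(a) with a ∈ A is at least (1/|L|) Σ_{a ∈ A ∩ L} |ψ a|². -/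
theorem result {G : Type*} [Group G] [Fintype G] (A : Set G) (L : Subgroup G) [Fintype L] (H : G → Subgroup G) (hD : Cfsg.DadeHypothesis A L H) (χ : G → ℂ) (hχ : Cfsg.IsClassFunction G χ) (ψ : L → ℂ) (hψ : ∀ a : L, (a : G) ∈ A → ψ a = (Nat.card (H a) : ℂ)⁻¹ * ∑ᶠ u ∈ (H a : Set G), χ (a * u)) : (Nat.card L : ℝ)⁻¹ * ∑ᶠ a ∈ {a : L | (a : G) ∈ A}, ‖ψ a‖ ^ 2 ≤ (Nat.card G : ℝ)⁻¹ * ∑ᶠ g ∈ {g : G | ∃ a ∈ A, ∃ u ∈ H a, ∃ x : G, x * g * x⁻¹ = a * u}, ‖χ g‖ ^ 2 := by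
  classical
  -- the counting formula, real version
  have hcount := dade_count hD (fun g => ((‖χ g‖ ^ 2 : ℝ) : ℂ)) (by intro g x; show ((‖χ (x * g * x⁻¹)‖ ^ 2 : ℝ) : ℂ) = _; rw [hχ g x])
  have hcountR : (Nat.card L : ℝ) * ∑ g ∈ Finset.univ.filter
        (fun g : G => ∃ a ∈ A, ∃ u ∈ H a, ∃ x : G, x * g * x⁻¹ = a * u), ‖χ g‖ ^ 2 =
      (Nat.card G : ℝ) * ∑ a ∈ Finset.univ.filter (fun a : G => a ∈ A),
        ((Nat.card (H a) : ℝ))⁻¹ * ∑ u ∈ Finset.univ.filter (fun u : G => u ∈ H a),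
          ‖χ (a * u)‖ ^ 2 := by
    apply Complex.ofReal_injective
    push_cast
    push_cast at hcount
    exact hcount
  -- rewrite the right-hand side
  have hR : ∑ᶠ g ∈ {g : G | ∃ a ∈ A, ∃ u ∈ H a, ∃ x : G, x * g * x⁻¹ = a * u}, ‖χ g‖ ^ 2 =
      ∑ g ∈ Finset.univ.filter
        (fun g : G => ∃ a ∈ A, ∃ u ∈ H a, ∃ x : G, x * g * x⁻¹ = a * u), ‖χ g‖ ^ 2 := by
    rw [← finsum_mem_coe_finset]
    congr 1
    ext g
    simp
  -- rewrite the left-hand side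
  have hLs : ∑ᶠ a ∈ {a : L | (a : G) ∈ A}, ‖ψ a‖ ^ 2 =
      ∑ a ∈ Finset.univ.filter (fun a : G => a ∈ A),
        if h : a ∈ L then ‖ψ ⟨a, h⟩‖ ^ 2 else 0 := by
    have h1 : ∑ᶠ a ∈ {a : L | (a : G) ∈ A}, ‖ψ a‖ ^ 2 =
        ∑ a : L, if (a : G) ∈ A then ‖ψ a‖ ^ 2 else 0 := by
      rw [finsum_mem_eq_finite_toFinset_sum _ (Set.toFinite _), ← Finset.sum_filter]
      apply Finset.sum_congr
      · ext a; simp
      · intro _ _; rfl
    rw [h1, sum_subgroup_eq_sum_filter hD.subset (fun a : L => if (a : G) ∈ A then ‖ψ a‖ ^ 2 else 0)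
      (by intro x hx; show (if (x : G) ∈ A then ‖ψ x‖ ^ 2 else 0) = 0; rw [if_neg hx])]
    apply Finset.sum_congr rfl
    intro a ha
    simp only [Finset.mem_filter, Finset.mem_univ, true_and] at ha
    rw [dif_pos (show a ∈ L from hD.subset ha), dif_pos (show a ∈ L from hD.subset ha), if_pos ha]
  -- the pointwise inequality
  have hpt : ∀ a ∈ Finset.univ.filter (fun a : G => a ∈ A),
      (if h : a ∈ L then ‖ψ ⟨a, h⟩‖ ^ 2 else 0) ≤
        ((Nat.card (H a) : ℝ))⁻¹ * ∑ u ∈ Finset.univ.filter (fun u : G => u ∈ H a),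
          ‖χ (a * u)‖ ^ 2 := by
    intro a ha
    simp only [Finset.mem_filter, Finset.mem_univ, true_and] at ha
    rw [dif_pos (show a ∈ L from hD.subset ha), hψ ⟨a, hD.subset ha⟩ ha]
    have h2 : ((H a : Subgroup G) : Set G) = ↑(Finset.univ.filter (fun u : G => u ∈ H a)) := by
      ext u; simp
    have hH : Nat.card (H a) = (Finset.univ.filter (fun y : G => y ∈ H a)).card := by
      rw [Nat.card_eq_fintype_card, Fintype.card_subtype]
    have hH0 : (0 : ℝ) < (Nat.card (H a) : ℝ) := Nat.cast_pos.mpr Nat.card_pos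
    show ‖(Nat.card (H a) : ℂ)⁻¹ * ∑ᶠ u ∈ ((H a : Subgroup G) : Set G), χ (a * u)‖ ^ 2 ≤ _
    rw [h2, finsum_mem_coe_finset, norm_mul, norm_inv, Complex.norm_natCast, mul_pow]
    have h3 : ‖∑ u ∈ Finset.univ.filter (fun u : G => u ∈ H a), χ (a * u)‖ ^ 2 ≤
        (Nat.card (H a) : ℝ) * ∑ u ∈ Finset.univ.filter (fun u : G => u ∈ H a),
          ‖χ (a * u)‖ ^ 2 := by
      calc ‖∑ u ∈ Finset.univ.filter (fun u : G => u ∈ H a), χ (a * u)‖ ^ 2
          ≤ (∑ u ∈ Finset.univ.filter (fun u : G => u ∈ H a), ‖χ (a * u)‖) ^ 2 := by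
            apply pow_le_pow_left₀ (norm_nonneg _) (norm_sum_le _ _)
        _ ≤ ((Finset.univ.filter (fun u : G => u ∈ H a)).card : ℝ) *
              ∑ u ∈ Finset.univ.filter (fun u : G => u ∈ H a), ‖χ (a * u)‖ ^ 2 :=
            sq_sum_le_card_mul_sum_sq
        _ = _ := by rw [← hH]
    calc ((Nat.card (H a) : ℝ))⁻¹ ^ 2 *
          ‖∑ u ∈ Finset.univ.filter (fun u : G => u ∈ H a), χ (a * u)‖ ^ 2
        ≤ ((Nat.card (H a) : ℝ))⁻¹ ^ 2 * ((Nat.card (H a) : ℝ) *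
            ∑ u ∈ Finset.univ.filter (fun u : G => u ∈ H a), ‖χ (a * u)‖ ^ 2) :=
          mul_le_mul_of_nonneg_left h3 (by positivity)
      _ = _ := by field_simp
  have hL0 : (0 : ℝ) < (Nat.card L : ℝ) := Nat.cast_pos.mpr Nat.card_pos
  have hG0 : (0 : ℝ) < (Nat.card G : ℝ) := Nat.cast_pos.mpr Nat.card_pos
  rw [hR, hLs]
  have hRHS : (Nat.card G : ℝ)⁻¹ * ∑ g ∈ Finset.univ.filter
        (fun g : G => ∃ a ∈ A, ∃ u ∈ H a, ∃ x : G, x * g * x⁻¹ = a * u), ‖χ g‖ ^ 2 =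
      (Nat.card L : ℝ)⁻¹ * ∑ a ∈ Finset.univ.filter (fun a : G => a ∈ A),
        ((Nat.card (H a) : ℝ))⁻¹ * ∑ u ∈ Finset.univ.filter (fun u : G => u ∈ H a),
          ‖χ (a * u)‖ ^ 2 := by
    rw [inv_mul_eq_iff_eq_mul₀ hG0.ne', ← mul_assoc, mul_comm (Nat.card G : ℝ), mul_assoc,
      ← hcountR]
    field_simp
  rw [hRHS]
  exact mul_le_mul_of_nonneg_left (Finset.sum_le_sum hpt) (by positivity)

end Cfsg.Agent.S1525
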