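import Cfsg.Statements.S1527
import Cfsg.Agent.Helper11.Basic

set_option autoImplicit false
open Cfsg

namespace Cfsg.Agent.S1527

open Finset Cfsg.Agent.Helper11

/-- number of non-identity elements of a subgroup -/
theorem card_nonid {G : Type*} [Group G] [Fintype G] [DecidableEq G] (H : Subgroup G)
    [DecidablePred (· ∈ H)] :
    (univ.filter (fun h : G => h ≠ 1 ∧ h ∈ H)).card = Nat.card H - 1 := by
  have h1 : Nat.card H = (univ.filter (fun a : G => a ∈ H)).card := by
    rw [Nat.card_eq_fintype_card, Fintype.card_subtype]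
  have h2 : univ.filter (fun h : G => h ≠ 1 ∧ h ∈ H) = (univ.filter (fun a : G => a ∈ H)).erase 1 := by
    ext h
    simp [Finset.mem_erase]
  rw [h2, Finset.card_erase_of_mem (by simp [H.one_mem]), h1]

theorem card_D {G : Type*} [Group G] [Fintype G] [DecidableEq G] (H : Subgroup G)
    (hTI : Cfsg.IsTISubset (H : Set G))
    [DecidablePred (fun g : G => g ≠ 1 ∧ ∃ x : G, x * g * x⁻¹ ∈ H)] :
    (univ.filter (fun g : G => g ≠ 1 ∧ ∃ x : G, x * g * x⁻¹ ∈ H)).card =
      (Subgroup.normalizer (H : Set G)).index * (Nat.card H - 1) := by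
  classical
  set N := Subgroup.normalizer (H : Set G) with hN
  set D := univ.filter (fun g : G => g ≠ 1 ∧ ∃ x : G, x * g * x⁻¹ ∈ H) with hD
  -- double counting
  have hcount1 : ∑ g : G, ∑ x : G, (if g ≠ 1 ∧ x * g * x⁻¹ ∈ H then 1 else 0) =
      Nat.card G * (Nat.card H - 1) := by
    rw [Finset.sum_comm]
    have : ∀ x : G, ∑ g : G, (if g ≠ 1 ∧ x * g * x⁻¹ ∈ H then 1 else 0) = Nat.card H - 1 := by
      intro x
      rw [← Finset.card_filter, ← card_nonid H]
      apply Finset.card_nbij' (fun g => x * g * x⁻¹) (fun h => x⁻¹ * h * x)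
      · intro g hg
        simp only [Finset.coe_filter, Finset.mem_univ, true_and, Set.mem_setOf_eq] at hg ⊢
        refine ⟨?_, hg.2⟩
        intro h
        apply hg.1
        have : g = x⁻¹ * (x * g * x⁻¹) * x := by group
        rw [this, h]; group
      · intro h hh
        simp only [Finset.coe_filter, Finset.mem_univ, true_and, Set.mem_setOf_eq] at hh ⊢
        refine ⟨?_, ?_⟩
        · intro h'
          apply hh.1
          have : h = x * (x⁻¹ * h * x) * x⁻¹ := by group
          rw [this, h']; group
        · have : x * (x⁻¹ * h * x) * x⁻¹ = h := by group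
          rw [this]; exact hh.2
      · intro g _; group
      · intro h _; group
    rw [Finset.sum_congr rfl (fun x _ => this x), Finset.sum_const, Finset.card_univ,
      smul_eq_mul, ← Nat.card_eq_fintype_card]
  have hcount2 : ∑ g : G, ∑ x : G, (if g ≠ 1 ∧ x * g * x⁻¹ ∈ H then 1 else 0) =
      D.card * Nat.card N := by
    have : ∀ g : G, ∑ x : G, (if g ≠ 1 ∧ x * g * x⁻¹ ∈ H then 1 else 0) =
        if g ∈ D then Nat.card N else 0 := by
      intro g
      by_cases hg : g ∈ D
      · rw [if_pos hg]
        simp only [hD, Finset.mem_filter, Finset.mem_univ, true_and] at hg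
        obtain ⟨hg1, x₀, hx₀⟩ := hg
        have hh₀1 : x₀ * g * x₀⁻¹ ≠ 1 := by
          intro h
          apply hg1
          have : g = x₀⁻¹ * (x₀ * g * x₀⁻¹) * x₀ := by group
          rw [this, h]; group
        have hNcard : Nat.card N = (univ.filter (fun a : G => a ∈ N)).card := by
          rw [Nat.card_eq_fintype_card, Fintype.card_subtype]
        rw [← Finset.card_filter, hNcard]
        apply Finset.card_nbij' (fun x => x * x₀⁻¹) (fun t => t * x₀)
        · intro x hx
          simp only [Finset.coe_filter, Finset.mem_univ, true_and, Set.mem_setOf_eq] at hx ⊢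
          by_contra hnot
          have h1 : x * x₀⁻¹ * (x₀ * g * x₀⁻¹) * (x * x₀⁻¹)⁻¹ ∈ (H : Set G) := by
            have : x * x₀⁻¹ * (x₀ * g * x₀⁻¹) * (x * x₀⁻¹)⁻¹ = x * g * x⁻¹ := by group
            rw [this]; exact hx.2
          exact hh₀1 (hTI (x * x₀⁻¹) hnot (x₀ * g * x₀⁻¹) hx₀ h1)
        · intro t ht
          simp only [Finset.coe_filter, Finset.mem_univ, true_and, Set.mem_setOf_eq] at ht ⊢
          refine ⟨hg1, ?_⟩
          have h1 := (Subgroup.mem_set_normalizer_iff.mp ht (x₀ * g * x₀⁻¹)).mp hx₀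
          have : t * x₀ * g * (t * x₀)⁻¹ = t * (x₀ * g * x₀⁻¹) * t⁻¹ := by group
          rw [this]; exact h1
        · intro x _; group
        · intro t _; group
      · rw [if_neg hg]
        apply Finset.sum_eq_zero
        intro x _
        rw [if_neg]
        rintro ⟨h1, h2⟩
        apply hg
        simp only [hD, Finset.mem_filter, Finset.mem_univ, true_and]
        exact ⟨h1, x, h2⟩
    rw [Finset.sum_congr rfl (fun g _ => this g), Finset.sum_ite_mem, Finset.univ_inter,
      Finset.sum_const, smul_eq_mul]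
  have hNpos : 0 < Nat.card N := Nat.card_pos
  have hidx : N.index * Nat.card N = Nat.card G := Subgroup.index_mul_card N
  have : D.card * Nat.card N = (N.index * (Nat.card H - 1)) * Nat.card N := by
    rw [← hcount2, hcount1, ← hidx]; ring
  exact Nat.eq_of_mul_eq_mul_right hNpos this

/-- Let G be a finite group and H i (i in a finite index type) subgroups of pairwise coprime orders, each of whose underlying sets is a TI-subset of G, such that every non-identity element of G is conjugate to an element of some H i. Then Nat.card G − 1 = Σ_i [G : N_G(H i)] · (Nat.card (H i) − 1). -/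
theorem result {G : Type*} [Group G] [Finite G] {ι : Type*} [Fintype ι] (H : ι → Subgroup G) (hcop : ∀ i j, i ≠ j → Nat.Coprime (Nat.card (H i)) (Nat.card (H j))) (hTI : ∀ i, Cfsg.IsTISubset (H i : Set G)) (hcover : ∀ g : G, g ≠ 1 → ∃ i, ∃ x : G, x * g * x⁻¹ ∈ H i) : Nat.card G - 1 = ∑ i, (Subgroup.normalizer (H i : Set G)).index * (Nat.card (H i) - 1) := by
  classical
  have := Fintype.ofFinite G
  have hunion : (univ.filter (fun g : G => g ≠ 1)) =
      univ.biUnion (fun i => univ.filter (fun g : G => g ≠ 1 ∧ ∃ x : G, x * g * x⁻¹ ∈ H i)) := by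
    ext g
    simp only [Finset.mem_filter, Finset.mem_univ, true_and, Finset.mem_biUnion]
    constructor
    · intro hg
      obtain ⟨i, x, hx⟩ := hcover g hg
      exact ⟨i, hg, x, hx⟩
    · rintro ⟨i, hg, _⟩
      exact hg
  have hdisj : ∀ i ∈ (univ : Finset ι), ∀ j ∈ (univ : Finset ι), i ≠ j →
      Disjoint (univ.filter (fun g : G => g ≠ 1 ∧ ∃ x : G, x * g * x⁻¹ ∈ H i))
        (univ.filter (fun g : G => g ≠ 1 ∧ ∃ x : G, x * g * x⁻¹ ∈ H j)) := by
    intro i _ j _ hij
    rw [Finset.disjoint_left]
    intro g hgi hgj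
    simp only [Finset.mem_filter, Finset.mem_univ, true_and] at hgi hgj
    obtain ⟨hg1, x, hx⟩ := hgi
    obtain ⟨_, y, hy⟩ := hgj
    apply hg1
    have h1 : orderOf g ∣ Nat.card (H i) := by
      rw [← orderOf_conj' x g]
      exact orderOf_dvd_of_pow_eq_one (pow_card_subgroup_eq_one _ hx)
    have h2 : orderOf g ∣ Nat.card (H j) := by
      rw [← orderOf_conj' y g]
      exact orderOf_dvd_of_pow_eq_one (pow_card_subgroup_eq_one _ hy)
    exact orderOf_eq_one_iff.mp (Nat.eq_one_of_dvd_coprimes (hcop i j hij) h1 h2)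
  have hleft : Nat.card G - 1 = (univ.filter (fun g : G => g ≠ 1)).card := by
    rw [Finset.filter_ne' univ (1 : G), Finset.card_erase_of_mem (Finset.mem_univ _),
      Finset.card_univ, Nat.card_eq_fintype_card]
  rw [hleft, hunion, Finset.card_biUnion hdisj]
  apply Finset.sum_congr rfl
  intro i _
  exact card_D (H i) (hTI i)

end Cfsg.Agent.S1527
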