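import Cfsg.Statements.S1529
import Mathlib
import Cfsg.Agent.Helper11.Virtual1

set_option autoImplicit false
open Cfsg

namespace Cfsg.Agent.S1529

open Cfsg.Agent.Helper11

/-- Let N be a subgroup of the finite group G, S a set of irreducible characters of N with at least two members, and τ₁ a linear isometry on the integer combinations of S with virtual-character values such that τ₁ α vanishes at 1 whenever α ∈ ℤ[S] does. Then there is ε ∈ {1, −1} such that ε • τ₁ χ is an irreducible character of G for every χ ∈ S, and distinct members of S give distinct characters. -/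
theorem result {G : Type*} [Group G] [Fintype G] (N : Subgroup G) [Fintype N] (S : Set (N → ℂ)) (hirr : ∀ χ ∈ S, Cfsg.IsIrrCharacter N χ) (htwo : ∃ χ ∈ S, ∃ ψ ∈ S, χ ≠ ψ) (τ₁ : (N → ℂ) → (G → ℂ)) (hτ₁ : Cfsg.IsLinearIsometryOn (Cfsg.zspan S) τ₁) (h0 : ∀ α ∈ Cfsg.zspan S, α 1 = 0 → τ₁ α 1 = 0) : ∃ ε : ℂ, (ε = 1 ∨ ε = -1) ∧ (∀ χ ∈ S, Cfsg.IsIrrCharacter G (ε • τ₁ χ)) ∧ (∀ χ ∈ S, ∀ ψ ∈ S, τ₁ χ = τ₁ ψ → χ = ψ) := by
  classical
  obtain ⟨hadd, hsmul, hiso, hvirt⟩ := hτ₁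
  have hmemS : ∀ χ ∈ S, χ ∈ zspan S := fun χ hχ => Submodule.subset_span hχ
  have hself : ∀ χ ∈ S, classInner χ χ = 1 := by
    intro χ hχ
    have := Cfsg.Agent.Helper25.irr_classInner (⟨χ, hirr χ hχ⟩ : IrrCharacter N) ⟨χ, hirr χ hχ⟩
    rwa [if_pos rfl] at this
  have horth : ∀ χ ∈ S, ∀ ψ ∈ S, χ ≠ ψ → classInner χ ψ = 0 := by
    intro χ hχ ψ hψ hne
    have := Cfsg.Agent.Helper25.irr_classInner (⟨χ, hirr χ hχ⟩ : IrrCharacter N) ⟨ψ, hirr ψ hψ⟩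
    rw [if_neg (fun h => hne (congrArg Subtype.val h))] at this
    exact this
  have hsign : ∀ χ ∈ S, ∃ (e : ℤ) (μ : IrrCharacter G), (e = 1 ∨ e = -1) ∧
      τ₁ χ = (e : ℂ) • (μ : G → ℂ) := by
    intro χ hχ
    obtain ⟨μ, h | h⟩ := virtual_norm_one (hvirt χ (hmemS χ hχ))
      (by rw [hiso _ (hmemS χ hχ) _ (hmemS χ hχ), hself χ hχ])
    · exact ⟨1, μ, Or.inl rfl, by rw [h]; simp⟩
    · exact ⟨-1, μ, Or.inr rfl, by rw [h]; simp⟩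
  choose! e μ he using hsign
  have hkey : ∀ χ ∈ S, ∀ ψ ∈ S, e χ = e ψ := by
    intro χ hχ ψ hψ
    have hdχ := Cfsg.Agent.Helper25.irr_one_eq_degree (⟨χ, hirr χ hχ⟩ : IrrCharacter N)
    have hdψ := Cfsg.Agent.Helper25.irr_one_eq_degree (⟨ψ, hirr ψ hψ⟩ : IrrCharacter N)
    have hpχ := Cfsg.Agent.Helper25.irr_degree_pos (⟨χ, hirr χ hχ⟩ : IrrCharacter N)
    have hpψ := Cfsg.Agent.Helper25.irr_degree_pos (⟨ψ, hirr ψ hψ⟩ : IrrCharacter N)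
    have hDχ := Cfsg.Agent.Helper25.irr_one_eq_degree (μ χ hχ)
    have hDψ := Cfsg.Agent.Helper25.irr_one_eq_degree (μ ψ hψ)
    have hPχ := Cfsg.Agent.Helper25.irr_degree_pos (μ χ hχ)
    have hPψ := Cfsg.Agent.Helper25.irr_degree_pos (μ ψ hψ)
    simp only at hdχ hdψ hpχ hpψ
    set dχ := charDegree χ
    set dψ := charDegree ψ
    set Dχ := charDegree (μ χ hχ : G → ℂ)
    set Dψ := charDegree (μ ψ hψ : G → ℂ)
    have hm1 : (dψ : ℤ) • χ ∈ zspan S := Submodule.smul_mem _ _ (hmemS χ hχ)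
    have hm2 : (-(dχ : ℤ)) • ψ ∈ zspan S := Submodule.smul_mem _ _ (hmemS ψ hψ)
    have hα : ((dψ : ℤ) • χ + (-(dχ : ℤ)) • ψ) ∈ zspan S := Submodule.add_mem _ hm1 hm2
    have hα1 : ((dψ : ℤ) • χ + (-(dχ : ℤ)) • ψ) 1 = 0 := by
      show (dψ : ℤ) • χ 1 + (-(dχ : ℤ)) • ψ 1 = 0
      rw [hdχ, hdψ, zsmul_eq_mul, zsmul_eq_mul]
      push_cast
      ring
    have h := h0 _ hα hα1
    rw [hadd _ hm1 _ hm2, hsmul _ (hmemS χ hχ), hsmul _ (hmemS ψ hψ), (he χ hχ).2,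
      (he ψ hψ).2] at h
    have h' : (dψ : ℤ) • ((e χ : ℂ) * (μ χ hχ : G → ℂ) 1) +
        (-(dχ : ℤ)) • ((e ψ : ℂ) * (μ ψ hψ : G → ℂ) 1) = 0 := h
    rw [hDχ, hDψ, zsmul_eq_mul, zsmul_eq_mul] at h'
    have hZ : (dψ : ℤ) * (e χ * (Dχ : ℤ)) + (-(dχ : ℤ)) * (e ψ * (Dψ : ℤ)) = 0 := by
      exact_mod_cast h'
    have p1 : (0 : ℤ) < (dψ : ℤ) * (Dχ : ℤ) := by positivity
    have p2 : (0 : ℤ) < (dχ : ℤ) * (Dψ : ℤ) := by positivity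
    rcases (he χ hχ).1 with h1 | h1 <;> rcases (he ψ hψ).1 with h2 | h2
    · rw [h1, h2]
    · rw [h1, h2] at hZ; nlinarith
    · rw [h1, h2] at hZ; nlinarith
    · rw [h1, h2]
  obtain ⟨χ₀, hχ₀, -, -, -⟩ := htwo
  refine ⟨(e χ₀ : ℂ), ?_, ?_, ?_⟩
  · rcases (he χ₀ hχ₀).1 with h | h
    · left; rw [h]; simp
    · right; rw [h]; simp
  · intro χ hχ
    have : (e χ₀ : ℂ) • τ₁ χ = (μ χ hχ : G → ℂ) := by
      rw [(he χ hχ).2, hkey χ₀ hχ₀ χ hχ, smul_smul]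
      rcases (he χ hχ).1 with h | h <;> rw [h] <;> simp
    rw [this]
    exact (μ χ hχ).2
  · intro χ hχ ψ hψ heq
    by_contra hne
    have h1 := hiso χ (hmemS χ hχ) ψ (hmemS ψ hψ)
    rw [heq, hiso ψ (hmemS ψ hψ) ψ (hmemS ψ hψ), hself ψ hψ, horth χ hχ ψ hψ hne] at h1
    exact one_ne_zero h1

end Cfsg.Agent.S1529
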