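import Cfsg.Statements.S1530
import Mathlib
import Cfsg.Agent.Helper11.Coh2
import Cfsg.Agent.S1529

set_option autoImplicit false
open Cfsg

namespace Cfsg.Agent.S1530

open Cfsg.Agent.Helper11

/-- Let N be a subgroup of the finite group G and S₀ a finite set of irreducible characters of N, χ an irreducible character of N not in S₀, with degrees ξ 1 = d ξ. Let τ be a linear isometry on the integer combinations of S₀ ∪ {χ} vanishing at 1, with values virtual characters of G vanishing at 1, such that (S₀, N minus 1, τ) is coherent. If some ψ ∈ S₀ has d ψ dividing d χ and 2 · d ψ · d χ < Σ_{ξ ∈ S₀} (d ξ)², then (S₀ ∪ {χ}, N minus 1, τ) is coherent. -/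
theorem result {G : Type*} [Group G] [Fintype G] (N : Subgroup G) [Fintype N] (S₀ : Finset (N → ℂ)) (χ : N → ℂ) (hirr : ∀ ξ ∈ S₀, Cfsg.IsIrrCharacter N ξ) (hχ : Cfsg.IsIrrCharacter N χ) (hχS : χ ∉ S₀) (d : (N → ℂ) → ℕ) (hd : ∀ ξ ∈ insert χ S₀, ξ 1 = (d ξ : ℂ)) (τ : (N → ℂ) → (G → ℂ)) (hτ : Cfsg.IsLinearIsometryOn (Cfsg.zspanOn (↑(insert χ S₀) : Set (N → ℂ)) {1}ᶜ) τ) (hτ1 : ∀ α ∈ Cfsg.zspanOn (↑(insert χ S₀) : Set (N → ℂ)) {1}ᶜ, τ α 1 = 0) (hcoh : Cfsg.IsCoherent (↑S₀ : Set (N → ℂ)) {1}ᶜ τ) (ψ : N → ℂ) (hψ : ψ ∈ S₀) (hdvd : d ψ ∣ d χ) (hlt : 2 * d ψ * d χ < ∑ ξ ∈ S₀, d ξ ^ 2) : Cfsg.IsCoherent (↑(insert χ S₀) : Set (N → ℂ)) {1}ᶜ τ := by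
  classical
  obtain ⟨⟨α₀, hα₀, hα₀ne⟩, τ₁, hτ₁, hagree⟩ := hcoh
  have hcoeS : (↑S₀ : Set (N → ℂ)) ⊆ (↑(insert χ S₀) : Set (N → ℂ)) := by
    intro ξ hξ
    exact Finset.mem_coe.mpr (Finset.mem_insert_of_mem (Finset.mem_coe.mp hξ))
  have hsub : zspanOn (↑S₀ : Set (N → ℂ)) {1}ᶜ ⊆ zspanOn (↑(insert χ S₀) : Set (N → ℂ)) {1}ᶜ :=
    zspanOn_mono hcoeS _
  have hirr' : ∀ ξ ∈ insert χ S₀, IsIrrCharacter N ξ := by
    intro ξ hξ
    rcases Finset.mem_insert.mp hξ with h | h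
    · rw [h]; exact hχ
    · exact hirr ξ h
  have hself : ∀ ξ ∈ insert χ S₀, classInner ξ ξ = 1 := by
    intro ξ hξ
    have := Cfsg.Agent.Helper25.irr_classInner (⟨ξ, hirr' ξ hξ⟩ : IrrCharacter N) ⟨ξ, hirr' ξ hξ⟩
    rwa [if_pos rfl] at this
  have horth : ∀ ξ ∈ insert χ S₀, ∀ ξ' ∈ insert χ S₀, ξ ≠ ξ' → classInner ξ ξ' = 0 := by
    intro ξ hξ ξ' hξ' hne
    have := Cfsg.Agent.Helper25.irr_classInner (⟨ξ, hirr' ξ hξ⟩ : IrrCharacter N) ⟨ξ', hirr' ξ' hξ'⟩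
    rw [if_neg (fun h => hne (congrArg Subtype.val h))] at this
    exact this
  have hχmem : χ ∈ insert χ S₀ := Finset.mem_insert_self χ S₀
  have hSmem : ∀ ξ ∈ S₀, ξ ∈ insert χ S₀ := fun ξ hξ => Finset.mem_insert_of_mem hξ
  have hneχ : ∀ ξ ∈ S₀, ξ ≠ χ := fun ξ hξ h => hχS (h ▸ hξ)
  have hdpos : ∀ ξ ∈ insert χ S₀, 0 < d ξ := by
    intro ξ hξ
    have h1 := Cfsg.Agent.Helper25.irr_one_ne_zero (⟨ξ, hirr' ξ hξ⟩ : IrrCharacter N)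
    have h2 : ξ 1 ≠ 0 := h1
    rw [hd ξ hξ] at h2
    have h3 : d ξ ≠ 0 := by exact_mod_cast h2
    omega
  have hmem0 : ∀ ξ ∈ S₀, ξ ∈ zspan (↑S₀ : Set (N → ℂ)) :=
    fun ξ hξ => Submodule.subset_span (Finset.mem_coe.mpr hξ)
  have hmem1 : ∀ ξ ∈ insert χ S₀, ξ ∈ zspan (↑(insert χ S₀) : Set (N → ℂ)) :=
    fun ξ hξ => Submodule.subset_span (Finset.mem_coe.mpr hξ)
  -- two elements in S₀
  have htwo : ∃ ξ ∈ S₀, ξ ≠ ψ := by
    by_contra hcon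
    push Not at hcon
    have hS : (↑S₀ : Set (N → ℂ)) = {ψ} := by
      ext ξ
      simp only [Finset.mem_coe, Set.mem_singleton_iff]
      exact ⟨fun h => hcon ξ h, fun h => h ▸ hψ⟩
    have h1 : α₀ ∈ Submodule.span ℤ (↑S₀ : Set (N → ℂ)) := hα₀.1
    rw [hS] at h1
    obtain ⟨n, rfl⟩ := Submodule.mem_span_singleton.mp h1
    have h2 : (n • ψ) 1 = 0 := zspanOn_compl_one_apply hα₀
    rw [Pi.smul_apply, hd ψ (hSmem ψ hψ), zsmul_eq_mul] at h2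
    have h3 : n * (d ψ : ℤ) = 0 := by exact_mod_cast h2
    have h4 := hdpos ψ (hSmem ψ hψ)
    have h5 : n = 0 := by
      rcases mul_eq_zero.mp h3 with h | h
      · exact h
      · omega
    exact hα₀ne (by rw [h5, zero_smul])
  obtain ⟨ξ₁, hξ₁, hξ₁ne⟩ := htwo
  have h0 : ∀ θ ∈ zspan (↑S₀ : Set (N → ℂ)), θ 1 = 0 → τ₁ θ 1 = 0 := by
    intro θ hθ h1
    have hm := mem_zspanOn_compl_one hθ h1
    rw [hagree θ hm]
    exact hτ1 θ (hsub hm)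
  obtain ⟨ε, hε, hτ₁irr, hτ₁inj⟩ := Cfsg.Agent.S1529.result N (↑S₀ : Set (N → ℂ))
    (fun ξ hξ => hirr ξ (Finset.mem_coe.mp hξ))
    ⟨ξ₁, Finset.mem_coe.mpr hξ₁, ψ, Finset.mem_coe.mpr hψ, hξ₁ne⟩ τ₁ hτ₁ h0
  have hε0 : ε ≠ 0 := by rcases hε with h | h <;> rw [h] <;> norm_num
  obtain ⟨a, ha⟩ := hdvd
  have hdψ := hdpos ψ (hSmem ψ hψ)
  have hdχ := hdpos χ hχmem
  have hapos : 0 < a := by
    rcases Nat.eq_zero_or_pos a with h | h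
    · rw [h, mul_zero] at ha; omega
    · exact h
  -- β = χ - a ψ
  set β : N → ℂ := χ + (-(a : ℤ)) • ψ with hβdef
  have hβ : β ∈ zspanOn (↑(insert χ S₀) : Set (N → ℂ)) {1}ᶜ := by
    apply mem_zspanOn_compl_one
    · exact Submodule.add_mem _ (hmem1 χ hχmem) (Submodule.smul_mem _ _ (hmem1 ψ (hSmem ψ hψ)))
    · show χ 1 + (-(a : ℤ)) • ψ 1 = 0
      rw [hd χ hχmem, hd ψ (hSmem ψ hψ), ha, zsmul_eq_mul]
      push_cast
      ring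
  have hγ : ∀ ξ ∈ S₀, ((d ψ : ℤ) • ξ + (-(d ξ : ℤ)) • ψ) ∈ zspanOn (↑S₀ : Set (N → ℂ)) {1}ᶜ := by
    intro ξ hξ
    apply mem_zspanOn_compl_one
    · exact Submodule.add_mem _ (Submodule.smul_mem _ _ (hmem0 ξ hξ))
        (Submodule.smul_mem _ _ (hmem0 ψ hψ))
    · show (d ψ : ℤ) • ξ 1 + (-(d ξ : ℤ)) • ψ 1 = 0
      rw [hd ξ (hSmem ξ hξ), hd ψ (hSmem ψ hψ), zsmul_eq_mul, zsmul_eq_mul]
      push_cast
      ring
  have hτγ : ∀ ξ ∈ S₀, τ ((d ψ : ℤ) • ξ + (-(d ξ : ℤ)) • ψ) =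
      (d ψ : ℤ) • τ₁ ξ + (-(d ξ : ℤ)) • τ₁ ψ := by
    intro ξ hξ
    rw [← hagree _ (hγ ξ hξ),
      hτ₁.1 _ (Submodule.smul_mem _ _ (hmem0 ξ hξ)) _ (Submodule.smul_mem _ _ (hmem0 ψ hψ)),
      hτ₁.2.1 ξ (hmem0 ξ hξ), hτ₁.2.1 ψ (hmem0 ψ hψ)]
  have hτβgen : IsGeneralizedCharacter G (τ β) := hτ.2.2.2 β hβ
  have hmex : ∀ ξ ∈ S₀, ∃ k : ℤ, classInner (τ β) (τ₁ ξ) = (k : ℂ) := fun ξ hξ =>
    classInner_virtual_int hτβgen (hτ₁.2.2.2 ξ (hmem0 ξ hξ))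
  choose! m hm using hmex
  have horth1 : ∀ i ∈ S₀, ∀ j ∈ S₀, classInner (τ₁ i) (τ₁ j) = if i = j then 1 else 0 := by
    intro i hi j hj
    rw [hτ₁.2.2.1 i (hmem0 i hi) j (hmem0 j hj)]
    by_cases hij : i = j
    · rw [if_pos hij, hij]; exact hself j (hSmem j hj)
    · rw [if_neg hij]; exact horth i (hSmem i hi) j (hSmem j hj) hij
  have hβχ : ∀ f : N → ℂ, classInner β f = classInner χ f + ((-(a : ℤ) : ℤ) : ℂ) * classInner ψ f := by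
    intro f
    rw [hβdef, Cfsg.Agent.Helper2.classInner_add_left, zsmul_fun_eq,
      Cfsg.Agent.Helper2.classInner_smul_left]
  -- (F5)
  have hF5 : ∀ ξ ∈ S₀, (d ψ : ℤ) * m ξ = (d ξ : ℤ) * (m ψ + a) -
      (if ξ = ψ then (a : ℤ) * d ψ else 0) := by
    intro ξ hξ
    have h1 := hτ.2.2.1 β hβ _ (hsub (hγ ξ hξ))
    rw [hτγ ξ hξ, hβχ] at h1
    simp only [zsmul_fun_eq, Cfsg.Agent.Helper2.classInner_add_left,
      Cfsg.Agent.Helper2.classInner_add_right, Cfsg.Agent.Helper2.classInner_smul_left,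
      Cfsg.Agent.Helper2.classInner_smul_right, map_intCast] at h1
    rw [hm ξ hξ, hm ψ hψ, horth χ hχmem ξ (hSmem ξ hξ) (fun h => hneχ ξ hξ h.symm),
      horth χ hχmem ψ (hSmem ψ hψ) (fun h => hneχ ψ hψ h.symm), hself ψ (hSmem ψ hψ)] at h1
    by_cases hξψ : ξ = ψ
    · rw [if_pos hξψ, hξψ]
      ring
    · rw [if_neg hξψ]
      rw [horth ψ (hSmem ψ hψ) ξ (hSmem ξ hξ) (fun h => hξψ h.symm)] at h1
      have h2 : ((d ψ : ℤ) * m ξ : ℂ) = ((d ξ : ℤ) * (m ψ + a) : ℂ) := by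
        push_cast
        push_cast at h1
        linear_combination h1
      have h3 : (d ψ : ℤ) * m ξ = (d ξ : ℤ) * (m ψ + a) := by exact_mod_cast h2
      rw [h3, sub_zero]
  -- the remainder Δ
  set Δ : G → ℂ := τ β - ∑ i ∈ S₀, (m i) • τ₁ i with hΔdef
  obtain ⟨hΔorth, hΔnorm⟩ := bessel_decomp S₀ τ₁ horth1 (τ β) m hm
  have hΔgen : IsGeneralizedCharacter G Δ :=
    isGeneralizedCharacter_sub' hτβgen (isGeneralizedCharacter_finset_sum _ _ (fun i hi =>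
      Cfsg.Agent.Helper7.isGeneralizedCharacter_zsmul _ (hτ₁.2.2.2 i (hmem0 i hi))))
  have hββ : classInner (τ β) (τ β) = ((1 + (a : ℤ) ^ 2 : ℤ) : ℂ) := by
    rw [hτ.2.2.1 β hβ β hβ]
    simp only [hβdef, zsmul_fun_eq, Cfsg.Agent.Helper2.classInner_add_left,
      Cfsg.Agent.Helper2.classInner_add_right, Cfsg.Agent.Helper2.classInner_smul_left,
      Cfsg.Agent.Helper2.classInner_smul_right, map_intCast]
    rw [hself χ hχmem, hself ψ (hSmem ψ hψ),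
      horth χ hχmem ψ (hSmem ψ hψ) (fun h => hneχ ψ hψ h.symm),
      horth ψ (hSmem ψ hψ) χ hχmem (hneχ ψ hψ)]
    push_cast
    ring
  set K : ℤ := ∑ i ∈ S₀, (m i) ^ 2 with hKdef
  have hΔnorm' : classInner Δ Δ = ((1 + (a : ℤ) ^ 2 - K : ℤ) : ℂ) := by
    rw [hΔnorm, hββ]
    push_cast
    ring
  have hKle : 0 ≤ 1 + (a : ℤ) ^ 2 - K := classInner_self_int_nonneg hΔnorm'
  set u : ℤ := m ψ + a with hudef
  set D : ℤ := ∑ ξ ∈ S₀, (d ξ : ℤ) ^ 2 with hDdef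
  have hKD : (d ψ : ℤ) ^ 2 * K = u ^ 2 * D - 2 * a * (d ψ : ℤ) ^ 2 * u + (a : ℤ) ^ 2 * (d ψ : ℤ) ^ 2 := by
    have h1 : ∀ ξ ∈ S₀, (d ψ : ℤ) ^ 2 * (m ξ) ^ 2 = u ^ 2 * (d ξ : ℤ) ^ 2 -
        (if ξ = ψ then 2 * (a : ℤ) * (d ψ : ℤ) ^ 2 * u - (a : ℤ) ^ 2 * (d ψ : ℤ) ^ 2 else 0) := by
      intro ξ hξ
      have h2 := hF5 ξ hξ
      by_cases hξψ : ξ = ψ
      · rw [if_pos hξψ] at h2 ⊢
        rw [hξψ] at h2 ⊢
        have h3 : (d ψ : ℤ) ^ 2 * (m ψ) ^ 2 = ((d ψ : ℤ) * m ψ) ^ 2 := by ring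
        rw [h3, h2]
        ring
      · rw [if_neg hξψ] at h2 ⊢
        have h3 : (d ψ : ℤ) ^ 2 * (m ξ) ^ 2 = ((d ψ : ℤ) * m ξ) ^ 2 := by ring
        rw [h3, h2]
        ring
    rw [hKdef, Finset.mul_sum, Finset.sum_congr rfl h1, Finset.sum_sub_distrib,
      Finset.sum_ite_eq' S₀ ψ, if_pos hψ, ← Finset.mul_sum]
    ring
  have hD : 2 * (a : ℤ) * (d ψ : ℤ) ^ 2 < D := by
    have h1 : ((2 * d ψ * d χ : ℕ) : ℤ) < ((∑ ξ ∈ S₀, d ξ ^ 2 : ℕ) : ℤ) := by exact_mod_cast hlt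
    rw [ha] at h1
    push_cast at h1
    rw [hDdef]
    linarith
  have hdψ' : (0 : ℤ) < (d ψ : ℤ) := by exact_mod_cast hdψ
  have ha' : (1 : ℤ) ≤ (a : ℤ) := by exact_mod_cast hapos
  have hstar : u ^ 2 * D ≤ (d ψ : ℤ) ^ 2 * (1 + 2 * a * u) := by
    have h1 : (d ψ : ℤ) ^ 2 * K ≤ (d ψ : ℤ) ^ 2 * (1 + (a : ℤ) ^ 2) := by
      apply mul_le_mul_of_nonneg_left _ (by positivity)
      linarith
    rw [hKD] at h1
    linarith
  have hu01 : u = 0 ∨ u = 1 := by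
    by_contra hcon
    push Not at hcon
    obtain ⟨hu0, hu1⟩ := hcon
    have hu2 : 1 ≤ u ^ 2 - u := by
      rcases lt_or_gt_of_ne hu0 with h | h
      · nlinarith
      · have : 2 ≤ u := by omega
        nlinarith
    have h1 : u ^ 2 * (2 * (a : ℤ) * (d ψ : ℤ) ^ 2) < u ^ 2 * D := by
      apply mul_lt_mul_of_pos_left hD
      positivity
    have h2 : (d ψ : ℤ) ^ 2 * (2 * a * (u ^ 2 - u)) < (d ψ : ℤ) ^ 2 * 1 := by nlinarith
    have h3 : 2 * (a : ℤ) * (u ^ 2 - u) < 1 := lt_of_mul_lt_mul_left h2 (by positivity)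
    nlinarith
  have hF6 : ∀ ξ ∈ S₀, (d ψ : ℂ) * τ₁ ξ 1 = (d ξ : ℂ) * τ₁ ψ 1 := by
    intro ξ hξ
    have h1 := hτ1 _ (hsub (hγ ξ hξ))
    rw [hτγ ξ hξ] at h1
    have h2 : (d ψ : ℤ) • τ₁ ξ 1 + (-(d ξ : ℤ)) • τ₁ ψ 1 = 0 := h1
    rw [zsmul_eq_mul, zsmul_eq_mul] at h2
    push_cast at h2
    linear_combination h2
  have hF7 : τ₁ ψ 1 ≠ 0 := by
    have h1 := Cfsg.Agent.Helper25.irr_one_ne_zero
      (⟨ε • τ₁ ψ, hτ₁irr ψ (Finset.mem_coe.mpr hψ)⟩ : IrrCharacter G)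
    have h2 : ε * τ₁ ψ 1 ≠ 0 := h1
    exact right_ne_zero_of_mul h2
  rcases hu01 with hu | hu
  swap
  · -- u = 1 is impossible
    exfalso
    rw [hu] at hKD
    have h1 : (d ψ : ℤ) ^ 2 * (1 + (a : ℤ) ^ 2 - K) < (d ψ : ℤ) ^ 2 * 1 := by
      have : (d ψ : ℤ) ^ 2 * (1 + (a : ℤ) ^ 2 - K) = (d ψ : ℤ) ^ 2 * (1 + (a : ℤ) ^ 2) -
          (d ψ : ℤ) ^ 2 * K := by ring
      rw [this, hKD]
      nlinarith
    have h2 : 1 + (a : ℤ) ^ 2 - K < 1 := lt_of_mul_lt_mul_left h1 (by positivity)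
    have h3 : 1 + (a : ℤ) ^ 2 - K = 0 := by omega
    rw [h3] at hΔnorm'
    have hΔ0 : Δ = 0 := by
      rw [← Cfsg.Agent.Helper2.classInner_self_eq_zero_iff]
      rw [hΔnorm']
      simp
    have hτβ : τ β = ∑ i ∈ S₀, (m i) • τ₁ i := by
      have h4 : τ β - ∑ i ∈ S₀, (m i) • τ₁ i = 0 := hΔ0
      exact sub_eq_zero.mp h4
    have h5 : τ β 1 = 0 := hτ1 β hβ
    rw [hτβ, Finset.sum_apply] at h5
    have h6 : ∑ ξ ∈ S₀, ((d ψ : ℂ) * (m ξ : ℂ)) * ((d ψ : ℂ) * τ₁ ξ 1) = 0 := by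
      have h7 : ∑ ξ ∈ S₀, ((d ψ : ℂ) * (m ξ : ℂ)) * ((d ψ : ℂ) * τ₁ ξ 1) =
          (d ψ : ℂ) ^ 2 * ∑ ξ ∈ S₀, ((m ξ) • τ₁ ξ) 1 := by
        rw [Finset.mul_sum]
        apply Finset.sum_congr rfl
        intro ξ _
        rw [Pi.smul_apply, zsmul_eq_mul]
        ring
      rw [h7, h5, mul_zero]
    have h8 : ∀ ξ ∈ S₀, ((d ψ : ℂ) * (m ξ : ℂ)) * ((d ψ : ℂ) * τ₁ ξ 1) =
        τ₁ ψ 1 * ((d ξ : ℂ) ^ 2 - (if ξ = ψ then (a : ℂ) * (d ψ : ℂ) ^ 2 else 0)) := by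
      intro ξ hξ
      have h9 := hF5 ξ hξ
      rw [hu] at h9
      have h10 : ((d ψ : ℂ) * (m ξ : ℂ)) = (d ξ : ℂ) - (if ξ = ψ then (a : ℂ) * (d ψ : ℂ) else 0) := by
        have : (((d ψ : ℤ) * m ξ : ℤ) : ℂ) = (((d ξ : ℤ) * 1 -
            (if ξ = ψ then (a : ℤ) * d ψ else 0) : ℤ) : ℂ) := by rw [h9]
        push_cast at this
        rw [this]
        split_ifs <;> ring
      rw [h10, hF6 ξ hξ]
      by_cases hξψ : ξ = ψ
      · rw [if_pos hξψ, if_pos hξψ, hξψ]; ring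
      · rw [if_neg hξψ, if_neg hξψ]; ring
    rw [Finset.sum_congr rfl h8, ← Finset.mul_sum, Finset.sum_sub_distrib,
      Finset.sum_ite_eq' S₀ ψ, if_pos hψ] at h6
    rcases mul_eq_zero.mp h6 with h11 | h11
    · exact hF7 h11
    · have h12 : ((D - (a : ℤ) * (d ψ : ℤ) ^ 2 : ℤ) : ℂ) = 0 := by
        rw [hDdef]
        push_cast
        exact h11
      have h13 : D - (a : ℤ) * (d ψ : ℤ) ^ 2 = 0 := by exact_mod_cast h12
      nlinarith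
  -- u = 0
  have hm0 : ∀ ξ ∈ S₀, m ξ = if ξ = ψ then -(a : ℤ) else 0 := by
    intro ξ hξ
    have h1 := hF5 ξ hξ
    rw [hu, mul_zero, zero_sub] at h1
    by_cases hξψ : ξ = ψ
    · rw [if_pos hξψ] at h1 ⊢
      have h2 : (d ψ : ℤ) * m ξ = (d ψ : ℤ) * (-(a : ℤ)) := by rw [h1]; ring
      exact mul_left_cancel₀ hdψ'.ne' h2
    · rw [if_neg hξψ] at h1 ⊢
      have h2 : (d ψ : ℤ) * m ξ = (d ψ : ℤ) * 0 := by rw [h1]; ring
      exact mul_left_cancel₀ hdψ'.ne' h2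
  have hK : K = (a : ℤ) ^ 2 := by
    rw [hKdef, Finset.sum_eq_single ψ]
    · rw [hm0 ψ hψ, if_pos rfl]; ring
    · intro ξ hξ hne
      rw [hm0 ξ hξ, if_neg hne]; ring
    · intro h; exact absurd hψ h
  have hΔ1 : classInner Δ Δ = 1 := by
    rw [hΔnorm', hK]
    simp
  have hτβ : τ β = Δ + (-(a : ℤ)) • τ₁ ψ := by
    have h1 : ∑ i ∈ S₀, (m i) • τ₁ i = (-(a : ℤ)) • τ₁ ψ := by
      rw [Finset.sum_eq_single ψ]
      · rw [hm0 ψ hψ, if_pos rfl]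
      · intro ξ hξ hne
        rw [hm0 ξ hξ, if_neg hne, zero_smul]
      · intro h; exact absurd hψ h
    rw [← h1, hΔdef]
    abel
  -- the extension
  have hΔs : ∀ s ∈ zspan (↑S₀ : Set (N → ℂ)), classInner Δ (τ₁ s) = 0 := by
    intro s hs
    refine Submodule.span_induction (p := fun s _ => classInner Δ (τ₁ s) = 0) ?_ ?_ ?_ ?_ hs
    · intro ξ hξ
      exact hΔorth ξ (Finset.mem_coe.mp hξ)
    · rw [isLinIso_map_zero hτ₁]; exact Cfsg.Agent.Helper2.classInner_zero_right _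
    · intro x y hx hy h1 h2
      rw [hτ₁.1 x hx y hy, Cfsg.Agent.Helper2.classInner_add_right, h1, h2, add_zero]
    · intro c x hx h1
      rw [hτ₁.2.1 x hx c, zsmul_fun_eq, Cfsg.Agent.Helper2.classInner_smul_right, h1, mul_zero]
  have hsΔ : ∀ s ∈ zspan (↑S₀ : Set (N → ℂ)), classInner (τ₁ s) Δ = 0 := by
    intro s hs
    rw [Cfsg.Agent.Helper2.classInner_conj_symm, hΔs s hs, map_zero]
  have hSχ : ∀ s ∈ zspan (↑S₀ : Set (N → ℂ)), classInner s χ = 0 := by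
    intro s hs
    have h1 : ∀ ξ ∈ (↑S₀ : Set (N → ℂ)), ∀ η ∈ ({χ} : Set (N → ℂ)), classInner ξ η = 0 := by
      intro ξ hξ η hη
      rw [Set.mem_singleton_iff.mp hη]
      exact horth ξ (hSmem ξ (Finset.mem_coe.mp hξ)) χ hχmem (hneχ ξ (Finset.mem_coe.mp hξ))
    exact classInner_zspan_orth h1 s hs χ (Submodule.subset_span (Set.mem_singleton χ))
  have hχS' : ∀ s ∈ zspan (↑S₀ : Set (N → ℂ)), classInner χ s = 0 := by
    intro s hs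
    rw [Cfsg.Agent.Helper2.classInner_conj_symm, hSχ s hs, map_zero]
  set τ₂ : (N → ℂ) → (G → ℂ) := fun f => τ₁ (cohProj S₀ f) + classInner f χ • Δ with hτ₂def
  have hτ₂ : ∀ k : ℤ, ∀ s ∈ zspan (↑S₀ : Set (N → ℂ)), τ₂ (k • χ + s) = τ₁ s + k • Δ := by
    intro k s hs
    show τ₁ (cohProj S₀ (k • χ + s)) + classInner (k • χ + s) χ • Δ = τ₁ s + k • Δ
    have h1 : cohProj S₀ χ = 0 := by
      apply cohProj_of_orth
      intro ξ hξ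
      exact horth χ hχmem ξ (hSmem ξ hξ) (fun h => hneχ ξ hξ h.symm)
    have h2 : cohProj S₀ s = s := by
      apply cohProj_of_mem_zspan _ _ hs
      · intro ξ hξ ξ' hξ' hne
        exact horth ξ (hSmem ξ hξ) ξ' (hSmem ξ' hξ') hne
      · intro ξ hξ
        rw [hself ξ (hSmem ξ hξ)]
        exact one_ne_zero
    rw [cohProj_add, cohProj_zsmul, h1, h2, smul_zero, zero_add,
      Cfsg.Agent.Helper2.classInner_add_left, zsmul_fun_eq, Cfsg.Agent.Helper2.classInner_smul_left,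
      hself χ hχmem, hSχ s hs, mul_one, add_zero, zsmul_fun_eq]
  have hdecomp : ∀ f ∈ zspan (↑(insert χ S₀) : Set (N → ℂ)), ∃ k : ℤ,
      ∃ s ∈ zspan (↑S₀ : Set (N → ℂ)), f = k • χ + s := by
    intro f hf
    have hf' : f ∈ Submodule.span ℤ (↑(insert χ S₀) : Set (N → ℂ)) := hf
    rw [Finset.coe_insert, Submodule.mem_span_insert] at hf'
    obtain ⟨k, s, hs, rfl⟩ := hf'
    exact ⟨k, s, hs, rfl⟩
  refine ⟨⟨α₀, hsub hα₀, hα₀ne⟩, τ₂, ⟨?_, ?_, ?_, ?_⟩, ?_⟩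
  · intro f hf g hg
    obtain ⟨k, s, hs, rfl⟩ := hdecomp f hf
    obtain ⟨k', s', hs', rfl⟩ := hdecomp g hg
    have h1 : k • χ + s + (k' • χ + s') = (k + k') • χ + (s + s') := by
      rw [add_smul]; abel
    rw [h1, hτ₂ _ _ (Submodule.add_mem _ hs hs'), hτ₂ k s hs, hτ₂ k' s' hs', hτ₁.1 s hs s' hs',
      add_smul]
    abel
  · intro f hf n
    obtain ⟨k, s, hs, rfl⟩ := hdecomp f hf
    have h1 : n • (k • χ + s) = (n * k) • χ + n • s := by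
      rw [smul_add, mul_smul]
    rw [h1, hτ₂ _ _ (Submodule.smul_mem _ _ hs), hτ₂ k s hs, hτ₁.2.1 s hs n, smul_add, mul_smul]
  · intro f hf g hg
    obtain ⟨k, s, hs, rfl⟩ := hdecomp f hf
    obtain ⟨k', s', hs', rfl⟩ := hdecomp g hg
    rw [hτ₂ k s hs, hτ₂ k' s' hs']
    simp only [zsmul_fun_eq, Cfsg.Agent.Helper2.classInner_add_left,
      Cfsg.Agent.Helper2.classInner_add_right, Cfsg.Agent.Helper2.classInner_smul_left,
      Cfsg.Agent.Helper2.classInner_smul_right, map_intCast]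
    rw [hsΔ s hs, hΔs s' hs', hΔ1, hτ₁.2.2.1 s hs s' hs', hself χ hχmem, hSχ s hs, hχS' s' hs']
    ring
  · intro f hf
    obtain ⟨k, s, hs, rfl⟩ := hdecomp f hf
    rw [hτ₂ k s hs]
    exact Cfsg.Agent.Helper7.isGeneralizedCharacter_add (hτ₁.2.2.2 s hs)
      (Cfsg.Agent.Helper7.isGeneralizedCharacter_zsmul _ hΔgen)
  · intro θ hθ
    obtain ⟨k, s, hs, hks⟩ := hdecomp θ hθ.1
    have hθ1 : θ 1 = 0 := zspanOn_compl_one_apply hθ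
    have hs'mem : (s + (k * a) • ψ) ∈ zspanOn (↑S₀ : Set (N → ℂ)) {1}ᶜ := by
      apply mem_zspanOn_compl_one
      · exact Submodule.add_mem _ hs (Submodule.smul_mem _ _ (hmem0 ψ hψ))
      · have h1 : k • χ 1 + s 1 = 0 := by
          have : (k • χ + s) 1 = 0 := by rw [← hks]; exact hθ1
          exact this
        show s 1 + (k * a) • ψ 1 = 0
        rw [hd χ hχmem, ha, zsmul_eq_mul] at h1
        rw [hd ψ (hSmem ψ hψ), zsmul_eq_mul]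
        push_cast at h1 ⊢
        linear_combination h1
    have hident : θ = k • β + (s + (k * a) • ψ) := by
      rw [hks, hβdef]
      funext g
      simp only [Pi.add_apply, Pi.smul_apply]
      simp only [zsmul_eq_mul]
      push_cast
      ring
    have h1 : τ θ = k • τ β + τ₁ (s + (k * a) • ψ) := by
      rw [hident, hτ.1 _ (zspanOn_zsmul_mem k hβ) _ (hsub hs'mem), hτ.2.1 β hβ k,
        ← hagree _ hs'mem]
    rw [h1, hτ₁.1 s hs _ (Submodule.smul_mem _ _ (hmem0 ψ hψ)), hτ₁.2.1 ψ (hmem0 ψ hψ), hτβ, hks,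
      hτ₂ k s hs]
    funext g
    simp only [Pi.add_apply, Pi.smul_apply]
    simp only [zsmul_eq_mul]
    push_cast
    ring

end Cfsg.Agent.S1530
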