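import Cfsg.Statements.S1531
import Mathlib
import Cfsg.Agent.Helper11.Coh
import Cfsg.Agent.S1529

set_option autoImplicit false
open Cfsg

namespace Cfsg.Agent.S1531

open Cfsg.Agent.Helper11

/-- Let N be a subgroup of the finite group G, S a set of irreducible characters of N, and α a linear isometry on the integer combinations of S vanishing at 1 with values virtual characters of G vanishing at 1. Let X, Y ⊆ S be disjoint, each with at least two members, and σ, τ linear isometries on ℤ[X], ℤ[Y] into virtual characters agreeing with α on the members vanishing at 1. Then ⟨σ χ, τ η⟩ = 0 for χ ∈ X, η ∈ Y; and if for some χ₀ ∈ X, η₀ ∈ Y with degrees c = χ₀ 1, e = η₀ 1 one has α (c • η₀ − e • χ₀) = c • τ η₀ − e • σ χ₀, then (X ∪ Y, N minus 1, α) is coherent. -/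
theorem result {G : Type*} [Group G] [Fintype G] (N : Subgroup G) [Fintype N] (S X Y : Set (N → ℂ)) (hirr : ∀ ξ ∈ S, Cfsg.IsIrrCharacter N ξ) (hXS : X ⊆ S) (hYS : Y ⊆ S) (hXY : Disjoint X Y) (hX2 : ∃ a ∈ X, ∃ b ∈ X, a ≠ b) (hY2 : ∃ a ∈ Y, ∃ b ∈ Y, a ≠ b) (α : (N → ℂ) → (G → ℂ)) (hα : Cfsg.IsLinearIsometryOn (Cfsg.zspanOn S {1}ᶜ) α) (hα1 : ∀ θ ∈ Cfsg.zspanOn S {1}ᶜ, α θ 1 = 0) (σ τ : (N → ℂ) → (G → ℂ)) (hσ : Cfsg.IsLinearIsometryOn (Cfsg.zspan X) σ) (hσα : ∀ θ ∈ Cfsg.zspanOn X {1}ᶜ, σ θ = α θ) (hτ : Cfsg.IsLinearIsometryOn (Cfsg.zspan Y) τ) (hτα : ∀ θ ∈ Cfsg.zspanOn Y {1}ᶜ, τ θ = α θ) : (∀ χ ∈ X, ∀ η ∈ Y, Cfsg.classInner (σ χ) (τ η) = 0) ∧ ((∃ χ₀ ∈ X, ∃ η₀ ∈ Y, α (χ₀ 1 • η₀ - η₀ 1 • χ₀) = χ₀ 1 • τ η₀ - η₀ 1 • σ χ₀) → Cfsg.IsCoherent (X ∪ Y) {1}ᶜ α) := by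
  classical
  have hirrX : ∀ ξ ∈ X, Cfsg.IsIrrCharacter N ξ := fun ξ hξ => hirr ξ (hXS hξ)
  have hirrY : ∀ ξ ∈ Y, Cfsg.IsIrrCharacter N ξ := fun ξ hξ => hirr ξ (hYS hξ)
  have hself : ∀ ξ ∈ S, classInner ξ ξ = 1 := by
    intro ξ hξ
    have := Cfsg.Agent.Helper25.irr_classInner (⟨ξ, hirr ξ hξ⟩ : IrrCharacter N) ⟨ξ, hirr ξ hξ⟩
    rwa [if_pos rfl] at this
  have horth : ∀ ξ ∈ S, ∀ ξ' ∈ S, ξ ≠ ξ' → classInner ξ ξ' = 0 := by
    intro ξ hξ ξ' hξ' hne
    have := Cfsg.Agent.Helper25.irr_classInner (⟨ξ, hirr ξ hξ⟩ : IrrCharacter N) ⟨ξ', hirr ξ' hξ'⟩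
    rw [if_neg (fun h => hne (congrArg Subtype.val h))] at this
    exact this
  have hdisj : ∀ χ ∈ X, ∀ η ∈ Y, χ ≠ η := by
    intro χ hχ η hη h
    exact (Set.disjoint_left.mp hXY hχ) (h ▸ hη)
  have hXYorth : ∀ χ ∈ X, ∀ η ∈ Y, classInner χ η = 0 :=
    fun χ hχ η hη => horth χ (hXS hχ) η (hYS hη) (hdisj χ hχ η hη)
  have hYXorth : ∀ η ∈ Y, ∀ χ ∈ X, classInner η χ = 0 :=
    fun η hη χ hχ => horth η (hYS hη) χ (hXS hχ) (fun h => hdisj χ hχ η hη h.symm)
  have hdeg1 : ∀ ξ ∈ S, ξ 1 = (charDegree ξ : ℂ) := fun ξ hξ =>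
    Cfsg.Agent.Helper25.irr_one_eq_degree (⟨ξ, hirr ξ hξ⟩ : IrrCharacter N)
  have hdegpos : ∀ ξ ∈ S, 0 < charDegree ξ := fun ξ hξ =>
    Cfsg.Agent.Helper25.irr_degree_pos (⟨ξ, hirr ξ hξ⟩ : IrrCharacter N)
  have hmemX : ∀ χ ∈ X, χ ∈ zspan X := fun χ hχ => Submodule.subset_span hχ
  have hmemY : ∀ χ ∈ Y, χ ∈ zspan Y := fun χ hχ => Submodule.subset_span hχ
  -- σ and τ vanish at 1 on degree-zero elements
  have h0σ : ∀ θ ∈ zspan X, θ 1 = 0 → σ θ 1 = 0 := by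
    intro θ hθ h1
    have hm := mem_zspanOn_compl_one hθ h1
    rw [hσα θ hm]
    exact hα1 θ (zspanOn_mono hXS _ hm)
  have h0τ : ∀ θ ∈ zspan Y, θ 1 = 0 → τ θ 1 = 0 := by
    intro θ hθ h1
    have hm := mem_zspanOn_compl_one hθ h1
    rw [hτα θ hm]
    exact hα1 θ (zspanOn_mono hYS _ hm)
  obtain ⟨εX, hεX, hσirr, hσinj⟩ := Cfsg.Agent.S1529.result N X hirrX hX2 σ hσ h0σ
  obtain ⟨εY, hεY, hτirr, hτinj⟩ := Cfsg.Agent.S1529.result N Y hirrY hY2 τ hτ h0τ
  have hεX2 : εX * εX = 1 := by rcases hεX with h | h <;> rw [h] <;> ring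
  have hεY2 : εY * εY = 1 := by rcases hεY with h | h <;> rw [h] <;> ring
  have hεYc : (starRingEnd ℂ) εY = εY := by rcases hεY with h | h <;> rw [h] <;> simp
  have hεne : εX * εY ≠ 0 := by
    intro h
    have h1 : (εX * εY) * (εX * εY) = 1 := by
      calc (εX * εY) * (εX * εY) = (εX * εX) * (εY * εY) := by ring
        _ = 1 := by rw [hεX2, hεY2, one_mul]
    rw [h, zero_mul] at h1
    exact zero_ne_one h1
  have hinner : ∀ χ ∈ X, ∀ η ∈ Y, classInner (σ χ) (τ η) =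
      if εX • σ χ = εY • τ η then εX * εY else 0 := by
    intro χ hχ η hη
    have h1 : σ χ = εX • (εX • σ χ) := by rw [smul_smul, hεX2, one_smul]
    have h2 : τ η = εY • (εY • τ η) := by rw [smul_smul, hεY2, one_smul]
    have h3 := Cfsg.Agent.Helper25.irr_classInner (⟨εX • σ χ, hσirr χ hχ⟩ : IrrCharacter G)
      ⟨εY • τ η, hτirr η hη⟩
    simp only [Subtype.mk.injEq] at h3
    rw [h1, h2, Cfsg.Agent.Helper2.classInner_smul_left, Cfsg.Agent.Helper2.classInner_smul_right,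
      hεYc, h3, ← h1, ← h2]
    split_ifs <;> ring
  -- a second element
  have hX2' : ∀ χ ∈ X, ∃ χ' ∈ X, χ' ≠ χ := by
    intro χ _
    obtain ⟨a, ha, b, hb, hab⟩ := hX2
    by_cases h : a = χ
    · exact ⟨b, hb, fun h' => hab (h.trans h'.symm)⟩
    · exact ⟨a, ha, h⟩
  have hY2' : ∀ χ ∈ Y, ∃ χ' ∈ Y, χ' ≠ χ := by
    intro χ _
    obtain ⟨a, ha, b, hb, hab⟩ := hY2
    by_cases h : a = χ
    · exact ⟨b, hb, fun h' => hab (h.trans h'.symm)⟩
    · exact ⟨a, ha, h⟩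
  -- degree-zero differences
  have hdiffX : ∀ a ∈ X, ∀ b ∈ X, ((charDegree a : ℤ) • b + (-(charDegree b : ℤ)) • a) ∈
      zspanOn X {1}ᶜ := by
    intro a ha b hb
    apply mem_zspanOn_compl_one
    · exact Submodule.add_mem _ (Submodule.smul_mem _ _ (hmemX b hb))
        (Submodule.smul_mem _ _ (hmemX a ha))
    · show (charDegree a : ℤ) • b 1 + (-(charDegree b : ℤ)) • a 1 = 0
      rw [hdeg1 a (hXS ha), hdeg1 b (hXS hb), zsmul_eq_mul, zsmul_eq_mul]
      push_cast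
      ring
  have hdiffY : ∀ a ∈ Y, ∀ b ∈ Y, ((charDegree a : ℤ) • b + (-(charDegree b : ℤ)) • a) ∈
      zspanOn Y {1}ᶜ := by
    intro a ha b hb
    apply mem_zspanOn_compl_one
    · exact Submodule.add_mem _ (Submodule.smul_mem _ _ (hmemY b hb))
        (Submodule.smul_mem _ _ (hmemY a ha))
    · show (charDegree a : ℤ) • b 1 + (-(charDegree b : ℤ)) • a 1 = 0
      rw [hdeg1 a (hYS ha), hdeg1 b (hYS hb), zsmul_eq_mul, zsmul_eq_mul]
      push_cast
      ring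
  have hσdiff : ∀ a ∈ X, ∀ b ∈ X, σ ((charDegree a : ℤ) • b + (-(charDegree b : ℤ)) • a) =
      (charDegree a : ℤ) • σ b + (-(charDegree b : ℤ)) • σ a := by
    intro a ha b hb
    rw [hσ.1 _ (Submodule.smul_mem _ _ (hmemX b hb)) _ (Submodule.smul_mem _ _ (hmemX a ha)),
      hσ.2.1 b (hmemX b hb), hσ.2.1 a (hmemX a ha)]
  have hτdiff : ∀ a ∈ Y, ∀ b ∈ Y, τ ((charDegree a : ℤ) • b + (-(charDegree b : ℤ)) • a) =
      (charDegree a : ℤ) • τ b + (-(charDegree b : ℤ)) • τ a := by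
    intro a ha b hb
    rw [hτ.1 _ (Submodule.smul_mem _ _ (hmemY b hb)) _ (Submodule.smul_mem _ _ (hmemY a ha)),
      hτ.2.1 b (hmemY b hb), hτ.2.1 a (hmemY a ha)]
  -- part 1
  have part1 : ∀ χ ∈ X, ∀ η ∈ Y, Cfsg.classInner (σ χ) (τ η) = 0 := by
    intro χ hχ η hη
    by_contra hne
    rw [hinner χ hχ η hη] at hne
    have hμ : εX • σ χ = εY • τ η := by
      by_contra h
      exact hne (if_neg h)
    obtain ⟨χ', hχ', hχne⟩ := hX2' χ hχ
    obtain ⟨η', hη', hηne⟩ := hY2' η hη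
    have hθX := hdiffX χ hχ χ' hχ'
    have hθY := hdiffY η hη η' hη'
    have h := hα.2.2.1 _ (zspanOn_mono hXS _ hθX) _ (zspanOn_mono hYS _ hθY)
    rw [classInner_zspan_orth hXYorth _ hθX.1 _ hθY.1, ← hσα _ hθX, ← hτα _ hθY,
      hσdiff χ hχ χ' hχ', hτdiff η hη η' hη'] at h
    simp only [zsmul_fun_eq, Cfsg.Agent.Helper2.classInner_add_left,
      Cfsg.Agent.Helper2.classInner_add_right, Cfsg.Agent.Helper2.classInner_smul_left,
      Cfsg.Agent.Helper2.classInner_smul_right, map_intCast] at h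
    have m10 : classInner (σ χ') (τ η) = 0 := by
      rw [hinner χ' hχ' η hη, if_neg]
      intro h'
      rw [← hμ] at h'
      have h2 : σ χ' = σ χ := by
        have h3 := congrArg (fun f => εX • f) h'
        simp only [smul_smul, hεX2, one_smul] at h3
        exact h3
      exact hχne (hσinj χ' hχ' χ hχ h2)
    have m01 : classInner (σ χ) (τ η') = 0 := by
      rw [hinner χ hχ η' hη', if_neg]
      intro h'
      rw [hμ] at h'
      have h2 : τ η = τ η' := by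
        have h3 := congrArg (fun f => εY • f) h'
        simp only [smul_smul, hεY2, one_smul] at h3
        exact h3
      exact hηne (hτinj η' hη' η hη h2.symm)
    have m00 : classInner (σ χ) (τ η) = εX * εY := by
      rw [hinner χ hχ η hη, if_pos hμ]
    rw [m10, m01, m00, hinner χ' hχ' η' hη'] at h
    push_cast at h
    have p1 := hdegpos χ (hXS hχ)
    have p2 := hdegpos η (hYS hη)
    have p3 := hdegpos χ' (hXS hχ')
    have p4 := hdegpos η' (hYS hη')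
    by_cases hc : εX • σ χ' = εY • τ η'
    · rw [if_pos hc] at h
      have h5 : (εX * εY) * (((charDegree χ * charDegree η + charDegree χ' * charDegree η' : ℕ) : ℂ)) = 0 := by
        push_cast
        linear_combination h
      rcases mul_eq_zero.mp h5 with h6 | h6
      · exact hεne h6
      · have h7 : charDegree χ * charDegree η + charDegree χ' * charDegree η' = 0 := by
          exact_mod_cast h6
        have : 0 < charDegree χ * charDegree η := Nat.mul_pos p1 p2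
        omega
    · rw [if_neg hc] at h
      have h5 : (εX * εY) * (((charDegree χ' * charDegree η' : ℕ) : ℂ)) = 0 := by
        push_cast
        linear_combination h
      rcases mul_eq_zero.mp h5 with h6 | h6
      · exact hεne h6
      · have h7 : charDegree χ' * charDegree η' = 0 := by exact_mod_cast h6
        have : 0 < charDegree χ' * charDegree η' := Nat.mul_pos p3 p4
        omega
  refine ⟨part1, ?_⟩
  rintro ⟨χ₀, hχ₀, η₀, hη₀, hcoh⟩
  -- finite versions of X and Y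
  have hfin : Set.Finite {ξ : N → ℂ | IsIrrCharacter N ξ} :=
    Set.finite_coe_iff.mp (Cfsg.Agent.Helper25.instFiniteIrrCharacter (G := N))
  have hXfin : X.Finite := hfin.subset (fun ξ hξ => hirrX ξ hξ)
  have hYfin : Y.Finite := hfin.subset (fun ξ hξ => hirrY ξ hξ)
  set TX := hXfin.toFinset with hTX
  set TY := hYfin.toFinset with hTY
  have hTXc : (↑TX : Set (N → ℂ)) = X := hXfin.coe_toFinset
  have hTYc : (↑TY : Set (N → ℂ)) = Y := hYfin.coe_toFinset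
  have hTXmem : ∀ ξ, ξ ∈ TX ↔ ξ ∈ X := fun ξ => hXfin.mem_toFinset
  have hTYmem : ∀ ξ, ξ ∈ TY ↔ ξ ∈ Y := fun ξ => hYfin.mem_toFinset
  have projXx : ∀ x ∈ zspan X, cohProj TX x = x := by
    intro x hx
    apply cohProj_of_mem_zspan
    · intro ξ hξ ξ' hξ' hne
      exact horth ξ (hXS ((hTXmem ξ).mp hξ)) ξ' (hXS ((hTXmem ξ').mp hξ')) hne
    · intro ξ hξ
      rw [hself ξ (hXS ((hTXmem ξ).mp hξ))]
      exact one_ne_zero
    · rw [hTXc]; exact hx
  have projYy : ∀ y ∈ zspan Y, cohProj TY y = y := by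
    intro y hy
    apply cohProj_of_mem_zspan
    · intro ξ hξ ξ' hξ' hne
      exact horth ξ (hYS ((hTYmem ξ).mp hξ)) ξ' (hYS ((hTYmem ξ').mp hξ')) hne
    · intro ξ hξ
      rw [hself ξ (hYS ((hTYmem ξ).mp hξ))]
      exact one_ne_zero
    · rw [hTYc]; exact hy
  have projXy : ∀ y ∈ zspan Y, cohProj TX y = 0 := by
    intro y hy
    apply cohProj_of_orth
    intro ξ hξ
    exact classInner_zspan_orth hYXorth y hy ξ (hmemX ξ ((hTXmem ξ).mp hξ))
  have projYx : ∀ x ∈ zspan X, cohProj TY x = 0 := by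
    intro x hx
    apply cohProj_of_orth
    intro ξ hξ
    exact classInner_zspan_orth hXYorth x hx ξ (hmemY ξ ((hTYmem ξ).mp hξ))
  have hdecomp : ∀ f ∈ zspan (X ∪ Y), ∃ x ∈ zspan X, ∃ y ∈ zspan Y, f = x + y := by
    intro f hf
    have hf' : f ∈ Submodule.span ℤ (X ∪ Y) := hf
    rw [Submodule.span_union, Submodule.mem_sup] at hf'
    obtain ⟨x, hx, y, hy, hxy⟩ := hf'
    exact ⟨x, hx, y, hy, hxy.symm⟩
  set ρ : (N → ℂ) → (G → ℂ) := fun f => σ (cohProj TX f) + τ (cohProj TY f) with hρdef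
  have hρ : ∀ x ∈ zspan X, ∀ y ∈ zspan Y, ρ (x + y) = σ x + τ y := by
    intro x hx y hy
    show σ (cohProj TX (x + y)) + τ (cohProj TY (x + y)) = σ x + τ y
    rw [cohProj_add, cohProj_add, projXx x hx, projXy y hy, projYx x hx, projYy y hy, add_zero,
      zero_add]
  have hcr1 := classInner_map_zspan_orth hσ hτ part1
  have hcr2 : ∀ x ∈ zspan X, ∀ y ∈ zspan Y, classInner (τ y) (σ x) = 0 := by
    intro x hx y hy
    rw [Cfsg.Agent.Helper2.classInner_conj_symm, hcr1 x hx y hy, map_zero]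
  have hcr3 := classInner_zspan_orth hXYorth
  have hcr4 := classInner_zspan_orth hYXorth
  -- first conjunct
  refine ⟨?_, ρ, ⟨?_, ?_, ?_, ?_⟩, ?_⟩
  · obtain ⟨a, ha, b, hb, hab⟩ := hX2
    refine ⟨_, zspanOn_mono Set.subset_union_left _ (hdiffX a ha b hb), ?_⟩
    intro h0
    have h1 : classInner ((charDegree a : ℤ) • b + (-(charDegree b : ℤ)) • a) b = 0 := by
      rw [h0]; exact Cfsg.Agent.Helper2.classInner_zero_left _
    simp only [zsmul_fun_eq, Cfsg.Agent.Helper2.classInner_add_left,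
      Cfsg.Agent.Helper2.classInner_smul_left] at h1
    rw [hself b (hXS hb), horth a (hXS ha) b (hXS hb) hab, mul_zero, add_zero, mul_one] at h1
    have h2 : charDegree a = 0 := by exact_mod_cast h1
    have := hdegpos a (hXS ha)
    omega
  · intro f hf g hg
    obtain ⟨x, hx, y, hy, rfl⟩ := hdecomp f hf
    obtain ⟨x', hx', y', hy', rfl⟩ := hdecomp g hg
    rw [add_add_add_comm, hρ _ (Submodule.add_mem _ hx hx') _ (Submodule.add_mem _ hy hy'),
      hρ x hx y hy, hρ x' hx' y' hy', hσ.1 x hx x' hx', hτ.1 y hy y' hy']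
    abel
  · intro f hf n
    obtain ⟨x, hx, y, hy, rfl⟩ := hdecomp f hf
    rw [smul_add, hρ _ (Submodule.smul_mem _ _ hx) _ (Submodule.smul_mem _ _ hy), hρ x hx y hy,
      hσ.2.1 x hx n, hτ.2.1 y hy n, smul_add]
  · intro f hf g hg
    obtain ⟨x, hx, y, hy, rfl⟩ := hdecomp f hf
    obtain ⟨x', hx', y', hy', rfl⟩ := hdecomp g hg
    rw [hρ x hx y hy, hρ x' hx' y' hy']
    simp only [Cfsg.Agent.Helper2.classInner_add_left, Cfsg.Agent.Helper2.classInner_add_right]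
    rw [hcr1 x hx y' hy', hcr2 x' hx' y hy, hcr3 x hx y' hy', hcr4 y hy x' hx',
      hσ.2.2.1 x hx x' hx', hτ.2.2.1 y hy y' hy']
  · intro f hf
    obtain ⟨x, hx, y, hy, rfl⟩ := hdecomp f hf
    rw [hρ x hx y hy]
    exact Cfsg.Agent.Helper7.isGeneralizedCharacter_add (hσ.2.2.2 x hx) (hτ.2.2.2 y hy)
  · intro θ hθ
    obtain ⟨x, hx, y, hy, hxy⟩ := hdecomp θ hθ.1
    have hθ1 : θ 1 = 0 := zspanOn_compl_one_apply hθ
    obtain ⟨k, hk⟩ := zspan_apply_one_int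
      (fun ξ hξ => Cfsg.Agent.Helper2.isCharacter_of_isIrrCharacter (hirrX ξ hξ)) hx
    have hy1 : y 1 = -(k : ℂ) := by
      have h1 : x 1 + y 1 = 0 := by rw [← Pi.add_apply, ← hxy]; exact hθ1
      rw [hk] at h1
      linear_combination h1
    set c := charDegree χ₀ with hc
    set e := charDegree η₀ with he
    have hc1 : χ₀ 1 = (c : ℂ) := hdeg1 χ₀ (hXS hχ₀)
    have he1 : η₀ 1 = (e : ℂ) := hdeg1 η₀ (hYS hη₀)
    have hcpos : 0 < c := hdegpos χ₀ (hXS hχ₀)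
    have hepos : 0 < e := hdegpos η₀ (hYS hη₀)
    -- the three pieces
    have hAmem : (((c : ℤ) * e) • x + (-((e : ℤ) * k)) • χ₀) ∈ zspanOn X {1}ᶜ := by
      apply mem_zspanOn_compl_one
      · exact Submodule.add_mem _ (Submodule.smul_mem _ _ hx)
          (Submodule.smul_mem _ _ (hmemX χ₀ hχ₀))
      · show ((c : ℤ) * e) • x 1 + (-((e : ℤ) * k)) • χ₀ 1 = 0
        rw [hk, hc1, zsmul_eq_mul, zsmul_eq_mul]
        push_cast
        ring
    have hBmem : (((c : ℤ) * e) • y + ((c : ℤ) * k) • η₀) ∈ zspanOn Y {1}ᶜ := by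
      apply mem_zspanOn_compl_one
      · exact Submodule.add_mem _ (Submodule.smul_mem _ _ hy)
          (Submodule.smul_mem _ _ (hmemY η₀ hη₀))
      · show ((c : ℤ) * e) • y 1 + ((c : ℤ) * k) • η₀ 1 = 0
        rw [hy1, he1, zsmul_eq_mul, zsmul_eq_mul]
        push_cast
        ring
    have hWmem : ((c : ℤ) • η₀ + (-(e : ℤ)) • χ₀) ∈ zspanOn S {1}ᶜ := by
      apply mem_zspanOn_compl_one
      · exact Submodule.add_mem _ (Submodule.smul_mem _ _ (Submodule.subset_span (hYS hη₀)))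
          (Submodule.smul_mem _ _ (Submodule.subset_span (hXS hχ₀)))
      · show (c : ℤ) • η₀ 1 + (-(e : ℤ)) • χ₀ 1 = 0
        rw [hc1, he1, zsmul_eq_mul, zsmul_eq_mul]
        push_cast
        ring
    have hW : α ((c : ℤ) • η₀ + (-(e : ℤ)) • χ₀) = (c : ℤ) • τ η₀ + (-(e : ℤ)) • σ χ₀ := by
      have h1 : χ₀ 1 • η₀ - η₀ 1 • χ₀ = (c : ℤ) • η₀ + (-(e : ℤ)) • χ₀ := by
        funext g
        simp only [Pi.sub_apply, Pi.add_apply, Pi.smul_apply, smul_eq_mul, hc1, he1]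
        simp only [zsmul_eq_mul]
        push_cast
        ring
      have h2 : χ₀ 1 • τ η₀ - η₀ 1 • σ χ₀ = (c : ℤ) • τ η₀ + (-(e : ℤ)) • σ χ₀ := by
        funext g
        simp only [Pi.sub_apply, Pi.add_apply, Pi.smul_apply, smul_eq_mul, hc1, he1]
        simp only [zsmul_eq_mul]
        push_cast
        ring
      rw [← h1, hcoh, h2]
    have hAS := zspanOn_mono hXS _ hAmem
    have hBS := zspanOn_mono hYS _ hBmem
    have hθS := zspanOn_mono (Set.union_subset hXS hYS) _ hθ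
    have hident : ((c : ℤ) * e) • θ = (((c : ℤ) * e) • x + (-((e : ℤ) * k)) • χ₀) +
        (((c : ℤ) * e) • y + ((c : ℤ) * k) • η₀) + (-k) • ((c : ℤ) • η₀ + (-(e : ℤ)) • χ₀) := by
      rw [hxy]
      funext g
      simp only [Pi.add_apply, Pi.smul_apply]
      simp only [zsmul_eq_mul]
      push_cast
      ring
    have h1 := hα.2.1 θ hθS ((c : ℤ) * e)
    rw [hident, hα.1 _ (zspanOn_add_mem hAS hBS) _ (zspanOn_zsmul_mem (-k) hWmem),
      hα.1 _ hAS _ hBS, hα.2.1 _ hWmem (-k), hW, ← hσα _ hAmem, ← hτα _ hBmem,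
      hσ.1 _ (Submodule.smul_mem _ _ hx) _ (Submodule.smul_mem _ _ (hmemX χ₀ hχ₀)),
      hσ.2.1 x hx, hσ.2.1 χ₀ (hmemX χ₀ hχ₀),
      hτ.1 _ (Submodule.smul_mem _ _ hy) _ (Submodule.smul_mem _ _ (hmemY η₀ hη₀)),
      hτ.2.1 y hy, hτ.2.1 η₀ (hmemY η₀ hη₀)] at h1
    have hce : ((c : ℤ) * e) ≠ 0 := by positivity
    have h2 : ((c : ℤ) * e) • (σ x + τ y) = ((c : ℤ) * e) • α θ := by
      rw [← h1]
      funext g
      simp only [Pi.add_apply, Pi.smul_apply]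
      simp only [zsmul_eq_mul]
      push_cast
      ring
    rw [hxy, hρ x hx y hy, ← hxy]
    exact zsmul_fun_cancel hce h2

end Cfsg.Agent.S1531
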