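import Cfsg.Statements.S1536
import Mathlib
import Cfsg.Agent.Helper11.GlaubermanElt
import Cfsg.Agent.Helper11.ConjChar
import Cfsg.Agent.Helper2.CharExtra
import Cfsg.Agent.Helper25.CharMore

set_option autoImplicit false
open Cfsg

namespace Cfsg.Agent.S1536

open Cfsg.Agent.Helper11

/-- Let H be a normal subgroup of the finite group M whose order is coprime to its index. For x ∈ M: some non-principal irreducible character of H is unchanged under h ↦ θ(x h x⁻¹) if and only if some non-identity element of H commutes with x. -/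
theorem result {M : Type*} [Group M] [Finite M] (H : Subgroup M) [hN : H.Normal] (hHall : Nat.Coprime (Nat.card H) H.index) (x : M) : (∃ θ : H → ℂ, Cfsg.IsIrrCharacter H θ ∧ θ ≠ (fun _ => 1) ∧ (fun h : H => θ ⟨x * h * x⁻¹, hN.conj_mem h h.2 x⟩) = θ) ↔ ∃ h ∈ H, h ≠ 1 ∧ x * h = h * x := by
  classical
  have : Fintype H := Fintype.ofFinite H
  -- the conjugation map on `H`
  set τ : H → H := fun h => ⟨x * h * x⁻¹, hN.conj_mem h h.2 x⟩ with hτ
  have hτirr : ∀ χ : IrrCharacter H, IsIrrCharacter H (fun h => (χ : H → ℂ) (τ h)) :=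
    fun χ => isIrrCharacter_comp_mulEquiv (MulAut.conjNormal x : H ≃* H) χ.2
  set π : IrrCharacter H → IrrCharacter H := fun χ => ⟨fun h => (χ : H → ℂ) (τ h), hτirr χ⟩ with hπ
  have hτconj : ∀ g h : H, IsConj g h → IsConj (τ g) (τ h) := by
    intro g h hgh
    obtain ⟨c, hc⟩ := isConj_iff.mp hgh
    refine isConj_iff.mpr ⟨τ c, ?_⟩
    apply Subtype.ext
    have := congrArg Subtype.val hc
    simp only [Subgroup.coe_mul, Subgroup.coe_inv, hτ] at this ⊢
    rw [← this]
    group
  have hcount := Cfsg.Agent.Helper2.brauer_count (G := H) τ π (fun χ g => rfl) hτconj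
  have hτ1 : τ 1 = 1 := by
    apply Subtype.ext
    simp [hτ]
  constructor
  · rintro ⟨θ, hθ, hne, hfix⟩
    -- two fixed characters
    have hnt : Nontrivial {χ : IrrCharacter H // π χ = χ} := by
      refine ⟨⟨⟨⟨θ, hθ⟩, Subtype.ext hfix⟩, ⟨Cfsg.Agent.Helper25.trivChar H, Subtype.ext rfl⟩, ?_⟩⟩
      intro h
      apply hne
      have h2 := congrArg (fun t : {χ : IrrCharacter H // π χ = χ} => (t.1 : H → ℂ)) h
      exact h2
    have h1 : 1 < Nat.card {χ : IrrCharacter H // π χ = χ} := Finite.one_lt_card_iff_nontrivial.mpr hnt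
    rw [hcount] at h1
    have hnt2 := Finite.one_lt_card_iff_nontrivial.mp h1
    obtain ⟨C₁, C₂, hC⟩ := hnt2
    have hexC : ∃ C : ConjClasses H, IsConj (τ (Quotient.out C)) (Quotient.out C) ∧
        Quotient.out C ≠ 1 := by
      by_cases h1 : Quotient.out C₁.1 = 1
      · by_cases h2 : Quotient.out C₂.1 = 1
        · exfalso
          apply hC
          apply Subtype.ext
          rw [← Quotient.out_eq C₁.1, ← Quotient.out_eq C₂.1, h1, h2]
        · exact ⟨C₂.1, C₂.2, h2⟩
      · exact ⟨C₁.1, C₁.2, h1⟩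
    obtain ⟨C, hCfix, hCne⟩ := hexC
    set c : H := Quotient.out C with hc
    obtain ⟨u, hu⟩ := isConj_iff.mp hCfix
    have huM : (u : M) * (x * c * x⁻¹) * (u : M)⁻¹ = c := by
      have := congrArg Subtype.val hu
      simpa [hτ] using this
    have hcne : (c : M) ≠ 1 := fun h => hCne (Subtype.ext h)
    by_cases hxm : x ^ H.index = 1
    · -- coprime case: Glauberman
      have hord : orderOf x ∣ H.index := orderOf_dvd_of_pow_eq_one hxm
      have hcop : (Nat.card (Subgroup.zpowers x)).Coprime (Nat.card H) := by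
        rw [Nat.card_zpowers]
        exact (Nat.Coprime.coprime_dvd_right hord hHall).symm
      have hAK : Subgroup.zpowers x ≤ Subgroup.normalizer (H : Set M) := by
        rw [Subgroup.normalizer_eq_top]; exact le_top
      have hstab : Subgroup.zpowers x ≤ classStab H (c : M) := by
        rw [Subgroup.zpowers_le, mem_classStab]
        refine ⟨(u : M)⁻¹, H.inv_mem u.2, ?_⟩
        calc x * (c : M) * x⁻¹ = (u : M)⁻¹ * ((u : M) * (x * c * x⁻¹) * (u : M)⁻¹) * (u : M) := by
              group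
          _ = (u : M)⁻¹ * (c : M) * ((u : M)⁻¹)⁻¹ := by rw [huM, inv_inv]
      obtain ⟨n, hn, hfix'⟩ := glauberman_conj_elt (Subgroup.zpowers x) H hAK hcop
        (Or.inl inferInstance) (c : M) (fun a ha => (mem_classStab H (c : M) a).mp (hstab ha))
      have hx := hfix' x (Subgroup.mem_zpowers x)
      refine ⟨n * c * n⁻¹, H.mul_mem (H.mul_mem hn c.2) (H.inv_mem hn), ?_, ?_⟩
      · intro h
        apply hcne
        have : (c : M) = n⁻¹ * (n * c * n⁻¹) * n := by group
        rw [this, h]; group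
      · calc x * (n * c * n⁻¹) = (x * (n * c * n⁻¹) * x⁻¹) * x := by group
          _ = n * c * n⁻¹ * x := by rw [hx]
    · exact ⟨x ^ H.index, Subgroup.pow_index_mem H x, hxm, by rw [← pow_succ', ← pow_succ]⟩
  · rintro ⟨h₀, hh₀, hne, hcomm⟩
    set h₀' : H := ⟨h₀, hh₀⟩ with hh₀'
    have hτh₀ : τ h₀' = h₀' := by
      apply Subtype.ext
      show x * h₀ * x⁻¹ = h₀
      rw [hcomm]; group
    have hfix0 : IsConj (τ (Quotient.out (ConjClasses.mk h₀'))) (Quotient.out (ConjClasses.mk h₀')) := by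
      have h1 : IsConj (Quotient.out (ConjClasses.mk h₀')) h₀' :=
        ConjClasses.mk_eq_mk_iff_isConj.mp (Quotient.out_eq _)
      have h2 := hτconj _ _ h1
      rw [hτh₀] at h2
      exact h2.trans h1.symm
    have hout1 : Quotient.out (ConjClasses.mk (1 : H)) = 1 := by
      have h1 : IsConj (Quotient.out (ConjClasses.mk (1 : H))) 1 :=
        ConjClasses.mk_eq_mk_iff_isConj.mp (Quotient.out_eq _)
      exact isConj_one_left.mp h1
    have hfix1 : IsConj (τ (Quotient.out (ConjClasses.mk (1 : H)))) (Quotient.out (ConjClasses.mk (1 : H))) := by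
      rw [hout1, hτ1]
    have hnt : Nontrivial {C : ConjClasses H // IsConj (τ (Quotient.out C)) (Quotient.out C)} := by
      refine ⟨⟨⟨ConjClasses.mk h₀', hfix0⟩, ⟨ConjClasses.mk 1, hfix1⟩, ?_⟩⟩
      intro h
      have h2 := congrArg Subtype.val h
      have h3 : IsConj h₀' 1 := ConjClasses.mk_eq_mk_iff_isConj.mp h2
      have h4 : h₀' = 1 := isConj_one_left.mp h3
      exact hne (congrArg Subtype.val h4)
    have h1 : 1 < Nat.card {C : ConjClasses H // IsConj (τ (Quotient.out C)) (Quotient.out C)} :=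
      Finite.one_lt_card_iff_nontrivial.mpr hnt
    rw [← hcount] at h1
    obtain ⟨t₁, t₂, ht⟩ := Finite.one_lt_card_iff_nontrivial.mp h1
    have hex : ∃ χ : IrrCharacter H, π χ = χ ∧ (χ : H → ℂ) ≠ fun _ => 1 := by
      by_cases h1 : (t₁.1 : H → ℂ) = fun _ => 1
      · by_cases h2 : (t₂.1 : H → ℂ) = fun _ => 1
        · exfalso
          apply ht
          apply Subtype.ext
          apply Subtype.ext
          rw [h1, h2]
        · exact ⟨t₂.1, t₂.2, h2⟩
      · exact ⟨t₁.1, t₁.2, h1⟩
    obtain ⟨χ, hχfix, hχne⟩ := hex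
    exact ⟨χ, χ.2, hχne, congrArg Subtype.val hχfix⟩

end Cfsg.Agent.S1536
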