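import Cfsg.Statements.S1546
import Mathlib

set_option autoImplicit false
open Cfsg

namespace Cfsg.Agent.S1546

open Finset

theorem geom_modEq (p q d : ℕ) (h : p ≡ 1 [MOD d]) :
    ∑ i ∈ range q, p ^ i ≡ q [MOD d] := by
  have h1 : ∀ i ∈ range q, p ^ i ≡ 1 [MOD d] := by
    intro i _
    have := h.pow i
    simpa using this
  have h2 : ∑ i ∈ range q, p ^ i ≡ ∑ _i ∈ range q, 1 [MOD d] := by
    unfold Nat.ModEq
    rw [Finset.sum_nat_mod, Finset.sum_nat_mod (f := fun _ => 1)]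
    congr 1
    apply Finset.sum_congr rfl
    intro i hi
    exact h1 i hi
  simpa using h2

theorem prime_dvd_mod (p q : ℕ) (hq : q.Prime)
    (hcop : Nat.Coprime (∑ i ∈ range q, p ^ i) (p - 1)) (hp1 : 1 ≤ p)
    (r : ℕ) (hr : r.Prime) (hrN : r ∣ ∑ i ∈ range q, p ^ i) : r % q = 1 := by
  have : Fact r.Prime := ⟨hr⟩
  have h0 : (∑ i ∈ range q, (p : ZMod r) ^ i) = 0 := by
    have := (ZMod.natCast_eq_zero_iff (∑ i ∈ range q, p ^ i) r).mpr hrN
    push_cast at this
    exact this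
  have h1 : (p : ZMod r) ^ q = 1 := by
    have := geom_sum_mul (p : ZMod r) q
    rw [h0, zero_mul] at this
    exact (sub_eq_zero.mp this.symm)
  have hord : orderOf (p : ZMod r) ∣ q := orderOf_dvd_of_pow_eq_one h1
  have hne1 : (p : ZMod r) ≠ 1 := by
    intro h
    have h2 : ((p - 1 : ℕ) : ZMod r) = 0 := by
      rw [Nat.cast_sub hp1, h]; simp
    have h3 : r ∣ p - 1 := (ZMod.natCast_eq_zero_iff _ r).mp h2
    have h4 : r ∣ Nat.gcd (∑ i ∈ range q, p ^ i) (p - 1) := Nat.dvd_gcd hrN h3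
    rw [hcop] at h4
    exact hr.one_lt.ne' (Nat.dvd_one.mp h4)
  have hord' : orderOf (p : ZMod r) = q := by
    rcases (Nat.dvd_prime hq).mp hord with h | h
    · exact absurd (orderOf_eq_one_iff.mp h) hne1
    · exact h
  have hp0 : (p : ZMod r) ≠ 0 := by
    intro h
    rw [h, zero_pow hq.ne_zero] at h1
    exact zero_ne_one h1
  have h5 : (p : ZMod r) ^ (r - 1) = 1 := ZMod.pow_card_sub_one_eq_one hp0
  have h6 : q ∣ r - 1 := by
    rw [← hord']; exact orderOf_dvd_of_pow_eq_one h5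
  obtain ⟨k, hk⟩ := h6
  have h7 : r = 1 + q * k := by
    have := hr.one_le
    omega
  rw [h7, Nat.add_mul_mod_self_left]
  exact Nat.mod_eq_of_lt hq.one_lt

theorem dvd_mod (p q : ℕ) (hq : q.Prime)
    (hcop : Nat.Coprime (∑ i ∈ range q, p ^ i) (p - 1)) (hp1 : 1 ≤ p)
    (hN0 : (∑ i ∈ range q, p ^ i) ≠ 0) :
    ∀ x : ℕ, x ∣ ∑ i ∈ range q, p ^ i → x % q = 1 := by
  intro x
  induction x using Nat.strong_induction_on with
  | _ x ih =>
    intro hx
    rcases Nat.eq_zero_or_pos x with h0 | hpos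
    · subst h0
      exact absurd (Nat.eq_zero_of_zero_dvd hx) hN0
    by_cases h1 : x = 1
    · subst h1
      exact Nat.mod_eq_of_lt hq.one_lt
    have hr : (x.minFac).Prime := Nat.minFac_prime h1
    have hrx : x.minFac ∣ x := Nat.minFac_dvd x
    obtain ⟨y, hy⟩ := hrx
    have hylt : y < x := by
      have h2 := hr.two_le
      have : 0 < y := by
        apply Nat.pos_of_ne_zero
        rintro rfl
        omega
      nlinarith
    have hyx : y ∣ x := Dvd.intro_left _ hy.symm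
    have e1 := prime_dvd_mod p q hq hcop hp1 x.minFac hr ((Nat.minFac_dvd x).trans hx)
    have e2 := ih y hylt (hyx.trans hx)
    rw [hy, Nat.mul_mod, e1, e2]
    simpa using Nat.mod_eq_of_lt hq.one_lt

/-- Let p and q be odd primes and N = (p ^ q − 1) / (p − 1) = 1 + p + ⋯ + p^(q−1). Then N is odd; if p ≡ 1 (mod q) then q ∣ N; and if p is not ≡ 1 (mod q) then N is coprime to p − 1 and every divisor of N is ≡ 1 (mod q). -/
theorem result (p q : ℕ) (hp : p.Prime) (hq : q.Prime) (hp2 : p ≠ 2) (hq2 : q ≠ 2) : Odd ((p ^ q - 1) / (p - 1)) ∧ (p % q = 1 → q ∣ (p ^ q - 1) / (p - 1)) ∧ (p % q ≠ 1 → Nat.Coprime ((p ^ q - 1) / (p - 1)) (p - 1) ∧ ∀ x : ℕ, x ∣ (p ^ q - 1) / (p - 1) → x % q = 1) := by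
  rw [← Nat.geomSum_eq hp.two_le q]
  have hpodd : Odd p := hp.odd_of_ne_two hp2
  have hqodd : Odd q := hq.odd_of_ne_two hq2
  have hodd : Odd (∑ i ∈ range q, p ^ i) := by
    rw [Finset.odd_sum_iff_odd_card_odd]
    have : {x ∈ range q | Odd (p ^ x)} = range q := by
      apply Finset.filter_true_of_mem
      intro i _
      exact hpodd.pow
    rw [this, Finset.card_range]
    exact hqodd
  refine ⟨hodd, ?_, ?_⟩
  · intro h
    have h1 : p ≡ 1 [MOD q] := by
      unfold Nat.ModEq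
      rw [h, Nat.mod_eq_of_lt hq.one_lt]
    have h2 := geom_modEq p q q h1
    exact (Nat.modEq_zero_iff_dvd).mp (h2.trans (by simp [Nat.ModEq]))
  · intro h
    have hp1 : 1 ≤ p := hp.one_le
    have h1 : p ≡ 1 [MOD (p - 1)] := by
      have : p = 1 + (p - 1) := by omega
      conv_lhs => rw [this]
      simp [Nat.ModEq]
    have h2 := geom_modEq p q (p - 1) h1
    have hcop : Nat.Coprime (∑ i ∈ range q, p ^ i) (p - 1) := by
      unfold Nat.Coprime
      rw [h2.gcd_eq]
      rcases Nat.coprime_or_dvd_of_prime hq (p - 1) with h3 | h3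
      · exact h3
      · exfalso
        apply h
        obtain ⟨k, hk⟩ := h3
        have : p = 1 + q * k := by omega
        rw [this, Nat.add_mul_mod_self_left]
        exact Nat.mod_eq_of_lt hq.one_lt
    have hN0 : (∑ i ∈ range q, p ^ i) ≠ 0 := by
      intro h0
      rw [h0] at hodd
      exact absurd hodd (by decide)
    exact ⟨hcop, dvd_mod p q hq hcop hp1 hN0⟩

end Cfsg.Agent.S1546
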