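import Cfsg.Statements.S1552
import Cfsg.Agent.Helper28.SxStab
import Cfsg.Agent.Helper28.Coatom

set_option autoImplicit false
open scoped Pointwise
open Cfsg

namespace Cfsg.Agent.S1552

open Cfsg.Agent.Helper12 Cfsg.Agent.Helper28 Cfsg.Agent.Helper28.Sext Cfsg.Agent.Helper28.Trio
open Cfsg.Agent.Helper28.SxStab Cfsg.Agent.Helper28.Coatom

theorem orbit_self (S : Finset (Finset GolayPt)) :
    MulAction.orbit ↥(MulAction.stabilizer ↥M24 S) S = {S} := by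
  ext y
  constructor
  · rintro ⟨h, rfl⟩
    exact h.2
  · rintro rfl
    exact MulAction.mem_orbit_self _

theorem orbit_M24 (S : Finset (Finset GolayPt)) (hS : S ∈ sextets) :
    MulAction.orbit ↥M24 S = sextets := by
  ext y
  constructor
  · rintro ⟨g, rfl⟩
    exact smul_sextet g.2 hS
  · intro hy
    obtain ⟨g, hg, rfl⟩ := M24_trans_sextets hS hy
    exact ⟨⟨g, hg⟩, rfl⟩

theorem arith : ∀ e1 e2 e3 : ℕ, (e1 = 0 ∨ e1 = 90) → (e2 = 0 ∨ e2 = 240) →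
    (e3 = 0 ∨ e3 = 1440) → (1 + e1 + e2 + e3) ∣ 1771 →
    (1 + e1 + e2 + e3 = 1) ∨ (1 + e1 + e2 + e3 = 1771) := by
  rintro e1 e2 e3 (rfl | rfl) (rfl | rfl) (rfl | rfl) h <;> revert h <;> decide

/-- A sextet stabiliser has four orbits on the 1771 sextets, of sizes 1, 90, 240, 1440; and the stabiliser is a maximal proper subgroup. -/
theorem result (S : Finset (Finset Cfsg.GolayPt)) (hS : S ∈ Cfsg.sextets) : ∃ X₁ ∈ Cfsg.sextets, ∃ X₂ ∈ Cfsg.sextets, ∃ X₃ ∈ Cfsg.sextets, (MulAction.orbit ↥(MulAction.stabilizer Cfsg.M24 S) X₁).ncard = 90 ∧ (MulAction.orbit ↥(MulAction.stabilizer Cfsg.M24 S) X₂).ncard = 240 ∧ (MulAction.orbit ↥(MulAction.stabilizer Cfsg.M24 S) X₃).ncard = 1440 ∧ Cfsg.sextets = {S} ∪ MulAction.orbit ↥(MulAction.stabilizer Cfsg.M24 S) X₁ ∪ MulAction.orbit ↥(MulAction.stabilizer Cfsg.M24 S) X₂ ∪ MulAction.orbit ↥(MulAction.stabilizer Cfsg.M24 S) X₃ ∧ IsCoatom (MulAction.stabilizer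 Cfsg.M24 S) := by
  obtain ⟨g0, hg0, rfl⟩ := M24_trans_sextets (sx_mem (by norm_num : 0 < 1771)) hS
  obtain ⟨X₁, hX₁, X₂, hX₂, X₃, hX₃, X₄, hX₄, c1, c2, c3, c4, hun⟩ :=
    transport4 (G := ↥M24) sextets (fun g b hb => smul_sextet g.2 hb) (sx 0) ⟨g0, hg0⟩ 1 90 240 1440
      sextets_S0
  have hself := orbit_self ((⟨g0, hg0⟩ : ↥M24) • sx 0)
  have h1 : MulAction.orbit ↥(MulAction.stabilizer ↥M24 ((⟨g0, hg0⟩ : ↥M24) • sx 0)) X₁ =
      {(⟨g0, hg0⟩ : ↥M24) • sx 0} := by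
    have hmem : (⟨g0, hg0⟩ : ↥M24) • sx 0 ∈ sextets := hS
    rw [hun] at hmem
    rcases hmem with ((h | h) | h) | h
    · rw [← MulAction.orbit_eq_iff.2 h, hself]
    · exfalso
      rw [← MulAction.orbit_eq_iff.2 h, hself, Set.ncard_singleton] at c2
      omega
    · exfalso
      rw [← MulAction.orbit_eq_iff.2 h, hself, Set.ncard_singleton] at c3
      omega
    · exfalso
      rw [← MulAction.orbit_eq_iff.2 h, hself, Set.ncard_singleton] at c4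
      omega
  rw [h1] at hun
  refine ⟨X₂, hX₂, X₃, hX₃, X₄, hX₄, c2, c3, c4, hun, ?_⟩
  have hS' : (⟨g0, hg0⟩ : ↥M24) • sx 0 ∈ sextets := hS
  have hN : (MulAction.orbit ↥M24 ((⟨g0, hg0⟩ : ↥M24) • sx 0)).ncard = 1771 := by
    rw [orbit_M24 _ hS', ncard_sextets]
  have hun' : MulAction.orbit ↥M24 ((⟨g0, hg0⟩ : ↥M24) • sx 0) = _ :=
    (orbit_M24 _ hS').trans hun
  exact coatom_of_three_orbits (G := ↥M24) _ X₂ X₃ X₄ 90 240 1440 1771 hN c2 c3 c4 hun'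
    (by norm_num) rfl arith

end Cfsg.Agent.S1552
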