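import Cfsg.Statements.S1553
import Cfsg.Agent.Helper28.SymSix

set_option autoImplicit false
open scoped Pointwise
open Cfsg

namespace Cfsg.Agent.S1553

open Cfsg.Agent.Helper28 Cfsg.Agent.Helper28.SymSix Cfsg.Agent.Helper28.OctOrbits

/-- the octad stabilizer acting on the octad -/
noncomputable def phi (o : Finset GolayPt) :
    ↥(MulAction.stabilizer M24 o) →* Equiv.Perm ↥o :=
  restr o (MulAction.stabilizer M24 o) (fun _ hk => hk)

theorem card_ker (o : Finset GolayPt) (ho : o ∈ octads) : Nat.card (phi o).ker = 16 := by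
  rw [← (Cfsg.Agent.Helper3.octad_fix o ho).1]
  apply Nat.card_congr
  refine
    { toFun := fun k => ⟨((k.1 : MulAction.stabilizer M24 o) : M24).1, ⟨k.1.1.2, ?_⟩⟩
      invFun := fun g => ⟨⟨⟨g.1, g.2.1⟩, ?_⟩, ?_⟩
      left_inv := fun k => rfl
      right_inv := fun g => rfl }
  · refine (mem_fixingSubgroup_iff _).2 ?_
    intro p hp
    have h1 : phi o k.1 = 1 := k.2
    have h2 := congrArg (fun e : Equiv.Perm ↥o => ((e ⟨p, hp⟩ : ↥o) : GolayPt)) h1
    exact h2
  · have h1 : g.1 ∈ fixingSubgroup (Equiv.Perm GolayPt) (o : Set GolayPt) := g.2.2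
    rw [mem_fixingSubgroup_iff] at h1
    show (g.1 : Equiv.Perm GolayPt) • o = o
    ext y
    constructor
    · intro hy
      obtain ⟨p, hp, rfl⟩ := Finset.mem_smul_finset.1 hy
      have := h1 p hp
      rw [this]; exact hp
    · intro hy
      exact Finset.mem_smul_finset.2 ⟨y, hy, h1 y hy⟩
  · have h1 : g.1 ∈ fixingSubgroup (Equiv.Perm GolayPt) (o : Set GolayPt) := g.2.2
    rw [mem_fixingSubgroup_iff] at h1
    show phi o _ = 1
    apply Equiv.ext
    intro p
    apply Subtype.ext
    exact h1 p.1 p.2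

theorem card_range (o : Finset GolayPt) (ho : o ∈ octads) : Nat.card (phi o).range = 20160 := by
  have h1 := Subgroup.card_mul_index (phi o).ker
  rw [card_ker o ho, card_stab_octad ho, Subgroup.index_ker] at h1
  omega

theorem range_eq (o : Finset GolayPt) (ho : o ∈ octads) :
    (phi o).range = alternatingGroup ↥o := by
  apply Equiv.Perm.eq_alternatingGroup_of_index_eq_two
  have h1 := Subgroup.card_mul_index (phi o).range
  have h8 : o.card = 8 := ((Octads.mem_oct o).1 ho).2
  rw [card_range o ho, Nat.card_eq_fintype_card, Fintype.card_perm, Fintype.card_coe, h8] at h1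
  have : (Nat.factorial 8) = 40320 := by decide
  omega

/-- The stabiliser of an octad in the group of the length-24 code induces on the octad exactly its alternating group. -/
theorem result (o : Finset Cfsg.GolayPt) (ho : o ∈ Cfsg.octads) : {e : Equiv.Perm ↥o | ∃ g : Equiv.Perm Cfsg.GolayPt, g ∈ Cfsg.M24 ∧ ∃ h : (∀ x, g x ∈ o ↔ x ∈ o), g.subtypePerm h = e} = (alternatingGroup ↥o : Set (Equiv.Perm ↥o)) := by
  rw [← range_eq o ho]
  ext e
  constructor
  · rintro ⟨g, hg, h, rfl⟩
    have hgo : g • o = o := by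
      ext y
      rw [← Finset.inv_smul_mem_iff, ← h, Equiv.Perm.smul_def]; simp
    exact ⟨⟨⟨g, hg⟩, hgo⟩, rfl⟩
  · rintro ⟨k, rfl⟩
    exact ⟨((k : M24) : Equiv.Perm GolayPt), k.1.2, fun x => mem_iff_of_smul k.2 x, rfl⟩

end Cfsg.Agent.S1553
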