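import Cfsg.Statements.S1554
import Cfsg.Agent.Helper28.SymSix
import Cfsg.Agent.S1553

set_option autoImplicit false
open scoped Pointwise
open Cfsg

namespace Cfsg.Agent.S1554

open Cfsg.Agent.Helper28 Cfsg.Agent.Helper28.SymSix Cfsg.Agent.Helper28.OctOrbits

/-- an element fixing an octad pointwise and a further point is trivial -/
theorem fix_trivial {o : Finset GolayPt} (ho : o ∈ octads) {p : GolayPt} (hp : p ∉ o)
    {g : Equiv.Perm GolayPt} (hg : g ∈ M24) (hfix : ∀ x ∈ o, g x = x) (hgp : g p = p) :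
    g = 1 := by
  have h4 : Cfsg.Agent.Helper3.pt 4 ∉ Cfsg.Agent.Helper3.oStd := by
    rw [Cfsg.Agent.Helper3.mem_oStd_iff]; decide
  obtain ⟨g1, hg1, e1, f1⟩ :=
    Cfsg.Agent.Helper12.exists_M24_octad_pt_out Cfsg.Agent.Helper3.oStd_mem h4
  obtain ⟨g2, hg2, e2, f2⟩ := Cfsg.Agent.Helper12.exists_M24_octad_pt_out ho hp
  have hkM : g2 * g1⁻¹ ∈ M24 := M24.mul_mem hg2 (M24.inv_mem hg1)
  have hko : (g2 * g1⁻¹) • Cfsg.Agent.Helper3.oStd = o := by
    rw [mul_smul, ← e1, inv_smul_smul, e2]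
  have hk4 : (g2 * g1⁻¹) (Cfsg.Agent.Helper3.pt 4) = p := by
    rw [Equiv.Perm.mul_apply, ← f1]; simp [f2]
  generalize g2 * g1⁻¹ = k at hkM hko hk4
  have hmem : k⁻¹ * g * k ∈ Cfsg.Agent.Helper3.fixN M24 [23, 0, 1, 2, 3, 5, 4] := by
    refine ⟨M24.mul_mem (M24.mul_mem (M24.inv_mem hkM) hg) hkM, ?_⟩
    intro f hf
    rw [Equiv.Perm.mul_apply, Equiv.Perm.mul_apply]
    have : g (k (Cfsg.Agent.Helper3.pt f)) = k (Cfsg.Agent.Helper3.pt f) := by
      by_cases hf4 : f = 4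
      · subst hf4; rw [hk4]; exact hgp
      · apply hfix
        rw [← hko]
        apply Finset.smul_mem_smul_finset
        rw [Cfsg.Agent.Helper3.mem_oStd_iff]
        have hf' : f ∈ [23, 0, 1, 2, 3, 5] := by
          simp only [List.mem_cons, List.not_mem_nil, or_false] at hf ⊢
          tauto
        revert hf'
        revert f
        decide
    rw [this]; simp
  have h1 := Cfsg.Agent.Helper3.fix7_trivial _ hmem
  calc g = k * (k⁻¹ * g * k) * k⁻¹ := by group
    _ = 1 := by rw [h1]; group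

theorem smul_eq_of_fix {o : Finset GolayPt} {g : Equiv.Perm GolayPt}
    (h1 : ∀ x ∈ o, g x = x) : g • o = o := by
  ext y
  constructor
  · intro hy
    obtain ⟨p, hp, rfl⟩ := Finset.mem_smul_finset.1 hy
    have := h1 p hp
    rw [Equiv.Perm.smul_def, this]; exact hp
  · intro hy
    exact Finset.mem_smul_finset.2 ⟨y, hy, h1 y hy⟩

theorem mem_N {o : Finset GolayPt} {g : Equiv.Perm GolayPt} :
    g ∈ M24 ⊓ fixingSubgroup (Equiv.Perm GolayPt) (o : Set GolayPt) ↔
      g ∈ M24 ∧ ∀ x ∈ o, g x = x := by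
  rw [Subgroup.mem_inf, mem_fixingSubgroup_iff]
  rfl

/-- the pointwise stabilizer of an octad is transitive on the complement -/
theorem trans_compl {o : Finset GolayPt} (ho : o ∈ octads) {p q : GolayPt} (hp : p ∉ o)
    (hq : q ∉ o) :
    ∃ n ∈ M24 ⊓ fixingSubgroup (Equiv.Perm GolayPt) (o : Set GolayPt), n p = q := by
  have h1 := Cfsg.Agent.Helper3.card_eq_orbit_mul
    (M24 ⊓ fixingSubgroup (Equiv.Perm GolayPt) (o : Set GolayPt)) p
  have h2 : Nat.card ↥((M24 ⊓ fixingSubgroup (Equiv.Perm GolayPt) (o : Set GolayPt)) ⊓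
      MulAction.stabilizer (Equiv.Perm GolayPt) p) = 1 := by
    rw [Subgroup.card_eq_one, Subgroup.eq_bot_iff_forall]
    rintro g ⟨hg1, hg2⟩
    have hg1' := mem_N.1 hg1
    exact fix_trivial ho hp hg1'.1 hg1'.2 hg2
  rw [h2, (Cfsg.Agent.Helper3.octad_fix o ho).1, mul_one] at h1
  have h8 : o.card = 8 := ((Octads.mem_oct o).1 ho).2
  have hsub : MulAction.orbit
      ↥(M24 ⊓ fixingSubgroup (Equiv.Perm GolayPt) (o : Set GolayPt)) p ⊆
      ((oᶜ : Finset GolayPt) : Set GolayPt) := by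
    rintro _ ⟨n, rfl⟩
    have hn := mem_N.1 n.2
    rw [Finset.mem_coe, Finset.mem_compl]
    intro hmem
    have h3 : (n : Equiv.Perm GolayPt) ((n : Equiv.Perm GolayPt) p) = (n : Equiv.Perm GolayPt) p :=
      hn.2 _ hmem
    have h4 := (n : Equiv.Perm GolayPt).injective h3
    apply hp
    have h5 : (n : Equiv.Perm GolayPt) p ∈ o := hmem
    rw [h4] at h5
    exact h5
  have hcard : (((oᶜ : Finset GolayPt) : Set GolayPt)).ncard = 16 := by
    rw [Set.ncard_coe_finset, Finset.card_compl, h8]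
    rfl
  have heq := Set.eq_of_subset_of_ncard_le hsub (by rw [hcard, ← h1]) (Set.toFinite _)
  have hq' : q ∈ ((oᶜ : Finset GolayPt) : Set GolayPt) := by
    rw [Finset.mem_coe, Finset.mem_compl]; exact hq
  rw [← heq] at hq'
  obtain ⟨n, rfl⟩ := hq'
  exact ⟨n.1, n.2, rfl⟩

/-- the stabilizer of an octad and a point acting on the octad -/
noncomputable def psi (o : Finset GolayPt) (p : GolayPt) :
    ↥(M24 ⊓ MulAction.stabilizer (Equiv.Perm GolayPt) o ⊓
      MulAction.stabilizer (Equiv.Perm GolayPt) p) →* Equiv.Perm ↥o where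
  toFun k := Equiv.Perm.subtypePerm (k : Equiv.Perm GolayPt)
    (fun x => mem_iff_of_smul k.2.1.2 x)
  map_one' := by apply Equiv.ext; intro x; rfl
  map_mul' k l := by apply Equiv.ext; intro x; rfl

theorem psi_apply (o : Finset GolayPt) (p : GolayPt)
    (k : ↥(M24 ⊓ MulAction.stabilizer (Equiv.Perm GolayPt) o ⊓
      MulAction.stabilizer (Equiv.Perm GolayPt) p)) (x : ↥o) :
    ((psi o p k x : ↥o) : GolayPt) = (k : Equiv.Perm GolayPt) x := rfl

theorem psi_mem {o : Finset GolayPt} (ho : o ∈ octads) (p : GolayPt)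
    (k : ↥(M24 ⊓ MulAction.stabilizer (Equiv.Perm GolayPt) o ⊓
      MulAction.stabilizer (Equiv.Perm GolayPt) p)) : psi o p k ∈ alternatingGroup ↥o := by
  have h := Cfsg.Agent.S1553.result o ho
  have : psi o p k ∈ ((alternatingGroup ↥o : Subgroup (Equiv.Perm ↥o)) : Set (Equiv.Perm ↥o)) := by
    rw [← h]
    exact ⟨k.1, k.2.1.1, fun x => mem_iff_of_smul k.2.1.2 x, rfl⟩
  exact this

theorem psi_inj {o : Finset GolayPt} (ho : o ∈ octads) {p : GolayPt} (hp : p ∉ o) :
    Function.Injective (psi o p) := by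
  rw [injective_iff_map_eq_one]
  intro k hk
  apply Subtype.ext
  apply fix_trivial ho hp k.2.1.1 _ k.2.2
  intro x hx
  have := congrArg (fun e : Equiv.Perm ↥o => ((e ⟨x, hx⟩ : ↥o) : GolayPt)) hk
  exact this

theorem psi_surj {o : Finset GolayPt} (ho : o ∈ octads) {p : GolayPt} (hp : p ∉ o)
    (e : Equiv.Perm ↥o) (he : e ∈ alternatingGroup ↥o) : ∃ k, psi o p k = e := by
  have h := Cfsg.Agent.S1553.result o ho
  have he' : e ∈ ((alternatingGroup ↥o : Subgroup (Equiv.Perm ↥o)) : Set (Equiv.Perm ↥o)) := he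
  rw [← h] at he'
  obtain ⟨g, hg, hh, rfl⟩ := he'
  have hgp : g p ∉ o := fun hc => hp ((hh p).1 hc)
  obtain ⟨n, hn, hnp⟩ := trans_compl ho hp hgp
  have hn' := mem_N.1 hn
  have hgo : g • o = o := by
    ext y
    rw [← Finset.inv_smul_mem_iff, ← hh, Equiv.Perm.smul_def]; simp
  have hno : n • o = o := smul_eq_of_fix hn'.2
  refine ⟨⟨n⁻¹ * g, ⟨M24.mul_mem (M24.inv_mem hn'.1) hg, ?_⟩, ?_⟩, ?_⟩
  · show (n⁻¹ * g) • o = o
    rw [mul_smul, hgo, inv_smul_eq_iff, hno]
  · show (n⁻¹ * g) • p = p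
    rw [mul_smul, inv_smul_eq_iff]; exact hnp.symm
  · apply Equiv.ext
    intro x
    apply Subtype.ext
    show (n⁻¹ * g) x = g x
    rw [Equiv.Perm.mul_apply, Equiv.Perm.inv_eq_iff_eq]
    exact (hn'.2 _ ((hh x).2 x.2)).symm

/-- An octad stabiliser is a split extension: the joint stabiliser of the octad and a point outside it is a complement to the pointwise stabiliser of the octad, and is isomorphic to the alternating group of degree 8. -/
theorem result (o : Finset Cfsg.GolayPt) (ho : o ∈ Cfsg.octads) (p : Cfsg.GolayPt) (hp : p ∉ o) : (Cfsg.M24 ⊓ fixingSubgroup (Equiv.Perm Cfsg.GolayPt) (o : Set Cfsg.GolayPt)) ⊓ (Cfsg.M24 ⊓ MulAction.stabilizer (Equiv.Perm Cfsg.GolayPt) o ⊓ MulAction.stabilizer (Equiv.Perm Cfsg.GolayPt) p) = ⊥ ∧ (Cfsg.M24 ⊓ fixingSubgroup (Equiv.Perm Cfsg.GolayPt) (o : Set Cfsg.GolayPt)) ⊔ (Cfsg.M24 ⊓ MulAction.stabilizer (Equiv.Perm Cfsg.GolayPt) o ⊓ MulAction.stabilizer (Equiv.Perm Cfsg.GolayPt) p) = (Cfsg.M24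 ⊓ MulAction.stabilizer (Equiv.Perm Cfsg.GolayPt) o) ∧ Nonempty (↥(Cfsg.M24 ⊓ MulAction.stabilizer (Equiv.Perm Cfsg.GolayPt) o ⊓ MulAction.stabilizer (Equiv.Perm Cfsg.GolayPt) p) ≃* alternatingGroup (Fin 8)) := by
  refine ⟨?_, ?_, ?_⟩
  · rw [Subgroup.eq_bot_iff_forall]
    rintro g ⟨hg1, hg2⟩
    have hg1' := mem_N.1 hg1
    exact fix_trivial ho hp hg1'.1 hg1'.2 hg2.2
  · apply le_antisymm
    · apply sup_le
      · intro g hg
        have hg' := mem_N.1 hg
        exact ⟨hg'.1, smul_eq_of_fix hg'.2⟩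
      · exact inf_le_left
    · rintro g ⟨hg, hgo⟩
      have hgo' : g • o = o := hgo
      have hgp : g p ∉ o := fun hc => hp ((mem_iff_of_smul hgo' p).1 hc)
      obtain ⟨n, hn, hnp⟩ := trans_compl ho hp hgp
      have hn' := mem_N.1 hn
      have hno : n • o = o := smul_eq_of_fix hn'.2
      have h1 : n⁻¹ * g ∈ M24 ⊓ MulAction.stabilizer (Equiv.Perm GolayPt) o ⊓
          MulAction.stabilizer (Equiv.Perm GolayPt) p := by
        refine ⟨⟨M24.mul_mem (M24.inv_mem hn'.1) hg, ?_⟩, ?_⟩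
        · show (n⁻¹ * g) • o = o
          rw [mul_smul, hgo', inv_smul_eq_iff, hno]
        · show (n⁻¹ * g) • p = p
          rw [mul_smul, inv_smul_eq_iff]; exact hnp.symm
      have h2 := Subgroup.mul_mem_sup hn h1
      rw [mul_inv_cancel_left] at h2
      exact h2
  · have h8 : o.card = 8 := ((Octads.mem_oct o).1 ho).2
    have hbij : Function.Bijective ((psi o p).codRestrict (alternatingGroup ↥o) (psi_mem ho p)) := by
      constructor
      · intro a b hab
        apply psi_inj ho hp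
        exact congrArg Subtype.val hab
      · rintro ⟨e, he⟩
        obtain ⟨k, hk⟩ := psi_surj ho hp e he
        exact ⟨k, Subtype.ext hk⟩
    exact ⟨(MulEquiv.ofBijective _ hbij).trans (Equiv.altCongrHom (o.equivFinOfCardEq h8))⟩

end Cfsg.Agent.S1554
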