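import Cfsg.Statements.S1555
import Cfsg.Agent.Helper28.OctOrbits
import Cfsg.Agent.Helper12.GolayMore

set_option autoImplicit false
open scoped Pointwise
open Cfsg

namespace Cfsg.Agent.S1555

open Cfsg.Agent.Helper12 Cfsg.Agent.Helper28 Cfsg.Agent.Helper28.OctOrbits

theorem k2 : allB 276 (fun k => bif Nat.beq (Nat.land (get24 T2 k) (get24 OA 0)) (get24 T2 k)
    then Nat.beq (cntB 759 (fun j => Nat.beq (Nat.land (get24 OA 0) (get24 OA j)) (get24 T2 k))) 16
    else true) = true := by decide +kernel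

theorem k4 : allB 276 (fun k1 => bif Nat.beq (Nat.land (get24 T2 k1) (get24 OA 0)) (get24 T2 k1)
    then allB 276 (fun k2 =>
      bif (Nat.beq (Nat.land (get24 T2 k2) (get24 OA 0)) (get24 T2 k2)) &&
          (Nat.beq (Nat.land (get24 T2 k1) (get24 T2 k2)) 0)
      then Nat.beq (cntB 759 (fun j => Nat.beq (Nat.land (get24 OA 0) (get24 OA j))
          (Nat.lor (get24 T2 k1) (get24 T2 k2)))) 4
      else true)
    else true) = true := by decide +kernel

theorem count_eq (m : ℕ) (hm : m < 2 ^ 24) :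
    {o' : Finset GolayPt | o' ∈ octads ∧ O0 ∩ o' = ofMask m}.ncard
      = cntB 759 (fun j => Nat.beq (Nat.land (get24 OA 0) (get24 OA j)) m) := by
  apply ncard_eq_cntB OA_strictMono
  intro s
  constructor
  · rintro ⟨hs, hc⟩
    obtain ⟨k, hk, rfl⟩ := (mem_octads_iff s).mp hs
    refine ⟨k, hk, ?_, rfl⟩
    rw [Nat.beq_eq]
    have h1 : ofMask (Nat.land (get24 OA 0) (get24 OA k)) = ofMask m := by
      rw [← hc]; exact ofMask_and _ _
    have h2 : Nat.land (get24 OA 0) (get24 OA k) < 2 ^ 24 :=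
      Nat.and_lt_two_pow _ (get24_lt _ _)
    exact ofMask_inj h2 hm h1
  · rintro ⟨k, hk, hf, rfl⟩
    rw [Nat.beq_eq] at hf
    exact ⟨OA_mem hk, by rw [← hf]; exact (ofMask_and _ _).symm⟩

theorem transport {g0 : Equiv.Perm GolayPt} (hg0 : g0 ∈ M24) (s : Finset GolayPt) :
    {o' : Finset GolayPt | o' ∈ octads ∧ (g0 • O0) ∩ o' = s}.ncard
      = {o' : Finset GolayPt | o' ∈ octads ∧ O0 ∩ o' = g0⁻¹ • s}.ncard := by
  apply ncard_transport g0
  intro b
  show (b ∈ octads ∧ g0 • O0 ∩ b = s) ↔ (g0⁻¹ • b ∈ octads ∧ O0 ∩ g0⁻¹ • b = g0⁻¹ • s)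
  rw [smul_mem_octads (inv_mem hg0)]
  have : O0 ∩ g0⁻¹ • b = g0⁻¹ • (g0 • O0 ∩ b) := by
    rw [Finset.smul_finset_inter, inv_smul_smul]
  rw [this]
  constructor
  · rintro ⟨h1, h2⟩; exact ⟨h1, by rw [h2]⟩
  · rintro ⟨h1, h2⟩; exact ⟨h1, MulAction.injective g0⁻¹ h2⟩

theorem bif_true_of {b x : Bool} (h : (bif b then x else true) = true) (hb : b = true) :
    x = true := by
  subst hb; exact h

theorem main2 (s : Finset GolayPt) (hs : s ⊆ O0) (h2 : s.card = 2) :
    {o' : Finset GolayPt | o' ∈ octads ∧ O0 ∩ o' = s}.ncard = 16 := by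
  obtain ⟨k, hk, rfl⟩ := (card_two_iff s).1 h2
  rw [count_eq _ (get24_lt _ _)]
  have h1 := allB_spec k2 k hk
  have h3 : Nat.beq (Nat.land (get24 T2 k) (get24 OA 0)) (get24 T2 k) = true :=
    (ofMask_subset_iff' (get24_lt _ _)).1 hs
  exact Nat.eq_of_beq_eq_true (bif_true_of h1 h3)

theorem main4 (s : Finset GolayPt) (hs : s ⊆ O0) (h4 : s.card = 4) :
    {o' : Finset GolayPt | o' ∈ octads ∧ O0 ∩ o' = s}.ncard = 4 := by
  obtain ⟨s1, hs1, hc1⟩ := Finset.exists_subset_card_eq (s := s) (n := 2) (by omega)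
  have hc2 : (s \ s1).card = 2 := by rw [Finset.card_sdiff_of_subset hs1]; omega
  have hun : s = s1 ∪ (s \ s1) := (Finset.union_sdiff_of_subset hs1).symm
  have hdisj : s1 ∩ (s \ s1) = ∅ := Finset.inter_sdiff_self s1 s
  have hsub2 : s \ s1 ⊆ O0 := Finset.sdiff_subset.trans hs
  have hsub1 : s1 ⊆ O0 := hs1.trans hs
  generalize s \ s1 = s2 at hc2 hun hdisj hsub2
  obtain ⟨k1, hk1, rfl⟩ := (card_two_iff s1).1 hc1
  obtain ⟨k2, hk2, rfl⟩ := (card_two_iff s2).1 hc2
  have hun' : s = ofMask (Nat.lor (get24 T2 k1) (get24 T2 k2)) := by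
    rw [hun]; exact (ofMask_or _ _).symm
  have hlt : Nat.lor (get24 T2 k1) (get24 T2 k2) < 2 ^ 24 :=
    Nat.or_lt_two_pow (get24_lt _ _) (get24_lt _ _)
  rw [hun', count_eq _ hlt]
  have h3 : Nat.beq (Nat.land (get24 T2 k1) (get24 OA 0)) (get24 T2 k1) = true :=
    (ofMask_subset_iff' (get24_lt _ _)).1 hsub1
  have h6 : Nat.beq (Nat.land (get24 T2 k2) (get24 OA 0)) (get24 T2 k2) = true :=
    (ofMask_subset_iff' (get24_lt _ _)).1 hsub2
  have h7 : Nat.beq (Nat.land (get24 T2 k1) (get24 T2 k2)) 0 = true := by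
    rw [Nat.beq_eq]
    have h8 : ofMask (Nat.land (get24 T2 k1) (get24 T2 k2)) = ofMask 0 := by
      rw [ofMask_zero, ← hdisj]; exact ofMask_and _ _
    exact ofMask_inj (Nat.and_lt_two_pow _ (get24_lt _ _)) (by norm_num) h8
  have a1 := allB_spec k4 k1 hk1
  have a2 := bif_true_of a1 h3
  have a3 := allB_spec a2 k2 hk2
  have h67 : (Nat.beq (Nat.land (get24 T2 k2) (get24 OA 0)) (get24 T2 k2) &&
      Nat.beq (Nat.land (get24 T2 k1) (get24 T2 k2)) 0) = true := by
    rw [h6, h7]; rfl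
  exact Nat.eq_of_beq_eq_true (bif_true_of a3 h67)

/-- Bottom row of the Leech triangle: an octad is met in a prescribed pair of its points by exactly 16 octads and in a prescribed 4-subset by exactly 4 octads. -/
theorem result (o : Finset Cfsg.GolayPt) (ho : o ∈ Cfsg.octads) (s : Finset Cfsg.GolayPt) (hs : s ⊆ o) : (s.card = 2 → {o' : Finset Cfsg.GolayPt | o' ∈ Cfsg.octads ∧ o ∩ o' = s}.ncard = 16) ∧ (s.card = 4 → {o' : Finset Cfsg.GolayPt | o' ∈ Cfsg.octads ∧ o ∩ o' = s}.ncard = 4) := by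
  obtain ⟨g0, hg0, rfl⟩ := M24_trans_octads O0_mem ho
  have hsub : g0⁻¹ • s ⊆ O0 := by
    have := Finset.smul_finset_subset_smul_finset (a := g0⁻¹) hs
    rwa [inv_smul_smul] at this
  constructor
  · intro h2
    rw [transport hg0]
    exact main2 _ hsub (by rw [Finset.card_smul_finset]; exact h2)
  · intro h4
    rw [transport hg0]
    exact main4 _ hsub (by rw [Finset.card_smul_finset]; exact h4)

end Cfsg.Agent.S1555
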