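import Mathlib
import Cfsg.Statements.S1557
import Cfsg.Agent.Helper12.GolayTrio

set_option autoImplicit false
open scoped Pointwise
open Cfsg

namespace Cfsg.Agent.S1557

open Cfsg.Agent.Helper12

set_option maxHeartbeats 0 in
theorem k_c0 : cntC 72000 tq = 1389 := by decide +kernel

set_option maxHeartbeats 0 in
theorem k_c1 : cntC 72000 (fun i => tq (Nat.add 72000 i)) = 1206 := by decide +kernel

set_option maxHeartbeats 0 in
theorem k_c2 : cntC 72000 (fun i => tq (Nat.add 144000 i)) = 840 := by decide +kernel

set_option maxHeartbeats 0 in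
theorem k_c3 : cntC 72000 (fun i => tq (Nat.add 216000 i)) = 360 := by decide +kernel

set_option maxHeartbeats 0 in
theorem k_c4 : cntC 72000 (fun i => tq (Nat.add 288000 i)) = 0 := by decide +kernel

set_option maxHeartbeats 0 in
theorem k_c5 : cntC 72000 (fun i => tq (Nat.add 360000 i)) = 0 := by decide +kernel

set_option maxHeartbeats 0 in
theorem k_c6 : cntC 72000 (fun i => tq (Nat.add 432000 i)) = 0 := by decide +kernel

set_option maxHeartbeats 0 in
theorem k_c7 : cntC 72000 (fun i => tq (Nat.add 504000 i)) = 0 := by decide +kernel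

set_option maxHeartbeats 0 in
theorem k_c8 : cntC 81 (fun i => tq (Nat.add 576000 i)) = 0 := by decide +kernel

attribute [local irreducible] cntC in
theorem k_total : cntC 576081 tq = 3795 :=
  (cntC_split (cntC_split (cntC_split (cntC_split (cntC_split (cntC_split (cntC_split (cntC_split k_c0 k_c1) k_c2) k_c3) k_c4) k_c5) k_c6) k_c7) k_c8)

/-- The complement of the union of two disjoint octads is an octad, and the code has exactly 3795 trios of pairwise disjoint octads. -/
theorem result : (∀ o o' : Finset Cfsg.GolayPt, o ∈ Cfsg.octads → o' ∈ Cfsg.octads → Disjoint o o' → (o ∪ o')ᶜ ∈ Cfsg.octads) ∧ Cfsg.trios.ncard = 3795 := by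

  refine ⟨fun o o' ho ho' hd => third_octad ho ho' hd, ?_⟩
  rw [ncard_trios_eq, k_total]

end Cfsg.Agent.S1557
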