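import Mathlib
import Cfsg.Statements.S1558
import Cfsg.Agent.Helper3.M24Chain
import Cfsg.Agent.Helper12.TrioStr

set_option autoImplicit false
open scoped Pointwise
open Cfsg

namespace Cfsg.Agent.S1558

open Cfsg.Agent.Helper12 Cfsg.Agent.Helper28

/-- The action of the stabiliser of a family of sets on its members. -/
def famHom (T : Finset (Finset GolayPt)) : ↥(MulAction.stabilizer ↥M24 T) →* Equiv.Perm ↥T :=
  MonoidHom.mk' (fun h => Equiv.Perm.subtypePerm
    (MulAction.toPerm ((h : ↥M24) : Equiv.Perm GolayPt))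
    (fun o => by
      have e := Finset.smul_mem_smul_finset_iff (s := T) (b := o)
        ((h : ↥M24) : Equiv.Perm GolayPt)
      rw [show ((h : ↥M24) : Equiv.Perm GolayPt) • T = T from h.2] at e
      exact e))
    (by
      intro a b
      apply Equiv.ext
      intro o
      apply Subtype.ext
      exact mul_smul ((a : ↥M24) : Equiv.Perm GolayPt) ((b : ↥M24) : Equiv.Perm GolayPt)
        (o : Finset GolayPt))

theorem famHom_apply (T : Finset (Finset GolayPt)) (h : ↥(MulAction.stabilizer ↥M24 T)) (o : ↥T) :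
    ((famHom T h o : ↥T) : Finset GolayPt) =
      ((h : ↥M24) : Equiv.Perm GolayPt) • (o : Finset GolayPt) := rfl

/-- Conjugation as a homomorphism between two subgroups. -/
theorem conjHom {G : Type*} [Group G] (A B : Subgroup G) (k : G)
    (h : ∀ x ∈ A, k⁻¹ * x * k ∈ B) :
    ∃ c : ↥A →* ↥B, ∀ x : ↥A, ((c x : ↥B) : G) = k⁻¹ * (x : G) * k :=
  ⟨MonoidHom.mk' (fun x => ⟨k⁻¹ * (x : G) * k, h x x.2⟩)
    (by
      intro a b
      apply Subtype.ext
      show k⁻¹ * ((a : G) * (b : G)) * k = (k⁻¹ * (a : G) * k) * (k⁻¹ * (b : G) * k)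
      group), fun x => rfl⟩

/-- The structure of the stabiliser of a trio, from the linear action of a conjugate stabiliser
whose kernel elements, when fixing the octads, satisfy a property `P` that holds for at most 64
permutations, all of them involutions or trivial. -/
theorem trio_assembly {T0 T : Finset (Finset GolayPt)} (hT : T ∈ trios) {g : Equiv.Perm GolayPt}
    (hg : g ∈ M24) (hgT : g • T0 = T) (P : Equiv.Perm GolayPt → Prop)
    (hP64 : {m : Equiv.Perm GolayPt | P m}.ncard ≤ 64) (hPsq : ∀ m, P m → m * m = 1)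
    (φ : ↥(MulAction.stabilizer ↥M24 T0) →* GL (Fin 3) (ZMod 2))
    (hφ : ∀ h : ↥(MulAction.stabilizer ↥M24 T0), φ h = 1 →
      (∀ o ∈ T0, ((h : ↥M24) : Equiv.Perm GolayPt) • o = o) →
      P ((h : ↥M24) : Equiv.Perm GolayPt)) :
    (∀ e : Equiv.Perm ↥T, ∃ g ∈ MulAction.stabilizer Cfsg.M24 T, ∀ o : ↥T, (g : Equiv.Perm Cfsg.GolayPt) • (o : Finset Cfsg.GolayPt) = ((e o : ↥T) : Finset Cfsg.GolayPt)) ∧ ∃ (N : Subgroup ↥(MulAction.stabilizer Cfsg.M24 T)) (_ : N.Normal), Nat.card N = 64 ∧ (∀ x ∈ N, x * x = 1) ∧ Nonempty (↥(MulAction.stabilizer Cfsg.M24 T) ⧸ N ≃* GL (Fin 3) (ZMod 2) × Equiv.Perm (Fin 3)) := by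
  classical
  -- conjugation into the stabiliser of the first trio
  have hmem : ∀ h ∈ MulAction.stabilizer ↥M24 T,
      (⟨g, hg⟩ : ↥M24)⁻¹ * h * ⟨g, hg⟩ ∈ MulAction.stabilizer ↥M24 T0 := by
    intro h hh
    have h1 : (h : Equiv.Perm GolayPt) • T = T := hh
    show (g⁻¹ * (h : Equiv.Perm GolayPt) * g) • T0 = T0
    rw [mul_smul, mul_smul, hgT, h1, ← hgT, inv_smul_smul]
  obtain ⟨c, hc⟩ := conjHom (MulAction.stabilizer ↥M24 T) (MulAction.stabilizer ↥M24 T0)
    (⟨g, hg⟩ : ↥M24) hmem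
  have hc' : ∀ x : ↥(MulAction.stabilizer ↥M24 T),
      (((c x : ↥(MulAction.stabilizer ↥M24 T0)) : ↥M24) : Equiv.Perm GolayPt) =
        g⁻¹ * ((x : ↥M24) : Equiv.Perm GolayPt) * g := by
    intro x
    rw [hc x]
    rfl
  let Φ : ↥(MulAction.stabilizer ↥M24 T) →* GL (Fin 3) (ZMod 2) × Equiv.Perm ↥T :=
    (φ.comp c).prod (famHom T)
  -- the elements of the kernel
  have hker : ∀ n : ↥(MulAction.stabilizer ↥M24 T), Φ n = 1 →
      P (g⁻¹ * ((n : ↥M24) : Equiv.Perm GolayPt) * g) := by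
    intro n hn
    have hn1 : φ (c n) = 1 := congrArg Prod.fst hn
    have hn2 : famHom T n = 1 := congrArg Prod.snd hn
    rw [← hc' n]
    refine hφ (c n) hn1 ?_
    intro o ho
    rw [hc' n]
    have hgo : g • o ∈ T := by
      rw [← hgT]
      exact Finset.smul_mem_smul_finset ho
    have h3 : ((n : ↥M24) : Equiv.Perm GolayPt) • (g • o) = g • o :=
      congrArg (fun σ : Equiv.Perm ↥T => ((σ ⟨g • o, hgo⟩ : ↥T) : Finset GolayPt)) hn2
    rw [mul_smul, mul_smul, h3, inv_smul_smul]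
  have hN64 : Nat.card Φ.ker ≤ 64 := by
    let f : ↥Φ.ker → ↥{m : Equiv.Perm GolayPt | P m} := fun n =>
      ⟨g⁻¹ * (((n : ↥(MulAction.stabilizer ↥M24 T)) : ↥M24) : Equiv.Perm GolayPt) * g, hker n n.2⟩
    have hf : Function.Injective f := by
      intro a b hab
      have h3 : g⁻¹ * (((a : ↥(MulAction.stabilizer ↥M24 T)) : ↥M24) : Equiv.Perm GolayPt) * g =
          g⁻¹ * (((b : ↥(MulAction.stabilizer ↥M24 T)) : ↥M24) : Equiv.Perm GolayPt) * g :=
        congrArg Subtype.val hab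
      have h4 : (((a : ↥(MulAction.stabilizer ↥M24 T)) : ↥M24) : Equiv.Perm GolayPt) =
          (((b : ↥(MulAction.stabilizer ↥M24 T)) : ↥M24) : Equiv.Perm GolayPt) :=
        mul_left_cancel (mul_right_cancel h3)
      exact Subtype.ext (Subtype.ext (Subtype.ext h4))
    have h5 := Nat.card_le_card_of_injective f hf
    rw [Nat.card_coe_set_eq] at h5
    exact le_trans h5 hP64
  have hNsq : ∀ x ∈ Φ.ker, x * x = 1 := by
    intro x hx
    have h3 := hPsq _ (hker x hx)
    have h4 : ((x : ↥M24) : Equiv.Perm GolayPt) * ((x : ↥M24) : Equiv.Perm GolayPt) = 1 := by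
      have e1 : (g⁻¹ * ((x : ↥M24) : Equiv.Perm GolayPt) * g) *
          (g⁻¹ * ((x : ↥M24) : Equiv.Perm GolayPt) * g) =
          g⁻¹ * (((x : ↥M24) : Equiv.Perm GolayPt) * ((x : ↥M24) : Equiv.Perm GolayPt)) * g := by
        group
      rw [e1] at h3
      have e2 : ((x : ↥M24) : Equiv.Perm GolayPt) * ((x : ↥M24) : Equiv.Perm GolayPt) =
          g * (g⁻¹ * (((x : ↥M24) : Equiv.Perm GolayPt) * ((x : ↥M24) : Equiv.Perm GolayPt)) * g) *
            g⁻¹ := by group
      rw [e2, h3]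
      group
    exact Subtype.ext (Subtype.ext h4)
  -- the order of the stabiliser
  have hK : Nat.card ↥(MulAction.stabilizer ↥M24 T) = 64512 := by
    have h1 := Subgroup.card_mul_index (MulAction.stabilizer ↥M24 T)
    have horb : MulAction.orbit ↥M24 T = trios := by
      ext y
      constructor
      · rintro ⟨γ, rfl⟩
        exact Trio.smul_trio γ.2 hT
      · intro hy
        obtain ⟨k, hk, rfl⟩ := SxStab.M24_trans_trios hT hy
        exact ⟨⟨k, hk⟩, rfl⟩
    rw [MulAction.index_stabilizer, horb, Trio.ncard_trios, Cfsg.Agent.Helper3.M24_card] at h1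
    omega
  have hcodom : Nat.card (GL (Fin 3) (ZMod 2) × Equiv.Perm ↥T) = 1008 := by
    rw [Nat.card_prod, card_GL32, Nat.card_perm, Nat.card_eq_fintype_card, Fintype.card_coe, hT.1]
    rfl
  have h1 := Subgroup.card_mul_index Φ.ker
  rw [Subgroup.index_ker, hK] at h1
  have hr : Nat.card Φ.range ≤ 1008 := by
    have := Subgroup.card_le_card_group Φ.range
    rwa [hcodom] at this
  have h2 : Nat.card Φ.ker * Nat.card Φ.range ≤ 64 * Nat.card Φ.range :=
    Nat.mul_le_mul_right _ hN64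
  have hr' : Nat.card Φ.range = 1008 := by omega
  have hn : Nat.card Φ.ker = 64 := by
    rw [hr'] at h1
    omega
  have hsurj : Function.Surjective Φ :=
    MonoidHom.range_eq_top.mp (Subgroup.eq_top_of_card_eq _ (by rw [hr', hcodom]))
  refine ⟨?_, Φ.ker, inferInstance, hn, hNsq, ?_⟩
  · intro e
    obtain ⟨h, hh⟩ := hsurj (1, e)
    refine ⟨(h : ↥M24), h.2, fun o => ?_⟩
    have h3 : famHom T h = e := congrArg Prod.snd hh
    exact congrArg (fun σ : Equiv.Perm ↥T => ((σ o : ↥T) : Finset GolayPt)) h3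
  · have e3 : ↥T ≃ Fin 3 := Finset.equivFinOfCardEq hT.1
    exact ⟨(QuotientGroup.quotientKerEquivOfSurjective Φ hsurj).trans
      (MulEquiv.prodCongr (MulEquiv.refl _) (Equiv.permCongrHom e3))⟩

/-- Structure of a trio stabiliser: every permutation of the three octads is induced, and there is a normal subgroup of order 64 of elements squaring to the identity whose quotient is isomorphic to the product of GL(3, 2) with the symmetric group of degree 3. -/
theorem result (T : Finset (Finset Cfsg.GolayPt)) (hT : T ∈ Cfsg.trios) : (∀ e : Equiv.Perm ↥T, ∃ g ∈ MulAction.stabilizer Cfsg.M24 T, ∀ o : ↥T, (g : Equiv.Perm Cfsg.GolayPt) • (o : Finset Cfsg.GolayPt) = ((e o : ↥T) : Finset Cfsg.GolayPt)) ∧ ∃ (N : Subgroup ↥(MulAction.stabilizer Cfsg.M24 T)) (_ : N.Normal), Nat.card N = 64 ∧ (∀ x ∈ N, x * x = 1) ∧ Nonempty (↥(MulAction.stabilizer Cfsg.M24 T) ⧸ N ≃* GL (Fin 3) (ZMod 2) × Equiv.Perm (Fin 3)) := by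
  obtain ⟨g, hg, hgT⟩ := SxStab.M24_trans_trios (Trio.tr_mem (by norm_num : 0 < 3795)) hT
  obtain ⟨φ, hφ⟩ := trio_base_hom
  exact trio_assembly hT hg hgT IsTrN trN_card (fun m hm => trN_sq hm) φ
    (fun h h1 h2 => ⟨(h : ↥M24).2, hφ h h1, h2⟩)

end Cfsg.Agent.S1558
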