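import Cfsg.Statements.S1559
import Cfsg.Agent.Helper28.TrStab

set_option autoImplicit false
open scoped Pointwise
open Cfsg

namespace Cfsg.Agent.S1559

open Cfsg.Agent.Helper12 Cfsg.Agent.Helper28 Cfsg.Agent.Helper28.Sext Cfsg.Agent.Helper28.Trio
open Cfsg.Agent.Helper28.SxStab Cfsg.Agent.Helper28.TrStab Cfsg.Agent.Helper28.Orb5

theorem orbit_self (S : Finset (Finset GolayPt)) :
    MulAction.orbit ↥(MulAction.stabilizer ↥M24 S) S = {S} := by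
  ext y
  constructor
  · rintro ⟨h, rfl⟩
    exact h.2
  · rintro rfl
    exact MulAction.mem_orbit_self _

theorem orbit_M24 (T : Finset (Finset GolayPt)) (hT : T ∈ trios) :
    MulAction.orbit ↥M24 T = trios := by
  ext y
  constructor
  · rintro ⟨g, rfl⟩
    exact smul_trio g.2 hT
  · intro hy
    obtain ⟨g, hg, rfl⟩ := M24_trans_trios hT hy
    exact ⟨⟨g, hg⟩, rfl⟩

theorem arith : ∀ e1 e2 e3 e4 : ℕ, (e1 = 0 ∨ e1 = 42) → (e2 = 0 ∨ e2 = 56) →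
    (e3 = 0 ∨ e3 = 1008) → (e4 = 0 ∨ e4 = 2688) → (1 + e1 + e2 + e3 + e4) ∣ 3795 →
    (1 + e1 + e2 + e3 + e4 = 1) ∨ (1 + e1 + e2 + e3 + e4 = 3795) := by
  rintro e1 e2 e3 e4 (rfl | rfl) (rfl | rfl) (rfl | rfl) (rfl | rfl) h <;> revert h <;> decide

/-- A trio stabiliser has five orbits on the 3795 trios, of sizes 1, 42, 56, 1008, 2688; and the stabiliser is a maximal proper subgroup. -/
theorem result (T : Finset (Finset Cfsg.GolayPt)) (hT : T ∈ Cfsg.trios) : ∃ X₁ ∈ Cfsg.trios, ∃ X₂ ∈ Cfsg.trios, ∃ X₃ ∈ Cfsg.trios, ∃ X₄ ∈ Cfsg.trios, (MulAction.orbit ↥(MulAction.stabilizer Cfsg.M24 T) X₁).ncard = 42 ∧ (MulAction.orbit ↥(MulAction.stabilizer Cfsg.M24 T) X₂).ncard = 56 ∧ (MulAction.orbit ↥(MulAction.stabilizer Cfsg.M24 T) X₃).ncard = 1008 ∧ (MulAction.orbit ↥(MulAction.stabilizer Cfsg.M24 T) X₄).ncard = 2688 ∧ Cfsg.trios = {T} ∪ MulAction.orbit ↥(MulAction.stabilizer Cfsg.M24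 T) X₁ ∪ MulAction.orbit ↥(MulAction.stabilizer Cfsg.M24 T) X₂ ∪ MulAction.orbit ↥(MulAction.stabilizer Cfsg.M24 T) X₃ ∪ MulAction.orbit ↥(MulAction.stabilizer Cfsg.M24 T) X₄ ∧ IsCoatom (MulAction.stabilizer Cfsg.M24 T) := by
  obtain ⟨g0, hg0, rfl⟩ := M24_trans_trios (tr_mem (by norm_num : 0 < 3795)) hT
  obtain ⟨X₁, hX₁, X₂, hX₂, X₃, hX₃, X₄, hX₄, X₅, hX₅, c1, c2, c3, c4, c5, hun⟩ :=
    transport5 (G := ↥M24) trios (fun g b hb => smul_trio g.2 hb) (tr 0) ⟨g0, hg0⟩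
      1 42 56 1008 2688 trios_T0
  have hself := orbit_self ((⟨g0, hg0⟩ : ↥M24) • tr 0)
  have hT' : (⟨g0, hg0⟩ : ↥M24) • tr 0 ∈ trios := hT
  have h1 : MulAction.orbit ↥(MulAction.stabilizer ↥M24 ((⟨g0, hg0⟩ : ↥M24) • tr 0)) X₁ =
      {(⟨g0, hg0⟩ : ↥M24) • tr 0} := by
    have hmem := hT'
    rw [hun] at hmem
    rcases hmem with (((h | h) | h) | h) | h
    · rw [← MulAction.orbit_eq_iff.2 h, hself]
    · exfalso
      rw [← MulAction.orbit_eq_iff.2 h, hself, Set.ncard_singleton] at c2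
      omega
    · exfalso
      rw [← MulAction.orbit_eq_iff.2 h, hself, Set.ncard_singleton] at c3
      omega
    · exfalso
      rw [← MulAction.orbit_eq_iff.2 h, hself, Set.ncard_singleton] at c4
      omega
    · exfalso
      rw [← MulAction.orbit_eq_iff.2 h, hself, Set.ncard_singleton] at c5
      omega
  rw [h1] at hun
  refine ⟨X₂, hX₂, X₃, hX₃, X₄, hX₄, X₅, hX₅, c2, c3, c4, c5, hun, ?_⟩
  have hN : (MulAction.orbit ↥M24 ((⟨g0, hg0⟩ : ↥M24) • tr 0)).ncard = 3795 := by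
    rw [orbit_M24 _ hT', ncard_trios]
  have hun' : MulAction.orbit ↥M24 ((⟨g0, hg0⟩ : ↥M24) • tr 0) = _ :=
    (orbit_M24 _ hT').trans hun
  exact coatom_of_four_orbits (G := ↥M24) _ X₂ X₃ X₄ X₅ 42 56 1008 2688 3795 hN c2 c3 c4 c5 hun'
    (by norm_num) (by norm_num) arith

end Cfsg.Agent.S1559
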