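import Mathlib
import Cfsg.Statements.S1560
import Cfsg.Agent.Helper12.GolayM24

set_option autoImplicit false
open scoped Pointwise
open Cfsg

namespace Cfsg.Agent.S1560

open Cfsg.Agent.Helper12

theorem card_smul_inter_left (g : Equiv.Perm GolayPt) (a b : Finset GolayPt) :
    ((g • a) ∩ b).card = (a ∩ (g⁻¹ • b)).card := by
  conv_lhs => rw [← smul_inv_smul g b]
  exact card_smul_inter g a (g⁻¹ • b)

theorem ncard_transport (g : Equiv.Perm GolayPt) (S T : Set (Finset GolayPt))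
    (h : ∀ b, b ∈ S ↔ g⁻¹ • b ∈ T) : S.ncard = T.ncard := by
  have : S = (fun b => g • b) '' T := by
    ext b
    rw [h b]
    constructor
    · intro hb; exact ⟨g⁻¹ • b, hb, smul_inv_smul g b⟩
    · rintro ⟨c, hc, rfl⟩; rwa [inv_smul_smul]
  rw [this, Set.ncard_image_of_injective _ (MulAction.injective g)]

theorem base_a : allB 2576 (fun k => Nat.beq k 0 || (fun c => Nat.beq c 0 || Nat.beq c 4 || Nat.beq c 6
    || Nat.beq c 8) (popc (Nat.land (get24 DA 0) (get24 DA k)))) = true := by decide +kernel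

theorem base_4 : cntB 2576 (fun k => Nat.beq (popc (Nat.land (get24 DA 0) (get24 DA k))) 4) = 495 := by
  decide +kernel

theorem base_6 : cntB 2576 (fun k => Nat.beq (popc (Nat.land (get24 DA 0) (get24 DA k))) 6) = 1584 := by
  decide +kernel

theorem base_8 : cntB 2576 (fun k => Nat.beq (popc (Nat.land (get24 DA 0) (get24 DA k))) 8) = 495 := by
  decide +kernel

theorem card_inter_DA (k : ℕ) : (ofMask (get24 DA 0) ∩ ofMask (get24 DA k)).card
    = popc (Nat.land (get24 DA 0) (get24 DA k)) := by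
  rw [← ofMask_and, card_ofMask]; rfl

theorem base_count (c : ℕ) : {d' : Finset GolayPt | d' ∈ dodecads ∧ (ofMask (get24 DA 0) ∩ d').card = c}.ncard
    = cntB 2576 (fun k => Nat.beq (popc (Nat.land (get24 DA 0) (get24 DA k))) c) := by
  apply ncard_eq_cntB DA_strictMono
  intro s
  simp only [Set.mem_setOf_eq, mem_dodecads_iff, Nat.beq_eq]
  constructor
  · rintro ⟨⟨k, hk, rfl⟩, h⟩
    exact ⟨k, hk, by rw [← card_inter_DA, h], rfl⟩
  · rintro ⟨k, hk, h, rfl⟩
    exact ⟨⟨k, hk, rfl⟩, by rw [card_inter_DA, h]⟩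

theorem count_transport {g : Equiv.Perm GolayPt} (hg : g ∈ M24) (d0 : Finset GolayPt) (c : ℕ) :
    {d' : Finset GolayPt | d' ∈ dodecads ∧ ((g • d0) ∩ d').card = c}.ncard
      = {d' : Finset GolayPt | d' ∈ dodecads ∧ (d0 ∩ d').card = c}.ncard := by
  apply ncard_transport g
  intro b
  simp only [Set.mem_setOf_eq]
  rw [smul_mem_dodecads (inv_mem hg), card_smul_inter_left]

/-- Intersections of dodecads and their counts -/
theorem result (d : Finset Cfsg.GolayPt) (hd : d ∈ Cfsg.dodecads) : (∀ d' ∈ Cfsg.dodecads, d' ≠ d → (d ∩ d').card = 0 ∨ (d ∩ d').card = 4 ∨ (d ∩ d').card = 6 ∨ (d ∩ d').card = 8) ∧ {d' : Finset Cfsg.GolayPt | d' ∈ Cfsg.dodecads ∧ (d ∩ d').card = 4}.ncard = 495 ∧ {d' : Finset Cfsg.GolayPt | d' ∈ Cfsg.dodecads ∧ (d ∩ d').card = 6}.ncard = 1584 ∧ {d' : Finset Cfsg.GolayPt | d' ∈ Cfsg.dodecads ∧ (d ∩ d').card = 8}.ncard = 495 := by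
  obtain ⟨g, hg, rfl⟩ := M24_trans_dodecads (DA_mem (by norm_num : 0 < 2576)) hd
  refine ⟨?_, ?_, ?_, ?_⟩
  · intro d' hd' hne
    rw [card_smul_inter_left]
    have hd'' : g⁻¹ • d' ∈ dodecads := (smul_mem_dodecads (inv_mem hg)).mpr hd'
    obtain ⟨k, hk, e⟩ := (mem_dodecads_iff _).mp hd''
    rw [e, card_inter_DA]
    have h := allB_spec base_a k hk
    simp only [Bool.or_eq_true, Nat.beq_eq] at h
    rcases h with h | h
    · exfalso
      apply hne
      rw [← smul_inv_smul g d', e, h]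
    · tauto
  · rw [count_transport hg, base_count, base_4]
  · rw [count_transport hg, base_count, base_6]
  · rw [count_transport hg, base_count, base_8]

end Cfsg.Agent.S1560
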