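import Cfsg.Statements.S1567
import Cfsg.Agent.Helper28.Leech
import Cfsg.Agent.S0433

set_option autoImplicit false
open Cfsg

namespace Cfsg.Agent.S1567

open Cfsg.Agent.Helper28.Leech Cfsg.Agent.Helper28.Code

/-- vectors with all coordinates divisible by 4 and sum divisible by 8 lie in the lattice -/
theorem mem_of_four_dvd (x : GolayPt → ℤ) (h4 : ∀ i, (4 : ℤ) ∣ x i) (h8 : (8 : ℤ) ∣ ∑ i, x i) :
    x ∈ leechLattice := by
  rw [mem_leechLattice_iff, mem_leechSet_iff]
  refine ⟨0, ?_, ?_, ?_⟩
  · intro i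
    obtain ⟨k, hk⟩ := h4 i
    rw [hk]
    exact (Int.modEq_zero_iff_dvd.mpr ⟨2 * k, by ring⟩)
  · rw [mul_zero]
    exact Int.modEq_zero_iff_dvd.mpr h8
  · have hr : res x 0 = Finset.univ := by
      ext i
      rw [mem_res]
      simp only [Finset.mem_univ, iff_true]
      exact Int.modEq_zero_iff_dvd.mpr (h4 i)
    rw [hr, ofSet_univ]
    exact one_mem

theorem sqNorm_pair (i j : GolayPt) (hij : i ≠ j) (a b : ℤ) :
    sqNorm (Pi.single i a + Pi.single j b : GolayPt → ℤ) = a ^ 2 + b ^ 2 := by
  unfold sqNorm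
  have h : ∀ k : GolayPt, ((Pi.single i a + Pi.single j b : GolayPt → ℤ) k) ^ 2 =
      (Pi.single i (a ^ 2) : GolayPt → ℤ) k + (Pi.single j (b ^ 2) : GolayPt → ℤ) k := by
    intro k
    simp only [Pi.add_apply, Pi.single_apply]
    by_cases h1 : k = i
    · have h2 : k ≠ j := fun h => hij (h1.symm.trans h)
      simp [h1, hij]
    · by_cases h2 : k = j
      · simp [h2, Ne.symm hij]
      · simp [h1, h2]
  rw [Finset.sum_congr rfl (fun k _ => h k), Finset.sum_add_distrib]
  simp

theorem pair_mem (i j : GolayPt) (a b : ℤ) (ha : (4 : ℤ) ∣ a) (hb : (4 : ℤ) ∣ b)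
    (hab : (8 : ℤ) ∣ a + b) : (Pi.single i a + Pi.single j b : GolayPt → ℤ) ∈ leechLattice := by
  apply mem_of_four_dvd
  · intro k
    simp only [Pi.add_apply, Pi.single_apply]
    split_ifs
    · exact dvd_add ha hb
    · simpa using ha
    · simpa using hb
    · simp
  · have : ∑ k, (Pi.single i a + Pi.single j b : GolayPt → ℤ) k = a + b := by
      simp [Finset.sum_add_distrib]
    rw [this]; exact hab


/-- the subgroup generated by the minimal vectors -/
abbrev Mn : AddSubgroup (GolayPt → ℤ) :=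
  AddSubgroup.closure {x : GolayPt → ℤ | x ∈ leechLattice ∧ sqNorm x = 32}

theorem min_mem {x : GolayPt → ℤ} (hx : x ∈ leechLattice) (hn : sqNorm x = 32) : x ∈ Mn :=
  AddSubgroup.subset_closure ⟨hx, hn⟩

theorem pair_min (i j : GolayPt) (hij : i ≠ j) (a b : ℤ) (ha : a = 4 ∨ a = -4)
    (hb : b = 4 ∨ b = -4) : (Pi.single i a + Pi.single j b : GolayPt → ℤ) ∈ Mn := by
  apply min_mem
  · apply pair_mem
    · rcases ha with rfl | rfl <;> norm_num
    · rcases hb with rfl | rfl <;> norm_num
    · rcases ha with rfl | rfl <;> rcases hb with rfl | rfl <;> norm_num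
  · rw [sqNorm_pair i j hij]
    rcases ha with rfl | rfl <;> rcases hb with rfl | rfl <;> norm_num

theorem single8_mem (i : GolayPt) : (Pi.single i 8 : GolayPt → ℤ) ∈ Mn := by
  obtain ⟨j, hj⟩ : ∃ j : GolayPt, i ≠ j := by
    by_cases h : i = none
    · exact ⟨some 0, by rw [h]; exact (Option.some_ne_none _).symm⟩
    · exact ⟨none, h⟩
  have h1 := pair_min i j hj 4 4 (Or.inl rfl) (Or.inl rfl)
  have h2 := pair_min i j hj 4 (-4) (Or.inl rfl) (Or.inr rfl)
  have e : (Pi.single i 8 : GolayPt → ℤ) =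
      (Pi.single i 4 + Pi.single j 4) + (Pi.single i 4 + Pi.single j (-4)) := by
    funext k
    simp only [Pi.add_apply, Pi.single_apply]
    split_ifs <;> norm_num
  rw [e]
  exact Mn.add_mem h1 h2

theorem diff_mem (i j : GolayPt) : (Pi.single i 4 - Pi.single j 4 : GolayPt → ℤ) ∈ Mn := by
  by_cases hij : i = j
  · rw [hij, sub_self]; exact Mn.zero_mem
  · have h := pair_min i j hij 4 (-4) (Or.inl rfl) (Or.inr rfl)
    have e : (Pi.single i 4 - Pi.single j 4 : GolayPt → ℤ) = Pi.single i 4 + Pi.single j (-4) := by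
      funext k
      simp only [Pi.add_apply, Pi.sub_apply, Pi.single_apply]
      split_ifs <;> norm_num
    rw [e]; exact h

/-- lattice vectors with all coordinates divisible by 4 are generated by minimal vectors -/
theorem four_mem (x : GolayPt → ℤ) (hx : x ∈ leechLattice) (h4 : ∀ i, (4 : ℤ) ∣ x i) : x ∈ Mn := by
  have h8 : (8 : ℤ) ∣ ∑ i, x i := by
    rw [mem_leechLattice_iff, mem_leechSet_iff] at hx
    obtain ⟨m, h1, h2, -⟩ := hx
    have hm : (2 : ℤ) ∣ m := by
      have := h1 none
      obtain ⟨k, hk⟩ := h4 none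
      rw [hk] at this
      have h' : m ≡ 0 [ZMOD 2] := this.symm.trans (Int.modEq_zero_iff_dvd.mpr ⟨2 * k, by ring⟩)
      exact Int.modEq_zero_iff_dvd.mp h'
    obtain ⟨k, hk⟩ := hm
    have : (4 * m) ≡ 0 [ZMOD 8] := Int.modEq_zero_iff_dvd.mpr ⟨k, by rw [hk]; ring⟩
    exact Int.modEq_zero_iff_dvd.mp (h2.trans this)
  choose y hy using h4
  have hsum : ∑ i, x i = 4 * ∑ i, y i := by
    rw [Finset.mul_sum]
    exact Finset.sum_congr rfl (fun i _ => hy i)
  obtain ⟨t, ht⟩ : ∃ t, ∑ i, y i = 2 * t := by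
    obtain ⟨k, hk⟩ := h8
    exact ⟨k, by omega⟩
  have e : x = ∑ i, y i • (Pi.single i 4 - Pi.single none 4 : GolayPt → ℤ) +
      t • (Pi.single none 8 : GolayPt → ℤ) := by
    funext k
    simp only [Pi.add_apply, Finset.sum_apply, Pi.smul_apply, Pi.sub_apply, Pi.single_apply,
      smul_eq_mul, mul_sub, Finset.sum_sub_distrib, mul_ite, mul_zero, Finset.sum_ite_eq,
      Finset.mem_univ, if_true]
    by_cases hk : k = none
    · simp only [hk, if_true]
      rw [← Finset.sum_mul, ht, hy none]
      ring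
    · simp only [hk, if_false, Finset.sum_const_zero]
      rw [hy k]; ring
  rw [e]
  refine Mn.add_mem (Mn.sum_mem (fun i _ => Mn.zsmul_mem (diff_mem i none) _)) ?_
  exact Mn.zsmul_mem (single8_mem none) _

/-- the minimal vector `(-3, 1, …, 1)` -/
def w0 : GolayPt → ℤ := fun i => if i = none then -3 else 1

theorem w0_mem : w0 ∈ leechLattice := by
  rw [mem_leechLattice_iff, mem_leechSet_iff]
  refine ⟨1, ?_, ?_, ?_⟩
  · intro i
    unfold w0
    split_ifs <;> decide
  · have : ∑ i, w0 i = 20 := by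
      unfold w0
      rw [Fintype.sum_option]
      simp
    rw [this]; decide
  · have hr : res w0 1 = Finset.univ := by
      ext i
      rw [mem_res]
      simp only [Finset.mem_univ, iff_true]
      unfold w0
      split_ifs <;> decide
    rw [hr, ofSet_univ]
    exact one_mem

theorem w0_norm : sqNorm w0 = 32 := by
  unfold sqNorm w0
  rw [Fintype.sum_option]
  simp

theorem sign_norm (c : Finset GolayPt) (x : GolayPt → ℤ) :
    sqNorm (fun i => if i ∈ c then -x i else x i) = sqNorm x := by
  unfold sqNorm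
  apply Finset.sum_congr rfl
  intro i _
  show (if i ∈ c then -x i else x i) ^ 2 = x i ^ 2
  split_ifs <;> ring

/-- lattice vectors with even coordinates are generated by minimal vectors -/
theorem even_mem (x : GolayPt → ℤ) (hx : x ∈ leechLattice) (h2 : ∀ i, (2 : ℤ) ∣ x i) : x ∈ Mn := by
  have hx' := (mem_leechLattice_iff x).mp hx
  have hc : (Finset.univ.filter fun i => x i ≡ 2 [ZMOD 4]) ∈
      supports (golayCode : Set (GolayPt → ZMod 2)) := by
    obtain ⟨m, -, -, h3⟩ := hx'
    exact h3 2
  have hw1 := Cfsg.Agent.S0433.result _ hc w0 w0_mem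
  have hw1n := sign_norm (Finset.univ.filter fun i => x i ≡ 2 [ZMOD 4]) w0
  have hv : w0 - (fun i => if i ∈ (Finset.univ.filter fun i => x i ≡ 2 [ZMOD 4]) then -w0 i else w0 i) ∈ Mn :=
    Mn.sub_mem (min_mem w0_mem w0_norm) (min_mem hw1 (hw1n.trans w0_norm))
  have hvL : w0 - (fun i => if i ∈ (Finset.univ.filter fun i => x i ≡ 2 [ZMOD 4]) then -w0 i else w0 i) ∈
      leechLattice := leechLattice.sub_mem w0_mem hw1
  have hd : x - (w0 - (fun i => if i ∈ (Finset.univ.filter fun i => x i ≡ 2 [ZMOD 4]) then -w0 i else w0 i)) ∈ Mn := by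
    apply four_mem _ (leechLattice.sub_mem hx hvL)
    intro i
    simp only [Pi.sub_apply]
    obtain ⟨k, hk⟩ := h2 i
    by_cases hi : x i ≡ 2 [ZMOD 4]
    · have hmem : i ∈ (Finset.univ.filter fun i => x i ≡ 2 [ZMOD 4]) := by simp [hi]
      rw [if_pos hmem]
      have hi' := Int.emod_emod_of_dvd (x i) (by norm_num : (4 : ℤ) ∣ 4)
      have : x i % 4 = 2 := by
        have := hi
        unfold Int.ModEq at this
        omega
      unfold w0
      split_ifs <;> omega
    · have hmem : i ∉ (Finset.univ.filter fun i => x i ≡ 2 [ZMOD 4]) := by simp [hi]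
      rw [if_neg hmem]
      have : x i % 4 ≠ 2 := by
        intro h; apply hi
        unfold Int.ModEq
        omega
      omega
  have := Mn.add_mem hd hv
  rw [sub_add_cancel] at this
  exact this

/-- The rank-24 lattice is the additive subgroup generated by its 196560 minimal vectors. -/
theorem result : AddSubgroup.closure {x : Cfsg.GolayPt → ℤ | x ∈ Cfsg.leechLattice ∧ Cfsg.sqNorm x = 32} = Cfsg.leechLattice := by
  apply le_antisymm
  · rw [AddSubgroup.closure_le]
    intro x hx
    exact hx.1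
  · intro x hx
    have hx' := (mem_leechLattice_iff x).mp hx
    obtain ⟨m, h1, -, -⟩ := (mem_leechSet_iff x).mp hx'
    by_cases hm : (2 : ℤ) ∣ m
    · apply even_mem x hx
      intro i
      have := h1 i
      exact Int.modEq_zero_iff_dvd.mp (this.trans (Int.modEq_zero_iff_dvd.mpr hm))
    · have hd : x - w0 ∈ Mn := by
        apply even_mem _ (leechLattice.sub_mem hx w0_mem)
        intro i
        simp only [Pi.sub_apply]
        have := h1 i
        unfold Int.ModEq at this
        have hm' : m % 2 = 1 := by omega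
        unfold w0
        split_ifs <;> omega
      have := Mn.add_mem hd (min_mem w0_mem w0_norm)
      rw [sub_add_cancel] at this
      exact this

end Cfsg.Agent.S1567
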