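import Cfsg.Statements.S1593
import Mathlib
import Cfsg.Agent.Helper28.TGolay

set_option autoImplicit false
open Cfsg

namespace Cfsg.Agent.S1593


/-- The only sign changes preserving the length-12 ternary code are the identity and negation of all coordinates. -/
theorem result (c : Cfsg.ArrayPt → (ZMod 3)ˣ) (h : (∀ x ∈ Cfsg.ternaryGolayCode, Cfsg.monomialMap 1 c x ∈ Cfsg.ternaryGolayCode)) : (∀ p, c p = 1) ∨ (∀ p, c p = -1) := by
  exact Cfsg.Agent.Helper28.TGolay.sign_changes c h

end Cfsg.Agent.S1593
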