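import Cfsg.Statements.S1595
import Cfsg.Agent.Helper3.Steiner

set_option autoImplicit false
open Cfsg

namespace Cfsg.Agent.S1595

open Finset

section aux
set_option linter.unusedSectionVars false
variable {α : Type*} [Fintype α] [DecidableEq α]

/-- number of blocks meeting `b` exactly in `u` -/
def Fc (B : Finset (Finset α)) (b u : Finset α) : ℕ := (B.filter (fun c => b ∩ c = u)).card

/-- number of blocks containing `s` and meeting `b` in `i` points -/
def Gc (B : Finset (Finset α)) (b s : Finset α) (i : ℕ) : ℕ :=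
  (B.filter (fun c => s ⊆ c ∧ (b ∩ c).card = i)).card

theorem N_eq (B : Finset (Finset α)) (b s : Finset α) (hb6 : b.card = 6) :
    (B.filter (fun c => s ⊆ c)).card = ∑ i ∈ range 7, Gc B b s i := by
  have := Finset.card_eq_sum_card_fiberwise (f := fun c => (b ∩ c).card)
    (s := B.filter (fun c => s ⊆ c)) (t := range 7) (fun c _ => mem_range.2 (by
      have := card_le_card (inter_subset_left : b ∩ c ⊆ b)
      show (b ∩ c).card < 7
      omega))
  rw [this]
  apply sum_congr rfl
  intro i _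
  unfold Gc
  rw [filter_filter]

theorem Gc_eq (B : Finset (Finset α)) (b s : Finset α) (hsb : s ⊆ b) (i : ℕ) (hi : s.card ≤ i)
    (φ : ℕ) (hφ : ∀ u ⊆ b, u.card = i → Fc B b u = φ) :
    Gc B b s i = Nat.choose (b.card - s.card) (i - s.card) * φ := by
  unfold Gc
  have := Finset.card_eq_sum_card_fiberwise (f := fun c => b ∩ c)
    (s := B.filter (fun c => s ⊆ c ∧ (b ∩ c).card = i))
    (t := (powersetCard i b).filter (fun u => s ⊆ u)) (by
      intro c hc
      have hc' := Finset.mem_coe.mp hc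
      rw [mem_filter] at hc'
      refine Finset.mem_coe.mpr ?_
      rw [mem_filter, mem_powersetCard]
      exact ⟨⟨inter_subset_left, hc'.2.2⟩, subset_inter hsb hc'.2.1⟩)
  rw [this]
  rw [sum_congr rfl (g := fun _ => φ)]
  · rw [sum_const, smul_eq_mul, Cfsg.Agent.Helper3.card_superset_powersetCard s b hsb i hi]
  · intro u hu
    simp only [mem_filter, mem_powersetCard] at hu
    rw [← hφ u hu.1.1 hu.1.2]
    unfold Fc
    congr 1
    ext c
    simp only [mem_filter]
    constructor
    · rintro ⟨⟨hc, _, _⟩, h⟩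
      exact ⟨hc, h⟩
    · rintro ⟨hc, h⟩
      exact ⟨⟨hc, (h ▸ hu.2).trans inter_subset_right, by rw [h]; exact hu.1.2⟩, h⟩

theorem Gc_self (B : Finset (Finset α)) (b s : Finset α) (hsb : s ⊆ b) :
    Gc B b s s.card = Fc B b s := by
  unfold Gc Fc
  congr 1
  ext c
  simp only [mem_filter]
  constructor
  · rintro ⟨hc, hsc, hcard⟩
    exact ⟨hc, (eq_of_subset_of_card_le (subset_inter hsb hsc) (le_of_eq hcard)).symm⟩
  · rintro ⟨hc, h⟩
    exact ⟨hc, h ▸ inter_subset_right, by rw [h]⟩

theorem Gc_lt (B : Finset (Finset α)) (b s : Finset α) (hsb : s ⊆ b) (i : ℕ) (hi : i < s.card) :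
    Gc B b s i = 0 := by
  unfold Gc
  rw [card_eq_zero, filter_eq_empty_iff]
  rintro c _ ⟨hsc, hcard⟩
  have := card_le_card (subset_inter hsb hsc)
  omega

theorem leech (hα : Fintype.card α = 12) {B : Finset (Finset α)}
    (hB : Cfsg.IsSteinerSystem 5 6 (B : Set (Finset α))) {b : Finset α} (hb : b ∈ B) :
    (∀ u ⊆ b, u.card = 1 → Fc B b u = 0) ∧ (∀ u ⊆ b, u.card = 2 → Fc B b u = 3) ∧
    (∀ u ⊆ b, u.card = 3 → Fc B b u = 2) ∧ (∀ u ⊆ b, u.card = 4 → Fc B b u = 3) := by
  have hk : b.card = 6 := hB.1 b hb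
  have lam : ∀ (j : ℕ), j ≤ 5 → ∀ (s : Finset α), s.card = j →
      (B.filter (fun c => s ⊆ c)).card * Nat.choose (6 - j) (5 - j) =
        Nat.choose (12 - j) (5 - j) := by
    intro j hj s hs
    have h := Cfsg.Agent.Helper3.blocks_through hB s (by omega)
    rwa [hs, hα] at h
  have F6 : ∀ u ⊆ b, u.card = 6 → Fc B b u = 1 := by
    intro u hub hu
    have hub' : u = b := eq_of_subset_of_card_le hub (by rw [hk, hu])
    rw [hub']
    unfold Fc
    rw [card_eq_one]
    refine ⟨b, ?_⟩
    ext c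
    simp only [mem_filter, mem_singleton]
    constructor
    · rintro ⟨hc, h⟩
      exact (Cfsg.Agent.Helper3.block_eq_of_inter hB hb hc (by rw [h, hk]; norm_num)).symm
    · rintro rfl
      exact ⟨hb, inter_self _⟩
  have F5 : ∀ u ⊆ b, u.card = 5 → Fc B b u = 0 := by
    intro u hub hu
    unfold Fc
    rw [card_eq_zero, filter_eq_empty_iff]
    intro c hc h
    have e := Cfsg.Agent.Helper3.block_eq_of_inter hB hb hc (by rw [h, hu])
    rw [← e, inter_self] at h
    rw [← h, hk] at hu
    omega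
  have F4 : ∀ u ⊆ b, u.card = 4 → Fc B b u = 3 := by
    intro u hub hu
    have hN := lam 4 (by norm_num) u hu
    rw [N_eq B b u hk] at hN
    simp only [sum_range_succ, sum_range_zero] at hN
    have hs := Gc_self B b u hub
    rw [hu] at hs
    rw [Gc_lt B b u hub 0 (by omega), Gc_lt B b u hub 1 (by omega), Gc_lt B b u hub 2 (by omega),
      Gc_lt B b u hub 3 (by omega), hs, Gc_eq B b u hub 5 (by omega) 0 F5,
      Gc_eq B b u hub 6 (by omega) 1 F6, hk, hu] at hN
    norm_num [Nat.choose] at hN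
    omega
  have F3 : ∀ u ⊆ b, u.card = 3 → Fc B b u = 2 := by
    intro u hub hu
    have hN := lam 3 (by norm_num) u hu
    rw [N_eq B b u hk] at hN
    simp only [sum_range_succ, sum_range_zero] at hN
    have hs := Gc_self B b u hub
    rw [hu] at hs
    rw [Gc_lt B b u hub 0 (by omega), Gc_lt B b u hub 1 (by omega), Gc_lt B b u hub 2 (by omega),
      hs, Gc_eq B b u hub 4 (by omega) 3 F4, Gc_eq B b u hub 5 (by omega) 0 F5,
      Gc_eq B b u hub 6 (by omega) 1 F6, hk, hu] at hN
    norm_num [Nat.choose] at hN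
    omega
  have F2 : ∀ u ⊆ b, u.card = 2 → Fc B b u = 3 := by
    intro u hub hu
    have hN := lam 2 (by norm_num) u hu
    rw [N_eq B b u hk] at hN
    simp only [sum_range_succ, sum_range_zero] at hN
    have hs := Gc_self B b u hub
    rw [hu] at hs
    rw [Gc_lt B b u hub 0 (by omega), Gc_lt B b u hub 1 (by omega),
      hs, Gc_eq B b u hub 3 (by omega) 2 F3, Gc_eq B b u hub 4 (by omega) 3 F4,
      Gc_eq B b u hub 5 (by omega) 0 F5,
      Gc_eq B b u hub 6 (by omega) 1 F6, hk, hu] at hN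
    norm_num [Nat.choose] at hN
    omega
  have F1 : ∀ u ⊆ b, u.card = 1 → Fc B b u = 0 := by
    intro u hub hu
    have hN := lam 1 (by norm_num) u hu
    rw [N_eq B b u hk] at hN
    simp only [sum_range_succ, sum_range_zero] at hN
    have hs := Gc_self B b u hub
    rw [hu] at hs
    rw [Gc_lt B b u hub 0 (by omega),
      hs, Gc_eq B b u hub 2 (by omega) 3 F2, Gc_eq B b u hub 3 (by omega) 2 F3,
      Gc_eq B b u hub 4 (by omega) 3 F4,
      Gc_eq B b u hub 5 (by omega) 0 F5,
      Gc_eq B b u hub 6 (by omega) 1 F6, hk, hu] at hN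
    norm_num [Nat.choose] at hN
    omega
  exact ⟨F1, F2, F3, F4⟩

end aux

/-- Leech triangle of S(5, 6, 12): blocks meet in 0, 2, 3 or 4 points, and a block is met exactly in a given 2-, 3- or 4-subset by 3, 2, 3 blocks respectively. -/
theorem result {α : Type*} [Fintype α] [DecidableEq α] (hα : Fintype.card α = 12) {B : Set (Finset α)} (hB : Cfsg.IsSteinerSystem 5 6 B) (b : Finset α) (hb : b ∈ B) : (∀ c ∈ B, c ≠ b → (b ∩ c).card = 0 ∨ (b ∩ c).card = 2 ∨ (b ∩ c).card = 3 ∨ (b ∩ c).card = 4) ∧ ∀ s ⊆ b, (s.card = 2 → {c : Finset α | c ∈ B ∧ b ∩ c = s}.ncard = 3) ∧ (s.card = 3 → {c : Finset α | c ∈ B ∧ b ∩ c = s}.ncard = 2) ∧ (s.card = 4 → {c : Finset α | c ∈ B ∧ b ∩ c = s}.ncard = 3) := by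
  obtain ⟨Bf, rfl⟩ := Cfsg.Agent.Helper3.exists_finset_coe B
  have hbB : b ∈ Bf := by exact_mod_cast hb
  have hk : b.card = 6 := hB.1 b hb
  obtain ⟨F1, F2, F3, F4⟩ := leech hα hB hbB
  have hset : ∀ s : Finset α, {c : Finset α | c ∈ (Bf : Set (Finset α)) ∧ b ∩ c = s}.ncard = Fc Bf b s := by
    intro s
    unfold Fc
    rw [← Set.ncard_coe_finset]
    congr 1
    ext c
    simp
  refine ⟨?_, ?_⟩
  · intro c hc hcb
    have hcB : c ∈ Bf := by exact_mod_cast hc
    have hle : (b ∩ c).card ≤ 6 := by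
      rw [← hk]; exact card_le_card inter_subset_left
    have h5 : ¬ 5 ≤ (b ∩ c).card := by
      intro h
      exact hcb (Cfsg.Agent.Helper3.block_eq_of_inter hB hb hc h).symm
    have h1 : (b ∩ c).card ≠ 1 := by
      intro h
      have := F1 (b ∩ c) inter_subset_left h
      unfold Fc at this
      rw [card_eq_zero, filter_eq_empty_iff] at this
      exact this hcB rfl
    omega
  · intro s hs
    refine ⟨fun h => ?_, fun h => ?_, fun h => ?_⟩
    · rw [hset]; exact F2 s hs h
    · rw [hset]; exact F3 s hs h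
    · rw [hset]; exact F4 s hs h

end Cfsg.Agent.S1595
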