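import Mathlib
import Cfsg.Statements.S1596
import Cfsg.Agent.Helper12.GolayQuartet

set_option autoImplicit false
open scoped Pointwise
open Cfsg

namespace Cfsg.Agent.S1596

open Cfsg.Agent.Helper12

/-- A quartet of a dodecad is determined by any two of its triples: two disjoint triples uniting to a hexad extend to exactly one quartet. -/
theorem result (d : Finset Cfsg.GolayPt) (hd : d ∈ Cfsg.dodecads) (t u : Finset Cfsg.GolayPt) (ht : t.card = 3) (hu : u.card = 3) (htu : Disjoint t u) (hh : t ∪ u ∈ Cfsg.hexadsOn d) : ∃! Q : Finset (Finset Cfsg.GolayPt), Q ∈ Cfsg.quartets d ∧ t ∈ Q ∧ u ∈ Q := by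
  obtain ⟨Q0, h1, h2, h3, h4⟩ := quartet_pair hd ht hu hh
  exact ⟨Q0, ⟨h1, h2, h3⟩, fun Q hQ => h4 Q hQ.1 hQ.2.1 hQ.2.2⟩

end Cfsg.Agent.S1596
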