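import Mathlib
import Cfsg.Statements.S1598
import Cfsg.Agent.S1599
import Cfsg.Agent.Helper12.GolayAff2

set_option autoImplicit false
open scoped Pointwise
open Cfsg

namespace Cfsg.Agent.S1598

open Cfsg.Agent.Helper12

/-- Orbit certificate on the points. -/
def pPA : ℕ := 0x1600001500001400001100001700000500000100001200001600000000000200001100000200000300000000000a00000600000900000000000700000400000e000000000000
/-- Orbit certificate on the points. -/
def pTA : ℕ := 0x1000000000001000001000001000001000000000001000000000001000000000000000001000001000001000000000001000000000001000000000001000000000000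
/-- Orbit certificate on the points. -/
def pRT : ℕ := 0x1000001000001000001000001000005000001000005000001000000000000000001000000000000000000000000000000000000000005000000000000000000000001000000
/-- Orbit certificate on the points. -/
def pRK : ℕ := 0x1200001100001000000f00001400001600000d00001700001300000100000600000e00000500000a00000200000b00000700000400001500000800000900000300000c000000
theorem k_pcert : certOK (sysAct Cfsg.Agent.S1599.sS) 2 SING pPA pTA pRT pRK 24 = true := by decide +kernel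
theorem k_proot : allB 24 (fun i => !(tb 28637 i) || Nat.beq (get24 pRT i) 0) = true := by decide +kernel

theorem base_trans (x y : GolayPt) (hx : x ∈ ofMask 28637) (hy : y ∈ ofMask 28637) :
    ∃ h ∈ Cfsg.Agent.S1599.Hs, h x = y := by
  obtain ⟨i, hi, rfl⟩ := exists_idx x
  obtain ⟨j, hj, rfl⟩ := exists_idx y
  have ri := bor_imp (allB_spec k_proot i hi) ((pt_mem_ofMask hi).mp hx)
  have rj := bor_imp (allB_spec k_proot j hj) ((pt_mem_ofMask hj).mp hy)
  rw [Nat.beq_eq] at ri rj
  exact pt_orbit Cfsg.Agent.S1599.sS Cfsg.Agent.S1599.sQ 2 Cfsg.Agent.S1599.k_sys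
    Cfsg.Agent.S1599.Hs Cfsg.Agent.S1599.hgen_mem pPA pTA pRT pRK k_pcert i j hi hj
    (by rw [ri, rj])

/-- The points off the dodecad on an octad that meets the dodecad in two triples of the
quartet. -/
def tset (d : Finset GolayPt) (Q : Finset (Finset GolayPt)) : Set GolayPt :=
  {x | x ∉ d ∧ ∃ o ∈ octads, x ∈ o ∧ ∃ t ∈ Q, ∃ u ∈ Q, t ≠ u ∧ o ∩ d = t ∪ u}

theorem tset_smul {k : Equiv.Perm GolayPt} (hk : k ∈ M24) (d : Finset GolayPt)
    (Q : Finset (Finset GolayPt)) (x : GolayPt) (hx : x ∈ tset d Q) :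
    k x ∈ tset (k • d) (k • Q) := by
  obtain ⟨h1, o, ho, h2, t, ht, u, hu, htu, e⟩ := hx
  refine ⟨fun hc => h1 ((Finset.smul_mem_smul_finset_iff k).mp hc), k • o,
    (smul_mem_octads hk).mpr ho, Finset.smul_mem_smul_finset h2, k • t,
    Finset.smul_mem_smul_finset ht, k • u, Finset.smul_mem_smul_finset hu,
    fun e' => htu (MulAction.injective k e'), ?_⟩
  rw [← Finset.smul_finset_inter, e, Finset.smul_finset_union]

theorem tset_smul_iff {k : Equiv.Perm GolayPt} (hk : k ∈ M24) (d : Finset GolayPt)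
    (Q : Finset (Finset GolayPt)) (x : GolayPt) :
    x ∈ tset (k • d) (k • Q) ↔ k⁻¹ x ∈ tset d Q := by
  constructor
  · intro h
    have := tset_smul (inv_mem hk) _ _ x h
    rwa [inv_smul_smul, inv_smul_smul] at this
  · intro h
    have := tset_smul hk _ _ _ h
    have e : k (k⁻¹ x) = x := by simp
    rwa [e] at this

theorem k_t1 : allB 759 (fun k => allB 4 (fun i => allB 4 (fun j =>
    !(Nat.beq (Nat.land (get24 OA k) 28637)
      (Nat.lor (get24 QQT (Nat.add (Nat.mul 4 0) i)) (get24 QQT (Nat.add (Nat.mul 4 0) j)))) ||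
      Nat.beq (Nat.land (get24 OA k) 16420866) 0))) = true := by decide +kernel

theorem k_t2 : allB 24 (fun a => !(tb 327712 a) || (!(tb 28637 a) &&
    anyB 759 (fun k => tb (get24 OA k) a && anyB 4 (fun i => anyB 4 (fun j =>
      !(Nat.beq (get24 QQT (Nat.add (Nat.mul 4 0) i)) (get24 QQT (Nat.add (Nat.mul 4 0) j))) &&
      Nat.beq (Nat.land (get24 OA k) 28637)
        (Nat.lor (get24 QQT (Nat.add (Nat.mul 4 0) i))
          (get24 QQT (Nat.add (Nat.mul 4 0) j)))))))) = true := by decide +kernel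

theorem tset_base : tset (ofMask 28637) (fam QQT 4 0) = ↑(ofMask 327712) := by
  ext x
  obtain ⟨a, ha, rfl⟩ := exists_idx x
  rw [Finset.mem_coe]
  constructor
  · rintro ⟨h1, o, ho, h2, t, ht, u, hu, htu, e⟩
    obtain ⟨k, hk, rfl⟩ := (mem_octads_iff o).mp ho
    obtain ⟨i, hi, rfl⟩ := mem_fam.mp ht
    obtain ⟨j, hj, rfl⟩ := mem_fam.mp hu
    rw [← ofMask_and, ← ofMask_or] at e
    have e' := ofMask_inj (lt_of_le_of_lt Nat.and_le_right (by norm_num))
      (Nat.or_lt_two_pow (get24_lt _ _) (get24_lt _ _)) e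
    have c := allB_spec (allB_spec (allB_spec k_t1 k hk) i hi) j hj
    have c2 := bor_imp c (by rw [Nat.beq_eq]; exact e')
    rw [Nat.beq_eq] at c2
    by_contra hn
    have hP : pt a ∈ ofMask 16420866 := by
      rw [P9_eq, Finset.mem_sdiff]
      refine ⟨?_, hn⟩
      have e3 : (16748578 : ℕ) = 28637 ^^^ 16777215 := by decide
      rw [e3, ofMask_compl, Finset.mem_compl]
      exact h1
    have hmem : pt a ∈ ofMask (get24 OA k &&& 16420866) := by
      rw [ofMask_and]
      exact Finset.mem_inter.mpr ⟨h2, hP⟩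
    rw [show get24 OA k &&& 16420866 = 0 from c2, ofMask_zero] at hmem
    exact absurd hmem (Finset.notMem_empty _)
  · intro hx
    have hb := (pt_mem_ofMask ha).mp hx
    have c := bor_imp (allB_spec k_t2 a ha) hb
    rw [Bool.and_eq_true, anyB_iff] at c
    obtain ⟨c1, k, hk, c2⟩ := c
    rw [Bool.and_eq_true, anyB_iff] at c2
    obtain ⟨c3, i, hi, c4⟩ := c2
    rw [anyB_iff] at c4
    obtain ⟨j, hj, c5⟩ := c4
    rw [Bool.and_eq_true, Nat.beq_eq] at c5
    refine ⟨?_, ofMask (get24 OA k), OA_mem hk, (pt_mem_ofMask ha).mpr c3,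
      ofMask (get24 QQT (Nat.add (Nat.mul 4 0) i)), mem_fam.mpr ⟨i, hi, rfl⟩,
      ofMask (get24 QQT (Nat.add (Nat.mul 4 0) j)), mem_fam.mpr ⟨j, hj, rfl⟩, ?_, ?_⟩
    · rw [pt_mem_ofMask ha]
      simpa using c1
    · intro e
      have e2 := ofMask_inj (get24_lt _ _) (get24_lt _ _) e
      have c6 := c5.1
      rw [e2] at c6
      simp at c6
    · rw [← ofMask_and, ← ofMask_or]
      show ofMask (Nat.land (get24 OA k) 28637) = _
      rw [c5.2]
      rfl

/-- A quartet stabiliser inside the dodecad stabiliser has order 432, a normal subgroup of order 9 with quotient GL(2, 3), and is transitive on the dodecad. -/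
theorem result (d : Finset Cfsg.GolayPt) (hd : d ∈ Cfsg.dodecads) (Q : Finset (Finset Cfsg.GolayPt)) (hQ : Q ∈ Cfsg.quartets d) : Nat.card ↥(MulAction.stabilizer Cfsg.M24 d ⊓ MulAction.stabilizer Cfsg.M24 Q) = 432 ∧ (∃ (N : Subgroup ↥(MulAction.stabilizer Cfsg.M24 d ⊓ MulAction.stabilizer Cfsg.M24 Q)) (_ : N.Normal), Nat.card N = 9 ∧ Nonempty (↥(MulAction.stabilizer Cfsg.M24 d ⊓ MulAction.stabilizer Cfsg.M24 Q) ⧸ N ≃* GL (Fin 2) (ZMod 3))) ∧ ∀ p ∈ d, ∀ q ∈ d, ∃ g ∈ (MulAction.stabilizer Cfsg.M24 d ⊓ MulAction.stabilizer Cfsg.M24 Q), ((g : ↥Cfsg.M24) : Equiv.Perm Cfsg.GolayPt) p = q := by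
  classical
  obtain ⟨g, hg, rfl, rfl⟩ := exists_M24_quartet hd hQ
  -- the order
  have horb : MulAction.orbit ↥(MulAction.stabilizer ↥M24 (g • ofMask 28637)) (g • fam QQT 4 0) =
      quartets (g • ofMask 28637) := by
    ext Q'
    constructor
    · rintro ⟨γ, rfl⟩
      have h1 : ((γ : ↥M24) : Equiv.Perm GolayPt) • (g • ofMask 28637) = g • ofMask 28637 := γ.2
      have h2 := smul_mem_quartets (γ : ↥M24).2 hQ
      rw [h1] at h2
      exact h2
    · intro hQ'
      obtain ⟨k, hk, hkd, hkQ⟩ := quartets_trans hd hQ hQ'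
      exact ⟨⟨⟨k, hk⟩, hkd⟩, hkQ⟩
  have hcard : Nat.card ↥(MulAction.stabilizer ↥M24 (g • ofMask 28637) ⊓
      MulAction.stabilizer ↥M24 (g • fam QQT 4 0)) = 432 := by
    have h := Cfsg.Agent.Helper3.card_eq_orbit_mul' (G := ↥M24) (β := Finset (Finset GolayPt))
      (MulAction.stabilizer ↥M24 (g • ofMask 28637)) (g • fam QQT 4 0)
    rw [Cfsg.Agent.Helper3.card_stabilizer_dodecad _ hd, horb, ncard_quartets hd] at h
    omega
  refine ⟨hcard, ?_, ?_⟩
  · have hA := affStr_smul aff_base g hg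
    have hD : g • ofMask 16748578 ∈ dodecads := (smul_mem_dodecads hg).mpr affD_mem
    have hT : g • ofMask 327712 ⊆ g • ofMask 16748578 :=
      Finset.smul_finset_subset_smul_finset affT_sub
    have hTc : (g • ofMask 327712).card = 3 := by
      rw [Finset.card_smul_finset]
      exact affT_card
    have hDc : g • ofMask 16748578 = (g • ofMask 28637)ᶜ := by
      have e : (16748578 : ℕ) = 28637 ^^^ 16777215 := by decide
      rw [e, ofMask_compl, smul_finset_compl']
    have hTs : ((g • ofMask 327712 : Finset GolayPt) : Set GolayPt) =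
        tset (g • ofMask 28637) (g • fam QQT 4 0) := by
      ext x
      rw [Finset.mem_coe, ← Finset.inv_smul_mem_iff, tset_smul_iff hg, ← Finset.mem_coe,
        ← tset_base]
      rfl
    have hle : MulAction.stabilizer ↥M24 (g • ofMask 28637) ⊓
        MulAction.stabilizer ↥M24 (g • fam QQT 4 0) ≤
        MulAction.stabilizer ↥M24 (g • ofMask 16748578) ⊓
          MulAction.stabilizer ↥M24 (g • ofMask 327712) := by
      intro γ hγ
      have h1 : (γ : Equiv.Perm GolayPt) • (g • ofMask 28637) = g • ofMask 28637 := hγ.1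
      have h2 : (γ : Equiv.Perm GolayPt) • (g • fam QQT 4 0) = g • fam QQT 4 0 := hγ.2
      constructor
      · show (γ : Equiv.Perm GolayPt) • (g • ofMask 16748578) = g • ofMask 16748578
        rw [hDc, smul_finset_compl', h1]
      · show (γ : Equiv.Perm GolayPt) • (g • ofMask 327712) = g • ofMask 327712
        apply Finset.coe_injective
        ext x
        rw [Finset.mem_coe, ← Finset.inv_smul_mem_iff, ← Finset.mem_coe, hTs]
        have h3 := tset_smul_iff (k := (γ : Equiv.Perm GolayPt)) γ.2 (g • ofMask 28637)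
          (g • fam QQT 4 0) x
        rw [h1, h2] at h3
        exact h3.symm
    exact affStr_quot hD hT hTc hA _ hle hcard
  · intro p hp q hq
    obtain ⟨h, hh, e⟩ := base_trans (g⁻¹ p) (g⁻¹ q) (Finset.inv_smul_mem_iff.mpr hp)
      (Finset.inv_smul_mem_iff.mpr hq)
    refine ⟨⟨g * h * g⁻¹, mul_mem (mul_mem hg hh.1.1) (inv_mem hg)⟩, ⟨?_, ?_⟩, ?_⟩
    · show (g * h * g⁻¹) • (g • ofMask 28637) = g • ofMask 28637
      rw [mul_smul, mul_smul, inv_smul_smul, MulAction.mem_stabilizer_iff.mp hh.1.2]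
    · show (g * h * g⁻¹) • (g • fam QQT 4 0) = g • fam QQT 4 0
      rw [mul_smul, mul_smul, inv_smul_smul, MulAction.mem_stabilizer_iff.mp hh.2]
    · show (g * h * g⁻¹) p = q
      rw [Equiv.Perm.mul_apply, Equiv.Perm.mul_apply, e]
      simp

end Cfsg.Agent.S1598
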