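import Mathlib
import Cfsg.Statements.S1602
import Cfsg.Agent.Helper3.M12Stmts
import Cfsg.Agent.Helper12.GolayTrio2

set_option autoImplicit false
open scoped Pointwise
open Cfsg

namespace Cfsg.Agent.S1602

open Cfsg.Agent.Helper12

theorem gIdx_eq : ∀ p : GolayPt, Cfsg.Agent.Helper3.gIdx p = idx p := by decide +kernel

theorem dStd_eq_ofMask : Cfsg.Agent.Helper3.dStd = ofMask 340831 := by
  ext p
  simp only [Cfsg.Agent.Helper3.dStd, Cfsg.Agent.Helper3.gSup, Cfsg.Agent.Helper3.dMask,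
    Finset.mem_filter, Finset.mem_univ, true_and, mem_ofMask, gIdx_eq]

theorem pt_eq0 : Cfsg.Agent.Helper3.pt 0 = pt 0 := by decide +kernel
theorem pt_eq5 : Cfsg.Agent.Helper3.pt 5 = pt 5 := by decide +kernel
theorem pt_eq7 : Cfsg.Agent.Helper3.pt 7 = pt 7 := by decide +kernel

/-- The points `x ≠ p` of `d` such that some octad through the points of `s` meets `d` exactly in
`p` and `x`. -/
def fiveSet (d : Finset GolayPt) (p : GolayPt) (s : Finset GolayPt) : Set GolayPt :=
  {x | x ≠ p ∧ x ∈ d ∧ ∃ o ∈ octads, s ⊆ o ∧ p ∈ o ∧ x ∈ o ∧ (o ∩ d).card = 2}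

theorem fiveSet_smul {k : Equiv.Perm GolayPt} (hk : k ∈ M24) (d : Finset GolayPt) (p : GolayPt)
    (s : Finset GolayPt) (x : GolayPt) :
    k x ∈ fiveSet (k • d) (k p) (k • s) ↔ x ∈ fiveSet d p s := by
  constructor
  · rintro ⟨h1, h2, o, ho, h3, h4, h5, h6⟩
    refine ⟨fun e => h1 (by rw [e]), ?_, k⁻¹ • o, (smul_mem_octads (inv_mem hk)).mpr ho,
      ?_, ?_, ?_, ?_⟩
    · exact (Finset.smul_mem_smul_finset_iff k).mp h2
    · intro y hy
      rw [Finset.mem_inv_smul_finset_iff]
      exact h3 (Finset.smul_mem_smul_finset hy)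
    · rw [Finset.mem_inv_smul_finset_iff]; exact h4
    · rw [Finset.mem_inv_smul_finset_iff]; exact h5
    · rw [← card_smul_inter k, smul_inv_smul]; exact h6
  · rintro ⟨h1, h2, o, ho, h3, h4, h5, h6⟩
    refine ⟨fun e => h1 (k.injective e), Finset.smul_mem_smul_finset h2, k • o,
      (smul_mem_octads hk).mpr ho, Finset.smul_finset_subset_smul_finset h3,
      Finset.smul_mem_smul_finset h4, Finset.smul_mem_smul_finset h5, ?_⟩
    rw [card_smul_inter]; exact h6

/-- The test for the base five-set. -/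
def f5 (i : ℕ) : Bool :=
  !(Nat.beq i 0) && tb 340831 i && anyB 759 (fun k => tb (get24 OA k) 5 && tb (get24 OA k) 7 &&
    tb (get24 OA k) 0 && tb (get24 OA k) i && Nat.beq (popc (Nat.land (get24 OA k) 340831)) 2)

theorem k_f5 : allB 24 (fun i => bif f5 i then tb 262476 i else !(tb 262476 i)) = true := by
  decide +kernel

theorem f5_eq {i : ℕ} (hi : i < 24) : f5 i = tb 262476 i := by
  have h := allB_spec k_f5 i hi
  cases h1 : f5 i <;> cases h2 : tb 262476 i <;> simp_all

theorem base_iff (i : ℕ) (hi : i < 24) :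
    pt i ∈ fiveSet (ofMask 340831) (pt 0) {pt 5, pt 7} ↔ f5 i = true := by
  unfold f5
  rw [Bool.and_eq_true, Bool.and_eq_true, anyB_iff]
  constructor
  · rintro ⟨h1, h2, o, ho, h3, h4, h5, h6⟩
    obtain ⟨k, hk, rfl⟩ := (mem_octads_iff o).mp ho
    rw [Finset.insert_subset_iff, Finset.singleton_subset_iff] at h3
    refine ⟨⟨?_, (pt_mem_ofMask hi).mp h2⟩, k, hk, ?_⟩
    · cases hb : Nat.beq i 0 with
      | false => rfl
      | true => rw [Nat.beq_eq] at hb; exact absurd (by rw [hb]) h1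
    · rw [Bool.and_eq_true, Bool.and_eq_true, Bool.and_eq_true, Bool.and_eq_true, Nat.beq_eq]
      refine ⟨⟨⟨⟨(pt_mem_ofMask (by norm_num)).mp h3.1, (pt_mem_ofMask (by norm_num)).mp h3.2⟩,
        (pt_mem_ofMask (by norm_num)).mp h4⟩, (pt_mem_ofMask hi).mp h5⟩, ?_⟩
      rw [← ofMask_and, card_ofMask] at h6
      exact h6
  · rintro ⟨⟨h1, h2⟩, k, hk, h3⟩
    rw [Bool.and_eq_true, Bool.and_eq_true, Bool.and_eq_true, Bool.and_eq_true, Nat.beq_eq] at h3
    obtain ⟨⟨⟨⟨a5, a7⟩, a0⟩, ai⟩, ac⟩ := h3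
    refine ⟨?_, (pt_mem_ofMask hi).mpr h2, ofMask (get24 OA k), OA_mem hk, ?_,
      (pt_mem_ofMask (by norm_num)).mpr a0, (pt_mem_ofMask hi).mpr ai, ?_⟩
    · intro e
      have e' := pt_inj hi (by norm_num) e
      rw [e'] at h1
      exact absurd h1 (by decide)
    · rw [Finset.insert_subset_iff, Finset.singleton_subset_iff]
      exact ⟨(pt_mem_ofMask (by norm_num)).mpr a5, (pt_mem_ofMask (by norm_num)).mpr a7⟩
    · rw [← ofMask_and, card_ofMask]; exact ac

theorem base_eq : fiveSet (ofMask 340831) (pt 0) {pt 5, pt 7} = ↑(ofMask 262476) := by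
  ext x
  obtain ⟨i, hi, rfl⟩ := exists_idx x
  rw [base_iff i hi, Finset.mem_coe, pt_mem_ofMask hi, f5_eq hi]

theorem k_popc5 : popc 262476 = 5 := by decide +kernel

theorem base_card : (fiveSet (ofMask 340831) (pt 0) {pt 5, pt 7}).ncard = 5 := by
  rw [base_eq, Set.ncard_coe_finset, card_ofMask, k_popc5]

theorem exists_third (d : Finset GolayPt) (hd : d ∈ dodecads) (a b : GolayPt) :
    ∃ r, r ∉ d ∧ r ≠ a ∧ r ≠ b := by
  have hc : ({a, b} : Finset GolayPt).card < dᶜ.card := by
    rw [Finset.card_compl, card_golayPt, hd.2]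
    exact lt_of_le_of_lt (Finset.card_insert_le _ _) (by simp)
  obtain ⟨r, hr, hr'⟩ := Finset.exists_mem_notMem_of_card_lt_card hc
  rw [Finset.mem_compl] at hr
  rw [Finset.mem_insert, Finset.mem_singleton, not_or] at hr'
  exact ⟨r, hr, hr'.1, hr'.2⟩

theorem smul_pair (k : Equiv.Perm GolayPt) (a b : GolayPt) :
    k • ({a, b} : Finset GolayPt) = {k a, k b} := by
  rw [Finset.smul_finset_insert, Finset.smul_finset_singleton]
  rfl

theorem fiveSet_card (d : Finset GolayPt) (hd : d ∈ dodecads) (p q q' : GolayPt) (hp : p ∈ d)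
    (hq : q ∉ d) (hq' : q' ∉ d) (hqq' : q ≠ q') : (fiveSet d p {q, q'}).ncard = 5 := by
  obtain ⟨r, hr, hrq, hrq'⟩ := exists_third d hd q q'
  have hinj : Function.Injective (![q, q', r] : Fin 3 → GolayPt) := by
    intro i j hij
    fin_cases i <;> fin_cases j <;> simp_all
  obtain ⟨k, hk, hkd, hkp, hkx⟩ := Cfsg.Agent.Helper3.flag_three hd hp ⟨![q, q', r], hinj⟩
    (by
      intro i
      fin_cases i
      · exact hq
      · exact hq'
      · exact hr)
  have e5 : k (pt 5) = q := by rw [← pt_eq5]; exact hkx 0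
  have e7 : k (pt 7) = q' := by rw [← pt_eq7]; exact hkx 1
  rw [pt_eq0] at hkp
  rw [dStd_eq_ofMask] at hkd
  have key : ∀ x, k x ∈ fiveSet d p {q, q'} ↔ x ∈ fiveSet (ofMask 340831) (pt 0) {pt 5, pt 7} := by
    intro x
    have := fiveSet_smul hk (ofMask 340831) (pt 0) {pt 5, pt 7} x
    rw [hkd, hkp, smul_pair, e5, e7] at this
    exact this
  have e : fiveSet d p {q, q'} = (fun x => k x) '' fiveSet (ofMask 340831) (pt 0) {pt 5, pt 7} := by
    ext y
    constructor
    · intro hy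
      refine ⟨k⁻¹ y, (key _).mp ?_, ?_⟩
      · have e1 : k (k⁻¹ y) = y := by simp
        rw [e1]; exact hy
      · show k (k⁻¹ y) = y
        simp
    · rintro ⟨x, hx, rfl⟩
      exact (key x).mpr hx
  rw [e, Set.ncard_image_of_injective _ k.injective, base_card]

theorem card_pairs (d : Finset GolayPt) (hd : d ∈ dodecads) :
    {s : Finset GolayPt | s.card = 2 ∧ Disjoint s d}.ncard = 66 := by
  have e : {s : Finset GolayPt | s.card = 2 ∧ Disjoint s d} = ↑(Finset.powersetCard 2 dᶜ) := by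
    ext s
    rw [Finset.mem_coe, Finset.mem_powersetCard, Finset.subset_compl_iff_disjoint_right]
    exact and_comm
  rw [e, Set.ncard_coe_finset, Finset.card_powersetCard, Finset.card_compl, card_golayPt, hd.2]
  decide

/-- In the 12-point action of the smallest Mathieu group the setwise stabiliser of a pair is isomorphic to the symmetric group of degree 5. -/
theorem result (d : Finset Cfsg.GolayPt) (hd : d ∈ Cfsg.dodecads) (p q q' : Cfsg.GolayPt) (hp : p ∈ d) (hq : q ∉ d) (hq' : q' ∉ d) (hqq' : q ≠ q') : Nonempty (↥(MulAction.stabilizer Cfsg.M24 d ⊓ MulAction.stabilizer Cfsg.M24 p ⊓ MulAction.stabilizer Cfsg.M24 ({q, q'} : Finset Cfsg.GolayPt)) ≃* Equiv.Perm (Fin 5)) := by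
  classical
  -- the order of the group
  have horb : MulAction.orbit ↥(MulAction.stabilizer ↥M24 d ⊓ MulAction.stabilizer ↥M24 p)
      ({q, q'} : Finset GolayPt) = {s : Finset GolayPt | s.card = 2 ∧ Disjoint s d} := by
    ext s
    constructor
    · rintro ⟨g, rfl⟩
      have h1 : ((g : ↥M24) : Equiv.Perm GolayPt) • d = d := g.2.1
      show (((g : ↥M24) : Equiv.Perm GolayPt) • ({q, q'} : Finset GolayPt)).card = 2 ∧
        Disjoint (((g : ↥M24) : Equiv.Perm GolayPt) • ({q, q'} : Finset GolayPt)) d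
      refine ⟨by rw [Finset.card_smul_finset, Finset.card_pair hqq'], ?_⟩
      have hdis : Disjoint ({q, q'} : Finset GolayPt) d := by
        rw [Finset.disjoint_insert_left, Finset.disjoint_singleton_left]
        exact ⟨hq, hq'⟩
      have h2 := (disjoint_smul_iff ((g : ↥M24) : Equiv.Perm GolayPt) {q, q'} d).mpr hdis
      rw [h1] at h2
      exact h2
    · rintro ⟨hc, hdis⟩
      obtain ⟨a, b, hab, rfl⟩ := Finset.card_eq_two.mp hc
      rw [Finset.disjoint_insert_left, Finset.disjoint_singleton_left] at hdis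
      obtain ⟨r, hr, hrq, hrq'⟩ := exists_third d hd q q'
      obtain ⟨r', hr', hra, hrb⟩ := exists_third d hd a b
      have hinj : Function.Injective (![q, q', r] : Fin 3 → GolayPt) := by
        intro i j hij
        fin_cases i <;> fin_cases j <;> simp_all
      have hinj' : Function.Injective (![a, b, r'] : Fin 3 → GolayPt) := by
        intro i j hij
        fin_cases i <;> fin_cases j <;> simp_all
      obtain ⟨g, hg, hmap⟩ := Cfsg.Agent.Helper3.m11_three_trans d hd p hp ⟨![q, q', r], hinj⟩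
        ⟨![a, b, r'], hinj'⟩
        (by intro i; fin_cases i; exacts [hq, hq', hr])
        (by intro i; fin_cases i; exacts [hdis.1, hdis.2, hr'])
      refine ⟨⟨g, hg⟩, ?_⟩
      show ((g : ↥M24) : Equiv.Perm GolayPt) • ({q, q'} : Finset GolayPt) = {a, b}
      rw [smul_pair]
      have h0 := hmap 0
      have h1 := hmap 1
      simp only [Function.Embedding.coeFn_mk, Matrix.cons_val_zero, Matrix.cons_val_one] at h0 h1
      rw [h0, h1]
  have hK : Nat.card ↥(MulAction.stabilizer ↥M24 d ⊓ MulAction.stabilizer ↥M24 p ⊓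
      MulAction.stabilizer ↥M24 ({q, q'} : Finset GolayPt)) = 120 := by
    have h := Cfsg.Agent.Helper3.card_eq_orbit_mul' (G := ↥M24) (β := Finset GolayPt)
      (MulAction.stabilizer ↥M24 d ⊓ MulAction.stabilizer ↥M24 p) ({q, q'} : Finset GolayPt)
    rw [Cfsg.Agent.Helper3.card_stab_dodecad_point d hd p hp, horb, card_pairs d hd] at h
    omega
  -- the five points
  have hO := fiveSet_card d hd p q q' hp hq hq' hqq'
  have hinv : ∀ g : ↥(MulAction.stabilizer ↥M24 d ⊓ MulAction.stabilizer ↥M24 p ⊓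
      MulAction.stabilizer ↥M24 ({q, q'} : Finset GolayPt)), ∀ x,
      (((g : ↥M24) : Equiv.Perm GolayPt) x ∈ fiveSet d p {q, q'}) ↔ x ∈ fiveSet d p {q, q'} := by
    intro g x
    have h1 : ((g : ↥M24) : Equiv.Perm GolayPt) • d = d := g.2.1.1
    have h2 : ((g : ↥M24) : Equiv.Perm GolayPt) p = p := g.2.1.2
    have h3 : ((g : ↥M24) : Equiv.Perm GolayPt) • ({q, q'} : Finset GolayPt) = {q, q'} := g.2.2
    have := fiveSet_smul (g : ↥M24).2 d p {q, q'} x
    rw [h1, h2, h3] at this
    exact this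
  let φ : ↥(MulAction.stabilizer ↥M24 d ⊓ MulAction.stabilizer ↥M24 p ⊓
      MulAction.stabilizer ↥M24 ({q, q'} : Finset GolayPt)) →* Equiv.Perm ↥(fiveSet d p {q, q'}) :=
    MonoidHom.mk' (fun g => Equiv.Perm.subtypePerm ((g : ↥M24) : Equiv.Perm GolayPt) (hinv g))
      (by intro a b; ext x; rfl)
  have e5 : ↥(fiveSet d p {q, q'}) ≃ Fin 5 :=
    Finite.equivFinOfCardEq (by rw [Nat.card_coe_set_eq]; exact hO)
  have hφ : Function.Injective φ := by
    rw [injective_iff_map_eq_one]
    intro g hg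
    have hfix : ∀ x (hx : x ∈ fiveSet d p {q, q'}), ((g : ↥M24) : Equiv.Perm GolayPt) x = x := by
      intro x hx
      have := congrArg (fun σ : Equiv.Perm ↥(fiveSet d p {q, q'}) => ((σ ⟨x, hx⟩ : ↥(fiveSet d p {q, q'})) : GolayPt)) hg
      exact this
    let emb : Fin 5 ↪ GolayPt := e5.symm.toEmbedding.trans (Function.Embedding.subtype _)
    have hemb : ∀ i, emb i ∈ d := fun i => (e5.symm i).2.2.1
    obtain ⟨g0, -, huniq⟩ := Cfsg.Agent.Helper3.sharp_five d hd emb emb hemb hemb
    have a1 := huniq ⟨(g : ↥M24), g.2.1.1⟩ (fun i => hfix _ (e5.symm i).2)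
    have a2 := huniq 1 (fun i => rfl)
    have a3 : (g : ↥M24) = 1 := congrArg Subtype.val (a1.trans a2.symm)
    exact Subtype.ext a3
  have hbij : Function.Bijective φ := by
    refine hφ.bijective_of_nat_card_le ?_
    rw [Nat.card_perm, Nat.card_coe_set_eq, hO, hK]
    decide
  exact ⟨(MulEquiv.ofBijective φ hbij).trans (Equiv.permCongrHom e5)⟩

end Cfsg.Agent.S1602
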