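import Mathlib
import Cfsg.Statements.S1603
import Cfsg.Agent.Helper12.GolayAff3

set_option autoImplicit false
open scoped Pointwise
open Cfsg

namespace Cfsg.Agent.S1603

open Cfsg.Agent.Helper12

theorem affT_eq : ofMask 327712 = {pt 5, pt 16, pt 18} := by decide +kernel

theorem labInv_zero : labInv 0 = pt 1 := by decide +kernel

/-- Four distinct points of a dodecad extend to five. -/
theorem exists_emb5 {d : Finset GolayPt} (hd : d ∈ dodecads) {p t1 t2 t3 : GolayPt} (hp : p ∈ d)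
    (h1 : t1 ∈ d) (h2 : t2 ∈ d) (h3 : t3 ∈ d) (hp1 : p ≠ t1) (hp2 : p ≠ t2) (hp3 : p ≠ t3)
    (h12 : t1 ≠ t2) (h13 : t1 ≠ t3) (h23 : t2 ≠ t3) :
    ∃ x : Fin 5 ↪ GolayPt, (∀ i, x i ∈ d) ∧ x 0 = p ∧ x 1 = t1 ∧ x 2 = t2 ∧ x 3 = t3 := by
  classical
  have hc : ({p, t1, t2, t3} : Finset GolayPt).card < d.card := by
    rw [hd.2]
    exact lt_of_le_of_lt Finset.card_le_four (by norm_num)
  obtain ⟨s, hs, hs'⟩ := Finset.exists_mem_notMem_of_card_lt_card hc
  simp only [Finset.mem_insert, Finset.mem_singleton, not_or] at hs'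
  obtain ⟨s0, s1, s2, s3⟩ := hs'
  have hinj : Function.Injective (![p, t1, t2, t3, s] : Fin 5 → GolayPt) := by
    intro i j hij
    fin_cases i <;> fin_cases j <;> simp_all
  refine ⟨⟨![p, t1, t2, t3, s], hinj⟩, ?_, rfl, rfl, rfl, rfl⟩
  intro i
  fin_cases i
  · exact hp
  · exact h1
  · exact h2
  · exact h3
  · exact hs

/-- Every dodecad with a triple of its points and a further point carries the affine structure. -/
theorem affStr_general {d : Finset GolayPt} (hd : d ∈ dodecads) {T : Finset GolayPt} (hT : T ⊆ d)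
    (hTc : T.card = 3) {p : GolayPt} (hp : p ∈ d \ T) : AffStr d T p := by
  classical
  obtain ⟨t1, t2, t3, h12, h13, h23, rfl⟩ := Finset.card_eq_three.mp hTc
  rw [Finset.mem_sdiff] at hp
  obtain ⟨hpd, hpT⟩ := hp
  simp only [Finset.mem_insert, Finset.mem_singleton, not_or] at hpT
  obtain ⟨x, hx, x0, x1, x2, x3⟩ := exists_emb5 hd hpd (hT (by simp)) (hT (by simp))
    (hT (by simp)) hpT.1 hpT.2.1 hpT.2.2 h12 h13 h23
  obtain ⟨xs, hxs, y0, y1, y2, y3⟩ := exists_emb5 affD_mem (p := pt 1) (t1 := pt 5) (t2 := pt 16)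
    (t3 := pt 18) ((pt_mem_ofMask (by norm_num)).mpr (by decide))
    ((pt_mem_ofMask (by norm_num)).mpr (by decide)) ((pt_mem_ofMask (by norm_num)).mpr (by decide))
    ((pt_mem_ofMask (by norm_num)).mpr (by decide))
    (fun e => absurd (pt_inj (by norm_num) (by norm_num) e) (by norm_num))
    (fun e => absurd (pt_inj (by norm_num) (by norm_num) e) (by norm_num))
    (fun e => absurd (pt_inj (by norm_num) (by norm_num) e) (by norm_num))
    (fun e => absurd (pt_inj (by norm_num) (by norm_num) e) (by norm_num))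
    (fun e => absurd (pt_inj (by norm_num) (by norm_num) e) (by norm_num))
    (fun e => absurd (pt_inj (by norm_num) (by norm_num) e) (by norm_num))
  obtain ⟨k1, hk1, hk1d, hk1x⟩ := Cfsg.Agent.Helper3.flag_five affD_mem xs hxs
  obtain ⟨k2, hk2, hk2d, hk2x⟩ := Cfsg.Agent.Helper3.flag_five hd x hx
  have hκ : k2 * k1⁻¹ ∈ M24 := mul_mem hk2 (inv_mem hk1)
  have hA := affStr_smul aff_base (k2 * k1⁻¹) hκ
  have e1 : (k2 * k1⁻¹) • ofMask 16748578 = d := by
    rw [mul_smul, ← hk1d, inv_smul_smul, hk2d]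
  have em : ∀ i, (k2 * k1⁻¹) (xs i) = x i := by
    intro i
    rw [Equiv.Perm.mul_apply, ← hk1x i, ← hk2x i]
    simp
  have e2 : (k2 * k1⁻¹) • ofMask 327712 = {t1, t2, t3} := by
    rw [affT_eq, Finset.smul_finset_insert, Finset.smul_finset_insert,
      Finset.smul_finset_singleton]
    show {(k2 * k1⁻¹) (pt 5), (k2 * k1⁻¹) (pt 16), (k2 * k1⁻¹) (pt 18)} = _
    rw [← y1, ← y2, ← y3, em, em, em, x1, x2, x3]
  have e3 : (k2 * k1⁻¹) (labInv 0) = p := by
    rw [labInv_zero, ← y0, em, x0]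
  rw [e1, e2, e3] at hA
  exact hA

/-- The stabiliser of a triple in the point stabiliser of a dodecad stabiliser has order 48. -/
theorem card_stab_triple {d : Finset GolayPt} (hd : d ∈ dodecads) {p : GolayPt} (hp : p ∈ d)
    {T : Finset GolayPt} (hT : T ⊆ d.erase p) (hTc : T.card = 3) :
    Nat.card ↥((MulAction.stabilizer ↥M24 d ⊓ MulAction.stabilizer ↥M24 p) ⊓
      MulAction.stabilizer ↥M24 T) = 48 := by
  classical
  have horb : MulAction.orbit ↥(MulAction.stabilizer ↥M24 d ⊓ MulAction.stabilizer ↥M24 p) T =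
      ↑(Finset.powersetCard 3 (d.erase p)) := by
    ext T'
    rw [Finset.mem_coe, Finset.mem_powersetCard]
    constructor
    · rintro ⟨γ, rfl⟩
      have h1 : ((γ : ↥M24) : Equiv.Perm GolayPt) • d = d := γ.2.1
      have h2 : ((γ : ↥M24) : Equiv.Perm GolayPt) p = p := γ.2.2
      refine ⟨?_, ?_⟩
      · intro y hy
        change y ∈ ((γ : ↥M24) : Equiv.Perm GolayPt) • T at hy
        obtain ⟨t, ht, rfl⟩ := Finset.mem_smul_finset.mp hy
        have ht' := Finset.mem_erase.mp (hT ht)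
        rw [Finset.mem_erase]
        refine ⟨fun e => ht'.1 (((γ : ↥M24) : Equiv.Perm GolayPt).injective (e.trans h2.symm)), ?_⟩
        have h3 := Finset.smul_mem_smul_finset (a := ((γ : ↥M24) : Equiv.Perm GolayPt)) ht'.2
        rw [h1] at h3
        exact h3
      · show (((γ : ↥M24) : Equiv.Perm GolayPt) • T).card = 3
        rw [Finset.card_smul_finset, hTc]
    · rintro ⟨hs, hc⟩
      obtain ⟨a, b, c, hab, hac, hbc, rfl⟩ := Finset.card_eq_three.mp hc
      obtain ⟨t1, t2, t3, h12, h13, h23, rfl⟩ := Finset.card_eq_three.mp hTc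
      have ma := Finset.mem_erase.mp (hs (by simp : a ∈ ({a, b, c} : Finset GolayPt)))
      have mb := Finset.mem_erase.mp (hs (by simp : b ∈ ({a, b, c} : Finset GolayPt)))
      have mc := Finset.mem_erase.mp (hs (by simp : c ∈ ({a, b, c} : Finset GolayPt)))
      have m1 := Finset.mem_erase.mp (hT (by simp : t1 ∈ ({t1, t2, t3} : Finset GolayPt)))
      have m2 := Finset.mem_erase.mp (hT (by simp : t2 ∈ ({t1, t2, t3} : Finset GolayPt)))
      have m3 := Finset.mem_erase.mp (hT (by simp : t3 ∈ ({t1, t2, t3} : Finset GolayPt)))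
      obtain ⟨x, hx, x0, x1, x2, x3⟩ := exists_emb5 hd hp m1.2 m2.2 m3.2 (Ne.symm m1.1)
        (Ne.symm m2.1) (Ne.symm m3.1) h12 h13 h23
      obtain ⟨y, hy, y0, y1, y2, y3⟩ := exists_emb5 hd hp ma.2 mb.2 mc.2 (Ne.symm ma.1)
        (Ne.symm mb.1) (Ne.symm mc.1) hab hac hbc
      obtain ⟨γ, hγ, -⟩ := Cfsg.Agent.Helper3.sharp_five d hd x y hx hy
      have e0 := hγ 0
      have e1 := hγ 1
      have e2 := hγ 2
      have e3 := hγ 3
      rw [x0, y0] at e0
      rw [x1, y1] at e1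
      rw [x2, y2] at e2
      rw [x3, y3] at e3
      refine ⟨⟨(γ : ↥M24), ⟨γ.2, e0⟩⟩, ?_⟩
      show ((γ : ↥M24) : Equiv.Perm GolayPt) • ({t1, t2, t3} : Finset GolayPt) = {a, b, c}
      rw [Finset.smul_finset_insert, Finset.smul_finset_insert, Finset.smul_finset_singleton]
      show {((γ : ↥M24) : Equiv.Perm GolayPt) t1, ((γ : ↥M24) : Equiv.Perm GolayPt) t2,
        ((γ : ↥M24) : Equiv.Perm GolayPt) t3} = _
      rw [e1, e2, e3]
  have h := Cfsg.Agent.Helper3.card_eq_orbit_mul' (G := ↥M24) (β := Finset GolayPt)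
    (MulAction.stabilizer ↥M24 d ⊓ MulAction.stabilizer ↥M24 p) T
  rw [Cfsg.Agent.Helper3.card_stab_dodecad_point d hd p hp, horb, Set.ncard_coe_finset,
    Finset.card_powersetCard, Finset.card_erase_of_mem hp, hd.2] at h
  have hch : Nat.choose (12 - 1) 3 = 165 := by decide
  rw [hch] at h
  omega

/-- Involution centralisers in the smallest Mathieu group are isomorphic to GL(2, 3). -/
theorem result (d : Finset Cfsg.GolayPt) (hd : d ∈ Cfsg.dodecads) (p : Cfsg.GolayPt) (hp : p ∈ d) (x : ↥(MulAction.stabilizer Cfsg.M24 d ⊓ MulAction.stabilizer Cfsg.M24 p)) (hx : orderOf x = 2) : Nonempty (↥(Subgroup.centralizer ({x} : Set ↥(MulAction.stabilizer Cfsg.M24 d ⊓ MulAction.stabilizer Cfsg.M24 p))) ≃* GL (Fin 2) (ZMod 3)) := by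
  classical
  -- the involution as a permutation
  have hXM : ((x : ↥M24) : Equiv.Perm GolayPt) ∈ M24 := (x : ↥M24).2
  have hXd : ((x : ↥M24) : Equiv.Perm GolayPt) • d = d := x.2.1
  have hXp : ((x : ↥M24) : Equiv.Perm GolayPt) p = p := x.2.2
  have hx2 : x * x = 1 := by
    rw [← sq, ← hx]
    exact pow_orderOf_eq_one x
  have hx1 : x ≠ 1 := by
    intro e
    rw [e, orderOf_one] at hx
    exact absurd hx (by norm_num)
  have hX2 : ((x : ↥M24) : Equiv.Perm GolayPt) * ((x : ↥M24) : Equiv.Perm GolayPt) = 1 := by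
    have := congrArg (fun z : ↥(MulAction.stabilizer ↥M24 d ⊓ MulAction.stabilizer ↥M24 p) =>
      ((z : ↥M24) : Equiv.Perm GolayPt)) hx2
    exact this
  have hX1 : ((x : ↥M24) : Equiv.Perm GolayPt) ≠ 1 := by
    intro e
    exact hx1 (Subtype.ext (Subtype.ext e))
  have hF := card_fixed_M11 hd hp _ hXM hXd hXp hX2 hX1
  -- the triple of the other fixed points
  obtain ⟨T, hTdef⟩ : ∃ T : Finset GolayPt,
      T = (d.filter (fun q => ((x : ↥M24) : Equiv.Perm GolayPt) q = q)).erase p := ⟨_, rfl⟩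
  have hpF : p ∈ d.filter (fun q => ((x : ↥M24) : Equiv.Perm GolayPt) q = q) :=
    Finset.mem_filter.mpr ⟨hp, hXp⟩
  have hTc : T.card = 3 := by
    rw [hTdef, Finset.card_erase_of_mem hpF, hF]
  have hTmem : ∀ q, q ∈ T ↔ q ≠ p ∧ q ∈ d ∧ ((x : ↥M24) : Equiv.Perm GolayPt) q = q := by
    intro q
    rw [hTdef, Finset.mem_erase, Finset.mem_filter]
  have hTd : T ⊆ d := fun q hq => ((hTmem q).mp hq).2.1
  have hTe : T ⊆ d.erase p := fun q hq =>
    Finset.mem_erase.mpr ⟨((hTmem q).mp hq).1, ((hTmem q).mp hq).2.1⟩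
  have hpT : p ∈ d \ T := Finset.mem_sdiff.mpr ⟨hp, fun h => ((hTmem p).mp h).1 rfl⟩
  obtain ⟨φ, ℓ, hinj, -, ho, hsurj, hact⟩ := affStr_general hd hTd hTc hpT
  have h48 := card_stab_triple hd hp hTe hTc
  have hKle : (MulAction.stabilizer ↥M24 d ⊓ MulAction.stabilizer ↥M24 p) ⊓
      MulAction.stabilizer ↥M24 T ≤ MulAction.stabilizer ↥M24 d ⊓ MulAction.stabilizer ↥M24 T :=
    fun γ h => ⟨h.1.1, h.2⟩
  -- the action of the triple stabiliser is linear and faithful
  have hlin : ∀ (γ : ↥((MulAction.stabilizer ↥M24 d ⊓ MulAction.stabilizer ↥M24 p) ⊓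
      MulAction.stabilizer ↥M24 T)) (q : GolayPt), q ∈ d \ T →
      ℓ (((γ : ↥M24) : Equiv.Perm GolayPt) q) =
        ((φ (Subgroup.inclusion hKle γ) : GL (Fin 2) (ZMod 3)) :
          Matrix (Fin 2) (Fin 2) (ZMod 3)).mulVec (ℓ q) := by
    intro γ q hq
    have h3 := hact (Subgroup.inclusion hKle γ) q hq
    have h4 : ((γ : ↥M24) : Equiv.Perm GolayPt) p = p := γ.2.1.2
    have h5 : (((Subgroup.inclusion hKle γ : ↥(MulAction.stabilizer ↥M24 d ⊓
        MulAction.stabilizer ↥M24 T)) : ↥M24) : Equiv.Perm GolayPt) =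
        ((γ : ↥M24) : Equiv.Perm GolayPt) := rfl
    rw [h5, h4, ho, add_zero] at h3
    exact h3
  have hψinj : Function.Injective (φ.comp (Subgroup.inclusion hKle)) := by
    rw [injective_iff_map_eq_one]
    intro γ hγ
    have hγ' : φ (Subgroup.inclusion hKle γ) = 1 := hγ
    have key : (γ : ↥M24) = 1 := by
      refine eq_of_agree hd hTd hTc _ _ γ.2.1.1 (one_smul _ _) ?_
      intro q hq
      have h3 := hlin γ q hq
      rw [hγ'] at h3
      have h4 : ℓ (((γ : ↥M24) : Equiv.Perm GolayPt) q) = ℓ q := by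
        rw [h3]
        simp
      exact hinj _ (stab_sdiff (Subgroup.inclusion hKle γ) hq) _ hq h4
    exact Subtype.ext key
  have hψbij : Function.Bijective (φ.comp (Subgroup.inclusion hKle)) := by
    refine hψinj.bijective_of_nat_card_le ?_
    rw [card_GL23, h48]
  -- the involution lies in the triple stabiliser and is central there
  have hxT : ((x : ↥M24) : Equiv.Perm GolayPt) • T = T := by
    apply Finset.eq_of_subset_of_card_le
    · intro y hy
      obtain ⟨t, ht, rfl⟩ := Finset.mem_smul_finset.mp hy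
      have h' := ((hTmem t).mp ht).2.2
      show ((x : ↥M24) : Equiv.Perm GolayPt) t ∈ T
      rw [h']
      exact ht
    · rw [Finset.card_smul_finset]
  have hxK : (x : ↥M24) ∈ (MulAction.stabilizer ↥M24 d ⊓ MulAction.stabilizer ↥M24 p) ⊓
      MulAction.stabilizer ↥M24 T := ⟨x.2, hxT⟩
  have hcent : ∀ γ : ↥((MulAction.stabilizer ↥M24 d ⊓ MulAction.stabilizer ↥M24 p) ⊓
      MulAction.stabilizer ↥M24 T), (x : ↥M24) * (γ : ↥M24) = (γ : ↥M24) * (x : ↥M24) := by
    intro γ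
    have hA2 : φ (Subgroup.inclusion hKle ⟨(x : ↥M24), hxK⟩) *
        φ (Subgroup.inclusion hKle ⟨(x : ↥M24), hxK⟩) = 1 := by
      rw [← map_mul, ← map_mul]
      have : (⟨(x : ↥M24), hxK⟩ : ↥((MulAction.stabilizer ↥M24 d ⊓ MulAction.stabilizer ↥M24 p) ⊓
          MulAction.stabilizer ↥M24 T)) * ⟨(x : ↥M24), hxK⟩ = 1 := by
        apply Subtype.ext
        exact congrArg (fun z : ↥(MulAction.stabilizer ↥M24 d ⊓ MulAction.stabilizer ↥M24 p) =>
          (z : ↥M24)) hx2
      rw [this, map_one, map_one]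
    have hfix : ∀ v : V3, ((φ (Subgroup.inclusion hKle ⟨(x : ↥M24), hxK⟩) : GL (Fin 2) (ZMod 3)) :
        Matrix (Fin 2) (Fin 2) (ZMod 3)).mulVec v = v → v = 0 := by
      intro v hv
      obtain ⟨q, hq, rfl⟩ := hsurj v
      have h3 := hlin ⟨(x : ↥M24), hxK⟩ q hq
      rw [hv] at h3
      have h4 := hinj _ (stab_sdiff (Subgroup.inclusion hKle ⟨(x : ↥M24), hxK⟩) hq) _ hq h3
      have h5 : q = p := by
        by_contra hne
        exact (Finset.mem_sdiff.mp hq).2 ((hTmem q).mpr ⟨hne, (Finset.mem_sdiff.mp hq).1, h4⟩)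
      rw [h5, ho]
    have hcomm := GL23_central_of_fpf _ hA2 hfix (φ (Subgroup.inclusion hKle γ))
    rw [← map_mul, ← map_mul, ← map_mul, ← map_mul] at hcomm
    have h6 := hψinj (a₁ := ⟨(x : ↥M24), hxK⟩ * γ) (a₂ := γ * ⟨(x : ↥M24), hxK⟩) hcomm
    exact congrArg Subtype.val h6
  -- the centraliser is the triple stabiliser
  have hcT : ∀ c : ↥(Subgroup.centralizer ({x} : Set ↥(MulAction.stabilizer ↥M24 d ⊓
      MulAction.stabilizer ↥M24 p))),
      (((c : ↥(MulAction.stabilizer ↥M24 d ⊓ MulAction.stabilizer ↥M24 p)) : ↥M24) :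
        Equiv.Perm GolayPt) • T = T := by
    intro c
    have hc := Subgroup.mem_centralizer_singleton_iff.mp c.2
    have hc' : (((c : ↥(MulAction.stabilizer ↥M24 d ⊓ MulAction.stabilizer ↥M24 p)) : ↥M24) :
        Equiv.Perm GolayPt) * ((x : ↥M24) : Equiv.Perm GolayPt) =
        ((x : ↥M24) : Equiv.Perm GolayPt) * (((c : ↥(MulAction.stabilizer ↥M24 d ⊓
          MulAction.stabilizer ↥M24 p)) : ↥M24) : Equiv.Perm GolayPt) := by
      have := congrArg (fun z : ↥(MulAction.stabilizer ↥M24 d ⊓ MulAction.stabilizer ↥M24 p) =>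
        ((z : ↥M24) : Equiv.Perm GolayPt)) hc
      exact this
    have hcd : (((c : ↥(MulAction.stabilizer ↥M24 d ⊓ MulAction.stabilizer ↥M24 p)) : ↥M24) :
        Equiv.Perm GolayPt) • d = d := (c : ↥(MulAction.stabilizer ↥M24 d ⊓
          MulAction.stabilizer ↥M24 p)).2.1
    have hcp : (((c : ↥(MulAction.stabilizer ↥M24 d ⊓ MulAction.stabilizer ↥M24 p)) : ↥M24) :
        Equiv.Perm GolayPt) p = p := (c : ↥(MulAction.stabilizer ↥M24 d ⊓
          MulAction.stabilizer ↥M24 p)).2.2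
    apply Finset.eq_of_subset_of_card_le
    · intro y hy
      obtain ⟨t, ht, rfl⟩ := Finset.mem_smul_finset.mp hy
      obtain ⟨t1, t2, t3⟩ := (hTmem t).mp ht
      rw [hTmem]
      refine ⟨fun e => t1 (Equiv.injective _ (e.trans hcp.symm)), ?_, ?_⟩
      · have h3 := Finset.smul_mem_smul_finset (a := (((c : ↥(MulAction.stabilizer ↥M24 d ⊓
          MulAction.stabilizer ↥M24 p)) : ↥M24) : Equiv.Perm GolayPt)) t2
        rw [hcd] at h3
        exact h3
      · have h4 := congrArg (fun σ : Equiv.Perm GolayPt => σ t) hc'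
        simp only [Equiv.Perm.mul_apply] at h4
        rw [t3] at h4
        exact h4.symm
    · rw [Finset.card_smul_finset]
  let f : ↥(Subgroup.centralizer ({x} : Set ↥(MulAction.stabilizer ↥M24 d ⊓
      MulAction.stabilizer ↥M24 p))) →*
      ↥((MulAction.stabilizer ↥M24 d ⊓ MulAction.stabilizer ↥M24 p) ⊓
        MulAction.stabilizer ↥M24 T) :=
    MonoidHom.mk' (fun c => ⟨((c : ↥(MulAction.stabilizer ↥M24 d ⊓
      MulAction.stabilizer ↥M24 p)) : ↥M24), ⟨(c : ↥(MulAction.stabilizer ↥M24 d ⊓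
      MulAction.stabilizer ↥M24 p)).2, hcT c⟩⟩) (by intro a b; rfl)
  have hfinj : Function.Injective f := by
    intro a b hab
    have := congrArg Subtype.val hab
    exact Subtype.ext (Subtype.ext this)
  have hfsurj : Function.Surjective f := by
    intro γ
    have hmem : (⟨(γ : ↥M24), γ.2.1⟩ : ↥(MulAction.stabilizer ↥M24 d ⊓
        MulAction.stabilizer ↥M24 p)) ∈ Subgroup.centralizer ({x} : Set ↥(MulAction.stabilizer ↥M24 d ⊓
        MulAction.stabilizer ↥M24 p)) := by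
      rw [Subgroup.mem_centralizer_singleton_iff]
      apply Subtype.ext
      exact (hcent γ).symm
    exact ⟨⟨⟨(γ : ↥M24), γ.2.1⟩, hmem⟩, rfl⟩
  exact ⟨(MulEquiv.ofBijective f ⟨hfinj, hfsurj⟩).trans
    (MulEquiv.ofBijective (φ.comp (Subgroup.inclusion hKle)) hψbij)⟩

end Cfsg.Agent.S1603
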