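import Cfsg.Statements.S1629
import Cfsg.Agent.Helper16.ThreeTransp

set_option autoImplicit false
open scoped MatrixGroups
open Cfsg

namespace Cfsg.Agent.S1629

open Cfsg.Agent.Helper16 in
theorem aux (m : ℕ) (hm : 3 ≤ m) :
    Cfsg.IsThreeTranspositionClass {g : ↥(Cfsg.isometryGroup (ZMod 2) ⇑(qfPlus m (ZMod 2))) |
      (((g : GL (Fin m ⊕ Fin m) (ZMod 2)) : Matrix (Fin m ⊕ Fin m) (Fin m ⊕ Fin m) (ZMod 2)) - 1).rank = 1} :=
  three_transp (by decide) (qfPlus m (ZMod 2)) qfPlus_nondegenerate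
    (by rw [Fintype.card_sum, Fintype.card_fin]; omega)
    (by rw [Fintype.card_sum, Fintype.card_fin]; omega)

/-- The orthogonal transvections of the plus-type orthogonal group in dimension 2m ≥ 6 over the field with two elements form a generating conjugacy class of 3-transpositions. -/
theorem result (m : ℕ) (hm : 3 ≤ m) : Cfsg.IsThreeTranspositionClass {g : ↥(Cfsg.isometryGroup (ZMod 2) (Cfsg.quadFormPlus m (ZMod 2))) | (((g : GL (Fin m ⊕ Fin m) (ZMod 2)) : Matrix (Fin m ⊕ Fin m) (Fin m ⊕ Fin m) (ZMod 2)) - 1).rank = 1} := by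
  have hco := Cfsg.Agent.Helper16.coe_qfPlus m (ZMod 2)
  rw [← hco]
  exact aux m hm

end Cfsg.Agent.S1629
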