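import Cfsg.Statements.S1630
import Cfsg.Agent.Helper16.ThreeTransp

set_option autoImplicit false
open scoped MatrixGroups
open Cfsg

namespace Cfsg.Agent.S1630

open Cfsg.Agent.Helper16 in
theorem aux (m : ℕ) (hm : 2 ≤ m) :
    Cfsg.IsThreeTranspositionClass {g : ↥(Cfsg.isometryGroup (ZMod 2) ⇑(qfMinus m (ZMod 2) 1 1)) |
      (((g : GL ((Fin m ⊕ Fin m) ⊕ Fin 2) (ZMod 2)) :
        Matrix ((Fin m ⊕ Fin m) ⊕ Fin 2) ((Fin m ⊕ Fin m) ⊕ Fin 2) (ZMod 2)) - 1).rank = 1} :=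
  three_transp (by decide) (qfMinus m (ZMod 2) 1 1) (qfMinus_nondegenerate 1 1 (by decide))
    (by rw [Fintype.card_sum, Fintype.card_sum, Fintype.card_fin, Fintype.card_fin]; omega)
    (by rw [Fintype.card_sum, Fintype.card_sum, Fintype.card_fin, Fintype.card_fin]; omega)

/-- The orthogonal transvections of the minus-type orthogonal group in dimension ≥ 6 over the field with two elements form a generating conjugacy class of 3-transpositions. -/
theorem result (m : ℕ) (hm : 2 ≤ m) : Cfsg.IsThreeTranspositionClass {g : ↥(Cfsg.isometryGroup (ZMod 2) (Cfsg.quadFormMinus m (ZMod 2) 1 1)) | (((g : GL ((Fin m ⊕ Fin m) ⊕ Fin 2) (ZMod 2)) : Matrix ((Fin m ⊕ Fin m) ⊕ Fin 2) ((Fin m ⊕ Fin m) ⊕ Fin 2) (ZMod 2)) - 1).rank = 1} := by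
  have hco := Cfsg.Agent.Helper16.coe_qfMinus m (ZMod 2) 1 1
  rw [← hco]
  exact aux m hm

end Cfsg.Agent.S1630
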