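import Mathlib
import Cfsg.Statements.S1635
import Cfsg.Agent.Helper28.LeechGolay
import Cfsg.Agent.Helper3.GolayLemmas

set_option autoImplicit false
open scoped Pointwise
open Cfsg

namespace Cfsg.Agent.S1635

open Cfsg.Agent.Helper28.Code Cfsg.Agent.Helper28.Leech

theorem sub_mem_comm (w v : GolayPt → ZMod 2) : w - v ∈ golayCode ↔ v - w ∈ golayCode := by
  constructor
  · intro h; have := golayCode.neg_mem h; rwa [neg_sub] at this
  · intro h; have := golayCode.neg_mem h; rwa [neg_sub] at this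

/-- Coset leaders of the length-24 code: a coset contains a unique word of weight ≤ 3, or else exactly six words of weight 4 and none lighter. -/
theorem result (w : Cfsg.GolayPt → ZMod 2) : ({v : Cfsg.GolayPt → ZMod 2 | hammingNorm v ≤ 4 ∧ w - v ∈ Cfsg.golayCode}.ncard = 1 ∧ ∃ v : Cfsg.GolayPt → ZMod 2, hammingNorm v ≤ 3 ∧ w - v ∈ Cfsg.golayCode) ∨ ({v : Cfsg.GolayPt → ZMod 2 | hammingNorm v ≤ 4 ∧ w - v ∈ Cfsg.golayCode}.ncard = 6 ∧ ∀ v : Cfsg.GolayPt → ZMod 2, w - v ∈ Cfsg.golayCode → hammingNorm v ≤ 4 → hammingNorm v = 4) := by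
  rcases coset_leaders card_pts golayCode Cfsg.Agent.Helper3.golayCode_finrank golay_H2 w with
    ⟨u, hu, huniq⟩ | ⟨F, hF6, hF4, hFmem⟩
  · left
    have hset : {v : GolayPt → ZMod 2 | hammingNorm v ≤ 4 ∧ w - v ∈ golayCode} = {u} := by
      ext v
      rw [Set.mem_singleton_iff, ← huniq v]
      exact ⟨fun h => ⟨(sub_mem_comm w v).mp h.2, h.1⟩, fun h => ⟨h.2, (sub_mem_comm w v).mpr h.1⟩⟩
    refine ⟨by rw [hset, Set.ncard_singleton], u, hu, ?_⟩
    rw [sub_mem_comm]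
    exact ((huniq u).mpr rfl).1
  · right
    have hset : {v : GolayPt → ZMod 2 | hammingNorm v ≤ 4 ∧ w - v ∈ golayCode} = (F : Set _) := by
      ext v
      rw [Finset.mem_coe, ← hFmem v]
      exact ⟨fun h => ⟨(sub_mem_comm w v).mp h.2, h.1⟩, fun h => ⟨h.2, (sub_mem_comm w v).mpr h.1⟩⟩
    refine ⟨by rw [hset, Set.ncard_coe_finset, hF6], ?_⟩
    intro v hv hv4
    exact hF4 v ((hFmem v).mp ⟨(sub_mem_comm w v).mp hv, hv4⟩)

end Cfsg.Agent.S1635
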