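import Mathlib
import Cfsg.Statements.S1637
import Cfsg.Agent.Helper12.GolayPunct

set_option autoImplicit false
open scoped Pointwise
open Cfsg

namespace Cfsg.Agent.S1637

open Cfsg.Agent.Helper12

/-- The punctured length-23 code is a perfect 3-error-correcting code: each word of length 23 is within distance 3 of exactly one codeword. -/
theorem result (u : ZMod 23 → ZMod 2) : ∃! c : ZMod 23 → ZMod 2, c ∈ {u : ZMod 23 → ZMod 2 | ∃ w ∈ Cfsg.golayCode, ∀ x : ZMod 23, u x = w (some x)} ∧ hammingDist u c ≤ 3 := by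
  obtain ⟨c, hc, hd⟩ := punct_perfect u
  refine ⟨c, ⟨hc, hd⟩, ?_⟩
  rintro c' ⟨hc', hd'⟩
  refine punct_eq_of_close hc' hc ?_
  have h := hammingDist_triangle c' u c
  rw [hammingDist_comm c' u] at h
  omega

end Cfsg.Agent.S1637
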