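import Cfsg.Statements.S1643
import Cfsg.Agent.Helper12.L23b

set_option autoImplicit false
open scoped Pointwise
open Cfsg

namespace Cfsg.Agent.S1643

open Cfsg.Agent.Helper3 Cfsg.Agent.H12Out Cfsg.Agent.H12L23

theorem coatom_of {A : Type*} [Group A] (K G : Subgroup A) (hKG : K ≤ G) (hne : K ≠ G)
    (h : ∀ H : Subgroup A, K ≤ H → H ≤ G → H = K ∨ H = G) : IsCoatom (K.subgroupOf G) := by
  constructor
  · intro htop
    rw [Subgroup.subgroupOf_eq_top] at htop
    exact hne (le_antisymm hKG htop)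
  · intro Y hY
    have hK : K ≤ Y.map G.subtype := by
      intro x hx
      exact ⟨⟨x, hKG hx⟩, hY.le (Subgroup.mem_subgroupOf.mpr hx), rfl⟩
    have hG : Y.map G.subtype ≤ G := Subgroup.map_subtype_le Y
    have hYeq : (Y.map G.subtype).comap G.subtype = Y :=
      Subgroup.comap_map_eq_self_of_injective (Subgroup.subtype_injective G) Y
    rcases h _ hK hG with e | e
    · exfalso
      have h3 : Y = K.subgroupOf G := by
        rw [← hYeq, e]
        rfl
      exact hY.ne' h3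
    · rw [← hYeq, e]
      exact Subgroup.subgroupOf_self G

theorem Lg_moves : ∃ x ∈ Lg, x none ≠ none :=
  ⟨projInv, Subgroup.subset_closure (Or.inl (Or.inr rfl)), by decide⟩

theorem Lg_card : Nat.card Lg = 6072 := by
  obtain ⟨k, hk, h⟩ := key Lg_le Bg_le_Lg
  rcases h with ⟨hf, -⟩ | ⟨-, hc⟩
  · obtain ⟨x, hx, hxn⟩ := Lg_moves
    exact absurd (hf x hx) hxn
  · rcases hk with rfl | rfl
    · omega
    · exfalso
      have heq : Lg = M24 :=
        Subgroup.eq_of_le_of_card_ge Lg_le (by have := M24_card; omega)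
      exact u12_notMem_Lg (heq ▸ u12_mem)

theorem Lg_ne : Lg ≠ M24 := fun h => u12_notMem_Lg (h ▸ u12_mem)

theorem Lg_max (H : Subgroup (Equiv.Perm GolayPt)) (h1 : Lg ≤ H) (h2 : H ≤ M24) :
    H = Lg ∨ H = M24 := by
  obtain ⟨k, hk, h⟩ := key h2 (le_trans Bg_le_Lg h1)
  rcases h with ⟨hf, -⟩ | ⟨-, hc⟩
  · obtain ⟨x, hx, hxn⟩ := Lg_moves
    exact absurd (hf x (h1 hx)) hxn
  · rcases hk with rfl | rfl
    · left
      exact (Subgroup.eq_of_le_of_card_ge h1 (by have := Lg_card; omega)).symm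
    · right
      exact Subgroup.eq_of_le_of_card_ge h2 (by have := M24_card; omega)

theorem gA_le : gA ≤ M24 := fun _ hx => hx.1

theorem Bg_max (H : Subgroup (Equiv.Perm GolayPt)) (h1 : Bg ≤ H) (h2 : H ≤ gA) :
    H = Bg ∨ H = gA := by
  have hH : H ≤ M24 := fun x hx => (h2 hx).1
  obtain ⟨k, hk, h⟩ := key hH h1
  rcases h with ⟨-, hc⟩ | ⟨⟨x, hx, hxn⟩, -⟩
  · rcases hk with rfl | rfl
    · left
      exact (Subgroup.eq_of_le_of_card_ge h1 (by have := Bg_card; omega)).symm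
    · right
      exact Subgroup.eq_of_le_of_card_ge h2 (by have := gA_card; omega)
  · exfalso
    have h3 := (h2 hx).2 23 (by simp)
    rw [pt23] at h3
    exact hxn h3

theorem stab_eq : MulAction.stabilizer ↥M24 (none : GolayPt) = gA.subgroupOf M24 := by
  ext x
  rw [MulAction.mem_stabilizer_iff, Subgroup.mem_subgroupOf]
  constructor
  · intro h
    refine ⟨x.2, fun f hf => ?_⟩
    rw [List.mem_singleton] at hf
    subst hf
    rw [pt23]
    exact h
  · intro h
    have h3 := h.2 23 (by simp)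
    rw [pt23] at h3
    exact h3

/-- PSL(2, 23) = ⟨t ↦ t+1, t ↦ u t (u square), t ↦ −1/t⟩ is maximal of order 6072 in the group of the length-24 code, and its point stabiliser 23:11 (order 253) is maximal in the Mathieu group of degree 23. -/
theorem result : (Subgroup.closure ({Equiv.optionCongr (Equiv.addRight (1 : ZMod 23)), Cfsg.projInv} ∪ {g : Equiv.Perm Cfsg.GolayPt | ∃ u : (ZMod 23)ˣ, IsSquare u ∧ g = Equiv.optionCongr (Units.mulLeft u)}) ≤ Cfsg.M24 ∧ Nat.card ↥(Subgroup.closure ({Equiv.optionCongr (Equiv.addRight (1 : ZMod 23)), Cfsg.projInv} ∪ {g : Equiv.Perm Cfsg.GolayPt | ∃ u : (ZMod 23)ˣ, IsSquare u ∧ g = Equiv.optionCongr (Units.mulLeft u)})) = 6072 ∧ IsCoatom ((Subgroup.closure ({Equiv.optionCongr (Equiv.addRight (1 : ZMod 23)), Cfsg.projInv} ∪ {g : Equiv.Perm Cfsg.GolayPt | ∃ u : (ZMod 23)ˣ, IsSquare u ∧ g = Equiv.optionCongr (Units.mulLeft u)})).subgroupOf Cfsg.M24)) ∧ (Subgroup.closure ({Equiv.optionCongr (Equiv.addRight (1 :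 ZMod 23))} ∪ {g : Equiv.Perm Cfsg.GolayPt | ∃ u : (ZMod 23)ˣ, IsSquare u ∧ g = Equiv.optionCongr (Units.mulLeft u)}) ≤ Cfsg.M24 ⊓ MulAction.stabilizer (Equiv.Perm Cfsg.GolayPt) (none : Cfsg.GolayPt) ∧ Nat.card ↥(Subgroup.closure ({Equiv.optionCongr (Equiv.addRight (1 : ZMod 23))} ∪ {g : Equiv.Perm Cfsg.GolayPt | ∃ u : (ZMod 23)ˣ, IsSquare u ∧ g = Equiv.optionCongr (Units.mulLeft u)})) = 253 ∧ IsCoatom (((Subgroup.closure ({Equiv.optionCongr (Equiv.addRight (1 : ZMod 23))} ∪ {g : Equiv.Perm Cfsg.GolayPt | ∃ u : (ZMod 23)ˣ, IsSquare u ∧ g = Equiv.optionCongr (Units.mulLeft u)})).subgroupOf Cfsg.M24).subgroupOf (MulAction.stabilizer Cfsg.M24 (none : Cfsg.GolayPt)))) := by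
  refine ⟨⟨Lg_le, Lg_card, ?_⟩, ?_, Bg_card, ?_⟩
  · exact coatom_of Lg M24 Lg_le Lg_ne Lg_max
  · intro x hx
    exact ⟨Lg_le (Bg_le_Lg hx), MulAction.mem_stabilizer_iff.mpr (Bg_fix x hx)⟩
  · rw [stab_eq]
    apply coatom_of (Bg.subgroupOf M24) (gA.subgroupOf M24)
    · intro x hx
      rw [Subgroup.mem_subgroupOf] at hx ⊢
      exact ⟨x.2, fun f hf => by
        rw [List.mem_singleton] at hf; subst hf; rw [pt23]; exact Bg_fix _ hx⟩
    · intro heq
      have h1 : Nat.card (Bg.subgroupOf M24) = 253 := by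
        rw [Nat.card_congr (Subgroup.subgroupOfEquivOfLe (le_trans Bg_le_Lg Lg_le)).toEquiv,
          Bg_card]
      have h2 : Nat.card (gA.subgroupOf M24) = 10200960 := by
        rw [Nat.card_congr (Subgroup.subgroupOfEquivOfLe gA_le).toEquiv, gA_card]
      rw [heq, h2] at h1
      exact absurd h1 (by norm_num)
    · intro H hK hG
      have hB' : Bg ≤ H.map M24.subtype := by
        intro x hx
        exact ⟨⟨x, Lg_le (Bg_le_Lg hx)⟩, hK (Subgroup.mem_subgroupOf.mpr hx), rfl⟩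
      have hA' : H.map M24.subtype ≤ gA := by
        rintro _ ⟨y, hy, rfl⟩
        exact Subgroup.mem_subgroupOf.mp (hG hy)
      have hH : (H.map M24.subtype).comap M24.subtype = H :=
        Subgroup.comap_map_eq_self_of_injective (Subgroup.subtype_injective _) H
      rcases Bg_max _ hB' hA' with e | e
      · left
        rw [← hH, e]
        rfl
      · right
        rw [← hH, e]
        rfl

end Cfsg.Agent.S1643
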