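import Cfsg.Statements.S1691
import Mathlib

set_option autoImplicit false
open Cfsg

namespace Cfsg.Agent.S1691

open Cfsg.Spor

/-- The relator set of the presentation. -/
abbrev rels : Set (FreeGroup Fi24.Gen) := coxRelators Fi24.edges ∪ {r | r ∈ Fi24.extra}

/-- Every generator goes to the nontrivial element of `ZMod 2`. -/
def sgnFun : Fi24.Gen → Multiplicative (ZMod 2) := fun _ => Multiplicative.ofAdd 1

theorem sgnFun_mul (x y : Fi24.Gen) : sgnFun x * sgnFun y = 1 := by
  show Multiplicative.ofAdd (1 : ZMod 2) * Multiplicative.ofAdd 1 = 1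
  decide

theorem sgn_rel : ∀ r ∈ rels, FreeGroup.lift sgnFun r = 1 := by
  intro r hr
  rcases hr with hr | hr
  · obtain ⟨x, _, y, _, rfl⟩ := hr
    rw [map_pow, map_mul, FreeGroup.lift_apply_of, FreeGroup.lift_apply_of, sgnFun_mul, one_pow]
  · simp only [Set.mem_ofPred_eq, Fi24.extra, List.mem_cons, List.not_mem_nil, or_false] at hr
    rcases hr with rfl | rfl
    · simp only [map_mul, map_pow, map_inv, FreeGroup.lift_apply_of, sgnFun]
      decide
    · simp only [map_mul, map_pow, FreeGroup.lift_apply_of, sgnFun]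
      decide

/-- The sign homomorphism. -/
def sgn : Fi24 →* Multiplicative (ZMod 2) := PresentedGroup.toGroup sgn_rel

theorem sgn_of (x : Fi24.Gen) : sgn (PresentedGroup.of x) = Multiplicative.ofAdd 1 :=
  PresentedGroup.toGroup.of sgn_rel

theorem all_nodes (x : Fi24.Gen) : x ∈ coxNodes Fi24.edges := by
  cases x <;> decide

theorem node_sq (x : Fi24.Gen) : (PresentedGroup.of x : Fi24) * PresentedGroup.of x = 1 := by
  have hmem : (FreeGroup.of x * FreeGroup.of x) ^ coxLabel Fi24.edges x x ∈ rels :=
    Or.inl ⟨x, all_nodes x, x, all_nodes x, rfl⟩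
  have h := PresentedGroup.one_of_mem hmem
  have h1 : coxLabel Fi24.edges x x = 1 := by simp [coxLabel]
  rw [h1, pow_one, map_mul] at h
  exact h

theorem edge_rel (x y : Fi24.Gen) (h3 : coxLabel Fi24.edges x y = 3) :
    ((PresentedGroup.of x : Fi24) * PresentedGroup.of y) ^ 3 = 1 := by
  have hmem : (FreeGroup.of x * FreeGroup.of y) ^ coxLabel Fi24.edges x y ∈ rels :=
    Or.inl ⟨x, all_nodes x, y, all_nodes y, rfl⟩
  have h := PresentedGroup.one_of_mem hmem
  rw [h3, map_pow, map_mul] at h
  exact h

/-- image of a generator in the abelianization -/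
noncomputable def gb (x : Fi24.Gen) : Abelianization Fi24 := Abelianization.of (PresentedGroup.of x)

theorem gb_sq (x : Fi24.Gen) : gb x * gb x = 1 := by
  rw [gb, ← map_mul, node_sq, map_one]

theorem gb_edge (x y : Fi24.Gen) (h3 : coxLabel Fi24.edges x y = 3) : gb x = gb y := by
  have h := congrArg (Abelianization.of) (edge_rel x y h3)
  rw [map_pow, map_mul, map_one] at h
  change (gb x * gb y) ^ 3 = 1 at h
  have hx := gb_sq x
  have hy := gb_sq y
  have e : (gb x * gb y) ^ 3 = (gb x * gb x) * (gb y * gb y) * (gb x * gb y) := by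
    rw [pow_succ, pow_two]
    simp only [mul_assoc, mul_left_comm, mul_comm]
  rw [e, hx, hy, one_mul, one_mul] at h
  -- gb x * gb y = 1 and gb y * gb y = 1
  have : gb x * gb y = gb y * gb y := by rw [h, hy]
  exact mul_right_cancel this

theorem gb_all (x : Fi24.Gen) : gb x = gb Fi24.Gen.d := by
  have hlk := gb_edge .l .k (by decide)
  have hka := gb_edge .k .a (by decide)
  have hab := gb_edge .a .b (by decide)
  have hbc := gb_edge .b .c (by decide)
  have hcd := gb_edge .c .d (by decide)
  have hde := gb_edge .d .e (by decide)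
  have hdh := gb_edge .d .h (by decide)
  have hef := gb_edge .e .f (by decide)
  have hfg := gb_edge .f .g (by decide)
  have hgj := gb_edge .g .j (by decide)
  have hhi := gb_edge .h .i (by decide)
  cases x
  · rw [hlk, hka, hab, hbc, hcd]
  · rw [hka, hab, hbc, hcd]
  · rw [hab, hbc, hcd]
  · rw [hbc, hcd]
  · rw [hcd]
  · rfl
  · rw [hde]
  · rw [← hef, hde]
  · rw [← hfg, ← hef, hde]
  · rw [← hgj, ← hfg, ← hef, hde]
  · rw [hdh]
  · rw [← hhi, hdh]

theorem ab_cases (w : Fi24) :
    Abelianization.of w = 1 ∨ Abelianization.of w = gb Fi24.Gen.d := by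
  induction w using PresentedGroup.induction_on with
  | _ z =>
    induction z using FreeGroup.induction_on with
    | C1 => left; simp
    | of x => right; exact gb_all x
    | inv_of x ih =>
      right
      rw [map_inv, map_inv]
      have h : Abelianization.of (PresentedGroup.mk rels (FreeGroup.of x)) = gb Fi24.Gen.d := gb_all x
      rw [h]
      exact inv_eq_of_mul_eq_one_left (gb_sq _)
    | mul x y hx hy =>
      rw [map_mul, map_mul]
      rcases hx with hx | hx <;> rcases hy with hy | hy <;> rw [hx, hy]
      · left; simp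
      · right; simp
      · right; simp
      · left; exact gb_sq _

theorem gb_ne_one : gb Fi24.Gen.d ≠ 1 := by
  intro h
  have h2 := congrArg (Abelianization.lift sgn) h
  have e1 : (Abelianization.lift sgn) (gb Fi24.Gen.d) = Multiplicative.ofAdd 1 := by
    rw [gb, Abelianization.lift_apply_of, sgn_of]
  have e2 : (Abelianization.lift sgn) 1 = 1 := map_one _
  rw [e1, e2] at h2
  revert h2
  decide

/-- The commutator subgroup of the presented group Fi₂₄ has index 2 (the presented group is Fi₂₄′:2 with Fi₂₄′ its derived subgroup). -/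
theorem result : (commutator Cfsg.Spor.Fi24).index = 2 := by
  rw [Subgroup.index_eq_two_iff]
  refine ⟨PresentedGroup.of Fi24.Gen.d, fun b => ?_⟩
  have hmem : ∀ w : Fi24, w ∈ commutator Fi24 ↔ Abelianization.of w = 1 := by
    intro w
    rw [← Abelianization.ker_of, MonoidHom.mem_ker]
  rw [hmem, hmem, map_mul]
  change Xor (Abelianization.of b * gb Fi24.Gen.d = 1) (Abelianization.of b = 1)
  rcases ab_cases b with h | h
  · right
    refine ⟨h, ?_⟩
    rw [h, one_mul]
    exact gb_ne_one
  · left
    refine ⟨?_, ?_⟩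
    · rw [h]; exact gb_sq _
    · rw [h]; exact gb_ne_one

end Cfsg.Agent.S1691
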