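import Cfsg.Statements.S1755
import Cfsg.Agent.Helper10.FStar

set_option autoImplicit false
open Cfsg

namespace Cfsg.Agent.S1755

theorem cyc_invol_unique {K : Type*} [Group K] [Finite K] [IsCyclic K] {u v : K} (hu : u ≠ 1)
    (hu2 : u ^ 2 = 1) (hv : v ≠ 1) (hv2 : v ^ 2 = 1) : u = v := by
  classical
  have := Fintype.ofFinite K
  by_contra hne
  have h3 : ({1, u, v} : Finset K) ⊆ Finset.univ.filter (fun a : K => a ^ 2 = 1) := by
    intro x hx
    simp only [Finset.mem_insert, Finset.mem_singleton] at hx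
    simp only [Finset.mem_filter, Finset.mem_univ, true_and]
    rcases hx with rfl | rfl | rfl
    · exact one_pow 2
    · exact hu2
    · exact hv2
  have hc : ({1, u, v} : Finset K).card = 3 := by
    rw [Finset.card_insert_of_notMem, Finset.card_insert_of_notMem, Finset.card_singleton]
    · simpa using hne
    · simp only [Finset.mem_insert, Finset.mem_singleton, not_or]
      exact ⟨fun h => hu h.symm, fun h => hv h.symm⟩
  have := (Finset.card_le_card h3).trans
    (IsCyclic.card_pow_eq_one_le (α := K) (n := 2) (by norm_num))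
  omega

theorem main {G : Type*} [Group G] [Finite G] (z : G) (hz : orderOf z = 2) (C : Subgroup G)
    (hC : C = Subgroup.centralizer ({z} : Set G)) (Q : Subgroup ↥C) [hQn : Q.Normal]
    (hzQ : ∀ h : z ∈ C, (⟨z, h⟩ : ↥C) ∈ Q) (hQ2 : IsPGroup 2 ↥Q)
    (hQs : ∀ A : Subgroup ↥Q, A.Characteristic → IsMulCommutative A → IsCyclic A)
    (B : Subgroup ↥Q) (hBc : B.Characteristic) (hBa : IsMulCommutative ↥B) (g : G) :
    ((B.map Q.subtype).map C.subtype).map (MulAut.conj g).toMonoidHom =
        (B.map Q.subtype).map C.subtype ∨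
      ((B.map Q.subtype).map C.subtype).map (MulAut.conj g).toMonoidHom ⊓
        (B.map Q.subtype).map C.subtype = ⊥ := by
  have hfact : Fact (Nat.Prime 2) := ⟨Nat.prime_two⟩
  have hzC : z ∈ C := by rw [hC, Subgroup.mem_centralizer_singleton_iff]
  have hz1 : z ≠ 1 := by
    intro h; rw [h, orderOf_one] at hz; omega
  have hz2 : z ^ 2 = 1 := by rw [← hz]; exact pow_orderOf_eq_one z
  have hBcyc : IsCyclic ↥B := hQs B hBc hBa
  have hZcyc : IsCyclic ↥(Subgroup.center ↥Q) := hQs _ inferInstance inferInstance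
  have hBn : B.Normal := Subgroup.normal_of_characteristic B
  -- membership in the image
  have hmem : ∀ x : G, x ∈ (B.map Q.subtype).map C.subtype ↔
      ∃ b : ↥Q, b ∈ B ∧ ((b : ↥C) : G) = x := by
    intro x
    constructor
    · rintro ⟨c, ⟨b, hb, rfl⟩, rfl⟩
      exact ⟨b, hb, rfl⟩
    · rintro ⟨b, hb, rfl⟩
      exact ⟨b.1, ⟨b, hb, rfl⟩, rfl⟩
  -- elements of C normalise the image
  have hnorm : ∀ c : G, c ∈ C → ∀ x ∈ (B.map Q.subtype).map C.subtype,
      c * x * c⁻¹ ∈ (B.map Q.subtype).map C.subtype := by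
    intro c hc x hx
    rw [hmem] at hx ⊢
    obtain ⟨b, hb, rfl⟩ := hx
    refine ⟨MulAut.conjNormal (⟨c, hc⟩ : ↥C) b, ?_, ?_⟩
    · have := Subgroup.characteristic_iff_map_eq.mp hBc (MulAut.conjNormal (⟨c, hc⟩ : ↥C))
      rw [← this]
      exact ⟨b, hb, rfl⟩
    · rw [MulAut.conjNormal_apply]
      rfl
  by_cases hB : B = ⊥
  · left
    rw [hB, Subgroup.map_bot, Subgroup.map_bot, Subgroup.map_bot]
  -- the involution `z` as an element of `Q`
  have hzc : (⟨⟨z, hzC⟩, hzQ hzC⟩ : ↥Q) ∈ Subgroup.center ↥Q := by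
    rw [Subgroup.mem_center_iff]
    intro q
    apply Subtype.ext; apply Subtype.ext
    show ((q : ↥C) : G) * z = z * ((q : ↥C) : G)
    have hq : ((q : ↥C) : G) ∈ Subgroup.centralizer ({z} : Set G) := hC ▸ q.1.2
    rw [Subgroup.mem_centralizer_singleton_iff] at hq
    exact hq
  have hzne : (⟨⟨z, hzC⟩, hzQ hzC⟩ : ↥Q) ≠ 1 := by
    intro h
    exact hz1 (congrArg (fun q : ↥Q => ((q : ↥C) : G)) h)
  have hzsq : (⟨⟨z, hzC⟩, hzQ hzC⟩ : ↥Q) ^ 2 = 1 := by
    apply Subtype.ext; apply Subtype.ext
    exact hz2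
  -- every involution of `B` equals `z`
  have hinv : ∀ u : ↥Q, u ∈ B → u ≠ 1 → u ^ 2 = 1 → u = ⟨⟨z, hzC⟩, hzQ hzC⟩ := by
    intro u huB hu1 hu2
    have huc : u ∈ Subgroup.center ↥Q := by
      rw [Subgroup.mem_center_iff]
      intro q
      have h1 : q * u * q⁻¹ ∈ B := hBn.conj_mem u huB q
      have h2 : (⟨q * u * q⁻¹, h1⟩ : ↥B) = ⟨u, huB⟩ := by
        refine cyc_invol_unique ?_ ?_ ?_ ?_
        · intro h
          have h' : q * u * q⁻¹ = 1 := congrArg Subtype.val h
          apply hu1
          have : u = q⁻¹ * (q * u * q⁻¹) * q := by group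
          rw [this, h']; group
        · apply Subtype.ext
          show (q * u * q⁻¹) ^ 2 = 1
          rw [conj_pow, hu2]; group
        · intro h
          exact hu1 (congrArg Subtype.val h)
        · apply Subtype.ext
          exact hu2
      have h3 : q * u * q⁻¹ = u := congrArg Subtype.val h2
      calc q * u = (q * u * q⁻¹) * q := by group
        _ = u * q := by rw [h3]
    have h4 : (⟨u, huc⟩ : ↥(Subgroup.center ↥Q)) = ⟨_, hzc⟩ := by
      refine cyc_invol_unique ?_ ?_ ?_ ?_
      · intro h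
        exact hu1 (congrArg Subtype.val h)
      · apply Subtype.ext
        exact hu2
      · intro h
        exact hzne (congrArg Subtype.val h)
      · apply Subtype.ext
        exact hzsq
    exact congrArg Subtype.val h4
  -- every nontrivial element of `B` has `z` among its powers
  have hpowz : ∀ b : ↥Q, b ∈ B → b ≠ 1 → ∃ k : ℕ, b ^ k = ⟨⟨z, hzC⟩, hzQ hzC⟩ := by
    intro b hb hb1
    have hp : IsPGroup 2 ↥(Subgroup.zpowers b) := hQ2.to_subgroup _
    obtain ⟨n, hn⟩ := IsPGroup.exists_card_eq hp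
    have hn0 : n ≠ 0 := by
      rintro rfl
      rw [pow_zero, Nat.card_zpowers] at hn
      exact hb1 (orderOf_eq_one_iff.mp hn)
    have hdvd : 2 ∣ Nat.card ↥(Subgroup.zpowers b) := by
      rw [hn]; exact dvd_pow_self 2 hn0
    obtain ⟨w, hw⟩ := exists_prime_orderOf_dvd_card' 2 hdvd
    have hw1 : (w : ↥Q) ≠ 1 := by
      intro h
      have : w = 1 := Subtype.ext h
      rw [this, orderOf_one] at hw; omega
    have hw2 : (w : ↥Q) ^ 2 = 1 := by
      have : w ^ 2 = 1 := by rw [← hw]; exact pow_orderOf_eq_one w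
      exact congrArg Subtype.val this
    have hwB : (w : ↥Q) ∈ B := (Subgroup.zpowers_le.mpr hb) w.2
    have hwz := hinv w hwB hw1 hw2
    obtain ⟨k, hk⟩ := (mem_powers_iff_mem_zpowers.mpr w.2)
    exact ⟨k, by rw [← hwz]; exact hk⟩
  by_cases hI : ((B.map Q.subtype).map C.subtype).map (MulAut.conj g).toMonoidHom ⊓
        (B.map Q.subtype).map C.subtype = ⊥
  · exact Or.inr hI
  left
  obtain ⟨x, hx, hx1⟩ : ∃ x ∈ ((B.map Q.subtype).map C.subtype).map (MulAut.conj g).toMonoidHom ⊓
        (B.map Q.subtype).map C.subtype, x ≠ 1 := by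
    by_contra hcon
    push Not at hcon
    exact hI ((Subgroup.eq_bot_iff_forall _).mpr hcon)
  obtain ⟨hxg, hxB⟩ := hx
  obtain ⟨b, hb, rfl⟩ := (hmem x).mp hxB
  have hb1 : b ≠ 1 := by
    rintro rfl
    exact hx1 rfl
  obtain ⟨k, hk⟩ := hpowz b hb hb1
  have hzx : z = ((b : ↥C) : G) ^ k := by
    have := congrArg (fun q : ↥Q => ((q : ↥C) : G)) hk
    simp only [Subgroup.coe_pow] at this
    exact this.symm
  have hzg : z ∈ ((B.map Q.subtype).map C.subtype).map (MulAut.conj g).toMonoidHom := by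
    rw [hzx]; exact Subgroup.pow_mem _ hxg k
  obtain ⟨y, hy, hyz⟩ := hzg
  obtain ⟨b', hb', rfl⟩ := (hmem y).mp hy
  have hyz' : g * ((b' : ↥C) : G) * g⁻¹ = z := hyz
  have hb'1 : b' ≠ 1 := by
    rintro rfl
    apply hz1
    rw [← hyz']
    simp
  have hb'2 : b' ^ 2 = 1 := by
    apply Subtype.ext; apply Subtype.ext
    show ((b' : ↥C) : G) ^ 2 = 1
    have : ((b' : ↥C) : G) = g⁻¹ * z * g := by rw [← hyz']; group
    rw [this]
    have e : (g⁻¹ * z * g) ^ 2 = g⁻¹ * z ^ 2 * g := by
      rw [pow_two, pow_two]; group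
    rw [e, hz2]; group
  have hb'z := hinv b' hb' hb'1 hb'2
  have hgz : g * z * g⁻¹ = z := by
    have : ((b' : ↥C) : G) = z := congrArg (fun q : ↥Q => ((q : ↥C) : G)) hb'z
    rw [this] at hyz'
    exact hyz'
  have hgC : g ∈ C := by
    rw [hC, Subgroup.mem_centralizer_singleton_iff]
    calc g * z = (g * z * g⁻¹) * g := by group
      _ = z * g := by rw [hgz]
  apply le_antisymm
  · rintro _ ⟨y, hy, rfl⟩
    exact hnorm g hgC y hy
  · intro y hy
    refine ⟨g⁻¹ * y * g, ?_, ?_⟩
    · have := hnorm g⁻¹ (C.inv_mem hgC) y hy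
      rw [inv_inv] at this
      exact this
    · show g * (g⁻¹ * y * g) * g⁻¹ = y
      group

/-- Let G be a finite group and let z be an involution of G such that Q, the generalized Fitting subgroup of the centralizer C of z, is a 2-group of symplectic type (every characteristic abelian subgroup of Q is cyclic). Let B be a characteristic abelian subgroup of Q, viewed as a subgroup of G. Then for every g in G, the conjugate of B by g either equals B or meets B trivially. -/
theorem result {G : Type*} [Group G] [Finite G] (z : G) (hz : orderOf z = 2) (hQ : Cfsg.IsOfSymplecticType ↥(Cfsg.generalizedFittingSubgroup ↥(Subgroup.centralizer ({z} : Set G))))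
    (B : Subgroup ↥(Cfsg.generalizedFittingSubgroup ↥(Subgroup.centralizer ({z} : Set G)))) (hBc : B.Characteristic) (hBa : IsMulCommutative ↥B) (g : G) :
    ((B.map (Cfsg.generalizedFittingSubgroup ↥(Subgroup.centralizer ({z} : Set G))).subtype).map (Subgroup.centralizer ({z} : Set G)).subtype).map (MulAut.conj g).toMonoidHom =
        (B.map (Cfsg.generalizedFittingSubgroup ↥(Subgroup.centralizer ({z} : Set G))).subtype).map (Subgroup.centralizer ({z} : Set G)).subtype ∨
      ((B.map (Cfsg.generalizedFittingSubgroup ↥(Subgroup.centralizer ({z} : Set G))).subtype).map (Subgroup.centralizer ({z} : Set G)).subtype).map (MulAut.conj g).toMonoidHom ⊓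
        (B.map (Cfsg.generalizedFittingSubgroup ↥(Subgroup.centralizer ({z} : Set G))).subtype).map (Subgroup.centralizer ({z} : Set G)).subtype = ⊥ := by
  have := Cfsg.Agent.Helper10.gfitting_normal ↥(Subgroup.centralizer ({z} : Set G))
  refine main z hz _ rfl _ ?_ hQ.1 hQ.2 B hBc hBa g
  intro h
  apply Cfsg.Agent.Helper10.centralizer_gfitting_le
  rw [Subgroup.mem_centralizer_iff]
  intro q _
  apply Subtype.ext
  have hq : (q : G) ∈ Subgroup.centralizer ({z} : Set G) := q.2
  rw [Subgroup.mem_centralizer_singleton_iff] at hq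
  exact hq

end Cfsg.Agent.S1755
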