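import Cfsg.Statements.S1756
import Mathlib

set_option autoImplicit false
open Cfsg

namespace Cfsg.Agent.S1756

section
variable {P : Type*} [Group P]

/-- basic facts about an extraspecial 2-group: a central involution `z` such that the centre is
`{1, z}` and all commutators lie in `{1, z}`. -/
theorem facts (hP : Cfsg.IsExtraspecial 2 P) :
    ∃ z : P, z ≠ 1 ∧ z * z = 1 ∧ (∀ y : P, z * y = y * z) ∧
      (∀ w : P, (∀ y : P, w * y = y * w) → w = 1 ∨ w = z) ∧
      (∀ a b : P, a * b * a⁻¹ * b⁻¹ = 1 ∨ a * b * a⁻¹ * b⁻¹ = z) := by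
  obtain ⟨⟨_, _, hc⟩, hcard⟩ := hP
  rw [Nat.card_eq_two_iff' (1 : Subgroup.center P)] at hcard
  obtain ⟨⟨z, hzc⟩, hz1, hzu⟩ := hcard
  have hz1' : z ≠ 1 := fun h => hz1 (Subtype.ext h)
  have hcen : ∀ w : P, (∀ y : P, w * y = y * w) → w = 1 ∨ w = z := by
    intro w hw
    by_cases h1 : w = 1
    · left; exact h1
    · right
      have hwc : w ∈ Subgroup.center P := Subgroup.mem_center_iff.mpr (fun g => (hw g).symm)
      have := hzu ⟨w, hwc⟩ (fun h => h1 (congrArg Subtype.val h))
      exact congrArg Subtype.val this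
  have hzcomm : ∀ y : P, z * y = y * z := fun y => ((Subgroup.mem_center_iff.mp hzc) y).symm
  refine ⟨z, hz1', ?_, hzcomm, hcen, ?_⟩
  · rcases hcen (z * z) (fun y => by rw [mul_assoc, hzcomm y, ← mul_assoc, hzcomm y, mul_assoc]) with h | h
    · exact h
    · exfalso
      apply hz1'
      have : z * z = z * 1 := by rw [h, mul_one]
      exact mul_left_cancel this
  · intro a b
    have hmem : a * b * a⁻¹ * b⁻¹ ∈ Subgroup.center P := by
      rw [← hc, commutator_def]
      exact Subgroup.commutator_mem_commutator (Subgroup.mem_top a) (Subgroup.mem_top b)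
    exact hcen _ (fun y => ((Subgroup.mem_center_iff.mp hmem) y).symm)

theorem eq_iff_one (e x y : P) (h : x = e * y) : x = y ↔ e = 1 := by
  constructor
  · intro hxy
    rw [hxy] at h
    have : (1 : P) * y = e * y := by rw [one_mul]; exact h
    exact (mul_right_cancel this).symm
  · intro he
    rw [h, he, one_mul]

/-- key lemma: in an extraspecial 2-group, `a * b` commutes with `c` iff
(`a` commutes with `c` ↔ `b` commutes with `c`). -/
theorem comm_mul_iff (hP : Cfsg.IsExtraspecial 2 P) (a b c : P) :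
    (a * b) * c = c * (a * b) ↔ (a * c = c * a ↔ b * c = c * b) := by
  obtain ⟨z, hz1, hzz, hzc, -, hcomm⟩ := facts hP
  have ha : a * c = (a * c * a⁻¹ * c⁻¹) * (c * a) := by group
  have hb : b * c = (b * c * b⁻¹ * c⁻¹) * (c * b) := by group
  have hab : (a * b) * c = (a * (b * c * b⁻¹ * c⁻¹) * a⁻¹) * (a * c * a⁻¹ * c⁻¹) * (c * (a * b)) := by
    group
  have hconj : a * (b * c * b⁻¹ * c⁻¹) * a⁻¹ = b * c * b⁻¹ * c⁻¹ := by
    rcases hcomm b c with h | h
    · rw [h]; group
    · rw [h, ← hzc a]; group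
  rw [hconj] at hab
  rw [eq_iff_one _ _ _ ha, eq_iff_one _ _ _ hb, eq_iff_one _ _ _ hab]
  rcases hcomm a c with h1 | h1 <;> rcases hcomm b c with h2 | h2 <;> rw [h1, h2]
  · simp
  · simp [hz1]
  · simp [hz1]
  · simp [hzz, hz1]

theorem neg_one_ne_one_units : (-1 : ℂˣ) ≠ 1 := by
  intro h
  have := congrArg Units.val h
  norm_num at this

open Classical in
/-- the character `y ↦ ±1` according to whether `x` commutes with `y` -/
noncomputable def chi (hP : Cfsg.IsExtraspecial 2 P) (x : P) : P →* ℂˣ where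
  toFun y := if x * y = y * x then 1 else -1
  map_one' := by simp
  map_mul' y y' := by
    have h := comm_mul_iff hP y y' x
    by_cases h1 : x * y = y * x <;> by_cases h2 : x * y' = y' * x
    · have h3 : x * (y * y') = (y * y') * x := (h.mpr ⟨fun _ => h2.symm, fun _ => h1.symm⟩).symm
      simp [h1, h2, h3]
    · have h3 : ¬ x * (y * y') = (y * y') * x := fun h4 => h2 ((h.mp h4.symm).mp h1.symm).symm
      simp [h1, h2, h3]
    · have h3 : ¬ x * (y * y') = (y * y') * x := fun h4 => h1 ((h.mp h4.symm).mpr h2.symm).symm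
      simp [h1, h2, h3]
    · have h3 : x * (y * y') = (y * y') * x :=
        (h.mpr ⟨fun h5 => absurd h5.symm h1, fun h5 => absurd h5.symm h2⟩).symm
      simp [h1, h2, h3]

open Classical in
theorem chi_apply (hP : Cfsg.IsExtraspecial 2 P) (x y : P) :
    chi hP x y = if x * y = y * x then 1 else -1 := rfl

theorem chi_eq_one_iff (hP : Cfsg.IsExtraspecial 2 P) (x y : P) :
    chi hP x y = 1 ↔ x * y = y * x := by
  classical
  rw [chi_apply]
  by_cases h : x * y = y * x
  · simp [h]
  · simp [h, neg_one_ne_one_units]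

/-- `x ↦ chi x` as a homomorphism -/
noncomputable def Psi (hP : Cfsg.IsExtraspecial 2 P) : P →* (P →* ℂˣ) where
  toFun := chi hP
  map_one' := by
    ext y
    have : chi hP 1 y = 1 := (chi_eq_one_iff hP 1 y).mpr (by simp)
    rw [this]; rfl
  map_mul' x x' := by
    classical
    ext y
    have h := comm_mul_iff hP x x' y
    rw [MonoidHom.mul_apply, chi_apply, chi_apply, chi_apply]
    by_cases h1 : x * y = y * x <;> by_cases h2 : x' * y = y * x'
    · have h3 : (x * x') * y = y * (x * x') := h.mpr ⟨fun _ => h2, fun _ => h1⟩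
      simp [h1, h2, h3]
    · have h3 : ¬ (x * x') * y = y * (x * x') := fun h4 => h2 ((h.mp h4).mp h1)
      simp [h1, h2, h3]
    · have h3 : ¬ (x * x') * y = y * (x * x') := fun h4 => h1 ((h.mp h4).mpr h2)
      simp [h1, h2, h3]
    · have h3 : (x * x') * y = y * (x * x') := h.mpr ⟨fun h5 => absurd h5 h1, fun h5 => absurd h5 h2⟩
      simp [h1, h2, h3]

theorem Psi_ker (hP : Cfsg.IsExtraspecial 2 P) : (Psi hP).ker = Subgroup.center P := by
  ext x
  rw [MonoidHom.mem_ker, Subgroup.mem_center_iff]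
  constructor
  · intro h y
    have : chi hP x y = 1 := by
      have := congrArg (fun f : P →* ℂˣ => f y) h
      exact this
    exact ((chi_eq_one_iff hP x y).mp this).symm
  · intro h
    ext y
    have : chi hP x y = 1 := (chi_eq_one_iff hP x y).mpr (h y).symm
    show ((chi hP x y : ℂˣ) : ℂ) = _
    rw [this]; rfl

theorem card_hom [Finite P] (hP : Cfsg.IsExtraspecial 2 P) :
    Nat.card (P →* ℂˣ) = (Subgroup.center P).index := by
  have h1 : Nat.card (P →* ℂˣ) = Nat.card (Abelianization P →* ℂˣ) :=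
    Nat.card_congr Abelianization.lift
  haveI : NeZero (Monoid.exponent (Abelianization P)) := ⟨Monoid.exponent_ne_zero_of_finite⟩
  have h2 : Nat.card (Abelianization P →* ℂˣ) = Nat.card (Abelianization P) :=
    CommGroup.card_monoidHom_of_hasEnoughRootsOfUnity (Abelianization P) ℂ
  have h3 : Nat.card (Abelianization P) = (commutator P).index := rfl
  rw [h1, h2, h3, hP.1.2.2]

theorem Psi_surj [Finite P] (hP : Cfsg.IsExtraspecial 2 P) : Function.Surjective (Psi hP) := by
  have hcard : Nat.card (Psi hP).range = Nat.card (P →* ℂˣ) := by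
    rw [← Subgroup.index_ker, Psi_ker, card_hom hP]
  have := Subgroup.eq_top_of_card_eq _ hcard
  exact MonoidHom.range_eq_top.mp this

/-- duality: every subgroup of index 2 of an extraspecial 2-group is the centralizer of an element -/
theorem exists_centralizer_eq [Finite P] (hP : Cfsg.IsExtraspecial 2 P) (M : Subgroup P)
    (hM : M.index = 2) : ∃ x : P, ∀ y : P, x * y = y * x ↔ y ∈ M := by
  classical
  let f : P →* ℂˣ :=
    { toFun := fun y => if y ∈ M then 1 else -1
      map_one' := by simp [M.one_mem]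
      map_mul' := fun y y' => by
        have h := Subgroup.mul_mem_iff_of_index_two hM (a := y) (b := y')
        by_cases h1 : y ∈ M <;> by_cases h2 : y' ∈ M
        · have h3 : y * y' ∈ M := h.mpr ⟨fun _ => h2, fun _ => h1⟩
          simp [h1, h2, h3]
        · have h3 : ¬ y * y' ∈ M := fun h4 => h2 ((h.mp h4).mp h1)
          simp [h1, h2, h3]
        · have h3 : ¬ y * y' ∈ M := fun h4 => h1 ((h.mp h4).mpr h2)
          simp [h1, h2, h3]
        · have h3 : y * y' ∈ M := h.mpr ⟨fun h5 => absurd h5 h1, fun h5 => absurd h5 h2⟩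
          simp [h1, h2, h3] }
  obtain ⟨x, hx⟩ := Psi_surj hP f
  refine ⟨x, fun y => ?_⟩
  have h1 : chi hP x y = f y := by
    have := congrArg (fun g : P →* ℂˣ => g y) hx
    exact this
  have h2 : f y = if y ∈ M then 1 else -1 := rfl
  rw [← chi_eq_one_iff hP x y, h1, h2]
  by_cases h : y ∈ M
  · simp [h]
  · simp [h, neg_one_ne_one_units]

/-- an involutory automorphism of an extraspecial 2-group whose fixed-point subgroup has index at
most 2 is inner -/
theorem aut_inner [Finite P] (hP : Cfsg.IsExtraspecial 2 P) (α : MulAut P)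
    (hα2 : ∀ y : P, α (α y) = y) (M : Subgroup P) (hM : ∀ y : P, y ∈ M ↔ α y = y)
    (hidx : M.index = 1 ∨ M.index = 2) : ∃ x : P, ∀ y : P, α y = x * y * x⁻¹ := by
  rcases hidx with hidx | hidx
  · refine ⟨1, fun y => ?_⟩
    rw [Subgroup.index_eq_one] at hidx
    have : y ∈ M := hidx ▸ Subgroup.mem_top y
    rw [(hM y).mp this]; simp
  obtain ⟨z, hz1, hzz, hzc, hcen, hcomm⟩ := facts hP
  -- (a) α z = z
  have hαz : α z = z := by
    have hcz : ∀ y : P, α z * y = y * α z := by
      intro y
      calc α z * y = α z * α (α y) := by rw [hα2]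
        _ = α (z * α y) := (map_mul α _ _).symm
        _ = α (α y * z) := by rw [hzc]
        _ = α (α y) * α z := map_mul α _ _
        _ = y * α z := by rw [hα2]
    rcases hcen _ hcz with h | h
    · exfalso
      apply hz1
      have : α z = α 1 := by rw [h, map_one]
      exact α.injective this
    · exact h
  have hzM : z ∈ M := (hM z).mpr hαz
  -- elements of {1, z} are fixed
  have hfix : ∀ e : P, (e = 1 ∨ e = z) → α e = e := by
    rintro e (rfl | rfl)
    · exact map_one α
    · exact hαz
  -- (b) q ∉ M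
  have hMtop : M ≠ ⊤ := by
    intro h
    rw [← Subgroup.index_eq_one] at h
    omega
  obtain ⟨q, hq⟩ : ∃ q : P, q ∉ M := by
    by_contra h
    push Not at h
    exact hMtop (eq_top_iff.mpr (fun y _ => h y))
  -- (c)
  have hcoset : ∀ u : P, u ∉ M → ∀ y : P, y ∉ M → u⁻¹ * y ∈ M := by
    intro u hu y hy
    rw [Subgroup.mul_mem_iff_of_index_two hidx]
    exact ⟨fun h => absurd (M.inv_mem_iff.mp h) hu, fun h => absurd h hy⟩
  -- (d)
  set c : P := q⁻¹ * α q with hc
  have hαq : α q = q * c := by rw [hc]; group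
  have hc1 : c ≠ 1 := by
    intro h
    rw [h, mul_one] at hαq
    exact hq ((hM q).mpr hαq)
  -- (e)
  have hcM : ∀ m ∈ M, m * c = c * m := by
    intro m hm
    have hαm : α m = m := (hM m).mp hm
    have he := hcomm m q
    have hαe : α (m * q * m⁻¹ * q⁻¹) = m * q * m⁻¹ * q⁻¹ := hfix _ he
    rw [map_mul, map_mul, map_mul, map_inv, map_inv, hαm, hαq] at hαe
    have h1 : m * (q * c) * m⁻¹ * (q * c)⁻¹ =
        (m * q * m⁻¹ * q⁻¹) * (q * (m * c * m⁻¹ * c⁻¹) * q⁻¹) := by group
    rw [h1] at hαe
    have h2 : q * (m * c * m⁻¹ * c⁻¹) * q⁻¹ = 1 := by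
      have : (m * q * m⁻¹ * q⁻¹) * (q * (m * c * m⁻¹ * c⁻¹) * q⁻¹) = (m * q * m⁻¹ * q⁻¹) * 1 := by
        rw [hαe, mul_one]
      exact mul_left_cancel this
    have h3 : m * c * m⁻¹ * c⁻¹ = 1 := by
      have : m * c * m⁻¹ * c⁻¹ = q⁻¹ * (q * (m * c * m⁻¹ * c⁻¹) * q⁻¹) * q := by group
      rw [this, h2]; group
    have : m * c = (m * c * m⁻¹ * c⁻¹) * (c * m) := by group
    rw [this, h3, one_mul]
  -- central criterion
  have hcentral : ∀ w : P, w ∉ M → ∀ d : P, (∀ m ∈ M, m * d = d * m) → d * w = w * d →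
      ∀ y : P, d * y = y * d := by
    intro w hw d hdM hdw y
    by_cases hy : y ∈ M
    · exact (hdM y hy).symm
    · have hm := hcoset w hw y hy
      have e : y = w * (w⁻¹ * y) := by group
      rw [e]
      calc d * (w * (w⁻¹ * y)) = (d * w) * (w⁻¹ * y) := by group
        _ = (w * d) * (w⁻¹ * y) := by rw [hdw]
        _ = w * (d * (w⁻¹ * y)) := by group
        _ = w * ((w⁻¹ * y) * d) := by rw [hdM _ hm]
        _ = w * (w⁻¹ * y) * d := by group
  -- (f) c ∈ M
  have hcinM : c ∈ M := by
    by_contra hcn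
    rcases hcen c (hcentral c hcn c hcM rfl) with h | h
    · exact hc1 h
    · exact hcn (h ▸ hzM)
  have hαc : α c = c := (hM c).mp hcinM
  -- (g)
  have hcc : c * c = 1 := by
    have := hα2 q
    rw [hαq, map_mul, hαq, hαc] at this
    have e : q * c * c = q * (c * c) := by group
    rw [e] at this
    have : q * (c * c) = q * 1 := by rw [this, mul_one]
    exact mul_left_cancel this
  have hcinv : c⁻¹ = c := (eq_inv_of_mul_eq_one_left hcc).symm
  -- (h)
  have hqq : α (q * q) = q * q := by
    apply hfix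
    apply hcen
    intro y
    exact (comm_mul_iff hP q q y).mpr Iff.rfl
  -- (i)
  have hcq : c * q = q * c := by
    rw [map_mul, hαq] at hqq
    -- q * c * (q * c) = q * q
    have h1 : c * q * c = q := by
      have : q * (c * q * c) = q * q := by
        rw [← hqq]; group
      exact mul_left_cancel this
    calc c * q = (c * q * c) * c⁻¹ := by group
      _ = q * c := by rw [h1, hcinv]
  -- (j)
  have hcz : c = z := by
    rcases hcen c (hcentral q hq c hcM hcq) with h | h
    · exact absurd h hc1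
    · exact h
  -- (k)
  obtain ⟨x, hx⟩ := exists_centralizer_eq hP M hidx
  have hxq : x * q * x⁻¹ = q * z := by
    rcases hcomm x q with h | h
    · exfalso
      apply hq
      rw [← hx q]
      have : x * q = (x * q * x⁻¹ * q⁻¹) * (q * x) := by group
      rw [this, h, one_mul]
    · have : x * q * x⁻¹ = (x * q * x⁻¹ * q⁻¹) * q := by group
      rw [this, h, hzc]
  refine ⟨x, fun y => ?_⟩
  by_cases hy : y ∈ M
  · rw [(hM y).mp hy]
    have := (hx y).mpr hy
    rw [this]; group
  · have hm := hcoset q hq y hy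
    have e : y = q * (q⁻¹ * y) := by group
    have h1 : α (q⁻¹ * y) = q⁻¹ * y := (hM _).mp hm
    have h2 : x * (q⁻¹ * y) = (q⁻¹ * y) * x := (hx _).mpr hm
    calc α y = α (q * (q⁻¹ * y)) := by rw [← e]
      _ = α q * α (q⁻¹ * y) := map_mul α _ _
      _ = q * z * (q⁻¹ * y) := by rw [hαq, hcz, h1]
      _ = (x * q * x⁻¹) * (q⁻¹ * y) := by rw [hxq]
      _ = x * q * x⁻¹ * ((q⁻¹ * y) * x) * x⁻¹ := by group
      _ = x * q * x⁻¹ * (x * (q⁻¹ * y)) * x⁻¹ := by rw [h2]
      _ = x * y * x⁻¹ := by group

end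


/-- Let Q be an extraspecial 2-subgroup of the finite group G (special with centre of order 2) and t an involution of G normalizing Q such that the centralizer of t in Q has index at most 2 in Q. Then t lies in the product of Q with the centralizer of Q. -/
theorem result {G : Type*} [Group G] [Finite G] (Q : Subgroup G)
    (hQ : Cfsg.IsExtraspecial 2 ↥Q) (t : G) (ht : orderOf t = 2) (htN : t ∈ Subgroup.normalizer (Q : Set G))
    (hi : (Subgroup.centralizer ({t} : Set G) ⊓ Q).relIndex Q ≤ 2) :
    t ∈ Q ⊔ Subgroup.centralizer (Q : Set G) := by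
  have ht2 : t * t = 1 := by
    have := pow_orderOf_eq_one t
    rw [ht, pow_two] at this
    exact this
  have htinv : t⁻¹ = t := (eq_inv_of_mul_eq_one_left ht2).symm
  have hn : ∀ y ∈ Q, t * y * t⁻¹ ∈ Q := fun y hy => (Subgroup.mem_normalizer_iff.mp htN y).mp hy
  have hn' : ∀ y ∈ Q, t⁻¹ * y * t ∈ Q := fun y hy => by
    have := hn y hy
    rw [htinv] at this ⊢
    exact this
  let α : MulAut ↥Q :=
    { toFun := fun y => ⟨t * y * t⁻¹, hn y y.2⟩
      invFun := fun y => ⟨t⁻¹ * y * t, hn' y y.2⟩
      left_inv := fun y => by apply Subtype.ext; show t⁻¹ * (t * y * t⁻¹) * t = y; group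
      right_inv := fun y => by apply Subtype.ext; show t * (t⁻¹ * y * t) * t⁻¹ = y; group
      map_mul' := fun y y' => by
        apply Subtype.ext
        show t * (y * y') * t⁻¹ = t * y * t⁻¹ * (t * y' * t⁻¹)
        group }
  have hα : ∀ y : ↥Q, ((α y : ↥Q) : G) = t * y * t⁻¹ := fun y => rfl
  have hα2 : ∀ y : ↥Q, α (α y) = y := by
    intro y
    apply Subtype.ext
    rw [hα, hα, htinv]
    calc t * (t * (y : G) * t) * t = (t * t) * y * (t * t) := by group
      _ = y := by rw [ht2, one_mul, mul_one]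
  set M : Subgroup ↥Q := (Subgroup.centralizer ({t} : Set G) ⊓ Q).subgroupOf Q with hMdef
  have hM : ∀ y : ↥Q, y ∈ M ↔ α y = y := by
    intro y
    rw [hMdef, Subgroup.mem_subgroupOf, Subgroup.mem_inf, Subgroup.mem_centralizer_iff]
    constructor
    · rintro ⟨h, _⟩
      apply Subtype.ext
      rw [hα]
      have := h t (Set.mem_singleton t)
      rw [this]; group
    · intro h
      refine ⟨fun x hx => ?_, y.2⟩
      rw [Set.mem_singleton_iff] at hx
      subst hx
      have h' : x * (y : G) * x⁻¹ = y := by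
        have := congrArg Subtype.val h
        rwa [hα] at this
      have e : x * (y : G) = (x * y * x⁻¹) * x := by group
      rw [e, h']
  have hidx : M.index = 1 ∨ M.index = 2 := by
    have h0 : M.index ≠ 0 := Subgroup.index_ne_zero_of_finite
    have h2 : M.index ≤ 2 := hi
    omega
  obtain ⟨x, hx⟩ := aut_inner hQ α hα2 M hM hidx
  have hs : (x : G)⁻¹ * t ∈ Subgroup.centralizer (Q : Set G) := by
    rw [Subgroup.mem_centralizer_iff]
    intro y hy
    have h1 : t * y * t⁻¹ = (x : G) * y * (x : G)⁻¹ := by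
      have := congrArg Subtype.val (hx ⟨y, hy⟩)
      rw [hα] at this
      exact this
    have h2 : t * y = (x : G) * y * (x : G)⁻¹ * t := by
      rw [← h1]; group
    calc y * ((x : G)⁻¹ * t) = (x : G)⁻¹ * ((x : G) * y * (x : G)⁻¹ * t) := by group
      _ = (x : G)⁻¹ * (t * y) := by rw [h2]
      _ = (x : G)⁻¹ * t * y := by group
  have : t = (x : G) * ((x : G)⁻¹ * t) := by group
  rw [this]
  exact Subgroup.mul_mem_sup x.2 hs

end Cfsg.Agent.S1756
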