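import Cfsg.Statements.S1757
import Mathlib

set_option autoImplicit false
open Cfsg

namespace Cfsg.Agent.S1757

/-- Core lemma: if `B` normalizes `A`, `A ⊓ B = ⊥`, `|A| ≤ |B|` and `B` is TI with respect to
conjugation by elements of `A`, then `A` and `B` commute elementwise. -/
theorem ti_commute {G : Type*} [Group G] [Finite G] (A B : Subgroup G)
    (hBti : ∀ g : G, g ∈ A → B.map (MulAut.conj g).toMonoidHom = B ∨
      B.map (MulAut.conj g).toMonoidHom ⊓ B = ⊥)
    (hle : Nat.card ↥A ≤ Nat.card ↥B) (hAB : A ⊓ B = ⊥)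
    (hN : B ≤ Subgroup.normalizer (A : Set G)) :
    ∀ x ∈ A, ∀ b ∈ B, x * b = b * x := by
  classical
  by_contra hcon
  push Not at hcon
  obtain ⟨x, hx, b0, hb0, hne⟩ := hcon
  have hnorm : ∀ b ∈ B, ∀ a ∈ A, b * a * b⁻¹ ∈ A := by
    intro b hb a ha
    have := (Subgroup.mem_normalizer_iff.mp (hN hb)) a
    exact this.mp ha
  -- the map b ↦ b x b⁻¹
  let f : B → A := fun b => ⟨(b : G) * x * (b : G)⁻¹, hnorm b b.2 x hx⟩
  have hx1 : x ≠ 1 := by
    rintro rfl
    exact hne (by simp)
  have hinj : Function.Injective f := by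
    intro b b' hbb
    have h1 : (b : G) * x * (b : G)⁻¹ = (b' : G) * x * (b' : G)⁻¹ := congrArg Subtype.val hbb
    by_contra hbne
    set c : G := (b' : G)⁻¹ * (b : G) with hc
    have hcB : c ∈ B := B.mul_mem (B.inv_mem b'.2) b.2
    have hc1 : c ≠ 1 := by
      intro h
      apply hbne
      apply Subtype.ext
      have : (b : G) = (b' : G) := by
        have := congrArg (fun t => (b' : G) * t) h
        simpa [hc, mul_assoc] using this
      exact this
    have hcx : c * x = x * c := by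
      have : (b' : G)⁻¹ * ((b : G) * x * (b : G)⁻¹) * (b : G) = (b' : G)⁻¹ * ((b' : G) * x * (b' : G)⁻¹) * (b : G) := by
        rw [h1]
      simp only [hc]
      have h2 : (b' : G)⁻¹ * ((b : G) * x * (b : G)⁻¹) * (b : G) = (b' : G)⁻¹ * (b : G) * x := by group
      have h3 : (b' : G)⁻¹ * ((b' : G) * x * (b' : G)⁻¹) * (b : G) = x * ((b' : G)⁻¹ * (b : G)) := by group
      rw [h2, h3] at this
      exact this
    have hmem : c ∈ B.map (MulAut.conj x).toMonoidHom ⊓ B := by
      refine ⟨?_, hcB⟩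
      refine Subgroup.mem_map.mpr ⟨c, hcB, ?_⟩
      show x * c * x⁻¹ = c
      rw [← hcx]; group
    rcases hBti x hx with h | h
    · -- x normalizes B
      have hxb : x * b0 * x⁻¹ ∈ B := by
        rw [← h]
        exact Subgroup.mem_map.mpr ⟨b0, hb0, rfl⟩
      have hB' : x * b0 * x⁻¹ * b0⁻¹ ∈ B := B.mul_mem hxb (B.inv_mem hb0)
      have hA' : x * b0 * x⁻¹ * b0⁻¹ ∈ A := by
        have := A.mul_mem hx (hnorm b0 hb0 x⁻¹ (A.inv_mem hx))
        have e : x * (b0 * x⁻¹ * b0⁻¹) = x * b0 * x⁻¹ * b0⁻¹ := by group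
        rwa [e] at this
      have : x * b0 * x⁻¹ * b0⁻¹ ∈ A ⊓ B := ⟨hA', hB'⟩
      rw [hAB, Subgroup.mem_bot] at this
      apply hne
      have e : x * b0 = (x * b0 * x⁻¹ * b0⁻¹) * (b0 * x) := by group
      rw [e, this, one_mul]
    · rw [h, Subgroup.mem_bot] at hmem
      exact hc1 hmem
  have hnot : (1 : A) ∉ Set.range f := by
    rintro ⟨b, hb⟩
    have h1 : (b : G) * x * (b : G)⁻¹ = 1 := congrArg Subtype.val hb
    apply hx1
    have : x = (b : G)⁻¹ * ((b : G) * x * (b : G)⁻¹) * (b : G) := by group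
    rw [this, h1]; group
  haveI : Fintype A := Fintype.ofFinite A
  haveI : Fintype B := Fintype.ofFinite B
  have := Fintype.card_lt_of_injective_of_notMem f hinj hnot
  rw [Nat.card_eq_fintype_card, Nat.card_eq_fintype_card] at hle
  omega

/-- Let p be a prime and A, B p-subgroups of the finite group G, each of which meets every conjugate of itself other than itself trivially. Suppose the order of A is at most that of B, A and B intersect trivially, and B normalizes A. Then A and B commute elementwise. -/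
theorem result {G : Type*} [Group G] [Finite G] (p : ℕ) [Fact p.Prime] (A B : Subgroup G)
    (hA : IsPGroup p ↥A) (hB : IsPGroup p ↥B)
    (hAti : ∀ g : G, A.map (MulAut.conj g).toMonoidHom = A ∨ A.map (MulAut.conj g).toMonoidHom ⊓ A = ⊥)
    (hBti : ∀ g : G, B.map (MulAut.conj g).toMonoidHom = B ∨ B.map (MulAut.conj g).toMonoidHom ⊓ B = ⊥)
    (hle : Nat.card ↥A ≤ Nat.card ↥B) (hAB : A ⊓ B = ⊥) (hN : B ≤ Subgroup.normalizer (A : Set G)) : ⁅A, B⁆ = ⊥ := by
  rw [Subgroup.commutator_eq_bot_iff_le_centralizer]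
  intro a ha
  rw [Subgroup.mem_centralizer_iff]
  intro b hb
  exact (ti_commute A B (fun g _ => hBti g) hle hAB hN a ha b hb).symm

end Cfsg.Agent.S1757
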