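import Cfsg.Statements.S1780
import Mathlib

set_option autoImplicit false
open Cfsg

namespace Cfsg.Agent.S1780

section
variable {A : Type*} [CommGroup A]

/-- `d t a = a⁻¹ * t a`. -/
def dmap (t : MulAut A) (a : A) : A := a⁻¹ * t a

/-- `phi t a = a * t a`. -/
def phimap (t : MulAut A) (a : A) : A := a * t a

theorem phimap_mul (t : MulAut A) (a b : A) : phimap t (a * b) = phimap t a * phimap t b := by
  simp only [phimap, map_mul]; exact mul_mul_mul_comm _ _ _ _

theorem phimap_one (t : MulAut A) : phimap t 1 = 1 := by simp [phimap]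

theorem dmap_mul (t : MulAut A) (a b : A) : dmap t (a * b) = dmap t a * dmap t b := by
  simp only [dmap, map_mul, mul_inv]; exact mul_mul_mul_comm _ _ _ _

theorem dmap_pow (t : MulAut A) (a : A) (n : ℕ) : dmap t (a ^ n) = dmap t a ^ n := by
  simp only [dmap, map_pow, mul_pow, inv_pow]

theorem phimap_dmap (t : MulAut A) (b : A) : phimap t (dmap t b) = dmap t (phimap t b) := by
  simp only [phimap, dmap, map_mul, map_inv, mul_inv]
  have : ∀ x y z : A, x⁻¹ * y * (y⁻¹ * z) = x⁻¹ * y⁻¹ * (y * z) := by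
    intro x y z; rw [mul_assoc, mul_assoc, mul_left_cancel_iff, mul_inv_cancel_left, inv_mul_cancel_left]
  exact this _ _ _

theorem phimap_dmap_eq (t : MulAut A) (b : A) : phimap t (dmap t b) = b⁻¹ * t (t b) := by
  simp only [phimap, dmap, map_mul, map_inv]
  rw [mul_assoc, mul_inv_cancel_left]

theorem iter_phimap_pow_two (t : MulAut A) (u : A) (hu : u ^ 2 = 1) (n : ℕ) :
    (phimap t)^[n] u ^ 2 = 1 := by
  induction n generalizing u with
  | zero => simpa using hu
  | succ n ih =>
    rw [Function.iterate_succ_apply]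
    apply ih
    rw [phimap, mul_pow, ← map_pow, hu, map_one, mul_one]

theorem L2 (t : MulAut A) (j : ℕ) : ∀ u : A, u ^ 2 = 1 → (phimap t)^[2 ^ j] u = u * (t ^ (2 ^ j)) u := by
  induction j with
  | zero => intro u _; simp [phimap]
  | succ j ih =>
    intro u hu
    have h2 : 2 ^ (j + 1) = 2 ^ j + 2 ^ j := by ring
    rw [h2, Function.iterate_add_apply, ih u hu]
    have hv : (u * (t ^ 2 ^ j) u) ^ 2 = 1 := by
      rw [mul_pow, ← map_pow, hu, map_one, mul_one]
    rw [ih _ hv, pow_add, MulAut.mul_apply, map_mul]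
    have hw : (t ^ 2 ^ j) u * (t ^ 2 ^ j) u = 1 := by
      rw [← map_mul, ← pow_two, hu, map_one]
    calc u * (t ^ 2 ^ j) u * ((t ^ 2 ^ j) u * (t ^ 2 ^ j) ((t ^ 2 ^ j) u))
        = u * ((t ^ 2 ^ j) u * (t ^ 2 ^ j) u) * (t ^ 2 ^ j) ((t ^ 2 ^ j) u) := by
          simp only [mul_assoc]
      _ = u * (t ^ 2 ^ j) ((t ^ 2 ^ j) u) := by rw [hw, mul_one]

theorem L1 (t : MulAut A) (hC : ∀ a : A, t (t a) = a → t a = a) (n : ℕ) :
    ∀ b : A, (phimap t)^[n] (dmap t b) = 1 → dmap t b = 1 := by
  induction n with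
  | zero => intro b h; simpa using h
  | succ n ih =>
    intro b h
    rw [Function.iterate_succ_apply, phimap_dmap] at h
    have h1 := ih _ h
    rw [← phimap_dmap, phimap_dmap_eq] at h1
    have h2 : t (t b) = b := by
      have := congrArg (fun z => b * z) h1
      simpa using this
    have h3 := hC b h2
    simp [dmap, h3]

end

/-- Let A be a finite abelian 2-group and t an automorphism of A whose order is a power of 2. If every element of A fixed by t² is fixed by t, then t fixes every element of A. -/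
theorem result {A : Type*} [CommGroup A] [Finite A]
    (hA : IsPGroup 2 A) (t : MulAut A) (ht : ∃ k : ℕ, orderOf t = 2 ^ k) (hC : ∀ a : A, t (t a) = a → t a = a) :
    ∀ a : A, t a = a := by
  obtain ⟨k, hk⟩ := ht
  have htk : t ^ (2 ^ k) = 1 := by rw [← hk]; exact pow_orderOf_eq_one t
  -- L3: elements of `im d` of exponent 2 are trivial
  have L3 : ∀ b : A, dmap t b ^ 2 = 1 → dmap t b = 1 := by
    intro b hb
    apply L1 t hC (2 ^ k) b
    rw [L2 t k _ hb, htk, MulAut.one_apply, ← pow_two, hb]
  have L4 : ∀ m : ℕ, ∀ b : A, dmap t b ^ (2 ^ m) = 1 → dmap t b = 1 := by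
    intro m
    induction m with
    | zero => intro b h; simpa using h
    | succ m ih =>
      intro b h
      apply L3
      rw [← dmap_pow]
      apply ih
      rw [dmap_pow, ← pow_mul, ← pow_succ']
      exact h
  intro a
  obtain ⟨m, hm⟩ := hA (dmap t a)
  have := L4 m a hm
  have h2 := congrArg (fun z => a * z) this
  simpa [dmap] using h2

end Cfsg.Agent.S1780
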