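import Cfsg.Statements.S1781
import Cfsg.Agent.S1757
import Cfsg.Agent.S1780
import Mathlib

set_option autoImplicit false
open Cfsg

namespace Cfsg.Agent.S1781

open scoped IsMulCommutative

section
variable {G : Type*} [Group G]

theorem mem_conj (A : Subgroup G) (g y : G) :
    y ∈ A.map (MulAut.conj g).toMonoidHom ↔ g⁻¹ * y * g ∈ A := by
  constructor
  · rintro ⟨a, ha, rfl⟩
    have : g⁻¹ * ((MulAut.conj g).toMonoidHom a) * g = a := by
      simp [MulAut.conj_apply, mul_assoc]
    rw [this]; exact ha
  · intro h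
    exact ⟨g⁻¹ * y * g, h, by simp [MulAut.conj_apply, mul_assoc]⟩

theorem ti_conj (A : Subgroup G)
    (hti : ∀ h : G, A.map (MulAut.conj h).toMonoidHom = A ∨ A.map (MulAut.conj h).toMonoidHom ⊓ A = ⊥)
    (g x : G) :
    (A.map (MulAut.conj g).toMonoidHom).map (MulAut.conj x).toMonoidHom = A.map (MulAut.conj g).toMonoidHom ∨
    (A.map (MulAut.conj g).toMonoidHom).map (MulAut.conj x).toMonoidHom ⊓ A.map (MulAut.conj g).toMonoidHom = ⊥ := by
  by_cases hbot : (A.map (MulAut.conj g).toMonoidHom).map (MulAut.conj x).toMonoidHom ⊓ A.map (MulAut.conj g).toMonoidHom = ⊥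
  · right; exact hbot
  · left
    rw [Subgroup.eq_bot_iff_forall] at hbot
    push Not at hbot
    obtain ⟨y, hy12, hy⟩ := hbot
    obtain ⟨hy1, hy2⟩ := Subgroup.mem_inf.mp hy12
    rw [mem_conj, mem_conj] at hy1
    rw [mem_conj] at hy2
    have hh : A.map (MulAut.conj (g⁻¹ * x * g)).toMonoidHom = A := by
      rcases hti (g⁻¹ * x * g) with h | h
      · exact h
      · exfalso
        have : g⁻¹ * y * g ∈ A.map (MulAut.conj (g⁻¹ * x * g)).toMonoidHom ⊓ A := by
          refine Subgroup.mem_inf.mpr ⟨?_, hy2⟩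
          rw [mem_conj]
          convert hy1 using 1
          group
        rw [h, Subgroup.mem_bot] at this
        apply hy
        have e : y = g * (g⁻¹ * y * g) * g⁻¹ := by group
        rw [e, this]; group
    ext z
    rw [mem_conj, mem_conj, mem_conj]
    have := mem_conj A (g⁻¹ * x * g) (g⁻¹ * z * g)
    rw [hh] at this
    rw [this]
    constructor <;> intro h <;> convert h using 1 <;> group

theorem card_conj [Finite G] (A : Subgroup G) (g : G) :
    Nat.card (A.map (MulAut.conj g).toMonoidHom) = Nat.card A :=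
  Subgroup.card_map_of_injective (MulAut.conj g).injective

end

/-- Let A be an abelian 2-subgroup of the finite group G such that every conjugate of A equals A or meets A trivially, and let g ∈ G with g A g⁻¹ ≠ A. Then either the subgroup of those elements of A that normalize g A g⁻¹ is an elementary abelian 2-group, or A and g A g⁻¹ commute elementwise. -/
theorem result {G : Type*} [Group G] [Finite G] (A : Subgroup G)
    (hA2 : IsPGroup 2 ↥A) (hAa : IsMulCommutative ↥A)
    (hti : ∀ h : G, A.map (MulAut.conj h).toMonoidHom = A ∨ A.map (MulAut.conj h).toMonoidHom ⊓ A = ⊥)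
    (g : G) (hg : A.map (MulAut.conj g).toMonoidHom ≠ A) :
    Cfsg.IsElementaryAbelian 2 (A ⊓ Subgroup.normalizer ((A.map (MulAut.conj g).toMonoidHom : Subgroup G) : Set G)) ∨
      ⁅A, A.map (MulAut.conj g).toMonoidHom⁆ = ⊥ := by
  classical
  have hAcomm : ∀ x ∈ A, ∀ y ∈ A, x * y = y * x := by
    intro x hx y hy
    exact congrArg Subtype.val (hAa.is_comm.comm ⟨x, hx⟩ ⟨y, hy⟩)
  set B := A.map (MulAut.conj g).toMonoidHom with hB
  have hAB : A ⊓ B = ⊥ := by
    rcases hti g with h | h
    · exact absurd h hg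
    · rw [inf_comm]; exact h
  by_cases hel : ∀ a ∈ A ⊓ Subgroup.normalizer (B : Set G), a ^ 2 = 1
  · left
    refine ⟨⟨⟨fun x y => ?_⟩⟩, hel⟩
    apply Subtype.ext
    exact hAcomm x.1 x.2.1 y.1 y.2.1
  · right
    push Not at hel
    obtain ⟨a, haAN, ha2⟩ := hel
    obtain ⟨haA, haN⟩ := Subgroup.mem_inf.mp haAN
    have ha1 : a ≠ 1 := by
      rintro rfl
      exact ha2 (by simp)
    have hnB : ∀ b ∈ B, a * b * a⁻¹ ∈ B := fun b hb => (Subgroup.mem_normalizer_iff.mp haN b).mp hb
    have hnB' : ∀ b ∈ B, a⁻¹ * b * a ∈ B := fun b hb => by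
      refine (Subgroup.mem_normalizer_iff.mp haN (a⁻¹ * b * a)).mpr ?_
      have e : a * (a⁻¹ * b * a) * a⁻¹ = b := by group
      rw [e]; exact hb
    have hBcomm : ∀ b ∈ B, ∀ b' ∈ B, b * b' = b' * b := by
      intro b hb b' hb'
      rw [hB, mem_conj] at hb hb'
      have := hAcomm _ hb _ hb'
      have e1 : b * b' = g * ((g⁻¹ * b * g) * (g⁻¹ * b' * g)) * g⁻¹ := by group
      have e2 : b' * b = g * ((g⁻¹ * b' * g) * (g⁻¹ * b * g)) * g⁻¹ := by group
      rw [e1, e2, this]
    have : IsMulCommutative ↥B := ⟨⟨fun x y => Subtype.ext (hBcomm x x.2 y y.2)⟩⟩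
    have hB2 : IsPGroup 2 ↥B := hA2.map _
    let t : MulAut ↥B :=
      { toFun := fun b => ⟨a * b * a⁻¹, hnB b b.2⟩
        invFun := fun b => ⟨a⁻¹ * b * a, hnB' b b.2⟩
        left_inv := fun b => by apply Subtype.ext; show a⁻¹ * (a * b * a⁻¹) * a = b; group
        right_inv := fun b => by apply Subtype.ext; show a * (a⁻¹ * b * a) * a⁻¹ = b; group
        map_mul' := fun b c => by
          apply Subtype.ext
          show a * (b * c) * a⁻¹ = a * b * a⁻¹ * (a * c * a⁻¹)
          group }
    have ht_apply : ∀ b : ↥B, ((t b : ↥B) : G) = a * b * a⁻¹ := fun b => rfl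
    have htpow : ∀ n : ℕ, ∀ b : ↥B, (((t ^ n) b : ↥B) : G) = a ^ n * b * (a ^ n)⁻¹ := by
      intro n
      induction n with
      | zero => intro b; simp
      | succ n ih =>
        intro b
        rw [pow_succ', MulAut.mul_apply, ht_apply, ih, pow_succ']
        group
    have ht : ∃ k : ℕ, orderOf t = 2 ^ k := by
      obtain ⟨m, hm⟩ := hA2 ⟨a, haA⟩
      have hm' : a ^ 2 ^ m = 1 := by
        have := congrArg Subtype.val hm
        simpa using this
      have : t ^ 2 ^ m = 1 := by
        apply MulEquiv.ext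
        intro b
        apply Subtype.ext
        rw [htpow, hm']
        simp
      obtain ⟨k, _, hk⟩ := (Nat.dvd_prime_pow Nat.prime_two).mp (orderOf_dvd_of_pow_eq_one this)
      exact ⟨k, hk⟩
    have hC : ∀ b : ↥B, t (t b) = b → t b = b := by
      intro b hb
      have hb' : a * (a * b * a⁻¹) * a⁻¹ = b := congrArg Subtype.val hb
      -- a² commutes with b, so b normalizes A
      have hbA : A.map (MulAut.conj (b : G)).toMonoidHom = A := by
        rcases hti b with h | h
        · exact h
        · exfalso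
          have : a ^ 2 ∈ A.map (MulAut.conj (b : G)).toMonoidHom ⊓ A := by
            refine Subgroup.mem_inf.mpr ⟨?_, A.pow_mem haA 2⟩
            rw [mem_conj]
            have e : (b : G)⁻¹ * a ^ 2 * b = a ^ 2 := by
              have hc : a ^ 2 * (b : G) = (b : G) * a ^ 2 := by
                have : a ^ 2 * (b : G) = (a * (a * b * a⁻¹) * a⁻¹) * a ^ 2 := by
                  simp only [pow_two, mul_assoc, inv_mul_cancel_left, inv_mul_cancel, mul_one]
                rw [this, hb']
              rw [mul_assoc, hc]; group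
            rw [e]; exact A.pow_mem haA 2
          rw [h, Subgroup.mem_bot] at this
          exact ha2 this
      have h1 : a * b * a⁻¹ * (b : G)⁻¹ ∈ A := by
        have : (b : G) * a⁻¹ * (b : G)⁻¹ ∈ A := by
          have h2 : (b : G) * a⁻¹ * (b : G)⁻¹ ∈ A.map (MulAut.conj (b : G)).toMonoidHom := by
            rw [mem_conj]
            have e : (b : G)⁻¹ * ((b : G) * a⁻¹ * (b : G)⁻¹) * b = a⁻¹ := by group
            rw [e]; exact A.inv_mem haA
          rwa [hbA] at h2
        have := A.mul_mem haA this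
        have e : a * ((b : G) * a⁻¹ * (b : G)⁻¹) = a * b * a⁻¹ * (b : G)⁻¹ := by group
        rwa [e] at this
      have h2 : a * b * a⁻¹ * (b : G)⁻¹ ∈ B := B.mul_mem (hnB b b.2) (B.inv_mem b.2)
      have h3 : a * b * a⁻¹ * (b : G)⁻¹ ∈ A ⊓ B := Subgroup.mem_inf.mpr ⟨h1, h2⟩
      rw [hAB, Subgroup.mem_bot] at h3
      apply Subtype.ext
      show a * b * a⁻¹ = b
      have e : a * b * a⁻¹ = (a * b * a⁻¹ * (b : G)⁻¹) * b := by group
      rw [e, h3, one_mul]
    have hfix := Cfsg.Agent.S1780.result hB2 t ht hC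
    have hcomm : ∀ b ∈ B, a * b = b * a := by
      intro b hb
      have h := congrArg Subtype.val (hfix ⟨b, hb⟩)
      have h' : a * b * a⁻¹ = b := h
      have e : a * b = (a * b * a⁻¹) * a := by group
      rw [e, h']
    -- B normalizes A
    have hBN : B ≤ Subgroup.normalizer (A : Set G) := by
      intro b hb
      have hbA : A.map (MulAut.conj b).toMonoidHom = A := by
        rcases hti b with h | h
        · exact h
        · exfalso
          have : a ∈ A.map (MulAut.conj b).toMonoidHom ⊓ A := by
            refine Subgroup.mem_inf.mpr ⟨?_, haA⟩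
            rw [mem_conj]
            have e : b⁻¹ * a * b = a := by
              rw [mul_assoc, hcomm b hb]; group
            rw [e]; exact haA
          rw [h, Subgroup.mem_bot] at this
          exact ha1 this
      rw [Subgroup.mem_normalizer_iff]
      intro x
      have := mem_conj A b (b * x * b⁻¹)
      rw [hbA] at this
      have e : b⁻¹ * (b * x * b⁻¹) * b = x := by group
      rw [e] at this
      exact this.symm
    have hcard : Nat.card ↥A ≤ Nat.card ↥B := le_of_eq (card_conj A g).symm
    have hfin := Cfsg.Agent.S1757.ti_commute A B (fun x _ => ti_conj A hti g x) hcard hAB hBN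
    rw [Subgroup.commutator_eq_bot_iff_le_centralizer]
    intro x hx
    rw [Subgroup.mem_centralizer_iff]
    intro b hb
    exact (hfin x hx b hb).symm

end Cfsg.Agent.S1781
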