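import Cfsg.Statements.S1782
import Cfsg.Agent.S1757
import Cfsg.Agent.S1781
import Mathlib

set_option autoImplicit false
open Cfsg

namespace Cfsg.Agent.S1782

open Cfsg.Agent.S1781 (mem_conj)

theorem frattini_eq_bot_of_exp_two_comm {E : Type*} [CommGroup E] [Finite E]
    (h : ∀ x : E, x ^ 2 = 1) : frattini E = ⊥ := by
  rw [Subgroup.eq_bot_iff_forall]
  intro x hx
  by_contra hx1
  obtain ⟨H, -, hH⟩ := Finite.exists_le_maximal (p := fun K : Subgroup E => x ∉ K) (a := ⊥)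
    (by rw [Subgroup.mem_bot]; exact hx1)
  have hxH : x ∉ H := hH.prop
  have hco : IsCoatom H := by
    refine ⟨fun htop => hxH (htop ▸ Subgroup.mem_top x), fun K hK => ?_⟩
    have hxK : x ∈ K := by
      by_contra hxK
      exact absurd (hH.le_of_ge hxK hK.le) (not_le_of_gt hK)
    rw [eq_top_iff]
    intro y _
    by_cases hy : y ∈ H
    · exact hK.le hy
    · have hlt : H < H ⊔ Subgroup.zpowers y := by
        refine lt_of_le_of_ne le_sup_left ?_
        intro heq
        apply hy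
        rw [heq]
        exact (le_sup_right : Subgroup.zpowers y ≤ _) (Subgroup.mem_zpowers y)
      have hx2 : x ∈ H ⊔ Subgroup.zpowers y := by
        by_contra hx2
        exact absurd (hH.le_of_ge hx2 hlt.le) (not_le_of_gt hlt)
      rw [Subgroup.mem_sup] at hx2
      obtain ⟨a, ha, z, hz, rfl⟩ := hx2
      rw [Subgroup.mem_zpowers_iff] at hz
      obtain ⟨k, rfl⟩ := hz
      rcases Int.even_or_odd k with ⟨j, rfl⟩ | ⟨j, rfl⟩
      · exfalso
        apply hxH
        have : y ^ (j + j) = 1 := by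
          rw [← two_mul, zpow_mul, zpow_ofNat, h, one_zpow]
        rw [this, mul_one]; exact ha
      · have : y ^ (2 * j + 1) = y := by
          rw [zpow_add, zpow_mul, zpow_ofNat, h, one_zpow, one_mul, zpow_one]
        rw [this] at hxK
        have : y = a⁻¹ * (a * y) := by group
        rw [this]
        exact K.mul_mem (K.inv_mem (hK.le ha)) hxK
  exact hxH (frattini_le_coatom hco hx)

open scoped IsMulCommutative in
theorem frattini_eq_bot_of_exp_two {E : Type*} [Group E] [Finite E] (h : ∀ x : E, x ^ 2 = 1) :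
    frattini E = ⊥ := by
  have hinv : ∀ a : E, a⁻¹ = a := by
    intro a
    have := h a
    rw [pow_two] at this
    exact (eq_inv_of_mul_eq_one_left this).symm
  have hcomm : ∀ a b : E, a * b = b * a := by
    intro a b
    calc a * b = (a * b)⁻¹ := (hinv _).symm
      _ = b⁻¹ * a⁻¹ := mul_inv_rev a b
      _ = b * a := by rw [hinv, hinv]
  have : IsMulCommutative E := ⟨⟨hcomm⟩⟩
  exact frattini_eq_bot_of_exp_two_comm h

theorem exists_normal_proper {S : Type*} [Group S] [Finite S] (hS : IsPGroup 2 S)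
    (T X : Subgroup S) (hTX : T ≤ X) (hne : T ≠ X) :
    ∃ M : Subgroup S, T ≤ M ∧ M ≤ X ∧ M ≠ X ∧ ∀ s ∈ X, ∀ m ∈ M, s * m * s⁻¹ ∈ M := by
  haveI : Fact (Nat.Prime 2) := ⟨Nat.prime_two⟩
  have hX : IsPGroup 2 ↥X := hS.to_subgroup X
  haveI : Group.IsNilpotent ↥X := hX.isNilpotent
  have hnc : NormalizerCondition ↥X := Group.normalizerCondition_of_isNilpotent
  have hT' : T.subgroupOf X ≠ ⊤ := by
    intro h
    rw [Subgroup.subgroupOf_eq_top] at h
    exact hne (le_antisymm hTX h)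
  rcases eq_top_or_exists_le_coatom (T.subgroupOf X) with h | ⟨M', hM', hle⟩
  · exact absurd h hT'
  · haveI : M'.Normal := Subgroup.NormalizerCondition.normal_of_coatom M' hnc hM'
    refine ⟨M'.map X.subtype, ?_, ?_, ?_, ?_⟩
    · intro t ht
      exact Subgroup.mem_map.mpr ⟨⟨t, hTX ht⟩, hle (Subgroup.mem_subgroupOf.mpr ht), rfl⟩
    · intro m hm
      obtain ⟨m', _, rfl⟩ := Subgroup.mem_map.mp hm
      exact m'.2
    · intro h
      apply hM'.1
      rw [eq_top_iff]
      intro x _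
      have hx : (x : S) ∈ M'.map X.subtype := by rw [h]; exact x.2
      obtain ⟨m', hm', hmx⟩ := Subgroup.mem_map.mp hx
      have : m' = x := Subtype.ext hmx
      rwa [this] at hm'
    · intro s hs m hm
      obtain ⟨m', hm', rfl⟩ := Subgroup.mem_map.mp hm
      refine Subgroup.mem_map.mpr ⟨⟨s, hs⟩ * m' * ⟨s, hs⟩⁻¹, ?_, rfl⟩
      exact ‹M'.Normal›.conj_mem m' hm' ⟨s, hs⟩


section
variable {S : Type*} [Group S]

/-- conjugate subgroup `s R s⁻¹` -/
abbrev cj (R : Subgroup S) (s : S) : Subgroup S := R.map (MulAut.conj s).toMonoidHom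

/-- elementwise commuting -/
def Cm (R T : Subgroup S) : Prop := ∀ r ∈ R, ∀ t ∈ T, r * t = t * r

theorem cj_eq_iff (R : Subgroup S) (s : S) :
    cj R s = R ↔ s ∈ Subgroup.normalizer (R : Set S) := by
  rw [Subgroup.mem_normalizer_iff]
  constructor
  · intro h x
    have h' : R.map (MulAut.conj s).toMonoidHom = R := h
    have := mem_conj R s (s * x * s⁻¹)
    rw [h'] at this
    have e : s⁻¹ * (s * x * s⁻¹) * s = x := by group
    rw [e] at this
    exact this.symm
  · intro h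
    ext y
    rw [mem_conj]
    have := h (s⁻¹ * y * s)
    have e : s * (s⁻¹ * y * s) * s⁻¹ = y := by group
    rw [e] at this
    exact this

theorem conj_mem_cj (R : Subgroup S) (s x : S) (hx : x ∈ R) : s * x * s⁻¹ ∈ cj R s := by
  rw [mem_conj]
  have e : s⁻¹ * (s * x * s⁻¹) * s = x := by group
  rw [e]; exact hx

variable [Finite S] (hS : IsPGroup 2 S)
    (Δ : Set (Subgroup S)) (hinv : ∀ s : S, ∀ R ∈ Δ, R.map (MulAut.conj s).toMonoidHom ∈ Δ)
    (hord : ∀ R ∈ Δ, ∀ T ∈ Δ, Nat.card ↥R = Nat.card ↥T)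
    (hti : ∀ R ∈ Δ, ∀ T ∈ Δ, R = T ∨ R ⊓ T = ⊥)

include hinv hord hti in
theorem step0 (R T : Subgroup S) (hR : R ∈ Δ) (hT : T ∈ Δ) (hne : R ≠ T)
    (hN : ∀ t ∈ T, cj R t = R) : Cm R T := by
  apply Cfsg.Agent.S1757.ti_commute R T
  · intro g _
    exact hti _ (hinv g T hT) T hT
  · exact (hord R hR T hT).le
  · exact (hti R hR T hT).resolve_left hne
  · intro t ht
    exact (cj_eq_iff R t).mp (hN t ht)

include hS hinv hti in
theorem starstar (R T : Subgroup S) (hR : R ∈ Δ) (a : S) (ha : a ∈ R) (ha2 : a ^ 2 ≠ 1)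
    (v : S) (hv : v ∈ T) (hRv : cj R v ≠ R)
    (hAR : Cm R (cj R v)) (hAT : Cm T (cj T a⁻¹)) : False := by
  have ha1 : a ≠ 1 := by
    rintro rfl
    exact ha2 (by simp)
  have h1 : a * (v * a * v⁻¹) = (v * a * v⁻¹) * a := hAR a ha _ (conj_mem_cj R v a ha)
  have h2 : v * (a⁻¹ * v * a) = (a⁻¹ * v * a) * v := by
    have := hAT v hv (a⁻¹ * v * a⁻¹⁻¹) (conj_mem_cj T a⁻¹ v hv)
    rwa [inv_inv] at this
  set c : S := a⁻¹ * v * a * v⁻¹ with hc
  have hca : c * a = a * c := by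
    have e1 : c * a = a⁻¹ * ((v * a * v⁻¹) * a) := by rw [hc]; group
    have e2 : a * c = a⁻¹ * (a * (v * a * v⁻¹)) := by rw [hc]; group
    rw [e1, e2, h1]
  have hcv : c * v = v * c := by
    have e1 : c * v = a⁻¹ * v * a := by rw [hc]; group
    have e2 : v * c = (v * (a⁻¹ * v * a)) * v⁻¹ := by rw [hc]; group
    rw [e1, e2, h2]; group
  have hcnv : ∀ n : ℕ, c ^ n * v = v * c ^ n := by
    intro n
    exact ((Commute.pow_left (show Commute c v from hcv) n)).eq
  have hcna : ∀ n : ℕ, c ^ n * a = a * c ^ n := by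
    intro n
    exact ((Commute.pow_left (show Commute c a from hca) n)).eq
  have hvav : v * a * v⁻¹ = a * c := by rw [hc]; group
  have hpow : ∀ n : ℕ, v ^ n * a * (v ^ n)⁻¹ = a * c ^ n := by
    intro n
    induction n with
    | zero => simp
    | succ n ih =>
      have e : v ^ (n + 1) * a * (v ^ (n + 1))⁻¹ = v * (v ^ n * a * (v ^ n)⁻¹) * v⁻¹ := by
        rw [pow_succ']; group
      rw [e, ih]
      have e2 : v * (a * c ^ n) * v⁻¹ = (v * a * v⁻¹) * ((v * c ^ n) * v⁻¹) := by group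
      rw [e2, hvav, ← hcnv n, pow_succ']
      group
  have hc1 : c ≠ 1 := by
    intro h
    rw [h, mul_one] at hvav
    have hmem : a ∈ cj R v ⊓ R := by
      refine Subgroup.mem_inf.mpr ⟨?_, ha⟩
      have := conj_mem_cj R v a ha
      rwa [hvav] at this
    rcases hti _ (hinv v R hR) R hR with h' | h'
    · exact hRv h'
    · rw [h', Subgroup.mem_bot] at hmem
      exact ha1 hmem
  classical
  have hex : ∃ m : ℕ, c ^ 2 ^ m = 1 := hS c
  have hm0 : Nat.find hex ≠ 0 := by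
    intro h0
    have := Nat.find_spec hex
    rw [h0] at this
    simp at this
    exact hc1 this
  obtain ⟨k, hk⟩ := Nat.exists_eq_succ_of_ne_zero hm0
  have hz1 : c ^ 2 ^ k ≠ 1 := by
    have := Nat.find_min hex (m := k) (by omega)
    exact this
  have hz2 : (c ^ 2 ^ k) ^ 2 = 1 := by
    have := Nat.find_spec hex
    rw [hk, pow_succ, pow_mul] at this
    exact this
  set z : S := c ^ 2 ^ k with hz
  set w : S := v ^ 2 ^ k with hw
  have hwa : w * a * w⁻¹ = a * z := hpow (2 ^ k)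
  have hza : z * a = a * z := hcna _
  have hzv : z * v = v * z := hcnv _
  have hsq : (a * z) ^ 2 = a ^ 2 := by
    rw [pow_two, pow_two]
    have : a * z * (a * z) = a * a * (z * z) := by
      rw [mul_assoc, ← mul_assoc z a z, hza]; group
    rw [this, ← pow_two z, hz2, mul_one]
  have hwa2 : w * a ^ 2 * w⁻¹ = a ^ 2 := by
    have : w * a ^ 2 * w⁻¹ = (w * a * w⁻¹) ^ 2 := by
      simp only [pow_two, mul_assoc, inv_mul_cancel_left]
    rw [this, hwa, hsq]
  have hRw : cj R w = R := by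
    rcases hti _ (hinv w R hR) R hR with h' | h'
    · exact h'
    · exfalso
      have hmem : a ^ 2 ∈ cj R w ⊓ R := by
        refine Subgroup.mem_inf.mpr ⟨?_, R.pow_mem ha 2⟩
        have := conj_mem_cj R w (a ^ 2) (R.pow_mem ha 2)
        rwa [hwa2] at this
      rw [h', Subgroup.mem_bot] at hmem
      exact ha2 hmem
  have hzR : z ∈ R := by
    have h3 : a * z ∈ R := by
      have := conj_mem_cj R w a ha
      rwa [hRw, hwa] at this
    have := R.mul_mem (R.inv_mem ha) h3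
    rwa [inv_mul_cancel_left] at this
  have hzRv : z ∈ cj R v := by
    have := conj_mem_cj R v z hzR
    have e : v * z * v⁻¹ = z := by rw [← hzv]; group
    rwa [e] at this
  rcases hti _ (hinv v R hR) R hR with h' | h'
  · exact hRv h'
  · have hmem : z ∈ cj R v ⊓ R := Subgroup.mem_inf.mpr ⟨hzRv, hzR⟩
    rw [h', Subgroup.mem_bot] at hmem
    exact hz1 hmem

variable (hΦ : ∀ R ∈ Δ, frattini ↥R ≠ ⊥)

include hS hinv hord hti hΦ in
theorem main : ∀ n : ℕ, ∀ X : Subgroup S, Nat.card X = n → ∀ R ∈ Δ, ∀ T ∈ Δ,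
    R ≤ X → T ≤ X → R ≠ T → Cm R T := by
  intro n
  induction n using Nat.strong_induction_on with
  | _ n ih =>
  intro X hXn R hR T hT hRX hTX hne
  -- Lemma A
  have lemA : ∀ D ∈ Δ, D ≤ X → D ≠ X → ∀ s ∈ X, cj D s ≠ D → Cm D (cj D s) := by
    intro D hD hDX hDne s hs hcs
    obtain ⟨M, hDM, hMX, hMne, hMnorm⟩ := exists_normal_proper hS D X hDX hDne
    have hcard : Nat.card M < n := by
      rw [← hXn]
      rcases lt_or_eq_of_le (Subgroup.card_le_of_le hMX) with h | h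
      · exact h
      · exact absurd (Subgroup.eq_of_le_of_card_ge hMX h.ge) hMne
    have hcjM : cj D s ≤ M := by
      intro y hy
      obtain ⟨d, hd, rfl⟩ := Subgroup.mem_map.mp hy
      exact hMnorm s hs d (hDM hd)
    exact ih (Nat.card M) hcard M rfl D hD (cj D s) (hinv s D hD) hDM hcjM (Ne.symm hcs)
  have hRne : R ≠ X := by
    intro h
    apply hne
    rw [h] at hR ⊢
    exact (Subgroup.eq_of_le_of_card_ge hTX (hord X hR T hT).le).symm
  have hTne : T ≠ X := by
    intro h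
    apply hne
    rw [h] at hT ⊢
    exact Subgroup.eq_of_le_of_card_ge hRX (hord X hT R hR).le
  by_contra hcon
  have hTN : ¬ ∀ t ∈ T, cj R t = R := fun h => hcon (step0 Δ hinv hord hti R T hR hT hne h)
  have hRN : ¬ ∀ r ∈ R, cj T r = T := fun h => hcon (fun r hr t ht =>
    (step0 Δ hinv hord hti T R hT hR (Ne.symm hne) h t ht r hr).symm)
  push Not at hTN hRN
  obtain ⟨v, hvT, hRv⟩ := hTN
  obtain ⟨a₀, ha₀R, hTa₀⟩ := hRN
  have hARv : Cm R (cj R v) := lemA R hR hRX hRne v (hTX hvT) hRv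
  -- (i)
  have hi : ∀ a ∈ R, cj T a ≠ T → a ^ 2 = 1 := by
    intro a ha hTa
    by_contra ha2
    have hTa' : cj T a⁻¹ ≠ T := by
      intro h
      apply hTa
      rw [cj_eq_iff] at h ⊢
      have := (Subgroup.normalizer (T : Set S)).inv_mem h
      rwa [inv_inv] at this
    exact starstar hS Δ hinv hti R T hR a ha ha2 v hvT hRv hARv
      (lemA T hT hTX hTne a⁻¹ (X.inv_mem (hRX ha)) hTa')
  -- an element of R whose square is nontrivial
  obtain ⟨r, hrR, hr2⟩ : ∃ r ∈ R, r ^ 2 ≠ 1 := by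
    by_contra h
    push Not at h
    apply hΦ R hR
    apply frattini_eq_bot_of_exp_two
    intro x
    apply Subtype.ext
    have := h x.1 x.2
    simpa using this
  have hrN : r ∈ Subgroup.normalizer (T : Set S) := by
    rw [← cj_eq_iff]
    by_contra h
    exact hr2 (hi r hrR h)
  -- an involution in R normalizing T
  classical
  have hex : ∃ m : ℕ, r ^ 2 ^ m = 1 := hS r
  have hm0 : Nat.find hex ≠ 0 := by
    intro h0
    have := Nat.find_spec hex
    rw [h0] at this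
    simp at this
    apply hr2
    rw [this]; simp
  obtain ⟨k, hk⟩ := Nat.exists_eq_succ_of_ne_zero hm0
  have hr₁1 : r ^ 2 ^ k ≠ 1 := Nat.find_min hex (m := k) (by omega)
  have hr₁2 : (r ^ 2 ^ k) ^ 2 = 1 := by
    have := Nat.find_spec hex
    rw [hk, pow_succ, pow_mul] at this
    exact this
  set r₁ : S := r ^ 2 ^ k with hr₁
  have hr₁R : r₁ ∈ R := R.pow_mem hrR _
  have hr₁N : r₁ ∈ Subgroup.normalizer (T : Set S) := Subgroup.pow_mem _ hrN _
  have ha₀2 : a₀ ^ 2 = 1 := hi a₀ ha₀R hTa₀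
  have har2 : (a₀ * r₁) ^ 2 = 1 := by
    apply hi (a₀ * r₁) (R.mul_mem ha₀R hr₁R)
    intro h
    apply hTa₀
    rw [cj_eq_iff] at h ⊢
    have := (Subgroup.normalizer (T : Set S)).mul_mem h
      ((Subgroup.normalizer (T : Set S)).inv_mem hr₁N)
    rwa [mul_inv_cancel_right] at this
  have hinv_a : a₀⁻¹ = a₀ := by
    rw [pow_two] at ha₀2
    exact (eq_inv_of_mul_eq_one_left ha₀2).symm
  have hinv_r : r₁⁻¹ = r₁ := by
    rw [pow_two] at hr₁2
    exact (eq_inv_of_mul_eq_one_left hr₁2).symm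
  have hcomm : a₀ * r₁ = r₁ * a₀ := by
    rw [pow_two] at har2
    calc a₀ * r₁ = (a₀ * r₁)⁻¹ := eq_inv_of_mul_eq_one_left har2
      _ = r₁⁻¹ * a₀⁻¹ := mul_inv_rev _ _
      _ = r₁ * a₀ := by rw [hinv_a, hinv_r]
  -- final contradiction
  have hvr : v * r₁ * v⁻¹ ∈ cj R v := conj_mem_cj R v r₁ hr₁R
  have hc1 : a₀ * (v * r₁ * v⁻¹) = (v * r₁ * v⁻¹) * a₀ := hARv a₀ ha₀R _ hvr
  set τ : S := v * r₁ * v⁻¹ * r₁⁻¹ with hτ
  have hτa : a₀ * τ = τ * a₀ := by
    rw [hτ, hinv_r]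
    calc a₀ * (v * r₁ * v⁻¹ * r₁) = (a₀ * (v * r₁ * v⁻¹)) * r₁ := by group
      _ = (v * r₁ * v⁻¹) * a₀ * r₁ := by rw [hc1]
      _ = (v * r₁ * v⁻¹) * (a₀ * r₁) := by group
      _ = (v * r₁ * v⁻¹) * (r₁ * a₀) := by rw [hcomm]
      _ = v * r₁ * v⁻¹ * r₁ * a₀ := by group
  have hτT : τ ∈ T := by
    have h1 : r₁ * v⁻¹ * r₁⁻¹ ∈ T :=
      ((Subgroup.mem_normalizer_iff.mp hr₁N) v⁻¹).mp (T.inv_mem hvT)
    have := T.mul_mem hvT h1
    have e : v * (r₁ * v⁻¹ * r₁⁻¹) = τ := by rw [hτ]; group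
    rwa [e] at this
  have hτTa : τ ∈ cj T a₀ := by
    have := conj_mem_cj T a₀ τ hτT
    have e : a₀ * τ * a₀⁻¹ = τ := by rw [hτa]; group
    rwa [e] at this
  have hτ1 : τ = 1 := by
    rcases hti _ (hinv a₀ T hT) T hT with h' | h'
    · exact absurd h' hTa₀
    · have hmem : τ ∈ cj T a₀ ⊓ T := Subgroup.mem_inf.mpr ⟨hτTa, hτT⟩
      rwa [h', Subgroup.mem_bot] at hmem
  have hfix : v * r₁ * v⁻¹ = r₁ := by
    have e : v * r₁ * v⁻¹ = τ * r₁ := by rw [hτ]; group
    rw [e, hτ1, one_mul]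
  rcases hti _ (hinv v R hR) R hR with h' | h'
  · exact hRv h'
  · have hmem : r₁ ∈ cj R v ⊓ R := by
      refine Subgroup.mem_inf.mpr ⟨?_, hr₁R⟩
      rw [hfix] at hvr
      exact hvr
    rw [h', Subgroup.mem_bot] at hmem
    exact hr₁1 hmem

end

/-- Let S be a finite 2-group and Δ a set of subgroups of S closed under conjugation by S, all of the same order, each with nontrivial Frattini subgroup, and such that two distinct members of Δ meet trivially. Then any two distinct members of Δ commute elementwise. -/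
theorem result {S : Type*} [Group S] [Finite S] (hS : IsPGroup 2 S)
    (Δ : Set (Subgroup S)) (hinv : ∀ s : S, ∀ R ∈ Δ, R.map (MulAut.conj s).toMonoidHom ∈ Δ)
    (hΦ : ∀ R ∈ Δ, frattini ↥R ≠ ⊥) (hord : ∀ R ∈ Δ, ∀ T ∈ Δ, Nat.card ↥R = Nat.card ↥T)
    (hti : ∀ R ∈ Δ, ∀ T ∈ Δ, R = T ∨ R ⊓ T = ⊥) :
    ∀ R ∈ Δ, ∀ T ∈ Δ, R ≠ T → ⁅R, T⁆ = ⊥ := by
  intro R hR T hT hne
  rw [Subgroup.commutator_eq_bot_iff_le_centralizer]
  intro r hr
  rw [Subgroup.mem_centralizer_iff]
  intro t ht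
  exact (main hS Δ hinv hord hti hΦ (Nat.card (⊤ : Subgroup S)) ⊤ rfl R hR T hT le_top le_top hne
    r hr t ht).symm

end Cfsg.Agent.S1782
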