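import Cfsg.Statements.S1784
import Cfsg.Agent.Helper10.FStar
import Cfsg.Agent.Helper17.Extra

set_option autoImplicit false
open Cfsg

namespace Cfsg.Agent.S1784

section gen
variable {G : Type*} [Group G]

/-- `x` is `1` or `z` -/
def CZ (z x : G) : Prop := x = 1 ∨ x = z

/-- the commutator word -/
def bt (x y : G) : G := x * y * x⁻¹ * y⁻¹

/-- an "extraspecial-like" subgroup `Q` with central involution `z` -/
structure ES (Q : Subgroup G) (z : G) : Prop where
  z1 : z ≠ 1
  zz : z * z = 1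
  zQ : z ∈ Q
  zc : ∀ q ∈ Q, q * z = z * q
  comm : ∀ x ∈ Q, ∀ y ∈ Q, CZ z (bt x y)
  sq : ∀ x ∈ Q, CZ z (x * x)
  cen : ∀ x ∈ Q, (∀ q ∈ Q, x * q = q * x) → CZ z x

variable {Q : Subgroup G} {z : G}

theorem ES.cz_mem (h : ES Q z) {x : G} (hx : CZ z x) : x ∈ Q := by
  rcases hx with rfl | rfl
  · exact Q.one_mem
  · exact h.zQ

theorem ES.cz_comm (h : ES Q z) {x : G} (hx : CZ z x) {q : G} (hq : q ∈ Q) : x * q = q * x := by
  rcases hx with rfl | rfl
  · simp
  · exact (h.zc q hq).symm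

theorem ES.cz_sq (h : ES Q z) {x : G} (hx : CZ z x) : x * x = 1 := by
  rcases hx with rfl | rfl
  · simp
  · exact h.zz

theorem ES.cz_inv (h : ES Q z) {x : G} (hx : CZ z x) : x⁻¹ = x :=
  inv_eq_of_mul_eq_one_left (h.cz_sq hx)

theorem ES.cz_mul (h : ES Q z) {x y : G} (hx : CZ z x) (hy : CZ z y) : CZ z (x * y) := by
  rcases hx with rfl | rfl <;> rcases hy with rfl | rfl
  · left; simp
  · right; simp
  · right; simp
  · left; exact h.zz

theorem ES.cz_zpowers (h : ES Q z) {x : G} : x ∈ Subgroup.zpowers z ↔ CZ z x := by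
  constructor
  · intro hx
    obtain ⟨k, rfl⟩ := Subgroup.mem_zpowers_iff.mp hx
    have hz2 : z ^ (2 : ℤ) = 1 := by
      rw [zpow_ofNat, pow_two]; exact h.zz
    rcases Int.emod_two_eq_zero_or_one k with h0 | h1
    · left
      have : k = 2 * (k / 2) := by omega
      rw [this, zpow_mul, hz2, one_zpow]
    · right
      have : k = 2 * (k / 2) + 1 := by omega
      rw [this, zpow_add, zpow_mul, hz2, one_zpow, one_mul, zpow_one]
  · rintro (rfl | rfl)
    · exact Subgroup.one_mem _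
    · exact Subgroup.mem_zpowers _

theorem bt_eq_one_iff {x y : G} : bt x y = 1 ↔ x * y = y * x := by
  unfold bt
  constructor
  · intro h
    have : x * y = (x * y * x⁻¹ * y⁻¹) * (y * x) := by group
    rw [this, h, one_mul]
  · intro h
    have : x * y * x⁻¹ * y⁻¹ = (x * y) * (y * x)⁻¹ := by group
    rw [this, h]; group

theorem ES.bt_mem (h : ES Q z) {x y : G} (hx : x ∈ Q) (hy : y ∈ Q) : bt x y ∈ Q :=
  h.cz_mem (h.comm x hx y hy)

theorem ES.bt_mul_left (h : ES Q z) {x y w : G} (hx : x ∈ Q) (hy : y ∈ Q) (hw : w ∈ Q) :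
    bt (x * y) w = bt x w * bt y w := by
  have hc : x * bt y w = bt y w * x := (h.cz_comm (h.comm y hy w hw) hx).symm
  have hc2 : bt y w * bt x w = bt x w * bt y w := h.cz_comm (h.comm y hy w hw) (h.bt_mem hx hw)
  rw [← hc2]
  calc bt (x * y) w = (x * bt y w) * x⁻¹ * bt x w := by unfold bt; group
    _ = (bt y w * x) * x⁻¹ * bt x w := by rw [hc]
    _ = _ := by group

theorem ES.bt_symm (h : ES Q z) {x y : G} (hx : x ∈ Q) (hy : y ∈ Q) : bt x y = bt y x := by
  have e : bt x y = (bt y x)⁻¹ := by unfold bt; group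
  rw [e, h.cz_inv (h.comm y hy x hx)]

theorem ES.bt_mul_right (h : ES Q z) {x y w : G} (hx : x ∈ Q) (hy : y ∈ Q) (hw : w ∈ Q) :
    bt w (x * y) = bt w x * bt w y := by
  rw [h.bt_symm hw (Q.mul_mem hx hy), h.bt_mul_left hx hy hw, h.bt_symm hx hw, h.bt_symm hy hw]

theorem ES.bt_cz_right (h : ES Q z) {c w : G} (hc : CZ z c) (hw : w ∈ Q) : bt w c = 1 := by
  rw [bt_eq_one_iff]; exact (h.cz_comm hc hw).symm

theorem ES.bt_inv_left (h : ES Q z) {x w : G} (hx : x ∈ Q) (hw : w ∈ Q) : bt x⁻¹ w = bt x w := by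
  have e := h.bt_mul_left hx (Q.inv_mem hx) hw
  rw [mul_inv_cancel] at e
  have e1 : bt 1 w = 1 := by unfold bt; group
  rw [e1] at e
  have e2 : bt x⁻¹ w = (bt x w)⁻¹ := eq_inv_of_mul_eq_one_right e.symm
  rw [e2, h.cz_inv (h.comm x hx w hw)]


theorem ES.orderOf_z (h : ES Q z) : orderOf z = 2 := by
  have : Fact (Nat.Prime 2) := ⟨Nat.prime_two⟩
  exact orderOf_eq_prime (by rw [pow_two]; exact h.zz) h.z1

/-- the counting bound `|C_Q(S)| |S| ≤ 2 |Q|` -/
theorem ES.card_cent_mul_le [Finite G] (h : ES Q z) :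
    ∀ (n : ℕ) (S : Subgroup G), S ≤ Q → Nat.card ↥Q - Nat.card ↥S ≤ n →
      Nat.card ↥(Q ⊓ Subgroup.centralizer (S : Set G)) * Nat.card ↥S ≤ 2 * Nat.card ↥Q := by
  intro n
  induction n with
  | zero =>
    intro S hSQ hn
    have hS : S = Q := Subgroup.eq_of_le_of_card_ge hSQ (by omega)
    rw [hS]
    have hle : Q ⊓ Subgroup.centralizer (Q : Set G) ≤ Subgroup.zpowers z := by
      intro x hx
      rw [h.cz_zpowers]
      refine h.cen x hx.1 ?_
      intro q hq
      exact ((Subgroup.mem_centralizer_iff.mp hx.2) q hq).symm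
    have h2 : Nat.card ↥(Subgroup.zpowers z) = 2 := by
      rw [Nat.card_zpowers, h.orderOf_z]
    have := Subgroup.card_le_of_le hle
    rw [h2] at this
    exact Nat.mul_le_mul_right _ this
  | succ n ih =>
    intro S hSQ hn
    by_cases hEq : S = Q
    · rw [hEq]
      have hle : Q ⊓ Subgroup.centralizer (Q : Set G) ≤ Subgroup.zpowers z := by
        intro x hx
        rw [h.cz_zpowers]
        refine h.cen x hx.1 ?_
        intro q hq
        exact ((Subgroup.mem_centralizer_iff.mp hx.2) q hq).symm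
      have h2 : Nat.card ↥(Subgroup.zpowers z) = 2 := by
        rw [Nat.card_zpowers, h.orderOf_z]
      have := Subgroup.card_le_of_le hle
      rw [h2] at this
      exact Nat.mul_le_mul_right _ this
    · obtain ⟨t, htQ, htS⟩ : ∃ t ∈ Q, t ∉ S := by
        by_contra hcon
        push Not at hcon
        exact hEq (le_antisymm hSQ hcon)
      have hS'Q : S ⊔ Subgroup.zpowers t ≤ Q := sup_le hSQ (by rw [Subgroup.zpowers_le]; exact htQ)
      have hSS' : S ≤ S ⊔ Subgroup.zpowers t := le_sup_left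
      have htS' : t ∈ S ⊔ Subgroup.zpowers t :=
        (le_sup_right : Subgroup.zpowers t ≤ S ⊔ Subgroup.zpowers t) (Subgroup.mem_zpowers t)
      have hne : Nat.card ↥(S ⊔ Subgroup.zpowers t) ≠ Nat.card ↥S := by
        intro hc
        have := Subgroup.eq_of_le_of_card_ge hSS' (le_of_eq hc)
        exact htS (this ▸ htS')
      have hpos : 0 < Nat.card ↥(S ⊔ Subgroup.zpowers t) := Nat.card_pos
      have h2 : 2 * Nat.card ↥S ≤ Nat.card ↥(S ⊔ Subgroup.zpowers t) := by
        obtain ⟨k, hk⟩ := Subgroup.card_dvd_of_le hSS'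
        rcases k with _ | _ | k
        · rw [hk] at hpos; simp at hpos
        · rw [hk] at hne; simp at hne
        · rw [hk]; nlinarith [Nat.zero_le (Nat.card ↥S * k)]
      have hleQ : Nat.card ↥(S ⊔ Subgroup.zpowers t) ≤ Nat.card ↥Q := Subgroup.card_le_of_le hS'Q
      have hSpos : 0 < Nat.card ↥S := Nat.card_pos
      have ih' := ih (S ⊔ Subgroup.zpowers t) hS'Q (by omega)
      -- the commutator homomorphism on `W = C_Q(S)`
      have hWQ : Q ⊓ Subgroup.centralizer (S : Set G) ≤ Q := inf_le_left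
      let f : ↥(Q ⊓ Subgroup.centralizer (S : Set G)) →* ↥(Subgroup.zpowers z) :=
        { toFun := fun c => ⟨bt c.1 t, h.cz_zpowers.mpr (h.comm _ (hWQ c.2) t htQ)⟩
          map_one' := by
            apply Subtype.ext
            show bt 1 t = 1
            unfold bt; group
          map_mul' := by
            intro a b
            apply Subtype.ext
            exact h.bt_mul_left (hWQ a.2) (hWQ b.2) htQ }
      have hcard : Nat.card ↥f.ker * Nat.card ↥f.range =
          Nat.card ↥(Q ⊓ Subgroup.centralizer (S : Set G)) := by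
        rw [← Subgroup.index_ker]; exact Subgroup.card_mul_index _
      have hr : Nat.card ↥f.range ≤ 2 := by
        have := Subgroup.card_le_card_group f.range
        rw [Nat.card_zpowers, h.orderOf_z] at this
        exact this
      have hsub : ∀ x : ↥f.ker, (x.1.1 : G) ∈
          Q ⊓ Subgroup.centralizer ((S ⊔ Subgroup.zpowers t : Subgroup G) : Set G) := by
        intro x
        refine ⟨x.1.2.1, ?_⟩
        show (x.1.1 : G) ∈ Subgroup.centralizer ((S ⊔ Subgroup.zpowers t : Subgroup G) : Set G)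
        have hxS : (x.1.1 : G) ∈ Subgroup.centralizer (S : Set G) := x.1.2.2
        have h1 : f x.1 = 1 := x.2
        have h2' : bt (x.1.1 : G) t = 1 := congrArg Subtype.val h1
        rw [bt_eq_one_iff] at h2'
        have hle : S ⊔ Subgroup.zpowers t ≤ Subgroup.centralizer {(x.1.1 : G)} := by
          refine sup_le ?_ ?_
          · intro s hs
            rw [Subgroup.mem_centralizer_singleton_iff]
            exact ((Subgroup.mem_centralizer_iff.mp hxS) s hs)
          · rw [Subgroup.zpowers_le, Subgroup.mem_centralizer_singleton_iff]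
            exact h2'.symm
        rw [Subgroup.mem_centralizer_iff]
        intro y hy
        have := hle hy
        rw [Subgroup.mem_centralizer_singleton_iff] at this
        exact this
      have hk : Nat.card ↥f.ker ≤
          Nat.card ↥(Q ⊓ Subgroup.centralizer ((S ⊔ Subgroup.zpowers t : Subgroup G) : Set G)) := by
        refine Nat.card_le_card_of_injective (fun x => ⟨x.1.1, hsub x⟩) ?_
        intro x y hxy
        apply Subtype.ext; apply Subtype.ext
        exact congrArg (fun w : ↥(Q ⊓ Subgroup.centralizer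
          ((S ⊔ Subgroup.zpowers t : Subgroup G) : Set G)) => (w : G)) hxy
      have hW : Nat.card ↥(Q ⊓ Subgroup.centralizer (S : Set G)) ≤
          Nat.card ↥(Q ⊓ Subgroup.centralizer ((S ⊔ Subgroup.zpowers t : Subgroup G) : Set G)) * 2 := by
        rw [← hcard]; exact Nat.mul_le_mul hk hr
      calc Nat.card ↥(Q ⊓ Subgroup.centralizer (S : Set G)) * Nat.card ↥S
          ≤ (Nat.card ↥(Q ⊓ Subgroup.centralizer ((S ⊔ Subgroup.zpowers t : Subgroup G) : Set G)) * 2) *
              Nat.card ↥S := Nat.mul_le_mul_right _ hW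
        _ = Nat.card ↥(Q ⊓ Subgroup.centralizer ((S ⊔ Subgroup.zpowers t : Subgroup G) : Set G)) *
              (2 * Nat.card ↥S) := by ring
        _ ≤ Nat.card ↥(Q ⊓ Subgroup.centralizer ((S ⊔ Subgroup.zpowers t : Subgroup G) : Set G)) *
              Nat.card ↥(S ⊔ Subgroup.zpowers t) := Nat.mul_le_mul_left _ h2
        _ ≤ _ := ih'


/-- the involutory automorphism data -/
structure AInv (Q : Subgroup G) (z α : G) : Prop where
  n : ∀ q ∈ Q, α * q * α⁻¹ ∈ Q
  z : α * z = z * α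
  sq : α * α = 1

variable {α : G}

theorem AInv.inv (ha : AInv Q z α) : α⁻¹ = α := inv_eq_of_mul_eq_one_left ha.sq

theorem AInv.n' (ha : AInv Q z α) {q : G} (hq : q ∈ Q) : α⁻¹ * q * α ∈ Q := by
  have := ha.n q hq
  rw [ha.inv] at this ⊢
  exact this

theorem AInv.kap_mem (ha : AInv Q z α) {q : G} (hq : q ∈ Q) : bt α q ∈ Q :=
  Q.mul_mem (ha.n q hq) (Q.inv_mem hq)

theorem AInv.cz_conj (ha : AInv Q z α) {c : G} (hc : CZ z c) : α * c * α⁻¹ = c := by
  rcases hc with rfl | rfl
  · simp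
  · rw [ha.z]; group

theorem AInv.bt_conj (h : ES Q z) (ha : AInv Q z α) {x y : G} (hx : x ∈ Q) (hy : y ∈ Q) :
    bt (α * x * α⁻¹) (α * y * α⁻¹) = bt x y := by
  have e : bt (α * x * α⁻¹) (α * y * α⁻¹) = α * bt x y * α⁻¹ := by unfold bt; group
  rw [e, ha.cz_conj (h.comm x hx y hy)]

/-- `[α, q]` commutes with `Q₀` -/
theorem AInv.step3 (h : ES Q z) (ha : AInv Q z α) {q q₀ : G} (hq : q ∈ Q) (hq₀ : q₀ ∈ Q)
    (hz : CZ z (bt α q₀)) : bt (bt α q) q₀ = 1 := by
  have e1 : bt α q = (α * q * α⁻¹) * q⁻¹ := rfl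
  rw [e1, h.bt_mul_left (ha.n q hq) (Q.inv_mem hq) hq₀, h.bt_inv_left hq hq₀]
  have e2 : q₀ = α * (α⁻¹ * q₀ * α) * α⁻¹ := by group
  have e3 : α⁻¹ * q₀ * α = bt α q₀ * q₀ := by
    unfold bt
    rw [ha.inv]
    group
  have e4 : bt (α * q * α⁻¹) q₀ = bt q q₀ := by
    conv_lhs => rw [e2]
    rw [ha.bt_conj h hq (ha.n' hq₀), e3, h.bt_mul_right (h.cz_mem hz) hq₀ hq,
      h.bt_cz_right hz hq, one_mul]
  rw [e4]
  exact h.cz_sq (h.comm q hq q₀ hq₀)

/-- `[α, [α, q]]` is central -/
theorem AInv.step4 (h : ES Q z) (ha : AInv Q z α) {q : G} (hq : q ∈ Q) : CZ z (bt α (bt α q)) := by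
  have hmem : q * (α * q * α⁻¹)⁻¹ ∈ Q := Q.mul_mem hq (Q.inv_mem (ha.n q hq))
  have e : bt α (bt α q) = (q * (α * q * α⁻¹)⁻¹) * (q * (α * q * α⁻¹)⁻¹) := by
    have hαα' : ∀ x : G, α * (α * x) = x := fun x => by rw [← mul_assoc, ha.sq, one_mul]
    simp only [bt, mul_inv_rev, inv_inv, ha.inv, mul_assoc, hαα']
  rw [e]
  exact h.sq _ hmem

theorem AInv.kap_mul (h : ES Q z) (ha : AInv Q z α) {q x : G} (hq : q ∈ Q)
    (hx : CZ z (bt α x)) : bt α (q * x) = bt α x * bt α q := by
  have hc : (α * q * α⁻¹) * bt α x = bt α x * (α * q * α⁻¹) := (h.cz_comm hx (ha.n q hq)).symm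
  calc bt α (q * x) = ((α * q * α⁻¹) * bt α x) * q⁻¹ := by unfold bt; group
    _ = (bt α x * (α * q * α⁻¹)) * q⁻¹ := by rw [hc]
    _ = _ := by unfold bt; group

theorem AInv.kap_conv (h : ES Q z) (ha : AInv Q z α) {q q₀ ξ : G} (hq₀ : q₀ ∈ Q)
    (hξ : CZ z ξ) (he : bt α q = ξ * bt α q₀) : bt α (q₀⁻¹ * q) = ξ := by
  have hc : (α * q₀⁻¹ * α⁻¹) * ξ = ξ * (α * q₀⁻¹ * α⁻¹) :=
    (h.cz_comm hξ (ha.n _ (Q.inv_mem hq₀))).symm
  calc bt α (q₀⁻¹ * q) = (α * q₀⁻¹ * α⁻¹) * bt α q * q₀ := by unfold bt; group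
    _ = ((α * q₀⁻¹ * α⁻¹) * ξ) * bt α q₀ * q₀ := by rw [he]; group
    _ = (ξ * (α * q₀⁻¹ * α⁻¹)) * bt α q₀ * q₀ := by rw [hc]
    _ = ξ := by unfold bt; group


theorem main [Finite G] (h : ES Q z) (ha : AInv Q z α) (hαQ : ∃ q ∈ Q, bt α q ≠ 1)
    (Q₀ : Subgroup G) (hQ₀ : ∀ q, q ∈ Q₀ ↔ (q ∈ Q ∧ CZ z (bt α q))) :
    Subgroup.closure ((fun q : G => α * q * α⁻¹ * q⁻¹) '' (Q : Set G)) =
      (Subgroup.center ↥Q₀).map Q₀.subtype := by
  have hgen : ∀ q ∈ Q, bt α q ∈ Subgroup.closure ((fun q : G => α * q * α⁻¹ * q⁻¹) '' (Q : Set G)) :=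
    fun q hq => Subgroup.subset_closure ⟨q, hq, rfl⟩
  have hKQ : Subgroup.closure ((fun q : G => α * q * α⁻¹ * q⁻¹) '' (Q : Set G)) ≤ Q := by
    rw [Subgroup.closure_le]
    rintro _ ⟨q, hq, rfl⟩
    exact ha.kap_mem hq
  have hQ₀Q : Q₀ ≤ Q := fun q hq => ((hQ₀ q).mp hq).1
  have hKQ₀ : Subgroup.closure ((fun q : G => α * q * α⁻¹ * q⁻¹) '' (Q : Set G)) ≤ Q₀ := by
    rw [Subgroup.closure_le]
    rintro _ ⟨q, hq, rfl⟩
    exact (hQ₀ _).mpr ⟨ha.kap_mem hq, ha.step4 h hq⟩
  have hKcent : Subgroup.closure ((fun q : G => α * q * α⁻¹ * q⁻¹) '' (Q : Set G)) ≤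
      Subgroup.centralizer (Q₀ : Set G) := by
    rw [Subgroup.closure_le]
    rintro _ ⟨q, hq, rfl⟩
    show bt α q ∈ Subgroup.centralizer (Q₀ : Set G)
    rw [Subgroup.mem_centralizer_iff]
    intro q₀ hq₀
    have := ha.step3 h hq (hQ₀Q hq₀) ((hQ₀ q₀).mp hq₀).2
    rw [bt_eq_one_iff] at this
    exact this.symm
  -- `z ∈ K`
  have hzK : z ∈ Subgroup.closure ((fun q : G => α * q * α⁻¹ * q⁻¹) '' (Q : Set G)) := by
    obtain ⟨q₁, hq₁, hne⟩ := hαQ
    by_cases hcz : CZ z (bt α q₁)
    · rcases hcz with h1 | h1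
      · exact absurd h1 hne
      · rw [← h1]; exact hgen q₁ hq₁
    · have : ¬ ∀ r ∈ Q, bt α q₁ * r = r * bt α q₁ := fun hall => hcz (h.cen _ (ha.kap_mem hq₁) hall)
      push Not at this
      obtain ⟨r, hr, hrne⟩ := this
      have hb : bt r (bt α q₁) ≠ 1 := by
        rw [Ne, bt_eq_one_iff]
        exact fun e => hrne e.symm
      have hbz : bt r (bt α q₁) = z := by
        rcases h.comm r hr _ (ha.kap_mem hq₁) with h1 | h1
        · exact absurd h1 hb
        · exact h1
      have e : bt r (bt α q₁) = ((bt α r)⁻¹ * bt α (r * q₁)) * (bt α q₁)⁻¹ := by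
        unfold bt; group
      rw [← hbz, e]
      exact Subgroup.mul_mem _ (Subgroup.mul_mem _ (Subgroup.inv_mem _ (hgen r hr))
        (hgen _ (Q.mul_mem hr hq₁))) (Subgroup.inv_mem _ (hgen q₁ hq₁))
  -- counting
  have hU : Nat.card ↥(Q ⊓ Subgroup.centralizer (Q₀ : Set G)) * Nat.card ↥Q₀ ≤ 2 * Nat.card ↥Q :=
    h.card_cent_mul_le _ Q₀ hQ₀Q le_rfl
  have hF : 2 * Nat.card ↥Q ≤ Nat.card ↥Q₀ *
      Nat.card ↥(Subgroup.closure ((fun q : G => α * q * α⁻¹ * q⁻¹) '' (Q : Set G))) := by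
    classical
    have := Fintype.ofFinite G
    have := Fintype.ofFinite ↥Q
    have := Fintype.ofFinite ↥(Subgroup.closure ((fun q : G => α * q * α⁻¹ * q⁻¹) '' (Q : Set G)))
    let f : Bool × ↥Q → ↥(Subgroup.closure ((fun q : G => α * q * α⁻¹ * q⁻¹) '' (Q : Set G))) :=
      fun p => ⟨(if p.1 then z else 1) * bt α p.2.1, Subgroup.mul_mem _ (by
        split_ifs
        · exact hzK
        · exact Subgroup.one_mem _) (hgen _ p.2.2)⟩
    have hczb : ∀ b : Bool, CZ z (if b then z else 1) := by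
      intro b
      cases b
      · left; rfl
      · right; rfl
    have hfib : ∀ k ∈ (Finset.univ : Finset (Bool × ↥Q)).image f,
        (Finset.univ.filter (fun p => f p = k)).card ≤ Nat.card ↥Q₀ := by
      intro k hk
      obtain ⟨⟨b₀, q₀⟩, -, rfl⟩ := Finset.mem_image.mp hk
      have hcard : (Finset.univ.filter (fun x : G => x ∈ Q₀)).card = Nat.card ↥Q₀ := by
        rw [Nat.card_eq_fintype_card, Fintype.card_subtype]
      rw [← hcard]
      refine Finset.card_le_card_of_injOn (fun p => (q₀ : G)⁻¹ * (p.2 : G)) ?_ ?_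
      · intro p hp
        have hp' : f p = f (b₀, q₀) := (Finset.mem_filter.mp (Finset.mem_coe.mp hp)).2
        have hp2 : (if p.1 then z else 1) * bt α (p.2 : G) = (if b₀ then z else 1) * bt α (q₀ : G) :=
          congrArg Subtype.val hp'
        have he : bt α (p.2 : G) = ((if p.1 then z else 1) * (if b₀ then z else 1)) * bt α (q₀ : G) := by
          rw [mul_assoc, ← hp2, ← mul_assoc, h.cz_sq (hczb p.1), one_mul]
        have hkc := ha.kap_conv h q₀.2 (h.cz_mul (hczb p.1) (hczb b₀)) he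
        refine Finset.mem_coe.mpr (Finset.mem_filter.mpr ⟨Finset.mem_univ _, ?_⟩)
        refine (hQ₀ _).mpr ⟨Q.mul_mem (Q.inv_mem q₀.2) p.2.2, ?_⟩
        rw [hkc]
        exact h.cz_mul (hczb p.1) (hczb b₀)
      · intro p hp p' hp' hpp'
        have hp1 : f p = f (b₀, q₀) := (Finset.mem_filter.mp (Finset.mem_coe.mp hp)).2
        have hp2 : f p' = f (b₀, q₀) := (Finset.mem_filter.mp (Finset.mem_coe.mp hp')).2
        have hq : (p.2 : G) = (p'.2 : G) := mul_left_cancel hpp'
        have hq' : p.2 = p'.2 := Subtype.ext hq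
        have hff : (if p.1 then z else 1) * bt α (p.2 : G) = (if p'.1 then z else 1) * bt α (p'.2 : G) :=
          congrArg Subtype.val (hp1.trans hp2.symm)
        rw [hq] at hff
        have hb := mul_right_cancel hff
        have hb' : p.1 = p'.1 := by
          rcases p with ⟨b, q⟩
          rcases p' with ⟨b', q'⟩
          cases b <;> cases b' <;> simp at hb ⊢
          · exact h.z1 hb.symm
          · exact h.z1 hb
        exact Prod.ext hb' hq'
    have hmain := Finset.card_le_mul_card_image (f := f) Finset.univ (Nat.card ↥Q₀) hfib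
    rw [Finset.card_univ, Fintype.card_prod, Fintype.card_bool] at hmain
    have h1 : ((Finset.univ : Finset (Bool × ↥Q)).image f).card ≤
        Nat.card ↥(Subgroup.closure ((fun q : G => α * q * α⁻¹ * q⁻¹) '' (Q : Set G))) := by
      rw [Nat.card_eq_fintype_card]; exact Finset.card_le_univ _
    rw [Nat.card_eq_fintype_card (α := ↥Q)]
    exact hmain.trans (Nat.mul_le_mul_left _ h1)
  have hQ₀pos : 0 < Nat.card ↥Q₀ := Nat.card_pos
  have hD : Subgroup.closure ((fun q : G => α * q * α⁻¹ * q⁻¹) '' (Q : Set G)) =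
      Q ⊓ Subgroup.centralizer (Q₀ : Set G) := by
    refine Subgroup.eq_of_le_of_card_ge (le_inf hKQ hKcent) ?_
    have : Nat.card ↥(Q ⊓ Subgroup.centralizer (Q₀ : Set G)) * Nat.card ↥Q₀ ≤
        Nat.card ↥(Subgroup.closure ((fun q : G => α * q * α⁻¹ * q⁻¹) '' (Q : Set G))) * Nat.card ↥Q₀ := by
      rw [mul_comm (Nat.card ↥(Subgroup.closure _))]
      exact hU.trans hF
    exact Nat.le_of_mul_le_mul_right this hQ₀pos
  ext y
  constructor
  · intro hy
    refine ⟨⟨y, hKQ₀ hy⟩, ?_, rfl⟩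
    rw [SetLike.mem_coe, Subgroup.mem_center_iff]
    intro g
    apply Subtype.ext
    exact (Subgroup.mem_centralizer_iff.mp (hKcent hy)) g.1 g.2
  · rintro ⟨c, hc, rfl⟩
    rw [hD]
    refine ⟨hQ₀Q c.2, ?_⟩
    show (c : G) ∈ Subgroup.centralizer (Q₀ : Set G)
    rw [Subgroup.mem_centralizer_iff]
    intro x hx
    have := (Subgroup.mem_center_iff.mp hc) ⟨x, hx⟩
    exact congrArg Subtype.val this

end gen

/-- Let G be a finite group and let z be an involution of G such that Q, the generalized Fitting subgroup of the centralizer C of z, is a 2-group of symplectic type (every characteristic abelian subgroup of Q is cyclic); suppose Q is extraspecial, and view Q inside G. Let α be an involution of C that is not in Q, and let Q₀ be the subgroup of those q ∈ Q whose commutator with α lies in the subgroup generated by z. Then (a) the subgroup generated by the commutators α q α⁻¹ q⁻¹, q ∈ Q, equals the centre of Q₀; and (b) if Q₀ is not contained in the product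 of the centralizer of α in Q with the subgroup generated by z, then some element of Q conjugates α to α z. -/
theorem result {G : Type*} [Group G] [Finite G] (z : G) (hz : orderOf z = 2) (hQ : Cfsg.IsOfSymplecticType ↥(Cfsg.generalizedFittingSubgroup ↥(Subgroup.centralizer ({z} : Set G)))) (hE : Cfsg.IsExtraspecial 2 ↥(Cfsg.generalizedFittingSubgroup ↥(Subgroup.centralizer ({z} : Set G))))
    (α : G) (hα : orderOf α = 2) (hαC : α ∈ Subgroup.centralizer ({z} : Set G)) (hαQ : α ∉ (Cfsg.generalizedFittingSubgroup ↥(Subgroup.centralizer ({z} : Set G))).map (Subgroup.centralizer ({z} : Set G)).subtype)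
    (Q₀ : Subgroup G) (hQ₀ : ∀ q : G, q ∈ Q₀ ↔ (q ∈ (Cfsg.generalizedFittingSubgroup ↥(Subgroup.centralizer ({z} : Set G))).map (Subgroup.centralizer ({z} : Set G)).subtype ∧ α * q * α⁻¹ * q⁻¹ ∈ Subgroup.zpowers z)) :
    Subgroup.closure ((fun q : G => α * q * α⁻¹ * q⁻¹) '' ((Cfsg.generalizedFittingSubgroup ↥(Subgroup.centralizer ({z} : Set G))).map (Subgroup.centralizer ({z} : Set G)).subtype : Set G)) = (Subgroup.center ↥Q₀).map Q₀.subtype ∧
      (¬ Q₀ ≤ ((Cfsg.generalizedFittingSubgroup ↥(Subgroup.centralizer ({z} : Set G))).map (Subgroup.centralizer ({z} : Set G)).subtype ⊓ Subgroup.centralizer ({α} : Set G)) ⊔ Subgroup.zpowers z →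
        ∃ q ∈ (Cfsg.generalizedFittingSubgroup ↥(Subgroup.centralizer ({z} : Set G))).map (Subgroup.centralizer ({z} : Set G)).subtype, q * α * q⁻¹ = α * z) := by
  have hzC : z ∈ Subgroup.centralizer ({z} : Set G) := by
    rw [Subgroup.mem_centralizer_singleton_iff]
  have hz1 : z ≠ 1 := by
    intro h; rw [h, orderOf_one] at hz; omega
  have hzz : z * z = 1 := by rw [← pow_two, ← hz]; exact pow_orderOf_eq_one z
  have hQn := Cfsg.Agent.Helper10.gfitting_normal ↥(Subgroup.centralizer ({z} : Set G))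
  have hzQc : (⟨z, hzC⟩ : ↥(Subgroup.centralizer ({z} : Set G))) ∈
      Cfsg.generalizedFittingSubgroup ↥(Subgroup.centralizer ({z} : Set G)) := by
    apply Cfsg.Agent.Helper10.centralizer_gfitting_le
    rw [Subgroup.mem_centralizer_iff]
    intro q _
    apply Subtype.ext
    have hq : (q : G) ∈ Subgroup.centralizer ({z} : Set G) := q.2
    rw [Subgroup.mem_centralizer_singleton_iff] at hq
    exact hq
  obtain ⟨hcomm, hsq, w, hw1, hw⟩ := Cfsg.Agent.Helper17.extraspecial_two_data hE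
  -- membership in `Q`
  have hmem : ∀ x : G, x ∈ (Cfsg.generalizedFittingSubgroup ↥(Subgroup.centralizer ({z} : Set G))).map
      (Subgroup.centralizer ({z} : Set G)).subtype ↔
      ∃ a : ↥(Cfsg.generalizedFittingSubgroup ↥(Subgroup.centralizer ({z} : Set G))),
        ((a : ↥(Subgroup.centralizer ({z} : Set G))) : G) = x := by
    intro x
    constructor
    · rintro ⟨c, hc, rfl⟩
      exact ⟨⟨c, hc⟩, rfl⟩
    · rintro ⟨a, rfl⟩
      exact ⟨a.1, a.2, rfl⟩
  -- the centre of `Q`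
  have hzcen : (⟨⟨z, hzC⟩, hzQc⟩ : ↥(Cfsg.generalizedFittingSubgroup ↥(Subgroup.centralizer ({z} : Set G)))) ∈
      Subgroup.center ↥(Cfsg.generalizedFittingSubgroup ↥(Subgroup.centralizer ({z} : Set G))) := by
    rw [Subgroup.mem_center_iff]
    intro q
    apply Subtype.ext; apply Subtype.ext
    show ((q : ↥(Subgroup.centralizer ({z} : Set G))) : G) * z = z * ((q : ↥(Subgroup.centralizer ({z} : Set G))) : G)
    have hq : ((q : ↥(Subgroup.centralizer ({z} : Set G))) : G) ∈ Subgroup.centralizer ({z} : Set G) := q.1.2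
    rw [Subgroup.mem_centralizer_singleton_iff] at hq
    exact hq
  have hwz : w = ⟨_, hzcen⟩ := by
    rcases hw ⟨_, hzcen⟩ with h1 | h1
    · exfalso
      apply hz1
      have := congrArg (fun u : ↥(Subgroup.center ↥(Cfsg.generalizedFittingSubgroup
        ↥(Subgroup.centralizer ({z} : Set G)))) =>
          (((u : ↥(Cfsg.generalizedFittingSubgroup ↥(Subgroup.centralizer ({z} : Set G)))) :
            ↥(Subgroup.centralizer ({z} : Set G))) : G)) h1
      exact this
    · exact h1.symm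
  have hcenter : ∀ u : ↥(Cfsg.generalizedFittingSubgroup ↥(Subgroup.centralizer ({z} : Set G))),
      u ∈ Subgroup.center ↥(Cfsg.generalizedFittingSubgroup ↥(Subgroup.centralizer ({z} : Set G))) →
      CZ z ((u : ↥(Subgroup.centralizer ({z} : Set G))) : G) := by
    intro u hu
    rcases hw ⟨u, hu⟩ with h1 | h1
    · left
      have := congrArg (fun u : ↥(Subgroup.center ↥(Cfsg.generalizedFittingSubgroup
        ↥(Subgroup.centralizer ({z} : Set G)))) =>
          (((u : ↥(Cfsg.generalizedFittingSubgroup ↥(Subgroup.centralizer ({z} : Set G)))) :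
            ↥(Subgroup.centralizer ({z} : Set G))) : G)) h1
      exact this
    · right
      rw [hwz] at h1
      have := congrArg (fun u : ↥(Subgroup.center ↥(Cfsg.generalizedFittingSubgroup
        ↥(Subgroup.centralizer ({z} : Set G)))) =>
          (((u : ↥(Cfsg.generalizedFittingSubgroup ↥(Subgroup.centralizer ({z} : Set G)))) :
            ↥(Subgroup.centralizer ({z} : Set G))) : G)) h1
      exact this
  have hES : ES ((Cfsg.generalizedFittingSubgroup ↥(Subgroup.centralizer ({z} : Set G))).map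
      (Subgroup.centralizer ({z} : Set G)).subtype) z := by
    refine ⟨hz1, hzz, (hmem z).mpr ⟨⟨⟨z, hzC⟩, hzQc⟩, rfl⟩, ?_, ?_, ?_, ?_⟩
    · intro q hq
      obtain ⟨a, rfl⟩ := (hmem q).mp hq
      have hq' : ((a : ↥(Subgroup.centralizer ({z} : Set G))) : G) ∈ Subgroup.centralizer ({z} : Set G) := a.1.2
      rw [Subgroup.mem_centralizer_singleton_iff] at hq'
      exact hq'
    · intro x hx y hy
      obtain ⟨a, rfl⟩ := (hmem x).mp hx
      obtain ⟨b, rfl⟩ := (hmem y).mp hy
      exact hcenter _ (hcomm a b)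
    · intro x hx
      obtain ⟨a, rfl⟩ := (hmem x).mp hx
      exact hcenter _ (hsq a)
    · intro x hx hall
      obtain ⟨a, rfl⟩ := (hmem x).mp hx
      refine hcenter a ?_
      rw [Subgroup.mem_center_iff]
      intro q
      apply Subtype.ext; apply Subtype.ext
      exact (hall _ ((hmem _).mpr ⟨q, rfl⟩)).symm
  have hAI : AInv ((Cfsg.generalizedFittingSubgroup ↥(Subgroup.centralizer ({z} : Set G))).map
      (Subgroup.centralizer ({z} : Set G)).subtype) z α := by
    refine ⟨?_, ?_, ?_⟩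
    · intro q hq
      obtain ⟨a, rfl⟩ := (hmem q).mp hq
      have := hQn.conj_mem a.1 a.2 ⟨α, hαC⟩
      exact (hmem _).mpr ⟨⟨_, this⟩, rfl⟩
    · rw [Subgroup.mem_centralizer_singleton_iff] at hαC
      exact hαC
    · rw [← pow_two, ← hα]; exact pow_orderOf_eq_one α
  have hαQ' : ∃ q ∈ (Cfsg.generalizedFittingSubgroup ↥(Subgroup.centralizer ({z} : Set G))).map
      (Subgroup.centralizer ({z} : Set G)).subtype, bt α q ≠ 1 := by
    by_contra hcon
    push Not at hcon
    apply hαQ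
    have : (⟨α, hαC⟩ : ↥(Subgroup.centralizer ({z} : Set G))) ∈
        Cfsg.generalizedFittingSubgroup ↥(Subgroup.centralizer ({z} : Set G)) := by
      apply Cfsg.Agent.Helper10.centralizer_gfitting_le
      rw [Subgroup.mem_centralizer_iff]
      intro q hq
      apply Subtype.ext
      have := hcon (q : G) ((hmem _).mpr ⟨⟨q, hq⟩, rfl⟩)
      rw [bt_eq_one_iff] at this
      exact this.symm
    exact (hmem α).mpr ⟨⟨_, this⟩, rfl⟩
  have hQ₀' : ∀ q, q ∈ Q₀ ↔ (q ∈ (Cfsg.generalizedFittingSubgroup ↥(Subgroup.centralizer ({z} : Set G))).map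
      (Subgroup.centralizer ({z} : Set G)).subtype ∧ CZ z (bt α q)) := by
    intro q
    rw [hQ₀ q, hES.cz_zpowers]
    rfl
  refine ⟨main hES hAI hαQ' Q₀ hQ₀', ?_⟩
  intro hnot
  obtain ⟨q₀, hq₀, hq₀n⟩ : ∃ q₀ ∈ Q₀, q₀ ∉ (Cfsg.generalizedFittingSubgroup ↥(Subgroup.centralizer ({z} : Set G))).map
      (Subgroup.centralizer ({z} : Set G)).subtype ⊓ Subgroup.centralizer ({α} : Set G) := by
    by_contra hcon
    push Not at hcon
    exact hnot (le_trans (fun q hq => hcon q hq) le_sup_left)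
  obtain ⟨hq₀Q, hq₀z⟩ := (hQ₀' q₀).mp hq₀
  refine ⟨q₀, hq₀Q, ?_⟩
  have hbz : bt α q₀ = z := by
    rcases hq₀z with h1 | h1
    · exfalso
      apply hq₀n
      refine ⟨hq₀Q, ?_⟩
      show q₀ ∈ Subgroup.centralizer ({α} : Set G)
      rw [Subgroup.mem_centralizer_singleton_iff]
      rw [bt_eq_one_iff] at h1
      exact h1.symm
    · exact h1
  have e : q₀ * α * q₀⁻¹ = (bt α q₀)⁻¹ * α := by unfold bt; group
  rw [e, hbz, hES.cz_inv (Or.inr rfl), hAI.z]

end Cfsg.Agent.S1784
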