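import Cfsg.Statements.S1785

set_option autoImplicit false
open Cfsg

namespace Cfsg.Agent.S1785

open scoped Pointwise

section gen
variable {X : Type*} [Group X]

theorem ea_comm {p : ℕ} {U : Subgroup X} (hU : Cfsg.IsElementaryAbelian p U) {a b : X}
    (ha : a ∈ U) (hb : b ∈ U) : a * b = b * a := by
  have := hU.1.is_comm.comm ⟨a, ha⟩ ⟨b, hb⟩
  exact congrArg Subtype.val this

theorem ea_of_comm {p : ℕ} {U : Subgroup X} (h1 : ∀ a ∈ U, ∀ b ∈ U, a * b = b * a)
    (h2 : ∀ a ∈ U, a ^ p = 1) : Cfsg.IsElementaryAbelian p U :=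
  ⟨⟨⟨fun a b => Subtype.ext (h1 a.1 a.2 b.1 b.2)⟩⟩, h2⟩

theorem ea_mono {p : ℕ} {A U : Subgroup X} (hU : Cfsg.IsElementaryAbelian p U) (h : A ≤ U) :
    Cfsg.IsElementaryAbelian p A :=
  ea_of_comm (fun a ha b hb => ea_comm hU (h ha) (h hb)) (fun a ha => hU.2 a (h ha))

theorem comm_bot_of_le {p : ℕ} {C D U : Subgroup X} (hU : Cfsg.IsElementaryAbelian p U)
    (hC : C ≤ U) (hD : D ≤ U) : ⁅C, D⁆ = ⊥ := by
  rw [Subgroup.commutator_eq_bot_iff_le_centralizer]
  intro c hc d hd
  exact ea_comm hU (hD hd) (hC hc)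

theorem ea_sup {p : ℕ} {A D : Subgroup X} (hA : Cfsg.IsElementaryAbelian p A)
    (hD : Cfsg.IsElementaryAbelian p D) (h : ∀ a ∈ A, ∀ d ∈ D, a * d = d * a) :
    Cfsg.IsElementaryAbelian p (A ⊔ D) := by
  have hcomm : A ⊔ D ≤ Subgroup.centralizer ((A ⊔ D : Subgroup X) : Set X) := by
    refine sup_le ?_ ?_
    · rw [Subgroup.le_centralizer_iff]
      refine sup_le ?_ ?_
      · intro a ha b hb
        exact ea_comm hA hb ha
      · intro d hd a ha
        exact h a ha d hd
    · rw [Subgroup.le_centralizer_iff]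
      refine sup_le ?_ ?_
      · intro a ha d hd
        exact (h a ha d hd).symm
      · intro a ha b hb
        exact ea_comm hD hb ha
  have hc : ∀ a ∈ A ⊔ D, ∀ b ∈ A ⊔ D, a * b = b * a := fun a ha b hb => (hcomm ha b hb).symm
  refine ea_of_comm hc ?_
  intro x hx
  have hx' : x ∈ Subgroup.closure ((A : Set X) ∪ D) := by
    rw [Subgroup.closure_union, Subgroup.closure_eq, Subgroup.closure_eq]; exact hx
  have hle : Subgroup.closure ((A : Set X) ∪ D) ≤ A ⊔ D := by
    rw [Subgroup.closure_union, Subgroup.closure_eq, Subgroup.closure_eq]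
  refine Subgroup.closure_induction (p := fun x _ => x ^ p = 1) ?_ ?_ ?_ ?_ hx'
  · intro y hy
    rcases hy with hy | hy
    · exact hA.2 y hy
    · exact hD.2 y hy
  · exact one_pow p
  · intro y z hy hz h1 h2
    have : Commute y z := hc y (hle hy) z (hle hz)
    rw [this.mul_pow, h1, h2, one_mul]
  · intro y hy h1
    rw [inv_pow, h1, inv_one]


/-- enlarge a subgroup of an elementary abelian 2-group to order 8 -/
theorem exists_eight [Finite X] (hX : IsPGroup 2 X) {U S : Subgroup X} (hSU : S ≤ U) {m : ℕ}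
    (hS : Nat.card ↥S = 2 ^ m) (hm : m ≤ 3) (hU8 : 8 ≤ Nat.card ↥U) :
    ∃ A : Subgroup X, S ≤ A ∧ A ≤ U ∧ Nat.card ↥A = 8 := by
  have : Fact (Nat.Prime 2) := ⟨Nat.prime_two⟩
  obtain ⟨n, hn⟩ := IsPGroup.exists_card_eq (hX.to_subgroup U)
  have hn3 : 3 ≤ n := by
    by_contra hlt
    have h2 : n ≤ 2 := by omega
    have : (2 : ℕ) ^ n ≤ 2 ^ 2 := Nat.pow_le_pow_right (by norm_num) h2
    rw [hn] at hU8
    omega
  have hdvd : 2 ^ 3 ∣ Nat.card ↥U := by
    rw [hn]; exact pow_dvd_pow 2 hn3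
  have hS' : Nat.card ↥(S.subgroupOf U) = 2 ^ m := by
    rw [Nat.card_congr (Subgroup.subgroupOfEquivOfLe hSU).toEquiv, hS]
  obtain ⟨K, hK, hSK⟩ := Sylow.exists_subgroup_card_pow_prime_le 2 hdvd (S.subgroupOf U) hS' hm
  refine ⟨K.map U.subtype, ?_, ?_, ?_⟩
  · intro x hx
    refine ⟨⟨x, hSU hx⟩, hSK ?_, rfl⟩
    rw [Subgroup.mem_subgroupOf]
    exact hx
  · rintro _ ⟨y, _, rfl⟩
    exact y.2
  · rw [← Nat.card_congr (K.equivMapOfInjective U.subtype U.subtype_injective).toEquiv, hK]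
    norm_num

/-- an involution normalising an elementary abelian 2-group `W` centralises a large part -/
theorem card_le_sq_cent [Finite X] {W : Subgroup X} (hW : Cfsg.IsElementaryAbelian 2 W) {t : X}
    (ht : t * t = 1) (hn : ∀ w ∈ W, t * w * t⁻¹ ∈ W) :
    Nat.card ↥W ≤ Nat.card ↥(W ⊓ Subgroup.centralizer {t}) ^ 2 := by
  have hti : t⁻¹ = t := inv_eq_of_mul_eq_one_left ht
  have hsq : ∀ w ∈ W, w * w = 1 := fun w hw => by rw [← pow_two]; exact hW.2 w hw
  let f : ↥W →* ↥W :=
    { toFun := fun w => ⟨w.1 * (t * w.1 * t⁻¹), W.mul_mem w.2 (hn _ w.2)⟩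
      map_one' := by
        apply Subtype.ext
        simp
      map_mul' := by
        intro a b
        apply Subtype.ext
        show a.1 * b.1 * (t * (a.1 * b.1) * t⁻¹) = a.1 * (t * a.1 * t⁻¹) * (b.1 * (t * b.1 * t⁻¹))
        have e : (t * a.1 * t⁻¹) * b.1 = b.1 * (t * a.1 * t⁻¹) := ea_comm hW (hn _ a.2) b.2
        calc a.1 * b.1 * (t * (a.1 * b.1) * t⁻¹)
            = a.1 * (b.1 * (t * a.1 * t⁻¹)) * (t * b.1 * t⁻¹) := by group
          _ = a.1 * ((t * a.1 * t⁻¹) * b.1) * (t * b.1 * t⁻¹) := by rw [e]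
          _ = _ := by group }
  have hf : ∀ w : ↥W, ((f w : ↥W) : X) = w.1 * (t * w.1 * t⁻¹) := fun w => rfl
  have hcard : Nat.card ↥f.ker * Nat.card ↥f.range = Nat.card ↥W := by
    rw [← Subgroup.index_ker]; exact Subgroup.card_mul_index _
  have hk : Nat.card ↥f.ker ≤ Nat.card ↥(W ⊓ Subgroup.centralizer {t}) := by
    have hmem : ∀ x : ↥f.ker, (x.1.1 : X) ∈ W ⊓ Subgroup.centralizer {t} := by
      intro x
      refine ⟨x.1.2, ?_⟩
      show (x.1.1 : X) ∈ Subgroup.centralizer {t}
      rw [Subgroup.mem_centralizer_singleton_iff]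
      have h1 : f x.1 = 1 := x.2
      have h2 : x.1.1 * (t * x.1.1 * t⁻¹) = 1 := by
        rw [← hf, h1]; rfl
      have h3 : t * x.1.1 * t⁻¹ = x.1.1 := by
        have h4 := hsq _ x.1.2
        exact mul_left_cancel (h2.trans h4.symm)
      calc x.1.1 * t = (t * x.1.1 * t⁻¹) * t := by rw [h3]
        _ = t * x.1.1 := by group
    refine Nat.card_le_card_of_injective (fun x => ⟨x.1.1, hmem x⟩) ?_
    intro x y hxy
    apply Subtype.ext; apply Subtype.ext
    exact congrArg (fun z : ↥(W ⊓ Subgroup.centralizer {t}) => (z : X)) hxy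
  have hr : Nat.card ↥f.range ≤ Nat.card ↥(W ⊓ Subgroup.centralizer {t}) := by
    have hmem : ∀ x : ↥f.range, (x.1.1 : X) ∈ W ⊓ Subgroup.centralizer {t} := by
      intro x
      refine ⟨x.1.2, ?_⟩
      show (x.1.1 : X) ∈ Subgroup.centralizer {t}
      rw [Subgroup.mem_centralizer_singleton_iff]
      obtain ⟨w, hw⟩ := x.2
      rw [← hw, hf]
      have e : (t * w.1 * t⁻¹) * w.1 = w.1 * (t * w.1 * t⁻¹) := ea_comm hW (hn _ w.2) w.2
      calc w.1 * (t * w.1 * t⁻¹) * t = w.1 * t * w.1 * (t⁻¹ * t) := by group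
        _ = w.1 * t * w.1 := by rw [inv_mul_cancel, mul_one]
        _ = (t * t) * w.1 * t * w.1 := by rw [ht, one_mul]
        _ = t * ((t * w.1 * t⁻¹) * w.1) := by rw [hti]; group
        _ = t * (w.1 * (t * w.1 * t⁻¹)) := by rw [e]
    refine Nat.card_le_card_of_injective (fun x => ⟨x.1.1, hmem x⟩) ?_
    intro x y hxy
    apply Subtype.ext; apply Subtype.ext
    exact congrArg (fun z : ↥(W ⊓ Subgroup.centralizer {t}) => (z : X)) hxy
  calc Nat.card ↥W = Nat.card ↥f.ker * Nat.card ↥f.range := hcard.symm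
    _ ≤ Nat.card ↥(W ⊓ Subgroup.centralizer {t}) * Nat.card ↥(W ⊓ Subgroup.centralizer {t}) :=
        Nat.mul_le_mul hk hr
    _ = _ := (pow_two _).symm


theorem cent_pow_le [Finite X] {E : Subgroup X} [E.Normal] (hE : Cfsg.IsElementaryAbelian 2 E)
    {A : Subgroup X} (hA : Cfsg.IsElementaryAbelian 2 A) :
    ∀ (n : ℕ) (S : Subgroup X), S ≤ A → Nat.card ↥A - Nat.card ↥S ≤ n →
      Nat.card ↥(E ⊓ Subgroup.centralizer (S : Set X)) ^ Nat.card ↥S ≤
        Nat.card ↥(E ⊓ Subgroup.centralizer (A : Set X)) ^ Nat.card ↥A := by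
  intro n
  induction n with
  | zero =>
    intro S hSA hn
    have : S = A := Subgroup.eq_of_le_of_card_ge hSA (by omega)
    rw [this]
  | succ n ih =>
    intro S hSA hn
    by_cases hEq : S = A
    · rw [hEq]
    · obtain ⟨t, htA, htS⟩ : ∃ t ∈ A, t ∉ S := by
        by_contra hcon
        push Not at hcon
        exact hEq (le_antisymm hSA hcon)
      have hS'A : S ⊔ Subgroup.zpowers t ≤ A := sup_le hSA (by rw [Subgroup.zpowers_le]; exact htA)
      have hSS' : S ≤ S ⊔ Subgroup.zpowers t := le_sup_left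
      have htS' : t ∈ S ⊔ Subgroup.zpowers t :=
        (le_sup_right : Subgroup.zpowers t ≤ S ⊔ Subgroup.zpowers t) (Subgroup.mem_zpowers t)
      have hne : Nat.card ↥(S ⊔ Subgroup.zpowers t) ≠ Nat.card ↥S := by
        intro hc
        have := Subgroup.eq_of_le_of_card_ge hSS' (le_of_eq hc)
        exact htS (this ▸ htS')
      have hpos : 0 < Nat.card ↥(S ⊔ Subgroup.zpowers t) := Nat.card_pos
      have h2 : 2 * Nat.card ↥S ≤ Nat.card ↥(S ⊔ Subgroup.zpowers t) := by
        obtain ⟨k, hk⟩ := Subgroup.card_dvd_of_le hSS'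
        rcases k with _ | _ | k
        · rw [hk] at hpos; simp at hpos
        · rw [hk] at hne; simp at hne
        · rw [hk]; nlinarith [Nat.zero_le (Nat.card ↥S * k)]
      have hleA : Nat.card ↥(S ⊔ Subgroup.zpowers t) ≤ Nat.card ↥A := Subgroup.card_le_of_le hS'A
      have hSpos : 0 < Nat.card ↥S := Nat.card_pos
      have ih' := ih (S ⊔ Subgroup.zpowers t) hS'A (by omega)
      have hW : Cfsg.IsElementaryAbelian 2 (E ⊓ Subgroup.centralizer (S : Set X)) :=
        ea_mono hE inf_le_left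
      have ht : t * t = 1 := by rw [← pow_two]; exact hA.2 t htA
      have hn' : ∀ w ∈ E ⊓ Subgroup.centralizer (S : Set X),
          t * w * t⁻¹ ∈ E ⊓ Subgroup.centralizer (S : Set X) := by
        intro w hw
        refine ⟨Subgroup.Normal.conj_mem inferInstance w hw.1 t, ?_⟩
        show t * w * t⁻¹ ∈ Subgroup.centralizer (S : Set X)
        rw [Subgroup.mem_centralizer_iff]
        intro s hs
        have hst : Commute s t := ea_comm hA (hSA hs) htA
        have hsw : s * w = w * s := (Subgroup.mem_centralizer_iff.mp hw.2) s hs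
        calc s * (t * w * t⁻¹) = (s * t) * w * t⁻¹ := by group
          _ = (t * s) * w * t⁻¹ := by rw [hst.eq]
          _ = t * (s * w) * t⁻¹ := by group
          _ = t * (w * s) * t⁻¹ := by rw [hsw]
          _ = t * w * (s * t⁻¹) := by group
          _ = t * w * (t⁻¹ * s) := by rw [hst.inv_right.eq]
          _ = t * w * t⁻¹ * s := by group
      have key := card_le_sq_cent hW ht hn'
      have hsub : (E ⊓ Subgroup.centralizer (S : Set X)) ⊓ Subgroup.centralizer {t} ≤
          E ⊓ Subgroup.centralizer ((S ⊔ Subgroup.zpowers t : Subgroup X) : Set X) := by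
        intro x hx
        refine ⟨hx.1.1, ?_⟩
        show x ∈ Subgroup.centralizer ((S ⊔ Subgroup.zpowers t : Subgroup X) : Set X)
        have hxt : x ∈ Subgroup.centralizer {t} := hx.2
        have hxS : x ∈ Subgroup.centralizer (S : Set X) := hx.1.2
        have hle : S ⊔ Subgroup.zpowers t ≤ Subgroup.centralizer {x} := by
          refine sup_le ?_ ?_
          · intro s hs
            rw [Subgroup.mem_centralizer_singleton_iff]
            exact ((Subgroup.mem_centralizer_iff.mp hxS) s hs)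
          · rw [Subgroup.zpowers_le, Subgroup.mem_centralizer_singleton_iff]
            exact ((Subgroup.mem_centralizer_singleton_iff.mp hxt)).symm
        rw [Subgroup.mem_centralizer_iff]
        intro y hy
        have := hle hy
        rw [Subgroup.mem_centralizer_singleton_iff] at this
        exact this
      have hc := Subgroup.card_le_of_le hsub
      have hc'pos : 0 < Nat.card ↥(E ⊓ Subgroup.centralizer ((S ⊔ Subgroup.zpowers t : Subgroup X) : Set X)) :=
        Nat.card_pos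
      calc Nat.card ↥(E ⊓ Subgroup.centralizer (S : Set X)) ^ Nat.card ↥S
          ≤ (Nat.card ↥(E ⊓ Subgroup.centralizer ((S ⊔ Subgroup.zpowers t : Subgroup X) : Set X)) ^ 2) ^
              Nat.card ↥S :=
            Nat.pow_le_pow_left (key.trans (Nat.pow_le_pow_left hc 2)) _
        _ = Nat.card ↥(E ⊓ Subgroup.centralizer ((S ⊔ Subgroup.zpowers t : Subgroup X) : Set X)) ^
              (2 * Nat.card ↥S) := (pow_mul _ _ _).symm
        _ ≤ Nat.card ↥(E ⊓ Subgroup.centralizer ((S ⊔ Subgroup.zpowers t : Subgroup X) : Set X)) ^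
              Nat.card ↥(S ⊔ Subgroup.zpowers t) := Nat.pow_le_pow_right hc'pos h2
        _ ≤ _ := ih'

theorem cent_gt [Finite X] {E : Subgroup X} [E.Normal] (hE : Cfsg.IsElementaryAbelian 2 E)
    (hE32 : 32 ≤ Nat.card ↥E) {A : Subgroup X} (hA : Cfsg.IsElementaryAbelian 2 A)
    (hA8 : Nat.card ↥A = 4 ∨ Nat.card ↥A = 8) :
    Nat.card ↥(A ⊓ E) < Nat.card ↥(E ⊓ Subgroup.centralizer (A : Set X)) := by
  have h := cent_pow_le hE hA _ (A ⊓ E) inf_le_left le_rfl
  have hEc : E ⊓ Subgroup.centralizer ((A ⊓ E : Subgroup X) : Set X) = E := by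
    rw [inf_eq_left]
    intro e he
    rw [Subgroup.mem_centralizer_iff]
    intro s hs
    exact ea_comm hE hs.2 he
  rw [hEc] at h
  have hdvd : Nat.card ↥(A ⊓ E) ∣ Nat.card ↥A := Subgroup.card_dvd_of_le inf_le_left
  have hpos : 0 < Nat.card ↥(A ⊓ E) := Nat.card_pos
  by_contra hcon
  push Not at hcon
  have h1 : 32 ^ Nat.card ↥(A ⊓ E) ≤ Nat.card ↥(A ⊓ E) ^ Nat.card ↥A :=
    calc 32 ^ Nat.card ↥(A ⊓ E) ≤ Nat.card ↥E ^ Nat.card ↥(A ⊓ E) := Nat.pow_le_pow_left hE32 _
      _ ≤ _ := h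
      _ ≤ _ := Nat.pow_le_pow_left hcon _
  generalize Nat.card ↥(A ⊓ E) = n at h1 hdvd hpos
  rcases hA8 with h8 | h8
  · rw [h8] at h1 hdvd
    have hn : n ≤ 4 := Nat.le_of_dvd (by norm_num) hdvd
    interval_cases n <;> revert h1 hdvd <;> decide
  · rw [h8] at h1 hdvd
    have hn : n ≤ 8 := Nat.le_of_dvd (by norm_num) hdvd
    interval_cases n <;> revert h1 hdvd <;> decide


end gen

/-- Let X be a finite 2-group having a normal elementary abelian subgroup of order at least 32. Then (a) for any two elementary abelian subgroups A, B of X of order 8 there is a chain A = A₁, A₂, …, Aₙ = B of elementary abelian subgroups of order 8 in which consecutive members commute elementwise; and (b) every elementary abelian subgroup of X of order 4 is contained in an elementary abelian subgroup of order 8. -/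
theorem result {X : Type*} [Group X] [Finite X]
    (hX : IsPGroup 2 X) (E : Subgroup X) [E.Normal] (hE : Cfsg.IsElementaryAbelian 2 E) (hE32 : 32 ≤ Nat.card ↥E) :
    (∀ A B : Subgroup X, Cfsg.IsElementaryAbelian 2 A → Nat.card ↥A = 8 → Cfsg.IsElementaryAbelian 2 B → Nat.card ↥B = 8 →
        Relation.ReflTransGen
          (fun C D : Subgroup X => Cfsg.IsElementaryAbelian 2 C ∧ Nat.card ↥C = 8 ∧ Cfsg.IsElementaryAbelian 2 D ∧ Nat.card ↥D = 8 ∧ ⁅C, D⁆ = ⊥)
          A B) ∧
      (∀ V : Subgroup X, Cfsg.IsElementaryAbelian 2 V → Nat.card ↥V = 4 →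
        ∃ A : Subgroup X, V ≤ A ∧ Cfsg.IsElementaryAbelian 2 A ∧ Nat.card ↥A = 8) := by
  have hE8 : 8 ≤ Nat.card ↥E := by omega
  -- the commuting centraliser
  have hcomm : ∀ A : Subgroup X, ∀ a ∈ A, ∀ d ∈ E ⊓ Subgroup.centralizer (A : Set X),
      a * d = d * a := by
    intro A a ha d hd
    exact (Subgroup.mem_centralizer_iff.mp hd.2) a ha
  have hpow : ∀ U : Subgroup X, ∃ n : ℕ, Nat.card ↥U = 2 ^ n := by
    intro U
    have : Fact (Nat.Prime 2) := ⟨Nat.prime_two⟩
    exact IsPGroup.exists_card_eq (hX.to_subgroup U)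
  refine ⟨?_, ?_⟩
  · -- (a)
    set R : Subgroup X → Subgroup X → Prop := fun C D : Subgroup X =>
      Cfsg.IsElementaryAbelian 2 C ∧ Nat.card ↥C = 8 ∧ Cfsg.IsElementaryAbelian 2 D ∧
        Nat.card ↥D = 8 ∧ ⁅C, D⁆ = ⊥ with hR
    have hsymm : ∀ C D : Subgroup X, R C D → R D C := by
      intro C D h
      exact ⟨h.2.2.1, h.2.2.2.1, h.1, h.2.1, by rw [Subgroup.commutator_comm]; exact h.2.2.2.2⟩
    have hrev : ∀ C D : Subgroup X, Relation.ReflTransGen R C D → Relation.ReflTransGen R D C := by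
      intro C D h
      induction h with
      | refl => exact Relation.ReflTransGen.refl
      | tail _ hbc ih => exact Relation.ReflTransGen.head (hsymm _ _ hbc) ih
    have hstep : ∀ (n : ℕ) (A : Subgroup X), Cfsg.IsElementaryAbelian 2 A → Nat.card ↥A = 8 →
        8 - Nat.card ↥(A ⊓ E) ≤ n →
        ∃ A' : Subgroup X, Cfsg.IsElementaryAbelian 2 A' ∧ Nat.card ↥A' = 8 ∧ A' ≤ E ∧
          Relation.ReflTransGen R A A' := by
      intro n
      induction n with
      | zero =>
        intro A hA hA8 hn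
        have hle : A ⊓ E ≤ A := inf_le_left
        have : A ⊓ E = A := Subgroup.eq_of_le_of_card_ge hle (by omega)
        exact ⟨A, hA, hA8, by rw [← this]; exact inf_le_right, Relation.ReflTransGen.refl⟩
      | succ n ih =>
        intro A hA hA8 hn
        by_cases hAE : A ≤ E
        · exact ⟨A, hA, hA8, hAE, Relation.ReflTransGen.refl⟩
        have hgt := cent_gt hE hE32 hA (Or.inr hA8)
        have hD : Cfsg.IsElementaryAbelian 2 (E ⊓ Subgroup.centralizer (A : Set X)) :=
          ea_mono hE inf_le_left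
        have hU : Cfsg.IsElementaryAbelian 2 (A ⊔ (E ⊓ Subgroup.centralizer (A : Set X))) :=
          ea_sup hA hD (hcomm A)
        have hAU : A ≤ A ⊔ (E ⊓ Subgroup.centralizer (A : Set X)) := le_sup_left
        have hDU : E ⊓ Subgroup.centralizer (A : Set X) ≤ A ⊔ (E ⊓ Subgroup.centralizer (A : Set X)) :=
          le_sup_right
        have hAElt : Nat.card ↥(A ⊓ E) < 8 := by
          by_contra hc
          have hle : A ⊓ E ≤ A := inf_le_left
          have : A ⊓ E = A := Subgroup.eq_of_le_of_card_ge hle (by omega)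
          exact hAE (by rw [← this]; exact inf_le_right)
        by_cases hD8 : 8 ≤ Nat.card ↥(E ⊓ Subgroup.centralizer (A : Set X))
        · obtain ⟨A', -, hA'D, hA'8⟩ := exists_eight hX (bot_le : (⊥ : Subgroup X) ≤ E ⊓ Subgroup.centralizer (A : Set X))
            (m := 0) (by simp) (by norm_num) hD8
          have hA' : Cfsg.IsElementaryAbelian 2 A' := ea_mono hD hA'D
          exact ⟨A', hA', hA'8, hA'D.trans inf_le_left,
            Relation.ReflTransGen.single ⟨hA, hA8, hA', hA'8, comm_bot_of_le hU hAU (hA'D.trans hDU)⟩⟩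
        · obtain ⟨m, hm⟩ := hpow (E ⊓ Subgroup.centralizer (A : Set X))
          have hm3 : m ≤ 3 := by
            by_contra hc
            have : (2 : ℕ) ^ 3 ≤ 2 ^ m := Nat.pow_le_pow_right (by norm_num) (by omega)
            omega
          have hU8 : 8 ≤ Nat.card ↥(A ⊔ (E ⊓ Subgroup.centralizer (A : Set X))) := by
            rw [← hA8]; exact Subgroup.card_le_of_le hAU
          obtain ⟨A', hDA', hA'U, hA'8⟩ := exists_eight hX hDU hm hm3 hU8
          have hA' : Cfsg.IsElementaryAbelian 2 A' := ea_mono hU hA'U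
          have hRA : R A A' := ⟨hA, hA8, hA', hA'8, comm_bot_of_le hU hAU hA'U⟩
          have hcard : Nat.card ↥(E ⊓ Subgroup.centralizer (A : Set X)) ≤ Nat.card ↥(A' ⊓ E) :=
            Subgroup.card_le_of_le (le_inf hDA' inf_le_left)
          obtain ⟨A'', hA'', hA''8, hA''E, hchain⟩ := ih A' hA' hA'8 (by omega)
          exact ⟨A'', hA'', hA''8, hA''E, Relation.ReflTransGen.head hRA hchain⟩
    intro A B hA hA8 hB hB8
    obtain ⟨A', hA', hA'8, hA'E, hAA'⟩ := hstep _ A hA hA8 le_rfl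
    obtain ⟨B', hB', hB'8, hB'E, hBB'⟩ := hstep _ B hB hB8 le_rfl
    have hB'B : Relation.ReflTransGen R B' B := hrev _ _ hBB'
    have hA'B' : R A' B' := ⟨hA', hA'8, hB', hB'8, comm_bot_of_le hE hA'E hB'E⟩
    exact hAA'.trans ((Relation.ReflTransGen.single hA'B').trans hB'B)
  · -- (b)
    intro V hV hV4
    have hgt := cent_gt hE hE32 hV (Or.inl hV4)
    have hD : Cfsg.IsElementaryAbelian 2 (E ⊓ Subgroup.centralizer (V : Set X)) :=
      ea_mono hE inf_le_left
    have hU : Cfsg.IsElementaryAbelian 2 (V ⊔ (E ⊓ Subgroup.centralizer (V : Set X))) :=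
      ea_sup hV hD (hcomm V)
    have hVU : V ≤ V ⊔ (E ⊓ Subgroup.centralizer (V : Set X)) := le_sup_left
    have hDU : E ⊓ Subgroup.centralizer (V : Set X) ≤ V ⊔ (E ⊓ Subgroup.centralizer (V : Set X)) :=
      le_sup_right
    have hne : Nat.card ↥(V ⊔ (E ⊓ Subgroup.centralizer (V : Set X))) ≠ 4 := by
      intro hc
      have hEq : V = V ⊔ (E ⊓ Subgroup.centralizer (V : Set X)) :=
        Subgroup.eq_of_le_of_card_ge hVU (by omega)
      have hDV : E ⊓ Subgroup.centralizer (V : Set X) ≤ V ⊓ E := by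
        exact le_inf (hDU.trans (le_of_eq hEq.symm)) inf_le_left
      have := Subgroup.card_le_of_le hDV
      omega
    have hge : 4 ≤ Nat.card ↥(V ⊔ (E ⊓ Subgroup.centralizer (V : Set X))) := by
      rw [← hV4]; exact Subgroup.card_le_of_le hVU
    obtain ⟨k, hk⟩ := hpow (V ⊔ (E ⊓ Subgroup.centralizer (V : Set X)))
    have hU8 : 8 ≤ Nat.card ↥(V ⊔ (E ⊓ Subgroup.centralizer (V : Set X))) := by
      rw [hk] at hne hge ⊢
      have hk3 : 3 ≤ k := by
        by_contra hc
        have hk2 : k ≤ 2 := by omega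
        interval_cases k <;> simp at hne hge
      calc 8 = 2 ^ 3 := by norm_num
        _ ≤ 2 ^ k := Nat.pow_le_pow_right (by norm_num) hk3
    obtain ⟨A, hVA, hAU, hA8⟩ := exists_eight hX hVU (m := 2) (by rw [hV4]; norm_num) (by norm_num) hU8
    exact ⟨A, hVA, ea_mono hU hAU, hA8⟩

end Cfsg.Agent.S1785
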