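import Cfsg.Statements.S1850
import Cfsg.Agent.Helper13.Char2

set_option autoImplicit false
open Cfsg

open Cfsg.Agent.Helper10 Cfsg.Agent.Helper13
namespace Cfsg.Agent.S1850

/-- Let G be a non-abelian finite simple QTKE-group and T a Sylow 2-subgroup of G. If U is a nontrivial 2-subgroup of G with U ∩ Z(T) ≠ 1, then F*(N_G(U)) = O₂(N_G(U)). -/
theorem result {G : Type*} [Group G] [Finite G] [IsSimpleGroup G]
    (hG : ¬ IsMulCommutative G) (hQ : Cfsg.IsQTKE G) (T : Sylow 2 G) (U : Subgroup G)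
    (hU : IsPGroup 2 ↥U) (hZ : U ⊓ ((T : Subgroup G) ⊓ Subgroup.centralizer ((T : Subgroup G) : Set G)) ≠ ⊥) :
    Subgroup.normalizer (U : Set G) ∈ Cfsg.calHe G := by
  haveI : Fact (Nat.Prime 2) := ⟨Nat.prime_two⟩
  obtain ⟨-, -, hE⟩ := hQ
  obtain ⟨z, hz, hz1⟩ : ∃ z ∈ U ⊓ ((T : Subgroup G)
      ⊓ Subgroup.centralizer ((T : Subgroup G) : Set G)), z ≠ 1 := by
    by_contra hcon
    push Not at hcon
    exact hZ ((Subgroup.eq_bot_iff_forall _).mpr hcon)
  obtain ⟨hzU, hzT⟩ := Subgroup.mem_inf.mp hz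
  obtain ⟨hzT, hzC⟩ := Subgroup.mem_inf.mp hzT
  obtain ⟨V, hVdef⟩ : ∃ V : Subgroup G, V = Subgroup.zpowers z := ⟨_, rfl⟩
  have hVU : V ≤ U := by rw [hVdef, Subgroup.zpowers_le]; exact hzU
  have hVT : V ≤ (T : Subgroup G) := by rw [hVdef, Subgroup.zpowers_le]; exact hzT
  have hV2 : IsPGroup 2 V := T.2.to_le hVT
  have hVne : V ≠ ⊥ := by
    intro h
    apply hz1
    have h1 : z ∈ V := by rw [hVdef]; exact Subgroup.mem_zpowers z
    rw [h] at h1
    exact Subgroup.mem_bot.mp h1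
  have hTM : (T : Subgroup G) ≤ Subgroup.normalizer (V : Set G) := by
    intro t ht
    apply Subgroup.centralizer_le_normalizer
    rw [Subgroup.mem_centralizer_iff]
    intro v hv
    have hv' : v ∈ Subgroup.zpowers z := by rw [← hVdef]; exact hv
    obtain ⟨k, rfl⟩ := Subgroup.mem_zpowers_iff.mp hv'
    have hc : Commute z t := ((Subgroup.mem_centralizer_iff.mp hzC) t ht).symm
    exact (hc.zpow_left k).eq
  have hM₀ : IsOfCharacteristicTwo ↥(Subgroup.normalizer (V : Set G)) :=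
    hE _ ⟨V, hV2, hVne, rfl⟩ ⟨T, hTM⟩
  have hF₀ : FStarP 2 ↥(Subgroup.normalizer (V : Set G)) := fstarP_of_char 2 hM₀
  have hF₁ : FStarP 2 ↥(Subgroup.centralizer (V : Set G)) :=
    fstarP_rel_centralizer 2 _ hF₀ V hV2 Subgroup.le_normalizer
      (Subgroup.centralizer_le_normalizer _)
  have hF₂ : FStarP 2 ↥(Subgroup.centralizer (U : Set G)) := by
    rw [fstarP_iff] at hF₁ ⊢
    exact gfitting_centralizer_pGroup U V hVU hU hF₁
  have hF₃ := fstarP_normalizer_of_centralizer 2 U hU hF₂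
  exact gfitting_eq_pCore_of_fstarP 2 hF₃

end Cfsg.Agent.S1850
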