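import Cfsg.Statements.S1957
import Cfsg.Agent.Helper13.Thompson
import Cfsg.Agent.Helper13.WellPlaced
import Cfsg.Agent.Helper13.AlpP
import Cfsg.Agent.Helper13.Syl
import Cfsg.Agent.Helper10.CopGen
import Cfsg.Agent.Helper17.Basic
import Cfsg.Agent.Lead.Quat

set_option autoImplicit false
open Cfsg

open Cfsg.Agent.Helper13 Cfsg.Agent.Helper17 Cfsg.Agent.Helper10
namespace Cfsg.Agent.S1957

/-- in a group of characteristic 2, a four-group normal in a Sylow 2-subgroup and containing a
central involution lies in `O_2` -/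
theorem le_pCore_of_central {H : Type*} [Group H] [Finite H]
    (hH : Subgroup.centralizer (pCore 2 H : Set H) ≤ pCore 2 H)
    (P' : Sylow 2 H) (U : Subgroup H) (hUP : U ≤ (P' : Subgroup H))
    (hUn : (P' : Subgroup H) ≤ Subgroup.normalizer (U : Set H)) (hU4 : Nat.card U = 4)
    (z : H) (hzU : z ∈ U) (hz1 : z ≠ 1) (hz2 : z * z = 1) (hzc : ∀ h : H, h * z = z * h) :
    U ≤ pCore 2 H := by
  haveI : Fact (Nat.Prime 2) := ⟨Nat.prime_two⟩
  obtain ⟨Q, hQdef⟩ : ∃ Q : Subgroup H, Q = pCore 2 H := ⟨_, rfl⟩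
  rw [← hQdef] at hH ⊢
  have hQn : Q.Normal := by rw [hQdef]; infer_instance
  have hQ2 : IsPGroup 2 Q := by rw [hQdef]; exact pCore_isPGroup 2 H
  have hQP : Q ≤ (P' : Subgroup H) := by rw [hQdef]; exact pCore_le_sylow P'
  by_contra hUQ
  obtain ⟨Z, hZdef⟩ : ∃ Z : Subgroup H, Z = Subgroup.zpowers z := ⟨_, rfl⟩
  have hZmem : ∀ ζ ∈ Z, (∀ h : H, h * ζ = ζ * h) ∧ ζ * ζ = 1 := by
    intro ζ hζ
    rw [hZdef] at hζ
    obtain ⟨k, rfl⟩ := Subgroup.mem_zpowers_iff.mp hζ
    refine ⟨fun h => ?_, ?_⟩
    · have hc : Commute h z := hzc h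
      exact (hc.zpow_right k).eq
    · rw [← (Commute.refl z).mul_zpow, hz2, one_zpow]
  have hZn : Z.Normal := by
    constructor
    intro ζ hζ h
    rw [(hZmem ζ hζ).1 h, mul_inv_cancel_right]
    exact hζ
  have hZ2 : IsPGroup 2 Z := by
    rintro ⟨ζ, hζ⟩
    refine ⟨1, Subtype.ext ?_⟩
    rw [Subgroup.coe_pow, Subgroup.coe_one, pow_one, pow_two]
    exact (hZmem ζ hζ).2
  have hZQ : Z ≤ Q := by rw [hQdef]; exact le_pCore hZn hZ2
  have hzZ : z ∈ Z := by rw [hZdef]; exact Subgroup.mem_zpowers z
  have hZU : Z ≤ U := by rw [hZdef, Subgroup.zpowers_le]; exact hzU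
  have hQU : Q ⊓ U = Z := by
    symm
    apply Subgroup.eq_of_le_of_card_ge (le_inf hZQ hZU)
    have hd : Nat.card (Q ⊓ U : Subgroup H) ∣ 4 := by
      rw [← hU4]; exact Subgroup.card_dvd_of_le inf_le_right
    have hne : Nat.card (Q ⊓ U : Subgroup H) ≠ 4 := by
      intro h
      apply hUQ
      have e : Q ⊓ U = U := Subgroup.eq_of_le_of_card_ge inf_le_right (by rw [h, hU4])
      rw [← e]; exact inf_le_left
    have hZc : 1 < Nat.card Z := by
      rw [Subgroup.one_lt_card_iff_ne_bot]
      intro h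
      rw [h] at hzZ
      exact hz1 (Subgroup.mem_bot.mp hzZ)
    have h4 : Nat.card (Q ⊓ U : Subgroup H) ≤ 4 := Nat.le_of_dvd (by norm_num) hd
    obtain ⟨m, hm⟩ := hd
    by_contra hc
    have h3 : Nat.card (Q ⊓ U : Subgroup H) = 3 := by omega
    rw [h3] at hm
    omega
  obtain ⟨D, hDdef⟩ : ∃ D : Subgroup H, D = (Subgroup.centralizer
      ((Q.map (QuotientGroup.mk' Z) : Subgroup (H ⧸ Z)) : Set (H ⧸ Z))).comap
        (QuotientGroup.mk' Z) := ⟨_, rfl⟩
  have hQmn : (Q.map (QuotientGroup.mk' Z)).Normal := hQn.map _ (QuotientGroup.mk'_surjective Z)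
  have hDn : D.Normal := by
    rw [hDdef]
    haveI := hQmn
    exact Subgroup.Normal.comap Subgroup.normal_centralizer _
  have hDmem : ∀ y ∈ D, ∀ q ∈ Q, (q * y)⁻¹ * (y * q) ∈ Z := by
    intro y hy q hq
    rw [hDdef, Subgroup.mem_comap, Subgroup.mem_centralizer_iff] at hy
    have h1 := hy (QuotientGroup.mk' Z q) ⟨q, hq, rfl⟩
    rw [← map_mul, ← map_mul] at h1
    exact QuotientGroup.eq.mp h1
  have hUD : U ≤ D := by
    intro u' hu'
    rw [hDdef, Subgroup.mem_comap, Subgroup.mem_centralizer_iff]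
    rintro _ ⟨q, hq, rfl⟩
    rw [← map_mul, ← map_mul]
    apply QuotientGroup.eq.mpr
    rw [← hQU]
    refine Subgroup.mem_inf.mpr ⟨?_, ?_⟩
    · have e : (q * u')⁻¹ * (u' * q) = (u'⁻¹ * q⁻¹ * u'⁻¹⁻¹) * q := by group
      rw [e]
      exact Q.mul_mem (hQn.conj_mem _ (Q.inv_mem hq) _) hq
    · have e : (q * u')⁻¹ * (u' * q) = u'⁻¹ * (q⁻¹ * u' * q⁻¹⁻¹) := by group
      rw [e]
      exact U.mul_mem (U.inv_mem hu')
        ((Subgroup.mem_normalizer_iff.mp (hUn (hQP (Q.inv_mem hq))) u').mp hu')
  have hD2 : IsPGroup 2 D := by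
    apply isPGroup_of_coprime_trivial
    intro y hy hodd
    have hyc : y ∈ Subgroup.centralizer (Q : Set H) := by
      rw [Subgroup.mem_centralizer_iff]
      intro q hq
      obtain ⟨ζ, hζdef⟩ : ∃ ζ : H, ζ = (q * y)⁻¹ * (y * q) := ⟨_, rfl⟩
      have hζZ : ζ ∈ Z := by rw [hζdef]; exact hDmem y hy q hq
      obtain ⟨hζc, hζ2⟩ := hZmem ζ hζZ
      have h1 : y * q = q * y * ζ := by rw [hζdef]; group
      have h2 : Commute (y ^ 2) q := by
        show y ^ 2 * q = q * y ^ 2
        calc y ^ 2 * q = y * (y * q) := by rw [pow_two, mul_assoc]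
          _ = y * (q * y * ζ) := by rw [h1]
          _ = (y * q) * y * ζ := by group
          _ = q * y * ζ * y * ζ := by rw [h1]
          _ = q * y * (ζ * y) * ζ := by group
          _ = q * y * (y * ζ) * ζ := by rw [← hζc y]
          _ = q * y ^ 2 * (ζ * ζ) := by rw [pow_two]; group
          _ = q * y ^ 2 := by rw [hζ2, mul_one]
      have hodd' : Odd (orderOf y) := Nat.coprime_two_right.mp hodd
      obtain ⟨k, hk⟩ := hodd'
      have h3 : y = (y ^ 2) ^ (k + 1) := by
        rw [← pow_mul]
        have e : 2 * (k + 1) = orderOf y + 1 := by omega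
        rw [e, pow_succ, pow_orderOf_eq_one, one_mul]
      have h4 : Commute y q := by rw [h3]; exact h2.pow_left _
      exact h4.eq.symm
    exact eq_one_of_isPGroup_of_coprime hQ2 (hH hyc) hodd
  have hDQ : D ≤ Q := by rw [hQdef]; exact le_pCore hDn hD2
  exact hUQ (hUD.trans hDQ)

/-- a subgroup of `O_2(N)` centralizes every odd-order subgroup of `N` that it normalizes -/
theorem centralizes_of_le_pCore {G : Type*} [Group G] [Finite G] (N U K₁ : Subgroup G)
    (hUN : U ≤ N) (hKN : K₁ ≤ N) (hU : U.subgroupOf N ≤ pCore 2 ↥N) (hK : Odd (Nat.card K₁))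
    (hUK : U ≤ Subgroup.normalizer (K₁ : Set G)) : K₁ ≤ Subgroup.centralizer (U : Set G) := by
  haveI : Fact (Nat.Prime 2) := ⟨Nat.prime_two⟩
  intro k hk
  rw [Subgroup.mem_centralizer_iff]
  intro u hu
  have h1 : u * k * u⁻¹ * k⁻¹ ∈ K₁ :=
    K₁.mul_mem ((Subgroup.mem_normalizer_iff.mp (hUK hu) k).mp hk) (K₁.inv_mem hk)
  have hu' : (⟨u, hUN hu⟩ : ↥N) ∈ pCore 2 ↥N := hU (Subgroup.mem_subgroupOf.mpr hu)
  have hn : (pCore 2 ↥N).Normal := inferInstance
  have h2 : (⟨u, hUN hu⟩ : ↥N) * ((⟨k, hKN hk⟩ : ↥N) * (⟨u, hUN hu⟩ : ↥N)⁻¹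
      * (⟨k, hKN hk⟩ : ↥N)⁻¹) ∈ pCore 2 ↥N :=
    Subgroup.mul_mem _ hu' (hn.conj_mem _ (Subgroup.inv_mem _ hu') _)
  obtain ⟨j, hj⟩ := exists_pow_of_isPGroup (pCore_isPGroup 2 ↥N) h2
  have h3 : (u * k * u⁻¹ * k⁻¹) ^ 2 ^ j = 1 := by
    have := congrArg Subtype.val hj
    simpa [mul_assoc] using this
  have h4 : (u * k * u⁻¹ * k⁻¹) ^ Nat.card K₁ = 1 := by
    have h := pow_card_eq_one' (G := ↥K₁) (x := ⟨_, h1⟩)
    have h' := congrArg Subtype.val h
    rw [Subgroup.coe_pow, Subgroup.coe_one] at h'
    exact h'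
  have h5 : u * k * u⁻¹ * k⁻¹ = 1 :=
    eq_one_of_pow_eq_one_of_coprime ⟨j, h3⟩ h4 (Nat.coprime_two_right.mpr hK)
  calc u * k = (u * k * u⁻¹ * k⁻¹) * k * u := by group
    _ = k * u := by rw [h5, one_mul]

theorem key_aux {G : Type*} [Group G] [Finite G]
    (h2 : ∀ T : Subgroup G, IsPGroup 2 T → T ≠ ⊥ →
      IsOfCharacteristicTwo ↥(Subgroup.normalizer (T : Set G)))
    (P : Sylow 2 G) (U : Subgroup G) (hUP : U ≤ (P : Subgroup G))
    (hUn : (P : Subgroup G) ≤ Subgroup.normalizer (U : Set G)) (hUc : Nat.card U = 4)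
    (hUexp : ∀ a ∈ U, a * a = 1) (hUcomm : ∀ a ∈ U, ∀ b ∈ U, a * b = b * a)
    (hUZ : ¬ IsCyclic ↥((P : Subgroup G) ⊓ Subgroup.centralizer ((P : Subgroup G) : Set G)) →
      U ≤ Subgroup.centralizer ((P : Subgroup G) : Set G))
    (K : Subgroup G) (hK : Odd (Nat.card K)) (hUK : U ≤ Subgroup.normalizer (K : Set G))
    (u : G) (hu : u ∈ U) (hu1 : u ≠ 1) :
    K ⊓ Subgroup.centralizer {u} ≤ Subgroup.centralizer (U : Set G) := by
  haveI : Fact (Nat.Prime 2) := ⟨Nat.prime_two⟩
  have hu2 : u * u = 1 := hUexp u hu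
  obtain ⟨N, hNdef⟩ : ∃ N : Subgroup G,
      N = Subgroup.normalizer ((Subgroup.zpowers u : Subgroup G) : Set G) := ⟨_, rfl⟩
  have hzp : ∀ v ∈ Subgroup.zpowers u, v = 1 ∨ v = u := by
    intro v hv
    obtain ⟨k, rfl⟩ := Subgroup.mem_zpowers_iff.mp hv
    rcases Int.even_or_odd k with ⟨m, rfl⟩ | ⟨m, rfl⟩
    · left; rw [← two_mul, zpow_mul, zpow_two, hu2, one_zpow]
    · right; rw [zpow_add, zpow_mul, zpow_two, hu2, one_zpow, one_mul, zpow_one]
  have hNc : ∀ n ∈ N, n * u = u * n := by
    intro n hn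
    rw [hNdef] at hn
    have h1 := (Subgroup.mem_normalizer_iff.mp hn u).mp (Subgroup.mem_zpowers u)
    rcases hzp _ h1 with h | h
    · exfalso; apply hu1
      have e : u = n⁻¹ * (n * u * n⁻¹) * n := by group
      rw [e, h]; group
    · calc n * u = (n * u * n⁻¹) * n := by group
        _ = u * n := by rw [h]
  have hcN : Subgroup.centralizer {u} ≤ N := by
    intro c hc
    rw [hNdef]
    apply Subgroup.centralizer_le_normalizer
    rw [Subgroup.mem_centralizer_iff]
    intro v hv
    rcases hzp v hv with rfl | rfl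
    · simp
    · exact (Subgroup.mem_centralizer_iff.mp hc) v rfl
  have hUN : U ≤ N := fun a ha => hcN (by
    rw [Subgroup.mem_centralizer_iff]
    intro v hv
    rw [Set.mem_singleton_iff] at hv
    subst hv
    exact hUcomm v hu a ha)
  have hNchar : IsOfCharacteristicTwo ↥N := by
    rw [hNdef]
    apply h2
    · exact isPGroup_zpowers_of_pow_eq_one u 1 (by rw [pow_one, pow_two]; exact hu2)
    · intro h
      apply hu1
      have h1 := Subgroup.mem_zpowers u
      rw [h] at h1
      exact Subgroup.mem_bot.mp h1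
  have hS : ∃ P₂ : Subgroup G, U ≤ P₂ ∧ P₂ ≤ N ∧ IsPGroup 2 P₂ ∧ ¬ 2 ∣ P₂.relIndex N ∧
      P₂ ≤ Subgroup.normalizer (U : Set G) := by
    by_cases huP : u ∈ Subgroup.centralizer ((P : Subgroup G) : Set G)
    · have hPN : (P : Subgroup G) ≤ N := by
        intro s hs
        apply hcN
        rw [Subgroup.mem_centralizer_iff]
        intro v hv
        rw [Set.mem_singleton_iff] at hv
        subst hv
        exact ((Subgroup.mem_centralizer_iff.mp huP) s hs).symm
      refine ⟨P, hUP, hPN, P.2, ?_, hUn⟩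
      intro hdvd
      apply P.not_dvd_index
      rw [← Subgroup.relIndex_mul_index hPN]
      exact Dvd.dvd.mul_right hdvd _
    · have hcyc : IsCyclic ↥((P : Subgroup G)
          ⊓ Subgroup.centralizer ((P : Subgroup G) : Set G)) := by
        by_contra h
        exact huP (hUZ h hu)
      obtain ⟨t, htP, htu⟩ : ∃ t ∈ (P : Subgroup G), t * u ≠ u * t := by
        by_contra hcon
        push Not at hcon
        exact huP (Subgroup.mem_centralizer_iff.mpr hcon)
      have hUPn : (U.subgroupOf (P : Subgroup G)).Normal :=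
        (Subgroup.normal_subgroupOf_iff_le_normalizer hUP).mpr hUn
      have hUPne : U.subgroupOf (P : Subgroup G) ≠ ⊥ := by
        intro h
        apply hu1
        have h1 : (⟨u, hUP hu⟩ : ↥(P : Subgroup G)) ∈ U.subgroupOf (P : Subgroup G) :=
          Subgroup.mem_subgroupOf.mpr hu
        rw [h] at h1
        exact congrArg Subtype.val (Subgroup.mem_bot.mp h1)
      obtain ⟨b, hbU, hb1, hbc⟩ := Cfsg.Agent.Lead.normal_inf_center_ne_bot' 2 P.2
        (U.subgroupOf (P : Subgroup G)) hUPne
      obtain ⟨z, hzdef⟩ : ∃ z : G, z = (b : G) := ⟨_, rfl⟩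
      have hzU : z ∈ U := by rw [hzdef]; exact Subgroup.mem_subgroupOf.mp hbU
      have hzP : z ∈ (P : Subgroup G) := hUP hzU
      have hz1 : z ≠ 1 := by
        rw [hzdef]; intro h; exact hb1 (Subtype.ext h)
      have hzc : ∀ s ∈ (P : Subgroup G), s * z = z * s := by
        intro s hs
        have h1 := Subgroup.mem_center_iff.mp hbc ⟨s, hs⟩
        rw [hzdef]
        exact congrArg Subtype.val h1
      have hz2 : z * z = 1 := hUexp z hzU
      have hzu : z ≠ u := by
        intro h
        rw [← h] at htu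
        exact htu (hzc t htP)
      -- the elements of U
      have hUel : ∀ a ∈ U, a = 1 ∨ a = z ∨ a = u ∨ a = z * u := by
        have hzp' : ∀ v ∈ Subgroup.zpowers z, v = 1 ∨ v = z := by
          intro v hv
          obtain ⟨k, rfl⟩ := Subgroup.mem_zpowers_iff.mp hv
          rcases Int.even_or_odd k with ⟨m, rfl⟩ | ⟨m, rfl⟩
          · left; rw [← two_mul, zpow_mul, zpow_two, hz2, one_zpow]
          · right; rw [zpow_add, zpow_mul, zpow_two, hz2, one_zpow, one_mul, zpow_one]
        have hZU : Subgroup.zpowers z ≤ U := by rw [Subgroup.zpowers_le]; exact hzU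
        have hZc : Nat.card (Subgroup.zpowers z) = 2 := by
          rw [Nat.card_zpowers]
          exact orderOf_eq_prime (by rw [pow_two]; exact hz2) hz1
        have hidx : ((Subgroup.zpowers z).subgroupOf U).index = 2 := by
          have h1 := Subgroup.card_mul_index ((Subgroup.zpowers z).subgroupOf U)
          rw [Nat.card_congr (Subgroup.subgroupOfEquivOfLe hZU).toEquiv, hZc, hUc] at h1
          omega
        intro a ha
        by_cases haZ : a ∈ Subgroup.zpowers z
        · rcases hzp' a haZ with h | h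
          · exact Or.inl h
          · exact Or.inr (Or.inl h)
        · have huZ : u ∉ Subgroup.zpowers z := by
            intro h
            rcases hzp' u h with h | h
            · exact hu1 h
            · exact hzu h.symm
          have h1 := Subgroup.mul_mem_iff_of_index_two hidx (a := (⟨a, ha⟩ : ↥U))
            (b := (⟨u, hu⟩ : ↥U))
          have h2 : a * u ∈ Subgroup.zpowers z := by
            have h3 : ((⟨a, ha⟩ : ↥U) * (⟨u, hu⟩ : ↥U)) ∈ (Subgroup.zpowers z).subgroupOf U := by
              rw [h1]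
              constructor
              · intro h; exact absurd (Subgroup.mem_subgroupOf.mp h) haZ
              · intro h; exact absurd (Subgroup.mem_subgroupOf.mp h) huZ
            exact Subgroup.mem_subgroupOf.mp h3
          have hu_inv : u⁻¹ = u := inv_eq_of_mul_eq_one_left hu2
          rcases hzp' _ h2 with h | h
          · right; right; left
            rw [← hu_inv]; exact eq_inv_of_mul_eq_one_left h
          · right; right; right
            calc a = (a * u) * u⁻¹ := by group
              _ = z * u := by rw [h, hu_inv]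
      have htu' : t * u * t⁻¹ = z * u := by
        have h1 : t * u * t⁻¹ ∈ U := (Subgroup.mem_normalizer_iff.mp (hUn htP) u).mp hu
        rcases hUel _ h1 with h | h | h | h
        · exfalso; apply hu1
          have e : u = t⁻¹ * (t * u * t⁻¹) * t := by group
          rw [e, h]; group
        · exfalso; apply hzu
          have e : u = t⁻¹ * (t * u * t⁻¹) * t := by group
          rw [e, h, hzc t⁻¹ (Subgroup.inv_mem _ htP)]; group
        · exfalso; apply htu
          calc t * u = (t * u * t⁻¹) * t := by group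
            _ = u * t := by rw [h]
        · exact h
      obtain ⟨P₀, hP₀def⟩ : ∃ P₀ : Subgroup G,
          P₀ = (P : Subgroup G) ⊓ Subgroup.centralizer {u} := ⟨_, rfl⟩
      have hP₀mem : ∀ s, s ∈ P₀ ↔ s ∈ (P : Subgroup G) ∧ s * u = u * s := by
        intro s
        rw [hP₀def, Subgroup.mem_inf, Subgroup.mem_centralizer_iff]
        constructor
        · rintro ⟨h1, h2⟩; exact ⟨h1, (h2 u rfl).symm⟩
        · rintro ⟨h1, h2⟩
          refine ⟨h1, fun v hv => ?_⟩
          rw [Set.mem_singleton_iff] at hv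
          subst hv
          exact h2.symm
      have hP₀P : P₀ ≤ (P : Subgroup G) := by rw [hP₀def]; exact inf_le_left
      have hP₀N : P₀ ≤ N := by rw [hP₀def]; exact inf_le_right.trans hcN
      have hP₀U : ∀ s ∈ P₀, ∀ a ∈ U, s * a = a * s := by
        intro s hs a ha
        obtain ⟨hsP, hsu⟩ := (hP₀mem s).mp hs
        rcases hUel a ha with h | h | h | h
        · rw [h]; simp
        · rw [h]; exact hzc s hsP
        · rw [h]; exact hsu
        · rw [h, ← mul_assoc, hzc s hsP, mul_assoc, hsu, ← mul_assoc]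
      have hUP₀ : U ≤ P₀ := fun a ha => (hP₀mem a).mpr ⟨hUP ha, hUcomm a ha u hu⟩
      have hcos : ∀ s ∈ (P : Subgroup G), s ∈ P₀ ∨ t⁻¹ * s ∈ P₀ := by
        intro s hs
        have h1 : s * u * s⁻¹ ∈ U := (Subgroup.mem_normalizer_iff.mp (hUn hs) u).mp hu
        rcases hUel _ h1 with h | h | h | h
        · exfalso; apply hu1
          have e : u = s⁻¹ * (s * u * s⁻¹) * s := by group
          rw [e, h]; group
        · exfalso; apply hzu
          have e : u = s⁻¹ * (s * u * s⁻¹) * s := by group
          rw [e, h, hzc s⁻¹ (Subgroup.inv_mem _ hs)]; group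
        · left
          refine (hP₀mem s).mpr ⟨hs, ?_⟩
          calc s * u = (s * u * s⁻¹) * s := by group
            _ = u * s := by rw [h]
        · right
          refine (hP₀mem _).mpr ⟨Subgroup.mul_mem _ (Subgroup.inv_mem _ htP) hs, ?_⟩
          have h3 : s * u * s⁻¹ = t * u * t⁻¹ := by rw [h, htu']
          calc t⁻¹ * s * u = t⁻¹ * (s * u * s⁻¹) * s := by group
            _ = t⁻¹ * (t * u * t⁻¹) * s := by rw [h3]
            _ = u * (t⁻¹ * s) := by group
      have hPP₀ : ∀ s ∈ (P : Subgroup G), ∀ y ∈ P₀, s * y * s⁻¹ ∈ P₀ := by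
        intro s hs y hy
        obtain ⟨hyP, hyu⟩ := (hP₀mem y).mp hy
        refine (hP₀mem _).mpr ⟨Subgroup.mul_mem _ (Subgroup.mul_mem _ hs hyP)
          (Subgroup.inv_mem _ hs), ?_⟩
        have h1 : s⁻¹ * u * s ∈ U := by
          have := (Subgroup.mem_normalizer_iff.mp (hUn (Subgroup.inv_mem _ hs)) u).mp hu
          simpa using this
        have h2' := hP₀U y hy _ h1
        calc s * y * s⁻¹ * u = s * (y * (s⁻¹ * u * s)) * s⁻¹ := by group
          _ = s * ((s⁻¹ * u * s) * y) * s⁻¹ := by rw [h2']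
          _ = u * (s * y * s⁻¹) := by group
      have ht2 : t * t ∈ P₀ := by
        refine (hP₀mem _).mpr ⟨Subgroup.mul_mem _ htP htP, ?_⟩
        have h1 : t * u = z * u * t := by
          calc t * u = (t * u * t⁻¹) * t := by group
            _ = z * u * t := by rw [htu']
        calc t * t * u = t * (t * u) := by group
          _ = t * (z * u * t) := by rw [h1]
          _ = (t * z) * u * t := by group
          _ = (z * t) * u * t := by rw [hzc t htP]
          _ = z * (t * u) * t := by group
          _ = z * (z * u * t) * t := by rw [h1]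
          _ = (z * z) * u * (t * t) := by group
          _ = u * (t * t) := by rw [hz2, one_mul]
      have hcentral : ∀ f ∈ P₀, (∀ y ∈ P₀, y * f = f * y) → t * f = f * t → f * f = 1 →
          f = 1 ∨ f = z := by
        intro f hf hfc hft hf2
        have hfP : ∀ s ∈ (P : Subgroup G), s * f = f * s := by
          intro s hs
          rcases hcos s hs with h | h
          · exact hfc s h
          · have h1 := hfc _ h
            calc s * f = t * (t⁻¹ * s * f) := by group
              _ = t * (f * (t⁻¹ * s)) := by rw [h1]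
              _ = (t * f) * (t⁻¹ * s) := by group
              _ = (f * t) * (t⁻¹ * s) := by rw [hft]
              _ = f * s := by group
        by_contra hcon
        push Not at hcon
        have hfZ : f ∈ (P : Subgroup G) ⊓ Subgroup.centralizer ((P : Subgroup G) : Set G) :=
          Subgroup.mem_inf.mpr ⟨hP₀P hf, Subgroup.mem_centralizer_iff.mpr hfP⟩
        have hzZ : z ∈ (P : Subgroup G) ⊓ Subgroup.centralizer ((P : Subgroup G) : Set G) :=
          Subgroup.mem_inf.mpr ⟨hzP, Subgroup.mem_centralizer_iff.mpr hzc⟩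
        haveI := hcyc
        have h1 := cyclic_involution_unique
          (A := ↥((P : Subgroup G) ⊓ Subgroup.centralizer ((P : Subgroup G) : Set G)))
          ⟨f, hfZ⟩ ⟨z, hzZ⟩ (fun h => hcon.1 (congrArg Subtype.val h))
          (fun h => hz1 (congrArg Subtype.val h))
          (Subtype.ext (by simp [pow_two, hf2])) (Subtype.ext (by simp [pow_two, hz2]))
        exact hcon.2 (congrArg Subtype.val h1)
      have hE : ∀ e ∈ P₀, (∀ y ∈ P₀, y * e = e * y) → e * e = 1 → e ∈ U := by
        intro e he hec he2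
        obtain ⟨e', he'def⟩ : ∃ e' : G, e' = t * e * t⁻¹ := ⟨_, rfl⟩
        have he'P₀ : e' ∈ P₀ := by rw [he'def]; exact hPP₀ t htP e he
        have he'c : ∀ y ∈ P₀, y * e' = e' * y := by
          intro y hy
          have h1 : t⁻¹ * y * t ∈ P₀ := by
            have := hPP₀ t⁻¹ (Subgroup.inv_mem _ htP) y hy
            simpa using this
          have h2' := hec _ h1
          rw [he'def]
          calc y * (t * e * t⁻¹) = t * ((t⁻¹ * y * t) * e) * t⁻¹ := by group
            _ = t * (e * (t⁻¹ * y * t)) * t⁻¹ := by rw [h2']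
            _ = t * e * t⁻¹ * y := by group
        have he'2 : e' * e' = 1 := by
          rw [he'def]
          calc t * e * t⁻¹ * (t * e * t⁻¹) = t * (e * e) * t⁻¹ := by group
            _ = 1 := by rw [he2]; group
        have hee' : e * e' = e' * e := he'c e he
        have hfc : ∀ y ∈ P₀, y * (e * e') = (e * e') * y := by
          intro y hy
          rw [← mul_assoc, hec y hy, mul_assoc, he'c y hy, ← mul_assoc]
        have hte' : t * e' * t⁻¹ = e := by
          have h1 := hec _ ht2
          rw [he'def]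
          calc t * (t * e * t⁻¹) * t⁻¹ = (t * t * e) * (t * t)⁻¹ := by group
            _ = (e * (t * t)) * (t * t)⁻¹ := by rw [h1]
            _ = e := by group
        have hft : t * (e * e') = (e * e') * t := by
          calc t * (e * e') = (t * e * t⁻¹) * (t * e' * t⁻¹) * t := by group
            _ = e' * e * t := by rw [← he'def, hte']
            _ = (e * e') * t := by rw [hee']
        have hf2 : (e * e') * (e * e') = 1 := by
          calc (e * e') * (e * e') = e * (e' * e) * e' := by group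
            _ = e * (e * e') * e' := by rw [hee']
            _ = (e * e) * (e' * e') := by group
            _ = 1 := by rw [he2, he'2, one_mul]
        have he_inv : e⁻¹ = e := inv_eq_of_mul_eq_one_left he2
        rcases hcentral (e * e') (Subgroup.mul_mem _ he he'P₀) hfc hft hf2 with h | h
        · have he'e : e' = e := by
            have h1 : e' = e⁻¹ := eq_inv_of_mul_eq_one_right h
            rw [h1, he_inv]
          have hte : t * e = e * t := by
            calc t * e = (t * e * t⁻¹) * t := by group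
              _ = e * t := by rw [← he'def, he'e]
          rcases hcentral e he hec hte he2 with h | h
          · rw [h]; exact U.one_mem
          · rw [h]; exact hzU
        · have he'e : e' = e * z := by
            calc e' = e⁻¹ * (e * e') := by group
              _ = e * z := by rw [h, he_inv]
          have huP₀ : u ∈ P₀ := hUP₀ hu
          have heu : e * u = u * e := (hec u huP₀).symm
          have h1 : ∀ y ∈ P₀, y * (e * u) = (e * u) * y := by
            intro y hy
            rw [← mul_assoc, hec y hy, mul_assoc, hP₀U y hy u hu, ← mul_assoc]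
          have h2' : t * (e * u) = (e * u) * t := by
            calc t * (e * u) = (t * e * t⁻¹) * (t * u * t⁻¹) * t := by group
              _ = (e * z) * (z * u) * t := by rw [← he'def, he'e, htu']
              _ = e * (z * z) * u * t := by group
              _ = (e * u) * t := by rw [hz2, mul_one]
          have h3 : (e * u) * (e * u) = 1 := by
            calc (e * u) * (e * u) = e * (u * e) * u := by group
              _ = e * (e * u) * u := by rw [heu]
              _ = (e * e) * (u * u) := by group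
              _ = 1 := by rw [he2, hu2, one_mul]
          have hu_inv : u⁻¹ = u := inv_eq_of_mul_eq_one_left hu2
          rcases hcentral (e * u) (Subgroup.mul_mem _ he huP₀) h1 h2' h3 with h | h
          · have e1 : e = u := by rw [← hu_inv]; exact eq_inv_of_mul_eq_one_left h
            rw [e1]; exact hu
          · have e1 : e = z * u := by
              calc e = (e * u) * u⁻¹ := by group
                _ = z * u := by rw [h, hu_inv]
            rw [e1]; exact U.mul_mem hzU hu
      obtain ⟨P₂, hP₀P₂, hP₂N, hP₂p, hP₂i⟩ := exists_sylow_ge_in N P₀ hP₀N (P.2.to_le hP₀P)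
      have hcardP : Nat.card (P : Subgroup G) = 2 * Nat.card P₀ := by
        have hidx : (P₀.subgroupOf (P : Subgroup G)).index = 2 := by
          rw [Subgroup.index_eq_two_iff']
          refine ⟨⟨t, htP⟩⁻¹, fun b => ?_⟩
          have hb := hcos (b : G) b.2
          have hexcl : ¬ ((b : G) ∈ P₀ ∧ t⁻¹ * (b : G) ∈ P₀) := by
            rintro ⟨h1, h2'⟩
            have h3 : t⁻¹ ∈ P₀ := by
              have := P₀.mul_mem h2' (P₀.inv_mem h1)
              simpa using this
            have h4 : t ∈ P₀ := by simpa using P₀.inv_mem h3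
            exact htu ((hP₀mem t).mp h4).2
          rcases hb with h | h
          · right
            exact ⟨Subgroup.mem_subgroupOf.mpr h, fun h' => hexcl ⟨h, Subgroup.mem_subgroupOf.mp h'⟩⟩
          · left
            exact ⟨Subgroup.mem_subgroupOf.mpr h, fun h' => hexcl ⟨Subgroup.mem_subgroupOf.mp h', h⟩⟩
        have h1 := Subgroup.card_mul_index (P₀.subgroupOf (P : Subgroup G))
        rw [Nat.card_congr (Subgroup.subgroupOfEquivOfLe hP₀P).toEquiv, hidx] at h1
        omega
      have hcardP₂ : Nat.card P₂ ≤ Nat.card (P : Subgroup G) := by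
        obtain ⟨S, hS⟩ := hP₂p.exists_le_sylow
        calc Nat.card P₂ ≤ Nat.card (S : Subgroup G) := Subgroup.card_le_of_le hS
          _ = Nat.card (P : Subgroup G) := sylow_card_eq P S
      have hP₂norm : P₂ ≤ Subgroup.normalizer (P₀ : Set G) := by
        have hrel : P₀.relIndex P₂ * Nat.card P₀ = Nat.card P₂ := by
          have h1 := Subgroup.index_mul_card (P₀.subgroupOf P₂)
          rw [Nat.card_congr (Subgroup.subgroupOfEquivOfLe hP₀P₂).toEquiv] at h1
          exact h1
        have hpos : 0 < Nat.card P₀ := Nat.card_pos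
        have hpos2 : 0 < Nat.card P₂ := Nat.card_pos
        have hle2 : P₀.relIndex P₂ ≤ 2 := by nlinarith
        have hne0 : P₀.relIndex P₂ ≠ 0 := by
          intro h; rw [h] at hrel; omega
        rcases (by omega : P₀.relIndex P₂ = 1 ∨ P₀.relIndex P₂ = 2) with h | h
        · exact (Subgroup.relIndex_eq_one.mp h).trans Subgroup.le_normalizer
        · have hn : (P₀.subgroupOf P₂).Normal := Subgroup.normal_of_index_eq_two h
          exact (Subgroup.normal_subgroupOf_iff_le_normalizer hP₀P₂).mp hn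
      refine ⟨P₂, hUP₀.trans hP₀P₂, hP₂N, hP₂p, hP₂i, ?_⟩
      intro x hx
      apply mem_normalizer_of_cj_le
      rintro _ ⟨a, ha, rfl⟩
      show x * a * x⁻¹ ∈ U
      have hxu : x * u = u * x := hNc x (hP₂N hx)
      have hxz : x * z * x⁻¹ ∈ U := by
        apply hE
        · exact (Subgroup.mem_normalizer_iff.mp (hP₂norm hx) z).mp (hUP₀ hzU)
        · intro y hy
          have h1 : x⁻¹ * y * x ∈ P₀ := by
            have := (Subgroup.mem_normalizer_iff.mp (Subgroup.inv_mem _ (hP₂norm hx)) y).mp hy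
            simpa using this
          have h2' := hP₀U _ h1 z hzU
          calc y * (x * z * x⁻¹) = x * ((x⁻¹ * y * x) * z) * x⁻¹ := by group
            _ = x * (z * (x⁻¹ * y * x)) * x⁻¹ := by rw [h2']
            _ = x * z * x⁻¹ * y := by group
        · calc x * z * x⁻¹ * (x * z * x⁻¹) = x * (z * z) * x⁻¹ := by group
            _ = 1 := by rw [hz2]; group
      have hxu' : x * u * x⁻¹ = u := by rw [hxu]; group
      rcases hUel a ha with h | h | h | h
      · rw [h]; simp
      · rw [h]; exact hxz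
      · rw [h, hxu']; exact hu
      · have e : x * (z * u) * x⁻¹ = (x * z * x⁻¹) * (x * u * x⁻¹) := by group
        rw [h, e, hxu']; exact U.mul_mem hxz hu
  obtain ⟨P₂, hUP₂, hP₂N, hP₂p, hP₂i, hP₂U⟩ := hS
  have hP₂' : IsPGroup 2 (P₂.subgroupOf N) := hP₂p.comap_subtype
  have hUQ : U.subgroupOf N ≤ pCore 2 ↥N := by
    refine le_pCore_of_central hNchar (hP₂'.toSylow hP₂i) (U.subgroupOf N) ?_ ?_ ?_
      ⟨u, hUN hu⟩ ?_ ?_ ?_ ?_
    · intro x hx
      exact Subgroup.mem_subgroupOf.mpr (hUP₂ (Subgroup.mem_subgroupOf.mp hx))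
    · intro x hx
      have hx' : (x : G) ∈ P₂ := Subgroup.mem_subgroupOf.mp hx
      rw [Subgroup.mem_normalizer_iff]
      intro y
      rw [Subgroup.mem_subgroupOf, Subgroup.mem_subgroupOf]
      exact Subgroup.mem_normalizer_iff.mp (hP₂U hx') (y : G)
    · rw [Nat.card_congr (Subgroup.subgroupOfEquivOfLe hUN).toEquiv]; exact hUc
    · exact Subgroup.mem_subgroupOf.mpr hu
    · intro h; exact hu1 (congrArg Subtype.val h)
    · exact Subtype.ext hu2
    · intro h; exact Subtype.ext (hNc h h.2)
  refine centralizes_of_le_pCore N U (K ⊓ Subgroup.centralizer {u}) hUN (inf_le_right.trans hcN)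
    hUQ ?_ ?_
  · have hd : Nat.card (K ⊓ Subgroup.centralizer {u} : Subgroup G) ∣ Nat.card K :=
      Subgroup.card_dvd_of_le inf_le_left
    exact Odd.of_dvd_nat hK hd
  · intro a ha
    rw [Subgroup.mem_normalizer_iff]
    intro k
    rw [Subgroup.mem_inf, Subgroup.mem_inf]
    have h1 := Subgroup.mem_normalizer_iff.mp (hUK ha) k
    have hau : a * u = u * a := hUcomm a ha u hu
    have h3 : a * k * a⁻¹ ∈ Subgroup.centralizer {u} ↔ k ∈ Subgroup.centralizer {u} := by
      rw [Subgroup.mem_centralizer_iff, Subgroup.mem_centralizer_iff]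
      constructor
      · intro h v hv
        rw [Set.mem_singleton_iff] at hv
        subst hv
        have h4 := h v rfl
        calc v * k = a⁻¹ * (a * v) * k := by group
          _ = a⁻¹ * (v * a) * k := by rw [hau]
          _ = a⁻¹ * (v * (a * k * a⁻¹)) * a := by group
          _ = a⁻¹ * ((a * k * a⁻¹) * v) * a := by rw [h4]
          _ = k * (a⁻¹ * (v * a)) := by group
          _ = k * (a⁻¹ * (a * v)) := by rw [hau]
          _ = k * v := by group
      · intro h v hv
        rw [Set.mem_singleton_iff] at hv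
        subst hv
        have h4 := h v rfl
        calc v * (a * k * a⁻¹) = (v * a) * k * a⁻¹ := by group
          _ = (a * v) * k * a⁻¹ := by rw [hau]
          _ = a * (v * k) * a⁻¹ := by group
          _ = a * (k * v) * a⁻¹ := by rw [h4]
          _ = a * k * (a⁻¹ * (a * v) * a⁻¹) := by group
          _ = a * k * (a⁻¹ * (v * a) * a⁻¹) := by rw [hau]
          _ = a * k * a⁻¹ * v := by group
    rw [h3, h1]

/-- Let `G` be a finite non-abelian simple group in which every local subgroup is solvable and which is of characteristic 2 type. Let `P` be a Sylow 2-subgroup of `G` and `U` a normal subgroup of `P` that is a four-group, with `U` central in `P` if the centre of `P` is not cyclic. Then `U` centralizes every subgroup of odd order of `G` that it normalizes. -/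
theorem result {G : Type*} [Group G] [Finite G]
    [IsSimpleGroup G] (hna : ¬ IsMulCommutative G) (hN : Cfsg.IsNGroup G) (h2 : Cfsg.IsCharacteristicTwoType G)
    (P : Sylow 2 G) (U : Subgroup G) (hUP : U ≤ (P : Subgroup G)) (hUn : (P : Subgroup G) ≤ Subgroup.normalizer (U : Set G))
    (hU4 : IsKleinFour ↥U)
    (hUZ : ¬ IsCyclic ↥((P : Subgroup G) ⊓ Subgroup.centralizer ((P : Subgroup G) : Set G)) →
      U ≤ Subgroup.centralizer ((P : Subgroup G) : Set G))
    (K : Subgroup G) (hK : Odd (Nat.card K)) (hUK : U ≤ Subgroup.normalizer (K : Set G)) :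
    U ≤ Subgroup.centralizer (K : Set G) := by
  haveI : Fact (Nat.Prime 2) := ⟨Nat.prime_two⟩
  obtain ⟨-, h2⟩ := h2
  have hUc : Nat.card U = 4 := hU4.card_four
  have hUexp : ∀ a ∈ U, a * a = 1 := by
    intro a ha
    have h := Monoid.pow_exponent_eq_one (⟨a, ha⟩ : ↥U)
    rw [hU4.exponent_two] at h
    have h' := congrArg Subtype.val h
    simpa [pow_two] using h'
  have hUcomm : ∀ a ∈ U, ∀ b ∈ U, a * b = b * a := by
    intro a ha b hb
    have ea : a⁻¹ = a := inv_eq_of_mul_eq_one_left (hUexp a ha)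
    have eb : b⁻¹ = b := inv_eq_of_mul_eq_one_left (hUexp b hb)
    have eab : (a * b)⁻¹ = a * b := inv_eq_of_mul_eq_one_left (hUexp (a * b) (U.mul_mem ha hb))
    calc a * b = (a * b)⁻¹ := eab.symm
      _ = b⁻¹ * a⁻¹ := mul_inv_rev a b
      _ = b * a := by rw [ea, eb]
  have hU2 : IsPGroup 2 U := P.2.to_le hUP
  have hK2 : ¬ 2 ∣ Nat.card K := by
    intro h
    have := Nat.odd_iff.mp hK
    omega
  have key := key_aux h2 P U hUP hUn hUc hUexp hUcomm hUZ K hK hUK
  -- two generators
  obtain ⟨a₁, ha₁, ha₁1⟩ : ∃ a ∈ U, a ≠ 1 := by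
    by_contra hcon
    push Not at hcon
    have : U = ⊥ := (Subgroup.eq_bot_iff_forall _).mpr hcon
    rw [this] at hUc
    simp at hUc
  obtain ⟨a₂, ha₂, ha₂n⟩ : ∃ a ∈ U, a ∉ Subgroup.zpowers a₁ := by
    by_contra hcon
    push Not at hcon
    have hle : U ≤ Subgroup.zpowers a₁ := hcon
    have h1 : Nat.card (Subgroup.zpowers a₁) = 2 := by
      rw [Nat.card_zpowers]
      exact orderOf_eq_prime (by rw [pow_two]; exact hUexp a₁ ha₁) ha₁1
    have h3 := Subgroup.card_le_of_le hle
    omega
  have ha₂1 : a₂ ≠ 1 := fun h => ha₂n (h ▸ Subgroup.one_mem _)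
  have ha₁₂ : a₁ ≠ a₂ := fun h => ha₂n (h ▸ Subgroup.mem_zpowers a₁)
  have hgen := rank_two_generation 2 U K hU2 hK2 hUK a₁ a₂ ha₁ ha₂ (hUcomm a₁ ha₁ a₂ ha₂)
    (by rw [pow_two]; exact hUexp a₁ ha₁) (by rw [pow_two]; exact hUexp a₂ ha₂)
  have hKU : K ≤ Subgroup.centralizer (U : Set G) := by
    refine hgen.trans (sup_le (key a₂ ha₂ ha₂1) (iSup_le fun i => ?_))
    apply key (a₁ * a₂ ^ i) (U.mul_mem ha₁ (U.pow_mem ha₂ i))
    intro h
    rcases Nat.even_or_odd i with ⟨m, rfl⟩ | ⟨m, rfl⟩
    · rw [← two_mul, pow_mul, pow_two, hUexp a₂ ha₂, one_pow, mul_one] at h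
      exact ha₁1 h
    · rw [pow_succ, pow_mul, pow_two, hUexp a₂ ha₂, one_pow, one_mul] at h
      have e : a₁ = a₂⁻¹ := eq_inv_of_mul_eq_one_left h
      rw [inv_eq_of_mul_eq_one_left (hUexp a₂ ha₂)] at e
      exact ha₁₂ e
  intro a ha
  rw [Subgroup.mem_centralizer_iff]
  intro k hk
  exact ((Subgroup.mem_centralizer_iff.mp (hKU hk)) a ha).symm

end Cfsg.Agent.S1957
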