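import Cfsg.Statements.S1958
import Cfsg.Agent.Helper13.Balance

set_option autoImplicit false
open Cfsg

namespace Cfsg.Agent.S1958

/-- Let `G` be a finite group, `p` a prime, and `x, y` commuting elements of order `p` whose centralizers `C_G(x)` and `C_G(y)` are both solvable. Then `O_{p'}(C_G(x)) ∩ C_G(y) = O_{p'}(C_G(y)) ∩ C_G(x)` (balance). -/
theorem result {G : Type*} [Group G] [Finite G]
    (p : ℕ) [Fact p.Prime] (x y : G) (hx : orderOf x = p) (hy : orderOf y = p) (hxy : x * y = y * x)
    (hCx : Group.IsSolvable ↥(Subgroup.centralizer ({x} : Set G))) (hCy : Group.IsSolvable ↥(Subgroup.centralizer ({y} : Set G))) :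
    Cfsg.centralizerPPrimeCore p x ⊓ Subgroup.centralizer {y} = Cfsg.centralizerPPrimeCore p y ⊓ Subgroup.centralizer {x} := by
  have hpx : IsPGroup p (Subgroup.zpowers x) := by
    apply IsPGroup.of_card (n := 1)
    rw [Nat.card_zpowers, hx, pow_one]
  have hpy : IsPGroup p (Subgroup.zpowers y) := by
    apply IsPGroup.of_card (n := 1)
    rw [Nat.card_zpowers, hy, pow_one]
  have h1 := Cfsg.Agent.Helper13.balance_le p x y hpx hxy
    (Cfsg.Agent.Helper13.layer_quot_eq_bot_of_solvable p)
  have h2 := Cfsg.Agent.Helper13.balance_le p y x hpy hxy.symm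
    (Cfsg.Agent.Helper13.layer_quot_eq_bot_of_solvable p)
  have hOx : Cfsg.centralizerPPrimeCore p x ≤ Subgroup.centralizer ({x} : Set G) :=
    Subgroup.map_subtype_le _
  have hOy : Cfsg.centralizerPPrimeCore p y ≤ Subgroup.centralizer ({y} : Set G) :=
    Subgroup.map_subtype_le _
  apply le_antisymm
  · exact le_inf h1 (inf_le_left.trans hOx)
  · exact le_inf h2 (inf_le_left.trans hOy)

end Cfsg.Agent.S1958
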