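import Cfsg.Statements.S1961
import Cfsg.Agent.Helper13.Fusion2

set_option autoImplicit false
open Cfsg

open Cfsg.Agent.Helper13 Cfsg.Agent.Helper17
namespace Cfsg.Agent.S1961

/-- Local-to-global control of strong fusion through well-placed subgroups. Let p be a prime, G a finite group with Sylow p-subgroup S, and W a conjugacy functor for p on G. If W controls strong fusion in N_G(T) for every nonidentity subgroup T of S that is well placed in S with respect to W, then W controls strong fusion in G. -/
theorem result {G : Type*} [Group G] [Finite G] {p : ℕ} [Fact p.Prime] (S : Sylow p G) (W : Subgroup G → Subgroup G) (hW : Cfsg.IsConjugacyFunctor p W) (hloc : ∀ T : Subgroup G, T ≠ ⊥ → Cfsg.IsWellPlaced p W (S : Subgroup G) T → Cfsg.ControlsStrongFusionIn p W (Subgroup.normalizer ((T : Subgroup G) : Set G))) : Cfsg.ControlsStrongFusionIn p W ⊤ := by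
  refine ⟨S, le_top, S.2, ?_, ?_⟩
  · rw [Subgroup.relIndex_top_right]; exact S.not_dvd_index
  · intro A h _ hA hAh
    obtain ⟨P, hPdef⟩ : ∃ P, P = Subgroup.closure A := ⟨_, rfl⟩
    have hAP : A ⊆ P := by rw [hPdef]; exact Subgroup.subset_closure
    have hP : P ≤ (S : Subgroup G) := by rw [hPdef]; exact (Subgroup.closure_le _).mpr hA
    have hPh : cj h P ≤ (S : Subgroup G) := by rw [hPdef]; exact cj_closure_le hAh
    by_cases hbot : P = ⊥
    · refine ⟨1, Subgroup.one_mem _, fun a ha => ?_⟩
      have : a ∈ P := hAP ha
      rw [hbot, Subgroup.mem_bot] at this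
      rw [this]; simp
    · have hgood : FGood (fun y => y ∈ Subgroup.normalizer ((W (S : Subgroup G) : Subgroup G) : Set G))
          (S : Subgroup G) P h := by
        have hdec := conjDec_of_sylow_family S {T : Subgroup G | IsWellPlaced p W (S : Subgroup G) T}
          (fun U hU => hU.1)
          (fun T hT => by
            obtain ⟨g, hg⟩ := exists_wellPlaced hW S T hT
            exact ⟨cj g T, hg, ⟨g, rfl⟩, hg.2 0⟩)
          (Nat.card (S : Subgroup G) - Nat.card P) P hP
          (by have := Subgroup.card_le_of_le hP; omega) h⁻¹ (by rw [rc_eq_cj, inv_inv]; exact hPh)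
        have hstep : ∀ T ∈ {T : Subgroup G | IsWellPlaced p W (S : Subgroup G) T},
            ∀ x ∈ Subgroup.normalizer (T : Set G), ∀ P' : Subgroup G, P' ≤ T →
            Nat.card P' = Nat.card P →
            FGood (fun y => y ∈ Subgroup.normalizer ((W (S : Subgroup G) : Subgroup G) : Set G))
              (S : Subgroup G) P' x := by
          intro T hT x hx P' hP' hcard
          have hTne : T ≠ ⊥ := by
            rintro rfl
            have h1 : P' = ⊥ := le_bot_iff.mp hP'
            rw [h1] at hcard
            apply hbot
            rw [← Subgroup.card_eq_one, ← hcard]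
            simp
          obtain ⟨x', hx', hag⟩ := ctl_of_wellPlaced S W hW hloc T hTne hT x hx P' hP'
          exact (FGood.single hx' (hP'.trans hT.1) (by
            rw [cj_eq_of_agree hag]
            exact ((cj_mono hP').trans (cj_eq_self_of_mem_normalizer hx).le).trans hT.1)).congr
              (fun b hb => (hag b hb).symm)
        have := conjDec_good (fun U hU => hU.1) (Nat.card P) hstep hdec rfl hP
        rwa [inv_inv] at this
      obtain ⟨g', hch, hag⟩ := hgood
      exact ⟨g', ⟨Subgroup.mem_top _, hch.mem_of_subgroup (fun y hy => hy)⟩, fun a ha => hag a (hAP ha)⟩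

end Cfsg.Agent.S1961
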