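import Cfsg.Statements.S1966
import Mathlib

set_option autoImplicit false
open Cfsg

namespace Cfsg.Agent.S1966

/-- Let p be a prime, G a finite group with Sylow p-subgroup S and 𝓕 a conjugation family for S in G. Then the members of 𝓕 containing O_p(G) still form a conjugation family for S in G. -/
theorem result {G : Type*} [Group G] [Finite G] {p : ℕ} [Fact p.Prime] (S : Sylow p G) (𝓕 : Set (Subgroup G)) (h : Cfsg.IsConjugationFamily 𝓕 (S : Subgroup G)) : Cfsg.IsConjugationFamily {T : Subgroup G | T ∈ 𝓕 ∧ Cfsg.pCore p G ≤ T} (S : Subgroup G) := by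
  obtain ⟨h1, h2⟩ := h
  have hcore : Cfsg.pCore p G ≤ (S : Subgroup G) := by
    apply sSup_le
    rintro N ⟨hNn, hNp⟩
    haveI := hNn
    exact hNp.le_sylow_of_normal S
  have hcn : (Cfsg.pCore p G).Normal := Subgroup.sSup_normal _ (fun _ h => h.1)
  have hnorm : ∀ y x : G, x ∈ Cfsg.pCore p G → y⁻¹ * x * y ∈ Cfsg.pCore p G := by
    intro y x hx
    have := hcn.conj_mem x hx y⁻¹
    rwa [inv_inv] at this
  refine ⟨fun T hT => h1 T hT.1, ?_⟩
  intro A g hA hAS hAg
  obtain ⟨n, T, x, hprod, hT, hx, h0, hstep⟩ := h2 (A ∪ (Cfsg.pCore p G : Set G)) g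
    (hA.mono Set.subset_union_left) (Set.union_subset hAS hcore) (by
      rintro _ ⟨a, ha | ha, rfl⟩
      · exact hAg ⟨a, ha, rfl⟩
      · exact hcore (hnorm g a ha))
  refine ⟨n, T, x, hprod, ?_, hx, fun h => Set.subset_union_left.trans (h0 h), fun i h => ?_⟩
  · intro i
    refine ⟨hT i, ?_⟩
    rcases i with ⟨i, hi⟩
    cases i with
    | zero => exact fun y hy => h0 hi (Or.inr hy)
    | succ j =>
      intro y hy
      have hy' : ((List.ofFn x).take (j + 1)).prod * y * (((List.ofFn x).take (j + 1)).prod)⁻¹ ∈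
          Cfsg.pCore p G := hcn.conj_mem y hy _
      have := hstep ⟨j, by omega⟩ hi ⟨_, Or.inr hy', rfl⟩
      have e : (((List.ofFn x).take (j + 1)).prod)⁻¹ *
          (((List.ofFn x).take (j + 1)).prod * y * (((List.ofFn x).take (j + 1)).prod)⁻¹) *
          ((List.ofFn x).take (j + 1)).prod = y := by group
      simp only [e] at this
      exact this
  · exact (Set.image_mono Set.subset_union_left).trans (hstep i h)

end Cfsg.Agent.S1966
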