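import Cfsg.Statements.S1967
import Cfsg.Agent.Helper13.PRes
import Cfsg.Agent.Helper13.Syl

set_option autoImplicit false
open Cfsg

namespace Cfsg.Agent.S1967

/-- Let p be a prime, G a finite group with Sylow p-subgroup S and W a conjugacy functor for p on G. Then W controls strong fusion in G if and only if, whenever T ≤ S and g ∈ G satisfy gTg⁻¹ ≤ S, one can write g = n c with n ∈ N_G(W(S)) and c ∈ C_G(T). -/
theorem result {G : Type*} [Group G] [Finite G] {p : ℕ} [Fact p.Prime] (S : Sylow p G) (W : Subgroup G → Subgroup G) (hW : Cfsg.IsConjugacyFunctor p W) : Cfsg.ControlsStrongFusionIn p W ⊤ ↔ ∀ (T : Subgroup G) (g : G), T ≤ (S : Subgroup G) → T.map (MulAut.conj g).toMonoidHom ≤ (S : Subgroup G) → ∃ n ∈ Subgroup.normalizer ((W (S : Subgroup G) : Subgroup G) : Set G), ∃ c ∈ Subgroup.centralizer (T : Set G), g = n * c := by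
  constructor
  · rintro ⟨T0, -, hT0p, hT0i, hT0⟩ T g hTS hgT
    have hidx : ¬ p ∣ T0.index := by rwa [Subgroup.relIndex_top_right] at hT0i
    let T0' : Sylow p G := hT0p.toSylow hidx
    obtain ⟨k, hk⟩ := MulAction.exists_smul_eq G T0' S
    have hS : ∀ x, x ∈ (S : Subgroup G) ↔ k⁻¹ * x * k ∈ T0 := by
      intro x
      rw [← hk]
      exact Cfsg.Agent.Helper13.mem_smul_sylow T0' k x
    have hSmap : (S : Subgroup G) = T0.map (MulAut.conj k).toMonoidHom := by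
      ext x
      rw [hS, Cfsg.Agent.Helper13.mem_map_conj]
    obtain ⟨x, hx, hxa⟩ := hT0 ((fun t => k⁻¹ * t * k) '' (T : Set G)) (k⁻¹ * g * k)
      (Subgroup.mem_top _) (by
        rintro _ ⟨t, ht, rfl⟩
        exact (hS t).mp (hTS ht)) (by
        rintro _ ⟨_, ⟨t, ht, rfl⟩, rfl⟩
        have h1 : g * t * g⁻¹ ∈ (S : Subgroup G) := by
          apply hgT
          rw [Cfsg.Agent.Helper13.mem_map_conj]
          have e : g⁻¹ * (g * t * g⁻¹) * g = t := by group
          rw [e]; exact ht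
        have h2 := (hS _).mp h1
        show k⁻¹ * g * k * (k⁻¹ * t * k) * (k⁻¹ * g * k)⁻¹ ∈ T0
        have e : k⁻¹ * g * k * (k⁻¹ * t * k) * (k⁻¹ * g * k)⁻¹ = k⁻¹ * (g * t * g⁻¹) * k := by group
        rw [e]; exact h2)
    have hxN : x ∈ Subgroup.normalizer ((W T0 : Subgroup G) : Set G) := (Subgroup.mem_inf.mp hx).2
    refine ⟨k * x * k⁻¹, ?_, (k * x * k⁻¹)⁻¹ * g, ?_, by group⟩
    · rw [hSmap, (hW T0 hT0p).2.2 k, Subgroup.mem_normalizer_iff'']
      intro y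
      rw [Cfsg.Agent.Helper13.mem_map_conj, Cfsg.Agent.Helper13.mem_map_conj]
      rw [Subgroup.mem_normalizer_iff''] at hxN
      rw [hxN (k⁻¹ * y * k)]
      have e : x⁻¹ * (k⁻¹ * y * k) * x = k⁻¹ * ((k * x * k⁻¹)⁻¹ * y * (k * x * k⁻¹)) * k := by group
      rw [e]
    · rw [Subgroup.mem_centralizer_iff]
      intro t ht
      have h1 := hxa (k⁻¹ * t * k) ⟨t, ht, rfl⟩
      have h2 : (k * x * k⁻¹) * t * (k * x * k⁻¹)⁻¹ = g * t * g⁻¹ := by
        calc (k * x * k⁻¹) * t * (k * x * k⁻¹)⁻¹ = k * (x * (k⁻¹ * t * k) * x⁻¹) * k⁻¹ := by group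
          _ = k * (k⁻¹ * g * k * (k⁻¹ * t * k) * (k⁻¹ * g * k)⁻¹) * k⁻¹ := by rw [h1]
          _ = g * t * g⁻¹ := by group
      calc t * ((k * x * k⁻¹)⁻¹ * g)
          = (k * x * k⁻¹)⁻¹ * ((k * x * k⁻¹) * t * (k * x * k⁻¹)⁻¹) * g := by group
        _ = (k * x * k⁻¹)⁻¹ * (g * t * g⁻¹) * g := by rw [h2]
        _ = (k * x * k⁻¹)⁻¹ * g * t := by group
  · intro H
    refine ⟨S, le_top, S.2, ?_, ?_⟩
    · rw [Subgroup.relIndex_top_right]; exact S.not_dvd_index
    · intro A h _ hAS hhA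
      obtain ⟨n, hn, c, hc, hnc⟩ := H (Subgroup.closure A) h ((Subgroup.closure_le _).mpr hAS) (by
        rw [MonoidHom.map_closure, Subgroup.closure_le]
        exact hhA)
      refine ⟨n, Subgroup.mem_inf.mpr ⟨Subgroup.mem_top _, hn⟩, fun a ha => ?_⟩
      have hca : a * c = c * a := (Subgroup.mem_centralizer_iff.mp hc) a (Subgroup.subset_closure ha)
      rw [hnc]
      calc n * a * n⁻¹ = n * (a * c) * c⁻¹ * n⁻¹ := by group
        _ = n * (c * a) * c⁻¹ * n⁻¹ := by rw [hca]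
        _ = n * c * a * (n * c)⁻¹ := by group

end Cfsg.Agent.S1967
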