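import Cfsg.Statements.S1968
import Cfsg.Agent.Helper13.Fusion4

set_option autoImplicit false
open Cfsg

open Cfsg.Agent.Helper13 Cfsg.Agent.Helper17
namespace Cfsg.Agent.S1968

/-- Let p be a prime, G a finite group with Sylow p-subgroup S and W a conjugacy functor for p on G with Z(P) ≤ W(P) for every p-subgroup P. Let A be a subgroup of Z(S) normalized by N_G(W(S)) that is not weakly closed in S with respect to G. Then there is a subgroup T of S, well placed in S with respect to W, such that: A ≤ T; N_G(W(N_S(T))) normalizes A; N_S(T) is a Sylow p-subgroup of N_G(T); A ≤ Z(N_S(T)); and A is not weakly closed in N_S(T) with respect to N_G(T), that is, some N_G(T)-conjugate of A other than A lies in N_S(T). -/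
theorem result {G : Type*} [Group G] [Finite G] {p : ℕ} [Fact p.Prime] (S : Sylow p G) (W : Subgroup G → Subgroup G) (hW : Cfsg.IsConjugacyFunctor p W) (hWZ : ∀ P : Subgroup G, IsPGroup p ↥P → P ⊓ Subgroup.centralizer (P : Set G) ≤ W P) (A : Subgroup G) (hAZ : A ≤ (S : Subgroup G) ⊓ Subgroup.centralizer ((S : Subgroup G) : Set G)) (hAN : Subgroup.normalizer ((W (S : Subgroup G) : Subgroup G) : Set G) ≤ Subgroup.normalizer ((A : Subgroup G) : Set G)) (hnwc : ¬ Cfsg.IsWeaklyClosed A (S : Subgroup G)) : ∃ T : Subgroup G, Cfsg.IsWellPlaced p W (S : Subgroup G) T ∧ A ≤ T ∧ Subgroup.normalizer ((W ((S : Subgroup G) ⊓ Subgroup.normalizer ((T : Subgroup G) : Set G)) : Subgroup G) : Set G) ≤ Subgroup.normalizer ((A : Subgroup G) : Set G) ∧ ¬ p ∣ ((S : Subgroup G) ⊓ Subgroup.normalizer ((T : Subgroup G) : Set G)).relIndex (Subgroup.normalizer ((T : Subgroup G) : Set G)) ∧ A ≤ Subgroup.centralizer (((S : Subgroup G) ⊓ Subgroup.normalizer ((T : Subgroup G) : Set G) : Subgroup G) : Set G) ∧ ∃ g ∈ Subgroup.normalizer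 ((T : Subgroup G) : Set G), A.map (MulAut.conj g).toMonoidHom ≤ (S : Subgroup G) ⊓ Subgroup.normalizer ((T : Subgroup G) : Set G) ∧ A.map (MulAut.conj g).toMonoidHom ≠ A := by
  have hAS : A ≤ (S : Subgroup G) := hAZ.trans inf_le_left
  have hAC : A ≤ Subgroup.centralizer ((S : Subgroup G) : Set G) := hAZ.trans inf_le_right
  have hex : ∃ g : G, cj g A ≤ (S : Subgroup G) ∧ cj g A ≠ A := by
    by_contra hcon
    push_neg at hcon
    exact hnwc ⟨hAS, hcon⟩
  obtain ⟨g, hgS, hgA⟩ := hex
  have hAne : A ≠ ⊥ := by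
    rintro rfl
    exact hgA (cj_bot g)
  have hdec := conjDec_of_sylow_family S {T : Subgroup G | IsWellPlaced p W (S : Subgroup G) T}
    (fun U hU => hU.1)
    (fun T hT => by
      obtain ⟨g, hg⟩ := exists_wellPlaced hW S T hT
      exact ⟨cj g T, hg, ⟨g, rfl⟩, hg.2 0⟩)
    (Nat.card (S : Subgroup G) - Nat.card A) A hAS
    (by have := Subgroup.card_le_of_le hAS; omega) g⁻¹ (by rw [rc_eq_cj, inv_inv]; exact hgS)
  obtain ⟨T, hT, hAT, x, hx, hxA⟩ := conjDec_exists_moving hdec (by rw [rc_eq_cj, inv_inv]; exact hgA)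
  have hT' : IsWellPlaced p W (S : Subgroup G) T := hT
  have hTne : T ≠ ⊥ := by
    rintro rfl
    exact hAne (le_bot_iff.mp hAT)
  have hATi : ∀ i, A ≤ functorTower W (S : Subgroup G) T i := by
    intro i
    induction i with
    | zero => exact hAT
    | succ i ih =>
      have hp : IsPGroup p ((S : Subgroup G) ⊓
          Subgroup.normalizer ((functorTower W (S : Subgroup G) T i : Subgroup G) : Set G) : Subgroup G) :=
        S.2.to_le inf_le_left
      refine le_trans (le_inf (hAT.trans (le_tower_normalizer hW S T S.2 hT'.1 i)) ?_) (hWZ _ hp)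
      exact hAC.trans (Subgroup.centralizer_le (fun y hy => (Subgroup.mem_inf.mp hy).1))
  have hP0 : ¬ (Subgroup.normalizer ((functorTower W (S : Subgroup G) T 0 : Subgroup G) : Set G) ≤
      Subgroup.normalizer ((A : Subgroup G) : Set G)) := by
    intro hle
    have h1 : x⁻¹ ∈ Subgroup.normalizer ((A : Subgroup G) : Set G) := hle (Subgroup.inv_mem _ hx)
    apply hxA
    rw [rc_eq_cj]
    exact cj_eq_self_of_mem_normalizer h1
  have hPtop : Subgroup.normalizer ((functorTower W (S : Subgroup G) T (Nat.card (S : Subgroup G) + 1) :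
      Subgroup G) : Set G) ≤ Subgroup.normalizer ((A : Subgroup G) : Set G) := by
    rw [functorTower_card_succ hW S T]; exact hAN
  have hexi : ∃ i, ¬ (Subgroup.normalizer ((functorTower W (S : Subgroup G) T i : Subgroup G) : Set G) ≤
      Subgroup.normalizer ((A : Subgroup G) : Set G)) ∧
      Subgroup.normalizer ((functorTower W (S : Subgroup G) T (i + 1) : Subgroup G) : Set G) ≤
      Subgroup.normalizer ((A : Subgroup G) : Set G) := by
    by_contra hcon
    push_neg at hcon
    have hall : ∀ i, ¬ (Subgroup.normalizer ((functorTower W (S : Subgroup G) T i : Subgroup G) : Set G) ≤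
        Subgroup.normalizer ((A : Subgroup G) : Set G)) := by
      intro i
      induction i with
      | zero => exact hP0
      | succ i ih => exact hcon i ih
    exact hall _ hPtop
  obtain ⟨i, hi1, hi2⟩ := hexi
  have hTiS := (tower_le_ne S hW T hTne hT'.1 i).1
  refine ⟨functorTower W (S : Subgroup G) T i, ⟨hTiS, fun j => ?_⟩, hATi i, hi2, hT'.2 i, ?_, ?_⟩
  · rw [functorTower_add]; exact hT'.2 (i + j)
  · exact hAC.trans (Subgroup.centralizer_le (fun y hy => (Subgroup.mem_inf.mp hy).1))
  · obtain ⟨g', hg'N, hg'A⟩ := SetLike.not_le_iff_exists.mp hi1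
    refine ⟨g', hg'N, ?_, ?_⟩
    · exact ((cj_mono (hATi i)).trans (cj_eq_self_of_mem_normalizer hg'N).le).trans
        (le_inf hTiS Subgroup.le_normalizer)
    · intro heq
      exact hg'A (mem_normalizer_of_cj_eq_self heq)

end Cfsg.Agent.S1968
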