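import Cfsg.Statements.S2007
import Cfsg.Agent.Helper13.PCompl

set_option autoImplicit false
open Cfsg

namespace Cfsg.Agent.S2007

/-- Let p be a prime, G a finite group with Sylow p-subgroup S, and T a normal subgroup of S containing C_S(T). If N_G(T)/C_G(T) is a p-group (every element of N_G(T) of order prime to p centralizes T), then N_G(T) has a normal p-complement. -/
theorem result {G : Type*} [Group G] [Finite G] {p : ℕ} [Fact p.Prime] (S : Sylow p G) (T : Subgroup G) (hTS : T ≤ (S : Subgroup G)) (hTn : (S : Subgroup G) ≤ Subgroup.normalizer ((T : Subgroup G) : Set G)) (hC : (S : Subgroup G) ⊓ Subgroup.centralizer ((T : Subgroup G) : Set G) ≤ T) (hN : ∀ g ∈ Subgroup.normalizer ((T : Subgroup G) : Set G), (orderOf g).Coprime p → g ∈ Subgroup.centralizer ((T : Subgroup G) : Set G)) : Cfsg.HasNormalPComplement p ↥(Subgroup.normalizer ((T : Subgroup G) : Set G)) := by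
  have hp := (Fact.out : p.Prime)
  have hCN : Subgroup.centralizer ((T : Subgroup G) : Set G) ≤ Subgroup.normalizer ((T : Subgroup G) : Set G) :=
    Subgroup.centralizer_le_normalizer _
  have hcen : ∀ R : Subgroup G, R ≤ Subgroup.centralizer ((T : Subgroup G) : Set G) → IsPGroup p R →
      R ≤ Subgroup.centralizer ((Subgroup.centralizer ((T : Subgroup G) : Set G) : Subgroup G) : Set G) := by
    intro R hR hRp
    obtain ⟨h, hh, hq⟩ := Cfsg.Agent.Helper13.exists_conj_le_sylow_in _ S hTn R (hR.trans hCN) hRp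
    intro q hqR
    rw [Subgroup.mem_centralizer_iff]
    intro c hc
    have h1 : h * q * h⁻¹ ∈ T :=
      hC (Subgroup.mem_inf.mpr ⟨hq q hqR, Cfsg.Agent.Helper13.conj_mem_centralizer T h q hh (hR hqR)⟩)
    have h2 : h * c * h⁻¹ ∈ Subgroup.centralizer ((T : Subgroup G) : Set G) :=
      Cfsg.Agent.Helper13.conj_mem_centralizer T h c hh hc
    have h3 := (Subgroup.mem_centralizer_iff.mp h2) _ h1
    calc c * q = h⁻¹ * ((h * c * h⁻¹) * (h * q * h⁻¹)) * h := by group
      _ = h⁻¹ * ((h * q * h⁻¹) * (h * c * h⁻¹)) * h := by rw [h3]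
      _ = q * c := by group
  obtain ⟨X, R, hXC, hRC, hRp, hXc, hXn, hXmax, hdec⟩ :=
    Cfsg.Agent.Helper13.central_sylow_compl _ hcen
  have hXnorm : ∀ n ∈ Subgroup.normalizer ((T : Subgroup G) : Set G), ∀ x ∈ X, n * x * n⁻¹ ∈ X := by
    intro n hn x hx
    have hle : X.map (MulAut.conj n).toMonoidHom ≤ X := by
      apply hXmax
      · rintro _ ⟨y, hy, rfl⟩
        exact Cfsg.Agent.Helper13.conj_mem_centralizer T n y hn (hXC hy)
      · rw [Subgroup.card_map_of_injective (MulAut.conj n).injective]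
        exact hXc
    exact hle ⟨x, hx, rfl⟩
  haveI hX'n : (X.subgroupOf (Subgroup.normalizer ((T : Subgroup G) : Set G))).Normal := by
    constructor
    intro x hx n
    rw [Subgroup.mem_subgroupOf] at hx ⊢
    exact hXnorm n n.2 x hx
  have hX'c : (Nat.card (X.subgroupOf (Subgroup.normalizer ((T : Subgroup G) : Set G)))).Coprime p := by
    rw [Nat.card_congr (Subgroup.subgroupOfEquivOfLe (hXC.trans hCN)).toEquiv]
    exact hXc
  apply Cfsg.Agent.Helper13.hasNormalPComplement_of_pPrime
    (X.subgroupOf (Subgroup.normalizer ((T : Subgroup G) : Set G))) hX'c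
  intro y hy
  rw [Subgroup.mem_subgroupOf]
  have hy' : (orderOf (y : G)).Coprime p := by
    rw [Subgroup.orderOf_coe]; exact hy
  have hyC := hN y y.2 hy'
  have hz : Subgroup.zpowers (y : G) ≤ X := by
    apply hXmax
    · rw [Subgroup.zpowers_le]; exact hyC
    · rw [Nat.card_zpowers]; exact hy'
  exact hz (Subgroup.mem_zpowers _)

end Cfsg.Agent.S2007
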