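import Cfsg.Statements.S2008
import Cfsg.Agent.Helper13.Klein

set_option autoImplicit false
open Cfsg

namespace Cfsg.Agent.S2008

/-- Let H be a finite group and z an involution such that every proper normal subgroup of H meets the centralizer of z trivially, and suppose z lies in a Klein four-subgroup E of H all three of whose involutions are conjugate to z in H. Then H has no non-trivial abelian normal subgroup. -/
theorem result {H : Type*} [Group H] [Finite H] (z : H) (hz : orderOf z = 2) (hN : ∀ N : Subgroup H, N.Normal → N ≠ ⊤ → N ⊓ Subgroup.centralizer ({z} : Set H) = ⊥) (E : Subgroup H) (hE : IsKleinFour ↥E) (hzE : z ∈ E) (hc : ∀ e ∈ E, e ≠ 1 → IsConj z e) (N : Subgroup H) [N.Normal] (hab : IsMulCommutative ↥N) : N = ⊥ := by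
  by_cases hNtop : N = ⊤
  · exfalso
    obtain ⟨e, heE, he1, hez⟩ := Cfsg.Agent.Helper13.klein_exists_third z E hE
    obtain ⟨c, hce⟩ := isConj_iff.mp (hc e heE he1)
    apply hez
    rw [← hce]
    have hcN : c ∈ N := hNtop ▸ Subgroup.mem_top c
    have hzN : z ∈ N := hNtop ▸ Subgroup.mem_top z
    have := hab.is_comm.comm ⟨c, hcN⟩ ⟨z, hzN⟩
    have h' : c * z = z * c := congrArg Subtype.val this
    rw [h']; group
  · exact Cfsg.Agent.Helper13.klein_core z hz hN E hE hzE hc N hNtop

end Cfsg.Agent.S2008
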