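import Cfsg.Statements.S2155
import Cfsg.Agent.Helper8.Rad2
import Cfsg.Agent.Helper10.EvenChar2
import Cfsg.Agent.S1027
-- import your own Cfsg.Agent.* helpers here

set_option autoImplicit false
open Cfsg

namespace Cfsg.Agent.S2155

open Cfsg.Lie Cfsg.Agent.Helper8

/-- In a Chevalley group of type G₂, B₂, D₄, F₄, E₆, E₇ or E₈ over a finite field of characteristic p (for types G₂ and B₂ the field is assumed to have at least 3 elements, so that the group is simple), the generalized Fitting subgroup of every proper standard parabolic subgroup P_J is a p-group (P_J is p-constrained with trivial largest normal subgroup of order prime to p). -/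
theorem result {F : Type*} [Field F] [Fintype F] (p : ℕ) [Fact p.Prime] [CharP F p] (D : Cfsg.Lie.ChevalleyDatum) (hD : D ∈ [Cfsg.Lie.chevG2, Cfsg.Lie.chevB2, Cfsg.Lie.chevD4, Cfsg.Lie.chevF4, Cfsg.Lie.chevE6, Cfsg.Lie.chevE7, Cfsg.Lie.chevE8]) (hq : (D = Cfsg.Lie.chevG2 ∨ D = Cfsg.Lie.chevB2) → 3 ≤ Fintype.card F) (J : Set ℕ) (hJ : ∃ i, i < D.rank ∧ i ∉ J) : IsPGroup p ↥(Cfsg.generalizedFittingSubgroup ↥(D.parabolicSubgroup F J)) := by
  classical
  obtain ⟨i0, hi0, hi0J⟩ := hJ
  have hU : IsPGroup p ↥(D.posUnipotent F) := by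
    obtain ⟨k, -, hk⟩ := FiniteField.card F p
    apply IsPGroup.of_card (n := (k : ℕ) * (D.nroots / 2))
    rw [Cfsg.Agent.S1027.result D hD, hk, pow_mul]
  have hPG : D.parabolicSubgroup F J ≤ D.group F := by
    rw [← normalizer_radical D hD J]
    exact inf_le_right
  have hRP : D.unipotentRadical F J ≤ D.parabolicSubgroup F J :=
    (radical_le_pos D J).trans ((pos_le_borel D).trans (borel_le_parabolic D J))
  haveI hTn : ((D.unipotentRadical F J).subgroupOf (D.parabolicSubgroup F J)).Normal :=
    (Subgroup.normal_subgroupOf_iff_le_normalizer hRP).mpr (parabolic_le_normalizer D hD J)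
  have hT : IsPGroup p ↥((D.unipotentRadical F J).subgroupOf (D.parabolicSubgroup F J)) :=
    (hU.to_le (radical_le_pos D J)).comap_subtype
  have hC : IsPGroup p ↥(Subgroup.centralizer
      (((D.unipotentRadical F J).subgroupOf (D.parabolicSubgroup F J) :
        Subgroup ↥(D.parabolicSubgroup F J)) : Set ↥(D.parabolicSubgroup F J))) := by
    intro x
    have hxU : (x.1.1 : GL D.Idx F) ∈ D.posUnipotent F := by
      apply cen_radical_pos D hD J i0 hi0 hi0J _ (hPG x.1.2)
      intro r hr hlv
      have hmem : xGL D hD F r hr.1 1 ∈ D.unipotentRadical F J := xGL_mem_radical_of_lv D hD J r hr.1 hlv 1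
      have h1 := Subgroup.mem_centralizer_iff.mp x.2 ⟨xGL D hD F r hr.1 1, hRP hmem⟩
        (Subgroup.mem_subgroupOf.mpr hmem)
      exact (congrArg Subtype.val h1).symm
    obtain ⟨k, hk⟩ := hU ⟨x.1.1, hxU⟩
    refine ⟨k, ?_⟩
    apply Subtype.ext
    apply Subtype.ext
    have := congrArg Subtype.val hk
    simpa using this
  have hF := (Cfsg.Agent.Helper10.fstarP_iff p).mpr (hC.to_subgroup (generalizedFittingSubgroup _))
  exact (Cfsg.Agent.Helper10.fstarP_iff p).mp
    (Cfsg.Agent.Helper10.fstarP_of_centralizer_normal_pGroup p _ hT hF)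

end Cfsg.Agent.S2155
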