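import Cfsg.Statements.S2157

set_option autoImplicit false
open Cfsg

namespace Cfsg.Agent.S2157
open Cfsg.Lie

/-- consistency of one chain list with the `chainRoot` table -/
def chkChain (D : ChevalleyDatum) (r : ℕ) : ℕ → List (ℕ × ℤ) → Bool
  | _, [] => true
  | prev, q :: rest =>
    decide (prev < D.nroots) && (decide (D.chainRoot r prev 1 = some q.1) && chkChain D r q.1 rest)

def chkRoot (D : ChevalleyDatum) (r : ℕ) : Bool :=
  (D.chain.getD r #[]).toList.all fun e => chkChain D r e.1 e.2.toList

def chk (D : ChevalleyDatum) : Bool :=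
  (List.range D.nroots).all fun r => chkRoot D r

theorem chkChain_spec {F : Type*} [Field F] (D : ChevalleyDatum) (χ : ℕ → Fˣ)
    (hχ : D.IsRootCharacter χ) (r : ℕ) (hr : r < D.nroots) :
    ∀ (l : List (ℕ × ℤ)) (prev : ℕ), chkChain D r prev l = true →
      ∀ (j : ℕ) (q : ℕ × ℤ), l[j]? = some q → χ q.1 = χ r ^ (j + 1) * χ prev := by
  intro l
  induction l with
  | nil => intro prev _ j q h; simp at h
  | cons q0 rest ih =>
    intro prev h j q hq
    simp only [chkChain, Bool.and_eq_true, decide_eq_true_eq] at h
    obtain ⟨h1, h2, h3⟩ := h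
    have e0 : χ q0.1 = χ r * χ prev := hχ.2 r prev q0.1 hr h1 h2
    cases j with
    | zero =>
      simp at hq
      subst hq
      rw [e0]; simp
    | succ j =>
      simp at hq
      rw [ih q0.1 h3 j q hq, e0, pow_succ (χ r) (j + 1), mul_assoc]

theorem coeff_spec {F : Type*} [Field F] (D : ChevalleyDatum) (hD : chk D = true) (χ : ℕ → Fˣ)
    (hχ : D.IsRootCharacter χ) (r : ℕ) (hr : r < D.nroots) (s u : ℕ) (km : ℕ × ℤ)
    (hkm : km ∈ D.chainCoeff r s u) : χ u = χ r ^ km.1 * χ s := by
  unfold ChevalleyDatum.chainCoeff at hkm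
  simp only [List.mem_flatMap, List.mem_filter, List.mem_map, decide_eq_true_eq] at hkm
  obtain ⟨e, ⟨he, hes⟩, q, ⟨hq, hqu⟩, rfl⟩ := hkm
  have hrow := (List.all_eq_true.mp (List.all_eq_true.mp hD r (List.mem_range.mpr hr))) e he
  rw [List.mem_zipIdx_iff_getElem?] at hq
  have := chkChain_spec D χ hχ r hr e.2.toList e.1 hrow q.2 q.1 hq
  rw [← hqu, ← hes]
  exact this

theorem main {F : Type*} [Field F] (D : ChevalleyDatum) (hD : chk D = true) (χ : ℕ → Fˣ)
    (hχ : D.IsRootCharacter χ) (r : ℕ) (hr : r < D.nroots) (t : F) :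
    D.charDiag F χ * D.x F r t * D.charDiag F (fun s => (χ s)⁻¹) = D.x F r ((χ r : F) * t) := by
  unfold ChevalleyDatum.charDiag ChevalleyDatum.x
  rw [dif_pos hr, dif_pos hr]
  ext row col
  rw [Matrix.mul_diagonal, Matrix.diagonal_mul]
  unfold ChevalleyDatum.xMat
  simp only [Matrix.of_apply]
  rcases col with i | s
  · rcases row with i' | u
    · simp
    · simp only [Sum.elim_inr, Sum.elim_inl]
      by_cases hu : u = ⟨r, hr⟩
      · subst hu; simp; ring
      · simp [hu]
  · by_cases hs : s = ⟨r, hr⟩
    · subst hs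
      rcases row with i' | u
      · simp
      · by_cases hu : u = ⟨r, hr⟩
        · subst hu; simp
        · simp [hu]
    · simp only [if_neg hs]
      by_cases hs' : s.val = D.negIdx.getD r 0
      · simp only [if_pos hs']
        have hneg : χ s.val = (χ r)⁻¹ := by rw [hs']; exact hχ.1 r hr
        rcases row with i' | u
        · simp [hneg]; ring
        · by_cases hu : u = s
          · subst hu; simp
          · by_cases hu' : u = ⟨r, hr⟩
            · subst hu'; simp [hu, hneg]; ring
            · simp [hu, hu']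
      · simp only [if_neg hs']
        rcases row with i' | u
        · simp
        · simp only [Sum.elim_inr]
          rw [mul_add, add_mul]
          congr 1
          · by_cases hu : u = s
            · subst hu; simp
            · simp [hu]
          · rw [← List.sum_map_mul_left, ← List.sum_map_mul_right]
            congr 1
            apply List.map_congr_left
            intro km hkm
            have h1 := coeff_spec D hD χ hχ r hr s.val u.val km hkm
            have h2 : (χ u.val : F) = (χ r : F) ^ km.1 * (χ s.val : F) := by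
              rw [h1]; simp
            have h3 : (χ s.val : F) ≠ 0 := Units.ne_zero _
            rw [h2, Units.val_inv_eq_inv_val]
            field_simp
            ring

set_option maxRecDepth 100000 in
theorem chk_G2 : chk chevG2 = true := by decide +kernel

set_option maxRecDepth 100000 in
theorem chk_B2 : chk chevB2 = true := by decide +kernel

set_option maxRecDepth 100000 in
theorem chk_D4 : chk chevD4 = true := by decide +kernel

set_option maxRecDepth 100000 in
theorem chk_F4 : chk chevF4 = true := by decide +kernel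

set_option maxRecDepth 100000 in
theorem chk_E6 : chk chevE6 = true := by decide +kernel

set_option maxRecDepth 100000 in
theorem chk_E7 : chk chevE7 = true := by decide +kernel

set_option maxRecDepth 100000 in
theorem chk_E8 : chk chevE8 = true := by decide +kernel

theorem chk_all (D : ChevalleyDatum)
    (hD : D ∈ [Cfsg.Lie.chevG2, Cfsg.Lie.chevB2, Cfsg.Lie.chevD4, Cfsg.Lie.chevF4, Cfsg.Lie.chevE6, Cfsg.Lie.chevE7, Cfsg.Lie.chevE8]) :
    chk D = true := by
  simp only [List.mem_cons, List.mem_nil_iff, or_false] at hD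
  rcases hD with rfl | rfl | rfl | rfl | rfl | rfl | rfl
  · exact chk_G2
  · exact chk_B2
  · exact chk_D4
  · exact chk_F4
  · exact chk_E6
  · exact chk_E7
  · exact chk_E8

/-- In a Chevalley group of type G₂, B₂, D₄, F₄, E₆, E₇ or E₈, for every character `χ` of the root lattice with values in `Fˣ` the diagonal matrix `ĥ(χ)` (identity on the coroot coordinates, `χ(s)` on the coordinate of `e_s`) conjugates each root element `x_r(t)` to `x_r(χ(r) t)`: `ĥ(χ) x_r(t) ĥ(χ)⁻¹ = x_r(χ(r) t)` as matrices, with `ĥ(χ)⁻¹` written as `ĥ(χ⁻¹)`. -/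
theorem result {F : Type*} [Field F] (D : Cfsg.Lie.ChevalleyDatum) (hD : D ∈ [Cfsg.Lie.chevG2, Cfsg.Lie.chevB2, Cfsg.Lie.chevD4, Cfsg.Lie.chevF4, Cfsg.Lie.chevE6, Cfsg.Lie.chevE7, Cfsg.Lie.chevE8]) (χ : ℕ → Fˣ) (hχ : D.IsRootCharacter χ) (r : ℕ) (hr : r < D.nroots) (t : F) :
    D.charDiag F χ * D.x F r t * D.charDiag F (fun s => (χ s)⁻¹) = D.x F r ((χ r : F) * t) :=
  main D (chk_all D hD) χ hχ r hr t

end Cfsg.Agent.S2157
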