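import Mathlib
import Cfsg.Statements.S2160
import Cfsg.Agent.Helper14.ChevGen

set_option autoImplicit false
open Cfsg

namespace Cfsg.Agent.S2160

open Cfsg.Lie Cfsg.Agent.Helper14 Cfsg.Agent.Helper14.ChevGen


/-- In a Chevalley group of type G₂, B₂, D₄, F₄, E₆, E₇ or E₈ over a finite field, every field automorphism commutes with every graph automorphism. -/
theorem result {F : Type*} [Field F] [Finite F] (D : Cfsg.Lie.ChevalleyDatum) (hD : D ∈ [Cfsg.Lie.chevG2, Cfsg.Lie.chevB2, Cfsg.Lie.chevD4, Cfsg.Lie.chevF4, Cfsg.Lie.chevE6, Cfsg.Lie.chevE7, Cfsg.Lie.chevE8]) (f g : ↥(D.group F) ≃* ↥(D.group F))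
    (hf : D.IsFieldAut f) (hg : D.IsGraphAut g) (y : ↥(D.group F)) : f (g y) = g (f y) := by
  obtain ⟨σ, hσ⟩ := hf
  obtain ⟨π, -, hπ⟩ := hg
  have key := hom_ext_of_closure (D.group F) (simpleGens D F) (group_eq_closure D hD)
    (f.toMonoidHom.comp g.toMonoidHom) (g.toMonoidHom.comp f.toMonoidHom) (by
      rintro y ⟨i, hi, t, h | h⟩
      · change f (g y) = g (f y)
        apply Subtype.ext
        apply Units.ext
        have h1 := (hπ y ⟨i, hi⟩ t).1 h
        have h2 := hσ (g y) _ _ (simple_lt D hD _ (π ⟨i, hi⟩).2) h1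
        have h3 := hσ y _ _ (simple_lt D hD i hi) h
        have h4 := (hπ (f y) ⟨i, hi⟩ (σ t)).1 h3
        rw [h2, h4, map_pow]
      · change f (g y) = g (f y)
        apply Subtype.ext
        apply Units.ext
        have h1 := (hπ y ⟨i, hi⟩ t).2 h
        have h2 := hσ (g y) _ _ (neg_simple_lt D hD _ (π ⟨i, hi⟩).2) h1
        have h3 := hσ y _ _ (neg_simple_lt D hD i hi) h
        have h4 := (hπ (f y) ⟨i, hi⟩ (σ t)).2 h3
        rw [h2, h4, map_pow])
  exact DFunLike.congr_fun key y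

end Cfsg.Agent.S2160
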