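import Mathlib
import Cfsg.Statements.S2161
import Cfsg.Agent.Helper14.ChevGen
import Cfsg.Agent.Helper14.ChevSym

set_option autoImplicit false
open Cfsg

namespace Cfsg.Agent.S2161


open Cfsg.Lie Cfsg.Agent.Helper14 Cfsg.Agent.Helper14.ChevGen
open scoped Matrix MatrixGroups

/-- root elements as elements of the Chevalley group -/
theorem exists_group_elt {F : Type*} [Field F] (D : ChevalleyDatum)
    (hD : D ∈ [chevG2, chevB2, chevD4, chevF4, chevE6, chevE7, chevE8]) (r : ℕ)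
    (hr : r < D.nroots) (t : F) :
    ∃ g : ↥(D.group F), ((g : GL D.Idx F) : Matrix D.Idx D.Idx F) = D.x F r t := by
  obtain ⟨g, hg⟩ := exists_gl D hD r t
  refine ⟨⟨g, ?_⟩, hg⟩
  apply Subgroup.subset_closure
  refine ⟨⟨r, hr⟩, t, ?_⟩
  rw [hg]
  unfold ChevalleyDatum.x
  rw [dif_pos hr]


/-- For the Chevalley groups of types D₄ and E₆ (one root length) over any field: if `π` is a symmetry of the Dynkin diagram and `φ` is an automorphism sending `x_{p_i}(t)` to `x_{p_{π i}}(t)` and `x_{-p_i}(t)` to `x_{-p_{π i}}(t)` for every fundamental root `p_i`, then for every root `r` there is a sign `ε = ±1` with `φ(x_r(t)) = x_{π·r}(ε t)` for all `t`, where `π·r` is the root whose coefficients are those of `r` permuted by `π`. -/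
theorem result {F : Type*} [Field F] (D : Cfsg.Lie.ChevalleyDatum) (hD : D ∈ [Cfsg.Lie.chevD4, Cfsg.Lie.chevE6])
    (π : Equiv.Perm (Fin D.rank)) (hπ : D.IsDiagramSymmetry π) (φ : ↥(D.group F) ≃* ↥(D.group F))
    (hφ : ∀ (g : ↥(D.group F)) (i : Fin D.rank) (t : F),
      (((g : GL D.Idx F) : Matrix D.Idx D.Idx F) = D.x F (D.simple i) t →
        ((φ g : GL D.Idx F) : Matrix D.Idx D.Idx F) = D.x F (D.simple (π i)) t) ∧
      (((g : GL D.Idx F) : Matrix D.Idx D.Idx F) = D.x F (D.neg (D.simple i)) t →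
        ((φ g : GL D.Idx F) : Matrix D.Idx D.Idx F) = D.x F (D.neg (D.simple (π i))) t))
    (r : ℕ) (hr : r < D.nroots) :
    ∃ ε : F, (ε = 1 ∨ ε = -1) ∧ ∀ (g : ↥(D.group F)) (t : F),
      ((g : GL D.Idx F) : Matrix D.Idx D.Idx F) = D.x F r t →
        ((φ g : GL D.Idx F) : Matrix D.Idx D.Idx F) = D.x F (D.permRoot π r) (ε * t) := by
  have hD7 : D ∈ [chevG2, chevB2, chevD4, chevF4, chevE6, chevE7, chevE8] := by
    simp only [List.mem_cons, List.mem_nil_iff, or_false] at hD ⊢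
    rcases hD with rfl | rfl
    · right; right; left; rfl
    · right; right; right; right; left; rfl
  obtain ⟨hC1, hC2⟩ := Cfsg.Agent.Helper14.ChevSym.sym_facts_all D hD π hπ
  revert r
  apply reach_induction D hD7 (P := fun r => ∃ ε : F, (ε = 1 ∨ ε = -1) ∧
    ∀ (g : ↥(D.group F)) (t : F),
      ((g : GL D.Idx F) : Matrix D.Idx D.Idx F) = D.x F r t →
        ((φ g : GL D.Idx F) : Matrix D.Idx D.Idx F) = D.x F (D.permRoot π r) (ε * t))
  · intro j hj
    refine ⟨1, Or.inl rfl, ?_⟩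
    intro g t hg
    have h1 := (hφ g ⟨j, hj⟩ t).1 hg
    have h2 := hC1 ⟨j, hj⟩
    rw [one_mul, h2]
    exact h1
  · rintro i hi s hs ⟨ε, hε, ih⟩
    obtain ⟨η, hη, hηeq⟩ := Cfsg.Agent.S1031.result (F := F) D hD7 i s hi hs
    have hπs := (hC2 s hs).1
    have hrefl := (hC2 s hs).2 ⟨i, hi⟩
    obtain ⟨η', hη', hη'eq⟩ := Cfsg.Agent.S1031.result (F := F) D hD7 (π ⟨i, hi⟩).val
      (D.permRoot π s) (π ⟨i, hi⟩).2 hπs
    refine ⟨(η' : F) * ε * (η : F), ?_, ?_⟩
    · rcases hη with rfl | rfl <;> rcases hη' with rfl | rfl <;> rcases hε with rfl | rfl <;> simp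
    · intro g t hg
      have hηη : (η : F) * (η : F) = 1 := by rcases hη with rfl | rfl <;> simp
      obtain ⟨A, hA⟩ := exists_group_elt D hD7 (D.simple i) (simple_lt D hD7 i hi) (1 : F)
      obtain ⟨B, hB⟩ := exists_group_elt D hD7 (D.neg (D.simple i)) (neg_simple_lt D hD7 i hi)
        (-(1 : F)⁻¹)
      obtain ⟨gs, hgs⟩ := exists_group_elt D hD7 s hs ((η : F) * t)
      obtain ⟨N, hNdef⟩ : ∃ N : ↥(D.group F), N = A * B * A := ⟨_, rfl⟩
      have hN : ((N : GL D.Idx F) : Matrix D.Idx D.Idx F) = D.nMat F (D.simple i) 1 := by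
        rw [hNdef, nMat_eq]
        simp only [Subgroup.coe_mul, Units.val_mul]
        rw [hA, hB]
      have hcomm : N * gs = g * N := by
        apply Subtype.ext
        apply Units.ext
        simp only [Subgroup.coe_mul, Units.val_mul]
        rw [hN, hgs, hg, hηeq, ← mul_assoc, hηη, one_mul]
      have hφA := (hφ A ⟨i, hi⟩ 1).1 hA
      have hφB := (hφ B ⟨i, hi⟩ (-(1 : F)⁻¹)).2 hB
      have hφN : ((φ N : GL D.Idx F) : Matrix D.Idx D.Idx F)
          = D.nMat F (D.simple (π ⟨i, hi⟩)) 1 := by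
        rw [hNdef, map_mul, map_mul, nMat_eq]
        simp only [Subgroup.coe_mul, Units.val_mul]
        rw [hφA, hφB]
      have hφgs := ih gs _ hgs
      have hφcomm := congrArg
        (fun z : ↥(D.group F) => ((z : GL D.Idx F) : Matrix D.Idx D.Idx F)) (congrArg φ hcomm)
      simp only [map_mul, Subgroup.coe_mul, Units.val_mul] at hφcomm
      rw [hφN, hφgs, hη'eq] at hφcomm
      obtain ⟨M, hM⟩ : ∃ M : Matrix D.Idx D.Idx F,
          D.nMat F (D.simple (π ⟨i, hi⟩)) 1 * M = 1 := by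
        refine ⟨(((φ N)⁻¹ : ↥(D.group F)) : GL D.Idx F), ?_⟩
        rw [← hφN, ← Units.val_mul, ← Subgroup.coe_mul, mul_inv_cancel]
        rfl
      have h3 := congrArg (fun X => X * M) hφcomm
      simp only [mul_assoc, hM, mul_one] at h3
      rw [← h3, ← hrefl]
      congr 1
      ring

end Cfsg.Agent.S2161
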