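import Cfsg.Statements.S2303

set_option autoImplicit false
open Cfsg

namespace Cfsg.Agent.S2303

theorem gl_det_ne_zero {F : Type*} [Field F] (x : Matrix.GeneralLinearGroup (Fin 2) F) :
    (x : Matrix (Fin 2) (Fin 2) F).det ≠ 0 := by
  have h : IsUnit (x : Matrix (Fin 2) (Fin 2) F) := x.isUnit
  exact ((Matrix.isUnit_iff_isUnit_det _).mp h).ne_zero

theorem mem_cent {F : Type*} [Field F] (g x : Matrix.GeneralLinearGroup (Fin 2) F) :
    x ∈ Subgroup.centralizer ({g} : Set (Matrix.GeneralLinearGroup (Fin 2) F)) ↔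
      (g : Matrix (Fin 2) (Fin 2) F) * (x : Matrix (Fin 2) (Fin 2) F) = (x : Matrix (Fin 2) (Fin 2) F) * (g : Matrix (Fin 2) (Fin 2) F) := by
  rw [Subgroup.mem_centralizer_iff]
  constructor
  · intro h
    have := h g (Set.mem_singleton g)
    have h' := congrArg (fun y : Matrix.GeneralLinearGroup (Fin 2) F => (y : Matrix (Fin 2) (Fin 2) F)) this
    simpa using h'
  · intro h y hy
    rw [Set.mem_singleton_iff] at hy
    subst hy
    apply Units.ext
    rw [Units.val_mul, Units.val_mul]
    exact h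

theorem part1 {F : Type*} [Field F] [Fintype F] (g : Matrix.GeneralLinearGroup (Fin 2) F)
    (h01 : (g : Matrix (Fin 2) (Fin 2) F) 0 1 = 0) (h10 : (g : Matrix (Fin 2) (Fin 2) F) 1 0 = 0)
    (hne : (g : Matrix (Fin 2) (Fin 2) F) 0 0 ≠ (g : Matrix (Fin 2) (Fin 2) F) 1 1) :
    Nat.card (Subgroup.centralizer ({g} : Set (Matrix.GeneralLinearGroup (Fin 2) F))) = (Fintype.card F - 1) ^ 2 := by
  classical
  have hdiag : ∀ s t : Fˣ, (!![(s : F), 0; 0, (t : F)] : Matrix (Fin 2) (Fin 2) F).det ≠ 0 := by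
    intro s t
    rw [Matrix.det_fin_two]
    simp
  let f : Fˣ × Fˣ → Subgroup.centralizer ({g} : Set (Matrix.GeneralLinearGroup (Fin 2) F)) :=
    fun st => ⟨Matrix.GeneralLinearGroup.mkOfDetNeZero !![(st.1 : F), 0; 0, (st.2 : F)] (hdiag st.1 st.2), by
      rw [mem_cent]
      show (g : Matrix (Fin 2) (Fin 2) F) * !![(st.1 : F), 0; 0, (st.2 : F)] = !![(st.1 : F), 0; 0, (st.2 : F)] * (g : Matrix (Fin 2) (Fin 2) F)
      ext i j
      fin_cases i <;> fin_cases j <;> simp [Matrix.mul_apply, Fin.sum_univ_two, h01, h10, mul_comm]⟩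
  have hf : Function.Bijective f := by
    constructor
    · intro st st' h
      have h' := congrArg (fun y : Subgroup.centralizer ({g} : Set (Matrix.GeneralLinearGroup (Fin 2) F)) => ((y : Matrix.GeneralLinearGroup (Fin 2) F) : Matrix (Fin 2) (Fin 2) F)) h
      have h'' : (!![(st.1 : F), 0; 0, (st.2 : F)] : Matrix (Fin 2) (Fin 2) F) = !![(st'.1 : F), 0; 0, (st'.2 : F)] := h'
      have e0 := congrFun (congrFun h'' 0) 0
      have e1 := congrFun (congrFun h'' 1) 1
      simp at e0 e1
      exact Prod.ext (Units.ext e0) (Units.ext e1)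
    · rintro ⟨x, hx⟩
      rw [mem_cent] at hx
      have e01 := congrFun (congrFun hx 0) 1
      have e10 := congrFun (congrFun hx 1) 0
      simp [Matrix.mul_apply, Fin.sum_univ_two, h01, h10] at e01 e10
      have hx01 : (x : Matrix (Fin 2) (Fin 2) F) 0 1 = 0 := by
        have : ((g : Matrix (Fin 2) (Fin 2) F) 0 0 - (g : Matrix (Fin 2) (Fin 2) F) 1 1) * (x : Matrix (Fin 2) (Fin 2) F) 0 1 = 0 := by
          linear_combination e01
        rcases mul_eq_zero.mp this with h | h
        · exact absurd (sub_eq_zero.mp h) hne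
        · exact h
      have hx10 : (x : Matrix (Fin 2) (Fin 2) F) 1 0 = 0 := by
        have : ((g : Matrix (Fin 2) (Fin 2) F) 0 0 - (g : Matrix (Fin 2) (Fin 2) F) 1 1) * (x : Matrix (Fin 2) (Fin 2) F) 1 0 = 0 := by
          linear_combination -e10
        rcases mul_eq_zero.mp this with h | h
        · exact absurd (sub_eq_zero.mp h) hne
        · exact h
      have hdet := gl_det_ne_zero x
      rw [Matrix.det_fin_two, hx01, hx10] at hdet
      simp at hdet
      refine ⟨(Units.mk0 _ hdet.1, Units.mk0 _ hdet.2), ?_⟩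
      apply Subtype.ext
      apply Units.ext
      show (!![(x : Matrix (Fin 2) (Fin 2) F) 0 0, 0; 0, (x : Matrix (Fin 2) (Fin 2) F) 1 1] : Matrix (Fin 2) (Fin 2) F) = (x : Matrix (Fin 2) (Fin 2) F)
      ext i j
      fin_cases i <;> fin_cases j <;> simp [hx01, hx10]
  rw [← Nat.card_congr (Equiv.ofBijective f hf), Nat.card_prod, Nat.card_units, Nat.card_eq_fintype_card, pow_two]

theorem part2 {F : Type*} [Field F] [Fintype F] (g : Matrix.GeneralLinearGroup (Fin 2) F)
    (hg : ∀ (c : F) (v : Fin 2 → F), v ≠ 0 → (g : Matrix (Fin 2) (Fin 2) F).mulVec v ≠ c • v) :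
    Nat.card (Subgroup.centralizer ({g} : Set (Matrix.GeneralLinearGroup (Fin 2) F))) = Fintype.card F ^ 2 - 1 := by
  classical
  obtain ⟨G, hG⟩ : ∃ G : Matrix (Fin 2) (Fin 2) F, G = (g : Matrix (Fin 2) (Fin 2) F) := ⟨_, rfl⟩
  rw [← hG] at hg
  have hγ : G 1 0 ≠ 0 := by
    intro h
    apply hg (G 0 0) ![1, 0]
    · intro h0
      have := congrFun h0 0
      simp at this
    · ext i
      fin_cases i <;> simp [Matrix.mulVec, dotProduct, Fin.sum_univ_two, h]
  have hdet : ∀ st : F × F, st ≠ 0 → (st.1 • (1 : Matrix (Fin 2) (Fin 2) F) + st.2 • G).det ≠ 0 := by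
    rintro ⟨s, t⟩ hst hd
    obtain ⟨w, hw0, hw⟩ := Matrix.exists_mulVec_eq_zero_iff.mpr hd
    simp only [Matrix.add_mulVec, Matrix.smul_mulVec, Matrix.one_mulVec] at hw
    by_cases ht : t = 0
    · subst ht
      simp only [zero_smul, add_zero] at hw
      rcases smul_eq_zero.mp hw with h | h
      · apply hst
        rw [h]
        rfl
      · exact hw0 h
    · apply hg (-(s / t)) w hw0
      have : t • (G.mulVec w) = t • ((-(s / t)) • w) := by
        rw [smul_smul]
        have e : t * -(s / t) = -s := by field_simp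
        rw [e, neg_smul]
        exact eq_neg_of_add_eq_zero_right hw
      exact smul_right_injective _ ht this
  let f : {st : F × F // st ≠ 0} → Subgroup.centralizer ({g} : Set (Matrix.GeneralLinearGroup (Fin 2) F)) :=
    fun st => ⟨Matrix.GeneralLinearGroup.mkOfDetNeZero (st.1.1 • (1 : Matrix (Fin 2) (Fin 2) F) + st.1.2 • G) (hdet st.1 st.2), by
      rw [mem_cent, ← hG]
      show G * (st.1.1 • (1 : Matrix (Fin 2) (Fin 2) F) + st.1.2 • G) = (st.1.1 • (1 : Matrix (Fin 2) (Fin 2) F) + st.1.2 • G) * G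
      rw [mul_add, add_mul]
      simp⟩
  have hf : Function.Bijective f := by
    constructor
    · rintro ⟨⟨s, t⟩, hst⟩ ⟨⟨s', t'⟩, hst'⟩ h
      have h' := congrArg (fun y : Subgroup.centralizer ({g} : Set (Matrix.GeneralLinearGroup (Fin 2) F)) => ((y : Matrix.GeneralLinearGroup (Fin 2) F) : Matrix (Fin 2) (Fin 2) F)) h
      have h'' : s • (1 : Matrix (Fin 2) (Fin 2) F) + t • G = s' • (1 : Matrix (Fin 2) (Fin 2) F) + t' • G := h'
      have e0 := congrFun (congrFun h'' 0) 0
      have e1 := congrFun (congrFun h'' 1) 0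
      simp at e0 e1
      have ht : t = t' := by
        rcases e1 with h | h
        · exact h
        · exact absurd h hγ
      subst ht
      have hs : s = s' := by linear_combination e0
      subst hs
      rfl
    · rintro ⟨x, hx⟩
      rw [mem_cent, ← hG] at hx
      have hxdet := gl_det_ne_zero x
      obtain ⟨X, hX⟩ : ∃ X : Matrix (Fin 2) (Fin 2) F, X = (x : Matrix (Fin 2) (Fin 2) F) := ⟨_, rfl⟩
      rw [← hX] at hx hxdet
      have e00 := congrFun (congrFun hx 0) 0
      have e10 := congrFun (congrFun hx 1) 0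
      simp only [Matrix.mul_apply, Fin.sum_univ_two] at e00 e10
      rw [Matrix.det_fin_two] at hxdet
      obtain ⟨t, ht'⟩ : ∃ t : F, t * G 1 0 = X 1 0 := ⟨X 1 0 / G 1 0, by field_simp⟩
      obtain ⟨s, hs⟩ : ∃ s : F, s = X 0 0 - t * G 0 0 := ⟨_, rfl⟩
      have hX01 : X 0 1 = t * G 0 1 := by
        have : X 0 1 * G 1 0 = t * G 0 1 * G 1 0 := by
          linear_combination (-1 : F) * e00 - G 0 1 * ht'
        exact mul_right_cancel₀ hγ this
      have hX11 : X 1 1 = s + t * G 1 1 := by
        have : X 1 1 * G 1 0 = (s + t * G 1 1) * G 1 0 := by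
          rw [hs]
          linear_combination (-1 : F) * e10 + (G 0 0 - G 1 1) * ht'
        exact mul_right_cancel₀ hγ this
      have hst : (s, t) ≠ (0 : F × F) := by
        intro h
        have h1 : s = 0 := congrArg Prod.fst h
        have h2 : t = 0 := congrArg Prod.snd h
        apply hxdet
        have hX00 : X 0 0 = 0 := by
          have : X 0 0 = s + t * G 0 0 := by rw [hs]; ring
          rw [this, h1, h2]; ring
        have hX10 : X 1 0 = 0 := by rw [← ht', h2]; ring
        rw [hX00, hX10]; ring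
      refine ⟨⟨(s, t), hst⟩, ?_⟩
      apply Subtype.ext
      apply Units.ext
      rw [← hX]
      show s • (1 : Matrix (Fin 2) (Fin 2) F) + t • G = X
      ext i j
      fin_cases i <;> fin_cases j
      · simp [hs]
      · simp [hX01]
      · simp [ht']
      · simp [hX11]
  rw [← Nat.card_congr (Equiv.ofBijective f hf), Nat.card_eq_fintype_card, Fintype.card_subtype_compl,
    Fintype.card_prod, Fintype.card_subtype_eq, pow_two]

theorem result {F : Type*} [Field F] [Fintype F] (g : Matrix.GeneralLinearGroup (Fin 2) F) :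
    ((g : Matrix (Fin 2) (Fin 2) F) 0 1 = 0 → (g : Matrix (Fin 2) (Fin 2) F) 1 0 = 0 → (g : Matrix (Fin 2) (Fin 2) F) 0 0 ≠ (g : Matrix (Fin 2) (Fin 2) F) 1 1 →
      Nat.card (Subgroup.centralizer ({g} : Set (Matrix.GeneralLinearGroup (Fin 2) F))) = (Fintype.card F - 1) ^ 2) ∧
    ((∀ (c : F) (v : Fin 2 → F), v ≠ 0 → (g : Matrix (Fin 2) (Fin 2) F).mulVec v ≠ c • v) →
      Nat.card (Subgroup.centralizer ({g} : Set (Matrix.GeneralLinearGroup (Fin 2) F))) = Fintype.card F ^ 2 - 1) :=
  ⟨part1 g, part2 g⟩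

end Cfsg.Agent.S2303
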