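import Cfsg.Statements.S2308

set_option autoImplicit false
open Cfsg

namespace Cfsg.Agent.S2308

/-- lower unitriangular representative -/
noncomputable def xt {F : Type*} [Field F] (t : F) : Matrix.GeneralLinearGroup (Fin 2) F :=
  Matrix.GeneralLinearGroup.mkOfDetNeZero !![1, 0; t, 1] (by simp [Matrix.det_fin_two])

/-- the Weyl element -/
noncomputable def wE (F : Type*) [Field F] : Matrix.GeneralLinearGroup (Fin 2) F :=
  Matrix.GeneralLinearGroup.mkOfDetNeZero !![0, 1; 1, 0] (by simp [Matrix.det_fin_two])

theorem xt_coe {F : Type*} [Field F] (t : F) :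
    ((xt t : Matrix.GeneralLinearGroup (Fin 2) F) : Matrix (Fin 2) (Fin 2) F) = !![1, 0; t, 1] := rfl

theorem wE_coe (F : Type*) [Field F] :
    ((wE F : Matrix.GeneralLinearGroup (Fin 2) F) : Matrix (Fin 2) (Fin 2) F) = !![0, 1; 1, 0] := rfl

theorem xt_inv {F : Type*} [Field F] (t : F) : (xt t)⁻¹ = xt (-t) := by
  apply inv_eq_of_mul_eq_one_right
  apply Units.ext
  rw [Units.val_mul, xt_coe, xt_coe]
  ext i j
  fin_cases i <;> fin_cases j <;> simp [Matrix.mul_apply, Fin.sum_univ_two]

theorem wE_inv (F : Type*) [Field F] : (wE F)⁻¹ = wE F := by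
  apply inv_eq_of_mul_eq_one_right
  apply Units.ext
  rw [Units.val_mul, wE_coe]
  ext i j
  fin_cases i <;> fin_cases j <;> simp [Matrix.mul_apply, Fin.sum_univ_two]

theorem mem_B {F : Type*} [Field F] (x : Matrix.GeneralLinearGroup (Fin 2) F) :
    x ∈ Cfsg.upperTriangularGL 2 F ↔ (x : Matrix (Fin 2) (Fin 2) F) 1 0 = 0 := by
  constructor
  · intro h
    have h' : (x : Matrix (Fin 2) (Fin 2) F).BlockTriangular id := h
    exact h' (by decide : (id (0 : Fin 2)) < id (1 : Fin 2))
  · intro h
    show (x : Matrix (Fin 2) (Fin 2) F).BlockTriangular id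
    intro i j hij
    fin_cases i <;> fin_cases j
    · exact absurd hij (by decide)
    · exact absurd hij (by decide)
    · exact h
    · exact absurd hij (by decide)

/-- coset representatives -/
noncomputable def rep {F : Type*} [Field F] : Option F → Matrix.GeneralLinearGroup (Fin 2) F
  | some t => xt t
  | none => wE F

theorem rep_bij {F : Type*} [Field F] :
    Function.Bijective (fun o : Option F =>
      ((rep o : Matrix.GeneralLinearGroup (Fin 2) F) : Matrix.GeneralLinearGroup (Fin 2) F ⧸ Cfsg.upperTriangularGL 2 F)) := by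
  constructor
  · intro o o' h
    simp only at h
    rw [QuotientGroup.eq, mem_B, Units.val_mul] at h
    rcases o with _ | t <;> rcases o' with _ | t'
    · rfl
    · exfalso
      simp only [rep] at h
      rw [wE_inv, wE_coe, xt_coe] at h
      simp [Matrix.mul_apply, Fin.sum_univ_two] at h
    · exfalso
      simp only [rep] at h
      rw [xt_inv, wE_coe, xt_coe] at h
      simp [Matrix.mul_apply, Fin.sum_univ_two] at h
    · simp only [rep] at h
      rw [xt_inv, xt_coe, xt_coe] at h
      simp [Matrix.mul_apply, Fin.sum_univ_two] at h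
      congr 1
      linear_combination -h
  · intro y
    induction y using QuotientGroup.induction_on with
    | H x =>
      by_cases ha : (x : Matrix (Fin 2) (Fin 2) F) 0 0 = 0
      · refine ⟨none, ?_⟩
        simp only
        rw [QuotientGroup.eq, mem_B, Units.val_mul]
        simp only [rep]
        rw [wE_inv, wE_coe]
        simp [Matrix.mul_apply, Fin.sum_univ_two, ha]
      · refine ⟨some ((x : Matrix (Fin 2) (Fin 2) F) 1 0 / (x : Matrix (Fin 2) (Fin 2) F) 0 0), ?_⟩
        simp only
        rw [QuotientGroup.eq, mem_B, Units.val_mul]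
        simp only [rep]
        rw [xt_inv, xt_coe]
        simp [Matrix.mul_apply, Fin.sum_univ_two]
        field_simp
        ring

/-- the fixed-point condition -/
def cond {F : Type*} [Field F] (G : Matrix (Fin 2) (Fin 2) F) : Option F → Prop
  | some t => G 1 0 + (G 1 1 - G 0 0) * t - G 0 1 * t ^ 2 = 0
  | none => G 0 1 = 0

theorem fixed_iff {F : Type*} [Field F] (g : Matrix.GeneralLinearGroup (Fin 2) F) (o : Option F) :
    g • ((rep o : Matrix.GeneralLinearGroup (Fin 2) F) : Matrix.GeneralLinearGroup (Fin 2) F ⧸ Cfsg.upperTriangularGL 2 F) = (rep o : Matrix.GeneralLinearGroup (Fin 2) F) ↔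
      cond (g : Matrix (Fin 2) (Fin 2) F) o := by
  rw [MulAction.Quotient.smul_mk, eq_comm, QuotientGroup.eq, mem_B, smul_eq_mul, Units.val_mul, Units.val_mul]
  rcases o with _ | t
  · simp only [rep, cond]
    rw [wE_inv, wE_coe]
    simp [Matrix.mul_apply, Fin.sum_univ_two]
  · simp only [rep, cond]
    rw [xt_inv, xt_coe, xt_coe]
    simp [Matrix.mul_apply, Fin.sum_univ_two]
    constructor
    · intro h; linear_combination h
    · intro h; linear_combination h

theorem count {F : Type*} [Field F] (g : Matrix.GeneralLinearGroup (Fin 2) F) :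
    Nat.card (MulAction.fixedBy (Matrix.GeneralLinearGroup (Fin 2) F ⧸ Cfsg.upperTriangularGL 2 F) g) =
      Set.ncard {o : Option F | cond (g : Matrix (Fin 2) (Fin 2) F) o} := by
  rw [← Nat.card_coe_set_eq]
  apply Nat.card_congr
  symm
  refine (Equiv.ofBijective _ rep_bij).subtypeEquiv ?_
  intro o
  rw [Set.mem_setOf_eq, MulAction.mem_fixedBy]
  exact (fixed_iff g o).symm

theorem result {F : Type*} [Field F] [Fintype F] (g : Matrix.GeneralLinearGroup (Fin 2) F) :
    ((∃ a : F, (g : Matrix (Fin 2) (Fin 2) F) = a • (1 : Matrix (Fin 2) (Fin 2) F)) → Cfsg.fixedPointCharacter (Cfsg.upperTriangularGL 2 F) g = Fintype.card F + 1) ∧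
    ((g : Matrix (Fin 2) (Fin 2) F) 0 1 = 0 → (g : Matrix (Fin 2) (Fin 2) F) 1 0 = 0 → (g : Matrix (Fin 2) (Fin 2) F) 0 0 ≠ (g : Matrix (Fin 2) (Fin 2) F) 1 1 →
      Cfsg.fixedPointCharacter (Cfsg.upperTriangularGL 2 F) g = 2) ∧
    ((∀ (c : F) (v : Fin 2 → F), v ≠ 0 → (g : Matrix (Fin 2) (Fin 2) F).mulVec v ≠ c • v) → Cfsg.fixedPointCharacter (Cfsg.upperTriangularGL 2 F) g = 0) ∧
    ((g : Matrix (Fin 2) (Fin 2) F) 1 0 = 0 → (g : Matrix (Fin 2) (Fin 2) F) 0 0 = (g : Matrix (Fin 2) (Fin 2) F) 1 1 → (g : Matrix (Fin 2) (Fin 2) F) 0 1 ≠ 0 →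
      Cfsg.fixedPointCharacter (Cfsg.upperTriangularGL 2 F) g = 1) := by
  classical
  unfold Cfsg.fixedPointCharacter
  rw [count]
  refine ⟨?_, ?_, ?_, ?_⟩
  · rintro ⟨a, ha⟩
    have : {o : Option F | cond (g : Matrix (Fin 2) (Fin 2) F) o} = Set.univ := by
      ext o
      simp only [Set.mem_setOf_eq, Set.mem_univ, iff_true]
      rcases o with _ | t
      · simp [cond, ha]
      · simp [cond, ha]
    rw [this, Set.ncard_univ, Nat.card_eq_fintype_card, Fintype.card_option]
    push_cast
    rfl
  · intro h01 h10 hne
    have : {o : Option F | cond (g : Matrix (Fin 2) (Fin 2) F) o} = {some 0, none} := by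
      ext o
      simp only [Set.mem_setOf_eq, Set.mem_insert_iff, Set.mem_singleton_iff]
      rcases o with _ | t
      · simp [cond, h01]
      · simp only [cond, h01, h10]
        constructor
        · intro h
          have h' : ((g : Matrix (Fin 2) (Fin 2) F) 1 1 - (g : Matrix (Fin 2) (Fin 2) F) 0 0) * t = 0 := by
            linear_combination h
          rcases mul_eq_zero.mp h' with h'' | h''
          · exact absurd (sub_eq_zero.mp h'').symm hne
          · left; rw [h'']
        · intro h
          rcases h with h | h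
          · have : t = 0 := Option.some.inj h
            rw [this]; ring
          · exact absurd h (by simp)
    rw [this, Set.ncard_pair (by simp)]
    norm_num
  · intro hg
    have hβ : (g : Matrix (Fin 2) (Fin 2) F) 0 1 ≠ 0 := by
      intro h
      apply hg ((g : Matrix (Fin 2) (Fin 2) F) 1 1) ![0, 1]
      · intro h0
        have := congrFun h0 1
        simp at this
      · ext i
        fin_cases i <;> simp [Matrix.mulVec, dotProduct, Fin.sum_univ_two, h]
    have : {o : Option F | cond (g : Matrix (Fin 2) (Fin 2) F) o} = ∅ := by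
      ext o
      simp only [Set.mem_setOf_eq, Set.mem_empty_iff_false, iff_false]
      rcases o with _ | t
      · simpa [cond] using hβ
      · simp only [cond]
        intro h
        apply hg ((g : Matrix (Fin 2) (Fin 2) F) 0 0 + (g : Matrix (Fin 2) (Fin 2) F) 0 1 * t) ![1, t]
        · intro h0
          have := congrFun h0 0
          simp at this
        · ext i
          fin_cases i
          · simp [Matrix.mulVec, dotProduct, Fin.sum_univ_two]
          · simp [Matrix.mulVec, dotProduct, Fin.sum_univ_two]
            linear_combination h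
    rw [this, Set.ncard_empty]
    simp
  · intro h10 had hb
    have : {o : Option F | cond (g : Matrix (Fin 2) (Fin 2) F) o} = {some 0} := by
      ext o
      simp only [Set.mem_setOf_eq, Set.mem_singleton_iff]
      rcases o with _ | t
      · simp [cond, hb]
      · simp only [cond, h10, had]
        constructor
        · intro h
          have h' : (g : Matrix (Fin 2) (Fin 2) F) 0 1 * t ^ 2 = 0 := by
            linear_combination -h
          rcases mul_eq_zero.mp h' with h'' | h''
          · exact absurd h'' hb
          · rw [pow_eq_zero_iff (two_ne_zero)] at h''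
            rw [h'']
        · intro h
          have : t = 0 := Option.some.inj h
          rw [this]; ring
    rw [this, Set.ncard_singleton]
    simp

end Cfsg.Agent.S2308
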