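import Mathlib
import Cfsg.Statements.S2309
import Cfsg.Agent.Helper14.GL2Cusp

set_option autoImplicit false
open Cfsg

namespace Cfsg.Agent.S2309

open Cfsg.Agent.Helper14 Cfsg.Agent.Helper14.GL2 in
theorem two_false {F : Type*} [Field F] [Fintype F] (h : Fintype.card F = 2)
    (g : Matrix.GeneralLinearGroup (Fin 2) F)
    (h01 : (g : Matrix (Fin 2) (Fin 2) F) 0 1 = 0)
    (hne : (g : Matrix (Fin 2) (Fin 2) F) 0 0 ≠ (g : Matrix (Fin 2) (Fin 2) F) 1 1) : False := by
  classical
  have hdet := det_ne g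
  rw [h01, zero_mul, sub_zero] at hdet
  have h00 : (g : Matrix (Fin 2) (Fin 2) F) 0 0 ≠ 0 := left_ne_zero_of_mul hdet
  have h11 : (g : Matrix (Fin 2) (Fin 2) F) 1 1 ≠ 0 := right_ne_zero_of_mul hdet
  have hc : Fintype.card Fˣ = 1 := by rw [Fintype.card_units, h]
  haveI : Subsingleton Fˣ := Fintype.card_le_one_iff_subsingleton.mp hc.le
  have := Subsingleton.elim (Units.mk0 _ h00) (Units.mk0 _ h11)
  apply hne
  have := congrArg (fun u : Fˣ => (u : F)) this
  simpa using this


/-- Over a finite field F with q elements: every irreducible complex character of GL₂ of degree q − 1 vanishes at every diagonal matrix with two distinct entries, and every irreducible complex character of degree q + 1 vanishes at every element with no eigenvector in F². -/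
theorem result {F : Type*} [Field F] [Fintype F] (χ : Matrix.GeneralLinearGroup (Fin 2) F → ℂ) (hχ : Cfsg.IsIrrCharacter (Matrix.GeneralLinearGroup (Fin 2) F) χ) (g : Matrix.GeneralLinearGroup (Fin 2) F) :
    (χ 1 = (Fintype.card F : ℂ) - 1 → (g : Matrix (Fin 2) (Fin 2) F) 0 1 = 0 → (g : Matrix (Fin 2) (Fin 2) F) 1 0 = 0 → (g : Matrix (Fin 2) (Fin 2) F) 0 0 ≠ (g : Matrix (Fin 2) (Fin 2) F) 1 1 → χ g = 0) ∧
    (χ 1 = (Fintype.card F : ℂ) + 1 → (∀ (c : F) (v : Fin 2 → F), v ≠ 0 → (g : Matrix (Fin 2) (Fin 2) F).mulVec v ≠ c • v) → χ g = 0) := by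
  classical
  have hq1 := Cfsg.Agent.Helper14.GL2.one_lt_q (F := F)
  have hq1' : (1 : ℝ) < (Fintype.card F : ℝ) := by exact_mod_cast hq1
  rcases Cfsg.Agent.Helper14.GL2.classify χ hχ with ⟨α, rfl⟩ | ⟨α, rfl⟩ | ⟨α, β, hαβ, rfl⟩ | ⟨h1, hu, hd⟩
  · constructor
    · intro hdeg h01 h10 hne
      rw [Cfsg.Agent.Helper14.GL2.lin_one] at hdeg
      exfalso
      have h2 : (Fintype.card F : ℂ) = 2 := by linear_combination -hdeg
      have h2' : Fintype.card F = 2 := by exact_mod_cast h2
      exact two_false h2' g h01 hne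
    · intro hdeg
      rw [Cfsg.Agent.Helper14.GL2.lin_one] at hdeg
      exfalso
      have h2 : (Fintype.card F : ℂ) = 0 := by linear_combination -hdeg
      have h2' : Fintype.card F = 0 := by exact_mod_cast h2
      omega
  · constructor
    · intro hdeg
      rw [Cfsg.Agent.Helper14.GL2.st_one] at hdeg
      exfalso
      have h2 : (1 : ℂ) = 0 := by linear_combination hdeg
      exact one_ne_zero h2
    · intro hdeg
      rw [Cfsg.Agent.Helper14.GL2.st_one] at hdeg
      exfalso
      have h2 : (1 : ℂ) = 0 := by linear_combination -hdeg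
      exact one_ne_zero h2
  · constructor
    · intro hdeg
      rw [Cfsg.Agent.Helper14.GL2.ps_one] at hdeg
      exfalso
      have h2 : (2 : ℂ) = 0 := by linear_combination hdeg
      norm_num at h2
    · intro _ hg
      exact Cfsg.Agent.Helper14.GL2.ps_ell α β g hg
  · constructor
    · intro _ h01 h10 hne
      exact hd g h01 h10 hne
    · intro hdeg
      rw [h1] at hdeg
      exfalso
      have h2 : (2 : ℂ) = 0 := by linear_combination -hdeg
      norm_num at h2

end Cfsg.Agent.S2309
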