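import Mathlib
import Cfsg.Statements.S2310
import Cfsg.Agent.Helper14.GL2Cusp

set_option autoImplicit false
open Cfsg

namespace Cfsg.Agent.S2310

/-- Over a finite field F with q ≥ 3 elements, let u be the upper unitriangular matrix of GL₂ with off-diagonal entry 1. An irreducible complex character χ of GL₂ takes at u the value 1 if χ has degree 1 or q + 1, the value −1 if χ has degree q − 1, and the value 0 if χ has degree q. -/
theorem result {F : Type*} [Field F] [Fintype F] (hq : 3 ≤ Fintype.card F) (χ : Matrix.GeneralLinearGroup (Fin 2) F → ℂ) (hχ : Cfsg.IsIrrCharacter (Matrix.GeneralLinearGroup (Fin 2) F) χ)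
    (u : Matrix.GeneralLinearGroup (Fin 2) F) (hu : (u : Matrix (Fin 2) (Fin 2) F) = !![1, 1; 0, 1]) :
    (χ 1 = 1 → χ u = 1) ∧ (χ 1 = (Fintype.card F : ℂ) + 1 → χ u = 1) ∧
    (χ 1 = (Fintype.card F : ℂ) - 1 → χ u = -1) ∧ (χ 1 = (Fintype.card F : ℂ) → χ u = 0) := by
  classical
  have hq3 : (3 : ℝ) ≤ (Fintype.card F : ℝ) := by exact_mod_cast hq
  have e00 : (u : Matrix (Fin 2) (Fin 2) F) 0 0 = 1 := by rw [hu]; rfl
  have e01 : (u : Matrix (Fin 2) (Fin 2) F) 0 1 = 1 := by rw [hu]; rfl
  have e10 : (u : Matrix (Fin 2) (Fin 2) F) 1 0 = 0 := by rw [hu]; rfl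
  have e11 : (u : Matrix (Fin 2) (Fin 2) F) 1 1 = 1 := by rw [hu]; rfl
  have key : ∀ (c : ℝ), ((Fintype.card F : ℂ) = (c : ℂ)) → (Fintype.card F : ℝ) = c := by
    intro c h
    exact_mod_cast h
  rcases Cfsg.Agent.Helper14.GL2.classify χ hχ with ⟨α, rfl⟩ | ⟨α, rfl⟩ | ⟨α, β, hαβ, rfl⟩ | ⟨h1, hu', hd⟩
  · have hval : Cfsg.Agent.Helper14.GL2.lin α u = 1 := by
      rw [Cfsg.Agent.Helper14.GL2.lin_apply, e00, e01, e10, e11]
      simp
    rw [Cfsg.Agent.Helper14.GL2.lin_one]
    refine ⟨fun _ => hval, ?_, ?_, ?_⟩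
    · intro hdeg
      exfalso
      have := key 0 (by push_cast; linear_combination -hdeg)
      linarith
    · intro hdeg
      exfalso
      have := key 2 (by push_cast; linear_combination -hdeg)
      linarith
    · intro hdeg
      exfalso
      have := key 1 (by push_cast; linear_combination -hdeg)
      linarith
  · have hval : Cfsg.Agent.Helper14.GL2.st α u = 0 :=
      Cfsg.Agent.Helper14.GL2.st_jordan α u e10 (by rw [e00, e11]) (by rw [e01]; exact one_ne_zero)
    rw [Cfsg.Agent.Helper14.GL2.st_one]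
    refine ⟨?_, ?_, ?_, fun _ => hval⟩
    · intro hdeg
      exfalso
      have := key 1 (by push_cast; linear_combination hdeg)
      linarith
    · intro hdeg
      exfalso
      have h2 : (1 : ℂ) = 0 := by linear_combination -hdeg
      exact one_ne_zero h2
    · intro hdeg
      exfalso
      have h2 : (1 : ℂ) = 0 := by linear_combination hdeg
      exact one_ne_zero h2
  · have hval : Cfsg.Agent.Helper14.GL2.ps α β u = 1 := by
      rw [Cfsg.Agent.Helper14.GL2.ps_jordan α β u e10 (by rw [e00, e11])
        (by rw [e01]; exact one_ne_zero), e00, e11]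
      simp
    rw [Cfsg.Agent.Helper14.GL2.ps_one]
    refine ⟨?_, fun _ => hval, ?_, ?_⟩
    · intro hdeg
      exfalso
      have := key 0 (by push_cast; linear_combination hdeg)
      linarith
    · intro hdeg
      exfalso
      have h2 : (2 : ℂ) = 0 := by linear_combination hdeg
      norm_num at h2
    · intro hdeg
      exfalso
      have h2 : (1 : ℂ) = 0 := by linear_combination hdeg
      exact one_ne_zero h2
  · rw [h1]
    refine ⟨?_, ?_, fun _ => hu' u hu, ?_⟩
    · intro hdeg
      exfalso
      have := key 2 (by push_cast; linear_combination hdeg)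
      linarith
    · intro hdeg
      exfalso
      have h2 : (2 : ℂ) = 0 := by linear_combination -hdeg
      norm_num at h2
    · intro hdeg
      exfalso
      have h2 : (1 : ℂ) = 0 := by linear_combination -hdeg
      exact one_ne_zero h2

end Cfsg.Agent.S2310
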