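import Cfsg.Statements.S2327
import Cfsg.Agent.Helper8.St4
import Cfsg.Agent.S1027
-- import your own Cfsg.Agent.* helpers here

set_option autoImplicit false
open Cfsg

namespace Cfsg.Agent.S2327

open Cfsg.Lie Cfsg.Agent.Helper8

/-- In a Chevalley group of type G₂, B₂, D₄, F₄, E₆, E₇ or E₈ over a finite field with q elements, the Steinberg character (the alternating sum of the permutation characters on the standard parabolic subgroups) has degree q^N, N the number of positive roots; this is the order of U and the largest power of the characteristic dividing the group order. -/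
theorem result {F : Type*} [Field F] [Fintype F] (D : Cfsg.Lie.ChevalleyDatum) (hD : D ∈ [Cfsg.Lie.chevG2, Cfsg.Lie.chevB2, Cfsg.Lie.chevD4, Cfsg.Lie.chevF4, Cfsg.Lie.chevE6, Cfsg.Lie.chevE7, Cfsg.Lie.chevE8]) :
    D.steinbergCharacter F 1 = (Fintype.card F : ℂ) ^ (D.nroots / 2) := by
  have hUG : D.posUnipotent F ≤ D.group F := posUnipotent_le_group D F
  have h1 := steinberg_borel D hD (1 : ↥((D.borelSubgroup F).subgroupOf (D.group F)))
  rw [map_one] at h1
  rw [h1]
  unfold Cfsg.fixedPointCharacter
  have h2 : Nat.card (MulAction.fixedBy (↥((D.borelSubgroup F).subgroupOf (D.group F)) ⧸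
      (((D.diagonalSubgroup F).subgroupOf (D.group F)).subgroupOf ((D.borelSubgroup F).subgroupOf (D.group F))))
      (1 : ↥((D.borelSubgroup F).subgroupOf (D.group F)))) = Nat.card ↥(D.posUnipotent F) := by
    symm
    refine Nat.card_eq_of_bijective (fun u => (⟨QuotientGroup.mk
      (⟨⟨u.1, hUG u.2⟩, Subgroup.mem_subgroupOf.mpr (pos_le_borel D u.2)⟩ :
        ↥((D.borelSubgroup F).subgroupOf (D.group F))), by
        rw [MulAction.mem_fixedBy, one_smul]⟩ : MulAction.fixedBy
          (↥((D.borelSubgroup F).subgroupOf (D.group F)) ⧸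
            (((D.diagonalSubgroup F).subgroupOf (D.group F)).subgroupOf
              ((D.borelSubgroup F).subgroupOf (D.group F))))
          (1 : ↥((D.borelSubgroup F).subgroupOf (D.group F))))) ⟨?_, ?_⟩
    · intro u u' huu
      have h3 := QuotientGroup.eq.mp (congrArg Subtype.val huu)
      rw [Subgroup.mem_subgroupOf, Subgroup.mem_subgroupOf] at h3
      have h3' : (u.1)⁻¹ * u'.1 ∈ D.diagonalSubgroup F := h3
      have h4 : (u.1)⁻¹ * u'.1 ∈ D.posUnipotent F ⊓ D.diagonalSubgroup F :=
        Subgroup.mem_inf.mpr ⟨mul_mem (inv_mem u.2) u'.2, h3'⟩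
      rw [posUnipotent_inf_diagonal D hD, Subgroup.mem_bot] at h4
      exact Subtype.ext (inv_mul_eq_one.mp h4)
    · rintro ⟨y, -⟩
      obtain ⟨β, rfl⟩ := QuotientGroup.mk_surjective y
      obtain ⟨u, hu, h, hh, huh⟩ := mem_borel D hD _ (Subgroup.mem_subgroupOf.mp β.2)
      refine ⟨⟨u, hu⟩, Subtype.ext ?_⟩
      apply QuotientGroup.eq.mpr
      rw [Subgroup.mem_subgroupOf, Subgroup.mem_subgroupOf]
      show u⁻¹ * ((β : ↥(D.group F)) : GL D.Idx F) ∈ D.diagonalSubgroup F
      have e : u⁻¹ * ((β : ↥(D.group F)) : GL D.Idx F) = h := by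
        rw [← huh]
        group
      rw [e]
      exact hh
  rw [h2, Cfsg.Agent.S1027.result D hD]
  push_cast
  rfl

end Cfsg.Agent.S2327
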