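import Cfsg.Statements.S2311
import Cfsg.Agent.Helper8.St9
import Cfsg.Agent.S2327
-- import your own Cfsg.Agent.* helpers here

set_option autoImplicit false
open Cfsg

namespace Cfsg.Agent.S2311

open Cfsg.Lie Cfsg.Agent.Helper8

/-- In a Chevalley group of type G₂, B₂, D₄, F₄, E₆, E₇ or E₈ over a finite field, the alternating sum over all sets J of fundamental roots of (−1)^|J| times the permutation character on the cosets of the standard parabolic subgroup P_J is an irreducible complex character: the Steinberg character. -/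
theorem result {F : Type*} [Field F] [Fintype F] (D : Cfsg.Lie.ChevalleyDatum) (hD : D ∈ [Cfsg.Lie.chevG2, Cfsg.Lie.chevB2, Cfsg.Lie.chevD4, Cfsg.Lie.chevF4, Cfsg.Lie.chevE6, Cfsg.Lie.chevE7, Cfsg.Lie.chevE8]) :
    Cfsg.IsIrrCharacter ↥(D.group F) (D.steinbergCharacter F) := by
  have h1 := Cfsg.Agent.S2327.result (F := F) D hD
  exact steinberg_irr D hD (Fintype.card F ^ (D.nroots / 2)) (pow_ne_zero _ Fintype.card_ne_zero) (by
    rw [h1]
    push_cast
    rfl)

end Cfsg.Agent.S2311
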