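import Mathlib
import Cfsg.Statements.S2315
import Cfsg.Agent.Helper14.NilCount

set_option autoImplicit false
open Cfsg

namespace Cfsg.Agent.S2315

/-- Steinberg's count of unipotent elements for the general linear group: over a finite field with q elements of characteristic p, the number of elements of GL_n of p-power order (the unipotent matrices) is q^(n(n−1)). -/
theorem result {F : Type*} [Field F] [Fintype F] (p : ℕ) [Fact p.Prime] [CharP F p] (n : ℕ) :
    Nat.card {g : Matrix.GeneralLinearGroup (Fin n) F // ∃ k : ℕ, orderOf g = p ^ k} = Fintype.card F ^ (n * (n - 1)) := by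

  classical
  rcases Nat.eq_zero_or_pos n with h0 | hpos
  · subst h0
    haveI : Subsingleton (Matrix.GeneralLinearGroup (Fin 0) F) :=
      ⟨fun a b => Units.ext (Subsingleton.elim _ _)⟩
    haveI : Unique {g : Matrix.GeneralLinearGroup (Fin 0) F // ∃ k : ℕ, orderOf g = p ^ k} :=
      ⟨⟨⟨1, 0, by simp⟩⟩, fun a => Subtype.ext (Subsingleton.elim _ _)⟩
    simp
  · haveI : Nonempty (Fin n) := ⟨⟨0, hpos⟩⟩
    have key : ∀ g : Matrix.GeneralLinearGroup (Fin n) F,
        (∃ k : ℕ, orderOf g = p ^ k) ↔ IsNilpotent ((g : Matrix (Fin n) (Fin n) F) - 1) := by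
      intro g
      constructor
      · rintro ⟨k, hk⟩
        refine ⟨p ^ k, ?_⟩
        rw [sub_pow_char_pow_of_commute p _ (Commute.one_right _), one_pow, sub_eq_zero]
        have h1 : g ^ (p ^ k) = 1 := by rw [← hk]; exact pow_orderOf_eq_one g
        have h2 := congrArg
          (fun x : Matrix.GeneralLinearGroup (Fin n) F => (x : Matrix (Fin n) (Fin n) F)) h1
        simpa using h2
      · rintro ⟨m, hm⟩
        have h1 : ((g : Matrix (Fin n) (Fin n) F) - 1) ^ (p ^ m) = 0 := by
          apply pow_eq_zero_of_le _ hm
          exact (Nat.lt_pow_self (Fact.out : p.Prime).one_lt).le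
        rw [sub_pow_char_pow_of_commute p _ (Commute.one_right _), one_pow, sub_eq_zero] at h1
        have h2 : g ^ (p ^ m) = 1 := Units.ext (by simpa using h1)
        have h3 := orderOf_dvd_of_pow_eq_one h2
        obtain ⟨k, _, hk⟩ := (Nat.dvd_prime_pow (Fact.out : p.Prime)).mp h3
        exact ⟨k, hk⟩
    have e1 : {g : Matrix.GeneralLinearGroup (Fin n) F // ∃ k : ℕ, orderOf g = p ^ k} ≃
        {N : Matrix (Fin n) (Fin n) F // IsNilpotent N} :=
      { toFun := fun g => ⟨(g.1 : Matrix (Fin n) (Fin n) F) - 1, (key g.1).mp g.2⟩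
        invFun := fun N => ⟨(N.2.isUnit_add_one).unit, (key _).mpr (by
          rw [IsUnit.unit_spec, add_sub_cancel_right]
          exact N.2)⟩
        left_inv := fun g => by
          apply Subtype.ext
          apply Units.ext
          simp [IsUnit.unit_spec]
        right_inv := fun N => by
          apply Subtype.ext
          simp }
    have e2 : {N : Matrix (Fin n) (Fin n) F // IsNilpotent N} ≃
        {T : Module.End F (Fin n → F) // IsNilpotent T} :=
      Equiv.subtypeEquiv (Matrix.toLinAlgEquiv' (R := F) (n := Fin n)).toEquiv (fun N => by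
        constructor
        · intro hN
          exact hN.map (Matrix.toLinAlgEquiv' (R := F) (n := Fin n))
        · intro hN
          have h1 := hN.map (Matrix.toLinAlgEquiv' (R := F) (n := Fin n)).symm
          simpa using h1)
    rw [Nat.card_congr (e1.trans e2)]
    exact Helper14.NilCount.card_nilpotent n (Fin n → F) (Module.finrank_fin_fun F)

end Cfsg.Agent.S2315
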