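import Cfsg.Statements.S2317
-- import your own Cfsg.Agent.* helpers here
import Cfsg.Agent.Helper29.Jordan

set_option autoImplicit false
open Cfsg

namespace Cfsg.Agent.S2317

open Cfsg.Agent.Helper29 Cfsg.Agent.S5959

/-- Over a finite field of characteristic p, the conjugacy classes of GL_n consisting of elements of p-power order (the unipotent classes) are as many as the partitions of n. -/
theorem result {F : Type*} [Field F] [Fintype F] (p : ℕ) [Fact p.Prime] [CharP F p] (n : ℕ) :
    Nat.card {C : ConjClasses (Matrix.GeneralLinearGroup (Fin n) F) //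
      ∃ g : Matrix.GeneralLinearGroup (Fin n) F, (∃ k : ℕ, orderOf g = p ^ k) ∧ ConjClasses.mk g = C} =
      Fintype.card (Nat.Partition n) := by
  classical
  have key : ∀ μ : Nat.Partition n, ∃ g : Matrix.GeneralLinearGroup (Fin n) F,
      (∃ k : ℕ, orderOf g = p ^ k) ∧ ConjClasses.mk g = classOf F μ := by
    intro μ
    obtain ⟨g, hg⟩ := ConjClasses.mk_surjective (classOf F μ)
    refine ⟨g, ?_, hg⟩
    rw [ppow_iff_nilp]
    exact ⟨n, nilp_of_rank _ μ.parts μ.parts_sum (rank_of_class μ g hg)⟩
  have hbij : Function.Bijective (fun μ : Nat.Partition n =>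
      (⟨classOf F μ, key μ⟩ : {C : ConjClasses (Matrix.GeneralLinearGroup (Fin n) F) //
        ∃ g : Matrix.GeneralLinearGroup (Fin n) F,
          (∃ k : ℕ, orderOf g = p ^ k) ∧ ConjClasses.mk g = C})) := by
    constructor
    · intro μ ν h
      exact classOf_injective (congrArg Subtype.val h)
    · rintro ⟨C, g, hg, rfl⟩
      obtain ⟨μ, hμ⟩ := exists_class g ((ppow_iff_nilp p g).mp hg)
      exact ⟨μ, Subtype.ext hμ.symm⟩
  rw [← Nat.card_eq_fintype_card]
  exact (Nat.card_congr (Equiv.ofBijective _ hbij)).symm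

end Cfsg.Agent.S2317
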