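import Mathlib
import Cfsg.Statements.S2320
import Cfsg.Agent.Helper14.GL2Cusp

set_option autoImplicit false
open Cfsg

namespace Cfsg.Agent.S2320

theorem mulchar_norm {F : Type*} [Field F] [Fintype F] (α : MulChar F ℂ) (a : F) (ha : a ≠ 0) :
    ‖α a‖ = 1 := by
  have h : α a ^ (Fintype.card F - 1) = 1 := by
    rw [← map_pow, FiniteField.pow_card_sub_one_eq_one a ha, map_one]
  have hq := Fintype.one_lt_card (α := F)
  exact Complex.norm_eq_one_of_pow_eq_one h (by omega)


/-- Over a finite field F with q elements, every irreducible complex character of GL₂ of degree q takes a value of absolute value 1 at every diagonal matrix with two different diagonal entries and at every element with no eigenvector in F². -/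
theorem result {F : Type*} [Field F] [Fintype F] (χ : Matrix.GeneralLinearGroup (Fin 2) F → ℂ) (hχ : Cfsg.IsIrrCharacter (Matrix.GeneralLinearGroup (Fin 2) F) χ) (hdeg : χ 1 = (Fintype.card F : ℂ)) (g : Matrix.GeneralLinearGroup (Fin 2) F) :
    ((g : Matrix (Fin 2) (Fin 2) F) 0 1 = 0 → (g : Matrix (Fin 2) (Fin 2) F) 1 0 = 0 → (g : Matrix (Fin 2) (Fin 2) F) 0 0 ≠ (g : Matrix (Fin 2) (Fin 2) F) 1 1 → ‖χ g‖ = 1) ∧
    ((∀ (c : F) (v : Fin 2 → F), v ≠ 0 → (g : Matrix (Fin 2) (Fin 2) F).mulVec v ≠ c • v) → ‖χ g‖ = 1) := by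
  classical
  have hq1 := Cfsg.Agent.Helper14.GL2.one_lt_q (F := F)
  rcases Cfsg.Agent.Helper14.GL2.classify χ hχ with ⟨α, rfl⟩ | ⟨α, rfl⟩ | ⟨α, β, hαβ, rfl⟩ | ⟨h1, hu', hd⟩
  · exfalso
    rw [Cfsg.Agent.Helper14.GL2.lin_one] at hdeg
    have : Fintype.card F = 1 := by exact_mod_cast hdeg.symm
    omega
  · constructor
    · intro h01 h10 hne
      have hdet := Cfsg.Agent.Helper14.GL2.det_ne g
      rw [h01, zero_mul, sub_zero] at hdet
      rw [Cfsg.Agent.Helper14.GL2.st_diag α g h01 h10 hne, norm_mul,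
        mulchar_norm α _ (left_ne_zero_of_mul hdet), mulchar_norm α _ (right_ne_zero_of_mul hdet),
        mul_one]
    · intro hg
      rw [Cfsg.Agent.Helper14.GL2.st_ell α g hg, norm_neg,
        mulchar_norm α _ (Cfsg.Agent.Helper14.gl_det_ne_zero g)]
  · exfalso
    rw [Cfsg.Agent.Helper14.GL2.ps_one] at hdeg
    have h2 : (1 : ℂ) = 0 := by linear_combination hdeg
    exact one_ne_zero h2
  · exfalso
    rw [h1] at hdeg
    have h2 : (1 : ℂ) = 0 := by linear_combination -hdeg
    exact one_ne_zero h2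

end Cfsg.Agent.S2320
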