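import Mathlib
import Cfsg.Statements.S2321
import Cfsg.Agent.Helper14.SL2Res

set_option autoImplicit false
open Cfsg

namespace Cfsg.Agent.S2321

/-- Over a finite field F with q elements, an irreducible complex character of SL₂ of degree q (the Steinberg character) takes the value 1 at every diagonal matrix whose diagonal entry a has a² ≠ 1, the value −1 at every element with no eigenvector in F², and the value 0 at every upper triangular matrix with equal diagonal entries and non-zero upper right entry. -/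
theorem result {F : Type*} [Field F] [Fintype F] (χ : Matrix.SpecialLinearGroup (Fin 2) F → ℂ) (hχ : Cfsg.IsIrrCharacter (Matrix.SpecialLinearGroup (Fin 2) F) χ) (hdeg : χ 1 = (Fintype.card F : ℂ)) (g : Matrix.SpecialLinearGroup (Fin 2) F) :
    ((g : Matrix (Fin 2) (Fin 2) F) 0 1 = 0 → (g : Matrix (Fin 2) (Fin 2) F) 1 0 = 0 → (g : Matrix (Fin 2) (Fin 2) F) 0 0 ^ 2 ≠ 1 → χ g = 1) ∧
    ((∀ (c : F) (v : Fin 2 → F), v ≠ 0 → (g : Matrix (Fin 2) (Fin 2) F).mulVec v ≠ c • v) → χ g = -1) ∧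
    ((g : Matrix (Fin 2) (Fin 2) F) 1 0 = 0 → (g : Matrix (Fin 2) (Fin 2) F) 0 0 = (g : Matrix (Fin 2) (Fin 2) F) 1 1 → (g : Matrix (Fin 2) (Fin 2) F) 0 1 ≠ 0 → χ g = 0) := by
  classical
  have hq1 := Cfsg.Agent.Helper14.GL2.one_lt_q (F := F)
  have hq1' : (2 : ℤ) ≤ (Fintype.card F : ℤ) := by exact_mod_cast hq1
  obtain ⟨X, k, hk0, hdegX, hres⟩ := Cfsg.Agent.Helper14.GL2.above ⟨χ, hχ⟩
  have hk1 : (1 : ℤ) ≤ k := by exact_mod_cast hk0
  change (X : Matrix.GeneralLinearGroup (Fin 2) F → ℂ) 1 = (k : ℂ) * χ 1 at hdegX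
  change k = 1 → Cfsg.Agent.Helper14.GL2.res (X : Matrix.GeneralLinearGroup (Fin 2) F → ℂ) = χ
    at hres
  rw [hdeg] at hdegX
  rcases Cfsg.Agent.Helper14.GL2.classify (X : Matrix.GeneralLinearGroup (Fin 2) F → ℂ) X.2 with
    ⟨α, hα⟩ | ⟨α, hα⟩ | ⟨α, β, hαβ, hα⟩ | ⟨h1, _, _⟩
  · exfalso
    rw [hα, Cfsg.Agent.Helper14.GL2.lin_one] at hdegX
    have hZ : (1 : ℤ) = (k : ℤ) * (Fintype.card F : ℤ) := by exact_mod_cast hdegX
    nlinarith
  · rw [hα, Cfsg.Agent.Helper14.GL2.st_one] at hdegX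
    have hZ : (Fintype.card F : ℤ) = (k : ℤ) * (Fintype.card F : ℤ) := by exact_mod_cast hdegX
    have hk : k = 1 := by
      have : (k : ℤ) = 1 := by nlinarith
      exact_mod_cast this
    have hχeq := hres hk
    rw [hα] at hχeq
    have hval : ∀ s : Matrix.SpecialLinearGroup (Fin 2) F,
        χ s = Cfsg.Agent.Helper14.GL2.st α (Matrix.SpecialLinearGroup.toGL s) := by
      intro s
      rw [← hχeq]
      rfl
    have hdet : (g : Matrix (Fin 2) (Fin 2) F) 0 0 * (g : Matrix (Fin 2) (Fin 2) F) 1 1 -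
        (g : Matrix (Fin 2) (Fin 2) F) 0 1 * (g : Matrix (Fin 2) (Fin 2) F) 1 0 = 1 := by
      have := g.2
      rw [Matrix.det_fin_two] at this
      exact this
    refine ⟨?_, ?_, ?_⟩
    · intro h01 h10 hsq
      rw [h01, zero_mul, sub_zero] at hdet
      have hne : (g : Matrix (Fin 2) (Fin 2) F) 0 0 ≠ (g : Matrix (Fin 2) (Fin 2) F) 1 1 := by
        intro h
        apply hsq
        rw [← h] at hdet
        rw [sq]
        exact hdet
      rw [hval, Cfsg.Agent.Helper14.GL2.st_diag α (Matrix.SpecialLinearGroup.toGL g) h01 h10 hne,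
        ← map_mul]
      show α ((g : Matrix (Fin 2) (Fin 2) F) 0 0 * (g : Matrix (Fin 2) (Fin 2) F) 1 1) = 1
      rw [hdet, map_one]
    · intro hg
      rw [hval, Cfsg.Agent.Helper14.GL2.st_ell α (Matrix.SpecialLinearGroup.toGL g) hg]
      show -α ((g : Matrix (Fin 2) (Fin 2) F).det) = -1
      rw [g.2, map_one]
    · intro h10 heq h01
      rw [hval]
      exact Cfsg.Agent.Helper14.GL2.st_jordan α (Matrix.SpecialLinearGroup.toGL g) h10 heq h01
  · exfalso
    rw [hα, Cfsg.Agent.Helper14.GL2.ps_one] at hdegX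
    have hZ : (Fintype.card F : ℤ) + 1 = (k : ℤ) * (Fintype.card F : ℤ) := by exact_mod_cast hdegX
    have hk2 : (k : ℤ) ≠ 1 := by
      intro h
      rw [h] at hZ
      linarith
    have hk3 : (2 : ℤ) ≤ k := by omega
    nlinarith
  · exfalso
    rw [h1] at hdegX
    have hZ : (Fintype.card F : ℤ) - 1 = (k : ℤ) * (Fintype.card F : ℤ) := by exact_mod_cast hdegX
    nlinarith

end Cfsg.Agent.S2321
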