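import Mathlib
import Cfsg.Statements.S2323
import Cfsg.Agent.Helper14.SL2Res

set_option autoImplicit false
open Cfsg

namespace Cfsg.Agent.S2323

/-- Over a finite field F with q ≥ 4 elements, let u be the upper unitriangular matrix of SL₂ with off-diagonal entry 1. An irreducible complex character of SL₂ takes at u the value 1 if its degree is q + 1 and the value −1 if its degree is q − 1. -/
theorem result {F : Type*} [Field F] [Fintype F] (hq : 4 ≤ Fintype.card F) (χ : Matrix.SpecialLinearGroup (Fin 2) F → ℂ) (hχ : Cfsg.IsIrrCharacter (Matrix.SpecialLinearGroup (Fin 2) F) χ)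
    (u : Matrix.SpecialLinearGroup (Fin 2) F) (hu : (u : Matrix (Fin 2) (Fin 2) F) = !![1, 1; 0, 1]) :
    (χ 1 = (Fintype.card F : ℂ) + 1 → χ u = 1) ∧ (χ 1 = (Fintype.card F : ℂ) - 1 → χ u = -1) := by
  classical
  have hq4 : (4 : ℤ) ≤ (Fintype.card F : ℤ) := by exact_mod_cast hq
  have e00 : ((Matrix.SpecialLinearGroup.toGL u : Matrix.GeneralLinearGroup (Fin 2) F) :
      Matrix (Fin 2) (Fin 2) F) 0 0 = 1 := by
    show (u : Matrix (Fin 2) (Fin 2) F) 0 0 = 1
    rw [hu]; rfl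
  have e01 : ((Matrix.SpecialLinearGroup.toGL u : Matrix.GeneralLinearGroup (Fin 2) F) :
      Matrix (Fin 2) (Fin 2) F) 0 1 = 1 := by
    show (u : Matrix (Fin 2) (Fin 2) F) 0 1 = 1
    rw [hu]; rfl
  have e10 : ((Matrix.SpecialLinearGroup.toGL u : Matrix.GeneralLinearGroup (Fin 2) F) :
      Matrix (Fin 2) (Fin 2) F) 1 0 = 0 := by
    show (u : Matrix (Fin 2) (Fin 2) F) 1 0 = 0
    rw [hu]; rfl
  have e11 : ((Matrix.SpecialLinearGroup.toGL u : Matrix.GeneralLinearGroup (Fin 2) F) :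
      Matrix (Fin 2) (Fin 2) F) 1 1 = 1 := by
    show (u : Matrix (Fin 2) (Fin 2) F) 1 1 = 1
    rw [hu]; rfl
  have eu : ((Matrix.SpecialLinearGroup.toGL u : Matrix.GeneralLinearGroup (Fin 2) F) :
      Matrix (Fin 2) (Fin 2) F) = !![1, 1; 0, 1] := hu
  obtain ⟨X, k, hk0, hdegX, hres⟩ := Cfsg.Agent.Helper14.GL2.above ⟨χ, hχ⟩
  have hk1 : (1 : ℤ) ≤ k := by exact_mod_cast hk0
  change (X : Matrix.GeneralLinearGroup (Fin 2) F → ℂ) 1 = (k : ℂ) * χ 1 at hdegX
  change k = 1 → Cfsg.Agent.Helper14.GL2.res (X : Matrix.GeneralLinearGroup (Fin 2) F → ℂ) = χ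
    at hres
  have hval : k = 1 → χ u = (X : Matrix.GeneralLinearGroup (Fin 2) F → ℂ)
      (Matrix.SpecialLinearGroup.toGL u) := by
    intro hk
    rw [← hres hk]
    rfl
  have hk_of : (k : ℤ) = 1 → k = 1 := fun h => by exact_mod_cast h
  constructor
  · intro hdeg
    rw [hdeg] at hdegX
    rcases Cfsg.Agent.Helper14.GL2.classify (X : Matrix.GeneralLinearGroup (Fin 2) F → ℂ) X.2 with
      ⟨α, hα⟩ | ⟨α, hα⟩ | ⟨α, β, hαβ, hα⟩ | ⟨h1, _, _⟩
    · exfalso
      rw [hα, Cfsg.Agent.Helper14.GL2.lin_one] at hdegX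
      have hZ : (1 : ℤ) = (k : ℤ) * ((Fintype.card F : ℤ) + 1) := by exact_mod_cast hdegX
      nlinarith
    · exfalso
      rw [hα, Cfsg.Agent.Helper14.GL2.st_one] at hdegX
      have hZ : (Fintype.card F : ℤ) = (k : ℤ) * ((Fintype.card F : ℤ) + 1) := by
        exact_mod_cast hdegX
      nlinarith
    · have hdegX' := hdegX
      rw [hα, Cfsg.Agent.Helper14.GL2.ps_one] at hdegX'
      have hZ : (Fintype.card F : ℤ) + 1 = (k : ℤ) * ((Fintype.card F : ℤ) + 1) := by
        exact_mod_cast hdegX'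
      have hk : k = 1 := hk_of (by nlinarith)
      rw [hval hk, hα, Cfsg.Agent.Helper14.GL2.ps_jordan α β _ e10 (by rw [e00, e11])
        (by rw [e01]; exact one_ne_zero), e00, e11]
      simp
    · exfalso
      rw [h1] at hdegX
      have hZ : (Fintype.card F : ℤ) - 1 = (k : ℤ) * ((Fintype.card F : ℤ) + 1) := by
        exact_mod_cast hdegX
      nlinarith
  · intro hdeg
    rw [hdeg] at hdegX
    have hk23 : (k : ℤ) = 1 ∨ (2 : ℤ) ≤ k := by omega
    rcases Cfsg.Agent.Helper14.GL2.classify (X : Matrix.GeneralLinearGroup (Fin 2) F → ℂ) X.2 with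
      ⟨α, hα⟩ | ⟨α, hα⟩ | ⟨α, β, hαβ, hα⟩ | ⟨h1, hu', _⟩
    · exfalso
      rw [hα, Cfsg.Agent.Helper14.GL2.lin_one] at hdegX
      have hZ : (1 : ℤ) = (k : ℤ) * ((Fintype.card F : ℤ) - 1) := by exact_mod_cast hdegX
      nlinarith
    · exfalso
      rw [hα, Cfsg.Agent.Helper14.GL2.st_one] at hdegX
      have hZ : (Fintype.card F : ℤ) = (k : ℤ) * ((Fintype.card F : ℤ) - 1) := by
        exact_mod_cast hdegX
      rcases hk23 with h | h
      · rw [h] at hZ
        linarith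
      · nlinarith
    · exfalso
      rw [hα, Cfsg.Agent.Helper14.GL2.ps_one] at hdegX
      have hZ : (Fintype.card F : ℤ) + 1 = (k : ℤ) * ((Fintype.card F : ℤ) - 1) := by
        exact_mod_cast hdegX
      rcases hk23 with h | h
      · rw [h] at hZ
        linarith
      · nlinarith
    · have hdegX' := hdegX
      rw [h1] at hdegX'
      have hZ : (Fintype.card F : ℤ) - 1 = (k : ℤ) * ((Fintype.card F : ℤ) - 1) := by
        exact_mod_cast hdegX'
      have hk : k = 1 := hk_of (by nlinarith)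
      rw [hval hk]
      exact hu' _ eu

end Cfsg.Agent.S2323
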