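import Cfsg.Statements.S2328
import Cfsg.Agent.S2311
import Cfsg.Agent.S2327
import Cfsg.Agent.Helper8.SylU
import Cfsg.Agent.S0165
-- import your own Cfsg.Agent.* helpers here

set_option autoImplicit false
open Cfsg

namespace Cfsg.Agent.S2328

open Cfsg.Lie Cfsg.Agent.Helper8

/-- In a Chevalley group of type G₂, B₂, D₄, F₄, E₆, E₇ or E₈ over a finite field of characteristic p, the Steinberg character vanishes at every element whose order is divisible by p (every element that is not semisimple). -/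
theorem result {F : Type*} [Field F] [Fintype F] (p : ℕ) [Fact p.Prime] [CharP F p] (D : Cfsg.Lie.ChevalleyDatum) (hD : D ∈ [Cfsg.Lie.chevG2, Cfsg.Lie.chevB2, Cfsg.Lie.chevD4, Cfsg.Lie.chevF4, Cfsg.Lie.chevE6, Cfsg.Lie.chevE7, Cfsg.Lie.chevE8]) (g : ↥(D.group F)) (hg : p ∣ orderOf g) :
    D.steinbergCharacter F g = 0 := by
  classical
  have hp : p.Prime := Fact.out
  have hS : Std7 D := hD
  obtain ⟨m, ρ, hρ, hχ⟩ := Cfsg.Agent.S2311.result (F := F) D hD
  haveI := hρ
  have hdeg := Cfsg.Agent.S2327.result (F := F) D hD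
  have hm : m = Fintype.card F ^ (D.nroots / 2) := by
    have h1 : ρ.character 1 = (Module.finrank ℂ (Fin m → ℂ) : ℂ) := Representation.char_one ρ
    rw [hχ, hdeg, Module.finrank_fin_fun] at h1
    exact_mod_cast h1.symm
  obtain ⟨P, hP⟩ := sylow_posUnipotent p D hS (F := F)
  have hUG : D.posUnipotent F ≤ D.group F := posUnipotent_le_group D F
  have hcardU : Nat.card ((D.posUnipotent F).subgroupOf (D.group F)) = Fintype.card F ^ (D.nroots / 2) := by
    rw [Nat.card_congr (Subgroup.subgroupOfEquivOfLe hUG).toEquiv, Cfsg.Agent.S1027.result D hS]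
  have hPc : Nat.card (P : Subgroup ↥(D.group F)) = p ^ (Nat.card ↥(D.group F)).factorization p :=
    P.card_eq_multiplicity
  rw [hP, hcardU] at hPc
  have hG : Nat.card ↥(D.group F) ≠ 0 := Nat.card_pos.ne'
  rw [← hχ]
  refine Cfsg.Agent.S0165.result ρ p ((Nat.card ↥(D.group F)).factorization p) hp (Nat.ordProj_dvd _ _) ?_ ?_ g hg
  · intro h
    have := (hp.pow_dvd_iff_le_factorization hG).mp h
    omega
  · rw [Module.finrank_fin_fun, hm, hPc]

end Cfsg.Agent.S2328
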