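import Cfsg.Statements.S2330

set_option autoImplicit false
open Cfsg

namespace Cfsg.Agent.S2330

theorem gl_det_ne_zero {F : Type*} [Field F] (x : Matrix.GeneralLinearGroup (Fin 2) F) :
    (x : Matrix (Fin 2) (Fin 2) F).det ≠ 0 := by
  have h : IsUnit (x : Matrix (Fin 2) (Fin 2) F) := x.isUnit
  exact ((Matrix.isUnit_iff_isUnit_det _).mp h).ne_zero

theorem scal_det {F : Type*} [Field F] (a : Fˣ) :
    (!![(a : F), 0; 0, (a : F)] : Matrix (Fin 2) (Fin 2) F).det ≠ 0 := by
  rw [Matrix.det_fin_two]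
  simp

/-- scalar matrices -/
noncomputable def scal {F : Type*} [Field F] (a : Fˣ) : Matrix.GeneralLinearGroup (Fin 2) F :=
  Matrix.GeneralLinearGroup.mkOfDetNeZero !![(a : F), 0; 0, (a : F)] (scal_det a)

theorem scal_coe {F : Type*} [Field F] (a : Fˣ) :
    ((scal a : Matrix.GeneralLinearGroup (Fin 2) F) : Matrix (Fin 2) (Fin 2) F) = !![(a : F), 0; 0, (a : F)] := rfl

theorem comp_det {F : Type*} [Field F] (t : F) (d : Fˣ) :
    (!![0, -(d : F); 1, t] : Matrix (Fin 2) (Fin 2) F).det ≠ 0 := by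
  rw [Matrix.det_fin_two]
  simp

/-- companion matrices -/
noncomputable def comp {F : Type*} [Field F] (t : F) (d : Fˣ) : Matrix.GeneralLinearGroup (Fin 2) F :=
  Matrix.GeneralLinearGroup.mkOfDetNeZero !![0, -(d : F); 1, t] (comp_det t d)

theorem comp_coe {F : Type*} [Field F] (t : F) (d : Fˣ) :
    ((comp t d : Matrix.GeneralLinearGroup (Fin 2) F) : Matrix (Fin 2) (Fin 2) F) = !![0, -(d : F); 1, t] := rfl

theorem scal_conj {F : Type*} [Field F] (a : Fˣ) (c : Matrix.GeneralLinearGroup (Fin 2) F) :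
    c * scal a * c⁻¹ = scal a := by
  rw [mul_inv_eq_iff_eq_mul]
  apply Units.ext
  rw [Units.val_mul, Units.val_mul, scal_coe]
  ext i j
  fin_cases i <;> fin_cases j <;> simp [Matrix.mul_apply, Fin.sum_univ_two, mul_comm]

theorem conj_comp {F : Type*} [Field F] (g : Matrix.GeneralLinearGroup (Fin 2) F) (t : F) (d : Fˣ)
    (ht : t = (g : Matrix (Fin 2) (Fin 2) F) 0 0 + (g : Matrix (Fin 2) (Fin 2) F) 1 1)
    (hd : (d : F) = (g : Matrix (Fin 2) (Fin 2) F) 0 0 * (g : Matrix (Fin 2) (Fin 2) F) 1 1 -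
      (g : Matrix (Fin 2) (Fin 2) F) 0 1 * (g : Matrix (Fin 2) (Fin 2) F) 1 0)
    (hg : ¬ ((g : Matrix (Fin 2) (Fin 2) F) 0 1 = 0 ∧ (g : Matrix (Fin 2) (Fin 2) F) 1 0 = 0 ∧
      (g : Matrix (Fin 2) (Fin 2) F) 0 0 = (g : Matrix (Fin 2) (Fin 2) F) 1 1)) :
    IsConj (comp t d) g := by
  obtain ⟨G, hG⟩ : ∃ G : Matrix (Fin 2) (Fin 2) F, G = (g : Matrix (Fin 2) (Fin 2) F) := ⟨_, rfl⟩
  simp only [← hG] at hg ht hd
  obtain ⟨x, y, hD⟩ : ∃ x y : F, G 1 0 * x ^ 2 + (G 1 1 - G 0 0) * x * y - G 0 1 * y ^ 2 ≠ 0 := by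
    by_cases hc : G 1 0 = 0
    · by_cases hb : G 0 1 = 0
      · refine ⟨1, 1, ?_⟩
        rw [hc, hb]
        intro h
        apply hg
        refine ⟨hb, hc, ?_⟩
        linear_combination -h
      · refine ⟨0, 1, ?_⟩
        simpa using hb
    · refine ⟨1, 0, ?_⟩
      simpa using hc
  have hdP : (!![x, G 0 0 * x + G 0 1 * y; y, G 1 0 * x + G 1 1 * y] : Matrix (Fin 2) (Fin 2) F).det ≠ 0 := by
    rw [Matrix.det_fin_two]
    simp
    intro h
    apply hD
    linear_combination h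
  rw [isConj_iff]
  refine ⟨Matrix.GeneralLinearGroup.mkOfDetNeZero _ hdP, ?_⟩
  rw [mul_inv_eq_iff_eq_mul]
  apply Units.ext
  rw [Units.val_mul, Units.val_mul, comp_coe, ← hG, hd, ht]
  show !![x, G 0 0 * x + G 0 1 * y; y, G 1 0 * x + G 1 1 * y] * !![0, -(G 0 0 * G 1 1 - G 0 1 * G 1 0); 1, G 0 0 + G 1 1] = G * !![x, G 0 0 * x + G 0 1 * y; y, G 1 0 * x + G 1 1 * y]
  ext i j
  fin_cases i <;> fin_cases j <;>
    simp [Matrix.mul_apply, Fin.sum_univ_two] <;> ring

theorem result {F : Type*} [Field F] [Fintype F] :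
    Nat.card (ConjClasses (Matrix.GeneralLinearGroup (Fin 2) F)) = Fintype.card F ^ 2 - 1 := by
  classical
  let f : Fˣ ⊕ (F × Fˣ) → ConjClasses (Matrix.GeneralLinearGroup (Fin 2) F) := fun o =>
    match o with
    | Sum.inl a => ConjClasses.mk (scal a)
    | Sum.inr td => ConjClasses.mk (comp td.1 td.2)
  have hf : Function.Bijective f := by
    constructor
    · intro o o' h
      rcases o with a | ⟨t, d⟩ <;> rcases o' with a' | ⟨t', d'⟩
      · simp only [f] at h
        rw [ConjClasses.mk_eq_mk_iff_isConj, isConj_iff] at h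
        obtain ⟨c, hc⟩ := h
        rw [scal_conj] at hc
        have := congrArg (fun x : Matrix.GeneralLinearGroup (Fin 2) F => (x : Matrix (Fin 2) (Fin 2) F) 0 0) hc
        simp [scal_coe] at this
        rw [Units.ext this]
      · exfalso
        simp only [f] at h
        rw [ConjClasses.mk_eq_mk_iff_isConj, isConj_iff] at h
        obtain ⟨c, hc⟩ := h
        rw [scal_conj] at hc
        have := congrArg (fun x : Matrix.GeneralLinearGroup (Fin 2) F => (x : Matrix (Fin 2) (Fin 2) F) 1 0) hc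
        simp [scal_coe, comp_coe] at this
      · exfalso
        simp only [f] at h
        rw [ConjClasses.mk_eq_mk_iff_isConj, isConj_comm, isConj_iff] at h
        obtain ⟨c, hc⟩ := h
        rw [scal_conj] at hc
        have := congrArg (fun x : Matrix.GeneralLinearGroup (Fin 2) F => (x : Matrix (Fin 2) (Fin 2) F) 1 0) hc
        simp [scal_coe, comp_coe] at this
      · simp only [f] at h
        rw [ConjClasses.mk_eq_mk_iff_isConj, isConj_iff] at h
        obtain ⟨c, hc⟩ := h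
        have hc' := congrArg (fun x : Matrix.GeneralLinearGroup (Fin 2) F => (x : Matrix (Fin 2) (Fin 2) F)) hc
        simp only [Units.val_mul] at hc'
        have h1 := Matrix.trace_units_conj c ((comp t d : Matrix.GeneralLinearGroup (Fin 2) F) : Matrix (Fin 2) (Fin 2) F)
        have h2 := Matrix.det_units_conj c ((comp t d : Matrix.GeneralLinearGroup (Fin 2) F) : Matrix (Fin 2) (Fin 2) F)
        rw [hc'] at h1 h2
        rw [comp_coe, comp_coe, Matrix.trace_fin_two] at h1
        rw [comp_coe, comp_coe, Matrix.det_fin_two, Matrix.det_fin_two] at h2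
        simp at h1 h2
        rw [h1, Units.ext h2]
    · intro C
      obtain ⟨g, rfl⟩ := ConjClasses.mk_surjective C
      by_cases hg : ((g : Matrix (Fin 2) (Fin 2) F) 0 1 = 0 ∧ (g : Matrix (Fin 2) (Fin 2) F) 1 0 = 0 ∧
          (g : Matrix (Fin 2) (Fin 2) F) 0 0 = (g : Matrix (Fin 2) (Fin 2) F) 1 1)
      · obtain ⟨h01, h10, had⟩ := hg
        have ha : (g : Matrix (Fin 2) (Fin 2) F) 0 0 ≠ 0 := by
          intro h0
          apply gl_det_ne_zero g
          rw [Matrix.det_fin_two, h01, h0]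
          ring
        refine ⟨Sum.inl (Units.mk0 _ ha), ?_⟩
        simp only [f]
        congr 1
        apply Units.ext
        rw [scal_coe]
        ext i j
        fin_cases i <;> fin_cases j <;> simp [h01, h10, had]
      · refine ⟨Sum.inr ((g : Matrix (Fin 2) (Fin 2) F) 0 0 + (g : Matrix (Fin 2) (Fin 2) F) 1 1, Units.mk0 _ (gl_det_ne_zero g)), ?_⟩
        simp only [f]
        rw [ConjClasses.mk_eq_mk_iff_isConj]
        exact conj_comp g _ _ rfl (by rw [Units.val_mk0, Matrix.det_fin_two]) hg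
  rw [← Nat.card_congr (Equiv.ofBijective f hf), Nat.card_sum, Nat.card_prod, Nat.card_units, Nat.card_eq_fintype_card]
  obtain ⟨k, hk⟩ : ∃ k, Fintype.card F = k + 1 := ⟨Fintype.card F - 1, by have := Fintype.card_pos (α := F); omega⟩
  rw [hk]
  have e : (k + 1) ^ 2 = (k + (k + 1) * k) + 1 := by ring
  rw [e, Nat.add_sub_cancel, Nat.add_sub_cancel]

end Cfsg.Agent.S2330
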