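import Cfsg.Statements.S2331

set_option autoImplicit false
open Cfsg

namespace Cfsg.Agent.S2331

theorem two_zero (F : Type*) [Field F] [CharP F 2] : (2 : F) = 0 := by
  have := CharP.cast_eq_zero F 2
  exact_mod_cast this

theorem sq_inj {F : Type*} [Field F] [CharP F 2] (s t : F) (h : s ^ 2 = t ^ 2) : s = t := by
  have h2 := two_zero F
  have : (s - t) ^ 2 = 0 := by
    linear_combination h + (t ^ 2 - s * t) * h2
  have := pow_eq_zero_iff (two_ne_zero) |>.mp this
  exact sub_eq_zero.mp this

theorem sq_surj {F : Type*} [Field F] [Finite F] [CharP F 2] (x : F) : ∃ s : F, s ^ 2 = x := by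
  have hinj : Function.Injective (fun s : F => s ^ 2) := fun s t h => sq_inj s t h
  exact (Finite.injective_iff_surjective.mp hinj) x

theorem comp_det (F : Type*) [Field F] [CharP F 2] (t : F) :
    (!![0, 1; 1, t] : Matrix (Fin 2) (Fin 2) F).det = 1 := by
  have h2 := two_zero F
  rw [Matrix.det_fin_two]
  simp
  linear_combination (-1 : F) * h2

/-- companion matrix of `X^2 + t X + 1` -/
def comp (F : Type*) [Field F] [CharP F 2] (t : F) : Matrix.SpecialLinearGroup (Fin 2) F :=
  ⟨!![0, 1; 1, t], comp_det F t⟩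

theorem comp_coe (F : Type*) [Field F] [CharP F 2] (t : F) :
    (comp F t).1 = !![0, 1; 1, t] := rfl

theorem conj_comp {F : Type*} [Field F] [Finite F] [CharP F 2] (g : Matrix.SpecialLinearGroup (Fin 2) F)
    (hg : g ≠ 1) : IsConj (comp F (g.1 0 0 + g.1 1 1)) g := by
  have h2 := two_zero F
  have hdet : g.1 0 0 * g.1 1 1 - g.1 0 1 * g.1 1 0 = 1 := by
    have := g.2
    rw [Matrix.det_fin_two] at this
    exact this
  obtain ⟨x, y, hD⟩ : ∃ x y : F, g.1 1 0 * x ^ 2 + (g.1 1 1 - g.1 0 0) * x * y - g.1 0 1 * y ^ 2 ≠ 0 := by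
    by_cases hc : g.1 1 0 = 0
    · by_cases hb : g.1 0 1 = 0
      · refine ⟨1, 1, ?_⟩
        rw [hc, hb]
        intro h
        have had : g.1 0 0 = g.1 1 1 := by linear_combination -h
        apply hg
        have ha : g.1 0 0 = 1 := by
          have : (g.1 0 0 - 1) ^ 2 = 0 := by
            rw [← had, hb] at hdet
            linear_combination hdet + (1 - g.1 0 0) * h2
          have := pow_eq_zero_iff (two_ne_zero) |>.mp this
          exact sub_eq_zero.mp this
        apply Subtype.ext
        ext i j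
        fin_cases i <;> fin_cases j
        · simpa using ha
        · simpa using hb
        · simpa using hc
        · simpa using had ▸ ha
      · refine ⟨0, 1, ?_⟩
        simpa using hb
    · refine ⟨1, 0, ?_⟩
      simpa using hc
  obtain ⟨s, hs⟩ := sq_surj (g.1 1 0 * x ^ 2 + (g.1 1 1 - g.1 0 0) * x * y - g.1 0 1 * y ^ 2)⁻¹
  have hs' : s ^ 2 * (g.1 1 0 * x ^ 2 + (g.1 1 1 - g.1 0 0) * x * y - g.1 0 1 * y ^ 2) = 1 := by
    rw [hs]; exact inv_mul_cancel₀ hD
  have hdP : (!![s * x, s * (g.1 0 0 * x + g.1 0 1 * y); s * y, s * (g.1 1 0 * x + g.1 1 1 * y)] : Matrix (Fin 2) (Fin 2) F).det = 1 := by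
    rw [Matrix.det_fin_two]
    simp
    linear_combination hs'
  let P : Matrix.SpecialLinearGroup (Fin 2) F := ⟨!![s * x, s * (g.1 0 0 * x + g.1 0 1 * y); s * y, s * (g.1 1 0 * x + g.1 1 1 * y)], hdP⟩
  rw [isConj_iff]
  refine ⟨P, ?_⟩
  rw [mul_inv_eq_iff_eq_mul]
  apply Subtype.ext
  show !![s * x, s * (g.1 0 0 * x + g.1 0 1 * y); s * y, s * (g.1 1 0 * x + g.1 1 1 * y)] * !![0, 1; 1, g.1 0 0 + g.1 1 1] = g.1 * !![s * x, s * (g.1 0 0 * x + g.1 0 1 * y); s * y, s * (g.1 1 0 * x + g.1 1 1 * y)]
  ext i j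
  fin_cases i <;> fin_cases j <;>
    simp [Matrix.mul_apply, Fin.sum_univ_two]
  · ring
  · linear_combination (s * x) * hdet + (s * x) * h2
  · ring
  · linear_combination (s * y) * hdet + (s * y) * h2

theorem trace_conj {F : Type*} [Field F] (c a : Matrix.SpecialLinearGroup (Fin 2) F) :
    Matrix.trace (c * a * c⁻¹).1 = Matrix.trace a.1 := by
  have h1 : (c * a * c⁻¹).1 = (c * a).1 * (c⁻¹).1 := rfl
  have h2 : (c⁻¹).1 * (c * a).1 = (c⁻¹ * (c * a)).1 := rfl
  rw [h1, Matrix.trace_mul_comm, h2, inv_mul_cancel_left]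

theorem result {F : Type*} [Field F] [Fintype F] [CharP F 2] :
    Nat.card (ConjClasses (Matrix.SpecialLinearGroup (Fin 2) F)) = Fintype.card F + 1 := by
  classical
  let f : Option F → ConjClasses (Matrix.SpecialLinearGroup (Fin 2) F) := fun o =>
    match o with
    | none => ConjClasses.mk 1
    | some t => ConjClasses.mk (comp F t)
  have hcomp1 : ∀ t : F, comp F t ≠ 1 := by
    intro t h
    have := congrArg (fun x : Matrix.SpecialLinearGroup (Fin 2) F => x.1 0 1) h
    simp [comp_coe] at this
  have hf : Function.Bijective f := by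
    constructor
    · intro o o' h
      rcases o with _ | t <;> rcases o' with _ | t'
      · rfl
      · exfalso
        simp only [f] at h
        rw [ConjClasses.mk_eq_mk_iff_isConj, isConj_one_right] at h
        exact hcomp1 t' h
      · exfalso
        simp only [f] at h
        rw [ConjClasses.mk_eq_mk_iff_isConj, isConj_one_left] at h
        exact hcomp1 t h
      · simp only [f] at h
        rw [ConjClasses.mk_eq_mk_iff_isConj, isConj_iff] at h
        obtain ⟨c, hc⟩ := h
        have := trace_conj c (comp F t)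
        rw [hc, comp_coe, comp_coe, Matrix.trace_fin_two, Matrix.trace_fin_two] at this
        simp at this
        rw [this]
    · intro C
      obtain ⟨g, rfl⟩ := ConjClasses.mk_surjective C
      by_cases hg : g = 1
      · exact ⟨none, by rw [hg]⟩
      · refine ⟨some (g.1 0 0 + g.1 1 1), ?_⟩
        simp only [f]
        rw [ConjClasses.mk_eq_mk_iff_isConj]
        exact conj_comp g hg
  rw [← Nat.card_congr (Equiv.ofBijective f hf), Nat.card_eq_fintype_card, Fintype.card_option]

end Cfsg.Agent.S2331
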