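import Cfsg.Statements.S2364
import Mathlib
import Cfsg.Agent.S0242

set_option autoImplicit false
open Cfsg

namespace Cfsg.Agent.S2364

section numeric

lemma prime_dvd_card_SL {F : Type*} [Field F] [Fintype F] (p : ℕ) [Fact p.Prime] [CharP F p]
    (m : ℕ) (hm : 2 ≤ m) (r : ℕ) (hr : r.Prime)
    (h : r = p ∨ ∃ i, 1 ≤ i ∧ i ≤ m ∧ r ∣ Fintype.card F ^ i - 1) :
    r ∣ Nat.card (Matrix.SpecialLinearGroup (Fin m) F) := by
  set q := Fintype.card F with hq
  have hq2 : 2 ≤ q := Fintype.one_lt_card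
  obtain ⟨m', rfl⟩ : ∃ m', m = m' + 1 := ⟨m - 1, by omega⟩
  have h0 := Cfsg.Agent.S0242.result (F := F) (q := q) rfl (m' + 1) (by omega)
  rw [Fin.prod_univ_castSucc] at h0
  simp only [Fin.val_castSucc, Fin.val_last] at h0
  have h1 : q ^ (m' + 1) - q ^ m' = (q - 1) * q ^ m' := by
    rw [pow_succ, Nat.sub_one_mul, mul_comm]
  rw [h1, mul_comm _ ((q - 1) * q ^ m'), mul_assoc] at h0
  have h2 : Nat.card (Matrix.SpecialLinearGroup (Fin (m' + 1)) F)
      = q ^ m' * ∏ i : Fin m', (q ^ (m' + 1) - q ^ (i : ℕ)) :=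
    Nat.eq_of_mul_eq_mul_left (by omega) h0
  rw [h2]
  rcases h with rfl | ⟨i, hi1, hi2, hri⟩
  · apply Dvd.dvd.mul_right
    have hpq : r ∣ q := by
      have h3 := addOrderOf_dvd_natCard (1 : F)
      have h4 := CharP.eq F (CharP.addOrderOf_one F) (inferInstance : CharP F r)
      rwa [h4, Nat.card_eq_fintype_card] at h3
    exact hpq.trans (dvd_pow_self q (by omega))
  · apply Dvd.dvd.mul_left
    have : ∃ i', 2 ≤ i' ∧ i' ≤ m' + 1 ∧ r ∣ q ^ i' - 1 := by
      by_cases hi : 2 ≤ i
      · exact ⟨i, hi, hi2, hri⟩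
      · have : i = 1 := by omega
        subst this
        refine ⟨2, le_refl _, hm, ?_⟩
        rw [pow_one] at hri
        have h5 := Nat.sub_dvd_pow_sub_pow (x := q) (y := 1) (n := 2)
        rw [one_pow] at h5
        exact hri.trans h5
    obtain ⟨i', hi'2, hi'm, hri'⟩ := this
    have hmem : (⟨m' + 1 - i', by omega⟩ : Fin m') ∈ Finset.univ := Finset.mem_univ _
    refine Dvd.dvd.trans ?_ (Finset.dvd_prod_of_mem _ hmem)
    have h6 : q ^ (m' + 1) - q ^ (m' + 1 - i') = q ^ (m' + 1 - i') * (q ^ i' - 1) := by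
      rw [Nat.mul_sub_one, ← pow_add]
      congr 2
      omega
    show r ∣ q ^ (m' + 1) - q ^ (m' + 1 - i')
    rw [h6]
    exact Dvd.dvd.mul_left hri' _

end numeric

section core
variable {F : Type*} [Field F] [Fintype F]

lemma card_modEq_fix {M : Type*} [AddCommGroup M] [Module F M] [Module.Finite F M]
    (r : ℕ) [Fact r.Prime] (S : M →ₗ[F] M) (hS : S ^ r = 1) :
    Fintype.card F ^ Module.finrank F M ≡
      Fintype.card F ^ Module.finrank F (LinearMap.ker (S - 1)) [MOD r] := by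
  classical
  have hrpos : 0 < r := (Fact.out : r.Prime).pos
  let u : (Module.End F M)ˣ := ⟨S, S ^ (r - 1),
    by rw [← pow_succ', Nat.sub_add_cancel hrpos, hS],
    by rw [← pow_succ, Nat.sub_add_cancel hrpos, hS]⟩
  have hur : u ^ r = 1 := Units.ext (by simpa [u] using hS)
  have hG : IsPGroup r (Subgroup.zpowers u) := by
    rintro ⟨g, j, rfl⟩
    refine ⟨1, ?_⟩
    apply Subtype.ext
    show (u ^ j) ^ (r ^ 1) = 1
    rw [pow_one, ← zpow_natCast, ← zpow_mul, mul_comm, zpow_mul, zpow_natCast, hur, one_zpow]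
  haveI : Finite M := Module.finite_of_finite F
  have h1 := hG.card_modEq_card_fixedPoints M
  have h2 : Nat.card (MulAction.fixedPoints (Subgroup.zpowers u) M)
      = Nat.card (LinearMap.ker (S - 1)) := by
    apply Nat.card_congr
    refine Equiv.subtypeEquivRight (fun v => ?_)
    rw [MulAction.mem_fixedPoints, LinearMap.mem_ker, LinearMap.sub_apply, sub_eq_zero]
    constructor
    · intro h
      exact h ⟨u, Subgroup.mem_zpowers u⟩
    · intro h g
      have hle : Subgroup.zpowers u ≤ MulAction.stabilizer (Module.End F M)ˣ v :=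
        (Subgroup.zpowers_le).mpr (MulAction.mem_stabilizer_iff.mpr h)
      exact MulAction.mem_stabilizer_iff.mp (hle g.2)
  rw [h2, Module.natCard_eq_pow_finrank (K := F) (V := M),
    Module.natCard_eq_pow_finrank (K := F) (V := LinearMap.ker (S - 1)),
    Nat.card_eq_fintype_card] at h1
  exact h1

lemma fix_dichotomy {M : Type*} [AddCommGroup M] [Module F M] [Module.Finite F M]
    (r : ℕ) [Fact r.Prime] (hrq : ¬ r ∣ Fintype.card F) (n : ℕ)
    (hr : ∀ i, 1 ≤ i → i ≤ n - 2 → ¬ r ∣ Fintype.card F ^ i - 1)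
    (S : M →ₗ[F] M) (hS : S ^ r = 1) :
    Module.finrank F (LinearMap.ker (S - 1)) = Module.finrank F M ∨
      n - 1 + Module.finrank F (LinearMap.ker (S - 1)) ≤ Module.finrank F M := by
  have hfd : Module.finrank F (LinearMap.ker (S - 1)) ≤ Module.finrank F M :=
    Submodule.finrank_le _
  have h := card_modEq_fix r S hS
  generalize Module.finrank F (LinearMap.ker (S - 1)) = f at *
  generalize Module.finrank F M = d at *
  generalize Fintype.card F = q at *
  by_cases hdf : f = d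
  · left; exact hdf
  · right
    have hdvd : r ∣ q ^ (d - f) - 1 := by
      have h3 : q ^ d = q ^ f * q ^ (d - f) := by
        rw [← pow_add]; congr 1; omega
      have hle : q ^ f ≤ q ^ d := by
        rw [h3]
        by_cases hq0 : q = 0
        · subst hq0
          exfalso; exact hrq (dvd_zero r)
        · exact Nat.le_mul_of_pos_right _ (Nat.pos_of_ne_zero (pow_ne_zero _ hq0))
      have h4 : r ∣ q ^ d - q ^ f := (Nat.modEq_iff_dvd' hle).mp h.symm
      rw [h3, ← Nat.mul_sub_one] at h4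
      exact ((Fact.out : r.Prime).dvd_mul.mp h4).resolve_left
        (fun h5 => hrq ((Fact.out : r.Prime).dvd_of_dvd_pow h5))
    by_contra hcon
    exact hr (d - f) (by omega) (by omega) hdvd

lemma inv_dichotomy {V : Type*} [AddCommGroup V] [Module F V] [Module.Finite F V]
    (r : ℕ) [Fact r.Prime] (hrq : ¬ r ∣ Fintype.card F) (n : ℕ)
    (hr : ∀ i, 1 ≤ i → i ≤ n - 2 → ¬ r ∣ Fintype.card F ^ i - 1)
    (T : V →ₗ[F] V) (hT : T ^ r = 1) (W : Submodule F V) (hW : ∀ w ∈ W, T w ∈ W) :
    W ≤ LinearMap.ker (T - 1) ∨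
      n - 1 + Module.finrank F ↥(W ⊓ LinearMap.ker (T - 1)) ≤ Module.finrank F W := by
  have hSr : (T.restrict hW) ^ r = 1 := by
    rw [Module.End.pow_restrict]
    ext x
    simp [hT]
  have hmap : Submodule.map W.subtype (LinearMap.ker (T.restrict hW - 1))
      = W ⊓ LinearMap.ker (T - 1) := by
    ext v
    simp only [Submodule.mem_map, LinearMap.mem_ker, Submodule.mem_inf, LinearMap.sub_apply,
      Module.End.one_apply, Submodule.subtype_apply]
    constructor
    · rintro ⟨x, hx, rfl⟩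
      refine ⟨x.2, ?_⟩
      have := congrArg Subtype.val hx
      simpa using this
    · rintro ⟨hv, hv2⟩
      exact ⟨⟨v, hv⟩, Subtype.ext (by simpa using hv2), rfl⟩
  have hfin : Module.finrank F ↥(LinearMap.ker (T.restrict hW - 1))
      = Module.finrank F ↥(W ⊓ LinearMap.ker (T - 1)) := by
    rw [← hmap, Submodule.finrank_map_subtype_eq]
  rcases fix_dichotomy r hrq n hr (T.restrict hW) hSr with h | h
  · left
    rw [hfin] at h
    have := Submodule.eq_of_le_of_finrank_eq (inf_le_left : W ⊓ LinearMap.ker (T - 1) ≤ W) h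
    exact inf_eq_left.mp this
  · right; rw [hfin] at h; exact h

lemma core {V : Type*} [AddCommGroup V] [Module F V] [Module.Finite F V]
    (r : ℕ) [Fact r.Prime] (hrq : ¬ r ∣ Fintype.card F)
    (n : ℕ) (hn : 4 ≤ n) (hV : Module.finrank F V = n)
    (T N : V →ₗ[F] V) (hT : T ^ r = 1) (hT1 : T ≠ 1) (hTN : T * N = N * T) (hN0 : N ≠ 0)
    (hNnil : IsNilpotent N) :
    ∃ i, 1 ≤ i ∧ i ≤ n - 2 ∧ r ∣ Fintype.card F ^ i - 1 := by
  classical
  by_contra hcon
  have hr : ∀ i, 1 ≤ i → i ≤ n - 2 → ¬ r ∣ Fintype.card F ^ i - 1 := by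
    intro i h1 h2 h3
    exact hcon ⟨i, h1, h2, h3⟩
  have hcomm : ∀ v, T (N v) = N (T v) := fun v => by
    have := LinearMap.congr_fun hTN v
    simpa using this
  have hFix1 : Module.finrank F (LinearMap.ker (T - 1)) ≤ 1 := by
    rcases inv_dichotomy r hrq n hr T hT ⊤ (fun w _ => Submodule.mem_top) with h | h
    · exfalso; apply hT1; ext v
      have := h (Submodule.mem_top : v ∈ ⊤)
      simpa [sub_eq_zero] using this
    · rw [top_inf_eq, finrank_top, hV] at h; omega
  have hKinv : ∀ w ∈ LinearMap.ker N, T w ∈ LinearMap.ker N := by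
    intro w hw
    rw [LinearMap.mem_ker] at hw ⊢
    rw [← hcomm, hw, map_zero]
  have hIinv : ∀ w ∈ LinearMap.range N, T w ∈ LinearMap.range N := by
    rintro _ ⟨v, rfl⟩; exact ⟨T v, (hcomm v).symm⟩
  have hsum : Module.finrank F (LinearMap.range N) + Module.finrank F (LinearMap.ker N) = n := by
    rw [← hV]; exact LinearMap.finrank_range_add_finrank_ker N
  have hKtop : LinearMap.ker N ≠ ⊤ := fun h => hN0 (LinearMap.ker_eq_top.mp h)
  have hKlt : Module.finrank F (LinearMap.ker N) < n := hV ▸ Submodule.finrank_lt hKtop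
  have hIK : LinearMap.range N ⊓ LinearMap.ker N ≠ ⊥ := by
    obtain ⟨k, hk⟩ := hNnil
    have hex : ∃ k, N ^ k = 0 := ⟨k, hk⟩
    have hk0 : N ^ (Nat.find hex) = 0 := Nat.find_spec hex
    have hk0min : ∀ j < Nat.find hex, N ^ j ≠ 0 := fun j hj => Nat.find_min hex hj
    have hk0ne0 : Nat.find hex ≠ 0 := by
      intro h0
      rw [h0, pow_zero] at hk0
      have hsub : ∀ v : V, v = 0 := fun v => by
        have := LinearMap.congr_fun hk0 v
        simpa using this
      have : Module.finrank F V = 0 := by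
        haveI : Subsingleton V := ⟨fun a b => (hsub a).trans (hsub b).symm⟩
        exact Module.finrank_zero_of_subsingleton
      omega
    have hk0ne1 : Nat.find hex ≠ 1 := by
      intro h1; rw [h1, pow_one] at hk0; exact hN0 hk0
    obtain ⟨j, hj⟩ : ∃ j, Nat.find hex = j + 2 := ⟨Nat.find hex - 2, by omega⟩
    have hne : N ^ (j + 1) ≠ 0 := hk0min (j+1) (by omega)
    obtain ⟨w, hw⟩ : ∃ w, (N ^ (j + 1)) w ≠ 0 := by
      by_contra hall
      apply hne
      ext v
      by_contra hv
      exact hall ⟨v, hv⟩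
    intro hbot
    have hmem : (N ^ (j + 1)) w ∈ LinearMap.range N ⊓ LinearMap.ker N := by
      refine ⟨⟨(N ^ j) w, ?_⟩, ?_⟩
      · rw [pow_succ']; rfl
      · show N ((N ^ (j+1)) w) = 0
        have : N ((N ^ (j+1)) w) = (N ^ (j + 2)) w := by rw [pow_succ' N (j+1)]; rfl
        rw [this, ← hj, hk0]; rfl
    rw [hbot] at hmem
    exact hw ((Submodule.mem_bot F).mp hmem)
  have hK := inv_dichotomy r hrq n hr T hT (LinearMap.ker N) hKinv
  have hI := inv_dichotomy r hrq n hr T hT (LinearMap.range N) hIinv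
  have hKne : Module.finrank F (LinearMap.ker N) ≠ 0 := fun h =>
    hIK (by rw [Submodule.finrank_eq_zero.mp h, inf_bot_eq])
  rcases hK with hK | hK <;> rcases hI with hI | hI
  · have h1 := Submodule.finrank_mono hK
    have h2 := Submodule.finrank_mono hI
    omega
  · have h0 : Module.finrank F ↥(LinearMap.range N ⊓ LinearMap.ker (T - 1)) = 0 := by omega
    rw [Submodule.finrank_eq_zero] at h0
    exact hIK (le_bot_iff.mp (h0 ▸ inf_le_inf_left (LinearMap.range N) hK))
  · have h0 : Module.finrank F ↥(LinearMap.ker N ⊓ LinearMap.ker (T - 1)) = 0 := by omega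
    rw [Submodule.finrank_eq_zero] at h0
    apply hIK
    rw [inf_comm]
    exact le_bot_iff.mp (h0 ▸ inf_le_inf_left (LinearMap.ker N) hI)
  · omega

end core

section group
variable {F : Type*} [Field F] [Fintype F]

lemma mem_center_of_coe_eq_smul_one {n : ℕ} (A : Matrix.SpecialLinearGroup (Fin n) F) (c : F)
    (h : (A : Matrix (Fin n) (Fin n) F) = c • (1 : Matrix (Fin n) (Fin n) F)) :
    A ∈ Subgroup.center (Matrix.SpecialLinearGroup (Fin n) F) := by
  rw [Subgroup.mem_center_iff]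
  intro g
  apply Subtype.ext
  simp only [Matrix.SpecialLinearGroup.coe_mul]
  rw [h]
  simp

lemma center_pow_char_eq_one (p : ℕ) [Fact p.Prime] [CharP F p] {n : ℕ} (hn : 1 ≤ n)
    (z : Matrix.SpecialLinearGroup (Fin n) F)
    (hz : z ∈ Subgroup.center (Matrix.SpecialLinearGroup (Fin n) F)) (hzp : z ^ p = 1) : z = 1 := by
  haveI : Nonempty (Fin n) := ⟨⟨0, hn⟩⟩
  obtain ⟨ν, -, hν⟩ := Matrix.SpecialLinearGroup.mem_center_iff.mp hz
  have h1 : ((z ^ p : Matrix.SpecialLinearGroup (Fin n) F) : Matrix (Fin n) (Fin n) F) = 1 := by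
    rw [hzp]; rfl
  rw [Matrix.SpecialLinearGroup.coe_pow, ← hν, ← map_pow, ← map_one (Matrix.scalar (Fin n))] at h1
  have h2 : ν ^ p = 1 := Matrix.scalar_inj.mp h1
  have h3 : ν = 1 := by
    apply frobenius_inj F p
    rw [frobenius_def, frobenius_def, h2, one_pow]
  apply Subtype.ext
  rw [← hν, h3, map_one]
  rfl

end group

/-- Let F be a finite field of characteristic p, n ≥ 4, and let a, b be commuting elements of PSL(n, F) with a of order p. Then every prime divisor of the order of b divides the order of SL(n − 2, F). -/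
theorem result {F : Type*} [Field F] [Fintype F] (p : ℕ) [Fact p.Prime] [CharP F p] (n : ℕ) (hn : 4 ≤ n)
    (a b : Matrix.ProjectiveSpecialLinearGroup (Fin n) F) (ha : orderOf a = p) (hab : Commute a b) :
    (orderOf b).primeFactors ⊆ (Nat.card (Matrix.SpecialLinearGroup (Fin (n - 2)) F)).primeFactors := by
  classical
  intro r hr
  rw [Nat.mem_primeFactors] at hr ⊢
  obtain ⟨hrp, hrb, hb0⟩ := hr
  haveI : Fact r.Prime := ⟨hrp⟩
  have hp : p.Prime := Fact.out
  have hm : 2 ≤ n - 2 := by omega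
  haveI : Nonempty (Fin n) := ⟨⟨0, by omega⟩⟩
  refine ⟨hrp, ?_, Nat.card_pos.ne'⟩
  apply prime_dvd_card_SL p (n - 2) hm r hrp
  by_cases hrp' : r = p
  · left; exact hrp'
  right
  -- replace b by an element of order r
  have hb'ord : orderOf (b ^ (orderOf b / r)) = r := orderOf_pow_orderOf_div hb0 hrb
  have hab' : Commute a (b ^ (orderOf b / r)) := hab.pow_right _
  generalize b ^ (orderOf b / r) = b' at hb'ord hab'
  obtain ⟨A, rfl⟩ := QuotientGroup.mk_surjective a
  obtain ⟨B, rfl⟩ := QuotientGroup.mk_surjective b'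
  -- centre facts
  have hAp : A ^ p ∈ Subgroup.center (Matrix.SpecialLinearGroup (Fin n) F) := by
    have h1 := pow_orderOf_eq_one (QuotientGroup.mk A : Matrix.ProjectiveSpecialLinearGroup (Fin n) F)
    rw [ha, ← QuotientGroup.mk_pow] at h1
    exact (QuotientGroup.eq_one_iff _).mp h1
  have hAnotZ : A ∉ Subgroup.center (Matrix.SpecialLinearGroup (Fin n) F) := by
    intro h
    have h1 : (QuotientGroup.mk A : Matrix.ProjectiveSpecialLinearGroup (Fin n) F) = 1 :=
      (QuotientGroup.eq_one_iff _).mpr h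
    rw [h1, orderOf_one] at ha
    exact hp.one_lt.ne ha
  have hBr : B ^ r ∈ Subgroup.center (Matrix.SpecialLinearGroup (Fin n) F) := by
    have h1 := pow_orderOf_eq_one (QuotientGroup.mk B : Matrix.ProjectiveSpecialLinearGroup (Fin n) F)
    rw [hb'ord, ← QuotientGroup.mk_pow] at h1
    exact (QuotientGroup.eq_one_iff _).mp h1
  have hBnotZ : B ∉ Subgroup.center (Matrix.SpecialLinearGroup (Fin n) F) := by
    intro h
    have h1 : (QuotientGroup.mk B : Matrix.ProjectiveSpecialLinearGroup (Fin n) F) = 1 :=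
      (QuotientGroup.eq_one_iff _).mpr h
    rw [h1, orderOf_one] at hb'ord
    exact hrp.one_lt.ne hb'ord
  have hz : (B * A)⁻¹ * (A * B) ∈ Subgroup.center (Matrix.SpecialLinearGroup (Fin n) F) := by
    have h1 : (QuotientGroup.mk (B * A) : Matrix.ProjectiveSpecialLinearGroup (Fin n) F)
        = QuotientGroup.mk (A * B) := by
      rw [QuotientGroup.mk_mul, QuotientGroup.mk_mul]; exact hab'.eq.symm
    exact QuotientGroup.eq.mp h1
  have hAB : A * B = B * A := by
    set z := (B * A)⁻¹ * (A * B) with hzdef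
    have e1 : B⁻¹ * A * B = A * z := by rw [hzdef]; group
    have e2 : (B⁻¹ * A * B) ^ p = B⁻¹ * A ^ p * B := by
      have := conj_pow (a := B⁻¹) (b := A) (i := p)
      simpa using this
    have e3 : B⁻¹ * A ^ p * B = A ^ p := by
      have := Subgroup.mem_center_iff.mp hAp B
      rw [mul_assoc, ← this, ← mul_assoc, inv_mul_cancel, one_mul]
    have hzc : Commute A z := (Subgroup.mem_center_iff.mp hz A)
    have e4 : (A * z) ^ p = A ^ p * z ^ p := hzc.mul_pow p
    have hzp : z ^ p = 1 := by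
      have : A ^ p * z ^ p = A ^ p * 1 := by rw [← e4, ← e1, e2, e3, mul_one]
      exact mul_left_cancel this
    have hz1 : z = 1 := center_pow_char_eq_one p (by omega) z hz hzp
    have : A * B = B * A * z := by rw [hzdef]; group
    rw [this, hz1, mul_one]
  have hABm : (A : Matrix (Fin n) (Fin n) F) * (B : Matrix (Fin n) (Fin n) F)
      = (B : Matrix (Fin n) (Fin n) F) * (A : Matrix (Fin n) (Fin n) F) := by
    rw [← Matrix.SpecialLinearGroup.coe_mul, ← Matrix.SpecialLinearGroup.coe_mul, hAB]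
  -- A^p = scalar lam
  obtain ⟨lam, hlam1, hlam⟩ := Matrix.SpecialLinearGroup.mem_center_iff.mp hAp
  rw [Matrix.SpecialLinearGroup.coe_pow] at hlam
  have hlam0 : lam ≠ 0 := by
    intro h
    rw [h, Fintype.card_fin, zero_pow (by omega)] at hlam1
    exact zero_ne_one hlam1
  obtain ⟨mu, hmu⟩ : ∃ mu : F, mu ^ p = lam := by
    obtain ⟨mu, hmu⟩ := Finite.injective_iff_surjective.mp (frobenius_inj F p) lam
    exact ⟨mu, by rw [← hmu, frobenius_def]⟩
  have hmu0 : mu ≠ 0 := by
    intro h; rw [h, zero_pow hp.ne_zero] at hmu; exact hlam0 hmu.symm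
  -- the nilpotent matrix
  have hNp : (mu⁻¹ • (A : Matrix (Fin n) (Fin n) F) - 1) ^ p = 0 := by
    have hc : Commute (mu⁻¹ • (A : Matrix (Fin n) (Fin n) F)) (1 : Matrix (Fin n) (Fin n) F) :=
      Commute.one_right _
    have h1 : mu⁻¹ ^ p * lam = 1 := by
      rw [← hmu, inv_pow, inv_mul_cancel₀ (pow_ne_zero _ hmu0)]
    rw [sub_pow_char_of_commute p hc, smul_pow, ← hlam, one_pow, Matrix.scalar_apply,
      ← Matrix.smul_one_eq_diagonal, smul_smul, h1, one_smul, sub_self]
  have hN0 : mu⁻¹ • (A : Matrix (Fin n) (Fin n) F) - 1 ≠ 0 := by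
    intro h
    apply hAnotZ
    apply mem_center_of_coe_eq_smul_one A mu
    have h1 : mu⁻¹ • (A : Matrix (Fin n) (Fin n) F) = 1 := sub_eq_zero.mp h
    rw [← h1, smul_smul, mul_inv_cancel₀ hmu0, one_smul]
  -- B^r = scalar zeta
  obtain ⟨zeta, hzeta1, hzeta⟩ := Matrix.SpecialLinearGroup.mem_center_iff.mp hBr
  rw [Matrix.SpecialLinearGroup.coe_pow] at hzeta
  have hzeta0 : zeta ≠ 0 := by
    intro h
    rw [h, Fintype.card_fin, zero_pow (by omega)] at hzeta1
    exact zero_ne_one hzeta1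
  by_cases h1 : r ∣ Fintype.card F - 1
  · exact ⟨1, le_refl _, by omega, by simpa using h1⟩
  have hcop : (Nat.card Fˣ).Coprime r := by
    rw [Nat.card_units, Nat.card_eq_fintype_card, Nat.coprime_comm]
    exact (Nat.Prime.coprime_iff_not_dvd hrp).mpr h1
  obtain ⟨c, hc⟩ := (powCoprime hcop).surjective (Units.mk0 zeta hzeta0)⁻¹
  have hc' : (c : F) ^ r = zeta⁻¹ := by
    have := congrArg Units.val hc
    simpa using this
  have hB'r : ((c : F) • (B : Matrix (Fin n) (Fin n) F)) ^ r = 1 := by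
    rw [smul_pow, ← hzeta, hc', Matrix.scalar_apply, ← Matrix.smul_one_eq_diagonal, smul_smul,
      inv_mul_cancel₀ hzeta0, one_smul]
  have hB'1 : (c : F) • (B : Matrix (Fin n) (Fin n) F) ≠ 1 := by
    intro h
    apply hBnotZ
    apply mem_center_of_coe_eq_smul_one B ((c : F)⁻¹)
    rw [← h, smul_smul, inv_mul_cancel₀ c.ne_zero, one_smul]
  have hB'N : ((c : F) • (B : Matrix (Fin n) (Fin n) F)) * (mu⁻¹ • (A : Matrix (Fin n) (Fin n) F) - 1)
      = (mu⁻¹ • (A : Matrix (Fin n) (Fin n) F) - 1) * ((c : F) • (B : Matrix (Fin n) (Fin n) F)) := by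
    rw [mul_sub, sub_mul, mul_one, one_mul, Matrix.smul_mul, Matrix.mul_smul, Matrix.smul_mul,
      Matrix.mul_smul, hABm, smul_comm]
  have hrq : ¬ r ∣ Fintype.card F := by
    obtain ⟨e, -, he⟩ := FiniteField.card F p
    rw [he]
    intro h
    exact hrp' ((Nat.prime_dvd_prime_iff_eq hrp hp).mp (hrp.dvd_of_dvd_pow h))
  refine core r hrq n hn (Module.finrank_fin_fun F)
    (Matrix.toLinAlgEquiv' ((c : F) • (B : Matrix (Fin n) (Fin n) F)))
    (Matrix.toLinAlgEquiv' (mu⁻¹ • (A : Matrix (Fin n) (Fin n) F) - 1)) ?_ ?_ ?_ ?_ ?_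
  · rw [← map_pow, hB'r, map_one]
  · intro h
    exact hB'1 (Matrix.toLinAlgEquiv'.injective (h.trans (map_one _).symm))
  · rw [← map_mul, ← map_mul, hB'N]
  · intro h
    exact hN0 (Matrix.toLinAlgEquiv'.injective (h.trans (map_zero _).symm))
  · exact ⟨p, by rw [← map_pow, hNp, map_zero]⟩

end Cfsg.Agent.S2364
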