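import Cfsg.Statements.S2367
import Mathlib

set_option autoImplicit false
open Cfsg

namespace Cfsg.Agent.S2367

/-- the primes dividing the orders of the sporadic groups -/
def sprimes : List ℕ := [2, 3, 5, 7, 11, 13, 17, 19, 23, 29, 31, 37, 41, 43, 47, 59, 67, 71]

theorem sprimes_prime : ∀ q ∈ sprimes, q.Prime := by
  intro q hq
  simp only [sprimes, List.mem_cons, List.not_mem_nil, or_false] at hq
  rcases hq with rfl | rfl | rfl | rfl | rfl | rfl | rfl | rfl | rfl | rfl | rfl | rfl | rfl | rfl | rfl | rfl | rfl | rfl <;> norm_num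

theorem sporadic_core (N a : ℕ)
    (hchk : N ∣ sprimes.prod ^ 46 ∧ N ≠ 0 ∧ 2 ^ a ∣ N ∧
      ∀ q ∈ sprimes, q ≠ 2 → q ^ 3 ∣ N → ¬ q ^ 4 ∣ N → q ^ 3 < 2 ^ a)
    (p : ℕ) (hp : p.Prime) (hodd : p ≠ 2) (h3 : N.factorization p = 3) :
    p ^ 3 < 2 ^ N.factorization 2 := by
  obtain ⟨hdiv, hN0, h2a, hall⟩ := hchk
  have hp3 : p ^ 3 ∣ N := (hp.pow_dvd_iff_le_factorization hN0).mpr (by rw [h3])
  have hp4 : ¬ p ^ 4 ∣ N := by
    intro h
    have := (hp.pow_dvd_iff_le_factorization hN0).mp h
    omega
  have hpN : p ∣ N := dvd_trans (dvd_pow_self p (by norm_num)) hp3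
  have hpprod : p ∣ sprimes.prod := hp.dvd_of_dvd_pow (dvd_trans hpN hdiv)
  obtain ⟨q, hq, hpq⟩ := (Prime.dvd_prod_iff hp.prime).mp hpprod
  have hpq' : p = q := (Nat.prime_dvd_prime_iff_eq hp (sprimes_prime q hq)).mp hpq
  subst hpq'
  have h1 := hall p hq hodd hp3 hp4
  have h2 : a ≤ N.factorization 2 := (Nat.prime_two.pow_dvd_iff_le_factorization hN0).mp h2a
  exact lt_of_lt_of_le h1 (Nat.pow_le_pow_right (by norm_num) h2)

theorem cube_lt (p : ℕ) (hp : 5 ≤ p) : p ^ 3 < 2 ^ (2 * p - 2) := by
  induction p, hp using Nat.le_induction with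
  | base => norm_num
  | succ p hp ih =>
    have h1 : (p + 1) ^ 3 ≤ 4 * p ^ 3 := by nlinarith [sq_nonneg p, Nat.pow_le_pow_left hp 2]
    have h2 : 2 ^ (2 * (p + 1) - 2) = 4 * 2 ^ (2 * p - 2) := by
      have : 2 * (p + 1) - 2 = (2 * p - 2) + 2 := by omega
      rw [this, pow_add]; ring
    rw [h2]
    omega

theorem alternating_core (n N : ℕ) (hn : 5 ≤ n) (h2N : 2 * N = n.factorial)
    (p : ℕ) (hp : p.Prime) (hodd : p ≠ 2) (h3 : N.factorization p = 3) :
    p ^ 3 < 2 ^ N.factorization 2 := by
  have hN0 : N ≠ 0 := by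
    rintro rfl
    simp at h2N
    exact (Nat.factorial_ne_zero n) h2N.symm
  have hp2 : 2 ≤ p := hp.two_le
  have hp3' : 3 ≤ p := by omega
  -- factorizations of n!
  have fp : n.factorial.factorization p = 3 := by
    rw [← h2N, Nat.factorization_mul (by norm_num) hN0]
    simp only [Finsupp.coe_add, Pi.add_apply, h3]
    have : (2 : ℕ).factorization p = 0 := by
      apply Nat.factorization_eq_zero_of_not_dvd
      intro h
      exact hodd ((Nat.prime_dvd_prime_iff_eq hp Nat.prime_two).mp h)
    rw [this]
  have f2 : n.factorial.factorization 2 = 1 + N.factorization 2 := by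
    rw [← h2N, Nat.factorization_mul (by norm_num) hN0]
    simp only [Finsupp.coe_add, Pi.add_apply]
    rw [Nat.prime_two.factorization_self]
  -- n < 4 p
  have hn4 : n < 4 * p := by
    by_contra hcon
    push Not at hcon
    have hL : 0 < Nat.log p n := Nat.log_pos hp.one_lt (by nlinarith)
    have hleg := Nat.factorization_factorial hp (n := n) (lt_add_one (Nat.log p n))
    have h1 : n / p ^ 1 ≤ ∑ i ∈ Finset.Ico 1 (Nat.log p n + 1), n / p ^ i :=
      Finset.single_le_sum (f := fun i => n / p ^ i) (fun i _ => Nat.zero_le _)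
        (Finset.mem_Ico.mpr ⟨le_refl 1, by omega⟩)
    have h2 : 4 ≤ n / p ^ 1 := by
      rw [pow_one, Nat.le_div_iff_mul_le hp.pos]
      exact hcon
    omega
  have hlog : Nat.log p n < 3 := by
    apply Nat.log_lt_of_lt_pow (by omega)
    have h9 : 9 ≤ p * p := Nat.mul_le_mul hp3' hp3'
    have : 4 * p ≤ p ^ 3 := by
      have e : p ^ 3 = (p * p) * p := by ring
      rw [e]
      exact le_trans (Nat.mul_le_mul_right p (by omega : 4 ≤ 9)) (Nat.mul_le_mul_right p h9)
    omega
  have hleg := Nat.factorization_factorial hp (n := n) hlog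
  have hsum : ∑ i ∈ Finset.Ico 1 3, n / p ^ i = n / p + n / p ^ 2 := by
    have : Finset.Ico 1 3 = {1, 2} := by decide
    rw [this, Finset.sum_pair (by norm_num), pow_one]
  rw [hsum, fp] at hleg
  -- p ≥ 5 and 3 p ≤ n
  have hp5 : 5 ≤ p := by
    by_contra hcon
    push Not at hcon
    have hp34 : p = 3 ∨ p = 4 := by omega
    rcases hp34 with rfl | rfl
    · norm_num at hleg
      omega
    · norm_num at hp
  have h3p : 3 * p ≤ n := by
    have h1 : n / p ^ 2 = 0 := by
      apply Nat.div_eq_of_lt
      nlinarith
    rw [h1, add_zero] at hleg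
    have := Nat.div_mul_le_self n p
    rw [← hleg] at this
    exact this
  -- the 2-part
  have hL2 : 2 ≤ Nat.log 2 n := by
    apply Nat.le_log_of_pow_le (by norm_num)
    omega
  have hleg2 := Nat.factorization_factorial Nat.prime_two (n := n) (lt_add_one (Nat.log 2 n))
  have hsub : Finset.Ico 1 3 ⊆ Finset.Ico 1 (Nat.log 2 n + 1) := by
    apply Finset.Ico_subset_Ico_right
    omega
  have hge : ∑ i ∈ Finset.Ico 1 3, n / 2 ^ i ≤ ∑ i ∈ Finset.Ico 1 (Nat.log 2 n + 1), n / 2 ^ i :=
    Finset.sum_le_sum_of_subset hsub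
  have hsum2 : ∑ i ∈ Finset.Ico 1 3, n / 2 ^ i = n / 2 + n / 4 := by
    have : Finset.Ico 1 3 = {1, 2} := by decide
    rw [this, Finset.sum_pair (by norm_num)]
    norm_num
  have hexp : 2 * p - 2 ≤ N.factorization 2 := by omega
  exact lt_of_lt_of_le (cube_lt p hp5) (Nat.pow_le_pow_right (by norm_num) hexp)

/-- Let G be an alternating group of degree at least 5 or a simple group with the order of one of the 26 sporadic groups, and let p be an odd prime such that p³ is the exact power of p dividing the order of G. Then p³ is less than the 2-part of the order of G. -/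
theorem result {G : Type*} [Group G] [Finite G] (hG : Cfsg.IsAlternating G ∨ Cfsg.IsSporadic G)
    (p : ℕ) (hp : p.Prime) (hodd : p ≠ 2) (h3 : (Nat.card G).factorization p = 3) :
    p ^ 3 < 2 ^ (Nat.card G).factorization 2 := by
  rcases hG with ⟨n, hn, ⟨e⟩⟩ | hS
  · have : Nontrivial (Fin n) := Fin.nontrivial_iff_two_le.mpr (by omega)
    have h2N : 2 * Nat.card G = n.factorial := by
      rw [Nat.card_congr e.toEquiv, two_mul_nat_card_alternatingGroup, Nat.card_eq_fintype_card,
        Fintype.card_perm, Fintype.card_fin]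
    exact alternating_core n (Nat.card G) hn h2N p hp hodd h3
  · unfold Cfsg.IsSporadic at hS
    rcases hS with h | h | h | h | h | h | h | h | h | h | h | h | h | h | h | h | h | h | h | h | h | h | h | h | h | h
    · have hN := h.2
      rw [hN] at h3 ⊢
      exact sporadic_core 7920 4 (by decide +kernel) p hp hodd h3
    · have hN := h.2
      rw [hN] at h3 ⊢
      exact sporadic_core 95040 6 (by decide +kernel) p hp hodd h3
    · have hN := h.2
      rw [hN] at h3 ⊢
      exact sporadic_core 443520 7 (by decide +kernel) p hp hodd h3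
    · have hN := h.2
      rw [hN] at h3 ⊢
      exact sporadic_core 10200960 7 (by decide +kernel) p hp hodd h3
    · have hN := h.2
      rw [hN] at h3 ⊢
      exact sporadic_core 244823040 10 (by decide +kernel) p hp hodd h3
    · have hN := h.2
      rw [hN] at h3 ⊢
      exact sporadic_core 175560 3 (by decide +kernel) p hp hodd h3
    · have hN := h.2
      rw [hN] at h3 ⊢
      exact sporadic_core 604800 7 (by decide +kernel) p hp hodd h3
    · have hN := h.2
      rw [hN] at h3 ⊢
      exact sporadic_core 50232960 7 (by decide +kernel) p hp hodd h3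
    · have hN := h.2
      rw [hN] at h3 ⊢
      exact sporadic_core 86775571046077562880 21 (by decide +kernel) p hp hodd h3
    · have hN := h.2
      rw [hN] at h3 ⊢
      exact sporadic_core 4157776806543360000 21 (by decide +kernel) p hp hodd h3
    · have hN := h.2
      rw [hN] at h3 ⊢
      exact sporadic_core 42305421312000 18 (by decide +kernel) p hp hodd h3
    · have hN := h.2
      rw [hN] at h3 ⊢
      exact sporadic_core 495766656000 10 (by decide +kernel) p hp hodd h3
    · have hN := h.2
      rw [hN] at h3 ⊢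
      exact sporadic_core 64561751654400 17 (by decide +kernel) p hp hodd h3
    · have hN := h.2
      rw [hN] at h3 ⊢
      exact sporadic_core 4089470473293004800 18 (by decide +kernel) p hp hodd h3
    · have hN := h.2
      rw [hN] at h3 ⊢
      exact sporadic_core 1255205709190661721292800 21 (by decide +kernel) p hp hodd h3
    · have hN := h.2
      rw [hN] at h3 ⊢
      exact sporadic_core 44352000 9 (by decide +kernel) p hp hodd h3
    · have hN := h.2
      rw [hN] at h3 ⊢
      exact sporadic_core 898128000 7 (by decide +kernel) p hp hodd h3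
    · have hN := h.2
      rw [hN] at h3 ⊢
      exact sporadic_core 4030387200 10 (by decide +kernel) p hp hodd h3
    · have hN := h.2
      rw [hN] at h3 ⊢
      exact sporadic_core 145926144000 14 (by decide +kernel) p hp hodd h3
    · have hN := h.2
      rw [hN] at h3 ⊢
      exact sporadic_core 448345497600 13 (by decide +kernel) p hp hodd h3
    · have hN := h.2
      rw [hN] at h3 ⊢
      exact sporadic_core 460815505920 9 (by decide +kernel) p hp hodd h3
    · have hN := h.2
      rw [hN] at h3 ⊢
      exact sporadic_core 273030912000000 14 (by decide +kernel) p hp hodd h3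
    · have hN := h.2
      rw [hN] at h3 ⊢
      exact sporadic_core 51765179004000000 8 (by decide +kernel) p hp hodd h3
    · have hN := h.2
      rw [hN] at h3 ⊢
      exact sporadic_core 90745943887872000 15 (by decide +kernel) p hp hodd h3
    · have hN := h.2
      rw [hN] at h3 ⊢
      exact sporadic_core 4154781481226426191177580544000000 41 (by decide +kernel) p hp hodd h3
    · have hN := h.2
      rw [hN] at h3 ⊢
      exact sporadic_core 808017424794512875886459904961710757005754368000000000 46 (by decide +kernel) p hp hodd h3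

end Cfsg.Agent.S2367
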