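import Cfsg.Statements.S2368
import Mathlib

set_option autoImplicit false
open Cfsg

namespace Cfsg.Agent.S2368

theorem pow_card_eq_zero_of_pow_eq_zero {F : Type*} [Field F] {m : ℕ} (N : Matrix (Fin m) (Fin m) F) (k : ℕ)
    (h : N ^ k = 0) : N ^ m = 0 := by
  have h1 : (Matrix.toLin' N) ^ k = 0 := by
    rw [← Matrix.toLin'_pow, h]; simp
  have h2 := Module.End.ker_pow_le_ker_pow_finrank (Matrix.toLin' N) k
  rw [h1, LinearMap.ker_zero, top_le_iff, LinearMap.ker_eq_top] at h2
  have h3 : Module.finrank F (Fin m → F) = m := by simp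
  rw [h3, ← Matrix.toLin'_pow] at h2
  have : Matrix.toLin' (N ^ m) = Matrix.toLin' (0 : Matrix (Fin m) (Fin m) F) := by rw [h2]; simp
  exact Matrix.toLin'.injective this

/-- the nilpotent shift matrix -/
def shift (F : Type*) [Field F] (m : ℕ) : Matrix (Fin m) (Fin m) F :=
  Matrix.of fun i j => if j.val = i.val + 1 then 1 else 0

theorem shift_mulVec {F : Type*} [Field F] {m : ℕ} (v : Fin m → F) (i : Fin m) :
    (shift F m).mulVec v i = if h : i.val + 1 < m then v ⟨i.val + 1, h⟩ else 0 := by
  simp only [Matrix.mulVec, dotProduct, shift, Matrix.of_apply]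
  split_ifs with h
  · rw [Finset.sum_eq_single ⟨i.val + 1, h⟩]
    · simp
    · intro j _ hj
      have : j.val ≠ i.val + 1 := fun hh => hj (Fin.ext hh)
      simp [this]
    · intro hh
      exact absurd (Finset.mem_univ _) hh
  · apply Finset.sum_eq_zero
    intro j _
    have : j.val ≠ i.val + 1 := by
      have := j.2
      omega
    simp [this]

theorem shift_pow_mulVec {F : Type*} [Field F] {m : ℕ} (k : ℕ) : ∀ (v : Fin m → F) (i : Fin m),
    ((shift F m) ^ k).mulVec v i = if h : i.val + k < m then v ⟨i.val + k, h⟩ else 0 := by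
  induction k with
  | zero =>
    intro v i
    simp
  | succ k ih =>
    intro v i
    rw [pow_succ, ← Matrix.mulVec_mulVec, ih]
    by_cases h : i.val + k < m
    · rw [dif_pos h, shift_mulVec]
      by_cases h' : i.val + (k + 1) < m
      · rw [dif_pos h', dif_pos (by simpa [add_assoc] using h')]
        rfl
      · rw [dif_neg h', dif_neg (by simpa [add_assoc] using h')]
    · rw [dif_neg h, dif_neg (by omega)]

theorem shift_pow_card {F : Type*} [Field F] (m : ℕ) : (shift F m) ^ m = 0 := by
  apply Matrix.toLin'.injective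
  apply LinearMap.ext
  intro v
  ext i
  rw [Matrix.toLin'_apply, shift_pow_mulVec, dif_neg (by omega)]
  simp

theorem shift_pow_ne_zero {F : Type*} [Field F] (m : ℕ) (hm : 1 ≤ m) (k : ℕ) (hk : k < m) :
    (shift F m) ^ k ≠ 0 := by
  intro h
  have h1 := shift_pow_mulVec (F := F) (m := m) k (Pi.single ⟨k, hk⟩ 1) ⟨0, by omega⟩
  rw [h, Matrix.zero_mulVec] at h1
  simp only [Pi.zero_apply, zero_add] at h1
  rw [dif_pos hk] at h1
  simp at h1

/-- Let F be a finite field of characteristic p and m ≥ 1. Every element of GL(m, F) of p-power order has order less than p·m, and GL(m, F) has an element of p-power order at least m; so the largest order of a p-element of GL(m, F) is the least power of p that is at least m. -/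
theorem result {F : Type*} [Field F] [Fintype F] (p : ℕ) [Fact p.Prime] [CharP F p] (m : ℕ) (hm : 1 ≤ m) :
    (∀ g : Matrix.GeneralLinearGroup (Fin m) F, (∃ j : ℕ, orderOf g = p ^ j) → orderOf g < p * m) ∧
      ∃ g : Matrix.GeneralLinearGroup (Fin m) F, (∃ j : ℕ, orderOf g = p ^ j) ∧ m ≤ orderOf g := by
  classical
  have hpp : p.Prime := Fact.out
  have hp1 : 1 < p := hpp.one_lt
  have hne : Nonempty (Fin m) := ⟨⟨0, hm⟩⟩
  constructor
  · rintro g ⟨j, hj⟩
    set A : Matrix (Fin m) (Fin m) F := (g : Matrix (Fin m) (Fin m) F) with hA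
    have hApj : A ^ (p ^ j) = 1 := by
      have h1 : g ^ (p ^ j) = 1 := by rw [← hj]; exact pow_orderOf_eq_one g
      have h2 := congrArg (fun u : Matrix.GeneralLinearGroup (Fin m) F => (u : Matrix (Fin m) (Fin m) F)) h1
      simpa using h2
    have hN : (A - 1) ^ (p ^ j) = 0 := by
      rw [sub_pow_char_pow_of_commute p j (Commute.one_right A), hApj, one_pow, sub_self]
    have hNm : (A - 1) ^ m = 0 := pow_card_eq_zero_of_pow_eq_zero _ _ hN
    set k := Nat.clog p m with hk
    have hmk : m ≤ p ^ k := Nat.le_pow_clog hp1 m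
    have hNk : (A - 1) ^ (p ^ k) = 0 := by
      have : p ^ k = m + (p ^ k - m) := by omega
      rw [this, pow_add, hNm, zero_mul]
    have hAk : A ^ (p ^ k) = 1 := by
      have h1 := sub_pow_char_pow_of_commute p k (Commute.one_right A)
      rw [hNk, one_pow] at h1
      exact (sub_eq_zero.mp h1.symm)
    have hgk : g ^ (p ^ k) = 1 := by
      apply Units.ext
      simpa using hAk
    have hle : orderOf g ≤ p ^ k := Nat.le_of_dvd (by positivity) (orderOf_dvd_of_pow_eq_one hgk)
    have hlt : p ^ k < p * m := by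
      by_cases hm1 : m = 1
      · subst hm1
        have : k = 0 := by rw [hk]; simp
        rw [this]; simp; exact hp1
      · have hm2 : 1 < m := by omega
        have hkpos : 0 < k := Nat.clog_pos hp1 hm2
        have h1 := Nat.pow_pred_clog_lt_self hp1 hm2
        have h2 : p ^ k = p * p ^ (k - 1) := by
          rw [← pow_succ']; congr 1; omega
        rw [h2]
        have h3 : p ^ (k - 1) < m := by
          rw [hk]
          simpa [Nat.pred_eq_sub_one] using h1
        exact Nat.mul_lt_mul_of_pos_left h3 (by omega)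
    omega
  · set S := shift F m with hS
    set k := Nat.clog p m with hk
    have hmk : m ≤ p ^ k := Nat.le_pow_clog hp1 m
    have hSk : S ^ (p ^ k) = 0 := by
      have : p ^ k = m + (p ^ k - m) := by omega
      rw [this, pow_add, hS, shift_pow_card, zero_mul]
    have hJk : (1 + S) ^ (p ^ k) = 1 := by
      rw [add_pow_char_pow_of_commute p k (Commute.one_left S), one_pow, hSk, add_zero]
    have hkpos : 0 < p ^ k := by positivity
    have hinv : (1 + S) * (1 + S) ^ (p ^ k - 1) = 1 := by
      rw [← pow_succ', Nat.sub_add_cancel hkpos, hJk]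
    have hinv' : (1 + S) ^ (p ^ k - 1) * (1 + S) = 1 := by
      rw [← pow_succ, Nat.sub_add_cancel hkpos, hJk]
    let g : Matrix.GeneralLinearGroup (Fin m) F := ⟨1 + S, (1 + S) ^ (p ^ k - 1), hinv, hinv'⟩
    have hgk : g ^ (p ^ k) = 1 := by
      apply Units.ext
      simpa [g] using hJk
    have hdvd : orderOf g ∣ p ^ k := orderOf_dvd_of_pow_eq_one hgk
    obtain ⟨j, _, hj⟩ := (Nat.dvd_prime_pow hpp).mp hdvd
    refine ⟨g, ⟨j, hj⟩, ?_⟩
    by_contra hlt
    push Not at hlt
    have h1 : g ^ (p ^ j) = 1 := by rw [← hj]; exact pow_orderOf_eq_one g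
    have h2 : (1 + S) ^ (p ^ j) = 1 := by
      have := congrArg (fun u : Matrix.GeneralLinearGroup (Fin m) F => (u : Matrix (Fin m) (Fin m) F)) h1
      simpa [g] using this
    have h3 : S ^ (p ^ j) = 0 := by
      rw [add_pow_char_pow_of_commute p j (Commute.one_left S), one_pow] at h2
      simpa using h2
    rw [hj] at hlt
    exact shift_pow_ne_zero m hm (p ^ j) hlt h3

end Cfsg.Agent.S2368
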