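import Cfsg.Statements.S2380
import Mathlib

set_option autoImplicit false
open scoped MatrixGroups
open Cfsg

namespace Cfsg.Agent.S2380

open Matrix Polynomial

universe u

section NT
variable {q r : ℕ} [Fact r.Prime]

lemma qcast_ne (hrq : ¬ r ∣ q) : (q : ZMod r) ≠ 0 := by
  rwa [Ne, ZMod.natCast_eq_zero_iff]

lemma d_pos (hrq : ¬ r ∣ q) : 0 < orderOf (q : ZMod r) := by
  apply orderOf_pos_iff.mpr
  rw [isOfFinOrder_iff_pow_eq_one]
  exact ⟨r - 1, Nat.sub_pos_of_lt (Fact.out : r.Prime).one_lt,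
    ZMod.pow_card_sub_one_eq_one (qcast_ne hrq)⟩

lemma dvd_iff (hq : 0 < q) (k : ℕ) : r ∣ q ^ k - 1 ↔ orderOf (q : ZMod r) ∣ k := by
  rw [orderOf_dvd_iff_pow_eq_one, ← ZMod.natCast_eq_zero_iff (q ^ k - 1) r,
    Nat.cast_sub (Nat.one_le_pow _ _ hq), sub_eq_zero]
  push_cast
  rfl

lemma val_mul (hq : 2 ≤ q) (hrq : ¬ r ∣ q) (j : ℕ) (hj1 : 1 ≤ j) (hjr : j < r) :
    padicValNat r (q ^ (orderOf (q : ZMod r) * j) - 1)
      = padicValNat r (q ^ orderOf (q : ZMod r) - 1) := by
  have hd := d_pos (r := r) hrq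
  have hq0 : 0 < q := by omega
  have hQ : 1 ≤ q ^ orderOf (q : ZMod r) := Nat.one_le_pow _ _ hq0
  have hQ2 : 2 ≤ q ^ orderOf (q : ZMod r) :=
    le_trans hq (Nat.le_self_pow hd.ne' q)
  have hQj : 1 ≤ q ^ (orderOf (q : ZMod r) * j) := Nat.one_le_pow _ _ hq0
  have h : (q ^ orderOf (q : ZMod r) - 1) *
      (∑ i ∈ Finset.range j, (q ^ orderOf (q : ZMod r)) ^ i)
        = q ^ (orderOf (q : ZMod r) * j) - 1 := by
    zify [hQ, hQj]
    rw [pow_mul]
    exact mul_geom_sum _ _
  have hs : ¬ r ∣ ∑ i ∈ Finset.range j, (q ^ orderOf (q : ZMod r)) ^ i := by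
    intro hdvd
    have h0 := (ZMod.natCast_eq_zero_iff _ r).mpr hdvd
    push_cast at h0
    rw [pow_orderOf_eq_one] at h0
    simp only [one_pow, Finset.sum_const, Finset.card_range, nsmul_eq_mul, mul_one] at h0
    have := (ZMod.natCast_eq_zero_iff j r).mp h0
    have := Nat.le_of_dvd (by omega) this
    omega
  have hs0 : (∑ i ∈ Finset.range j, (q ^ orderOf (q : ZMod r)) ^ i) ≠ 0 := by
    intro h0
    exact hs (h0 ▸ dvd_zero r)
  rw [← h, padicValNat.mul (by omega) hs0, padicValNat.eq_zero_of_not_dvd hs, add_zero]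

lemma val_cyc (hq : 2 ≤ q) (hrq : ¬ r ∣ q) :
    padicValNat r (q ^ orderOf (q : ZMod r) - 1)
      = padicValNat r ((cyclotomic (orderOf (q : ZMod r)) ℤ).eval (q : ℤ)).natAbs := by
  have hd := d_pos (r := r) hrq
  have hq0 : 0 < q := by omega
  have hQ : 1 ≤ q ^ orderOf (q : ZMod r) := Nat.one_le_pow _ _ hq0
  have hQ2 : 2 ≤ q ^ orderOf (q : ZMod r) :=
    le_trans hq (Nat.le_self_pow hd.ne' q)
  have h1 : ∏ i ∈ (orderOf (q : ZMod r)).divisors, (cyclotomic i ℤ).eval (q : ℤ)
      = (q : ℤ) ^ orderOf (q : ZMod r) - 1 := by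
    have := congrArg (Polynomial.eval (q : ℤ)) (prod_cyclotomic_eq_X_pow_sub_one hd ℤ)
    simpa [Polynomial.eval_prod] using this
  rw [← Nat.insert_self_properDivisors hd.ne',
    Finset.prod_insert Nat.self_notMem_properDivisors] at h1
  have h2 : ((cyclotomic (orderOf (q : ZMod r)) ℤ).eval (q : ℤ)).natAbs *
      (∏ i ∈ (orderOf (q : ZMod r)).properDivisors, (cyclotomic i ℤ).eval (q : ℤ)).natAbs
        = q ^ orderOf (q : ZMod r) - 1 := by
    rw [← Int.natAbs_mul, h1]
    have : (q : ℤ) ^ orderOf (q : ZMod r) - 1 = ((q ^ orderOf (q : ZMod r) - 1 : ℕ) : ℤ) := by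
      rw [Nat.cast_sub hQ]; push_cast; rfl
    rw [this, Int.natAbs_natCast]
  have h3 : ¬ r ∣ (∏ i ∈ (orderOf (q : ZMod r)).properDivisors,
      (cyclotomic i ℤ).eval (q : ℤ)).natAbs := by
    intro hdvd
    rw [← Int.natCast_dvd] at hdvd
    have hp : Prime (r : ℤ) := Nat.prime_iff_prime_int.mp Fact.out
    obtain ⟨e, he, hre⟩ := (Prime.dvd_finsetProd_iff hp _).mp hdvd
    have hdiv : (cyclotomic e ℤ).eval (q : ℤ) ∣ (q : ℤ) ^ e - 1 := by
      have := Polynomial.eval_dvd (x := (q : ℤ)) (cyclotomic.dvd_X_pow_sub_one e ℤ)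
      simpa using this
    have h4 : (r : ℤ) ∣ ((q ^ e - 1 : ℕ) : ℤ) := by
      rw [Nat.cast_sub (Nat.one_le_pow _ _ hq0)]; push_cast
      exact hre.trans hdiv
    rw [Int.natCast_dvd_natCast, dvd_iff hq0] at h4
    rw [Nat.mem_properDivisors] at he
    have hepos : 0 < e := Nat.pos_of_dvd_of_pos he.1 hd
    have := Nat.le_of_dvd hepos h4
    omega
  have h30 : (∏ i ∈ (orderOf (q : ZMod r)).properDivisors,
      (cyclotomic i ℤ).eval (q : ℤ)).natAbs ≠ 0 := by
    intro h0
    exact h3 (h0 ▸ dvd_zero r)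
  have h50 : ((cyclotomic (orderOf (q : ZMod r)) ℤ).eval (q : ℤ)).natAbs ≠ 0 := by
    intro h0
    rw [h0, zero_mul] at h2
    omega
  rw [← h2, padicValNat.mul h50 h30, padicValNat.eq_zero_of_not_dvd h3, add_zero]

lemma val_GL (hq : 2 ≤ q) (hrq : ¬ r ∣ q) (n : ℕ) (hrn : n < r) :
    (∏ i : Fin n, (q ^ n - q ^ (i : ℕ))).factorization r
      = padicValNat r (q ^ orderOf (q : ZMod r) - 1) * (n / orderOf (q : ZMod r)) := by
  have hd := d_pos (r := r) hrq
  have hq0 : 0 < q := by omega
  have hr : r.Prime := Fact.out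
  rw [Fin.prod_univ_eq_prod_range (fun i => q ^ n - q ^ i) n]
  have hne : ∀ i ∈ Finset.range n, q ^ n - q ^ i ≠ 0 := by
    intro i hi
    rw [Finset.mem_range] at hi
    have : q ^ i < q ^ n := Nat.pow_lt_pow_right (by omega) hi
    omega
  rw [Nat.factorization_prod_apply hne]
  have hterm : ∀ i ∈ Finset.range n, (q ^ n - q ^ i).factorization r
      = (fun j => if orderOf (q : ZMod r) ∣ j + 1 then
          padicValNat r (q ^ orderOf (q : ZMod r) - 1) else 0) (n - 1 - i) := by
    intro i hi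
    rw [Finset.mem_range] at hi
    have hni : n - 1 - i + 1 = n - i := by omega
    have hfac : q ^ n - q ^ i = q ^ i * (q ^ (n - i) - 1) := by
      rw [Nat.mul_sub, mul_one, ← pow_add]
      congr 2
      omega
    have hqi : ¬ r ∣ q ^ i := fun h => hrq (hr.dvd_of_dvd_pow h)
    have hlt : 1 < q ^ (n - i) := Nat.one_lt_pow (by omega) (by omega)
    rw [Nat.factorization_def _ hr, hfac, padicValNat.mul (pow_ne_zero _ (by omega)) (by omega),
      padicValNat.eq_zero_of_not_dvd hqi, zero_add]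
    simp only [hni]
    by_cases hdv : orderOf (q : ZMod r) ∣ n - i
    · rw [if_pos hdv]
      obtain ⟨j, hj⟩ := hdv
      rw [hj]
      have hj1 : 1 ≤ j := by
        rcases Nat.eq_zero_or_pos j with h0 | h0
        · rw [h0] at hj; omega
        · exact h0
      have hjn : j ≤ n - i := by
        rw [hj]; exact Nat.le_mul_of_pos_left j hd
      exact val_mul hq hrq j hj1 (by omega)
    · rw [if_neg hdv]
      exact padicValNat.eq_zero_of_not_dvd (fun h => hdv ((dvd_iff hq0 _).mp h))
  refine (Finset.sum_congr rfl hterm).trans ?_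
  refine (Finset.sum_range_reflect (fun j => if orderOf (q : ZMod r) ∣ j + 1 then
          padicValNat r (q ^ orderOf (q : ZMod r) - 1) else 0) n).trans ?_
  rw [← Finset.sum_filter, Finset.sum_const, Nat.card_multiples, smul_eq_mul, mul_comm]

end NT

theorem exists_sub (F : Type u) [Field F] [Fintype F] (n d m a : ℕ) (hd : 0 < d)
    (hmd : m * d ≤ n) (r : ℕ) [Fact r.Prime]
    (ha : (Fintype.card F ^ d - 1).factorization r = a) :
    ∃ H : Subgroup (GL (Fin n) F), Nat.card H = r ^ (a * m) ∧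
      Nonempty (H ≃* (Fin m → Multiplicative (ZMod (r ^ a)))) := by
  classical
  haveI : NeZero d := ⟨hd.ne'⟩
  haveI : CharP F (ringChar F) := ringChar.charP F
  haveI : Fact (ringChar F).Prime := ⟨CharP.char_is_prime F (ringChar F)⟩
  have hLcard : Nat.card (FiniteField.Extension F (ringChar F) d)ˣ = Fintype.card F ^ d - 1 := by
    rw [Nat.card_units, FiniteField.natCard_extension, Nat.card_eq_fintype_card]
  obtain ⟨C⟩ : Nonempty (Sylow r (FiniteField.Extension F (ringChar F) d)ˣ) := inferInstance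
  have hC : Nat.card (C : Subgroup (FiniteField.Extension F (ringChar F) d)ˣ) = r ^ a := by
    rw [Sylow.card_eq_multiplicity, hLcard, ha]
  haveI : IsCyclic (C : Subgroup (FiniteField.Extension F (ringChar F) d)ˣ) :=
    Subgroup.isCyclic _
  have eC : Multiplicative (ZMod (Nat.card (C : Subgroup (FiniteField.Extension F (ringChar F) d)ˣ)))
      ≃* (C : Subgroup (FiniteField.Extension F (ringChar F) d)ˣ) :=
    zmodCyclicMulEquiv inferInstance
  rw [hC] at eC
  haveI : Module.Free F (FiniteField.Extension F (ringChar F) d) := Module.Free.of_divisionRing _ _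
  have hfin : Module.finrank F ((Fin m → FiniteField.Extension F (ringChar F) d) ×
      (Fin (n - m * d) → F)) = Module.finrank F (Fin n → F) := by
    rw [Module.finrank_prod, Module.finrank_pi_fintype, Module.finrank_fin_fun,
      Module.finrank_fin_fun]
    simp only [FiniteField.finrank_extension, Finset.sum_const, Finset.card_univ,
      Fintype.card_fin, smul_eq_mul]
    omega
  let e : ((Fin m → FiniteField.Extension F (ringChar F) d) × (Fin (n - m * d) → F))
      ≃ₗ[F] (Fin n → F) := LinearEquiv.ofFinrankEq _ _ hfin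
  let Φ : Module.End F ((Fin m → FiniteField.Extension F (ringChar F) d) ×
      (Fin (n - m * d) → F)) ≃ₐ[F] Matrix (Fin n) (Fin n) F :=
    (e.conjAlgEquiv F).trans LinearMap.toMatrixAlgEquiv'
  let ρ : (Fin m → FiniteField.Extension F (ringChar F) d) →*
      Module.End F ((Fin m → FiniteField.Extension F (ringChar F) d) ×
        (Fin (n - m * d) → F)) :=
    { toFun := fun u => (LinearMap.mulLeft F u).prodMap LinearMap.id
      map_one' := by
        apply LinearMap.ext
        intro x
        simp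
      map_mul' := fun u v => by
        apply LinearMap.ext
        intro x
        simp }
  have hρ : Function.Injective ρ := by
    intro u v h
    have := congrArg (fun f : Module.End F ((Fin m → FiniteField.Extension F (ringChar F) d) ×
        (Fin (n - m * d) → F)) => (f (1, 0)).1) h
    simpa [ρ] using this
  let J : (Fin m → (FiniteField.Extension F (ringChar F) d)ˣ) →* GL (Fin n) F :=
    (Units.map ((MonoidHomClass.toMonoidHom Φ).comp ρ)).comp
      (MulEquiv.piUnits (M := fun _ : Fin m => FiniteField.Extension F (ringChar F) d)).symm.toMonoidHom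
  have hJ : Function.Injective J := by
    refine (Units.map_injective ?_).comp (MulEquiv.injective _)
    exact Φ.injective.comp hρ
  let K : (Fin m → (C : Subgroup (FiniteField.Extension F (ringChar F) d)ˣ)) →* GL (Fin n) F :=
    J.comp ((C : Subgroup (FiniteField.Extension F (ringChar F) d)ˣ).subtype.compLeft (Fin m))
  have hK : Function.Injective K := by
    refine hJ.comp ?_
    intro u v h
    funext i
    exact Subtype.ext (congrFun h i)
  refine ⟨K.range, ?_, ⟨?_⟩⟩
  · rw [← Nat.card_congr (MonoidHom.ofInjective hK).toEquiv, Nat.card_fun, hC, Nat.card_fin,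
      ← pow_mul]
  · exact (MonoidHom.ofInjective hK).symm.trans (MulEquiv.piCongrRight (fun _ => eC.symm))

/-- Sylow subgroups of `GL_n(q)` for large primes. Let `F` be a field with `q` elements and `r` a prime with `r > n` and `r ∤ q`. Let `d` be the multiplicative order of `q` modulo `r` and `m` the `r`-part of the value at `q` of the `d`-th cyclotomic polynomial. Then every Sylow `r`-subgroup of `GL_n(q)` is a direct product of `⌊n/d⌋` cyclic groups of order `m` (the degrees of the Weyl group being `1, …, n`). -/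
theorem result {F : Type*} [Field F] [Fintype F] {q : ℕ} (hq : Fintype.card F = q) (n : ℕ)
    (r : ℕ) [Fact r.Prime] (hrn : n < r) (hrq : ¬ r ∣ q) (P : Sylow r (GL (Fin n) F)) :
    Nonempty (↥(P : Subgroup (GL (Fin n) F)) ≃*
      (Fin (n / orderOf (q : ZMod r)) →
        Multiplicative (ZMod (r ^ padicValNat r ((Polynomial.cyclotomic (orderOf (q : ZMod r)) ℤ).eval (q : ℤ)).natAbs)))) := by
  classical
  have hq2 : 2 ≤ q := hq ▸ Fintype.one_lt_card
  have hd := d_pos (r := r) hrq
  rw [← val_cyc hq2 hrq]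
  obtain ⟨H, hHcard, ⟨eH⟩⟩ := exists_sub F n (orderOf (q : ZMod r)) (n / orderOf (q : ZMod r))
    (padicValNat r (q ^ orderOf (q : ZMod r) - 1)) hd (Nat.div_mul_le_self _ _) r
    (by rw [hq, Nat.factorization_def _ Fact.out])
  have hGL : (Nat.card (GL (Fin n) F)).factorization r
      = padicValNat r (q ^ orderOf (q : ZMod r) - 1) * (n / orderOf (q : ZMod r)) := by
    rw [Matrix.card_GL_field, hq]
    exact val_GL hq2 hrq n hrn
  let Q : Sylow r (GL (Fin n) F) := Sylow.ofCard H (by rw [hHcard, hGL])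
  exact ⟨(Sylow.equiv P Q).trans eH⟩

end Cfsg.Agent.S2380
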