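import Cfsg.Statements.S2379
import Mathlib
import Cfsg.Agent.S2380
import Cfsg.Agent.S0242

set_option autoImplicit false
open Cfsg

namespace Cfsg.Agent.S2379

open Matrix Polynomial
open Cfsg.Agent.S2380 (d_pos dvd_iff val_mul val_cyc val_GL exists_sub)

universe u

theorem sylow_iso {G : Type*} [Group G] [Finite G] (r : ℕ) [Fact r.Prime] (a c : ℕ)
    (K : (Fin c → Multiplicative (ZMod (r ^ a))) →* G) (hK : Function.Injective K)
    (hG : (Nat.card G).factorization r = a * c) (P : Sylow r G) :
    Nonempty (↥(P : Subgroup G) ≃* (Fin c → Multiplicative (ZMod (r ^ a)))) := by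
  haveI : NeZero (r ^ a) := ⟨pow_ne_zero _ (Fact.out : r.Prime).ne_zero⟩
  have hz : Nat.card (Multiplicative (ZMod (r ^ a))) = r ^ a := Nat.card_zmod _
  have hcard : Nat.card K.range = r ^ (Nat.card G).factorization r := by
    rw [← Nat.card_congr (MonoidHom.ofInjective hK).toEquiv, Nat.card_fun, Nat.card_fin, hG,
      pow_mul, hz]
  let Q : Sylow r G := Sylow.ofCard K.range hcard
  exact ⟨(Sylow.equiv P Q).trans (MonoidHom.ofInjective hK).symm⟩

theorem sl_of_gl {F : Type u} [Field F] {n : ℕ} {G : Type*} [Group G] (K : G →* GL (Fin n) F)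
    (hK : Function.Injective K) (hdet : ∀ x, (K x : Matrix (Fin n) (Fin n) F).det = 1) :
    ∃ K' : G →* Matrix.SpecialLinearGroup (Fin n) F, Function.Injective K' := by
  refine ⟨{ toFun := fun x => ⟨(K x : Matrix (Fin n) (Fin n) F), hdet x⟩
            map_one' := by apply Subtype.ext; simp
            map_mul' := fun x y => by
              apply Subtype.ext
              show ((K (x * y) : GL (Fin n) F) : Matrix (Fin n) (Fin n) F)
                = ((K x : GL (Fin n) F) : Matrix (Fin n) (Fin n) F)
                  * ((K y : GL (Fin n) F) : Matrix (Fin n) (Fin n) F)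
              rw [map_mul]
              rfl }, ?_⟩
  intro x y h
  apply hK
  apply Units.ext
  exact congrArg Subtype.val h

theorem torus_hom (F : Type u) [Field F] (c : ℕ) :
    ∃ T : (Fin c → Fˣ) →* Matrix.SpecialLinearGroup (Fin (c + 1)) F, Function.Injective T := by
  classical
  refine ⟨{ toFun := fun u => ⟨Matrix.diagonal
              (Fin.cons (((∏ i, u i)⁻¹ : Fˣ) : F) (fun i => (u i : F))), ?_⟩
            map_one' := ?_
            map_mul' := ?_ }, ?_⟩
  · rw [Matrix.det_diagonal, Fin.prod_cons, ← Units.coe_prod, ← Units.val_mul, inv_mul_cancel,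
      Units.val_one]
  · apply Subtype.ext
    show Matrix.diagonal _ = (1 : Matrix _ _ F)
    rw [← Matrix.diagonal_one]
    congr 1
    funext i
    refine Fin.cases ?_ (fun j => ?_) i <;> simp
  · intro u v
    apply Subtype.ext
    show Matrix.diagonal _ = Matrix.diagonal _ * Matrix.diagonal _
    rw [Matrix.diagonal_mul_diagonal]
    congr 1
    funext i
    refine Fin.cases ?_ (fun j => ?_) i
    · simp [Finset.prod_mul_distrib, mul_comm]
    · simp
  · intro u v h
    funext i
    have h' : Matrix.diagonal (Fin.cons (((∏ i, u i)⁻¹ : Fˣ) : F) (fun i => (u i : F)))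
        = Matrix.diagonal (Fin.cons (((∏ i, v i)⁻¹ : Fˣ) : F) (fun i => (v i : F))) :=
      congrArg Subtype.val h
    have := congrFun (congrFun h' i.succ) i.succ
    apply Units.ext
    simpa using this

theorem cyc_hom (L : Type u) [Field L] [Finite L] (r a : ℕ) [Fact r.Prime]
    (ha : (Nat.card L - 1).factorization r = a) :
    ∃ f : Multiplicative (ZMod (r ^ a)) →* Lˣ, Function.Injective f := by
  classical
  obtain ⟨C⟩ : Nonempty (Sylow r Lˣ) := inferInstance
  have hC : Nat.card (C : Subgroup Lˣ) = r ^ a := by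
    rw [Sylow.card_eq_multiplicity, Nat.card_units, ha]
  haveI : IsCyclic (C : Subgroup Lˣ) := Subgroup.isCyclic _
  have eC : Multiplicative (ZMod (Nat.card (C : Subgroup Lˣ))) ≃* (C : Subgroup Lˣ) :=
    zmodCyclicMulEquiv inferInstance
  rw [hC] at eC
  exact ⟨(C : Subgroup Lˣ).subtype.comp eC.toMonoidHom,
    (Subgroup.subtype_injective _).comp eC.injective⟩

/-- Sylow subgroups of `SL_n(q)` for large primes. Let `F` be a field with `q` elements and `r` a prime with `r > n` and `r ∤ q` (so `r` does not divide the order `n!` of the Weyl group). Let `d` be the multiplicative order of `q` modulo `r`, `a` the number of integers `i` with `2 ≤ i ≤ n` divisible by `d` (the degrees of the Weyl group are `2, …, n`), and `m` the `r`-part of the value at `q` of the `d`-th cyclotomic polynomial. Then every Sylow `r`-subgroup of `SL_n(q)` is a direct product of `a` cyclic groups of order `m`. -/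
theorem result {F : Type*} [Field F] [Fintype F] {q : ℕ} (hq : Fintype.card F = q) (n : ℕ)
    (r : ℕ) [Fact r.Prime] (hrn : n < r) (hrq : ¬ r ∣ q) (P : Sylow r (Matrix.SpecialLinearGroup (Fin n) F)) :
    Nonempty (↥(P : Subgroup (Matrix.SpecialLinearGroup (Fin n) F)) ≃*
      (Fin ((Finset.Icc 2 n).filter (fun i => orderOf (q : ZMod r) ∣ i)).card →
        Multiplicative (ZMod (r ^ padicValNat r ((Polynomial.cyclotomic (orderOf (q : ZMod r)) ℤ).eval (q : ℤ)).natAbs)))) := by
  classical
  have hq2 : 2 ≤ q := hq ▸ Fintype.one_lt_card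
  have hq0 : 0 < q := by omega
  have hd := d_pos (r := r) hrq
  have hr : r.Prime := Fact.out
  rw [← val_cyc hq2 hrq]
  rcases Nat.eq_zero_or_pos n with hn0 | hn0
  · subst hn0
    have hc : ((Finset.Icc 2 0).filter (fun i => orderOf (q : ZMod r) ∣ i)).card = 0 := by simp
    rw [hc]
    haveI : Subsingleton (Matrix.SpecialLinearGroup (Fin 0) F) :=
      ⟨fun a b => Subtype.ext (Subsingleton.elim _ _)⟩
    have h1 : Nat.card (Matrix.SpecialLinearGroup (Fin 0) F) = 1 := Nat.card_of_subsingleton 1
    exact sylow_iso r _ 0 1 (Function.injective_of_subsingleton _) (by rw [h1]; simp) P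
  have hSL := Cfsg.Agent.S0242.result hq n hn0
  have hfac : (q - 1).factorization r
      + (Nat.card (Matrix.SpecialLinearGroup (Fin n) F)).factorization r
        = padicValNat r (q ^ orderOf (q : ZMod r) - 1) * (n / orderOf (q : ZMod r)) := by
    rw [← val_GL hq2 hrq n hrn, ← hSL, Nat.factorization_mul (by omega) Nat.card_pos.ne']
    rfl
  rcases Nat.lt_or_ge 1 (orderOf (q : ZMod r)) with hd2 | hd1
  · -- d ≥ 2
    have hc : ((Finset.Icc 2 n).filter (fun i => orderOf (q : ZMod r) ∣ i)).card
        = n / orderOf (q : ZMod r) := by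
      rw [← Nat.card_multiples' n (orderOf (q : ZMod r))]
      congr 1
      ext k
      simp only [Finset.mem_filter, Finset.mem_Icc, Finset.mem_range]
      constructor
      · rintro ⟨⟨h1, h2⟩, h3⟩
        exact ⟨by omega, by omega, h3⟩
      · rintro ⟨h1, h2, h3⟩
        have := Nat.le_of_dvd (Nat.pos_of_ne_zero h2) h3
        exact ⟨⟨by omega, by omega⟩, h3⟩
    rw [hc]
    have hrq1 : ¬ r ∣ q - 1 := by
      intro h
      have h' : r ∣ q ^ 1 - 1 := by rwa [pow_one]
      rw [dvd_iff hq0] at h'
      have := Nat.le_of_dvd Nat.one_pos h'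
      omega
    have h0 : (q - 1).factorization r = 0 := Nat.factorization_eq_zero_of_not_dvd hrq1
    rw [h0, zero_add] at hfac
    obtain ⟨H, hHcard, ⟨eH⟩⟩ := exists_sub F n (orderOf (q : ZMod r)) (n / orderOf (q : ZMod r))
      (padicValNat r (q ^ orderOf (q : ZMod r) - 1)) hd (Nat.div_mul_le_self _ _) r
      (by rw [hq, Nat.factorization_def _ Fact.out])
    have hKinj : Function.Injective (H.subtype.comp eH.symm.toMonoidHom) :=
      (Subgroup.subtype_injective _).comp eH.symm.injective
    have hdet : ∀ x, ((H.subtype.comp eH.symm.toMonoidHom) x : Matrix (Fin n) (Fin n) F).det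
        = 1 := by
      intro x
      have hx : (eH.symm x) ^ Nat.card H = 1 := pow_card_eq_one'
      have hg : ((H.subtype.comp eH.symm.toMonoidHom) x) ^ Nat.card H = 1 := by
        show (H.subtype (eH.symm x)) ^ Nat.card H = 1
        rw [← map_pow, hx, map_one]
      have h1 : (Matrix.GeneralLinearGroup.det ((H.subtype.comp eH.symm.toMonoidHom) x))
          ^ Nat.card H = 1 := by
        rw [← map_pow, hg, map_one]
      have h2 : (Matrix.GeneralLinearGroup.det ((H.subtype.comp eH.symm.toMonoidHom) x))
          ^ (q - 1) = 1 := by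
        have := pow_card_eq_one' (G := Fˣ)
          (x := Matrix.GeneralLinearGroup.det ((H.subtype.comp eH.symm.toMonoidHom) x))
        rwa [Nat.card_units, Nat.card_eq_fintype_card, hq] at this
      have hcop : Nat.Coprime (Nat.card H) (q - 1) := by
        rw [hHcard]
        exact Nat.Coprime.pow_left _ ((Nat.Prime.coprime_iff_not_dvd hr).mpr hrq1)
      have h3 := orderOf_dvd_of_pow_eq_one h1
      have h4 := orderOf_dvd_of_pow_eq_one h2
      have h5 := Nat.eq_one_of_dvd_coprimes hcop h3 h4
      rw [orderOf_eq_one_iff] at h5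
      have := congrArg Units.val h5
      simpa using this
    obtain ⟨K', hK'⟩ := sl_of_gl _ hKinj hdet
    exact sylow_iso r _ _ K' hK' hfac P
  · -- d = 1
    have hd1' : orderOf (q : ZMod r) = 1 := by omega
    rw [hd1'] at hfac ⊢
    rw [pow_one] at hfac ⊢
    have hc : ((Finset.Icc 2 n).filter (fun i => 1 ∣ i)).card = n - 1 := by
      simp
    rw [hc]
    obtain ⟨c, rfl⟩ : ∃ c, n = c + 1 := ⟨n - 1, by omega⟩
    rw [Nat.div_one, Nat.factorization_def _ hr] at hfac
    have hfac' : (Nat.card (Matrix.SpecialLinearGroup (Fin (c + 1)) F)).factorization r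
        = padicValNat r (q - 1) * c := by
      rw [Nat.mul_succ] at hfac
      omega
    obtain ⟨T, hT⟩ := torus_hom F c
    obtain ⟨f, hf⟩ := cyc_hom F r (padicValNat r (q - 1))
      (by rw [Nat.card_eq_fintype_card, hq, Nat.factorization_def _ hr])
    have hK : Function.Injective (T.comp (f.compLeft (Fin c))) := by
      refine hT.comp ?_
      intro u v h
      funext i
      exact hf (congrFun h i)
    exact sylow_iso r _ _ _ hK hfac' P

end Cfsg.Agent.S2379
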