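import Cfsg.Statements.S2569
import Mathlib

set_option autoImplicit false
open Cfsg

namespace Cfsg.Agent.S2569

open Polynomial Module

variable {F : Type*} [Field F] [Fintype F]

set_option backward.isDefEq.respectTransparency false in
lemma exists_comm_det {n : ℕ} (φ : (Fin n → F) →ₗ[F] (Fin n → F)) (hss : Module.End.IsSemisimple φ) (d : F)
    (hn : n ≠ 0) :
    ∃ C : (Fin n → F) →ₗ[F] (Fin n → F), C ∘ₗ φ = φ ∘ₗ C ∧ LinearMap.det C = d := by
  classical
  haveI : Nonempty (Fin n) := ⟨⟨0, Nat.pos_of_ne_zero hn⟩⟩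
  haveI : Nontrivial (AEval' φ) := (AEval'.of φ).symm.toEquiv.nontrivial
  haveI : Finite (AEval' φ) := Finite.of_equiv _ (AEval'.of φ).toEquiv
  haveI : IsSemisimpleModule F[X] (AEval' φ) := hss
  obtain ⟨W, hW⟩ := IsSemisimpleModule.exists_simple_submodule F[X] (AEval' φ)
  obtain ⟨W', hc⟩ := exists_isCompl W
  obtain ⟨I, hI, ⟨θ⟩⟩ := isSimpleModule_iff_quot_maximal.mp hW
  letI : Field (F[X] ⧸ I) := Ideal.Quotient.field I
  haveI : Finite (F[X] ⧸ I) := Finite.of_equiv _ θ.toEquiv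
  obtain ⟨ℓ, hℓ⟩ := FiniteField.norm_surjective F (F[X] ⧸ I) d
  obtain ⟨q, rfl⟩ := Ideal.Quotient.mk_surjective ℓ
  let e := Submodule.prodEquivOfIsCompl W W' hc
  let P : (W × W') →ₗ[F[X]] (W × W') := LinearMap.prodMap (q • LinearMap.id) LinearMap.id
  let c₀ : AEval' φ →ₗ[F[X]] AEval' φ := e.toLinearMap ∘ₗ P ∘ₗ e.symm.toLinearMap
  refine ⟨(AEval'.of φ).symm.toLinearMap ∘ₗ (c₀.restrictScalars F) ∘ₗ (AEval'.of φ).toLinearMap, ?_, ?_⟩
  · apply LinearMap.ext
    intro v
    show (AEval'.of φ).symm (c₀ (AEval'.of φ (φ v))) = φ ((AEval'.of φ).symm (c₀ (AEval'.of φ v)))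
    rw [← AEval'.X_smul_of, map_smul, AEval'.of_symm_X_smul]
  · refine (LinearMap.det_conj (A := F) (M := AEval' φ) (N := Fin n → F) (c₀.restrictScalars F)
      (AEval'.of φ).symm).trans ?_
    refine (LinearMap.det_conj (A := F) (M := ↥W × ↥W') (N := AEval' φ) (P.restrictScalars F)
      (e.restrictScalars F)).trans ?_
    haveI : Module.Free F ↥W := Module.Free.of_divisionRing F ↥W
    haveI : Module.Free F ↥W' := Module.Free.of_divisionRing F ↥W'
    haveI : Module.Finite F ↥W := Module.Finite.of_finite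
    haveI : Module.Finite F ↥W' := Module.Finite.of_finite
    refine (LinearMap.det_prodMap (R := F) (M := ↥W) (M' := ↥W')
      ((q • (LinearMap.id : W →ₗ[F[X]] W)).restrictScalars F) (LinearMap.id : W' →ₗ[F] W')).trans ?_
    rw [LinearMap.det_id, mul_one]
    have h4 : (q • (LinearMap.id : W →ₗ[F[X]] W)).restrictScalars F =
        (θ.restrictScalars F).symm.toLinearMap ∘ₗ
          (LinearMap.mul F (F[X] ⧸ I) (Ideal.Quotient.mk I q)) ∘ₗ (θ.restrictScalars F).toLinearMap := by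
      apply LinearMap.ext
      intro w
      show q • w = θ.symm (Ideal.Quotient.mk I q * θ w)
      have : Ideal.Quotient.mk I q * θ w = q • θ w := by rw [Algebra.smul_def]; rfl
      rw [this, ← map_smul, LinearEquiv.symm_apply_apply]
    rw [h4]
    refine (LinearMap.det_conj (A := F) (M := F[X] ⧸ I) (N := ↥W)
      (LinearMap.mul F (F[X] ⧸ I) (Ideal.Quotient.mk I q)) (θ.restrictScalars F).symm).trans ?_
    rw [← hℓ, Algebra.norm_apply]
    rfl

/-- In GL_n over a finite field of characteristic p, the conjugacy class of a semisimple element (an element of order prime to p) under the special linear group is its whole GL-conjugacy class: for every such x and every invertible g there is h of determinant one with h x h⁻¹ = g x g⁻¹. -/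
theorem result {F : Type*} [Field F] [Fintype F] {p : ℕ} [Fact p.Prime] [CharP F p] {n : ℕ} (x g : GL (Fin n) F) (hx : (orderOf x).Coprime p) : ∃ h : GL (Fin n) F, (h : Matrix (Fin n) (Fin n) F).det = 1 ∧ h * x * h⁻¹ = g * x * g⁻¹ := by
  have hp : p.Prime := Fact.out
  by_cases hn : n = 0
  · subst hn
    exact ⟨g, Matrix.det_isEmpty, rfl⟩
  obtain ⟨m, hm⟩ : ∃ m, m = orderOf x := ⟨_, rfl⟩
  have hmp : ¬ p ∣ m := by
    rw [hm]
    exact (Nat.Prime.coprime_iff_not_dvd hp).mp hx.symm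
  have hmF : (m : F) ≠ 0 := fun h => hmp ((CharP.cast_eq_zero_iff F p m).mp h)
  obtain ⟨φ, hφ⟩ : ∃ φ : (Fin n → F) →ₗ[F] (Fin n → F), φ = Matrix.toLin' (x : Matrix (Fin n) (Fin n) F) :=
    ⟨_, rfl⟩
  have hφm : φ ^ m = 1 := by
    have h1 : (x : Matrix (Fin n) (Fin n) F) ^ m = 1 := by
      rw [← Units.val_pow_eq_pow_val, hm, pow_orderOf_eq_one]; rfl
    have h2 : Matrix.toLinAlgEquiv' ((x : Matrix (Fin n) (Fin n) F) ^ m) =
        (Matrix.toLinAlgEquiv' (x : Matrix (Fin n) (Fin n) F)) ^ m := map_pow _ _ _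
    rw [h1, map_one] at h2
    rw [hφ]
    exact h2.symm
  have hss : Module.End.IsSemisimple φ := by
    apply Module.End.isSemisimple_of_squarefree_aeval_eq_zero (p := Polynomial.X ^ m - Polynomial.C 1)
    · exact (Polynomial.separable_X_pow_sub_C (1 : F) hmF one_ne_zero).squarefree
    · simp [hφm]
  have hd : (g : Matrix (Fin n) (Fin n) F).det ≠ 0 := (Matrix.isUnits_det_units g).ne_zero
  obtain ⟨Cm, hC, hdet⟩ := exists_comm_det φ hss (g : Matrix (Fin n) (Fin n) F).det hn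
  obtain ⟨c, hc⟩ : ∃ c : Matrix (Fin n) (Fin n) F, c = LinearMap.toMatrix' Cm := ⟨_, rfl⟩
  have hcdet : c.det = (g : Matrix (Fin n) (Fin n) F).det := by rw [hc, LinearMap.det_toMatrix', hdet]
  have hcx : c * (x : Matrix (Fin n) (Fin n) F) = x * c := by
    have := congrArg LinearMap.toMatrix' hC
    rw [LinearMap.toMatrix'_comp, LinearMap.toMatrix'_comp, hφ, LinearMap.toMatrix'_toLin', ← hc] at this
    exact this
  obtain ⟨cu, hcu⟩ : ∃ cu : GL (Fin n) F, (cu : Matrix (Fin n) (Fin n) F) = c :=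
    ⟨Matrix.GeneralLinearGroup.mkOfDetNeZero c (by rw [hcdet]; exact hd), rfl⟩
  have hcomm : cu * x = x * cu := Units.ext (by rw [Units.val_mul, Units.val_mul, hcu]; exact hcx)
  refine ⟨g * cu⁻¹, ?_, ?_⟩
  · have h1 : ((g * cu⁻¹ : GL (Fin n) F) : Matrix (Fin n) (Fin n) F) * c = g := by
      rw [← hcu, ← Units.val_mul, inv_mul_cancel_right]
    have h2 := congrArg Matrix.det h1
    rw [Matrix.det_mul, hcdet] at h2
    exact mul_right_cancel₀ hd (h2.trans (one_mul _).symm)
  · have h3 : cu⁻¹ * x * cu = x := by rw [mul_assoc, ← hcomm, ← mul_assoc, inv_mul_cancel, one_mul]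
    calc g * cu⁻¹ * x * (g * cu⁻¹)⁻¹ = g * (cu⁻¹ * x * cu) * g⁻¹ := by group
      _ = g * x * g⁻¹ := by rw [h3]

end Cfsg.Agent.S2569
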