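import Cfsg.Statements.S2388
import Mathlib
import Cfsg.Agent.S2569

set_option autoImplicit false
open Cfsg

namespace Cfsg.Agent.S2388

open Polynomial Module

universe u v

section semisimple
variable {F : Type u} [Field F]

/-- multiplication by `X` as an `F`-linear map -/
noncomputable def xmul (N : Type v) [AddCommGroup N] [Module F N] [Module F[X] N] [IsScalarTower F F[X] N] :
    N →ₗ[F] N := (LinearMap.lsmul F[X] N (X : F[X])).restrictScalars F

lemma xmul_apply (N : Type v) [AddCommGroup N] [Module F N] [Module F[X] N] [IsScalarTower F F[X] N]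
    (x : N) : xmul (F := F) N x = (X : F[X]) • x := rfl

set_option backward.isDefEq.respectTransparency false in
lemma charpoly_isCompl (N : Type v) [AddCommGroup N] [Module F N] [Module F[X] N] [IsScalarTower F F[X] N]
    [Finite N] (W W' : Submodule F[X] N) (hc : IsCompl W W') :
    (xmul (F := F) N).charpoly = (xmul (F := F) W).charpoly * (xmul (F := F) W').charpoly := by
  haveI : Module.Finite F N := Module.Finite.of_finite
  haveI : Module.Free F ↥W := Module.Free.of_divisionRing F ↥W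
  haveI : Module.Free F ↥W' := Module.Free.of_divisionRing F ↥W'
  haveI : Module.Finite F ↥W := Module.Finite.of_finite
  haveI : Module.Finite F ↥W' := Module.Finite.of_finite
  have h1 : xmul (F := F) N = ((Submodule.prodEquivOfIsCompl W W' hc).restrictScalars F).conj
      ((xmul (F := F) W).prodMap (xmul (F := F) W')) := by
    apply LinearMap.ext
    intro x
    obtain ⟨y, rfl⟩ := (Submodule.prodEquivOfIsCompl W W' hc).surjective x
    rw [LinearEquiv.conj_apply]
    show (X : F[X]) • (Submodule.prodEquivOfIsCompl W W' hc) y =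
      (Submodule.prodEquivOfIsCompl W W' hc) (((xmul (F := F) W).prodMap (xmul (F := F) W'))
        ((Submodule.prodEquivOfIsCompl W W' hc).symm ((Submodule.prodEquivOfIsCompl W W' hc) y)))
    rw [LinearEquiv.symm_apply_apply, ← map_smul]
    rfl
  rw [h1]
  refine (LinearEquiv.charpoly_conj (R := F) (M₁ := ↥W × ↥W') (M₂ := N)
    ((Submodule.prodEquivOfIsCompl W W' hc).restrictScalars F) _).trans ?_
  exact LinearMap.charpoly_prodMap (R := F) (M₁ := ↥W) (M₂ := ↥W') _ _

set_option backward.isDefEq.respectTransparency false in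
lemma charpoly_quot (W : Type v) [AddCommGroup W] [Module F W] [Module F[X] W] [IsScalarTower F F[X] W]
    [Finite W] (f : F[X]) (hf : f.Monic) (θ : W ≃ₗ[F[X]] F[X] ⧸ Ideal.span {f}) :
    (xmul (F := F) W).charpoly = f := by
  haveI : Module.Finite F W := Module.Finite.of_finite
  haveI : Finite (F[X] ⧸ Ideal.span {f}) := Finite.of_equiv _ θ.toEquiv
  haveI : Module.Finite F (F[X] ⧸ Ideal.span {f}) := Module.Finite.of_finite
  have h1 : xmul (F := F) W = ((θ.restrictScalars F).symm : (F[X] ⧸ Ideal.span {f}) ≃ₗ[F] W).conj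
      (LinearMap.mul F (F[X] ⧸ Ideal.span {f}) (Ideal.Quotient.mk (Ideal.span {f}) X)) := by
    apply LinearMap.ext
    intro w
    rw [LinearEquiv.conj_apply]
    show (X : F[X]) • w = θ.symm (Ideal.Quotient.mk (Ideal.span {f}) X * θ w)
    have : Ideal.Quotient.mk (Ideal.span {f}) X * θ w = (X : F[X]) • θ w := by
      obtain ⟨y, hy⟩ := Ideal.Quotient.mk_surjective (θ w)
      rw [← hy]; rfl
    rw [this, ← map_smul, LinearEquiv.symm_apply_apply]
  rw [h1]
  refine (LinearEquiv.charpoly_conj (R := F) (M₁ := F[X] ⧸ Ideal.span {f}) (M₂ := W)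
    ((θ.restrictScalars F).symm : (F[X] ⧸ Ideal.span {f}) ≃ₗ[F] W) _).trans ?_
  haveI : Module.Finite F (AdjoinRoot f) := (AdjoinRoot.powerBasis hf.ne_zero).finite
  have h2 := charpoly_leftMulMatrix (AdjoinRoot.powerBasis hf.ne_zero)
  rw [Algebra.leftMulMatrix_apply, LinearMap.charpoly_toMatrix,
    AdjoinRoot.minpoly_powerBasis_gen_of_monic hf] at h2
  exact h2

lemma charpoly_subsingleton (N : Type v) [AddCommGroup N] [Module F N] [Module F[X] N]
    [IsScalarTower F F[X] N] [Finite N] [Subsingleton N] : (xmul (F := F) N).charpoly = 1 := by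
  haveI : Module.Finite F N := Module.Finite.of_finite
  apply Polynomial.eq_one_of_monic_natDegree_zero (LinearMap.charpoly_monic _)
  rw [LinearMap.charpoly_natDegree]
  exact Module.finrank_zero_of_subsingleton

lemma exists_simple_decomp (N : Type v) [AddCommGroup N] [Module F N] [Module F[X] N]
    [IsScalarTower F F[X] N] [Finite N] [IsSemisimpleModule F[X] N] [Nontrivial N] :
    ∃ (W W' : Submodule F[X] N) (f : F[X]), IsCompl W W' ∧ f.Monic ∧ Irreducible f ∧
      Nonempty (W ≃ₗ[F[X]] F[X] ⧸ Ideal.span {f}) ∧ Nat.card W' < Nat.card N := by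
  classical
  obtain ⟨W, hW⟩ := IsSemisimpleModule.exists_simple_submodule F[X] N
  obtain ⟨W', hc⟩ := exists_isCompl W
  obtain ⟨I, hI, ⟨θ⟩⟩ := isSimpleModule_iff_quot_maximal.mp hW
  have hI0 : I ≠ ⊥ := Ring.ne_bot_of_isMaximal_of_not_isField hI (Polynomial.not_isField F)
  obtain ⟨g, hg⟩ : ∃ g : F[X], I = Ideal.span {g} := ⟨_, (Ideal.span_singleton_generator I).symm⟩
  have hg0 : g ≠ 0 := by
    rintro rfl
    apply hI0
    rw [hg]
    simp
  have hspan : I = Ideal.span {normalize g} := by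
    rw [hg]
    exact Ideal.span_singleton_eq_span_singleton.mpr (normalize_associated g).symm
  have hmonic : (normalize g).Monic := Polynomial.monic_normalize hg0
  have hirr : Irreducible (normalize g) := by
    have hp : (Ideal.span {normalize g}).IsPrime := by rw [← hspan]; exact hI.isPrime
    exact ((Ideal.span_singleton_prime hmonic.ne_zero).mp hp).irreducible
  haveI : Nontrivial W := IsSimpleModule.nontrivial F[X] W
  have hcard : Nat.card N = Nat.card W * Nat.card W' := by
    rw [← Nat.card_prod]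
    exact (Nat.card_congr (Submodule.prodEquivOfIsCompl W W' hc).toEquiv).symm
  have h1 : 1 < Nat.card W := Finite.one_lt_card
  have h2 : 0 < Nat.card W' := Nat.card_pos
  refine ⟨W, W', normalize g, hc, hmonic, hirr, ⟨hspan ▸ θ⟩, ?_⟩
  rw [hcard]
  nlinarith

lemma exists_sub_iso : ∀ (k : ℕ) (N : Type v) [AddCommGroup N] [Module F N] [Module F[X] N]
    [IsScalarTower F F[X] N] [Finite N] [IsSemisimpleModule F[X] N] (f : F[X]),
    Nat.card N = k → f.Monic → Irreducible f → f ∣ (xmul (F := F) N).charpoly →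
    ∃ W : Submodule F[X] N, Nonempty (W ≃ₗ[F[X]] F[X] ⧸ Ideal.span {f}) := by
  intro k
  induction k using Nat.strong_induction_on with
  | _ k ih =>
    intro N _ _ _ _ _ _ f hk hf hirr hdvd
    rcases subsingleton_or_nontrivial N with hs | hnt
    · exfalso
      rw [charpoly_subsingleton] at hdvd
      exact hirr.not_isUnit (isUnit_of_dvd_one hdvd)
    · obtain ⟨W, W', f₀, hc, hf₀, hirr₀, ⟨θ⟩, hlt⟩ := exists_simple_decomp (F := F) N
      rw [charpoly_isCompl N W W' hc, charpoly_quot W f₀ hf₀ θ] at hdvd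
      rcases hirr.prime.dvd_or_dvd hdvd with h | h
      · have hassoc : Associated f f₀ := hirr.associated_of_dvd hirr₀ h
        have hspan : Ideal.span {f₀} = Ideal.span {f} :=
          Ideal.span_singleton_eq_span_singleton.mpr hassoc.symm
        exact ⟨W, ⟨hspan ▸ θ⟩⟩
      · obtain ⟨W₂, ⟨θ₂⟩⟩ := ih (Nat.card W') (hk ▸ hlt) W' f rfl hf hirr h
        exact ⟨W₂.map W'.subtype,
          ⟨(Submodule.equivMapOfInjective W'.subtype W'.injective_subtype W₂).symm.trans θ₂⟩⟩

lemma iso_of_charpoly : ∀ (k : ℕ) (N₁ N₂ : Type v) [AddCommGroup N₁] [Module F N₁] [Module F[X] N₁]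
    [IsScalarTower F F[X] N₁] [Finite N₁] [IsSemisimpleModule F[X] N₁]
    [AddCommGroup N₂] [Module F N₂] [Module F[X] N₂]
    [IsScalarTower F F[X] N₂] [Finite N₂] [IsSemisimpleModule F[X] N₂],
    Nat.card N₁ = k → (xmul (F := F) N₁).charpoly = (xmul (F := F) N₂).charpoly →
    Nonempty (N₁ ≃ₗ[F[X]] N₂) := by
  intro k
  induction k using Nat.strong_induction_on with
  | _ k ih =>
    intro N₁ N₂ _ _ _ _ _ _ _ _ _ _ _ _ hk hchar
    rcases subsingleton_or_nontrivial N₁ with hs | hnt
    · rw [charpoly_subsingleton] at hchar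
      haveI : Module.Finite F N₂ := Module.Finite.of_finite
      have h0 : Module.finrank F N₂ = 0 := by
        rw [← LinearMap.charpoly_natDegree (xmul (F := F) N₂), ← hchar]
        simp
      haveI : Subsingleton N₂ := Module.finrank_zero_iff.mp h0
      exact ⟨LinearEquiv.ofSubsingleton N₁ N₂⟩
    · obtain ⟨W, W', f₀, hc, hf₀, hirr₀, ⟨θ⟩, hlt⟩ := exists_simple_decomp (F := F) N₁
      have h1 := charpoly_isCompl N₁ W W' hc
      rw [charpoly_quot W f₀ hf₀ θ] at h1
      have hdvd : f₀ ∣ (xmul (F := F) N₂).charpoly := by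
        rw [← hchar, h1]
        exact dvd_mul_right _ _
      obtain ⟨V, ⟨θ₂⟩⟩ := exists_sub_iso (Nat.card N₂) N₂ f₀ rfl hf₀ hirr₀ hdvd
      obtain ⟨V', hc₂⟩ := exists_isCompl V
      have h2 := charpoly_isCompl N₂ V V' hc₂
      rw [charpoly_quot V f₀ hf₀ θ₂] at h2
      have h3 : (xmul (F := F) W').charpoly = (xmul (F := F) V').charpoly := by
        rw [h1, h2] at hchar
        exact mul_left_cancel₀ hf₀.ne_zero hchar
      obtain ⟨e'⟩ := ih (Nat.card W') (hk ▸ hlt) W' V' rfl h3
      exact ⟨(Submodule.prodEquivOfIsCompl W W' hc).symm.trans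
        (((θ.trans θ₂.symm).prodCongr e').trans (Submodule.prodEquivOfIsCompl V V' hc₂))⟩

end semisimple

/-- In `SL_n(q)`, `q` a power of the prime `p`, two elements of order prime to `p` with the same characteristic polynomial are conjugate in `SL_n(q)` (not merely in `GL_n`). -/
theorem result {F : Type*} [Field F] [Fintype F] (p : ℕ) [Fact p.Prime] [CharP F p] (n : ℕ)
    (g h : Matrix.SpecialLinearGroup (Fin n) F) (hg : (orderOf g).Coprime p) (hh : (orderOf h).Coprime p)
    (hc : (g : Matrix (Fin n) (Fin n) F).charpoly = (h : Matrix (Fin n) (Fin n) F).charpoly) : IsConj g h := by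
  classical
  have hp : p.Prime := Fact.out
  have hss : ∀ k : Matrix.SpecialLinearGroup (Fin n) F, (orderOf k).Coprime p →
      Module.End.IsSemisimple (Matrix.toLin' (k : Matrix (Fin n) (Fin n) F)) := by
    intro k hk
    obtain ⟨m, hm⟩ : ∃ m, m = orderOf k := ⟨_, rfl⟩
    have hmp : ¬ p ∣ m := by rw [hm]; exact (Nat.Prime.coprime_iff_not_dvd hp).mp hk.symm
    have hmF : (m : F) ≠ 0 := fun h => hmp ((CharP.cast_eq_zero_iff F p m).mp h)
    have h1 : (k : Matrix (Fin n) (Fin n) F) ^ m = 1 := by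
      rw [← Matrix.SpecialLinearGroup.coe_pow, hm, pow_orderOf_eq_one]; rfl
    have h2 : Matrix.toLinAlgEquiv' ((k : Matrix (Fin n) (Fin n) F) ^ m) =
        (Matrix.toLinAlgEquiv' (k : Matrix (Fin n) (Fin n) F)) ^ m := map_pow _ _ _
    rw [h1, map_one] at h2
    apply Module.End.isSemisimple_of_squarefree_aeval_eq_zero (p := Polynomial.X ^ m - Polynomial.C 1)
    · exact (Polynomial.separable_X_pow_sub_C (1 : F) hmF one_ne_zero).squarefree
    · have h3 : (Matrix.toLin' (k : Matrix (Fin n) (Fin n) F)) ^ m = 1 := h2.symm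
      simp [h3]
  obtain ⟨φ, hφ⟩ : ∃ φ : (Fin n → F) →ₗ[F] (Fin n → F), φ = Matrix.toLin' (g : Matrix (Fin n) (Fin n) F) :=
    ⟨_, rfl⟩
  obtain ⟨ψ, hψ⟩ : ∃ ψ : (Fin n → F) →ₗ[F] (Fin n → F), ψ = Matrix.toLin' (h : Matrix (Fin n) (Fin n) F) :=
    ⟨_, rfl⟩
  have hφss : Module.End.IsSemisimple φ := hφ ▸ hss g hg
  have hψss : Module.End.IsSemisimple ψ := hψ ▸ hss h hh
  haveI : Finite (AEval' φ) := Finite.of_equiv _ (AEval'.of φ).toEquiv
  haveI : Finite (AEval' ψ) := Finite.of_equiv _ (AEval'.of ψ).toEquiv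
  haveI : IsSemisimpleModule F[X] (AEval' φ) := hφss
  haveI : IsSemisimpleModule F[X] (AEval' ψ) := hψss
  have hx : ∀ (χ : (Fin n → F) →ₗ[F] (Fin n → F)),
      (xmul (F := F) (AEval' χ)).charpoly = χ.charpoly := by
    intro χ
    haveI : Finite (AEval' χ) := Finite.of_equiv _ (AEval'.of χ).toEquiv
    haveI : Module.Finite F (AEval' χ) := Module.Finite.of_finite
    have h1 : xmul (F := F) (AEval' χ) = (AEval'.of χ).conj χ := by
      apply LinearMap.ext
      intro y
      obtain ⟨v, rfl⟩ := (AEval'.of χ).surjective y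
      rw [LinearEquiv.conj_apply]
      show (X : F[X]) • AEval'.of χ v = AEval'.of χ (χ ((AEval'.of χ).symm (AEval'.of χ v)))
      rw [LinearEquiv.symm_apply_apply, AEval'.X_smul_of]
    rw [h1]
    exact LinearEquiv.charpoly_conj (AEval'.of χ) χ
  have hchar : (xmul (F := F) (AEval' φ)).charpoly = (xmul (F := F) (AEval' ψ)).charpoly := by
    rw [hx, hx, hφ, hψ, Matrix.charpoly_toLin', Matrix.charpoly_toLin', hc]
  obtain ⟨e⟩ := iso_of_charpoly (Nat.card (AEval' φ)) (AEval' φ) (AEval' ψ) rfl hchar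
  obtain ⟨E, hE⟩ : ∃ E : (Fin n → F) ≃ₗ[F] (Fin n → F), ∀ v, E (φ v) = ψ (E v) := by
    refine ⟨((AEval'.of φ).trans (e.restrictScalars F)).trans (AEval'.of ψ).symm, ?_⟩
    intro v
    show (AEval'.of ψ).symm (e (AEval'.of φ (φ v))) = ψ ((AEval'.of ψ).symm (e (AEval'.of φ v)))
    rw [← AEval'.X_smul_of, map_smul, AEval'.of_symm_X_smul]
  obtain ⟨P, hP⟩ : ∃ P : Matrix (Fin n) (Fin n) F,
      P = LinearMap.toMatrix' (E : (Fin n → F) →ₗ[F] (Fin n → F)) := ⟨_, rfl⟩
  have hPg : P * (g : Matrix (Fin n) (Fin n) F) = (h : Matrix (Fin n) (Fin n) F) * P := by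
    have h1 : (E : (Fin n → F) →ₗ[F] (Fin n → F)) ∘ₗ φ = ψ ∘ₗ (E : (Fin n → F) →ₗ[F] (Fin n → F)) :=
      LinearMap.ext hE
    have := congrArg LinearMap.toMatrix' h1
    rw [LinearMap.toMatrix'_comp, LinearMap.toMatrix'_comp, hφ, hψ, LinearMap.toMatrix'_toLin',
      LinearMap.toMatrix'_toLin', ← hP] at this
    exact this
  have hPdet : P.det ≠ 0 := by
    rw [hP, LinearMap.det_toMatrix']
    exact (LinearEquiv.isUnit_det' E).ne_zero
  obtain ⟨Pu, hPu⟩ : ∃ Pu : GL (Fin n) F, (Pu : Matrix (Fin n) (Fin n) F) = P :=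
    ⟨Matrix.GeneralLinearGroup.mkOfDetNeZero P hPdet, rfl⟩
  have hinj : Function.Injective (Matrix.SpecialLinearGroup.toGL :
      Matrix.SpecialLinearGroup (Fin n) F →* GL (Fin n) F) := by
    intro a b hab
    apply Subtype.ext
    exact congrArg Units.val hab
  have hord : (orderOf (Matrix.SpecialLinearGroup.toGL g : GL (Fin n) F)).Coprime p := by
    rw [orderOf_injective _ hinj]
    exact hg
  have hconj : Pu * Matrix.SpecialLinearGroup.toGL g = Matrix.SpecialLinearGroup.toGL h * Pu := by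
    apply Units.ext
    rw [Units.val_mul, Units.val_mul, hPu]
    exact hPg
  obtain ⟨k, hkdet, hk⟩ := Cfsg.Agent.S2569.result (p := p) (Matrix.SpecialLinearGroup.toGL g) Pu hord
  have hk' : k * Matrix.SpecialLinearGroup.toGL g = Matrix.SpecialLinearGroup.toGL h * k := by
    have h1 : Pu * Matrix.SpecialLinearGroup.toGL g * Pu⁻¹ = Matrix.SpecialLinearGroup.toGL h := by
      rw [hconj]; group
    rw [h1] at hk
    rw [← hk]; group
  obtain ⟨ks, hks⟩ : ∃ ks : Matrix.SpecialLinearGroup (Fin n) F,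
      (ks : Matrix (Fin n) (Fin n) F) = (k : Matrix (Fin n) (Fin n) F) := ⟨⟨_, hkdet⟩, rfl⟩
  rw [isConj_iff]
  refine ⟨ks, ?_⟩
  rw [mul_inv_eq_iff_eq_mul]
  apply Subtype.ext
  rw [Matrix.SpecialLinearGroup.coe_mul, Matrix.SpecialLinearGroup.coe_mul, hks]
  have h2 := congrArg Units.val hk'
  rw [Units.val_mul, Units.val_mul] at h2
  exact h2

end Cfsg.Agent.S2388
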