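import Cfsg.Statements.S2387
import Mathlib
import Cfsg.Agent.S2388

set_option autoImplicit false
open scoped MatrixGroups
open Cfsg

namespace Cfsg.Agent.S2387

open Polynomial Module

universe u

section general
variable {F : Type u} [Field F]

lemma prodMap_pow {A B : Type*} [AddCommGroup A] [Module F A] [AddCommGroup B] [Module F B]
    (a : A →ₗ[F] A) (b : B →ₗ[F] B) (k : ℕ) : (a.prodMap b) ^ k = (a ^ k).prodMap (b ^ k) := by
  induction k with
  | zero =>
    rw [pow_zero, pow_zero, pow_zero]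
    apply LinearMap.ext
    rintro ⟨x, y⟩
    rfl
  | succ k ih => rw [pow_succ, ih, pow_succ, pow_succ, LinearMap.prodMap_mul]

lemma monic_ext (n : ℕ) (P Q : F[X]) (hP : P.Monic) (hQ : Q.Monic) (hPn : P.natDegree = n)
    (hQn : Q.natDegree = n) (h : ∀ i, i < n → P.coeff i = Q.coeff i) : P = Q := by
  ext k
  rcases lt_trichotomy k n with hk | hk | hk
  · exact h k hk
  · rw [hk]
    have h1 : P.coeff n = 1 := by rw [← hPn]; exact hP.coeff_natDegree
    have h2 : Q.coeff n = 1 := by rw [← hQn]; exact hQ.coeff_natDegree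
    rw [h1, h2]
  · rw [Polynomial.coeff_eq_zero_of_natDegree_lt (by omega), Polynomial.coeff_eq_zero_of_natDegree_lt (by omega)]

/-- the monic polynomial with given lower coefficients -/
noncomputable def polyOf {n : ℕ} (a : Fin n → F) : F[X] := X ^ n + ∑ i : Fin n, C (a i) * X ^ (i : ℕ)

lemma monic_polyOf {n : ℕ} (a : Fin n → F) : (polyOf a).Monic :=
  Polynomial.monic_X_pow_add (Polynomial.degree_sum_fin_lt a)

lemma natDegree_polyOf {n : ℕ} (a : Fin n → F) : (polyOf a).natDegree = n := by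
  have h1 : (∑ i : Fin n, C (a i) * X ^ (i : ℕ)).degree < ((X : F[X]) ^ n).degree := by
    rw [Polynomial.degree_X_pow]
    exact Polynomial.degree_sum_fin_lt a
  have h : (polyOf a).degree = (n : WithBot ℕ) := by
    unfold polyOf
    rw [Polynomial.degree_add_eq_left_of_degree_lt h1, Polynomial.degree_X_pow]
  exact Polynomial.natDegree_eq_of_degree_eq_some h

lemma coeff_polyOf {n : ℕ} (a : Fin n → F) (i : Fin n) : (polyOf a).coeff i = a i := by
  unfold polyOf
  rw [Polynomial.coeff_add, Polynomial.coeff_X_pow, if_neg (by have := i.isLt; omega), zero_add,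
    Polynomial.finsetSum_coeff]
  rw [Finset.sum_eq_single i]
  · rw [Polynomial.coeff_C_mul_X_pow, if_pos rfl]
  · intro j _ hj
    rw [Polynomial.coeff_C_mul_X_pow, if_neg (fun h => hj (Fin.ext h.symm))]
  · intro h; exact absurd (Finset.mem_univ _) h

end general

section finite
variable {F : Type u} [Field F] [Fintype F]

lemma exists_module (p : ℕ) [Fact p.Prime] [CharP F p] : ∀ (d : ℕ) (χ : F[X]), χ.natDegree = d →
    χ.Monic → χ.coeff 0 ≠ 0 →
    ∃ (N : Type u) (_ : AddCommGroup N) (_ : Module F N) (_ : Finite N) (φ : N →ₗ[F] N) (m : ℕ),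
      ¬ p ∣ m ∧ 0 < m ∧ φ ^ m = 1 ∧ φ.charpoly = χ := by
  have hp : p.Prime := Fact.out
  intro d
  induction d using Nat.strong_induction_on with
  | _ d ih =>
    intro χ hd hmonic h0
    rcases Nat.eq_zero_or_pos d with hd0 | hdpos
    · have hχ : χ = 1 := Polynomial.eq_one_of_monic_natDegree_zero hmonic (hd.trans hd0)
      refine ⟨PUnit.{u+1}, inferInstance, inferInstance, inferInstance, LinearMap.id, 1, ?_, one_pos, ?_, ?_⟩
      · exact fun h => hp.one_lt.not_ge (Nat.le_of_dvd one_pos h)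
      · rw [pow_one]; rfl
      · rw [hχ]
        apply Polynomial.eq_one_of_monic_natDegree_zero (LinearMap.charpoly_monic _)
        rw [LinearMap.charpoly_natDegree]
        exact Module.finrank_zero_of_subsingleton
    · have hnu : ¬ IsUnit χ := fun hu => by
        have := Polynomial.natDegree_eq_zero_of_isUnit hu
        omega
      obtain ⟨f, hf, hirr, hdvd⟩ := Polynomial.exists_monic_irreducible_factor χ hnu
      obtain ⟨χ', rfl⟩ := hdvd
      have hχ' : χ'.Monic := hf.of_mul_monic_left hmonic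
      rw [Polynomial.mul_coeff_zero] at h0
      have hf0 : f.coeff 0 ≠ 0 := left_ne_zero_of_mul h0
      have hχ'0 : χ'.coeff 0 ≠ 0 := right_ne_zero_of_mul h0
      have hdeg : (f * χ').natDegree = f.natDegree + χ'.natDegree := hf.natDegree_mul hχ'
      have hfpos : 0 < f.natDegree := hirr.natDegree_pos
      obtain ⟨N', iA, iM, iF, φ', m', hpm', hm'pos, hφ'm, hφ'c⟩ :=
        ih χ'.natDegree (by omega) χ' rfl hχ' hχ'0
      haveI : Module.Finite F N' := Module.Finite.of_finite
      haveI : Fact (Irreducible f) := ⟨hirr⟩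
      haveI : Module.Finite F (AdjoinRoot f) := (AdjoinRoot.powerBasis hf.ne_zero).finite
      haveI : Finite (AdjoinRoot f) := Module.finite_of_finite F
      letI : Fintype (AdjoinRoot f) := Fintype.ofFinite _
      haveI : CharP (AdjoinRoot f) p :=
        charP_of_injective_algebraMap (algebraMap F (AdjoinRoot f)).injective p
      have hroot : AdjoinRoot.root f ≠ 0 := by
        intro h
        have h1 : f ∣ X := AdjoinRoot.mk_eq_zero.mp h
        have h2 : Associated f X := hirr.associated_of_dvd Polynomial.irreducible_X h1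
        exact hf0 (Polynomial.X_dvd_iff.mp h2.symm.dvd)
      obtain ⟨k, -, hk⟩ := FiniteField.card (AdjoinRoot f) p
      have hpow : AdjoinRoot.root f ^ (Fintype.card (AdjoinRoot f) - 1) = 1 :=
        FiniteField.pow_card_sub_one_eq_one _ hroot
      have hcard2 : 1 < Fintype.card (AdjoinRoot f) := Fintype.one_lt_card
      have hpm₁ : ¬ p ∣ Fintype.card (AdjoinRoot f) - 1 := by
        intro hdiv
        have h1 : p ∣ Fintype.card (AdjoinRoot f) := by
          rw [hk]; exact dvd_pow_self p k.pos.ne'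
        have h2 : p ∣ 1 := by
          have := Nat.dvd_sub h1 hdiv
          rwa [Nat.sub_sub_self (by omega)] at this
        exact hp.one_lt.not_ge (Nat.le_of_dvd one_pos h2)
      refine ⟨AdjoinRoot f × N', inferInstance, inferInstance, inferInstance,
        (Algebra.lmul F (AdjoinRoot f) (AdjoinRoot.root f)).prodMap φ',
        (Fintype.card (AdjoinRoot f) - 1) * m', ?_, ?_, ?_, ?_⟩
      · exact fun h => ((hp.dvd_mul).mp h).elim hpm₁ hpm'
      · exact Nat.mul_pos (by omega) hm'pos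
      · rw [prodMap_pow]
        have e1 : (Algebra.lmul F (AdjoinRoot f) (AdjoinRoot.root f)) ^
            ((Fintype.card (AdjoinRoot f) - 1) * m') = 1 := by
          rw [← map_pow, pow_mul, hpow, one_pow, map_one]
        have e2 : φ' ^ ((Fintype.card (AdjoinRoot f) - 1) * m') = 1 := by
          rw [mul_comm, pow_mul, hφ'm, one_pow]
        rw [e1, e2]
        apply LinearMap.ext
        rintro ⟨x, y⟩
        rfl
      · rw [LinearMap.charpoly_prodMap, hφ'c]
        congr 1
        have h2 := charpoly_leftMulMatrix (AdjoinRoot.powerBasis hf.ne_zero)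
        rw [Algebra.leftMulMatrix_apply, LinearMap.charpoly_toMatrix,
          AdjoinRoot.minpoly_powerBasis_gen_of_monic hf] at h2
        exact h2

lemma exists_gl (p : ℕ) [Fact p.Prime] [CharP F p] (n : ℕ) (χ : F[X]) (hdeg : χ.natDegree = n)
    (hmonic : χ.Monic) (h0 : χ.coeff 0 ≠ 0) :
    ∃ g : GL (Fin n) F, (orderOf g).Coprime p ∧ (g : Matrix (Fin n) (Fin n) F).charpoly = χ := by
  obtain ⟨N, iA, iM, iF, φ, m, hpm, hmpos, hφm, hφc⟩ := exists_module p n χ hdeg hmonic h0
  haveI : Module.Finite F N := Module.Finite.of_finite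
  have hfr : Module.finrank F N = Module.finrank F (Fin n → F) := by
    rw [Module.finrank_fintype_fun_eq_card, Fintype.card_fin, ← hdeg, ← hφc, LinearMap.charpoly_natDegree]
  obtain ⟨e⟩ : Nonempty (N ≃ₗ[F] (Fin n → F)) := ⟨LinearEquiv.ofFinrankEq N (Fin n → F) hfr⟩
  obtain ⟨ψ, hψ⟩ : ∃ ψ : (Fin n → F) →ₗ[F] (Fin n → F), ψ = e.conj φ := ⟨_, rfl⟩
  have hψm : ψ ^ m = 1 := by
    have h1 : e.conjAlgEquiv F φ = ψ := by rw [hψ]; rfl
    rw [← h1, ← map_pow, hφm, map_one]
  have hψc : ψ.charpoly = χ := by rw [hψ, LinearEquiv.charpoly_conj, hφc]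
  obtain ⟨A, hA⟩ : ∃ A : Matrix (Fin n) (Fin n) F, A = LinearMap.toMatrix' ψ := ⟨_, rfl⟩
  have hAm : A ^ m = 1 := by
    have h1 : LinearMap.toMatrixAlgEquiv' ψ = A := by rw [hA]; rfl
    rw [← h1, ← map_pow, hψm, map_one]
  have hAc : A.charpoly = χ := by
    rw [hA, ← LinearMap.toMatrix_eq_toMatrix', LinearMap.charpoly_toMatrix, hψc]
  have hAdet : A.det ≠ 0 := by
    intro h
    have := congrArg Matrix.det hAm
    rw [Matrix.det_pow, h, zero_pow hmpos.ne', Matrix.det_one] at this
    exact zero_ne_one this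
  refine ⟨Matrix.GeneralLinearGroup.mkOfDetNeZero A hAdet, ?_, hAc⟩
  have hgm : (Matrix.GeneralLinearGroup.mkOfDetNeZero A hAdet) ^ m = 1 := by
    apply Units.ext
    rw [Units.val_pow_eq_pow_val]
    exact hAm
  have hdiv := orderOf_dvd_of_pow_eq_one hgm
  exact Nat.Coprime.coprime_dvd_left hdiv ((Nat.Prime.coprime_iff_not_dvd (Fact.out)).mpr hpm).symm

lemma gl_semisimple (p : ℕ) [Fact p.Prime] [CharP F p] {n : ℕ} (k : GL (Fin n) F)
    (hk : (orderOf k).Coprime p) :
    Module.End.IsSemisimple (Matrix.toLin' (k : Matrix (Fin n) (Fin n) F)) := by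
  have hp : p.Prime := Fact.out
  obtain ⟨m, hm⟩ : ∃ m, m = orderOf k := ⟨_, rfl⟩
  have hmp : ¬ p ∣ m := by rw [hm]; exact (Nat.Prime.coprime_iff_not_dvd hp).mp hk.symm
  have hmF : (m : F) ≠ 0 := fun h => hmp ((CharP.cast_eq_zero_iff F p m).mp h)
  have h1 : (k : Matrix (Fin n) (Fin n) F) ^ m = 1 := by
    rw [← Units.val_pow_eq_pow_val, hm, pow_orderOf_eq_one]; rfl
  have h2 : Matrix.toLinAlgEquiv' ((k : Matrix (Fin n) (Fin n) F) ^ m) =
      (Matrix.toLinAlgEquiv' (k : Matrix (Fin n) (Fin n) F)) ^ m := map_pow _ _ _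
  rw [h1, map_one] at h2
  apply Module.End.isSemisimple_of_squarefree_aeval_eq_zero (p := Polynomial.X ^ m - Polynomial.C 1)
  · exact (Polynomial.separable_X_pow_sub_C (1 : F) hmF one_ne_zero).squarefree
  · have h3 : (Matrix.toLin' (k : Matrix (Fin n) (Fin n) F)) ^ m = 1 := h2.symm
    simp [h3]

lemma gl_conj (p : ℕ) [Fact p.Prime] [CharP F p] {n : ℕ} (g h : GL (Fin n) F)
    (hg : (orderOf g).Coprime p) (hh : (orderOf h).Coprime p)
    (hc : (g : Matrix (Fin n) (Fin n) F).charpoly = (h : Matrix (Fin n) (Fin n) F).charpoly) :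
    IsConj g h := by
  classical
  obtain ⟨φ, hφ⟩ : ∃ φ : (Fin n → F) →ₗ[F] (Fin n → F), φ = Matrix.toLin' (g : Matrix (Fin n) (Fin n) F) :=
    ⟨_, rfl⟩
  obtain ⟨ψ, hψ⟩ : ∃ ψ : (Fin n → F) →ₗ[F] (Fin n → F), ψ = Matrix.toLin' (h : Matrix (Fin n) (Fin n) F) :=
    ⟨_, rfl⟩
  have hφss : Module.End.IsSemisimple φ := hφ ▸ gl_semisimple p g hg
  have hψss : Module.End.IsSemisimple ψ := hψ ▸ gl_semisimple p h hh
  haveI : Finite (AEval' φ) := Finite.of_equiv _ (AEval'.of φ).toEquiv
  haveI : Finite (AEval' ψ) := Finite.of_equiv _ (AEval'.of ψ).toEquiv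
  haveI : IsSemisimpleModule F[X] (AEval' φ) := hφss
  haveI : IsSemisimpleModule F[X] (AEval' ψ) := hψss
  have hx : ∀ (χ : (Fin n → F) →ₗ[F] (Fin n → F)),
      (Cfsg.Agent.S2388.xmul (F := F) (AEval' χ)).charpoly = χ.charpoly := by
    intro χ
    haveI : Finite (AEval' χ) := Finite.of_equiv _ (AEval'.of χ).toEquiv
    haveI : Module.Finite F (AEval' χ) := Module.Finite.of_finite
    have h1 : Cfsg.Agent.S2388.xmul (F := F) (AEval' χ) = (AEval'.of χ).conj χ := by
      apply LinearMap.ext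
      intro y
      obtain ⟨v, rfl⟩ := (AEval'.of χ).surjective y
      rw [LinearEquiv.conj_apply]
      show (X : F[X]) • AEval'.of χ v = AEval'.of χ (χ ((AEval'.of χ).symm (AEval'.of χ v)))
      rw [LinearEquiv.symm_apply_apply, AEval'.X_smul_of]
    rw [h1]
    exact LinearEquiv.charpoly_conj (AEval'.of χ) χ
  have hchar : (Cfsg.Agent.S2388.xmul (F := F) (AEval' φ)).charpoly =
      (Cfsg.Agent.S2388.xmul (F := F) (AEval' ψ)).charpoly := by
    rw [hx, hx, hφ, hψ, Matrix.charpoly_toLin', Matrix.charpoly_toLin', hc]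
  obtain ⟨e⟩ := Cfsg.Agent.S2388.iso_of_charpoly (Nat.card (AEval' φ)) (AEval' φ) (AEval' ψ) rfl hchar
  obtain ⟨E, hE⟩ : ∃ E : (Fin n → F) ≃ₗ[F] (Fin n → F), ∀ v, E (φ v) = ψ (E v) := by
    refine ⟨((AEval'.of φ).trans (e.restrictScalars F)).trans (AEval'.of ψ).symm, ?_⟩
    intro v
    show (AEval'.of ψ).symm (e (AEval'.of φ (φ v))) = ψ ((AEval'.of ψ).symm (e (AEval'.of φ v)))
    rw [← AEval'.X_smul_of, map_smul, AEval'.of_symm_X_smul]
  obtain ⟨P, hP⟩ : ∃ P : Matrix (Fin n) (Fin n) F,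
      P = LinearMap.toMatrix' (E : (Fin n → F) →ₗ[F] (Fin n → F)) := ⟨_, rfl⟩
  have hPg : P * (g : Matrix (Fin n) (Fin n) F) = (h : Matrix (Fin n) (Fin n) F) * P := by
    have h1 : (E : (Fin n → F) →ₗ[F] (Fin n → F)) ∘ₗ φ = ψ ∘ₗ (E : (Fin n → F) →ₗ[F] (Fin n → F)) :=
      LinearMap.ext hE
    have := congrArg LinearMap.toMatrix' h1
    rw [LinearMap.toMatrix'_comp, LinearMap.toMatrix'_comp, hφ, hψ, LinearMap.toMatrix'_toLin',
      LinearMap.toMatrix'_toLin', ← hP] at this
    exact this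
  have hPdet : P.det ≠ 0 := by
    rw [hP, LinearMap.det_toMatrix']
    exact (LinearEquiv.isUnit_det' E).ne_zero
  obtain ⟨Pu, hPu⟩ : ∃ Pu : GL (Fin n) F, (Pu : Matrix (Fin n) (Fin n) F) = P :=
    ⟨Matrix.GeneralLinearGroup.mkOfDetNeZero P hPdet, rfl⟩
  have hconj : Pu * g = h * Pu := by
    apply Units.ext
    rw [Units.val_mul, Units.val_mul, hPu]
    exact hPg
  rw [isConj_iff]
  exact ⟨Pu, by rw [hconj]; group⟩

lemma charpoly_of_isConj {n : ℕ} {g h : GL (Fin n) F} (hgh : IsConj g h) :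
    (g : Matrix (Fin n) (Fin n) F).charpoly = (h : Matrix (Fin n) (Fin n) F).charpoly := by
  obtain ⟨c, hc⟩ := isConj_iff.mp hgh
  rw [← hc, Units.val_mul, Units.val_mul, Matrix.charpoly_mul_comm, ← Matrix.mul_assoc,
    ← Units.val_mul, inv_mul_cancel]
  simp

lemma coeff_zero_ne {n : ℕ} (g : GL (Fin n) F) : (g : Matrix (Fin n) (Fin n) F).charpoly.coeff 0 ≠ 0 := by
  intro h
  have h1 := Matrix.det_eq_sign_charpoly_coeff (g : Matrix (Fin n) (Fin n) F)
  rw [h, mul_zero] at h1
  exact (Matrix.isUnits_det_units g).ne_zero h1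

lemma card_first_ne (k : ℕ) :
    Nat.card {a : Fin (k+1) → F // a 0 ≠ 0} = (Fintype.card F - 1) * Fintype.card F ^ k := by
  classical
  have e : {a : Fin (k+1) → F // a 0 = 0} ≃ (Fin k → F) :=
    { toFun := fun a => fun i => a.1 i.succ
      invFun := fun b => ⟨Fin.cons 0 b, by simp⟩
      left_inv := fun a => by
        apply Subtype.ext
        funext i
        refine Fin.cases ?_ (fun j => ?_) i
        · simp [a.2]
        · simp
      right_inv := fun b => by
        funext i
        simp }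
  rw [Nat.card_eq_fintype_card, Fintype.card_subtype_compl, Fintype.card_congr e]
  simp only [Fintype.card_pi, Finset.prod_const, Finset.card_univ, Fintype.card_fin]
  rw [pow_succ, Nat.sub_mul, one_mul, mul_comm]

end finite

/-- In `GL_n(q)` with `n ≥ 1`, `q` a power of the prime `p`, the number of conjugacy classes of elements of order prime to `p` (diagonalisable over the algebraic closure; determined by the characteristic polynomial) is `(q - 1) q^(n-1)`. -/
theorem result {F : Type*} [Field F] [Fintype F] {q : ℕ} (hq : Fintype.card F = q) (p : ℕ) [Fact p.Prime] [CharP F p] (n : ℕ) (hn : 1 ≤ n) :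
    Nat.card {c : ConjClasses (GL (Fin n) F) // ∃ g : GL (Fin n) F, ConjClasses.mk g = c ∧ (orderOf g).Coprime p} = (q - 1) * q ^ (n - 1) := by
  classical
  subst hq
  obtain ⟨k, rfl⟩ : ∃ k, n = k + 1 := ⟨n - 1, by omega⟩
  have key : Nat.card {c : ConjClasses (GL (Fin (k+1)) F) //
      ∃ g : GL (Fin (k+1)) F, ConjClasses.mk g = c ∧ (orderOf g).Coprime p} =
      Nat.card {a : Fin (k+1) → F // a 0 ≠ 0} := by
    symm
    have hex : ∀ a : {a : Fin (k+1) → F // a 0 ≠ 0}, ∃ g : GL (Fin (k+1)) F, (orderOf g).Coprime p ∧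
        ∀ i : Fin (k+1), (g : Matrix (Fin (k+1)) (Fin (k+1)) F).charpoly.coeff i = a.1 i := by
      intro a
      obtain ⟨g, hg, hgc⟩ := exists_gl p (k+1) (polyOf a.1) (natDegree_polyOf _) (monic_polyOf _)
        (by
          have := coeff_polyOf a.1 0
          rw [show ((0 : Fin (k+1)) : ℕ) = 0 from rfl] at this
          rw [this]; exact a.2)
      exact ⟨g, hg, fun i => by rw [hgc, coeff_polyOf]⟩
    choose G hG1 hG2 using hex
    apply Nat.card_congr
    apply Equiv.ofBijective (fun a => ⟨ConjClasses.mk (G a), G a, rfl, hG1 a⟩)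
    constructor
    · intro a b hab
      have h1 : ConjClasses.mk (G a) = ConjClasses.mk (G b) := congrArg Subtype.val hab
      have h3 := charpoly_of_isConj (ConjClasses.mk_eq_mk_iff_isConj.mp h1)
      apply Subtype.ext
      funext i
      rw [← hG2 a i, ← hG2 b i, h3]
    · rintro ⟨c, g, rfl, hg⟩
      refine ⟨⟨fun i => (g : Matrix (Fin (k+1)) (Fin (k+1)) F).charpoly.coeff i, coeff_zero_ne g⟩, ?_⟩
      apply Subtype.ext
      show ConjClasses.mk (G _) = ConjClasses.mk g
      rw [ConjClasses.mk_eq_mk_iff_isConj]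
      apply gl_conj p _ _ (hG1 _) hg
      apply monic_ext (k+1) _ _ (Matrix.charpoly_monic _) (Matrix.charpoly_monic _)
        (by rw [Matrix.charpoly_natDegree_eq_dim, Fintype.card_fin])
        (by rw [Matrix.charpoly_natDegree_eq_dim, Fintype.card_fin])
      intro i hi
      exact hG2 _ ⟨i, hi⟩
  rw [key, card_first_ne]
  rfl

end Cfsg.Agent.S2387
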