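import Cfsg.Statements.S2384
import Mathlib
import Cfsg.Agent.S2388
import Cfsg.Agent.S2387

set_option autoImplicit false
open Cfsg

namespace Cfsg.Agent.S2384

open Polynomial Module

universe u

variable {F : Type u} [Field F] [Fintype F]

lemma sl_charpoly_of_isConj {n : ℕ} {g h : Matrix.SpecialLinearGroup (Fin n) F} (hgh : IsConj g h) :
    (g : Matrix (Fin n) (Fin n) F).charpoly = (h : Matrix (Fin n) (Fin n) F).charpoly := by
  obtain ⟨c, hc⟩ := isConj_iff.mp hgh
  rw [← hc, Matrix.SpecialLinearGroup.coe_mul, Matrix.SpecialLinearGroup.coe_mul,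
    Matrix.charpoly_mul_comm, ← Matrix.mul_assoc, ← Matrix.SpecialLinearGroup.coe_mul, inv_mul_cancel]
  simp

lemma sl_coeff_zero {n : ℕ} (g : Matrix.SpecialLinearGroup (Fin n) F) :
    (g : Matrix (Fin n) (Fin n) F).charpoly.coeff 0 = (-1) ^ n := by
  have h1 := Matrix.det_eq_sign_charpoly_coeff (g : Matrix (Fin n) (Fin n) F)
  rw [g.det_coe, Fintype.card_fin] at h1
  have h2 : ((-1 : F) ^ n) * ((-1) ^ n) = 1 := by rw [← mul_pow]; simp
  calc (g : Matrix (Fin n) (Fin n) F).charpoly.coeff 0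
      = ((-1 : F) ^ n * (-1) ^ n) * (g : Matrix (Fin n) (Fin n) F).charpoly.coeff 0 := by rw [h2, one_mul]
    _ = (-1) ^ n * ((-1) ^ n * (g : Matrix (Fin n) (Fin n) F).charpoly.coeff 0) := by ring
    _ = (-1) ^ n := by rw [← h1, mul_one]

lemma card_first_eq (k : ℕ) (c : F) :
    Nat.card {a : Fin (k+1) → F // a 0 = c} = Fintype.card F ^ k := by
  classical
  have e : {a : Fin (k+1) → F // a 0 = c} ≃ (Fin k → F) :=
    { toFun := fun a => fun i => a.1 i.succ
      invFun := fun b => ⟨Fin.cons c b, by simp⟩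
      left_inv := fun a => by
        apply Subtype.ext
        funext i
        refine Fin.cases ?_ (fun j => ?_) i
        · simp [a.2]
        · simp
      right_inv := fun b => by
        funext i
        simp }
  rw [Nat.card_congr e, Nat.card_eq_fintype_card]
  simp

lemma toGL_inj {n : ℕ} : Function.Injective (Matrix.SpecialLinearGroup.toGL :
    Matrix.SpecialLinearGroup (Fin n) F →* GL (Fin n) F) := by
  intro a b hab
  apply Subtype.ext
  exact congrArg Units.val hab

/-- In `SL_n(q)`, `q` a power of the prime `p`, the number of conjugacy classes of elements of order prime to `p` (the semisimple classes) is `q^(n-1)`. -/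
theorem result {F : Type*} [Field F] [Fintype F] {q : ℕ} (hq : Fintype.card F = q) (p : ℕ) [Fact p.Prime] [CharP F p] (n : ℕ) (hn : 1 ≤ n) :
    Nat.card {c : ConjClasses (Matrix.SpecialLinearGroup (Fin n) F) //
      ∃ g : Matrix.SpecialLinearGroup (Fin n) F, ConjClasses.mk g = c ∧ (orderOf g).Coprime p} = q ^ (n - 1) := by
  classical
  subst hq
  obtain ⟨k, rfl⟩ : ∃ k, n = k + 1 := ⟨n - 1, by omega⟩
  have key : Nat.card {c : ConjClasses (Matrix.SpecialLinearGroup (Fin (k+1)) F) //
      ∃ g : Matrix.SpecialLinearGroup (Fin (k+1)) F, ConjClasses.mk g = c ∧ (orderOf g).Coprime p} =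
      Nat.card {a : Fin (k+1) → F // a 0 = (-1) ^ (k+1)} := by
    symm
    have hex : ∀ a : {a : Fin (k+1) → F // a 0 = (-1) ^ (k+1)},
        ∃ g : Matrix.SpecialLinearGroup (Fin (k+1)) F, (orderOf g).Coprime p ∧
        ∀ i : Fin (k+1), (g : Matrix (Fin (k+1)) (Fin (k+1)) F).charpoly.coeff i = a.1 i := by
      intro a
      have ha0 : (Cfsg.Agent.S2387.polyOf a.1).coeff 0 = (-1) ^ (k+1) := by
        have := Cfsg.Agent.S2387.coeff_polyOf a.1 0
        rw [show ((0 : Fin (k+1)) : ℕ) = 0 from rfl] at this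
        rw [this]; exact a.2
      obtain ⟨g, hg, hgc⟩ := Cfsg.Agent.S2387.exists_gl p (k+1) (Cfsg.Agent.S2387.polyOf a.1)
        (Cfsg.Agent.S2387.natDegree_polyOf _) (Cfsg.Agent.S2387.monic_polyOf _)
        (by rw [ha0]; exact pow_ne_zero _ (neg_ne_zero.mpr one_ne_zero))
      have hdet : (g : Matrix (Fin (k+1)) (Fin (k+1)) F).det = 1 := by
        rw [Matrix.det_eq_sign_charpoly_coeff, hgc, ha0, Fintype.card_fin, ← mul_pow]
        simp
      obtain ⟨s, hs⟩ : ∃ s : Matrix.SpecialLinearGroup (Fin (k+1)) F,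
          (s : Matrix (Fin (k+1)) (Fin (k+1)) F) = g := ⟨⟨_, hdet⟩, rfl⟩
      refine ⟨s, ?_, fun i => by rw [hs, hgc, Cfsg.Agent.S2387.coeff_polyOf]⟩
      have hsg : Matrix.SpecialLinearGroup.toGL s = g := Units.ext hs
      rw [← orderOf_injective _ toGL_inj s, hsg]
      exact hg
    choose G hG1 hG2 using hex
    apply Nat.card_congr
    apply Equiv.ofBijective (fun a => ⟨ConjClasses.mk (G a), G a, rfl, hG1 a⟩)
    constructor
    · intro a b hab
      have h1 : ConjClasses.mk (G a) = ConjClasses.mk (G b) := congrArg Subtype.val hab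
      have h3 := sl_charpoly_of_isConj (ConjClasses.mk_eq_mk_iff_isConj.mp h1)
      apply Subtype.ext
      funext i
      rw [← hG2 a i, ← hG2 b i, h3]
    · rintro ⟨c, g, rfl, hg⟩
      refine ⟨⟨fun i => (g : Matrix (Fin (k+1)) (Fin (k+1)) F).charpoly.coeff i, sl_coeff_zero g⟩, ?_⟩
      apply Subtype.ext
      show ConjClasses.mk (G _) = ConjClasses.mk g
      rw [ConjClasses.mk_eq_mk_iff_isConj]
      apply Cfsg.Agent.S2388.result p (k+1) _ _ (hG1 _) hg
      apply Cfsg.Agent.S2387.monic_ext (k+1) _ _ (Matrix.charpoly_monic _) (Matrix.charpoly_monic _)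
        (by rw [Matrix.charpoly_natDegree_eq_dim, Fintype.card_fin])
        (by rw [Matrix.charpoly_natDegree_eq_dim, Fintype.card_fin])
      intro i hi
      exact hG2 _ ⟨i, hi⟩
  rw [key, card_first_eq]
  rfl

end Cfsg.Agent.S2384
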