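import Cfsg.Statements.S2391
import Mathlib

set_option autoImplicit false
open Cfsg

namespace Cfsg.Agent.S2391

variable {F : Type*} [Field F] {n : ℕ}

/-- The chain of "iterated fixed spaces" of a subgroup of `SL_n`. -/
noncomputable def W (U : Subgroup (Matrix.SpecialLinearGroup (Fin n) F)) :
    ℕ → Submodule F (Fin n → F)
  | 0 => ⊥
  | (j+1) => ⨅ u ∈ U, Submodule.comap
      (Matrix.mulVecLin (u : Matrix (Fin n) (Fin n) F) - LinearMap.id) (W U j)

lemma W_zero (U : Subgroup (Matrix.SpecialLinearGroup (Fin n) F)) : W U 0 = ⊥ := rfl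

lemma mem_W_succ (U : Subgroup (Matrix.SpecialLinearGroup (Fin n) F)) (j : ℕ) (v : Fin n → F) :
    v ∈ W U (j+1) ↔ ∀ u ∈ U, (u : Matrix (Fin n) (Fin n) F).mulVec v - v ∈ W U j := by
  simp [W, Submodule.mem_iInf]

lemma W_le_succ (U : Subgroup (Matrix.SpecialLinearGroup (Fin n) F)) (j : ℕ) :
    W U j ≤ W U (j+1) := by
  induction j with
  | zero => simp [W_zero]
  | succ j ih =>
    intro v hv
    rw [mem_W_succ] at hv ⊢
    intro u hu
    exact ih (hv u hu)

lemma W_inv (U : Subgroup (Matrix.SpecialLinearGroup (Fin n) F))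
    (g : Matrix.SpecialLinearGroup (Fin n) F)
    (hg : g ∈ Subgroup.normalizer (U : Set (Matrix.SpecialLinearGroup (Fin n) F))) (j : ℕ) :
    ∀ v ∈ W U j, (g : Matrix (Fin n) (Fin n) F).mulVec v ∈ W U j := by
  induction j with
  | zero =>
    intro v hv
    rw [W_zero, Submodule.mem_bot] at hv ⊢
    rw [hv, Matrix.mulVec_zero]
  | succ j ih =>
    intro v hv
    rw [mem_W_succ] at hv ⊢
    intro u hu
    have h1 : g⁻¹ * u * g ∈ U := (Subgroup.mem_normalizer_iff''.mp hg u).mp hu
    have h2 := ih _ (hv _ h1)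
    have h3 : (g : Matrix (Fin n) (Fin n) F).mulVec
        (((g⁻¹ * u * g : Matrix.SpecialLinearGroup (Fin n) F) :
          Matrix (Fin n) (Fin n) F).mulVec v - v)
        = (u : Matrix (Fin n) (Fin n) F).mulVec ((g : Matrix (Fin n) (Fin n) F).mulVec v)
          - (g : Matrix (Fin n) (Fin n) F).mulVec v := by
      have e : g * (g⁻¹ * u * g) = u * g := by group
      rw [Matrix.mulVec_sub, Matrix.mulVec_mulVec, Matrix.mulVec_mulVec,
        ← Matrix.SpecialLinearGroup.coe_mul, ← Matrix.SpecialLinearGroup.coe_mul, e]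
    rw [← h3]; exact h2

lemma W_lt_succ [Fintype F] (p : ℕ) [Fact p.Prime] [CharP F p]
    (U : Subgroup (Matrix.SpecialLinearGroup (Fin n) F)) (hU : IsPGroup p ↥U) (j : ℕ)
    (hj : W U j ≠ ⊤) : W U j < W U (j+1) := by
  classical
  rw [SetLike.lt_iff_le_and_exists]
  refine ⟨W_le_succ U j, ?_⟩
  let ρ : Representation F U (Fin n → F) :=
    { toFun := fun u => Matrix.mulVecLin
        ((u : Matrix.SpecialLinearGroup (Fin n) F) : Matrix (Fin n) (Fin n) F)
      map_one' := by ext; simp
      map_mul' := fun a b => by ext; simp [Matrix.mulVecLin_mul] }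
  have hle : ∀ u : U, W U j ≤ (W U j).comap (ρ u) := by
    intro u v hv
    exact W_inv U u (Subgroup.le_normalizer u.2) j v hv
  let ρq := Representation.quotient ρ (W U j) hle
  let _ : MulAction U ((Fin n → F) ⧸ W U j) := MulAction.compHom _ ρq
  have hsmul : ∀ (u : U) (v : Fin n → F),
      u • (Submodule.Quotient.mk v : (Fin n → F) ⧸ W U j)
        = Submodule.Quotient.mk ((u : Matrix (Fin n) (Fin n) F).mulVec v) := by
    intro u v
    rfl
  have hcard : p ∣ Nat.card ((Fin n → F) ⧸ W U j) := by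
    rw [Module.natCard_eq_pow_finrank (K := F)]
    have h1 : p ∣ Nat.card F := by
      have h3 := addOrderOf_dvd_natCard (1 : F)
      have h4 := CharP.eq F (CharP.addOrderOf_one F) (inferInstance : CharP F p)
      rwa [h4] at h3
    have h2 : Module.finrank F ((Fin n → F) ⧸ W U j) ≠ 0 := by
      have := Submodule.finrank_quotient_add_finrank (W U j)
      have := Submodule.finrank_lt hj
      omega
    exact dvd_pow h1 h2
  have h0 : (0 : (Fin n → F) ⧸ W U j) ∈ MulAction.fixedPoints U ((Fin n → F) ⧸ W U j) := by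
    intro u
    have := hsmul u 0
    simpa using this
  obtain ⟨b, hb, hb0⟩ := hU.exists_fixed_point_of_prime_dvd_card_of_fixed_point _ hcard h0
  obtain ⟨v, rfl⟩ := Submodule.Quotient.mk_surjective _ b
  refine ⟨v, ?_, ?_⟩
  · rw [mem_W_succ]
    intro u hu
    have := hb ⟨u, hu⟩
    rw [hsmul] at this
    exact (Submodule.Quotient.eq _).mp this
  · intro hv
    exact hb0 ((Submodule.Quotient.mk_eq_zero _).mpr hv).symm

lemma exists_W_top [Fintype F] (p : ℕ) [Fact p.Prime] [CharP F p]
    (U : Subgroup (Matrix.SpecialLinearGroup (Fin n) F)) (hU : IsPGroup p ↥U) :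
    ∃ K, W U K = ⊤ := by
  have key : ∀ j, W U j = ⊤ ∨ j ≤ Module.finrank F (W U j) := by
    intro j
    induction j with
    | zero => right; exact Nat.zero_le _
    | succ j ih =>
      by_cases hj : W U j = ⊤
      · left; exact top_le_iff.mp (hj ▸ W_le_succ U j)
      · right
        have h1 := ih.resolve_left hj
        have h2 := Submodule.finrank_lt_finrank_of_lt (W_lt_succ p U hU j hj)
        omega
  rcases key (n+1) with h | h
  · exact ⟨_, h⟩
  · exfalso
    have := Submodule.finrank_le (W U (n+1))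
    rw [Module.finrank_fin_fun] at this
    omega

lemma W_one_ne_top (U : Subgroup (Matrix.SpecialLinearGroup (Fin n) F)) (hne : U ≠ ⊥) :
    W U 1 ≠ ⊤ := by
  intro h
  apply hne
  rw [Subgroup.eq_bot_iff_forall]
  intro u hu
  have h2 : ∀ v : Fin n → F, (u : Matrix (Fin n) (Fin n) F).mulVec v = v := by
    intro v
    have h3 : v ∈ W U 1 := h ▸ Submodule.mem_top
    rw [mem_W_succ] at h3
    have h4 := h3 u hu
    rw [W_zero, Submodule.mem_bot, sub_eq_zero] at h4
    exact h4
  ext i j
  have := congrFun (h2 (Pi.single j 1)) i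
  simpa [Matrix.one_apply, Pi.single_apply, eq_comm] using this

/-- The Borel–Tits property of `SL_n(q)` in flag form: for a field `F` of characteristic `p` with finitely many elements and a non-trivial `p`-subgroup `U` of `SL_n(F)`, there is a flag `0 = V₀ < V₁ < ⋯ < V_{k+1} = F^n` with at least one proper non-zero member such that every element of the normaliser of `U` maps each `V_i` onto itself and every element of `U` acts trivially on each quotient `V_{i+1}/V_i` (so the normaliser lies in the parabolic subgroup of the flag and `U` in its unipotent radical). -/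
theorem result {F : Type*} [Field F] [Fintype F] (p : ℕ) [Fact p.Prime] [CharP F p] (n : ℕ)
    (U : Subgroup (Matrix.SpecialLinearGroup (Fin n) F)) (hU : IsPGroup p ↥U) (hne : U ≠ ⊥) :
    ∃ (k : ℕ) (V : Fin (k + 2) → Submodule F (Fin n → F)), 1 ≤ k ∧ StrictMono V ∧ V 0 = ⊥ ∧ V (Fin.last (k + 1)) = ⊤ ∧
      (∀ g ∈ Subgroup.normalizer (U : Set (Matrix.SpecialLinearGroup (Fin n) F)), ∀ i, (V i).map (Matrix.mulVecLin (g : Matrix (Fin n) (Fin n) F)) = V i) ∧
      (∀ u ∈ U, ∀ i : Fin (k + 1), ∀ v ∈ V i.succ, (u : Matrix (Fin n) (Fin n) F).mulVec v - v ∈ V (Fin.castSucc i)) := by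
  classical
  obtain ⟨K, hKtop, hKmin⟩ : ∃ K, W U K = ⊤ ∧ ∀ j < K, W U j ≠ ⊤ := by
    have h := exists_W_top p U hU
    exact ⟨Nat.find h, Nat.find_spec h, fun j hj => Nat.find_min h hj⟩
  have h1 : W U 1 ≠ ⊤ := W_one_ne_top U hne
  have h0 : W U 0 ≠ ⊤ := fun h => h1 (top_le_iff.mp (h ▸ W_le_succ U 0))
  have hK2 : 2 ≤ K := by
    by_contra hlt
    have : K = 0 ∨ K = 1 := by omega
    rcases this with rfl | rfl
    · exact h0 hKtop
    · exact h1 hKtop
  obtain ⟨k, rfl⟩ : ∃ k, K = k + 1 := ⟨K - 1, by omega⟩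
  refine ⟨k, fun i => W U i, by omega, ?_, rfl, ?_, ?_, ?_⟩
  · rw [Fin.strictMono_iff_lt_succ]
    intro i
    exact W_lt_succ p U hU i (hKmin i i.2)
  · simpa using hKtop
  · intro g hg i
    apply le_antisymm
    · rintro _ ⟨v, hv, rfl⟩
      exact W_inv U g hg i v hv
    · intro v hv
      refine ⟨((g⁻¹ : Matrix.SpecialLinearGroup (Fin n) F) : Matrix (Fin n) (Fin n) F).mulVec v,
        W_inv U g⁻¹ (inv_mem hg) i v hv, ?_⟩
      show (g : Matrix (Fin n) (Fin n) F).mulVec
        (((g⁻¹ : Matrix.SpecialLinearGroup (Fin n) F) : Matrix (Fin n) (Fin n) F).mulVec v) = v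
      rw [Matrix.mulVec_mulVec, ← Matrix.SpecialLinearGroup.coe_mul, mul_inv_cancel,
        Matrix.SpecialLinearGroup.coe_one, Matrix.one_mulVec]
  · intro u hu i v hv
    exact (mem_W_succ U i v).mp hv u hu

end Cfsg.Agent.S2391
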