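import Cfsg.Statements.S2392
import Mathlib

set_option autoImplicit false
open scoped MatrixGroups
open Cfsg

namespace Cfsg.Agent.S2392

open Matrix

universe u v

section core
variable {F : Type u} [Field F] [Fintype F] [DecidableEq F] {m : ℕ}

def NN (v : Fin m → F) : Matrix (Fin (m + 1)) (Fin (m + 1)) F :=
  Matrix.of fun i j => if j = Fin.last m then (if h : i.val < m then v ⟨i.val, h⟩ else 0) else 0

lemma NN_apply (v : Fin m → F) (i j : Fin (m + 1)) :
    NN v i j = if j = Fin.last m then (if h : i.val < m then v ⟨i.val, h⟩ else 0) else 0 := rfl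

lemma NN_add (v w : Fin m → F) : NN (v + w) = NN v + NN w := by
  ext i j
  simp only [NN_apply, Matrix.add_apply, Pi.add_apply]
  split_ifs <;> simp

lemma NN_zero : NN (0 : Fin m → F) = 0 := by
  ext i j
  simp [NN_apply]

lemma NN_mul (v w : Fin m → F) : NN v * NN w = 0 := by
  ext i j
  rw [Matrix.mul_apply]
  apply Finset.sum_eq_zero
  intro k _
  simp only [NN_apply]
  by_cases hk : k = Fin.last m
  · subst hk; simp
  · simp [hk]

lemma det_NN (v : Fin m → F) : (1 + NN v).det = 1 := by
  have htri : (1 + NN v).BlockTriangular id := by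
    intro i j hij
    have hij' : j < i := hij
    have hne : i ≠ j := (ne_of_gt hij')
    have hj : j ≠ Fin.last m := by
      intro h
      rw [h] at hij'
      exact absurd (Fin.le_last i) (not_le.mpr hij')
    simp [NN_apply, hj, Matrix.one_apply_ne hne]
  rw [Matrix.det_of_isUpperTriangular htri]
  apply Finset.prod_eq_one
  intro i _
  simp only [Matrix.add_apply, Matrix.one_apply_eq, NN_apply]
  by_cases hi : i = Fin.last m
  · subst hi; simp
  · simp [hi]

def aa (v : Fin m → F) : Matrix.SpecialLinearGroup (Fin (m + 1)) F := ⟨1 + NN v, det_NN v⟩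

lemma aa_add (v w : Fin m → F) : aa (v + w) = aa v * aa w := by
  apply Subtype.ext
  show 1 + NN (v + w) = (1 + NN v) * (1 + NN w)
  rw [NN_add]
  simp only [add_mul, mul_add, one_mul, mul_one, NN_mul, add_zero]
  abel

lemma aa_zero : aa (0 : Fin m → F) = 1 := by
  apply Subtype.ext
  show 1 + NN (0 : Fin m → F) = 1
  rw [NN_zero, add_zero]

lemma aa_center (v : Fin m → F)
    (h : aa v ∈ Subgroup.center (Matrix.SpecialLinearGroup (Fin (m + 1)) F)) : v = 0 := by
  rw [Matrix.SpecialLinearGroup.mem_center_iff] at h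
  obtain ⟨r, -, hr⟩ := h
  funext k
  have h1 := congrFun (congrFun hr (Fin.castSucc k)) (Fin.last m)
  have h2 : (aa v : Matrix (Fin (m + 1)) (Fin (m + 1)) F) (Fin.castSucc k) (Fin.last m) = v k := by
    show (1 + NN v) (Fin.castSucc k) (Fin.last m) = v k
    simp [NN_apply, Matrix.one_apply_ne (Fin.castSucc_ne_last k)]
  rw [h2] at h1
  rw [← h1]
  simp [Matrix.scalar_apply]

lemma single_mul_NN (i j : Fin m) (c : F) (v : Fin m → F) :
    Matrix.single (Fin.castSucc i) (Fin.castSucc j) c * NN v = NN (Pi.single i (c * v j)) := by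
  ext a b
  by_cases ha : a = Fin.castSucc i
  · subst ha
    rw [Matrix.single_mul_apply_same]
    simp [NN_apply]
  · rw [Matrix.single_mul_apply_of_ne _ _ _ _ _ ha]
    simp only [NN_apply]
    split_ifs with h1 h2
    · have : (⟨a.val, h2⟩ : Fin m) ≠ i := by
        intro h
        apply ha
        rw [← h]
        rfl
      rw [Pi.single_eq_of_ne this]
    · rfl
    · rfl

lemma NN_mul_single (i j : Fin m) (c : F) (w : Fin m → F) :
    NN w * Matrix.single (Fin.castSucc i) (Fin.castSucc j) c = 0 := by
  ext a b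
  by_cases hb : b = Fin.castSucc j
  · subst hb
    rw [Matrix.mul_single_apply_same]
    simp [NN_apply, Fin.castSucc_ne_last]
  · rw [Matrix.mul_single_apply_of_ne _ _ _ _ _ hb]
    rfl

def TT (i j : Fin m) (h : i ≠ j) (c : F) : Matrix.SpecialLinearGroup (Fin (m + 1)) F :=
  ⟨Matrix.transvection (Fin.castSucc i) (Fin.castSucc j) c,
    Matrix.det_transvection_of_ne _ _ (fun h' => h (Fin.castSucc_injective _ h')) c⟩

lemma update_eq_add (v : Fin m → F) (i : Fin m) (x : F) :
    Function.update v i (v i + x) = v + Pi.single i x := by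
  funext k
  by_cases hk : k = i
  · subst hk; simp
  · simp [hk]

lemma TT_aa (i j : Fin m) (h : i ≠ j) (c : F) (v : Fin m → F) :
    TT i j h c * aa v = aa (Function.update v i (v i + c * v j)) * TT i j h c := by
  apply Subtype.ext
  show Matrix.transvection (Fin.castSucc i) (Fin.castSucc j) c * (1 + NN v)
    = (1 + NN (Function.update v i (v i + c * v j)))
      * Matrix.transvection (Fin.castSucc i) (Fin.castSucc j) c
  rw [update_eq_add, NN_add, Matrix.transvection]
  simp only [add_mul, mul_add, one_mul, mul_one, single_mul_NN, NN_mul_single, add_zero]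
  abel

variable {K : Type v} [Field K] {d : ℕ} (ψ : AddChar F K)
  (R : Matrix.SpecialLinearGroup (Fin (m + 1)) F →* Matrix (Fin d) (Fin d) K)

def ee (lam : Fin m → F) : Matrix (Fin d) (Fin d) K :=
  ∑ v : Fin m → F, ψ (-(lam ⬝ᵥ v)) • R (aa v)

lemma sum_char (hψ : ψ.IsPrimitive) (κ : Fin m → F) :
    ∑ v : Fin m → F, ψ (κ ⬝ᵥ v) = if κ = 0 then ((Fintype.card F : K)) ^ m else 0 := by
  split_ifs with h
  · subst h
    simp only [zero_dotProduct, AddChar.map_zero_eq_one, Finset.sum_const, Finset.card_univ,
      nsmul_eq_mul, mul_one]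
    rw [Fintype.card_fun, Fintype.card_fin, Nat.cast_pow]
  · obtain ⟨k, hk⟩ : ∃ k, κ k ≠ 0 := by
      by_contra hne
      push Not at hne
      exact h (funext hne)
    have hχ : ψ.compAddMonoidHom
        { toFun := fun v : Fin m → F => κ ⬝ᵥ v
          map_zero' := dotProduct_zero κ
          map_add' := dotProduct_add κ } ≠ 1 := by
      obtain ⟨x, hx⟩ := AddChar.ne_one_iff.mp (hψ hk)
      rw [AddChar.ne_one_iff]
      refine ⟨Pi.single k x, ?_⟩
      simpa [dotProduct_single] using hx
    exact AddChar.sum_eq_zero_of_ne_one hχ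

lemma R_mul_ee (w lam : Fin m → F) :
    R (aa w) * ee ψ R lam = ψ (lam ⬝ᵥ w) • ee ψ R lam := by
  unfold ee
  rw [Finset.mul_sum, Finset.smul_sum]
  rw [← Equiv.sum_comp (Equiv.addLeft w) (fun v => ψ (lam ⬝ᵥ w) • ψ (-(lam ⬝ᵥ v)) • R (aa v))]
  apply Finset.sum_congr rfl
  intro v _
  simp only [Equiv.coe_addLeft]
  rw [Matrix.mul_smul, ← map_mul, ← aa_add, smul_smul, ← AddChar.map_add_eq_mul]
  congr 2
  rw [dotProduct_add]
  ring

lemma ee_mul_ee (hψ : ψ.IsPrimitive) (lam mu : Fin m → F) :
    ee ψ R lam * ee ψ R mu = if lam = mu then ((Fintype.card F : K)) ^ m • ee ψ R mu else 0 := by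
  have h0 : ee ψ R lam * ee ψ R mu = ∑ v : Fin m → F, ψ (-(lam ⬝ᵥ v)) • (R (aa v) * ee ψ R mu) := by
    show (∑ v : Fin m → F, ψ (-(lam ⬝ᵥ v)) • R (aa v)) * ee ψ R mu = _
    rw [Finset.sum_mul]
    apply Finset.sum_congr rfl
    intro v _
    rw [Matrix.smul_mul]
  have h1 : ee ψ R lam * ee ψ R mu = (∑ v : Fin m → F, ψ ((mu - lam) ⬝ᵥ v)) • ee ψ R mu := by
    rw [h0, Finset.sum_smul]
    apply Finset.sum_congr rfl
    intro v _
    rw [R_mul_ee, smul_smul, ← AddChar.map_add_eq_mul]
    congr 2
    rw [sub_dotProduct]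
    ring
  rw [h1, sum_char ψ hψ]
  by_cases h : lam = mu
  · simp [h]
  · have : mu - lam ≠ 0 := sub_ne_zero.mpr (Ne.symm h)
    simp [h, this]

lemma sum_ee (hψ : ψ.IsPrimitive) :
    ∑ lam : Fin m → F, ee ψ R lam = ((Fintype.card F : K)) ^ m • (1 : Matrix (Fin d) (Fin d) K) := by
  unfold ee
  rw [Finset.sum_comm]
  have key : ∀ v : Fin m → F, ∑ lam : Fin m → F, ψ (-(lam ⬝ᵥ v)) • R (aa v)
      = (if v = 0 then ((Fintype.card F : K)) ^ m else 0) • R (aa v) := by
    intro v
    rw [← Finset.sum_smul]
    congr 1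
    have := sum_char ψ hψ (-v)
    simp only [neg_eq_zero] at this
    rw [← this]
    apply Finset.sum_congr rfl
    intro lam _
    rw [neg_dotProduct, dotProduct_comm]
  rw [Finset.sum_congr rfl (fun v _ => key v)]
  simp only [ite_smul, zero_smul, Finset.sum_ite_eq', Finset.mem_univ, if_true, aa_zero, map_one]

lemma R_TT_ee (i j : Fin m) (h : i ≠ j) (c : F) (lam : Fin m → F) :
    R (TT i j h c) * ee ψ R lam
      = ee ψ R (Function.update lam j (lam j + (-(c * lam i)))) * R (TT i j h c) := by
  unfold ee
  rw [Finset.mul_sum, Finset.sum_mul]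
  have hbij : Function.Bijective (fun v : Fin m → F => Function.update v i (v i + c * v j)) := by
    rw [← Finite.injective_iff_bijective]
    intro v v' hvv
    have hj' : v j = v' j := by
      have := congrFun hvv j
      simpa [Function.update_of_ne (Ne.symm h)] using this
    funext k
    by_cases hk : k = i
    · subst hk
      have := congrFun hvv k
      simp only [Function.update_self] at this
      rw [hj'] at this
      exact add_right_cancel this
    · have := congrFun hvv k
      simpa [Function.update_of_ne hk] using this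
  rw [← hbij.sum_comp (fun u => (ψ (-(Function.update lam j (lam j + (-(c * lam i))) ⬝ᵥ u))
    • R (aa u)) * R (TT i j h c))]
  apply Finset.sum_congr rfl
  intro v _
  rw [Matrix.mul_smul, Matrix.smul_mul, ← map_mul, ← map_mul, TT_aa]
  congr 2
  rw [update_eq_add, update_eq_add]
  simp only [add_dotProduct, dotProduct_add, single_dotProduct, dotProduct_single,
    Pi.add_apply, Pi.single_eq_of_ne h]
  ring

lemma ee_move (i j : Fin m) (h : i ≠ j) (c : F) (lam : Fin m → F) (hne : ee ψ R lam ≠ 0) :
    ee ψ R (Function.update lam j (lam j + c * lam i)) ≠ 0 := by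
  intro h0
  apply hne
  have h1 := R_TT_ee ψ R i j h (-c) lam
  have h2 : lam j + (-(-c * lam i)) = lam j + c * lam i := by ring
  rw [h2, h0, zero_mul] at h1
  have h3 : R (TT i j h (-c))⁻¹ * (R (TT i j h (-c)) * ee ψ R lam) = 0 := by
    rw [h1, mul_zero]
  rwa [← mul_assoc, ← map_mul, inv_mul_cancel, map_one, one_mul] at h3

end core

/-- closure of a set of vectors under elementary moves -/
theorem moves {F : Type u} [Field F] [DecidableEq F] {m : ℕ} (hm : 2 ≤ m) (Ω : Set (Fin m → F))
    (hΩ : ∀ lam ∈ Ω, ∀ i j : Fin m, i ≠ j → ∀ c : F,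
      Function.update lam j (lam j + c * lam i) ∈ Ω)
    (lam0 : Fin m → F) (h0 : lam0 ∈ Ω) (hne : lam0 ≠ 0) (mu : Fin m → F) (hmu : mu ≠ 0) :
    mu ∈ Ω := by
  classical
  -- Step A
  have stepA : ∀ lam ∈ Ω, ∀ i : Fin m, lam i ≠ 0 → ∀ x : Fin m → F, x i = lam i → x ∈ Ω := by
    intro lam hlam i hi x hx
    have hs : ∀ s : Finset (Fin m), i ∉ s → (fun k => if k ∈ s then x k else lam k) ∈ Ω := by
      intro s
      induction s using Finset.induction_on with
      | empty =>
        intro _
        simpa using hlam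
      | insert j s hjs ih =>
        intro hi'
        rw [Finset.mem_insert, not_or] at hi'
        have hy := ih hi'.2
        have hmove := hΩ _ hy i j hi'.1 ((x j - lam j) / lam i)
        have heq : Function.update (fun k => if k ∈ s then x k else lam k) j
            ((fun k => if k ∈ s then x k else lam k) j
              + (x j - lam j) / lam i * (fun k => if k ∈ s then x k else lam k) i)
            = (fun k => if k ∈ insert j s then x k else lam k) := by
          funext k
          by_cases hk : k = j
          · subst hk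
            simp only [Function.update_self, Finset.mem_insert, true_or, if_true, if_neg hjs,
              if_neg hi'.2]
            field_simp
            ring
          · simp only [Function.update_of_ne hk, Finset.mem_insert, hk, false_or]
        rw [heq] at hmove
        exact hmove
    have := hs (Finset.univ.erase i) (Finset.notMem_erase i _)
    have heq : (fun k => if k ∈ Finset.univ.erase i then x k else lam k) = x := by
      funext k
      by_cases hk : k = i
      · subst hk; simp [hx]
      · simp [hk]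
    rwa [heq] at this
  obtain ⟨i, hi⟩ : ∃ i, lam0 i ≠ 0 := by
    by_contra h
    push Not at h
    exact hne (funext h)
  -- first case
  have case1 : ∀ nu : Fin m → F, (∃ k, k ≠ i ∧ nu k ≠ 0) → nu ∈ Ω := by
    rintro nu ⟨k, hki, hk⟩
    have hx : Function.update nu i (lam0 i) ∈ Ω :=
      stepA lam0 h0 i hi _ (by simp)
    have hxk : Function.update nu i (lam0 i) k = nu k := Function.update_of_ne hki _ _
    exact stepA _ hx k (by rw [hxk]; exact hk) nu hxk.symm
  by_cases hc : ∃ k, k ≠ i ∧ mu k ≠ 0
  · exact case1 mu hc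
  · push Not at hc
    have hmui : mu i ≠ 0 := by
      intro h
      apply hmu
      funext k
      by_cases hk : k = i
      · subst hk; exact h
      · exact hc k hk
    obtain ⟨k, hk⟩ : ∃ k : Fin m, k ≠ i := by
      by_cases h0' : i = ⟨0, by omega⟩
      · exact ⟨⟨1, by omega⟩, by rw [h0']; simp [Fin.ext_iff]⟩
      · exact ⟨⟨0, by omega⟩, fun h => h0' h.symm⟩
    have h1 : Function.update mu k 1 ∈ Ω := case1 _ ⟨k, hk, by simp⟩
    have h1i : Function.update mu k 1 i = mu i := Function.update_of_ne (Ne.symm hk) _ _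
    exact stepA _ h1 i (by rw [h1i]; exact hmui) mu h1i.symm

theorem core {F : Type u} [Field F] [Fintype F] [DecidableEq F] {K : Type v} [Field K] (m d : ℕ)
    (hm : 2 ≤ m) (ψ : AddChar F K) (hψ : ψ.IsPrimitive) (hq : (Fintype.card F : K) ≠ 0)
    (R : Matrix.SpecialLinearGroup (Fin (m + 1)) F →* Matrix (Fin d) (Fin d) K)
    (hR : ∀ g, R g = 1 → g ∈ Subgroup.center (Matrix.SpecialLinearGroup (Fin (m + 1)) F)) :
    Fintype.card F ^ m - 1 ≤ d := by
  classical
  have hqm : ((Fintype.card F : K)) ^ m ≠ 0 := pow_ne_zero _ hq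
  -- a nonzero weight
  have hex : ∃ lam : Fin m → F, lam ≠ 0 ∧ ee ψ R lam ≠ 0 := by
    by_contra hcon
    push Not at hcon
    have hsum := sum_ee ψ R hψ
    have hsum' : ∑ lam : Fin m → F, ee ψ R lam = ee ψ R 0 := by
      apply Finset.sum_eq_single
      · intro b _ hb
        exact hcon b hb
      · intro h; exact absurd (Finset.mem_univ _) h
    rw [hsum'] at hsum
    have hw := R_mul_ee ψ R (Pi.single (⟨0, by omega⟩ : Fin m) (1 : F)) 0
    rw [hsum, zero_dotProduct, AddChar.map_zero_eq_one, one_smul, Matrix.mul_smul, mul_one] at hw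
    have hw' : R (aa (Pi.single (⟨0, by omega⟩ : Fin m) (1 : F))) = 1 := by
      have := congrArg (fun M => (((Fintype.card F : K)) ^ m)⁻¹ • M) hw
      simpa [smul_smul, inv_mul_cancel₀ hqm] using this
    have := aa_center _ (hR _ hw')
    have := congrFun this ⟨0, by omega⟩
    simp at this
  obtain ⟨lam0, hlam0, hne0⟩ := hex
  have hall : ∀ mu : Fin m → F, mu ≠ 0 → ee ψ R mu ≠ 0 := by
    intro mu hmu
    exact moves hm {lam | ee ψ R lam ≠ 0}
      (fun lam hlam i j hij c => ee_move ψ R i j hij c lam hlam) lam0 hne0 hlam0 mu hmu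
  -- independence
  have hind : iSupIndep (fun lam : Fin m → F => LinearMap.range (Matrix.mulVecLin (ee ψ R lam))) := by
    intro lam
    rw [Submodule.disjoint_def]
    intro x hx hx'
    obtain ⟨y, rfl⟩ := hx
    have hker : (⨆ mu, ⨆ (_ : mu ≠ lam), LinearMap.range (Matrix.mulVecLin (ee ψ R mu)))
        ≤ LinearMap.ker (Matrix.mulVecLin (ee ψ R lam)) := by
      apply iSup₂_le
      rintro mu hmu z ⟨y', rfl⟩
      rw [LinearMap.mem_ker]
      simp only [Matrix.mulVecLin_apply, Matrix.mulVec_mulVec]
      rw [ee_mul_ee ψ R hψ, if_neg (Ne.symm hmu), Matrix.zero_mulVec]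
    have h1 := hker hx'
    rw [LinearMap.mem_ker] at h1
    simp only [Matrix.mulVecLin_apply, Matrix.mulVec_mulVec] at h1 ⊢
    rw [ee_mul_ee ψ R hψ, if_pos rfl, Matrix.smul_mulVec] at h1
    exact (smul_eq_zero.mp h1).resolve_left hqm
  have hle := hind.subtype_ne_bot_le_finrank
  rw [Module.finrank_fin_fun] at hle
  refine le_trans ?_ hle
  have hinj : Function.Injective (fun lam : {lam : Fin m → F // lam ≠ 0} =>
      (⟨lam.1, by
        intro hbot
        apply hall lam.1 lam.2
        have hz : ∀ y, (ee ψ R lam.1).mulVec y = 0 := by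
          intro y
          have : (ee ψ R lam.1).mulVec y ∈ LinearMap.range (Matrix.mulVecLin (ee ψ R lam.1)) :=
            ⟨y, rfl⟩
          rw [hbot] at this
          exact (Submodule.mem_bot K).mp this
        ext a b
        have := congrFun (hz (Pi.single b 1)) a
        simpa using this⟩ :
        {lam : Fin m → F // LinearMap.range (Matrix.mulVecLin (ee ψ R lam)) ≠ ⊥})) := by
    intro a b hab
    have h' := congrArg Subtype.val hab
    exact Subtype.ext h'
  have hcard := Fintype.card_le_of_injective _ hinj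
  refine le_trans (le_of_eq ?_) hcard
  rw [Fintype.card_subtype_compl, Fintype.card_fun, Fintype.card_fin]
  simp

/-- A lower bound for representations in cross characteristic: for `n ≥ 3` and a field `F` with `q` elements, every homomorphism from `SL_n(F)` to `GL_d(K)`, `K` a field of characteristic different from that of `F`, whose kernel is central has `d ≥ q^(n-1) - 1`. -/
theorem result {F : Type*} [Field F] [Fintype F] {q : ℕ} (hq : Fintype.card F = q) (n : ℕ) (hn : 3 ≤ n)
    {K : Type*} [Field K] (hK : ringChar K ≠ ringChar F) {d : ℕ}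
    (ρ : Matrix.SpecialLinearGroup (Fin n) F →* GL (Fin d) K) (hker : ρ.ker ≤ Subgroup.center (Matrix.SpecialLinearGroup (Fin n) F)) :
    q ^ (n - 1) - 1 ≤ d := by
  classical
  obtain ⟨m, rfl⟩ : ∃ m, n = m + 1 := ⟨n - 1, by omega⟩
  have hm : 2 ≤ m := by omega
  have hq' : (Fintype.card F : CyclotomicField (AddChar.FiniteField.primitiveChar F K hK).n K) ≠ 0 := by
    haveI : CharP F (ringChar F) := ringChar.charP F
    haveI : Fact (ringChar F).Prime := ⟨CharP.char_is_prime F _⟩
    obtain ⟨k, hp, hk⟩ := FiniteField.card F (ringChar F)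
    rw [hk]
    push_cast
    apply pow_ne_zero
    intro h0
    have h1 : ringChar (CyclotomicField (AddChar.FiniteField.primitiveChar F K hK).n K) ∣ ringChar F :=
      (ringChar.spec _ _).mp h0
    have h2 : ringChar K = ringChar (CyclotomicField (AddChar.FiniteField.primitiveChar F K hK).n K) :=
      Algebra.ringChar_eq K _
    rw [← h2] at h1
    rcases (Nat.dvd_prime hp).mp h1 with h | h
    · exact CharP.ringChar_ne_one h
    · exact hK h
  have hinj : Function.Injective (fun M : Matrix (Fin d) (Fin d) K =>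
      M.map (algebraMap K (CyclotomicField (AddChar.FiniteField.primitiveChar F K hK).n K))) :=
    Matrix.map_injective (algebraMap K _).injective
  have hR : ∀ g, ((algebraMap K
      (CyclotomicField (AddChar.FiniteField.primitiveChar F K hK).n K)).mapMatrix.toMonoidHom.comp
        ((Units.coeHom _).comp ρ)) g = 1 → g ∈ Subgroup.center _ := by
    intro g hg
    apply hker
    rw [MonoidHom.mem_ker]
    apply Units.ext
    apply hinj
    show ((ρ g : GL (Fin d) K) : Matrix (Fin d) (Fin d) K).map _ = (1 : Matrix (Fin d) (Fin d) K).map _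
    rw [Matrix.map_one _ (map_zero _) (map_one _)]
    exact hg
  have := core m d hm (AddChar.FiniteField.primitiveChar F K hK).char
    (AddChar.FiniteField.primitiveChar F K hK).prim hq' _ hR
  rw [hq] at this
  simpa using this

end Cfsg.Agent.S2392
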