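import Cfsg.Statements.S2393
import Mathlib

set_option autoImplicit false
open scoped MatrixGroups
open Cfsg

namespace Cfsg.Agent.S2393

open Matrix

universe u v w

section generic
variable {A : Type u} [AddCommGroup A] [Fintype A] [DecidableEq A] {X : Type w} [Fintype X]
  [DecidableEq X] {K : Type v} [Field K] {d : ℕ}
  (χ : X → AddChar A K) (ρ : A → Matrix (Fin d) (Fin d) K) (N : K)

def gee (x : X) : Matrix (Fin d) (Fin d) K := ∑ a : A, χ x (-a) • ρ a

lemma rho_mul_gee (hρ : ∀ a b, ρ (a + b) = ρ a * ρ b) (b : A) (x : X) :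
    ρ b * gee χ ρ x = χ x b • gee χ ρ x := by
  unfold gee
  rw [Finset.mul_sum, Finset.smul_sum]
  rw [← Equiv.sum_comp (Equiv.addLeft b) (fun a => χ x b • χ x (-a) • ρ a)]
  apply Finset.sum_congr rfl
  intro a _
  simp only [Equiv.coe_addLeft]
  rw [Matrix.mul_smul, ← hρ, smul_smul, ← AddChar.map_add_eq_mul]
  congr 2
  abel

lemma gee_mul_gee (hρ : ∀ a b, ρ (a + b) = ρ a * ρ b)
    (hO1 : ∀ x y, ∑ a : A, χ x (-a) * χ y a = if x = y then N else 0) (x y : X) :
    gee χ ρ x * gee χ ρ y = if x = y then N • gee χ ρ y else 0 := by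
  have h0 : gee χ ρ x * gee χ ρ y = ∑ a : A, χ x (-a) • (ρ a * gee χ ρ y) := by
    show (∑ a : A, χ x (-a) • ρ a) * gee χ ρ y = _
    rw [Finset.sum_mul]
    apply Finset.sum_congr rfl
    intro a _
    rw [Matrix.smul_mul]
  have h1 : gee χ ρ x * gee χ ρ y = (∑ a : A, χ x (-a) * χ y a) • gee χ ρ y := by
    rw [h0, Finset.sum_smul]
    apply Finset.sum_congr rfl
    intro a _
    rw [rho_mul_gee χ ρ hρ, smul_smul]
  rw [h1, hO1]
  split_ifs <;> simp

lemma sum_gee (hρ0 : ρ 0 = 1)
    (hO2 : ∀ a : A, ∑ x : X, χ x (-a) = if a = 0 then N else 0) :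
    ∑ x : X, gee χ ρ x = N • (1 : Matrix (Fin d) (Fin d) K) := by
  unfold gee
  rw [Finset.sum_comm]
  have key : ∀ a : A, ∑ x : X, χ x (-a) • ρ a = (if a = 0 then N else 0) • ρ a := by
    intro a
    rw [← Finset.sum_smul, hO2]
  rw [Finset.sum_congr rfl (fun a _ => key a)]
  simp only [ite_smul, zero_smul, Finset.sum_ite_eq', Finset.mem_univ, if_true, hρ0]

lemma gee_card (hρ : ∀ a b, ρ (a + b) = ρ a * ρ b)
    (hO1 : ∀ x y, ∑ a : A, χ x (-a) * χ y a = if x = y then N else 0) (hN : N ≠ 0)
    (S : Finset X) (hS : ∀ x ∈ S, gee χ ρ x ≠ 0) : S.card ≤ d := by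
  classical
  have hind : iSupIndep (fun x : X => LinearMap.range (Matrix.mulVecLin (gee χ ρ x))) := by
    intro x
    rw [Submodule.disjoint_def]
    intro z hz hz'
    obtain ⟨y, rfl⟩ := hz
    have hker : (⨆ y, ⨆ (_ : y ≠ x), LinearMap.range (Matrix.mulVecLin (gee χ ρ y)))
        ≤ LinearMap.ker (Matrix.mulVecLin (gee χ ρ x)) := by
      apply iSup₂_le
      rintro y hy z ⟨y', rfl⟩
      rw [LinearMap.mem_ker]
      simp only [Matrix.mulVecLin_apply, Matrix.mulVec_mulVec]
      rw [gee_mul_gee χ ρ N hρ hO1, if_neg (Ne.symm hy), Matrix.zero_mulVec]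
    have h1 := hker hz'
    rw [LinearMap.mem_ker] at h1
    simp only [Matrix.mulVecLin_apply, Matrix.mulVec_mulVec] at h1 ⊢
    rw [gee_mul_gee χ ρ N hρ hO1, if_pos rfl, Matrix.smul_mulVec] at h1
    exact (smul_eq_zero.mp h1).resolve_left hN
  have hle := hind.subtype_ne_bot_le_finrank
  rw [Module.finrank_fin_fun] at hle
  refine le_trans ?_ hle
  have hinj : Function.Injective (fun x : {x : X // x ∈ S} =>
      (⟨x.1, by
        intro hbot
        apply hS x.1 x.2
        have hz : ∀ y, (gee χ ρ x.1).mulVec y = 0 := by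
          intro y
          have : (gee χ ρ x.1).mulVec y ∈ LinearMap.range (Matrix.mulVecLin (gee χ ρ x.1)) :=
            ⟨y, rfl⟩
          rw [hbot] at this
          exact (Submodule.mem_bot K).mp this
        ext a b
        have := congrFun (hz (Pi.single b 1)) a
        simpa using this⟩ :
        {x : X // LinearMap.range (Matrix.mulVecLin (gee χ ρ x)) ≠ ⊥})) := by
    intro a b hab
    have h' := congrArg Subtype.val hab
    exact Subtype.ext h'
  have hcard := Fintype.card_le_of_injective _ hinj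
  refine le_trans (le_of_eq ?_) hcard
  simp

end generic

section sp
variable {F : Type u} [Field F] [Fintype F] [DecidableEq F] {n : ℕ}

def aS (X : Matrix (Fin n) (Fin n) F) : ↥(Matrix.symplecticGroup (Fin n) F) :=
  ⟨Matrix.fromBlocks 1 (X + Xᵀ) 0 1, by
    rw [SymplecticGroup.mem_iff, Matrix.J, Matrix.fromBlocks_multiply, Matrix.fromBlocks_transpose,
      Matrix.fromBlocks_multiply]
    simp only [Matrix.transpose_one, Matrix.transpose_zero, Matrix.transpose_add,
      Matrix.transpose_transpose, Matrix.mul_one, Matrix.one_mul, Matrix.mul_zero,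
      Matrix.zero_mul, add_zero, zero_add, Matrix.neg_mul, Matrix.mul_neg, neg_zero]
    congr 1
    abel⟩

lemma aS_add (X Y : Matrix (Fin n) (Fin n) F) : aS (X + Y) = aS X * aS Y := by
  apply Subtype.ext
  show Matrix.fromBlocks 1 (X + Y + (X + Y)ᵀ) 0 1
    = Matrix.fromBlocks 1 (X + Xᵀ) 0 1 * Matrix.fromBlocks 1 (Y + Yᵀ) 0 1
  rw [Matrix.fromBlocks_multiply]
  simp only [Matrix.transpose_add, Matrix.mul_one, Matrix.one_mul, Matrix.mul_zero,
    Matrix.zero_mul, add_zero, zero_add]
  congr 1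
  abel

lemma aS_eq_one (X : Matrix (Fin n) (Fin n) F) (h : X + Xᵀ = 0) : aS X = 1 := by
  apply Subtype.ext
  show Matrix.fromBlocks 1 (X + Xᵀ) 0 1 = 1
  rw [h, Matrix.fromBlocks_one]

lemma aS_zero : aS (0 : Matrix (Fin n) (Fin n) F) = 1 :=
  aS_eq_one 0 (by simp)

lemma aS_center (X : Matrix (Fin n) (Fin n) F)
    (h : aS X ∈ Subgroup.center ↥(Matrix.symplecticGroup (Fin n) F)) : X + Xᵀ = 0 := by
  rw [Subgroup.mem_center_iff] at h
  have h1 := congrArg Subtype.val (h (SymplecticGroup.symJ (Fin n) F))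
  have h2 : Matrix.J (Fin n) F * Matrix.fromBlocks 1 (X + Xᵀ) 0 1
      = Matrix.fromBlocks 1 (X + Xᵀ) 0 1 * Matrix.J (Fin n) F := h1
  rw [Matrix.J, Matrix.fromBlocks_multiply, Matrix.fromBlocks_multiply, Matrix.fromBlocks_inj] at h2
  simpa using h2.1.symm

def lG (g : GL (Fin n) F) : ↥(Matrix.symplecticGroup (Fin n) F) :=
  ⟨Matrix.fromBlocks (g : Matrix (Fin n) (Fin n) F) 0 0
      ((g⁻¹ : GL (Fin n) F) : Matrix (Fin n) (Fin n) F)ᵀ, by
    have h1 : (g : Matrix (Fin n) (Fin n) F) * ((g⁻¹ : GL (Fin n) F) : Matrix (Fin n) (Fin n) F)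
        = 1 := by
      rw [← Units.val_mul, mul_inv_cancel, Units.val_one]
    rw [SymplecticGroup.mem_iff, Matrix.J, Matrix.fromBlocks_multiply, Matrix.fromBlocks_transpose,
      Matrix.fromBlocks_multiply]
    simp only [Matrix.transpose_one, Matrix.transpose_zero,
      Matrix.transpose_transpose, Matrix.mul_one, Matrix.mul_zero, Matrix.zero_mul,
      add_zero, zero_add, Matrix.neg_mul, Matrix.mul_neg, ← Matrix.transpose_mul, h1, neg_zero]⟩

lemma lG_aS (g : GL (Fin n) F) (X : Matrix (Fin n) (Fin n) F) :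
    lG g * aS X = aS ((g : Matrix (Fin n) (Fin n) F) * X * (g : Matrix (Fin n) (Fin n) F)ᵀ) * lG g := by
  have h1 : ((g⁻¹ : GL (Fin n) F) : Matrix (Fin n) (Fin n) F) * (g : Matrix (Fin n) (Fin n) F)
      = 1 := by
    rw [← Units.val_mul, inv_mul_cancel, Units.val_one]
  apply Subtype.ext
  show Matrix.fromBlocks (g : Matrix (Fin n) (Fin n) F) 0 0
        ((g⁻¹ : GL (Fin n) F) : Matrix (Fin n) (Fin n) F)ᵀ * Matrix.fromBlocks 1 (X + Xᵀ) 0 1
    = Matrix.fromBlocks 1 ((g : Matrix (Fin n) (Fin n) F) * X * (g : Matrix (Fin n) (Fin n) F)ᵀ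
        + ((g : Matrix (Fin n) (Fin n) F) * X * (g : Matrix (Fin n) (Fin n) F)ᵀ)ᵀ) 0 1
      * Matrix.fromBlocks (g : Matrix (Fin n) (Fin n) F) 0 0
        ((g⁻¹ : GL (Fin n) F) : Matrix (Fin n) (Fin n) F)ᵀ
  rw [Matrix.fromBlocks_multiply, Matrix.fromBlocks_multiply]
  have h2 : (g : Matrix (Fin n) (Fin n) F)ᵀ * ((g⁻¹ : GL (Fin n) F) : Matrix (Fin n) (Fin n) F)ᵀ
      = 1 := by
    rw [← Matrix.transpose_mul, h1, Matrix.transpose_one]
  simp only [Matrix.transpose_mul, Matrix.transpose_transpose, Matrix.mul_one, Matrix.one_mul,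
    Matrix.mul_zero, Matrix.zero_mul, add_zero, zero_add, Matrix.add_mul, Matrix.mul_add,
    Matrix.mul_assoc, h2]

def pr (T X : Matrix (Fin n) (Fin n) F) : F := Matrix.trace (Tᵀ * X)

lemma pr_add (T X Y : Matrix (Fin n) (Fin n) F) : pr T (X + Y) = pr T X + pr T Y := by
  simp [pr, Matrix.mul_add, Matrix.trace_add]

lemma pr_zero (T : Matrix (Fin n) (Fin n) F) : pr T 0 = 0 := by
  simp [pr]

lemma pr_neg (T X : Matrix (Fin n) (Fin n) F) : pr T (-X) = -pr T X := by
  simp [pr, Matrix.mul_neg, Matrix.trace_neg]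

lemma pr_sub_left (T U X : Matrix (Fin n) (Fin n) F) : pr (U - T) X = pr U X - pr T X := by
  simp [pr, Matrix.transpose_sub, Matrix.sub_mul, Matrix.trace_sub]

lemma pr_comm (T X : Matrix (Fin n) (Fin n) F) : pr T X = pr X T := by
  unfold pr
  rw [← Matrix.trace_transpose, Matrix.transpose_mul, Matrix.transpose_transpose]

lemma pr_single (κ : Matrix (Fin n) (Fin n) F) (i j : Fin n) (x : F) :
    pr κ (Matrix.single i j x) = κ i j * x := by
  simp [pr, Matrix.trace_mul_single]

lemma pr_conj (T g X : Matrix (Fin n) (Fin n) F) : pr T (g * X * gᵀ) = pr (gᵀ * T * g) X := by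
  unfold pr
  simp only [Matrix.transpose_mul, Matrix.transpose_transpose]
  rw [← Matrix.mul_assoc, ← Matrix.mul_assoc, Matrix.trace_mul_comm]
  simp only [Matrix.mul_assoc]

variable {K : Type v} [Field K] (ψ : AddChar F K)

/-- the character attached to a matrix -/
def chi (T : Matrix (Fin n) (Fin n) F) : AddChar (Matrix (Fin n) (Fin n) F) K :=
  ψ.compAddMonoidHom
    { toFun := fun X => pr T X
      map_zero' := pr_zero T
      map_add' := pr_add T }

lemma chi_apply (T X : Matrix (Fin n) (Fin n) F) : chi ψ T X = ψ (pr T X) := rfl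

lemma sum_pr (hψ : ψ.IsPrimitive) (κ : Matrix (Fin n) (Fin n) F) :
    ∑ X : Matrix (Fin n) (Fin n) F, ψ (pr κ X)
      = if κ = 0 then (Fintype.card (Matrix (Fin n) (Fin n) F) : K) else 0 := by
  split_ifs with h
  · subst h
    simp [pr]
  · obtain ⟨i, j, hij⟩ : ∃ i j, κ i j ≠ 0 := by
      by_contra hne
      push Not at hne
      exact h (Matrix.ext hne)
    have hχ : chi ψ κ ≠ 1 := by
      obtain ⟨x, hx⟩ := AddChar.ne_one_iff.mp (hψ hij)
      rw [AddChar.ne_one_iff]
      refine ⟨Matrix.single i j x, ?_⟩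
      rw [chi_apply, pr_single]
      simpa using hx
    exact AddChar.sum_eq_zero_of_ne_one hχ

lemma O1 (hψ : ψ.IsPrimitive) (T U : Matrix (Fin n) (Fin n) F) :
    ∑ X : Matrix (Fin n) (Fin n) F, chi ψ T (-X) * chi ψ U X
      = if T = U then (Fintype.card (Matrix (Fin n) (Fin n) F) : K) else 0 := by
  have h1 : ∀ X : Matrix (Fin n) (Fin n) F, chi ψ T (-X) * chi ψ U X = ψ (pr (U - T) X) := by
    intro X
    rw [chi_apply, chi_apply, ← AddChar.map_add_eq_mul, pr_neg, pr_sub_left]
    congr 1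
    ring
  rw [Finset.sum_congr rfl (fun X _ => h1 X), sum_pr ψ hψ]
  by_cases h : T = U
  · simp [h]
  · have : U - T ≠ 0 := sub_ne_zero.mpr (Ne.symm h)
    simp [h, this]

lemma O2 (hψ : ψ.IsPrimitive) (X : Matrix (Fin n) (Fin n) F) :
    ∑ T : Matrix (Fin n) (Fin n) F, chi ψ T (-X)
      = if X = 0 then (Fintype.card (Matrix (Fin n) (Fin n) F) : K) else 0 := by
  have h1 : ∀ T : Matrix (Fin n) (Fin n) F, chi ψ T (-X) = ψ (pr (-X) T) := by
    intro T
    rw [chi_apply, pr_comm]
  rw [Finset.sum_congr rfl (fun T _ => h1 T), sum_pr ψ hψ]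
  simp

variable {d : ℕ} (R : ↥(Matrix.symplecticGroup (Fin n) F) →* Matrix (Fin d) (Fin d) K)

lemma rhoR_add (X Y : Matrix (Fin n) (Fin n) F) : R (aS (X + Y)) = R (aS X) * R (aS Y) := by
  rw [aS_add, map_mul]

lemma rhoR_zero : R (aS (0 : Matrix (Fin n) (Fin n) F)) = 1 := by
  rw [aS_zero, map_one]

lemma gee_conj (g : GL (Fin n) F) (T : Matrix (Fin n) (Fin n) F) :
    R (lG g) * gee (chi ψ) (fun X => R (aS X))
        ((g : Matrix (Fin n) (Fin n) F)ᵀ * T * (g : Matrix (Fin n) (Fin n) F))
      = gee (chi ψ) (fun X => R (aS X)) T * R (lG g) := by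
  unfold gee
  rw [Finset.mul_sum, Finset.sum_mul]
  have hbij : Function.Bijective (fun X : Matrix (Fin n) (Fin n) F =>
      (g : Matrix (Fin n) (Fin n) F) * X * (g : Matrix (Fin n) (Fin n) F)ᵀ) := by
    rw [← Finite.injective_iff_bijective]
    intro X Y hXY
    have h1 : ((g⁻¹ : GL (Fin n) F) : Matrix (Fin n) (Fin n) F) * (g : Matrix (Fin n) (Fin n) F)
        = 1 := by
      rw [← Units.val_mul, inv_mul_cancel, Units.val_one]
    have h2 : (g : Matrix (Fin n) (Fin n) F)ᵀ * ((g⁻¹ : GL (Fin n) F) : Matrix (Fin n) (Fin n) F)ᵀ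
        = 1 := by
      rw [← Matrix.transpose_mul, h1, Matrix.transpose_one]
    have h3 := congrArg (fun M => ((g⁻¹ : GL (Fin n) F) : Matrix (Fin n) (Fin n) F) * M
      * ((g⁻¹ : GL (Fin n) F) : Matrix (Fin n) (Fin n) F)ᵀ) hXY
    simp only [] at h3
    rw [← Matrix.mul_assoc, ← Matrix.mul_assoc, h1, Matrix.one_mul, Matrix.mul_assoc, h2,
      Matrix.mul_one, ← Matrix.mul_assoc, ← Matrix.mul_assoc, h1, Matrix.one_mul, Matrix.mul_assoc,
      h2, Matrix.mul_one] at h3
    exact h3
  rw [← hbij.sum_comp (fun Y => (chi ψ T (-Y) • R (aS Y)) * R (lG g))]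
  apply Finset.sum_congr rfl
  intro X _
  rw [Matrix.mul_smul, Matrix.smul_mul, ← map_mul, ← map_mul, lG_aS]
  congr 1
  rw [chi_apply, chi_apply, pr_neg, pr_neg, pr_conj]

lemma gee_move (g : GL (Fin n) F) (T : Matrix (Fin n) (Fin n) F)
    (hT : gee (chi ψ) (fun X => R (aS X)) T ≠ 0) :
    gee (chi ψ) (fun X => R (aS X))
      ((g : Matrix (Fin n) (Fin n) F)ᵀ * T * (g : Matrix (Fin n) (Fin n) F)) ≠ 0 := by
  intro h0
  apply hT
  have h1 := gee_conj ψ R g T
  rw [h0, mul_zero] at h1
  have h3 : gee (chi ψ) (fun X => R (aS X)) T * R (lG g) * R (lG g)⁻¹ = 0 := by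
    rw [← h1, zero_mul]
  rwa [mul_assoc, ← map_mul, mul_inv_cancel, map_one, mul_one] at h3

lemma gee_symm (hψ : ψ.IsPrimitive) (T : Matrix (Fin n) (Fin n) F)
    (hT : gee (chi ψ) (fun X => R (aS X)) T ≠ 0) : ∀ i j, T i j = T j i := by
  intro i j
  by_contra hij
  have hne : T i j - T j i ≠ 0 := sub_ne_zero.mpr hij
  obtain ⟨x, hx⟩ := AddChar.ne_one_iff.mp (hψ hne)
  have h1 := rho_mul_gee (chi ψ) (fun X => R (aS X)) (rhoR_add R)
    (Matrix.single i j x - Matrix.single j i x) T
  have h2 : aS (Matrix.single i j x - Matrix.single j i x) = (1 : ↥(Matrix.symplecticGroup (Fin n) F)) := by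
    apply aS_eq_one
    rw [Matrix.transpose_sub, Matrix.transpose_single, Matrix.transpose_single]
    abel
  simp only [h2, map_one, one_mul] at h1
  have h3 : chi ψ T (Matrix.single i j x - Matrix.single j i x) = ψ ((T i j - T j i) * x) := by
    rw [chi_apply, sub_eq_add_neg, pr_add, pr_neg, pr_single, pr_single]
    congr 1
    ring
  rw [h3] at h1
  have h4 : (1 - ψ ((T i j - T j i) * x)) • gee (chi ψ) (fun X => R (aS X)) T = 0 := by
    rw [sub_smul, one_smul, ← h1, sub_self]
  rcases smul_eq_zero.mp h4 with h5 | h5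
  · apply hx
    rw [AddChar.mulShift_apply]
    exact (sub_eq_zero.mp h5).symm
  · exact hT h5

end sp

lemma rank_one_sign {F : Type u} [Field F] {n : ℕ} (z z' : Fin n → F)
    (h : ∀ k l, z k * z l = z' k * z' l) : z' = z ∨ z' = -z := by
  by_cases hz : z = 0
  · left
    subst hz
    funext k
    have := h k k
    simp only [Pi.zero_apply, mul_zero] at this
    simpa using this.symm
  · obtain ⟨k, hk⟩ : ∃ k, z k ≠ 0 := by
      by_contra hne
      push Not at hne
      exact hz (funext hne)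
    have hkk := h k k
    rcases mul_self_eq_mul_self_iff.mp hkk with h1 | h1
    · left
      funext l
      have := h k l
      rw [← h1] at this
      exact (mul_left_cancel₀ hk this).symm
    · right
      funext l
      have := h k l
      have h2 : z' k = -z k := by rw [h1]; ring
      rw [h2] at this
      have h3 : z k * z l = z k * (-z' l) := by rw [this]; ring
      have h4 := mul_left_cancel₀ hk h3
      simp only [Pi.neg_apply]
      rw [h4]; ring

lemma conj_entry {F : Type u} [Field F] {n : ℕ} (T : Matrix (Fin n) (Fin n) F) (i : Fin n)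
    (x : Fin n → F) (k l : Fin n) :
    ((1 + vecMulVec (Pi.single i (1 : F)) x : Matrix (Fin n) (Fin n) F)ᵀ * T
        * (1 + vecMulVec (Pi.single i (1 : F)) x)) k l
      = T k l + x k * T i l + T k i * x l + x k * T i i * x l := by
  rw [Matrix.transpose_add, Matrix.transpose_one, Matrix.transpose_vecMulVec]
  simp only [Matrix.add_mul, Matrix.mul_add, Matrix.one_mul, Matrix.mul_one, Matrix.add_apply,
    Matrix.mul_vecMulVec, Matrix.vecMulVec_mul, Matrix.vecMulVec_apply, Matrix.mulVec_single_one,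
    Matrix.single_one_vecMul, Matrix.col_apply, Matrix.row_apply]
  ring

lemma det_rank_one {F : Type u} [Field F] {n : ℕ} (i : Fin n) (x : Fin n → F) :
    (1 + vecMulVec (Pi.single i (1 : F)) x).det = 1 + x i := by
  rw [Matrix.vecMulVec_eq Unit, Matrix.det_one_add_replicateCol_mul_replicateRow]
  simp [dotProduct_single]

/-- fibre lemma -/
lemma fibre {F : Type u} [Field F] {n : ℕ} (T : Matrix (Fin n) (Fin n) F)
    (hsym : ∀ i j, T i j = T j i) (i : Fin n) (ha : T i i ≠ 0) (x x' : Fin n → F)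
    (h : (1 + vecMulVec (Pi.single i (1 : F)) x : Matrix (Fin n) (Fin n) F)ᵀ * T
        * (1 + vecMulVec (Pi.single i (1 : F)) x)
      = (1 + vecMulVec (Pi.single i (1 : F)) x' : Matrix (Fin n) (Fin n) F)ᵀ * T
        * (1 + vecMulVec (Pi.single i (1 : F)) x')) :
    x' = x ∨ x' = fun k => -x k - 2 * T i k / T i i := by
  have hz : ∀ k l, (T i i * x k + T i k) * (T i i * x l + T i l)
      = (T i i * x' k + T i k) * (T i i * x' l + T i l) := by
    intro k l
    have h1 := congrFun (congrFun h k) l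
    rw [conj_entry, conj_entry, hsym k i] at h1
    have h2 : T i i * (T k l + x k * T i l + T i k * x l + x k * T i i * x l)
        = T i i * (T k l + x' k * T i l + T i k * x' l + x' k * T i i * x' l) := by rw [h1]
    linear_combination h2
  rcases rank_one_sign (fun k => T i i * x k + T i k) (fun k => T i i * x' k + T i k) hz with h1 | h1
  · left
    funext k
    have := congrFun h1 k
    simp only [add_left_inj] at this
    exact mul_left_cancel₀ ha this
  · right
    funext k
    have := congrFun h1 k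
    simp only [Pi.neg_apply] at this
    field_simp
    linear_combination this

theorem coreSp {F : Type u} [Field F] [Fintype F] [DecidableEq F] {K : Type v} [Field K] (n d : ℕ)
    (hn : 1 ≤ n) (h2 : (2 : F) ≠ 0) (ψ : AddChar F K) (hψ : ψ.IsPrimitive)
    (hq : (Fintype.card F : K) ≠ 0)
    (R : ↥(Matrix.symplecticGroup (Fin n) F) →* Matrix (Fin d) (Fin d) K)
    (hR : ∀ g, R g = 1 → g ∈ Subgroup.center ↥(Matrix.symplecticGroup (Fin n) F)) :
    (Fintype.card F - 1) * Fintype.card F ^ (n - 1) ≤ 2 * d := by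
  classical
  have hN : (Fintype.card (Matrix (Fin n) (Fin n) F) : K) ≠ 0 := by
    rw [Module.card_eq_pow_finrank (K := F) (V := Matrix (Fin n) (Fin n) F)]
    push_cast
    exact pow_ne_zero _ hq
  have hρ := rhoR_add R
  have hρ0 := rhoR_zero R
  have hO1 := O1 (n := n) ψ hψ
  have hO2 := O2 (n := n) ψ hψ
  -- a nonzero weight
  have hex : ∃ T : Matrix (Fin n) (Fin n) F, T ≠ 0 ∧ gee (chi ψ) (fun X => R (aS X)) T ≠ 0 := by
    by_contra hcon
    push Not at hcon
    have hsum := sum_gee (chi ψ) (fun X => R (aS X)) _ hρ0 hO2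
    have hsum' : ∑ T : Matrix (Fin n) (Fin n) F, gee (chi ψ) (fun X => R (aS X)) T
        = gee (chi ψ) (fun X => R (aS X)) 0 := by
      apply Finset.sum_eq_single
      · intro b _ hb
        exact hcon b hb
      · intro h; exact absurd (Finset.mem_univ _) h
    rw [hsum'] at hsum
    have hw := rho_mul_gee (chi ψ) (fun X => R (aS X)) hρ
      (Matrix.single (⟨0, by omega⟩ : Fin n) (⟨0, by omega⟩ : Fin n) (1 : F)) 0
    have hchi0 : chi ψ (0 : Matrix (Fin n) (Fin n) F)
        (Matrix.single (⟨0, by omega⟩ : Fin n) (⟨0, by omega⟩ : Fin n) (1 : F)) = 1 := by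
      rw [chi_apply]
      simp [pr]
    rw [hsum, hchi0, one_smul, Matrix.mul_smul, mul_one] at hw
    have hw' : R (aS (Matrix.single (⟨0, by omega⟩ : Fin n) (⟨0, by omega⟩ : Fin n) (1 : F))) = 1 := by
      have := congrArg (fun M => ((Fintype.card (Matrix (Fin n) (Fin n) F) : K))⁻¹ • M) hw
      simpa [smul_smul, inv_mul_cancel₀ hN] using this
    have h0 := aS_center _ (hR _ hw')
    have h1 := congrFun (congrFun h0 ⟨0, by omega⟩) ⟨0, by omega⟩
    simp only [Matrix.add_apply, Matrix.transpose_apply, Matrix.single_apply_same,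
      Matrix.zero_apply] at h1
    apply h2
    rw [← h1]; ring
  obtain ⟨T0, hT0, hne0⟩ := hex
  have hsym0 := gee_symm ψ R hψ T0 hne0
  -- a weight with nonzero diagonal entry
  have hdiag : ∃ (T : Matrix (Fin n) (Fin n) F) (i : Fin n),
      gee (chi ψ) (fun X => R (aS X)) T ≠ 0 ∧ T i i ≠ 0 := by
    by_cases hd : ∃ i, T0 i i ≠ 0
    · obtain ⟨i, hi⟩ := hd
      exact ⟨T0, i, hne0, hi⟩
    · push Not at hd
      obtain ⟨i, j, hij⟩ : ∃ i j, T0 i j ≠ 0 := by
        by_contra hne
        push Not at hne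
        exact hT0 (Matrix.ext hne)
      have hne : i ≠ j := by
        intro h
        rw [h] at hij
        exact hij (hd j)
      have hdet : (Matrix.transvection j i (1 : F)).det ≠ 0 := by
        rw [Matrix.det_transvection_of_ne _ _ (Ne.symm hne)]
        exact one_ne_zero
      refine ⟨_, i, gee_move ψ R (Matrix.GeneralLinearGroup.mkOfDetNeZero _ hdet) T0 hne0, ?_⟩
      have hentry : ((Matrix.transvection j i (1 : F))ᵀ * T0 * Matrix.transvection j i (1 : F)) i i
          = T0 i i + T0 j i + T0 i j + T0 j j := by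
        simp [Matrix.transvection, Matrix.add_mul, Matrix.mul_add, Matrix.transpose_add]
        ring
      show ((Matrix.transvection j i (1 : F))ᵀ * T0 * Matrix.transvection j i (1 : F)) i i ≠ 0
      rw [hentry, hd i, hd j, hsym0 j i]
      intro h0
      apply hij
      have : (2 : F) * T0 i j = 0 := by linear_combination h0
      exact (mul_eq_zero.mp this).resolve_left h2
  obtain ⟨T, i, hT, hTi⟩ := hdiag
  have hsym := gee_symm ψ R hψ T hT
  -- the family
  have hdetx : ∀ p : {c : F // c ≠ -1} × ({j : Fin n // j ≠ i} → F),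
      (1 + vecMulVec (Pi.single i (1 : F))
        (fun k => if h : k = i then p.1.1 else p.2 ⟨k, h⟩)).det ≠ 0 := by
    intro p
    rw [det_rank_one]
    simp only [dif_pos]
    intro h
    apply p.1.2
    linear_combination h
  have himg : ∀ U ∈ (Finset.univ.image (fun p : {c : F // c ≠ -1} × ({j : Fin n // j ≠ i} → F) =>
      (1 + vecMulVec (Pi.single i (1 : F))
        (fun k => if h : k = i then p.1.1 else p.2 ⟨k, h⟩) : Matrix (Fin n) (Fin n) F)ᵀ * T
        * (1 + vecMulVec (Pi.single i (1 : F))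
        (fun k => if h : k = i then p.1.1 else p.2 ⟨k, h⟩)))),
      gee (chi ψ) (fun X => R (aS X)) U ≠ 0 := by
    intro U hU
    rw [Finset.mem_image] at hU
    obtain ⟨p, -, rfl⟩ := hU
    exact gee_move ψ R (Matrix.GeneralLinearGroup.mkOfDetNeZero _ (hdetx p)) T hT
  have hcard_img := gee_card (chi ψ) (fun X => R (aS X)) _ hρ hO1 hN _ himg
  have hfib := Finset.card_le_mul_card_image (f := fun p : {c : F // c ≠ -1} × ({j : Fin n // j ≠ i} → F) =>
      (1 + vecMulVec (Pi.single i (1 : F))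
        (fun k => if h : k = i then p.1.1 else p.2 ⟨k, h⟩) : Matrix (Fin n) (Fin n) F)ᵀ * T
        * (1 + vecMulVec (Pi.single i (1 : F))
        (fun k => if h : k = i then p.1.1 else p.2 ⟨k, h⟩))) Finset.univ 2 (by
    intro U hU
    rw [Finset.mem_image] at hU
    obtain ⟨p0, -, rfl⟩ := hU
    refine le_trans (Finset.card_le_card_of_injOn
      (fun p : {c : F // c ≠ -1} × ({j : Fin n // j ≠ i} → F) =>
        (fun k => if h : k = i then p.1.1 else p.2 ⟨k, h⟩ : Fin n → F))
      (t := {(fun k => if h : k = i then p0.1.1 else p0.2 ⟨k, h⟩ : Fin n → F),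
        (fun k => -(if h : k = i then p0.1.1 else p0.2 ⟨k, h⟩) - 2 * T i k / T i i)}) ?_ ?_)
      Finset.card_le_two
    · intro p hp
      rw [Finset.mem_coe, Finset.mem_filter] at hp
      have := fibre T hsym i hTi _ _ hp.2.symm
      rw [Finset.mem_coe, Finset.mem_insert, Finset.mem_singleton]
      exact this
    · intro p _ p' _ hpp
      have hpp' : (fun k => if h : k = i then p.1.1 else p.2 ⟨k, h⟩ : Fin n → F)
          = (fun k => if h : k = i then p'.1.1 else p'.2 ⟨k, h⟩) := hpp
      apply Prod.ext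
      · apply Subtype.ext
        have := congrFun hpp' i
        simpa using this
      · funext k
        have := congrFun hpp' k.1
        simpa [k.2] using this)
  have hP : Fintype.card ({c : F // c ≠ -1} × ({j : Fin n // j ≠ i} → F))
      = (Fintype.card F - 1) * Fintype.card F ^ (n - 1) := by
    simp [Fintype.card_subtype_compl]
  rw [Finset.card_univ, hP] at hfib
  exact le_trans hfib (Nat.mul_le_mul_left 2 hcard_img)

/-- A lower bound for representations in cross characteristic: for `n ≥ 2` and a field `F` with `q` elements, `q` odd, every homomorphism from the symplectic group `Sp_{2n}(F)` to `GL_d(K)`, `K` a field of characteristic different from that of `F`, whose kernel is central has `d ≥ q^(n-1)(q-1)/2`. -/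
theorem result {F : Type*} [Field F] [Fintype F] {q : ℕ} (hq : Fintype.card F = q) (hodd : Odd q) (n : ℕ) (hn : 2 ≤ n)
    {K : Type*} [Field K] (hK : ringChar K ≠ ringChar F) {d : ℕ}
    (ρ : ↥(Matrix.symplecticGroup (Fin n) F) →* GL (Fin d) K) (hker : ρ.ker ≤ Subgroup.center ↥(Matrix.symplecticGroup (Fin n) F)) :
    q ^ (n - 1) * (q - 1) / 2 ≤ d := by
  classical
  have hq' : (Fintype.card F : CyclotomicField (AddChar.FiniteField.primitiveChar F K hK).n K) ≠ 0 := by
    haveI : CharP F (ringChar F) := ringChar.charP F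
    haveI : Fact (ringChar F).Prime := ⟨CharP.char_is_prime F _⟩
    obtain ⟨k, hp, hk⟩ := FiniteField.card F (ringChar F)
    rw [hk]
    push_cast
    apply pow_ne_zero
    intro h0
    have h1 : ringChar (CyclotomicField (AddChar.FiniteField.primitiveChar F K hK).n K) ∣ ringChar F :=
      (ringChar.spec _ _).mp h0
    have h2 : ringChar K = ringChar (CyclotomicField (AddChar.FiniteField.primitiveChar F K hK).n K) :=
      Algebra.ringChar_eq K _
    rw [← h2] at h1
    rcases (Nat.dvd_prime hp).mp h1 with h | h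
    · exact CharP.ringChar_ne_one h
    · exact hK h
  have h2F : (2 : F) ≠ 0 := by
    intro h
    have h1 : ringChar F ∣ 2 := (ringChar.spec F 2).mp (by exact_mod_cast h)
    have h3 : ringChar F = 2 := by
      rcases (Nat.dvd_prime Nat.prime_two).mp h1 with h' | h'
      · exact absurd h' CharP.ringChar_ne_one
      · exact h'
    have h4 := FiniteField.even_card_iff_char_two.mp h3
    rw [hq] at h4
    rcases hodd with ⟨t, ht⟩
    omega
  have hinj : Function.Injective (fun M : Matrix (Fin d) (Fin d) K =>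
      M.map (algebraMap K (CyclotomicField (AddChar.FiniteField.primitiveChar F K hK).n K))) :=
    Matrix.map_injective (algebraMap K _).injective
  have hR : ∀ g, ((algebraMap K
      (CyclotomicField (AddChar.FiniteField.primitiveChar F K hK).n K)).mapMatrix.toMonoidHom.comp
        ((Units.coeHom _).comp ρ)) g = 1 → g ∈ Subgroup.center _ := by
    intro g hg
    apply hker
    rw [MonoidHom.mem_ker]
    apply Units.ext
    apply hinj
    show ((ρ g : GL (Fin d) K) : Matrix (Fin d) (Fin d) K).map _ = (1 : Matrix (Fin d) (Fin d) K).map _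
    rw [Matrix.map_one _ (map_zero _) (map_one _)]
    exact hg
  have := coreSp n d (by omega) h2F (AddChar.FiniteField.primitiveChar F K hK).char
    (AddChar.FiniteField.primitiveChar F K hK).prim hq' _ hR
  rw [hq] at this
  apply Nat.div_le_of_le_mul
  rw [mul_comm (q ^ (n - 1))]
  exact this

end Cfsg.Agent.S2393
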