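import Cfsg.Statements.S2394
import Mathlib
import Cfsg.Agent.S0245
import Cfsg.Agent.Helper17.Zsig

set_option autoImplicit false
open scoped MatrixGroups
open Cfsg

namespace Cfsg.Agent.S2394

open Matrix

lemma comm_GL_small {F : Type*} [Field F] {d : ℕ} (hd : d ≤ 1) (A B : GL (Fin d) F) :
    A * B = B * A := by
  interval_cases d
  · apply Units.ext
    ext i j
    exact i.elim0
  · apply Units.ext
    ext i j
    fin_cases i; fin_cases j
    simp [Matrix.mul_apply, mul_comm]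

lemma sp2_noncomm {F : Type*} [Field F] :
    ∃ a b : Matrix.symplecticGroup (Fin 1) F, a * b ≠ b * a := by
  have ha : (Matrix.fromBlocks 1 1 0 1 : Matrix (Fin 1 ⊕ Fin 1) (Fin 1 ⊕ Fin 1) F) ∈
      Matrix.symplecticGroup (Fin 1) F := by
    rw [SymplecticGroup.mem_iff, Matrix.J, Matrix.fromBlocks_multiply, Matrix.fromBlocks_transpose,
      Matrix.fromBlocks_multiply]
    simp
  have hb : (Matrix.fromBlocks 1 0 1 1 : Matrix (Fin 1 ⊕ Fin 1) (Fin 1 ⊕ Fin 1) F) ∈
      Matrix.symplecticGroup (Fin 1) F := by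
    rw [SymplecticGroup.mem_iff, Matrix.J, Matrix.fromBlocks_multiply, Matrix.fromBlocks_transpose,
      Matrix.fromBlocks_multiply]
    simp
  refine ⟨⟨_, ha⟩, ⟨_, hb⟩, ?_⟩
  intro h
  have h1 := congrArg (fun x : Matrix.symplecticGroup (Fin 1) F =>
    (x : Matrix (Fin 1 ⊕ Fin 1) (Fin 1 ⊕ Fin 1) F) (Sum.inl 0) (Sum.inl 0)) h
  simp [Matrix.fromBlocks_multiply] at h1

lemma no_ppd_dvd_GL {q d m r : ℕ} (hq : 1 < q) (hr : r.Prime) (hrm : r ∣ q ^ m - 1) (hm : 0 < m)
    (hprim : ∀ k : ℕ, 0 < k → k < m → ¬ r ∣ q ^ k - 1) (hd : d < m) :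
    ¬ r ∣ ∏ i : Fin d, (q ^ d - q ^ (i : ℕ)) := by
  intro h
  obtain ⟨i, -, hi⟩ := (Nat.Prime.prime hr).exists_mem_finset_dvd h
  have e : q ^ d - q ^ (i : ℕ) = q ^ (i : ℕ) * (q ^ (d - i) - 1) := by
    rw [Nat.mul_sub, mul_one, ← pow_add, Nat.add_sub_cancel' (le_of_lt i.2)]
  rw [e] at hi
  rcases (Nat.Prime.dvd_mul hr).mp hi with h1 | h1
  · have hrq : r ∣ q := hr.dvd_of_dvd_pow h1
    have h2 : r ∣ q ^ m := dvd_pow hrq hm.ne'
    have h3 : r ∣ 1 := by
      have := Nat.dvd_sub h2 hrm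
      rwa [Nat.sub_sub_self (Nat.one_le_pow _ _ (by omega))] at this
    exact hr.one_lt.ne' (Nat.dvd_one.mp h3)
  · have hi2 := i.2
    exact hprim (d - i) (by omega) (by omega) h1

/-- The smallest degree of a faithful representation of the symplectic group `Sp_{2n}(q)` over its own field `F_q` is `2n`: every injective homomorphism from `Sp_{2n}(F)` to `GL_d(F)`, `F` the field with `q` elements, has `d ≥ 2n`. -/
theorem result {F : Type*} [Field F] [Fintype F] (n : ℕ) {d : ℕ}
    (ρ : ↥(Matrix.symplecticGroup (Fin n) F) →* GL (Fin d) F) (hρ : Function.Injective ρ) : 2 * n ≤ d := by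
  classical
  by_contra hlt
  push Not at hlt
  have hq : 1 < Fintype.card F := Fintype.one_lt_card
  have hdvd : Nat.card (Matrix.symplecticGroup (Fin n) F) ∣ Nat.card (GL (Fin d) F) :=
    Subgroup.card_dvd_of_injective ρ hρ
  rw [Cfsg.Agent.S0245.result rfl n, Matrix.card_GL_field] at hdvd
  rcases Nat.lt_or_ge n 2 with hn | hn
  · interval_cases n
    · omega
    · obtain ⟨a, b, hab⟩ := sp2_noncomm (F := F)
      apply hab
      apply hρ
      rw [map_mul, map_mul]
      exact comm_GL_small (by omega) _ _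
  · by_cases h26 : Fintype.card F = 2 ∧ n = 3
    · obtain ⟨h2, rfl⟩ := h26
      rw [h2] at hdvd
      have hd5 : d < 6 := by omega
      interval_cases d <;> revert hdvd <;> decide
    · have hz := Cfsg.Agent.Helper17.Zsig.zsigmondy (Fintype.card F) (2 * n) hq (by omega)
        (by rintro ⟨h1, h2⟩; exact h26 ⟨h1, by omega⟩) (by rintro ⟨h1, -⟩; omega)
      obtain ⟨r, hr, hrd, hprim⟩ := hz
      apply no_ppd_dvd_GL hq hr hrd (by omega) hprim hlt
      refine dvd_trans ?_ hdvd
      apply dvd_trans ?_ (Dvd.intro_left _ rfl)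
      have hmem : (n - 1) ∈ Finset.range n := Finset.mem_range.mpr (by omega)
      have h3 := Finset.dvd_prod_of_mem (fun i => Fintype.card F ^ (2 * (i + 1)) - 1) hmem
      have e : 2 * (n - 1 + 1) = 2 * n := by omega
      simp only [e] at h3
      exact dvd_trans hrd h3

end Cfsg.Agent.S2394
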