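import Cfsg.Statements.S2395
import Mathlib

set_option autoImplicit false
open Cfsg

namespace Cfsg.Agent.S2395

open Cfsg Cfsg.Lie

variable {K : Type*} [Field K]

def RelA (D : ChevalleyDatum) {A : Type*} [CommGroup A] (f : ℕ → K → A) : Prop :=
  ∀ ρ, ρ < D.nroots → ∀ t₁ t₂ : K, f ρ (t₁ + t₂) = f ρ t₁ * f ρ t₂

def RelB (D : ChevalleyDatum) {A : Type*} [CommGroup A] (f : ℕ → K → A) : Prop :=
  ∀ r s, r < D.nroots → s < D.nroots → s ≠ r → s ≠ D.neg r → ∀ t u : K,
    ((D.commTerms r s).map (fun c => f c.1 ((c.2.1 : K) * (-t) ^ c.2.2.1 * u ^ c.2.2.2))).prod = 1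

lemma relA (D : ChevalleyDatum) :
    RelA D (fun ρ (v : K) => Abelianization.of (D.scGen K ρ v)) := by
  intro ρ hρ t₁ t₂
  show Abelianization.of (D.scGen K ρ (t₁ + t₂)) = Abelianization.of (D.scGen K ρ t₁) * Abelianization.of (D.scGen K ρ t₂)
  rw [← map_mul]
  congr 1
  unfold ChevalleyDatum.scGen
  rw [← map_mul]
  symm
  apply PresentedGroup.mk_eq_mk_of_mul_inv_mem
  exact Or.inl ⟨ρ, t₁, t₂, hρ, rfl⟩

lemma relB (D : ChevalleyDatum) :
    RelB D (fun ρ (v : K) => Abelianization.of (D.scGen K ρ v)) := by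
  intro r s hr hs h1 h2 t u
  have hmem : (D.stX s u)⁻¹ * (D.stX r t)⁻¹ * D.stX s u * D.stX r t * (D.stWord (D.commWord K r s t u))⁻¹
      ∈ D.steinbergRelsAB K := Or.inr ⟨r, s, t, u, hr, hs, h1, h2, rfl⟩
  have h := PresentedGroup.one_of_mem hmem
  let φ : FreeGroup (Fin D.nroots × K) →* Abelianization (D.SteinbergCover K) :=
    (Abelianization.of).comp (PresentedGroup.mk (D.steinbergRelsAB K))
  have h' : φ ((D.stX s u)⁻¹ * (D.stX r t)⁻¹ * D.stX s u * D.stX r t * (D.stWord (D.commWord K r s t u))⁻¹) = 1 := by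
    show Abelianization.of (PresentedGroup.mk (D.steinbergRelsAB K) _) = 1
    rw [h, map_one]
  rw [map_mul, map_mul, map_mul, map_mul, map_inv, map_inv, map_inv] at h'
  have h'' : φ (D.stWord (D.commWord K r s t u)) = 1 := by
    have : (φ (D.stX s u))⁻¹ * (φ (D.stX r t))⁻¹ * φ (D.stX s u) * φ (D.stX r t) = 1 := by
      rw [mul_right_comm (φ (D.stX s u))⁻¹, inv_mul_cancel, one_mul, inv_mul_cancel]
    rw [this, one_mul, inv_eq_one] at h'
    exact h'
  unfold ChevalleyDatum.stWord ChevalleyDatum.commWord at h''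
  rw [map_list_prod, List.map_map, List.map_map] at h''
  exact h''

lemma add_zero' {A : Type*} [CommGroup A] (f : K → A) (h : ∀ a b, f (a + b) = f a * f b) : f 0 = 1 := by
  have := h 0 0
  rw [add_zero] at this
  exact (left_eq_mul.mp this)

lemma add_sub' {A : Type*} [CommGroup A] (f : K → A) (h : ∀ a b, f (a + b) = f a * f b) (a b : K) :
    f (a - b) = f a * (f b)⁻¹ := by
  have := h (a - b) b
  rw [sub_add_cancel] at this
  rw [this, mul_inv_cancel_right]

lemma cast_pm (c : ℤ) (hc : c = 1 ∨ c = -1) : ((c : K) * (c : K)) = 1 := by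
  rcases hc with rfl | rfl <;> simp

lemma stepA (D : ChevalleyDatum) {A : Type*} [CommGroup A] (f : ℕ → K → A) (hB : RelB D f)
    (r s ρ : ℕ) (c : ℤ) (hr : r < D.nroots) (hs : s < D.nroots) (h1 : s ≠ r) (h2 : s ≠ D.neg r)
    (hT : D.commTerms r s = [(ρ, c, 1, 1)]) (hc : c = 1 ∨ c = -1) (v : K) : f ρ v = 1 := by
  have h := hB r s hr hs h1 h2 (-((c : K) * v)) 1
  rw [hT] at h
  simp only [List.map_cons, List.map_nil, List.prod_cons, List.prod_nil, mul_one, neg_neg, pow_one] at h
  rw [← mul_assoc, cast_pm c hc, one_mul] at h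
  exact h

def checkTable (D : ChevalleyDatum) (tbl : List (ℕ × ℕ)) : Bool :=
  (List.range D.nroots).all fun ρ =>
    decide ((tbl.getD ρ (0, 0)).1 < D.nroots) && decide ((tbl.getD ρ (0, 0)).2 < D.nroots) &&
    decide ((tbl.getD ρ (0, 0)).2 ≠ (tbl.getD ρ (0, 0)).1) &&
    decide ((tbl.getD ρ (0, 0)).2 ≠ D.neg (tbl.getD ρ (0, 0)).1) &&
    (decide (D.commTerms (tbl.getD ρ (0, 0)).1 (tbl.getD ρ (0, 0)).2 = [(ρ, 1, 1, 1)]) ||
      decide (D.commTerms (tbl.getD ρ (0, 0)).1 (tbl.getD ρ (0, 0)).2 = [(ρ, -1, 1, 1)]))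

lemma of_table (D : ChevalleyDatum) (tbl : List (ℕ × ℕ)) (h : checkTable D tbl = true)
    {A : Type*} [CommGroup A] (f : ℕ → K → A) (hB : RelB D f) :
    ∀ ρ, ρ < D.nroots → ∀ v : K, f ρ v = 1 := by
  intro ρ hρ v
  unfold checkTable at h
  rw [List.all_eq_true] at h
  have h' := h ρ (List.mem_range.mpr hρ)
  simp only [Bool.and_eq_true, Bool.or_eq_true, decide_eq_true_eq] at h'
  obtain ⟨⟨⟨⟨hr, hs⟩, h1⟩, h2⟩, hT⟩ := h'
  rcases hT with hT | hT
  · exact stepA D f hB _ _ ρ 1 hr hs h1 h2 hT (Or.inl rfl) v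
  · exact stepA D f hB _ _ ρ (-1) hr hs h1 h2 hT (Or.inr rfl) v

lemma kill2 {A : Type*} [CommGroup A] (f₁ f₂ : K → A) (h₁ : ∀ a b, f₁ (a + b) = f₁ a * f₁ b)
    (h₂ : ∀ a b, f₂ (a + b) = f₂ a * f₂ b)
    (c₁ c₂ : ℤ) (hc₁ : c₁ = 1 ∨ c₁ = -1) (hc₂ : c₂ = 1 ∨ c₂ = -1) (i j : ℕ)
    (hij : (i = 1 ∧ j = 2) ∨ (i = 2 ∧ j = 1))
    (x : K) (hx0 : x ≠ 0) (hx1 : x ≠ 1)
    (h : ∀ t u : K, f₁ ((c₁ : K) * (-t) ^ 1 * u ^ 1) * f₂ ((c₂ : K) * (-t) ^ i * u ^ j) = 1) :
    (∀ v, f₁ v = 1) ∧ (∀ v, f₂ v = 1) := by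
  -- F₁ y = f₁ (c₁ y), F₂ y = f₂ (c₂ y)
  have hu1 : ∀ a : K, f₁ ((c₁ : K) * a) * f₂ ((c₂ : K) * a) = 1 := by
    intro a
    rcases hij with ⟨rfl, rfl⟩ | ⟨rfl, rfl⟩
    · have := h (-a) 1
      simpa using this
    · have := h (-1) a
      simpa using this
  have hF2 : ∀ a : K, f₂ ((c₂ : K) * a) = (f₁ ((c₁ : K) * a))⁻¹ := by
    intro a
    exact eq_inv_of_mul_eq_one_right (hu1 a)
  have hxx : x * (1 - x) ≠ 0 := mul_ne_zero hx0 (sub_ne_zero.mpr (Ne.symm hx1))
  have hF1 : ∀ a : K, f₁ ((c₁ : K) * a) = 1 := by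
    intro a
    -- choose b with b * (x * (1 - x)) = a
    set b : K := a / (x * (1 - x)) with hb
    have hba : b * x - b * x ^ 2 = a := by
      rw [hb]; field_simp
    have key : f₁ ((c₁ : K) * (b * x)) * f₂ ((c₂ : K) * (b * x ^ 2)) = 1 := by
      rcases hij with ⟨rfl, rfl⟩ | ⟨rfl, rfl⟩
      · have := h (-b) x
        simpa [mul_assoc] using this
      · have := h (-x) b
        have e1 : (c₁ : K) * (- -x) ^ 1 * b ^ 1 = (c₁ : K) * (b * x) := by ring
        have e2 : (c₂ : K) * (- -x) ^ 2 * b ^ 1 = (c₂ : K) * (b * x ^ 2) := by ring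
        rw [e1, e2] at this
        exact this
    rw [hF2] at key
    have : f₁ ((c₁ : K) * a) = f₁ ((c₁ : K) * (b * x)) * (f₁ ((c₁ : K) * (b * x ^ 2)))⁻¹ := by
      rw [← add_sub' f₁ h₁, ← mul_sub, hba]
    rw [this, key]
  constructor
  · intro v
    have := hF1 ((c₁ : K) * v)
    rwa [← mul_assoc, cast_pm c₁ hc₁, one_mul] at this
  · intro v
    have := hF2 ((c₂ : K) * v)
    rw [← mul_assoc, cast_pm c₂ hc₂, one_mul, hF1, inv_one] at this
    exact this

lemma stepB (D : ChevalleyDatum) {A : Type*} [CommGroup A] (f : ℕ → K → A) (hA : RelA D f) (hB : RelB D f)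
    (x : K) (hx0 : x ≠ 0) (hx1 : x ≠ 1)
    (r s ρ₁ ρ₂ : ℕ) (c₁ c₂ : ℤ) (i j : ℕ) (rest : List (ℕ × ℤ × ℕ × ℕ))
    (hr : r < D.nroots) (hs : s < D.nroots) (h1 : s ≠ r) (h2 : s ≠ D.neg r)
    (hT : D.commTerms r s = (ρ₁, c₁, 1, 1) :: (ρ₂, c₂, i, j) :: rest)
    (hρ₁ : ρ₁ < D.nroots) (hρ₂ : ρ₂ < D.nroots)
    (hc₁ : c₁ = 1 ∨ c₁ = -1) (hc₂ : c₂ = 1 ∨ c₂ = -1)
    (hij : (i = 1 ∧ j = 2) ∨ (i = 2 ∧ j = 1))
    (hrest : ∀ c ∈ rest, ∀ v : K, f c.1 v = 1) :
    (∀ v, f ρ₁ v = 1) ∧ (∀ v, f ρ₂ v = 1) := by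
  apply kill2 (f ρ₁) (f ρ₂) (hA ρ₁ hρ₁) (hA ρ₂ hρ₂) c₁ c₂ hc₁ hc₂ i j hij x hx0 hx1
  intro t u
  have h := hB r s hr hs h1 h2 t u
  rw [hT] at h
  simp only [List.map_cons, List.prod_cons] at h
  have hr1 : (rest.map (fun c => f c.1 ((c.2.1 : K) * (-t) ^ c.2.2.1 * u ^ c.2.2.2))).prod = 1 := by
    apply List.prod_eq_one
    intro y hy
    rw [List.mem_map] at hy
    obtain ⟨c, hc, rfl⟩ := hy
    exact hrest c hc _
  rw [hr1, mul_one] at h
  exact h

lemma B2_case {A : Type*} [CommGroup A] (f : ℕ → K → A) (hA : RelA chevB2 f) (hB : RelB chevB2 f)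
    (x : K) (hx0 : x ≠ 0) (hx1 : x ≠ 1) : ∀ ρ, ρ < chevB2.nroots → ∀ v : K, f ρ v = 1 := by
  have hn : chevB2.nroots = 8 := rfl
  have s1 := stepB chevB2 f hA hB x hx0 hx1 0 5 1 3 1 (-1) 1 2 [] (by decide) (by decide) (by decide) (by decide)
    (by decide +kernel) (by decide) (by decide) (by decide) (by decide) (by decide) (by simp)
  have s2 := stepB chevB2 f hA hB x hx0 hx1 0 6 2 4 (-1) 1 1 2 [] (by decide) (by decide) (by decide) (by decide)
    (by decide +kernel) (by decide) (by decide) (by decide) (by decide) (by decide) (by simp)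
  have s3 := stepB chevB2 f hA hB x hx0 hx1 3 6 5 7 1 1 1 2 [] (by decide) (by decide) (by decide) (by decide)
    (by decide +kernel) (by decide) (by decide) (by decide) (by decide) (by decide) (by simp)
  have s4 := stepB chevB2 f hA hB x hx0 hx1 4 5 6 7 1 (-1) 1 2 [] (by decide) (by decide) (by decide) (by decide)
    (by decide +kernel) (by decide) (by decide) (by decide) (by decide) (by decide) (by simp)
  have s5 := stepB chevB2 f hA hB x hx0 hx1 1 4 2 0 1 1 2 1 [] (by decide) (by decide) (by decide) (by decide)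
    (by decide +kernel) (by decide) (by decide) (by decide) (by decide) (by decide) (by simp)
  intro ρ hρ
  rw [hn] at hρ
  interval_cases ρ
  · exact s5.2
  · exact s1.1
  · exact s2.1
  · exact s1.2
  · exact s2.2
  · exact s3.1
  · exact s4.1
  · exact s3.2

lemma G2_case {A : Type*} [CommGroup A] (f : ℕ → K → A) (hA : RelA chevG2 f) (hB : RelB chevG2 f)
    (x : K) (hx0 : x ≠ 0) (hx1 : x ≠ 1) : ∀ ρ, ρ < chevG2.nroots → ∀ v : K, f ρ v = 1 := by
  have hn : chevG2.nroots = 12 := rfl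
  have a0 := stepA chevG2 f hB 1 5 0 1 (by decide) (by decide) (by decide) (by decide) (by decide +kernel) (by decide)
  have a1 := stepA chevG2 f hB 0 6 1 1 (by decide) (by decide) (by decide) (by decide) (by decide +kernel) (by decide)
  have a5 := stepA chevG2 f hB 0 10 5 (-1) (by decide) (by decide) (by decide) (by decide) (by decide +kernel) (by decide)
  have a6 := stepA chevG2 f hB 1 11 6 (-1) (by decide) (by decide) (by decide) (by decide) (by decide +kernel) (by decide)
  have a10 := stepA chevG2 f hB 5 11 10 1 (by decide) (by decide) (by decide) (by decide) (by decide +kernel) (by decide)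
  have a11 := stepA chevG2 f hB 6 10 11 1 (by decide) (by decide) (by decide) (by decide) (by decide +kernel) (by decide)
  have s1 := stepB chevG2 f hA hB x hx0 hx1 2 10 7 3 (-1) 1 2 1 [(0, 1, 3, 1), (5, 1, 3, 2)]
    (by decide) (by decide) (by decide) (by decide)
    (by decide +kernel) (by decide) (by decide) (by decide) (by decide) (by decide)
    (by intro c hc; simp only [List.mem_cons, List.mem_singleton, List.not_mem_nil, or_false] at hc
        rcases hc with rfl | rfl
        · exact a0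
        · exact a5)
  have s2 := stepB chevG2 f hA hB x hx0 hx1 2 11 8 4 (-1) (-1) 2 1 [(1, -1, 3, 1), (6, -1, 3, 2)]
    (by decide) (by decide) (by decide) (by decide)
    (by decide +kernel) (by decide) (by decide) (by decide) (by decide) (by decide)
    (by intro c hc; simp only [List.mem_cons, List.mem_singleton, List.not_mem_nil, or_false] at hc
        rcases hc with rfl | rfl
        · exact a1
        · exact a6)
  have s3 := stepB chevG2 f hA hB x hx0 hx1 3 6 4 2 1 (-1) 2 1 [(0, 1, 3, 1), (1, -1, 3, 2)]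
    (by decide) (by decide) (by decide) (by decide)
    (by decide +kernel) (by decide) (by decide) (by decide) (by decide) (by decide)
    (by intro c hc; simp only [List.mem_cons, List.mem_singleton, List.not_mem_nil, or_false] at hc
        rcases hc with rfl | rfl
        · exact a0
        · exact a1)
  have s4 := stepB chevG2 f hA hB x hx0 hx1 3 11 9 7 1 1 2 1 [(5, -1, 3, 1), (10, 1, 3, 2)]
    (by decide) (by decide) (by decide) (by decide)
    (by decide +kernel) (by decide) (by decide) (by decide) (by decide) (by decide)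
    (by intro c hc; simp only [List.mem_cons, List.mem_singleton, List.not_mem_nil, or_false] at hc
        rcases hc with rfl | rfl
        · exact a5
        · exact a10)
  intro ρ hρ
  rw [hn] at hρ
  interval_cases ρ
  · exact a0
  · exact a1
  · exact s3.2
  · exact s1.2
  · exact s2.2
  · exact a5
  · exact a6
  · exact s1.1
  · exact s2.1
  · exact s4.1
  · exact a10
  · exact a11

def tblD4 : List (ℕ × ℕ) :=
  [(1, 9), (0, 14), (0, 15), (0, 16), (0, 17), (1, 17), (0, 19), (0, 20), (0, 21), (0, 22), (1, 20), (1, 21), (2, 22), (3, 22), (1, 23), (2, 23), (3, 23), (4, 23), (6, 22), (6, 23), (7, 23), (8, 23), (9, 23), (14, 22)]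

set_option maxRecDepth 100000 in
lemma chkD4 : checkTable chevD4 tblD4 = true := by decide +kernel

def tblF4 : List (ℕ × ℕ) :=
  [(1, 23), (0, 24), (0, 26), (7, 14), (0, 31), (0, 32), (1, 32), (3, 33), (3, 34), (3, 35), (3, 36), (3, 37), (3, 38), (3, 39), (3, 40), (0, 42), (0, 43), (1, 43), (7, 37), (7, 38), (7, 39), (0, 45), (1, 45), (0, 46), (1, 47), (2, 46), (2, 47), (8, 40), (9, 40), (10, 40), (4, 46), (4, 47), (5, 47), (7, 44), (8, 44), (9, 44), (10, 44), (11, 44), (12, 44), (13, 44), (14, 44), (15, 46), (15, 47), (16, 47), (33, 40), (21, 47), (23, 47), (24, 46)]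

set_option maxRecDepth 100000 in
lemma chkF4 : checkTable chevF4 tblF4 = true := by decide +kernel

def tblE6 : List (ℕ × ℕ) :=
  [(1, 25), (0, 46), (0, 47), (0, 48), (0, 49), (0, 50), (0, 51), (0, 52), (0, 53), (0, 54), (0, 55), (1, 53), (1, 54), (1, 55), (2, 55), (5, 55), (0, 61), (0, 62), (0, 63), (0, 64), (0, 65), (0, 66), (0, 67), (0, 68), (0, 69), (0, 70), (1, 64), (1, 65), (1, 66), (2, 66), (1, 67), (1, 68), (1, 69), (2, 67), (2, 68), (3, 67), (4, 68), (3, 69), (4, 69), (2, 70), (3, 70), (4, 70), (5, 69), (5, 70), (6, 70), (7, 70), (1, 71), (2, 71), (3, 71), (4, 71), (5, 71), (6, 71), (7, 71), (8, 71), (9, 71), (10, 71), (16, 66), (16, 69), (16, 70), (17, 70), (18, 70), (16, 71), (17, 71), (18, 71), (19, 71), (20, 71), (21, 71), (22, 71), (23, 71), (24, 71), (25, 71), (46, 70)]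

set_option maxRecDepth 100000 in
lemma chkE6 : checkTable chevE6 tblE6 = true := by decide +kernel

def tblE7 : List (ℕ × ℕ) :=
  [(1, 32), (0, 93), (0, 94), (0, 95), (0, 96), (0, 97), (0, 98), (0, 99), (0, 100), (0, 101), (0, 102), (0, 103), (0, 104), (0, 105), (0, 106), (0, 107), (0, 108), (0, 109), (0, 110), (0, 111), (0, 112), (0, 113), (0, 114), (0, 115), (0, 116), (0, 117), (0, 118), (0, 119), (0, 120), (0, 121), (0, 122), (0, 123), (0, 124), (1, 109), (1, 110), (1, 111), (1, 112), (1, 113), (1, 114), (1, 115), (1, 116), (1, 117), (1, 118), (2, 115), (2, 116), (2, 117), (2, 118), (3, 118), (1, 119), (1, 120), (1, 121), (1, 122), (1, 123), (2, 119), (2, 120), (2, 121), (2, 122), (3, 119), (3, 120), (3, 121), (4, 119), (4, 120), (5, 119), (6, 120), (5, 121), (6, 121), (4, 122), (5, 122), (6, 122), (3, 123), (4, 123), (5, 123), (6, 123), (2, 124), (3, 124), (4, 124), (5, 124), (6, 124), (7, 122), (7, 123), (8, 123), (9, 123), (10, 123), (7, 124), (8, 124),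 (9, 124), (10, 124), (11, 124), (12, 124), (13, 124), (14, 124), (15, 124), (16, 124), (1, 125), (2, 125), (3, 125), (4, 125), (5, 125), (6, 125), (7, 125), (8, 125), (9, 125), (10, 125), (11, 125), (12, 125), (13, 125), (14, 125), (15, 125), (16, 125), (17, 125), (18, 125), (19, 125), (20, 125), (21, 125), (22, 125), (23, 125), (24, 125), (25, 125), (26, 125), (27, 125), (28, 125), (29, 125), (30, 125), (31, 125), (32, 125), (93, 124)]

set_option maxRecDepth 100000 in
lemma chkE7 : checkTable chevE7 tblE7 = true := by decide +kernel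

def tblE8 : List (ℕ × ℕ) :=
  [(1, 119), (0, 120), (0, 122), (0, 125), (0, 129), (0, 134), (0, 140), (0, 146), (0, 151), (0, 155), (0, 158), (0, 160), (0, 161), (1, 161), (0, 168), (0, 173), (0, 177), (0, 180), (0, 182), (0, 183), (1, 183), (0, 187), (0, 190), (0, 192), (0, 193), (1, 193), (0, 196), (0, 198), (0, 199), (1, 199), (0, 201), (0, 202), (1, 202), (0, 203), (1, 203), (2, 203), (0, 206), (0, 208), (0, 209), (1, 209), (0, 211), (0, 212), (1, 212), (0, 213), (1, 213), (2, 213), (0, 215), (0, 216), (1, 216), (0, 217), (1, 217), (2, 217), (0, 218), (1, 218), (2, 218), (3, 218), (0, 220), (0, 221), (1, 221), (0, 222), (1, 222), (2, 222), (0, 223), (1, 223), (2, 223), (3, 223), (0, 224), (1, 224), (2, 224), (3, 224), (4, 224), (0, 225), (1, 225), (2, 225), (3, 225), (4, 225), (5, 225), (6, 225), (0, 227), (0, 228), (1, 228), (0, 229), (1, 229), (2, 229), (0, 230), (1, 230), (2, 230), (3, 230), (0, 231), (1, 231), (2, 231), (3, 231), (4, 231), (0, 232), (1,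 232), (2, 232), (3, 232), (4, 232), (5, 232), (0, 233), (1, 233), (2, 233), (3, 233), (4, 233), (5, 233), (0, 234), (1, 234), (2, 234), (3, 234), (4, 234), (0, 235), (1, 235), (2, 235), (3, 235), (0, 236), (1, 236), (2, 236), (0, 237), (1, 237), (0, 238), (1, 239), (2, 238), (2, 239), (3, 237), (3, 238), (3, 239), (4, 236), (4, 237), (4, 238), (4, 239), (5, 235), (5, 236), (5, 237), (5, 238), (5, 239), (6, 234), (6, 235), (6, 236), (6, 237), (6, 238), (6, 239), (7, 234), (7, 235), (7, 236), (7, 237), (7, 238), (7, 239), (8, 235), (8, 236), (8, 237), (8, 238), (8, 239), (9, 236), (9, 237), (9, 238), (9, 239), (10, 237), (10, 238), (10, 239), (11, 238), (11, 239), (12, 239), (14, 233), (14, 234), (14, 235), (14, 236), (14, 237), (14, 238), (14, 239), (15, 235), (15, 236), (15, 237), (15, 238), (15, 239), (16, 236), (16, 237), (16, 238), (16, 239), (17, 237), (17, 238), (17, 239), (18, 238), (18, 239), (19, 239), (21, 236), (21, 237), (21, 238), (21, 239), (22, 237),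 (22, 238), (22, 239), (23, 238), (23, 239), (24, 239), (26, 237), (26, 238), (26, 239), (27, 238), (27, 239), (28, 239), (30, 238), (30, 239), (31, 239), (33, 239), (36, 237), (36, 238), (36, 239), (37, 238), (37, 239), (38, 239), (40, 238), (40, 239), (41, 239), (43, 239), (46, 238), (46, 239), (47, 239), (49, 239), (52, 239), (56, 238), (56, 239), (57, 239), (59, 239), (62, 239), (66, 239), (71, 239), (78, 238), (78, 239), (79, 239), (81, 239), (84, 239), (88, 239), (93, 239), (99, 239), (105, 239), (110, 239), (114, 239), (117, 239), (119, 239), (120, 238)]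

set_option maxRecDepth 100000 in
lemma chkE8 : checkTable chevE8 tblE8 = true := by decide +kernel


/-- The group presented by Steinberg's generators x̄_r(t) subject only to (R1) (additivity) and (R2) (the commutator formula) is perfect, for each of the types G₂, B₂, D₄, F₄, E₆, E₇, E₈ over any field (for types B₂ and G₂ the field must have more than two elements — the cases where the Chevalley group is not simple are set aside). -/
theorem result {K : Type*} [Field K] (D : Cfsg.Lie.ChevalleyDatum) (hD : D ∈ [Cfsg.Lie.chevG2, Cfsg.Lie.chevB2, Cfsg.Lie.chevD4, Cfsg.Lie.chevF4, Cfsg.Lie.chevE6, Cfsg.Lie.chevE7, Cfsg.Lie.chevE8]) (hK : D ∈ [Cfsg.Lie.chevB2, Cfsg.Lie.chevG2] → ∃ x : K, x ≠ 0 ∧ x ≠ 1) :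
    commutator (D.SteinbergCover K) = ⊤ := by
  have hA := relA (K := K) D
  have hB := relB (K := K) D
  have key : ∀ ρ, ρ < D.nroots → ∀ v : K, Abelianization.of (D.scGen K ρ v) = 1 := by
    simp only [List.mem_cons, List.mem_singleton, List.not_mem_nil, or_false] at hD hK
    rcases hD with rfl | rfl | rfl | rfl | rfl | rfl | rfl
    · obtain ⟨x, hx0, hx1⟩ := hK (Or.inr rfl)
      exact G2_case _ hA hB x hx0 hx1
    · obtain ⟨x, hx0, hx1⟩ := hK (Or.inl rfl)
      exact B2_case _ hA hB x hx0 hx1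
    · exact of_table _ tblD4 chkD4 _ hB
    · exact of_table _ tblF4 chkF4 _ hB
    · exact of_table _ tblE6 chkE6 _ hB
    · exact of_table _ tblE7 chkE7 _ hB
    · exact of_table _ tblE8 chkE8 _ hB
  rw [← Abelianization.ker_of]
  rw [Subgroup.eq_top_iff']
  have hcl := PresentedGroup.closure_range_of (D.steinbergRelsAB K)
  have hle : Subgroup.closure (Set.range (PresentedGroup.of (rels := D.steinbergRelsAB K))) ≤
      (Abelianization.of (G := D.SteinbergCover K)).ker := by
    rw [Subgroup.closure_le]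
    rintro _ ⟨⟨ρ, v⟩, rfl⟩
    rw [SetLike.mem_coe, MonoidHom.mem_ker]
    have h := key ρ.1 ρ.2 v
    have e : D.scGen K ρ.1 v = PresentedGroup.of (ρ, v) := by
      unfold ChevalleyDatum.scGen ChevalleyDatum.stX
      rw [dif_pos ρ.2]
      rfl
    rw [e] at h
    exact h
  intro g
  apply hle
  rw [hcl]
  exact Subgroup.mem_top g

end Cfsg.Agent.S2395
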