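import Cfsg.Statements.S2403
import Mathlib
import Cfsg.Agent.S0249

set_option autoImplicit false
open Cfsg

namespace Cfsg.Agent.S2403

open Matrix Cfsg.Agent.S0249

lemma fin_ne {N : ℕ} {a b : Fin N} (h : a.val ≠ b.val) : a ≠ b := fun e => h (congrArg Fin.val e)

section wlemmas
variable {K : Type*} [Field K] (n : ℕ) (w : Matrix.SpecialLinearGroup (Fin (n + 1)) K)
  (hw : (w : Matrix (Fin (n + 1)) (Fin (n + 1)) K) =
      Matrix.of (fun i j => if j.val = i.val + 1 then 1 else if i.val = n ∧ j.val = 0 then (-1) ^ n else 0))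

include hw in
lemma w_smul_lt (v : Fin (n + 1) → K) (k k' : Fin (n+1)) (hk : k'.val = k.val + 1) :
    (w • v) k = v k' := by
  show ((w : Matrix _ _ K) *ᵥ v) k = _
  rw [hw]
  simp only [Matrix.mulVec, dotProduct, Matrix.of_apply]
  rw [Finset.sum_eq_single k']
  · rw [if_pos hk, one_mul]
  · intro j _ hj
    have h1 : ¬ (j.val = k.val + 1) := fun h => hj (Fin.ext (by omega))
    have h2 : ¬ (k.val = n ∧ j.val = 0) := fun h => by have := k'.2; omega
    rw [if_neg h1, if_neg h2, zero_mul]
  · intro h; exact absurd (Finset.mem_univ _) h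

include hw in
lemma w_smul_last (v : Fin (n + 1) → K) (k z : Fin (n+1)) (hk : k.val = n) (hz : z.val = 0) :
    (w • v) k = (-1)^n * v z := by
  show ((w : Matrix _ _ K) *ᵥ v) k = _
  rw [hw]
  simp only [Matrix.mulVec, dotProduct, Matrix.of_apply]
  rw [Finset.sum_eq_single z]
  · have h1 : ¬ (z.val = k.val + 1) := by omega
    rw [if_neg h1, if_pos ⟨hk, hz⟩]
  · intro j _ hj
    have h1 : ¬ (j.val = k.val + 1) := by have := j.2; omega
    have h2 : ¬ (k.val = n ∧ j.val = 0) := fun h => hj (Fin.ext (by omega))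
    rw [if_neg h1, if_neg h2, zero_mul]
  · intro h; exact absurd (Finset.mem_univ _) h

include hw in
lemma shift (a b a' b' : Fin (n+1)) (hab : a ≠ b) (hab' : a' ≠ b') (ha' : a'.val = a.val + 1)
    (hb' : b'.val = b.val + 1) (c : K) :
    w * SpecialLinearGroup.transvection hab' c = SpecialLinearGroup.transvection hab c * w := by
  apply sl_ext_smul
  intro v
  funext k
  rw [mul_smul, mul_smul]
  by_cases hk : k.val < n
  · have hk1 : ((⟨k.val + 1, by omega⟩ : Fin (n+1))).val = k.val + 1 := rfl
    rw [w_smul_lt n w hw _ k ⟨k.val + 1, by omega⟩ hk1, tv_smul_apply, tv_smul_apply,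
      w_smul_lt n w hw v k ⟨k.val + 1, by omega⟩ hk1, w_smul_lt n w hw v b b' hb']
    congr 1
    by_cases hka : k = a
    · have : (⟨k.val + 1, by omega⟩ : Fin (n+1)) = a' :=
        Fin.ext (by show k.val + 1 = a'.val; have := congrArg Fin.val hka; omega)
      rw [if_pos this, if_pos hka]
    · have : (⟨k.val + 1, by omega⟩ : Fin (n+1)) ≠ a' := by
        apply fin_ne
        show k.val + 1 ≠ a'.val
        intro h; apply hka; apply Fin.ext; omega
      rw [if_neg this, if_neg hka]
  · have hk' : k.val = n := by have := k.2; omega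
    have hz : (0 : Fin (n+1)).val = 0 := rfl
    rw [w_smul_last n w hw _ k 0 hk' hz, tv_smul_apply, tv_smul_apply,
      w_smul_last n w hw v k 0 hk' hz]
    have h1 : (0 : Fin (n+1)) ≠ a' := by apply fin_ne; omega
    have h2 : k ≠ a := by intro h; rw [h] at hk'; have := a'.2; omega
    rw [if_neg h1, if_neg h2, add_zero, add_zero]

include hw in
lemma wrap (z o l : Fin (n+1)) (hz : z.val = 0) (ho : o.val = 1)
    (hl : l.val = n) (hzo : z ≠ o) (hlz : l ≠ z) (c : K) :
    w * SpecialLinearGroup.transvection hzo c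
      = SpecialLinearGroup.transvection hlz ((-1)^n * c) * w := by
  apply sl_ext_smul
  intro v
  funext k
  rw [mul_smul, mul_smul]
  by_cases hk : k.val < n
  · have hk1 : ((⟨k.val + 1, by omega⟩ : Fin (n+1))).val = k.val + 1 := rfl
    rw [w_smul_lt n w hw _ k ⟨k.val + 1, by omega⟩ hk1, tv_smul_apply, tv_smul_apply,
      w_smul_lt n w hw v k ⟨k.val + 1, by omega⟩ hk1]
    have h1 : (⟨k.val + 1, by omega⟩ : Fin (n+1)) ≠ z := by
      apply fin_ne
      show k.val + 1 ≠ z.val
      omega
    have h2 : k ≠ l := by intro h; rw [h] at hk; omega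
    rw [if_neg h1, if_neg h2]
  · have hk' : k.val = n := by have := k.2; omega
    rw [w_smul_last n w hw _ k z hk' hz, tv_smul_apply, tv_smul_apply,
      w_smul_last n w hw v k z hk' hz]
    have h1 : k = l := Fin.ext (by omega)
    rw [if_pos rfl, if_pos h1, w_smul_lt n w hw v z o (by omega)]
    ring

end wlemmas

/-- Explicit two-element generation of `PSL_{n+1}(K)` over the fields with two or three elements: with `x = 1 + E₁₂` and `w` the monomial matrix with entries `1` in positions `(i, i+1)` and `(−1)^n` in position `(n+1, 1)`, the elements `x` and `w` generate `SL_{n+1}(K)` modulo its centre. -/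
theorem result {K : Type*} [Field K] [Fintype K] (hK : Fintype.card K ≤ 3) (n : ℕ) (hn : 1 ≤ n)
    (x w : Matrix.SpecialLinearGroup (Fin (n + 1)) K)
    (hx : (x : Matrix (Fin (n + 1)) (Fin (n + 1)) K) = Matrix.transvection (0 : Fin (n + 1)) (1 : Fin (n + 1)) 1)
    (hw : (w : Matrix (Fin (n + 1)) (Fin (n + 1)) K) =
      Matrix.of (fun i j => if j.val = i.val + 1 then 1 else if i.val = n ∧ j.val = 0 then (-1) ^ n else 0)) :
    Subgroup.closure ({x, w} : Set (Matrix.SpecialLinearGroup (Fin (n + 1)) K)) ⊔
      Subgroup.center (Matrix.SpecialLinearGroup (Fin (n + 1)) K) = ⊤ := by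
  classical
  obtain ⟨m, rfl⟩ : ∃ m, n = m + 1 := ⟨n - 1, by omega⟩
  have hK : ∀ c : K, c = 0 ∨ c = 1 ∨ c = -1 := by
    intro c
    have hc := FiniteField.pow_card c
    have h2 : 2 ≤ Fintype.card K := Fintype.one_lt_card
    have h3 : Fintype.card K = 2 ∨ Fintype.card K = 3 := by omega
    rcases h3 with h3 | h3
    · rw [h3] at hc
      have : c * (c - 1) = 0 := by linear_combination hc
      rcases mul_eq_zero.mp this with h | h
      · exact Or.inl h
      · exact Or.inr (Or.inl (sub_eq_zero.mp h))
    · rw [h3] at hc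
      have : c * ((c - 1) * (c + 1)) = 0 := by linear_combination hc
      rcases mul_eq_zero.mp this with h | h
      · exact Or.inl h
      · rcases mul_eq_zero.mp h with h | h
        · exact Or.inr (Or.inl (sub_eq_zero.mp h))
        · exact Or.inr (Or.inr (eq_neg_of_add_eq_zero_left h))
  obtain ⟨H, hH⟩ : ∃ H, H = Subgroup.closure
      ({x, w} : Set (Matrix.SpecialLinearGroup (Fin (m + 1 + 1)) K)) := ⟨_, rfl⟩
  rw [← hH]
  have hxH : x ∈ H := by rw [hH]; exact Subgroup.subset_closure (by simp)
  have hwH : w ∈ H := by rw [hH]; exact Subgroup.subset_closure (by simp)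
  let T : Fin (m+1+1) → Fin (m+1+1) → Prop :=
    fun i j => ∀ (hij : i ≠ j) (c : K), SpecialLinearGroup.transvection hij c ∈ H
  have T_of_one : ∀ (i j : Fin (m+1+1)) (hij : i ≠ j),
      SpecialLinearGroup.transvection hij (1 : K) ∈ H → T i j := by
    intro i j hij h1 hij' c
    rcases hK c with rfl | rfl | rfl
    · rw [SpecialLinearGroup.transvection_coeff_zero]; exact H.one_mem
    · exact h1
    · rw [← SpecialLinearGroup.transvection_inv]; exact H.inv_mem h1
  have h01 : (0 : Fin (m+1+1)) ≠ 1 := by apply fin_ne; show (0 : ℕ) ≠ 1; omega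
  have T01 : T 0 1 := by
    apply T_of_one 0 1 h01
    have : x = SpecialLinearGroup.transvection h01 1 := Subtype.ext (by rw [hx]; rfl)
    rw [← this]; exact hxH
  have Tshift : ∀ (a b a' b' : Fin (m+1+1)), a'.val = a.val + 1 → b'.val = b.val + 1 →
      T a b → T a' b' := by
    intro a b a' b' ha' hb' hT hab' c
    have hab : a ≠ b := by intro h; apply hab'; apply Fin.ext; rw [ha', hb', h]
    rw [eq_inv_mul_of_mul_eq (shift (m+1) w hw a b a' b' hab hab' ha' hb' c)]
    exact H.mul_mem (H.inv_mem hwH) (H.mul_mem (hT hab c) hwH)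
  have Tsimple : ∀ (k : ℕ) (a b : Fin (m+1+1)), a.val = k → b.val = k + 1 → T a b := by
    intro k
    induction k with
    | zero =>
      intro a b ha hb
      have ha0 : a = 0 := Fin.ext (by rw [ha]; rfl)
      have hb1 : b = 1 := Fin.ext (by rw [hb]; rfl)
      rw [ha0, hb1]; exact T01
    | succ k ih =>
      intro a b ha hb
      have hk : k + 1 < m + 1 + 1 := by have := b.2; omega
      exact Tshift ⟨k, by omega⟩ ⟨k+1, hk⟩ a b (by rw [ha]) (by rw [hb]) (ih _ _ rfl rfl)
  have Tcomm : ∀ i j k : Fin (m+1+1), i ≠ j → i ≠ k → j ≠ k → T i j → T j k → T i k := by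
    intro i j k hij hik hjk h1 h2 hik' c
    rw [transvection_eq_commutator (i := i) (j := k) (k := j) hik hij hjk c,
      commutatorElement_def]
    exact H.mul_mem (H.mul_mem (H.mul_mem (h1 hij c) (h2 hjk 1)) (H.inv_mem (h1 hij c)))
      (H.inv_mem (h2 hjk 1))
  have Tupper : ∀ i j : Fin (m+1+1), i.val < j.val → T i j := by
    intro i j hij
    have key : ∀ (d : ℕ) (j : Fin (m+1+1)), j.val = i.val + d + 1 → T i j := by
      intro d
      induction d with
      | zero => intro j hj; exact Tsimple i.val i j rfl (by omega)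
      | succ d ih =>
        intro j hj
        have hj0 : i.val + d + 1 < m + 1 + 1 := by have := j.2; omega
        have h1 := ih ⟨i.val + d + 1, hj0⟩ rfl
        have h2 := Tsimple (i.val + d + 1) ⟨i.val + d + 1, hj0⟩ j rfl (by omega)
        exact Tcomm i ⟨i.val + d + 1, hj0⟩ j
          (by apply fin_ne; show i.val ≠ i.val + d + 1; omega)
          (by apply fin_ne; omega)
          (by apply fin_ne; show i.val + d + 1 ≠ j.val; omega) h1 h2
    exact key (j.val - i.val - 1) j (by omega)
  have hl0 : Fin.last (m+1) ≠ (0 : Fin (m+1+1)) := by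
    apply fin_ne; show m + 1 ≠ 0; omega
  have Tlast0 : T (Fin.last (m+1)) 0 := by
    intro hlz c
    have e := wrap (m+1) w hw 0 1 (Fin.last (m+1)) rfl rfl rfl h01 hlz ((-1)^(m+1) * c)
    have hc : (-1 : K)^(m+1) * ((-1)^(m+1) * c) = c := by
      rw [← mul_assoc, ← mul_pow]; simp
    rw [hc] at e
    rw [eq_mul_inv_of_mul_eq e.symm]
    exact H.mul_mem (H.mul_mem hwH (T01 h01 _)) (H.inv_mem hwH)
  have Tlast : ∀ k : Fin (m+1+1), k.val < m + 1 → T (Fin.last (m+1)) k := by
    intro k hk
    by_cases hk0 : k.val = 0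
    · have : k = 0 := Fin.ext (by rw [hk0]; rfl)
      rw [this]; exact Tlast0
    · exact Tcomm (Fin.last (m+1)) 0 k hl0
        (by apply fin_ne; show m + 1 ≠ k.val; omega)
        (by apply fin_ne; show 0 ≠ k.val; omega) Tlast0
        (Tupper 0 k (by show 0 < k.val; omega))
  have Tall : ∀ i j : Fin (m+1+1), T i j := by
    intro i j hij c
    rcases lt_trichotomy i.val j.val with h | h | h
    · exact Tupper i j h hij c
    · exact absurd (Fin.ext h) hij
    · by_cases hi : i.val = m + 1
      · have : i = Fin.last (m+1) := Fin.ext hi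
        subst this
        exact Tlast j (by omega) hij c
      · have hi' : i.val < m + 1 := by have := i.2; omega
        exact Tcomm i (Fin.last (m+1)) j
          (by apply fin_ne; show i.val ≠ m + 1; omega) hij
          (by apply fin_ne; show m + 1 ≠ j.val; omega)
          (Tupper i (Fin.last (m+1)) (by show i.val < m + 1; omega))
          (Tlast j (by omega)) hij c
  have hHtop : H = ⊤ := by
    rw [eq_top_iff]
    intro A _
    exact transvection_induction (fun A => A ∈ H) (fun i j hij c => Tall i j hij c)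
      (fun A B hA hB => H.mul_mem hA hB) A
  rw [hHtop]
  exact top_sup_eq _

end Cfsg.Agent.S2403
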