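import Cfsg.Statements.S2402
import Mathlib
import Cfsg.Agent.S0249
import Cfsg.Agent.S2403

set_option autoImplicit false
open Cfsg

namespace Cfsg.Agent.S2402

open Matrix Cfsg.Agent.S0249 Cfsg.Agent.S2403 Polynomial

lemma fsq {K : Type*} [Field K] [Fintype K] (y : K) : ∃ a b : K, a ^ 2 + b ^ 2 = y := by
  classical
  by_cases h2 : ringChar K = 2
  · obtain ⟨r, hr⟩ := FiniteField.isSquare_of_char_two h2 y
    exact ⟨r, 0, by rw [hr]; ring⟩
  · have hodd := FiniteField.odd_card_of_char_ne_two h2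
    obtain ⟨a, b, hab⟩ : ∃ a b, (X ^ 2 : K[X]).eval a + (X ^ 2 - C y : K[X]).eval b = 0 :=
      FiniteField.exists_root_sum_quadratic (degree_X_pow 2)
        (degree_X_pow_sub_C (by decide) _) hodd
    refine ⟨a, b, ?_⟩
    rw [← sub_eq_zero]
    simpa only [eval_C, eval_X, eval_pow, eval_sub, ← add_sub_assoc] using hab

lemma gen_top {K : Type*} [Field K] (m : ℕ)
    (w : Matrix.SpecialLinearGroup (Fin (m + 1 + 1)) K)
    (hw : (w : Matrix (Fin (m + 1 + 1)) (Fin (m + 1 + 1)) K) =
      Matrix.of (fun i j => if j.val = i.val + 1 then 1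
        else if i.val = m + 1 ∧ j.val = 0 then (-1) ^ (m + 1) else 0))
    (H : Subgroup (Matrix.SpecialLinearGroup (Fin (m + 1 + 1)) K)) (hwH : w ∈ H)
    (h01 : (0 : Fin (m+1+1)) ≠ 1)
    (hT01 : ∀ c : K, SpecialLinearGroup.transvection h01 c ∈ H) : H = ⊤ := by
  classical
  let T : Fin (m+1+1) → Fin (m+1+1) → Prop :=
    fun i j => ∀ (hij : i ≠ j) (c : K), SpecialLinearGroup.transvection hij c ∈ H
  have T01 : T 0 1 := fun _ c => hT01 c
  have Tshift : ∀ (a b a' b' : Fin (m+1+1)), a'.val = a.val + 1 → b'.val = b.val + 1 →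
      T a b → T a' b' := by
    intro a b a' b' ha' hb' hT hab' c
    have hab : a ≠ b := by intro h; apply hab'; apply Fin.ext; rw [ha', hb', h]
    rw [eq_inv_mul_of_mul_eq (shift (m+1) w hw a b a' b' hab hab' ha' hb' c)]
    exact H.mul_mem (H.inv_mem hwH) (H.mul_mem (hT hab c) hwH)
  have Tsimple : ∀ (k : ℕ) (a b : Fin (m+1+1)), a.val = k → b.val = k + 1 → T a b := by
    intro k
    induction k with
    | zero =>
      intro a b ha hb
      have ha0 : a = 0 := Fin.ext (by rw [ha]; rfl)
      have hb1 : b = 1 := Fin.ext (by rw [hb]; rfl)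
      rw [ha0, hb1]; exact T01
    | succ k ih =>
      intro a b ha hb
      have hk : k + 1 < m + 1 + 1 := by have := b.2; omega
      exact Tshift ⟨k, by omega⟩ ⟨k+1, hk⟩ a b (by rw [ha]) (by rw [hb]) (ih _ _ rfl rfl)
  have Tcomm : ∀ i j k : Fin (m+1+1), i ≠ j → i ≠ k → j ≠ k → T i j → T j k → T i k := by
    intro i j k hij hik hjk h1 h2 hik' c
    rw [transvection_eq_commutator (i := i) (j := k) (k := j) hik hij hjk c,
      commutatorElement_def]
    exact H.mul_mem (H.mul_mem (H.mul_mem (h1 hij c) (h2 hjk 1)) (H.inv_mem (h1 hij c)))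
      (H.inv_mem (h2 hjk 1))
  have Tupper : ∀ i j : Fin (m+1+1), i.val < j.val → T i j := by
    intro i j hij
    have key : ∀ (d : ℕ) (j : Fin (m+1+1)), j.val = i.val + d + 1 → T i j := by
      intro d
      induction d with
      | zero => intro j hj; exact Tsimple i.val i j rfl (by omega)
      | succ d ih =>
        intro j hj
        have hj0 : i.val + d + 1 < m + 1 + 1 := by have := j.2; omega
        have h1 := ih ⟨i.val + d + 1, hj0⟩ rfl
        have h2 := Tsimple (i.val + d + 1) ⟨i.val + d + 1, hj0⟩ j rfl (by omega)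
        exact Tcomm i ⟨i.val + d + 1, hj0⟩ j
          (by apply fin_ne; show i.val ≠ i.val + d + 1; omega)
          (by apply fin_ne; omega)
          (by apply fin_ne; show i.val + d + 1 ≠ j.val; omega) h1 h2
    exact key (j.val - i.val - 1) j (by omega)
  have hl0 : Fin.last (m+1) ≠ (0 : Fin (m+1+1)) := by
    apply fin_ne; show m + 1 ≠ 0; omega
  have Tlast0 : T (Fin.last (m+1)) 0 := by
    intro hlz c
    have e := wrap (m+1) w hw 0 1 (Fin.last (m+1)) rfl rfl rfl h01 hlz ((-1)^(m+1) * c)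
    have hc : (-1 : K)^(m+1) * ((-1)^(m+1) * c) = c := by
      rw [← mul_assoc, ← mul_pow]; simp
    rw [hc] at e
    rw [eq_mul_inv_of_mul_eq e.symm]
    exact H.mul_mem (H.mul_mem hwH (T01 h01 _)) (H.inv_mem hwH)
  have Tlast : ∀ k : Fin (m+1+1), k.val < m + 1 → T (Fin.last (m+1)) k := by
    intro k hk
    by_cases hk0 : k.val = 0
    · have : k = 0 := Fin.ext (by rw [hk0]; rfl)
      rw [this]; exact Tlast0
    · exact Tcomm (Fin.last (m+1)) 0 k hl0
        (by apply fin_ne; show m + 1 ≠ k.val; omega)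
        (by apply fin_ne; show 0 ≠ k.val; omega) Tlast0
        (Tupper 0 k (by show 0 < k.val; omega))
  have Tall : ∀ i j : Fin (m+1+1), T i j := by
    intro i j hij c
    rcases lt_trichotomy i.val j.val with h | h | h
    · exact Tupper i j h hij c
    · exact absurd (Fin.ext h) hij
    · by_cases hi : i.val = m + 1
      · have : i = Fin.last (m+1) := Fin.ext hi
        subst this
        exact Tlast j (by omega) hij c
      · have hi' : i.val < m + 1 := by have := i.2; omega
        exact Tcomm i (Fin.last (m+1)) j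
          (by apply fin_ne; show i.val ≠ m + 1; omega) hij
          (by apply fin_ne; show m + 1 ≠ j.val; omega)
          (Tupper i (Fin.last (m+1)) (by show i.val < m + 1; omega))
          (Tlast j (by omega)) hij c
  rw [eq_top_iff]
  intro A _
  exact transvection_induction (fun A => A ∈ H) (fun i j hij c => Tall i j hij c)
    (fun A B hA hB => H.mul_mem hA hB) A

/-- Explicit two-element generation of `PSL_{n+1}(K)` for a finite field `K` with more than three elements: let `k` generate the multiplicative group of `K`, `h = diag(k, k⁻¹, 1, …, 1)`, `x = 1 + E₁₂` (the elementary transvection) and `w` the monomial matrix with entries `1` in positions `(i, i+1)` and `(−1)^n` in position `(n+1, 1)`. Then `h` and `x·w` generate `SL_{n+1}(K)` modulo its centre: the subgroup they generate together with the centre is everything. -/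
theorem result {K : Type*} [Field K] [Fintype K] (hK : 3 < Fintype.card K) (n : ℕ) (hn : 1 ≤ n)
    (k : Kˣ) (hk : ∀ u : Kˣ, u ∈ Subgroup.zpowers k)
    (h x w : Matrix.SpecialLinearGroup (Fin (n + 1)) K)
    (hh : (h : Matrix (Fin (n + 1)) (Fin (n + 1)) K) =
      Matrix.diagonal (fun i => if i.val = 0 then (k : K) else if i.val = 1 then ((k⁻¹ : Kˣ) : K) else 1))
    (hx : (x : Matrix (Fin (n + 1)) (Fin (n + 1)) K) = Matrix.transvection (0 : Fin (n + 1)) (1 : Fin (n + 1)) 1)
    (hw : (w : Matrix (Fin (n + 1)) (Fin (n + 1)) K) =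
      Matrix.of (fun i j => if j.val = i.val + 1 then 1 else if i.val = n ∧ j.val = 0 then (-1) ^ n else 0)) :
    Subgroup.closure ({h, x * w} : Set (Matrix.SpecialLinearGroup (Fin (n + 1)) K)) ⊔
      Subgroup.center (Matrix.SpecialLinearGroup (Fin (n + 1)) K) = ⊤ := by
  classical
  obtain ⟨m, rfl⟩ : ∃ m, n = m + 1 := ⟨n - 1, by omega⟩
  obtain ⟨H, hH⟩ : ∃ H, H = Subgroup.closure
      ({h, x * w} : Set (Matrix.SpecialLinearGroup (Fin (m + 1 + 1)) K)) := ⟨_, rfl⟩
  rw [← hH]
  have hhH : h ∈ H := by rw [hH]; exact Subgroup.subset_closure (by simp)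
  have hgH : x * w ∈ H := by rw [hH]; exact Subgroup.subset_closure (by simp)
  have h01 : (0 : Fin (m+1+1)) ≠ 1 := by apply fin_ne; show (0 : ℕ) ≠ 1; omega
  have hx' : x = SpecialLinearGroup.transvection h01 1 := Subtype.ext (by rw [hx]; rfl)
  -- the diagonal entries
  obtain ⟨d, hd⟩ : ∃ d : Fin (m+1+1) → K, ∀ i, d i =
      if i.val = 0 then (k : K) else if i.val = 1 then ((k⁻¹ : Kˣ) : K) else 1 :=
    ⟨_, fun _ => rfl⟩
  obtain ⟨d', hd'⟩ : ∃ d' : Fin (m+1+1) → K,
      (∀ i (hi : i.val < m+1), d' i = d ⟨i.val+1, by omega⟩) ∧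
      (∀ i, ¬ i.val < m+1 → d' i = d 0) :=
    ⟨fun i => if hi : i.val < m + 1 then d ⟨i.val + 1, by omega⟩ else d 0,
      fun i hi => dif_pos hi, fun i hi => dif_neg hi⟩
  have hsmul : ∀ (v : Fin (m+1+1) → K) (i : Fin (m+1+1)), (h • v) i = d i * v i := by
    intro v i
    show ((h : Matrix _ _ K) *ᵥ v) i = _
    rw [hh, Matrix.mulVec_diagonal, hd]
  have hkk : (k : K) * ((k⁻¹ : Kˣ) : K) = 1 := by simp
  have hk0 : (k : K) ≠ 0 := k.ne_zero
  have hkinv0 : ((k⁻¹ : Kˣ) : K) ≠ 0 := (k⁻¹).ne_zero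
  have hd0 : d 0 = (k : K) := by rw [hd]; exact if_pos rfl
  have hd1 : d 1 = ((k⁻¹ : Kˣ) : K) := by
    rw [hd, if_neg (by show (1:ℕ) ≠ 0; omega)]
    exact if_pos rfl
  have hd'0 : d' 0 = ((k⁻¹ : Kˣ) : K) := by
    rw [hd'.1 0 (by show 0 < m + 1; omega), hd, if_neg (by show (0:ℕ) + 1 ≠ 0; omega)]
    exact if_pos rfl
  have hd'1 : d' 1 = if m = 0 then (k : K) else 1 := by
    by_cases hm : m = 0
    · rw [if_pos hm, hd'.2 1 (by show ¬ (1 < m + 1); omega), hd0]
    · rw [if_neg hm, hd'.1 1 (by show 1 < m + 1; omega), hd,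
        if_neg (by show (1:ℕ) + 1 ≠ 0; omega), if_neg (by show (1:ℕ) + 1 ≠ 1; omega)]
  -- k^2 ≠ 1
  have hk2 : (k : K) ^ 2 ≠ 1 := by
    intro hcon
    have h1 : k ^ 2 = 1 := Units.ext (by simpa using hcon)
    have h2 : orderOf k ∣ 2 := orderOf_dvd_of_pow_eq_one h1
    have h3 : orderOf k = Nat.card Kˣ := orderOf_eq_card_of_forall_mem_zpowers hk
    rw [Nat.card_units, Nat.card_eq_fintype_card] at h3
    have h4 := Nat.le_of_dvd (by norm_num) h2
    omega
  have hk1 : (k : K) ≠ 1 := by intro hcon; apply hk2; rw [hcon]; ring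
  have hwh : ∀ (v : Fin (m+1+1) → K) (i : Fin (m+1+1)),
      (w • (h • v)) i = d' i * (w • v) i := by
    intro v i
    by_cases hi : i.val < m + 1
    · rw [w_smul_lt (m+1) w hw _ i ⟨i.val + 1, by omega⟩ rfl,
        w_smul_lt (m+1) w hw v i ⟨i.val + 1, by omega⟩ rfl, hsmul, hd'.1 i hi]
    · have hi' : i.val = m + 1 := by have := i.2; omega
      rw [w_smul_last (m+1) w hw _ i 0 hi' rfl, w_smul_last (m+1) w hw v i 0 hi' rfl, hsmul,
        hd'.2 i hi]
      ring
  have hg : ∀ (v : Fin (m+1+1) → K) (i : Fin (m+1+1)),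
      ((x * w) • v) i = (w • v) i + if i = 0 then (w • v) 1 else 0 := by
    intro v i
    rw [mul_smul, hx', tv_smul_apply, one_mul]
  obtain ⟨h', hh'def⟩ : ∃ h', h' = x * w * h * (x * w)⁻¹ := ⟨_, rfl⟩
  have hh'H : h' ∈ H := by
    rw [hh'def]; exact H.mul_mem (H.mul_mem hgH hhH) (H.inv_mem hgH)
  have hh' : ∀ (y : Fin (m+1+1) → K) (i : Fin (m+1+1)),
      (h' • y) i = d' i * y i + if i = 0 then (d' 1 - d' 0) * y 1 else 0 := by
    intro y i
    obtain ⟨v, rfl⟩ : ∃ v, y = (x * w) • v := ⟨(x * w)⁻¹ • y, (smul_inv_smul _ _).symm⟩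
    have e : h' • (x * w) • v = (x * w) • (h • v) := by
      rw [hh'def, ← mul_smul, ← mul_smul, inv_mul_cancel_right]
    rw [e, hg, hg v i, hg v 1, hwh, hwh]
    by_cases hi : i = 0
    · subst hi
      simp only [if_true, h01.symm, if_false]
      ring
    · simp only [hi, if_false, h01.symm]
      ring
  have hd'1ne : d' 1 ≠ 0 := by
    rw [hd'1]; split_ifs
    · exact hk0
    · exact one_ne_zero
  have hd1ne : d 1 ≠ 0 := by rw [hd1]; exact hkinv0
  obtain ⟨c₀, hc₀def⟩ : ∃ c₀ : K, c₀ = (d 0 - d 1) * (d' 1 - d' 0) / (d' 1 * d 1) := ⟨_, rfl⟩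
  have hc₀ : c₀ * (d' 1 * d 1) = (d 0 - d 1) * (d' 1 - d' 0) := by
    rw [hc₀def]; field_simp
  have hcomm : h * h' = SpecialLinearGroup.transvection h01 c₀ * h' * h := by
    apply sl_ext_smul
    intro v
    funext i
    simp only [mul_smul, hsmul, hh', tv_smul_apply]
    by_cases hi : i = 0
    · subst hi
      simp only [if_true, h01.symm, if_false]
      linear_combination (-(v 1)) * hc₀
    · simp only [hi, if_false, h01.symm]
      ring
  have hconj : ∀ c : K, h * SpecialLinearGroup.transvection h01 c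
      = SpecialLinearGroup.transvection h01 ((k:K)^2 * c) * h := by
    intro c
    apply sl_ext_smul
    intro v
    funext i
    simp only [mul_smul, hsmul, tv_smul_apply]
    by_cases hi : i = 0
    · subst hi
      simp only [if_true]
      rw [hd0, hd1]
      linear_combination (-(k:K) * c * v 1) * hkk
    · simp only [hi, if_false, add_zero]
  have hPadd : ∀ a b : K, SpecialLinearGroup.transvection h01 a ∈ H →
      SpecialLinearGroup.transvection h01 b ∈ H →
      SpecialLinearGroup.transvection h01 (a + b) ∈ H := fun a b ha hb => by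
    rw [SpecialLinearGroup.transvection_add]; exact H.mul_mem ha hb
  have hP0 : SpecialLinearGroup.transvection h01 (0 : K) ∈ H := by
    rw [SpecialLinearGroup.transvection_coeff_zero]; exact H.one_mem
  have hPk : ∀ c : K, SpecialLinearGroup.transvection h01 c ∈ H →
      SpecialLinearGroup.transvection h01 ((k:K)^2 * c) ∈ H := fun c hc => by
    rw [eq_mul_inv_of_mul_eq (hconj c).symm]
    exact H.mul_mem (H.mul_mem hhH hc) (H.inv_mem hhH)
  have hPc₀ : SpecialLinearGroup.transvection h01 c₀ ∈ H := by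
    have : SpecialLinearGroup.transvection h01 c₀ = h * h' * h⁻¹ * h'⁻¹ := by
      rw [hcomm]; group
    rw [this]
    exact H.mul_mem (H.mul_mem (H.mul_mem hhH hh'H) (H.inv_mem hhH)) (H.inv_mem hh'H)
  have hPpow : ∀ i : ℕ, SpecialLinearGroup.transvection h01 (((k:K)^i)^2 * c₀) ∈ H := by
    intro i
    induction i with
    | zero =>
      have e : ((k:K)^0)^2 * c₀ = c₀ := by simp
      rw [e]; exact hPc₀
    | succ i ih =>
      have := hPk _ ih
      have e : (k:K)^2 * (((k:K)^i)^2 * c₀) = ((k:K)^(i+1))^2 * c₀ := by ring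
      rwa [e] at this
  have hPsq : ∀ a : K, SpecialLinearGroup.transvection h01 (a^2 * c₀) ∈ H := by
    intro a
    by_cases ha : a = 0
    · have e : a^2 * c₀ = 0 := by rw [ha]; simp
      rw [e]; exact hP0
    · obtain ⟨i, hi⟩ : Units.mk0 a ha ∈ Submonoid.powers k := by
        rw [mem_powers_iff_mem_zpowers]; exact hk _
      have : a = (k:K)^i := by
        have := congrArg (fun u : Kˣ => (u : K)) hi
        simpa using this.symm
      rw [this]; exact hPpow i
  have hc₀ne : c₀ ≠ 0 := by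
    rw [hc₀def]
    have e1 : d 0 - d 1 ≠ 0 := by
      rw [hd0, hd1]
      intro hcon
      apply hk2
      linear_combination (k:K) * hcon + hkk
    have e2 : d' 1 - d' 0 ≠ 0 := by
      rw [hd'1, hd'0]
      split_ifs
      · intro hcon
        apply hk2
        linear_combination (k:K) * hcon + hkk
      · intro hcon
        apply hk1
        linear_combination (k:K) * hcon + hkk
    exact div_ne_zero (mul_ne_zero e1 e2) (mul_ne_zero hd'1ne hd1ne)
  have hPall : ∀ y : K, SpecialLinearGroup.transvection h01 y ∈ H := by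
    intro y
    obtain ⟨a, b, hab⟩ := fsq (y / c₀)
    have : y = a^2 * c₀ + b^2 * c₀ := by
      rw [← add_mul, hab, div_mul_cancel₀ _ hc₀ne]
    rw [this]; exact hPadd _ _ (hPsq a) (hPsq b)
  have hxH : x ∈ H := by rw [hx']; exact hPall 1
  have hwH : w ∈ H := by
    have : w = x⁻¹ * (x * w) := by group
    rw [this]; exact H.mul_mem (H.inv_mem hxH) hgH
  rw [gen_top m w hw H hwH h01 hPall]
  exact top_sup_eq _

end Cfsg.Agent.S2402
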