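import Cfsg.Statements.S2417
import Cfsg.Agent.Helper8.GenN
-- import your own Cfsg.Agent.* helpers here

set_option autoImplicit false
open scoped MatrixGroups
open Cfsg

namespace Cfsg.Agent.S2417

open Cfsg.Lie Cfsg.Agent.Helper8

/-- In the characteristics with an exceptional graph symmetry — type B₂ or F₄ in characteristic 2 (field of more than two elements for B₂) and type G₂ in characteristic 3 — the Chevalley group lies in the subgroup generated by its monomial subgroup `N` and the two fundamental root subgroups `X_a`, `X_b` of a short root `a` and a long root `b` joined in the Dynkin diagram. -/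
theorem result {K : Type*} [Field K] [Finite K] (e : Cfsg.Lie.ChevalleyDatum × ℕ)
    (he : e ∈ [(Cfsg.Lie.chevB2, 2), (Cfsg.Lie.chevF4, 2), (Cfsg.Lie.chevG2, 3)]) [CharP K e.2]
    (hK : e.1 = Cfsg.Lie.chevB2 → ∃ x : K, x ≠ 0 ∧ x ≠ 1)
    (i j : ℕ) (hi : i < e.1.rank) (hj : j < e.1.rank) (hshort : e.1.isLong (e.1.simple i) = false)
    (hlong : e.1.isLong (e.1.simple j) = true) (hbond : e.1.bonds i j ≠ 0) :
    e.1.group K ≤ e.1.monomialSubgroup K ⊔ e.1.rootSubgroup K (e.1.simple i) ⊔ e.1.rootSubgroup K (e.1.simple j) := by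
  simp only [List.mem_cons, List.mem_nil_iff, or_false] at he
  rcases he with rfl | rfl | rfl
  · have hpair : ∀ i j : Fin chevB2.rank, chevB2.isLong (chevB2.simple i.val) = false →
        chevB2.isLong (chevB2.simple j.val) = true → i.val = 0 ∧ j.val = 1 := by decide +kernel
    obtain ⟨rfl, rfl⟩ := hpair ⟨i, hi⟩ ⟨j, hj⟩ hshort hlong
    apply group_le_of_reach chevB2 (by simp [Std7])
    · exact le_trans le_sup_left le_sup_left
    · intro k hk
      have hk2 : k < 2 := hk
      interval_cases k
      · exact ⟨[], 0, by simp, by decide, le_trans le_sup_right le_sup_left, rfl⟩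
      · exact ⟨[], 1, by simp, by decide, le_sup_right, rfl⟩
  · have hpair : ∀ i j : Fin chevF4.rank, chevF4.isLong (chevF4.simple i.val) = false →
        chevF4.isLong (chevF4.simple j.val) = true → chevF4.bonds i.val j.val ≠ 0 → i.val = 1 ∧ j.val = 2 := by
      decide +kernel
    obtain ⟨rfl, rfl⟩ := hpair ⟨i, hi⟩ ⟨j, hj⟩ hshort hlong hbond
    apply group_le_of_reach chevF4 (by simp [Std7])
    · exact le_trans le_sup_left le_sup_left
    · intro k hk
      have hk4 : k < 4 := hk
      interval_cases k
      · exact ⟨[1, 0], 1, by decide, by decide, le_trans le_sup_right le_sup_left, by decide +kernel⟩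
      · exact ⟨[], 1, by simp, by decide, le_trans le_sup_right le_sup_left, rfl⟩
      · exact ⟨[], 2, by simp, by decide, le_sup_right, rfl⟩
      · exact ⟨[2, 3], 2, by decide, by decide, le_sup_right, by decide +kernel⟩
  · have hpair : ∀ i j : Fin chevG2.rank, chevG2.isLong (chevG2.simple i.val) = false →
        chevG2.isLong (chevG2.simple j.val) = true → i.val = 0 ∧ j.val = 1 := by decide +kernel
    obtain ⟨rfl, rfl⟩ := hpair ⟨i, hi⟩ ⟨j, hj⟩ hshort hlong
    apply group_le_of_reach chevG2 (by simp [Std7])
    · exact le_trans le_sup_left le_sup_left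
    · intro k hk
      have hk2 : k < 2 := hk
      interval_cases k
      · exact ⟨[], 0, by simp, by decide, le_trans le_sup_right le_sup_left, rfl⟩
      · exact ⟨[], 1, by simp, by decide, le_sup_right, rfl⟩

end Cfsg.Agent.S2417
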