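import Cfsg.Statements.S2419
import Mathlib

set_option autoImplicit false
open Cfsg

namespace Cfsg.Agent.S2419

section
variable {G : Type*} [Group G]

lemma inv_of_sq (a : G) (ha : a * a = 1) : a⁻¹ = a := inv_eq_of_mul_eq_one_right ha

lemma comm_of_sq (a b : G) (ha : a * a = 1) (hb : b * b = 1) (h : (a * b) ^ 2 = 1) :
    a * b = b * a := by
  have h1 : (a * b)⁻¹ = a * b := inv_eq_of_mul_eq_one_right (by rw [← sq]; exact h)
  rw [← h1, mul_inv_rev, inv_of_sq a ha, inv_of_sq b hb]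

lemma braid_of_cube (a b : G) (ha : a * a = 1) (hb : b * b = 1) (h : (a * b) ^ 3 = 1) :
    a * b * a = b * a * b := by
  have h1 : (a * b * a) * (b * a * b) = 1 := by
    have e : (a * b * a) * (b * a * b) = (a * b) ^ 3 := by
      simp only [pow_succ, pow_zero, one_mul, mul_assoc]
    rw [e, h]
  have h2 : (b * a * b)⁻¹ = a * b * a := inv_eq_of_mul_eq_one_left h1
  rw [← h2]
  simp only [mul_inv_rev, inv_of_sq a ha, inv_of_sq b hb, mul_assoc]

lemma flip_braid (a b : G) (ha : a * a = 1) (hb : b * b = 1) (hab : a * b * a = b * a * b) :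
    a * (b * a * b) * a = b := by
  calc a * (b * a * b) * a = (a * b * a) * (b * a) := by group
    _ = (b * a * b) * (b * a) := by rw [hab]
    _ = b * a * (b * b) * a := by group
    _ = b * (a * a) := by rw [hb]; group
    _ = b := by rw [ha, mul_one]

lemma peelR (H : Subgroup G) (a b p : G) (ha : a * a = 1) (hb : b * b = 1) (hap : a * p = p * a)
    (hab : a * b * a = b * a * b) (haH : a ∈ H) (hc : p * b * a ∈ H) : b ∈ H ∧ p * b ∈ H := by
  have hbinv := inv_of_sq b hb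
  have h1 : p * b ∈ H := by
    have := H.mul_mem hc (H.inv_mem haH)
    rwa [mul_inv_cancel_right] at this
  have h2 : (p * b)⁻¹ * a * (p * b) ∈ H := H.mul_mem (H.mul_mem (H.inv_mem h1) haH) h1
  have e2 : (p * b)⁻¹ * a * (p * b) = b * a * b := by
    calc (p * b)⁻¹ * a * (p * b) = b⁻¹ * (p⁻¹ * (a * p)) * b := by group
      _ = b⁻¹ * (p⁻¹ * (p * a)) * b := by rw [hap]
      _ = b⁻¹ * a * b := by group
      _ = b * a * b := by rw [hbinv]
  rw [e2] at h2
  have h3 : a * (b * a * b) * a ∈ H := H.mul_mem (H.mul_mem haH h2) haH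
  rw [flip_braid a b ha hb hab] at h3
  exact ⟨h3, h1⟩

lemma peelL (H : Subgroup G) (a b p : G) (ha : a * a = 1) (hb : b * b = 1) (hap : a * p = p * a)
    (hab : a * b * a = b * a * b) (haH : a ∈ H) (hc : a * (b * p) ∈ H) : b ∈ H ∧ b * p ∈ H := by
  have hbinv := inv_of_sq b hb
  have h1 : b * p ∈ H := by
    have := H.mul_mem (H.inv_mem haH) hc
    rwa [inv_mul_cancel_left] at this
  have h2 : (b * p) * a * (b * p)⁻¹ ∈ H := H.mul_mem (H.mul_mem h1 haH) (H.inv_mem h1)
  have e2 : (b * p) * a * (b * p)⁻¹ = b * a * b := by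
    calc (b * p) * a * (b * p)⁻¹ = b * ((p * a) * p⁻¹) * b⁻¹ := by group
      _ = b * ((a * p) * p⁻¹) * b⁻¹ := by rw [hap]
      _ = b * a * b⁻¹ := by group
      _ = b * a * b := by rw [hbinv]
  rw [e2] at h2
  have h3 : a * (b * a * b) * a ∈ H := H.mul_mem (H.mul_mem haH h2) haH
  rw [flip_braid a b ha hb hab] at h3
  exact ⟨h3, h1⟩

lemma finalE (H : Subgroup G) (x0 x1 x2 x3 : G) (h0 : x0 * x0 = 1) (h1 : x1 * x1 = 1)
    (h2 : x2 * x2 = 1) (h3 : x3 * x3 = 1) (h10 : x1 * x0 = x0 * x1) (h12 : x1 * x2 = x2 * x1)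
    (h02 : x0 * x2 * x0 = x2 * x0 * x2) (h30 : x3 * x0 = x0 * x3)
    (h32 : x3 * x2 * x3 = x2 * x3 * x2)
    (hx3 : x3 ∈ H) (hc : x0 * x1 * x2 * x3 ∈ H) : x0 ∈ H ∧ x1 ∈ H ∧ x2 ∈ H := by
  have hc2 : x0 * x1 * x2 ∈ H := by
    have := H.mul_mem hc (H.inv_mem hx3)
    rwa [mul_inv_cancel_right] at this
  have e : x0 * x1 * x2 = x1 * (x0 * x2) := by rw [← h10, mul_assoc]
  have hcube : (x0 * x2) ^ 3 = 1 := by
    calc (x0 * x2) ^ 3 = (x0 * x2 * x0) * (x2 * x0 * x2) := by
          simp only [pow_succ, pow_zero, one_mul, mul_assoc]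
      _ = (x2 * x0 * x2) * (x2 * x0 * x2) := by rw [h02]
      _ = x2 * x0 * (x2 * x2) * x0 * x2 := by group
      _ = x2 * (x0 * x0) * x2 := by rw [h2]; group
      _ = 1 := by rw [h0, mul_one, h2]
  have hcomm : Commute x1 (x0 * x2) :=
    (show Commute x1 x0 from h10).mul_right (show Commute x1 x2 from h12)
  have hx1 : x1 ∈ H := by
    have h := H.pow_mem hc2 3
    rw [e, hcomm.mul_pow, hcube, mul_one] at h
    have e3 : x1 ^ 3 = x1 := by
      calc x1 ^ 3 = (x1 * x1) * x1 := by simp only [pow_succ, pow_zero, one_mul]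
        _ = x1 := by rw [h1, one_mul]
    rwa [e3] at h
  have hv : x0 * x2 ∈ H := by
    have := H.mul_mem (H.inv_mem hx1) hc2
    rwa [e, inv_mul_cancel_left] at this
  have hv3 : x0 * x2 * x3 ∈ H := H.mul_mem hv hx3
  obtain ⟨hx2, -⟩ := peelR H x3 x2 x0 h3 h2 h30 h32 hx3 hv3
  have hx0 : x0 ∈ H := by
    have := H.mul_mem hv (H.inv_mem hx2)
    rwa [mul_inv_cancel_right] at this
  exact ⟨hx0, hx1, hx2⟩

end

section
variable {n : ℕ} (M : CoxeterMatrix (Fin n))

lemma s_sq (i : Fin n) : M.simple i * M.simple i = 1 :=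
  M.toCoxeterSystem.simple_mul_simple_self i

lemma s_comm (i j : Fin n) (h : M i j = 2) :
    M.simple i * M.simple j = M.simple j * M.simple i := by
  apply comm_of_sq _ _ (s_sq M i) (s_sq M j)
  have := M.toCoxeterSystem.simple_mul_simple_pow i j
  rw [h] at this; exact this

lemma s_braid (i j : Fin n) (h : M i j = 3) :
    M.simple i * M.simple j * M.simple i = M.simple j * M.simple i * M.simple j := by
  apply braid_of_cube _ _ (s_sq M i) (s_sq M j)
  have := M.toCoxeterSystem.simple_mul_simple_pow i j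
  rw [h] at this; exact this

lemma s_comm_list (a : Fin n) (L : List (Fin n)) (h : ∀ x ∈ L, M a x = 2) :
    M.simple a * (L.map M.simple).prod = (L.map M.simple).prod * M.simple a := by
  apply Commute.list_prod_right
  intro x hx
  obtain ⟨j, hj, rfl⟩ := List.mem_map.mp hx
  exact s_comm M a j (h j hj)

lemma closure_top (H : Subgroup M.Group) (h : ∀ i, M.simple i ∈ H) : H = ⊤ := by
  rw [eq_top_iff, ← M.toCoxeterSystem.subgroup_closure_range_simple, Subgroup.closure_le]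
  rintro _ ⟨i, rfl⟩
  exact h i

lemma reduce_goal (T : Finset M.Group) (w : M.Group)
    (h : ∀ H : Subgroup M.Group, w ∈ H → (∀ t ∈ T, t ∈ H) → ∀ i, M.simple i ∈ H) :
    Subgroup.closure (({w} : Set M.Group) ∪ ↑T) = ⊤ :=
  closure_top M _ (h _ (Subgroup.subset_closure (Or.inl rfl))
    (fun t ht => Subgroup.subset_closure (Or.inr (Finset.mem_coe.mpr ht))))

lemma peelR_list (H : Subgroup M.Group) (L : List (Fin n)) (b a : Fin n)
    (hcomm : ∀ x ∈ L, M a x = 2) (hbraid : M a b = 3) (haH : M.simple a ∈ H)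
    (hc : ((L ++ [b, a]).map M.simple).prod ∈ H) :
    M.simple b ∈ H ∧ ((L ++ [b]).map M.simple).prod ∈ H := by
  simp only [List.map_append, List.prod_append, List.map_cons, List.map_nil, List.prod_cons,
    List.prod_nil, mul_one] at hc ⊢
  rw [← mul_assoc] at hc
  exact peelR H _ _ _ (s_sq M a) (s_sq M b) (s_comm_list M a L hcomm) (s_braid M a b hbraid) haH hc

lemma case_rank2 (M : CoxeterMatrix (Fin 2)) :
    ∃ T : Finset M.Group, T.card = 1 ∧
      (∀ t ∈ T, ∃ (g : M.Group) (i : Fin 2), t = g * M.simple i * g⁻¹) ∧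
      Subgroup.closure (({((List.finRange 2).map M.simple).prod} : Set M.Group) ∪ ↑T) = ⊤ := by
  refine ⟨{M.simple 0}, Finset.card_singleton _, ?_, ?_⟩
  · intro t ht
    rw [Finset.mem_singleton] at ht
    exact ⟨1, 0, by rw [ht]; group⟩
  · apply reduce_goal
    intro H hc hT
    have h0 := hT _ (Finset.mem_singleton_self _)
    have e : List.finRange 2 = [0, 1] := by decide
    rw [e] at hc
    simp only [List.map_cons, List.map_nil, List.prod_cons, List.prod_nil, mul_one] at hc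
    have h1 : M.simple 1 ∈ H := by
      have := H.mul_mem (H.inv_mem h0) hc
      rwa [inv_mul_cancel_left] at this
    intro i
    have hi : ∀ i : Fin 2, i = 0 ∨ i = 1 := by decide
    rcases hi i with rfl | rfl <;> assumption

end

/-- images of the simple reflections of `D₄` in `S₄` -/
def fD4 : Fin 4 → Equiv.Perm (Fin 4) :=
  ![Equiv.swap 0 1, Equiv.swap 1 2, Equiv.swap 2 3, Equiv.swap 2 3]

lemma fD4_liftable : Cfsg.Lie.coxeterD4.IsLiftable fD4 := by
  intro i j
  fin_cases i <;> fin_cases j <;> decide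

lemma D4_ne : Cfsg.Lie.coxeterD4.simple 0 ≠ Cfsg.Lie.coxeterD4.simple 2 := by
  intro h
  have h1 := congrArg (Cfsg.Lie.coxeterD4.toCoxeterSystem.lift ⟨fD4, fD4_liftable⟩) h
  have e0 := Cfsg.Lie.coxeterD4.toCoxeterSystem.lift_apply_simple fD4_liftable 0
  have e2 := Cfsg.Lie.coxeterD4.toCoxeterSystem.lift_apply_simple fD4_liftable 2
  have h2 : fD4 0 = fD4 2 := by rw [← e0, ← e2]; exact h1
  have h3 := congrArg (fun σ : Equiv.Perm (Fin 4) => σ 0) h2
  revert h3
  decide

/-- a sign character of `F₄` -/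
def fF4 : Fin 4 → ℤˣ := ![-1, -1, 1, 1]

lemma fF4_liftable : CoxeterMatrix.F₄.IsLiftable fF4 := by
  intro i j
  fin_cases i <;> fin_cases j <;> decide

lemma F4_ne : CoxeterMatrix.F₄.simple 0 ≠ CoxeterMatrix.F₄.simple 3 := by
  intro h
  have h1 := congrArg (CoxeterMatrix.F₄.toCoxeterSystem.lift ⟨fF4, fF4_liftable⟩) h
  have e0 := CoxeterMatrix.F₄.toCoxeterSystem.lift_apply_simple fF4_liftable 0
  have e3 := CoxeterMatrix.F₄.toCoxeterSystem.lift_apply_simple fF4_liftable 3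
  have h2 : fF4 0 = fF4 3 := by rw [← e0, ← e3]; exact h1
  revert h2
  decide

lemma caseD4 :
    ∃ T : Finset Cfsg.Lie.coxeterD4.Group, T.card = 2 ∧
      (∀ t ∈ T, ∃ (g : Cfsg.Lie.coxeterD4.Group) (i : Fin 4),
        t = g * Cfsg.Lie.coxeterD4.simple i * g⁻¹) ∧
      Subgroup.closure (({((List.finRange 4).map Cfsg.Lie.coxeterD4.simple).prod} :
        Set Cfsg.Lie.coxeterD4.Group) ∪ ↑T) = ⊤ := by
  classical
  refine ⟨{Cfsg.Lie.coxeterD4.simple 0, Cfsg.Lie.coxeterD4.simple 2}, Finset.card_pair D4_ne, ?_, ?_⟩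
  · intro t ht
    rw [Finset.mem_insert, Finset.mem_singleton] at ht
    rcases ht with rfl | rfl
    · exact ⟨1, 0, by group⟩
    · exact ⟨1, 2, by group⟩
  · apply reduce_goal
    intro H hc hT
    have h0 := hT _ (Finset.mem_insert_self _ _)
    have h2 := hT _ (Finset.mem_insert_of_mem (Finset.mem_singleton_self _))
    have e : List.finRange 4 = [0, 1, 2, 3] := by decide
    rw [e] at hc
    simp only [List.map_cons, List.map_nil, List.prod_cons, List.prod_nil, mul_one] at hc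
    obtain ⟨h1, hc1⟩ := peelL H _ _ _ (s_sq _ 0) (s_sq _ 1)
      ((show Commute (Cfsg.Lie.coxeterD4.simple 0) (Cfsg.Lie.coxeterD4.simple 2) from
          s_comm _ 0 2 (by decide)).mul_right
        (show Commute (Cfsg.Lie.coxeterD4.simple 0) (Cfsg.Lie.coxeterD4.simple 3) from
          s_comm _ 0 3 (by decide)))
      (s_braid _ 0 1 (by decide)) h0 hc
    have h23 : Cfsg.Lie.coxeterD4.simple 2 * Cfsg.Lie.coxeterD4.simple 3 ∈ H := by
      have := H.mul_mem (H.inv_mem h1) hc1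
      rwa [inv_mul_cancel_left] at this
    have h3 : Cfsg.Lie.coxeterD4.simple 3 ∈ H := by
      have := H.mul_mem (H.inv_mem h2) h23
      rwa [inv_mul_cancel_left] at this
    intro i
    have hi : ∀ i : Fin 4, i = 0 ∨ i = 1 ∨ i = 2 ∨ i = 3 := by decide
    rcases hi i with rfl | rfl | rfl | rfl <;> assumption

lemma caseF4 :
    ∃ T : Finset CoxeterMatrix.F₄.Group, T.card = 2 ∧
      (∀ t ∈ T, ∃ (g : CoxeterMatrix.F₄.Group) (i : Fin 4),
        t = g * CoxeterMatrix.F₄.simple i * g⁻¹) ∧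
      Subgroup.closure (({((List.finRange 4).map CoxeterMatrix.F₄.simple).prod} :
        Set CoxeterMatrix.F₄.Group) ∪ ↑T) = ⊤ := by
  classical
  refine ⟨{CoxeterMatrix.F₄.simple 0, CoxeterMatrix.F₄.simple 3}, Finset.card_pair F4_ne, ?_, ?_⟩
  · intro t ht
    rw [Finset.mem_insert, Finset.mem_singleton] at ht
    rcases ht with rfl | rfl
    · exact ⟨1, 0, by group⟩
    · exact ⟨1, 3, by group⟩
  · apply reduce_goal
    intro H hc hT
    have h0 := hT _ (Finset.mem_insert_self _ _)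
    have h3 := hT _ (Finset.mem_insert_of_mem (Finset.mem_singleton_self _))
    have e : List.finRange 4 = [0, 1, 2, 3] := by decide
    rw [e] at hc
    simp only [List.map_cons, List.map_nil, List.prod_cons, List.prod_nil, mul_one] at hc
    obtain ⟨h1, hc1⟩ := peelL H _ _ _ (s_sq _ 0) (s_sq _ 1)
      ((show Commute (CoxeterMatrix.F₄.simple 0) (CoxeterMatrix.F₄.simple 2) from
          s_comm _ 0 2 (by decide)).mul_right
        (show Commute (CoxeterMatrix.F₄.simple 0) (CoxeterMatrix.F₄.simple 3) from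
          s_comm _ 0 3 (by decide)))
      (s_braid _ 0 1 (by decide)) h0 hc
    have h23 : CoxeterMatrix.F₄.simple 2 * CoxeterMatrix.F₄.simple 3 ∈ H := by
      have := H.mul_mem (H.inv_mem h1) hc1
      rwa [inv_mul_cancel_left] at this
    have h2 : CoxeterMatrix.F₄.simple 2 ∈ H := by
      have := H.mul_mem h23 (H.inv_mem h3)
      rwa [mul_inv_cancel_right] at this
    intro i
    have hi : ∀ i : Fin 4, i = 0 ∨ i = 1 ∨ i = 2 ∨ i = 3 := by decide
    rcases hi i with rfl | rfl | rfl | rfl <;> assumption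

lemma caseE6 :
    ∃ T : Finset CoxeterMatrix.E₆.Group, T.card = 1 ∧
      (∀ t ∈ T, ∃ (g : CoxeterMatrix.E₆.Group) (i : Fin 6),
        t = g * CoxeterMatrix.E₆.simple i * g⁻¹) ∧
      Subgroup.closure (({((List.finRange 6).map CoxeterMatrix.E₆.simple).prod} :
        Set CoxeterMatrix.E₆.Group) ∪ ↑T) = ⊤ := by
  refine ⟨{CoxeterMatrix.E₆.simple 5}, Finset.card_singleton _, ?_, ?_⟩
  · intro t ht
    rw [Finset.mem_singleton] at ht
    exact ⟨1, 5, by rw [ht]; group⟩
  · apply reduce_goal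
    intro H hc hT
    have h5 := hT _ (Finset.mem_singleton_self _)
    have e : List.finRange 6 = [0, 1, 2, 3] ++ [4, 5] := by decide
    rw [e] at hc
    obtain ⟨h4, hc4⟩ := peelR_list _ H [0, 1, 2, 3] 4 5 (by decide) (by decide) h5 hc
    obtain ⟨h3, hc3⟩ := peelR_list _ H [0, 1, 2] 3 4 (by decide) (by decide) h4 hc4
    simp only [List.cons_append, List.nil_append, List.map_cons, List.map_nil, List.prod_cons,
      List.prod_nil, mul_one, ← mul_assoc] at hc3
    obtain ⟨h0, h1, h2⟩ := finalE H _ _ _ _ (s_sq _ 0) (s_sq _ 1) (s_sq _ 2) (s_sq _ 3)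
      (s_comm _ 1 0 (by decide)) (s_comm _ 1 2 (by decide)) (s_braid _ 0 2 (by decide))
      (s_comm _ 3 0 (by decide)) (s_braid _ 3 2 (by decide)) h3 hc3
    intro i
    have hi : ∀ i : Fin 6, i = 0 ∨ i = 1 ∨ i = 2 ∨ i = 3 ∨ i = 4 ∨ i = 5 := by decide
    rcases hi i with rfl | rfl | rfl | rfl | rfl | rfl <;> assumption

lemma caseE7 :
    ∃ T : Finset CoxeterMatrix.E₇.Group, T.card = 1 ∧
      (∀ t ∈ T, ∃ (g : CoxeterMatrix.E₇.Group) (i : Fin 7),
        t = g * CoxeterMatrix.E₇.simple i * g⁻¹) ∧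
      Subgroup.closure (({((List.finRange 7).map CoxeterMatrix.E₇.simple).prod} :
        Set CoxeterMatrix.E₇.Group) ∪ ↑T) = ⊤ := by
  refine ⟨{CoxeterMatrix.E₇.simple 6}, Finset.card_singleton _, ?_, ?_⟩
  · intro t ht
    rw [Finset.mem_singleton] at ht
    exact ⟨1, 6, by rw [ht]; group⟩
  · apply reduce_goal
    intro H hc hT
    have h6 := hT _ (Finset.mem_singleton_self _)
    have e : List.finRange 7 = [0, 1, 2, 3, 4] ++ [5, 6] := by decide
    rw [e] at hc
    obtain ⟨h5, hc5⟩ := peelR_list _ H [0, 1, 2, 3, 4] 5 6 (by decide) (by decide) h6 hc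
    obtain ⟨h4, hc4⟩ := peelR_list _ H [0, 1, 2, 3] 4 5 (by decide) (by decide) h5 hc5
    obtain ⟨h3, hc3⟩ := peelR_list _ H [0, 1, 2] 3 4 (by decide) (by decide) h4 hc4
    simp only [List.cons_append, List.nil_append, List.map_cons, List.map_nil, List.prod_cons,
      List.prod_nil, mul_one, ← mul_assoc] at hc3
    obtain ⟨h0, h1, h2⟩ := finalE H _ _ _ _ (s_sq _ 0) (s_sq _ 1) (s_sq _ 2) (s_sq _ 3)
      (s_comm _ 1 0 (by decide)) (s_comm _ 1 2 (by decide)) (s_braid _ 0 2 (by decide))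
      (s_comm _ 3 0 (by decide)) (s_braid _ 3 2 (by decide)) h3 hc3
    intro i
    have hi : ∀ i : Fin 7, i = 0 ∨ i = 1 ∨ i = 2 ∨ i = 3 ∨ i = 4 ∨ i = 5 ∨ i = 6 := by decide
    rcases hi i with rfl | rfl | rfl | rfl | rfl | rfl | rfl <;> assumption

lemma caseE8 :
    ∃ T : Finset CoxeterMatrix.E₈.Group, T.card = 1 ∧
      (∀ t ∈ T, ∃ (g : CoxeterMatrix.E₈.Group) (i : Fin 8),
        t = g * CoxeterMatrix.E₈.simple i * g⁻¹) ∧
      Subgroup.closure (({((List.finRange 8).map CoxeterMatrix.E₈.simple).prod} :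
        Set CoxeterMatrix.E₈.Group) ∪ ↑T) = ⊤ := by
  refine ⟨{CoxeterMatrix.E₈.simple 7}, Finset.card_singleton _, ?_, ?_⟩
  · intro t ht
    rw [Finset.mem_singleton] at ht
    exact ⟨1, 7, by rw [ht]; group⟩
  · apply reduce_goal
    intro H hc hT
    have h7 := hT _ (Finset.mem_singleton_self _)
    have e : List.finRange 8 = [0, 1, 2, 3, 4, 5] ++ [6, 7] := by decide
    rw [e] at hc
    obtain ⟨h6, hc6⟩ := peelR_list _ H [0, 1, 2, 3, 4, 5] 6 7 (by decide) (by decide) h7 hc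
    obtain ⟨h5, hc5⟩ := peelR_list _ H [0, 1, 2, 3, 4] 5 6 (by decide) (by decide) h6 hc6
    obtain ⟨h4, hc4⟩ := peelR_list _ H [0, 1, 2, 3] 4 5 (by decide) (by decide) h5 hc5
    obtain ⟨h3, hc3⟩ := peelR_list _ H [0, 1, 2] 3 4 (by decide) (by decide) h4 hc4
    simp only [List.cons_append, List.nil_append, List.map_cons, List.map_nil, List.prod_cons,
      List.prod_nil, mul_one, ← mul_assoc] at hc3
    obtain ⟨h0, h1, h2⟩ := finalE H _ _ _ _ (s_sq _ 0) (s_sq _ 1) (s_sq _ 2) (s_sq _ 3)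
      (s_comm _ 1 0 (by decide)) (s_comm _ 1 2 (by decide)) (s_braid _ 0 2 (by decide))
      (s_comm _ 3 0 (by decide)) (s_braid _ 3 2 (by decide)) h3 hc3
    intro i
    have hi : ∀ i : Fin 8, i = 0 ∨ i = 1 ∨ i = 2 ∨ i = 3 ∨ i = 4 ∨ i = 5 ∨ i = 6 ∨ i = 7 := by
      decide
    rcases hi i with rfl | rfl | rfl | rfl | rfl | rfl | rfl | rfl <;> assumption

/-- The Coxeter groups of types B₂, G₂, E₆, E₇, E₈ are generated by the Coxeter element `s₁ s₂ ⋯ s_l` together with one suitable reflection (a conjugate of a simple reflection); for types D₄ and F₄ the Coxeter element together with two suitable reflections suffices. -/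
theorem result (c : (Σ n : ℕ, CoxeterMatrix (Fin n)) × ℕ)
    (hc : c ∈ [(⟨2, CoxeterMatrix.B 2⟩, 1), (⟨2, CoxeterMatrix.G₂⟩, 1), (⟨4, Cfsg.Lie.coxeterD4⟩, 2), (⟨4, CoxeterMatrix.F₄⟩, 2),
      (⟨6, CoxeterMatrix.E₆⟩, 1), (⟨7, CoxeterMatrix.E₇⟩, 1), (⟨8, CoxeterMatrix.E₈⟩, 1)]) :
    ∃ T : Finset c.1.2.Group, T.card = c.2 ∧ (∀ t ∈ T, ∃ (g : c.1.2.Group) (i : Fin c.1.1), t = g * c.1.2.simple i * g⁻¹) ∧
      Subgroup.closure (({((List.finRange c.1.1).map c.1.2.simple).prod} : Set c.1.2.Group) ∪ ↑T) = ⊤ := by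
  simp only [List.mem_cons, List.mem_nil_iff, or_false] at hc
  rcases hc with rfl | rfl | rfl | rfl | rfl | rfl | rfl
  · exact case_rank2 (CoxeterMatrix.B 2)
  · exact case_rank2 CoxeterMatrix.G₂
  · exact caseD4
  · exact caseF4
  · exact caseE6
  · exact caseE7
  · exact caseE8

end Cfsg.Agent.S2419
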