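import Cfsg.Statements.S2426
import Cfsg.Agent.Helper8.SL2Q
-- import your own Cfsg.Agent.* helpers here

set_option autoImplicit false
open Cfsg

namespace Cfsg.Agent.S2426

open Cfsg.Agent.Helper8

/-- The rank-one Steinberg presentation of `SL₂` over a finite field `K`: generators `x(t)`, `y(t)` (`t ∈ K`; the two opposite root subgroups) subject to additivity `x(t)x(u) = x(t+u)`, `y(t)y(u) = y(t+u)` and, with `w(t) = x(t) y(−t⁻¹) x(t)` and `w'(t) = y(t) x(−t⁻¹) y(t)` for `t ≠ 0`, the relations `w(t) x(u) w(t)⁻¹ = y(−t⁻² u)` and `w'(t) y(u) w'(t)⁻¹ = x(−t⁻² u)`, present `SL₂(K)`, with `x(t) ↦ (1 t; 0 1)` and `y(t) ↦ (1 0; t 1)`. -/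
theorem result {K : Type*} [Field K] [Finite K] :
    ∃ e : PresentedGroup
        ({g : FreeGroup (Bool × K) | ∃ (b : Bool) (t u : K), g = FreeGroup.of (b, t) * FreeGroup.of (b, u) * (FreeGroup.of (b, t + u))⁻¹} ∪
          {g | ∃ (b : Bool) (t u : K), t ≠ 0 ∧
            g = (FreeGroup.of (b, t) * FreeGroup.of (!b, -t⁻¹) * FreeGroup.of (b, t)) * FreeGroup.of (b, u) *
                  (FreeGroup.of (b, t) * FreeGroup.of (!b, -t⁻¹) * FreeGroup.of (b, t))⁻¹ * (FreeGroup.of (!b, -(t⁻¹ ^ 2 * u)))⁻¹})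
        ≃* Matrix.SpecialLinearGroup (Fin 2) K,
      (∀ t : K, ((e (PresentedGroup.of (true, t)) : Matrix (Fin 2) (Fin 2) K)) = !![1, t; 0, 1]) ∧
      (∀ t : K, ((e (PresentedGroup.of (false, t)) : Matrix (Fin 2) (Fin 2) K)) = !![1, 0; t, 1]) := by
  classical
  -- the presented group and its generators
  let rels : Set (FreeGroup (Bool × K)) :=
    {g : FreeGroup (Bool × K) | ∃ (b : Bool) (t u : K), g = FreeGroup.of (b, t) * FreeGroup.of (b, u) * (FreeGroup.of (b, t + u))⁻¹} ∪
          {g | ∃ (b : Bool) (t u : K), t ≠ 0 ∧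
            g = (FreeGroup.of (b, t) * FreeGroup.of (!b, -t⁻¹) * FreeGroup.of (b, t)) * FreeGroup.of (b, u) *
                  (FreeGroup.of (b, t) * FreeGroup.of (!b, -t⁻¹) * FreeGroup.of (b, t))⁻¹ * (FreeGroup.of (!b, -(t⁻¹ ^ 2 * u)))⁻¹}
  show ∃ e : PresentedGroup rels ≃* Matrix.SpecialLinearGroup (Fin 2) K,
      (∀ t : K, ((e (PresentedGroup.of (true, t)) : Matrix (Fin 2) (Fin 2) K)) = !![1, t; 0, 1]) ∧
      (∀ t : K, ((e (PresentedGroup.of (false, t)) : Matrix (Fin 2) (Fin 2) K)) = !![1, 0; t, 1])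
  have hadd : ∀ (b : Bool) (t u : K),
      (PresentedGroup.of (b, t + u) : PresentedGroup rels) = PresentedGroup.of (b, t) * PresentedGroup.of (b, u) := by
    intro b t u
    have h : PresentedGroup.mk rels (FreeGroup.of (b, t) * FreeGroup.of (b, u) * (FreeGroup.of (b, t + u))⁻¹) = 1 :=
      PresentedGroup.one_of_mem (Or.inl ⟨b, t, u, rfl⟩)
    rw [map_mul, map_mul, map_inv] at h
    exact (mul_inv_eq_one.mp h).symm
  have hconj : ∀ (b : Bool) (t u : K), t ≠ 0 →
      ((PresentedGroup.of (b, t) : PresentedGroup rels) * PresentedGroup.of (!b, -t⁻¹) * PresentedGroup.of (b, t)) *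
        PresentedGroup.of (b, u) = PresentedGroup.of (!b, -(t⁻¹ ^ 2 * u)) *
        (PresentedGroup.of (b, t) * PresentedGroup.of (!b, -t⁻¹) * PresentedGroup.of (b, t)) := by
    intro b t u ht
    have h : PresentedGroup.mk rels ((FreeGroup.of (b, t) * FreeGroup.of (!b, -t⁻¹) * FreeGroup.of (b, t)) * FreeGroup.of (b, u) *
                  (FreeGroup.of (b, t) * FreeGroup.of (!b, -t⁻¹) * FreeGroup.of (b, t))⁻¹ * (FreeGroup.of (!b, -(t⁻¹ ^ 2 * u)))⁻¹) = 1 :=
      PresentedGroup.one_of_mem (Or.inr ⟨b, t, u, ht, rfl⟩)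
    rw [map_mul, map_mul, map_mul, map_mul, map_mul, map_inv, map_inv, map_mul, map_mul] at h
    exact mul_inv_eq_iff_eq_mul.mp (mul_inv_eq_one.mp h)
  have hcent : ∀ c : PresentedGroup rels, (∀ s, c * PresentedGroup.of (true, s) = PresentedGroup.of (true, s) * c) →
      (∀ s, c * PresentedGroup.of (false, s) = PresentedGroup.of (false, s) * c) → ∀ g, c * g = g * c := by
    intro c hx hy g
    have hle : Subgroup.closure (Set.range (PresentedGroup.of : Bool × K → PresentedGroup rels)) ≤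
        Subgroup.centralizer {c} := by
      rw [Subgroup.closure_le]
      rintro _ ⟨⟨b, s⟩, rfl⟩
      rw [SetLike.mem_coe, Subgroup.mem_centralizer_iff]
      intro h hh
      rw [Set.mem_singleton_iff] at hh
      subst hh
      cases b
      · exact hy s
      · exact hx s
    have hg : g ∈ Subgroup.centralizer ({c} : Set (PresentedGroup rels)) := by
      apply hle
      rw [PresentedGroup.closure_range_of]
      trivial
    exact (Subgroup.mem_centralizer_iff.mp hg) c rfl
  have R : SL2Pre (fun t : K => (PresentedGroup.of (true, t) : PresentedGroup rels))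
      (fun t : K => (PresentedGroup.of (false, t) : PresentedGroup rels)) := by
    refine ⟨fun s t => hadd true s t, fun s t => hadd false s t, ?_, hcent⟩
    intro t s ht
    have h := hconj true t s ht
    have e : -(t⁻¹ ^ 2 * s) = -(t⁻¹ * t⁻¹) * s := by ring
    rw [e] at h
    exact h
  -- the map to SL₂
  let f : Bool × K → Matrix.SpecialLinearGroup (Fin 2) K := fun p => if p.1 then sl2U p.2 else sl2L p.2
  have hUadd : ∀ t u : K, sl2U t * sl2U u = sl2U (t + u) := by
    intro t u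
    apply sl2_ext <;>
      simp [sl2_mul_apply, sl2U_00, sl2U_01, sl2U_10, sl2U_11, add_comm]
  have hLadd : ∀ t u : K, sl2L t * sl2L u = sl2L (t + u) := by
    intro t u
    apply sl2_ext <;>
      simp [sl2_mul_apply, sl2L_00, sl2L_01, sl2L_10, sl2L_11, add_comm]
  have hUconj : ∀ t u : K, t ≠ 0 → (sl2U t * sl2L (-t⁻¹) * sl2U t) * sl2U u =
      sl2L (-(t⁻¹ ^ 2 * u)) * (sl2U t * sl2L (-t⁻¹) * sl2U t) := by
    intro t u ht
    apply sl2_ext <;>
      simp only [sl2_mul_apply, sl2U_00, sl2U_01, sl2U_10, sl2U_11, sl2L_00, sl2L_01, sl2L_10, sl2L_11] <;>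
      field_simp <;> ring
  have hLconj : ∀ t u : K, t ≠ 0 → (sl2L t * sl2U (-t⁻¹) * sl2L t) * sl2L u =
      sl2U (-(t⁻¹ ^ 2 * u)) * (sl2L t * sl2U (-t⁻¹) * sl2L t) := by
    intro t u ht
    apply sl2_ext <;>
      simp only [sl2_mul_apply, sl2U_00, sl2U_01, sl2U_10, sl2U_11, sl2L_00, sl2L_01, sl2L_10, sl2L_11] <;>
      field_simp <;> ring
  have hrel : ∀ r ∈ rels, FreeGroup.lift f r = 1 := by
    intro r hr
    rcases hr with ⟨b, t, u, rfl⟩ | ⟨b, t, u, ht, rfl⟩
    · rw [map_mul, map_mul, map_inv, FreeGroup.lift_apply_of, FreeGroup.lift_apply_of, FreeGroup.lift_apply_of,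
        mul_inv_eq_one]
      cases b
      · exact hLadd t u
      · exact hUadd t u
    · rw [map_mul, map_mul, map_mul, map_mul, map_mul, map_inv, map_inv, map_mul, map_mul,
        FreeGroup.lift_apply_of, FreeGroup.lift_apply_of, FreeGroup.lift_apply_of, FreeGroup.lift_apply_of,
        mul_inv_eq_one, mul_inv_eq_iff_eq_mul]
      cases b
      · exact hLconj t u ht
      · exact hUconj t u ht
  let ψ : PresentedGroup rels →* Matrix.SpecialLinearGroup (Fin 2) K := PresentedGroup.toGroup hrel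
  have hψ : ∀ p : Bool × K, ψ (PresentedGroup.of p) = f p := fun p => PresentedGroup.toGroup.of hrel
  let φ : Matrix.SpecialLinearGroup (Fin 2) K →* PresentedGroup rels := R.toRel.hom
  have hφU : ∀ t : K, φ (sl2U t) = PresentedGroup.of (true, t) := fun t => R.toRel.hom_U t
  have hφL : ∀ t : K, φ (sl2L t) = PresentedGroup.of (false, t) := fun t => R.toRel.hom_L t
  have h1 : φ.comp ψ = MonoidHom.id _ := by
    apply PresentedGroup.ext
    rintro ⟨b, t⟩
    rw [MonoidHom.comp_apply, hψ, MonoidHom.id_apply]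
    cases b
    · exact hφL t
    · exact hφU t
  have h2 : ψ.comp φ = MonoidHom.id _ := by
    have htop : MonoidHom.eqLocus (ψ.comp φ) (MonoidHom.id _) = ⊤ := by
      apply sl2_gen_UL
      · intro t
        show ψ (φ (sl2U t)) = sl2U t
        rw [hφU, hψ]
        rfl
      · intro t
        show ψ (φ (sl2L t)) = sl2L t
        rw [hφL, hψ]
        rfl
    refine MonoidHom.ext fun g => ?_
    have hg : g ∈ MonoidHom.eqLocus (ψ.comp φ) (MonoidHom.id _) := by
      rw [htop]
      trivial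
    exact hg
  refine ⟨MonoidHom.toMulEquiv ψ φ h1 h2, ?_, ?_⟩
  · intro t
    show ((ψ (PresentedGroup.of (true, t)) : Matrix.SpecialLinearGroup (Fin 2) K) : Matrix (Fin 2) (Fin 2) K) = _
    rw [hψ]
    rfl
  · intro t
    show ((ψ (PresentedGroup.of (false, t)) : Matrix.SpecialLinearGroup (Fin 2) K) : Matrix (Fin 2) (Fin 2) K) = _
    rw [hψ]
    rfl

end Cfsg.Agent.S2426
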