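import Cfsg.Statements.S2531
import Mathlib

set_option autoImplicit false
open Cfsg

namespace Cfsg.Agent.S2531

open Projectivization

lemma mod_one (q N M : ℕ) (hq : 2 ≤ q) (h : N * (q - 1) + 1 = M) (hM : q ∣ M) : N % q = 1 := by
  have h1 : ((N * (q - 1) + 1 : ℕ) : ZMod q) = 0 := by
    rw [h]; exact (ZMod.natCast_eq_zero_iff M q).mpr hM
  have hq1 : 1 ≤ q := by omega
  rw [Nat.cast_add, Nat.cast_mul, Nat.cast_sub hq1, ZMod.natCast_self, Nat.cast_one, zero_sub, mul_neg,
    mul_one] at h1
  have h2 : ((N : ℕ) : ZMod q) = ((1 : ℕ) : ZMod q) := by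
    rw [Nat.cast_one]; linear_combination -h1
  have h3 := (ZMod.natCast_eq_natCast_iff' N 1 q).mp h2
  rw [h3]; exact Nat.mod_eq_of_lt hq

section
variable {F : Type*} [Field F] {n : ℕ}

def pts (W : Submodule F (Fin n → F)) : Set (Projectivization F (Fin n → F)) := {p | p.rep ∈ W}

lemma mk_mem_pts (W : Submodule F (Fin n → F)) (v : Fin n → F) (hv : v ≠ 0) :
    Projectivization.mk F v hv ∈ pts W ↔ v ∈ W := by
  obtain ⟨a, ha⟩ := Projectivization.exists_smul_eq_mk_rep F v hv
  show (Projectivization.mk F v hv).rep ∈ W ↔ v ∈ W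
  rw [← ha]
  constructor
  · intro h
    have := W.smul_mem ((a⁻¹ : Fˣ) : F) h
    rwa [Units.smul_def, smul_smul, Units.inv_mul, one_smul] at this
  · intro h
    rw [Units.smul_def]
    exact W.smul_mem _ h

lemma card_pts [Finite F] (W : Submodule F (Fin n → F)) :
    Nat.card (pts W) * (Nat.card F - 1) + 1 = Nat.card W := by
  have e : Projectivization F W ≃ pts W := by
    refine Equiv.ofBijective
      (fun p => ⟨Projectivization.map W.subtype W.injective_subtype p, ?_⟩) ⟨?_, ?_⟩
    · induction p using Projectivization.ind with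
      | h w hw =>
        rw [Projectivization.map_mk]
        exact (mk_mem_pts W _ _).mpr w.2
    · intro p p' h
      have h' := congrArg Subtype.val h
      exact Projectivization.map_injective _ W.injective_subtype h'
    · rintro ⟨p, hp⟩
      have hp' : p.rep ∈ W := hp
      have hne : (⟨p.rep, hp'⟩ : W) ≠ 0 := by
        intro h0; exact p.rep_nonzero (congrArg Subtype.val h0)
      refine ⟨Projectivization.mk F ⟨p.rep, hp'⟩ hne, ?_⟩
      apply Subtype.ext
      show Projectivization.map W.subtype W.injective_subtype (Projectivization.mk F ⟨p.rep, hp'⟩ hne) = p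
      rw [Projectivization.map_mk]
      exact p.mk_rep
  rw [← Nat.card_congr e]
  have h := Projectivization.card F W
  have hpos : 0 < Nat.card W := Nat.card_pos
  omega

lemma pts_mod [Finite F] (W : Submodule F (Fin n → F)) (hW : W ≠ ⊥) :
    Nat.card (pts W) % Nat.card F = 1 := by
  have hq : 2 ≤ Nat.card F := Finite.one_lt_card
  apply mod_one (Nat.card F) _ (Nat.card W) hq (card_pts W)
  have h1 : Nat.card W = Nat.card F ^ Module.finrank F W := Module.natCard_eq_pow_finrank (K := F) (V := W)
  rw [h1]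
  haveI : Nontrivial W := Submodule.nontrivial_iff_ne_bot.mpr hW
  have hpos : 0 < Module.finrank F W := Module.finrank_pos
  exact dvd_pow_self _ hpos.ne'

end

/-- Let `F` be a finite field and `n ≥ 3`. No set of permutations of the points of the projective space of `Fⁿ`, each induced by an invertible semilinear transformation of `Fⁿ` (so a subset of the full projective semilinear group), is sharply 2-transitive on the points: it is impossible that for all pairs of distinct points `(a, b)` and `(c, d)` exactly one member of the set sends `a` to `c` and `b` to `d`. -/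
theorem result {F : Type*} [Field F] [Finite F]
    (n : ℕ) (hn : 3 ≤ n) (S : Set (Equiv.Perm (Projectivization F (Fin n → F))))
    (hS : ∀ s ∈ S, ∃ (σ : F ≃+* F) (f : (Fin n → F) →ₛₗ[(σ : F →+* F)] (Fin n → F)) (hf : Function.Injective f),
      ∀ x, s x = Projectivization.map f hf x) :
    ¬ (∀ a b c d : Projectivization F (Fin n → F), a ≠ b → c ≠ d →
        ∃! s, s ∈ S ∧ s a = c ∧ s b = d) := by
  intro hsh
  classical
  have hq : 2 ≤ Nat.card F := Finite.one_lt_card
  let i0 : Fin n := ⟨0, by omega⟩
  let i1 : Fin n := ⟨1, by omega⟩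
  let i2 : Fin n := ⟨2, by omega⟩
  have h01 : i0 ≠ i1 := by intro h; have := congrArg Fin.val h; simp [i0, i1] at this
  have h02 : i0 ≠ i2 := by intro h; have := congrArg Fin.val h; simp [i0, i2] at this
  have h12 : i1 ≠ i2 := by intro h; have := congrArg Fin.val h; simp [i1, i2] at this
  let e0 : Fin n → F := fun j => if j = i0 then 1 else 0
  let e1 : Fin n → F := fun j => if j = i1 then 1 else 0
  let e2 : Fin n → F := fun j => if j = i2 then 1 else 0
  let φ : (Fin n → F) →ₗ[F] F := LinearMap.proj i0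
  have hφ : ∀ v : Fin n → F, v ∈ LinearMap.ker φ ↔ v i0 = 0 := by
    intro v; rw [LinearMap.mem_ker]; rfl
  let X : Set (Projectivization F (Fin n → F)) := pts (LinearMap.ker φ)
  have he0 : e0 ≠ 0 := by
    intro h; have := congrFun h i0; simp [e0] at this
  have he1 : e1 ≠ 0 := by
    intro h; have := congrFun h i1; simp [e1] at this
  let a := Projectivization.mk F (e0) he0
  let b0 := Projectivization.mk F (e1) he1
  have haX : a ∉ X := by
    intro h
    have := (hφ _).mp ((mk_mem_pts _ _ he0).mp h)
    simp [e0] at this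
  have hb0X : b0 ∈ X := by
    apply (mk_mem_pts _ _ he1).mpr
    rw [hφ]
    simp [e1, h01]
  have hne : ∀ b ∈ X, a ≠ b := fun b hb h => haX (h ▸ hb)
  let Sa := {s : Equiv.Perm (Projectivization F (Fin n → F)) // s ∈ S ∧ s a = a}
  haveI : Fintype Sa := Fintype.ofFinite Sa
  haveI : Fintype (Projectivization F (Fin n → F)) := Fintype.ofFinite _
  -- Claim 1
  have hSa : Nat.card Sa + 1 = Nat.card (Projectivization F (Fin n → F)) := by
    have e : Sa ≃ {d : Projectivization F (Fin n → F) // d ≠ a} := by
      refine Equiv.ofBijective (fun s => ⟨s.1 b0, ?_⟩) ⟨?_, ?_⟩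
      · intro h
        have : s.1 b0 = s.1 a := by rw [h, s.2.2]
        exact hne b0 hb0X (s.1.injective this).symm
      · intro s s' h
        have h' : s.1 b0 = s'.1 b0 := congrArg Subtype.val h
        have hab : a ≠ s.1 b0 := by
          intro h2
          have : s.1 b0 = s.1 a := by rw [← h2, s.2.2]
          exact hne b0 hb0X (s.1.injective this).symm
        obtain ⟨t, -, ht⟩ := hsh a b0 a (s.1 b0) (hne b0 hb0X) hab
        have e1 := ht s.1 ⟨s.2.1, s.2.2, rfl⟩
        have e2 := ht s'.1 ⟨s'.2.1, s'.2.2, h'.symm⟩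
        exact Subtype.ext (e1.trans e2.symm)
      · rintro ⟨d, hd⟩
        obtain ⟨t, ⟨htS, hta, htb⟩, -⟩ := hsh a b0 a d (hne b0 hb0X) (Ne.symm hd)
        exact ⟨⟨t, htS, hta⟩, Subtype.ext htb⟩
    rw [Nat.card_congr e, Nat.card_eq_fintype_card, Nat.card_eq_fintype_card]
    have h1 : Fintype.card {d : Projectivization F (Fin n → F) // d ≠ a} =
        Fintype.card (Projectivization F (Fin n → F)) - 1 := Set.card_ne_eq a
    have h2 : 0 < Fintype.card (Projectivization F (Fin n → F)) := Fintype.card_pos_iff.mpr ⟨a⟩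
    omega
  -- Claim 2
  have hT : Nat.card X * Nat.card X = ∑ s : Sa, Nat.card {b : X // s.1 b.1 ∈ X} := by
    rw [← Nat.card_sigma, ← Nat.card_prod]
    symm
    apply Nat.card_congr
    refine Equiv.ofBijective (fun p => (p.2.1, ⟨p.1.1 p.2.1.1, p.2.2⟩)) ⟨?_, ?_⟩
    · rintro ⟨s, b⟩ ⟨s', b'⟩ h
      simp only [Prod.mk.injEq] at h
      obtain ⟨h1, h2⟩ := h
      have h2' : s.1 b.1.1 = s'.1 b'.1.1 := congrArg Subtype.val h2
      have hb : b.1 = b'.1 := h1
      have hab : a ≠ b.1.1 := hne _ b.1.2
      have had : a ≠ s.1 b.1.1 := hne _ b.2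
      obtain ⟨t, -, ht⟩ := hsh a b.1.1 a (s.1 b.1.1) hab had
      have e1 := ht s.1 ⟨s.2.1, s.2.2, rfl⟩
      have e2 := ht s'.1 ⟨s'.2.1, s'.2.2, by rw [h2', hb]⟩
      have hs : s = s' := Subtype.ext (e1.trans e2.symm)
      subst hs
      have hb' : b = b' := Subtype.ext hb
      subst hb'
      rfl
    · rintro ⟨b, d⟩
      obtain ⟨t, ⟨htS, hta, htb⟩, -⟩ := hsh a b.1 a d.1 (hne _ b.2) (hne _ d.2)
      refine ⟨⟨⟨t, htS, hta⟩, ⟨b, ?_⟩⟩, ?_⟩
      · show t b.1 ∈ X
        rw [htb]; exact d.2
      · simp only [Prod.mk.injEq, true_and]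
        exact Subtype.ext htb
  -- Claim 3
  have hmod : ∀ s : Sa, Nat.card {b : X // s.1 b.1 ∈ X} % Nat.card F = 1 := by
    intro s
    obtain ⟨σ, f, hf, hsf⟩ := hS s.1 s.2.1
    let W : Submodule F (Fin n → F) := LinearMap.ker φ ⊓ Submodule.comap f (LinearMap.ker φ)
    have hset : ∀ b, (b ∈ X ∧ s.1 b ∈ X) ↔ b ∈ pts W := by
      intro b
      induction b using Projectivization.ind with
      | h v hv =>
        rw [hsf, Projectivization.map_mk]
        show (Projectivization.mk F v hv ∈ pts (LinearMap.ker φ) ∧ Projectivization.mk F (f v) _ ∈ pts (LinearMap.ker φ)) ↔ _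
        rw [mk_mem_pts, mk_mem_pts, mk_mem_pts]
        simp only [W, Submodule.mem_inf, Submodule.mem_comap]
    have e : {b : X // s.1 b.1 ∈ X} ≃ pts W :=
      (Equiv.subtypeSubtypeEquivSubtypeInter (· ∈ X) (fun b => s.1 b ∈ X)).trans (Equiv.subtypeEquivRight hset)
    rw [Nat.card_congr e]
    apply pts_mod
    -- W ≠ ⊥ by pigeonhole
    haveI : Fintype F := Fintype.ofFinite F
    let g : F × F → F := fun u => f (u.1 • e1 + u.2 • e2) i0
    have hcard : Fintype.card F < Fintype.card (F × F) := by
      rw [Fintype.card_prod]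
      have : 2 ≤ Fintype.card F := by rw [← Nat.card_eq_fintype_card]; exact hq
      nlinarith
    obtain ⟨u, u', hne', hg⟩ := Fintype.exists_ne_map_eq_of_card_lt g hcard
    rw [Submodule.ne_bot_iff]
    refine ⟨(u.1 - u'.1) • e1 + (u.2 - u'.2) • e2, ?_, ?_⟩
    · simp only [W, Submodule.mem_inf, Submodule.mem_comap]
      constructor
      · rw [hφ]
        simp [e1, e2, h01, h02]
      · rw [hφ]
        have : (u.1 - u'.1) • e1 + (u.2 - u'.2) • e2 =
            (u.1 • e1 + u.2 • e2) -
              (u'.1 • e1 + u'.2 • e2 : Fin n → F) := by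
          rw [sub_smul, sub_smul]; abel
        rw [this, map_sub, Pi.sub_apply]
        exact sub_eq_zero.mpr hg
    · intro h0
      apply hne'
      have c1 := congrFun h0 i1
      have c2 := congrFun h0 i2
      simp [e1, e2, h12, h12.symm] at c1 c2
      exact Prod.ext (sub_eq_zero.mp c1) (sub_eq_zero.mp c2)
  -- Claim 4
  have hX : Nat.card X % Nat.card F = 1 := by
    apply pts_mod
    rw [Submodule.ne_bot_iff]
    refine ⟨e1, ?_, he1⟩
    rw [hφ]; simp [e1, h01]
  have hN : Nat.card (Projectivization F (Fin n → F)) % Nat.card F = 1 := by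
    have h := Projectivization.card F (Fin n → F)
    have hV : Nat.card (Fin n → F) = Nat.card F ^ n := by
      rw [Nat.card_fun, Nat.card_fin]
    rw [hV] at h
    have hpos : 0 < Nat.card F ^ n := by positivity
    apply mod_one (Nat.card F) _ (Nat.card F ^ n) hq (by omega)
    exact dvd_pow_self _ (by omega)
  -- final
  have hl : (Nat.card X * Nat.card X) % Nat.card F = 1 := by
    rw [Nat.mul_mod, hX]
    exact Nat.mod_eq_of_lt hq
  have hr : (∑ s : Sa, Nat.card {b : X // s.1 b.1 ∈ X}) % Nat.card F = 0 := by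
    rw [Finset.sum_nat_mod]
    simp only [hmod]
    rw [Finset.sum_const, Finset.card_univ, smul_eq_mul, mul_one, ← Nat.card_eq_fintype_card]
    have : Nat.card Sa = Nat.card (Projectivization F (Fin n → F)) - 1 := by omega
    rw [this]
    have h3 := Nat.div_add_mod (Nat.card (Projectivization F (Fin n → F))) (Nat.card F)
    rw [hN] at h3
    have : Nat.card (Projectivization F (Fin n → F)) - 1 =
        Nat.card F * (Nat.card (Projectivization F (Fin n → F)) / Nat.card F) := by omega
    rw [this]
    exact Nat.mul_mod_right _ _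
  rw [hT, hr] at hl
  exact absurd hl (by norm_num)

end Cfsg.Agent.S2531
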