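import Cfsg.Statements.S2532
import Mathlib

set_option autoImplicit false
open Cfsg

namespace Cfsg.Agent.S2532

section construction
variable {α ι : Type} [DecidableEq α] [DecidableEq ι]
  (Hp : Subgroup (Equiv.Perm α)) (x : ι → α)

/-- membership in the union of the chosen orbits -/
def inY (y : α) : Prop := ∃ i : ι, ∃ h ∈ Hp, y = h (x i)

open Classical in
/-- the function permuting the chosen orbits -/
noncomputable def phiFun (σ : Equiv.Perm ι) (y : α) : α :=
  if hy : inY Hp x y then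
    (Classical.choose (Classical.choose_spec hy)) (x (σ (Classical.choose hy)))
  else y

variable (h1 : ∀ i j, ∀ h ∈ Hp, h (x i) = x i → h (x j) = x j)
  (h2 : ∀ i j, ∀ h ∈ Hp, ∀ h' ∈ Hp, h (x i) = h' (x j) → i = j)

include h1 h2 in
lemma phiFun_apply (σ : Equiv.Perm ι) (h : Equiv.Perm α) (hh : h ∈ Hp) (i : ι) :
    phiFun Hp x σ (h (x i)) = h (x (σ i)) := by
  have hy : inY Hp x (h (x i)) := ⟨i, h, hh, rfl⟩
  unfold phiFun
  rw [dif_pos hy]
  have key : ∀ (i' : ι) (h' : Equiv.Perm α), h' ∈ Hp → h (x i) = h' (x i') →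
      h' (x (σ i')) = h (x (σ i)) := by
    intro i' h' hh' e
    have hi : i = i' := h2 i i' h hh h' hh' e
    subst hi
    have e2 : (h'⁻¹ * h) (x i) = x i := by
      rw [Equiv.Perm.mul_apply, e]; simp
    have e3 := h1 i (σ i) (h'⁻¹ * h) (Hp.mul_mem (Hp.inv_mem hh') hh) e2
    rw [Equiv.Perm.mul_apply] at e3
    have := congrArg h' e3
    simpa using this.symm
  exact key _ _ (Classical.choose_spec (Classical.choose_spec hy)).1
    (Classical.choose_spec (Classical.choose_spec hy)).2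

omit [DecidableEq α] [DecidableEq ι] in
lemma phiFun_not (σ : Equiv.Perm ι) (y : α) (hy : ¬ inY Hp x y) : phiFun Hp x σ y = y := by
  unfold phiFun; rw [dif_neg hy]

include h1 h2 in
lemma phiFun_mul (σ τ : Equiv.Perm ι) (y : α) :
    phiFun Hp x σ (phiFun Hp x τ y) = phiFun Hp x (σ * τ) y := by
  by_cases hy : inY Hp x y
  · obtain ⟨i, h, hh, rfl⟩ := hy
    rw [phiFun_apply Hp x h1 h2 τ h hh i, phiFun_apply Hp x h1 h2 σ h hh,
      phiFun_apply Hp x h1 h2 (σ * τ) h hh i]
    rfl
  · rw [phiFun_not Hp x τ y hy, phiFun_not Hp x σ y hy, phiFun_not Hp x _ y hy]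

include h1 h2 in
lemma phiFun_one (y : α) : phiFun Hp x 1 y = y := by
  by_cases hy : inY Hp x y
  · obtain ⟨i, h, hh, rfl⟩ := hy
    rw [phiFun_apply Hp x h1 h2 1 h hh i]; rfl
  · exact phiFun_not Hp x _ y hy

/-- the homomorphism permuting the chosen orbits -/
noncomputable def phiHom : Equiv.Perm ι →* Equiv.Perm α where
  toFun σ := ⟨phiFun Hp x σ, phiFun Hp x σ⁻¹,
    fun y => by rw [phiFun_mul Hp x h1 h2, inv_mul_cancel, phiFun_one Hp x h1 h2],
    fun y => by rw [phiFun_mul Hp x h1 h2, mul_inv_cancel, phiFun_one Hp x h1 h2]⟩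
  map_one' := Equiv.ext fun y => phiFun_one Hp x h1 h2 y
  map_mul' σ τ := Equiv.ext fun y => (phiFun_mul Hp x h1 h2 σ τ y).symm

lemma phiHom_apply (σ : Equiv.Perm ι) (y : α) :
    phiHom Hp x h1 h2 σ y = phiFun Hp x σ y := rfl

lemma phiHom_comm (σ : Equiv.Perm ι) (g : Equiv.Perm α) (hg : g ∈ Hp) (y : α) :
    g (phiHom Hp x h1 h2 σ y) = phiHom Hp x h1 h2 σ (g y) := by
  rw [phiHom_apply, phiHom_apply]
  by_cases hy : inY Hp x y
  · obtain ⟨i, h, hh, rfl⟩ := hy
    rw [phiFun_apply Hp x h1 h2 σ h hh i]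
    have := phiFun_apply Hp x h1 h2 σ (g * h) (Hp.mul_mem hg hh) i
    rw [Equiv.Perm.mul_apply, Equiv.Perm.mul_apply] at this
    exact this.symm
  · have hy' : ¬ inY Hp x (g y) := by
      rintro ⟨i, h, hh, e⟩
      apply hy
      refine ⟨i, g⁻¹ * h, Hp.mul_mem (Hp.inv_mem hg) hh, ?_⟩
      rw [Equiv.Perm.mul_apply, ← e]; simp
    rw [phiFun_not Hp x σ y hy, phiFun_not Hp x σ _ hy']

lemma phiHom_injective : Function.Injective (phiHom Hp x h1 h2) := by
  rw [injective_iff_map_eq_one]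
  intro σ hσ
  ext i
  have e1 := phiFun_apply Hp x h1 h2 σ 1 Hp.one_mem i
  have e2 : phiFun Hp x σ ((1 : Equiv.Perm α) (x i)) = (1 : Equiv.Perm α) (x i) := by
    rw [← phiHom_apply Hp x h1 h2, hσ]; rfl
  rw [e2] at e1
  have := h2 i (σ i) 1 Hp.one_mem 1 Hp.one_mem e1
  rw [← this]; rfl

end construction

lemma hom_alt_trivial {ι : Type} [Fintype ι] [DecidableEq ι] (ψ : Equiv.Perm ι →* ℤˣ)
    (σ : Equiv.Perm ι) (hσ : σ ∈ alternatingGroup ι) : ψ σ = 1 := by
  have hle : alternatingGroup ι ≤ ψ.ker := by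
    rw [← Equiv.Perm.closure_three_cycles_eq_alternating, Subgroup.closure_le]
    intro c hc
    have hc3 : c ^ 3 = 1 := by
      have h3 : orderOf c = 3 := Equiv.Perm.IsThreeCycle.orderOf hc
      rw [← h3]; exact pow_orderOf_eq_one c
    show ψ c = 1
    rcases Int.units_eq_one_or (ψ c) with h | h
    · exact h
    · have : ψ c ^ 3 = 1 := by rw [← map_pow, hc3, map_one]
      rw [h] at this
      exact absurd this (by decide)
  exact hle hσ

lemma exists_points {m : ℕ} (Hp : Subgroup (Equiv.Perm (Fin m))) (r : ℕ)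
    (hm : 2 ^ (Nat.card Hp) * (Nat.card Hp * r) + 1 ≤ m) :
    ∃ x : Fin r → Fin m, (∀ i j, ∀ h ∈ Hp, h (x i) = x i → h (x j) = x j) ∧
      (∀ i j, ∀ h ∈ Hp, ∀ h' ∈ Hp, h (x i) = h' (x j) → i = j) := by
  classical
  let c : Fin m → Set ↥Hp := fun y => {h | (h : Equiv.Perm (Fin m)) y = y}
  have hc : Fintype.card (Set ↥Hp) * (Nat.card Hp * r) < Fintype.card (Fin m) := by
    rw [Fintype.card_set, Fintype.card_fin, ← Nat.card_eq_fintype_card]; omega
  obtain ⟨S₀, hS₀⟩ := Fintype.exists_lt_card_fiber_of_mul_lt_card c hc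
  set X := Finset.univ.filter (fun y => c y = S₀) with hX
  let orb : Fin m → Finset (Fin m) :=
    fun y => Finset.univ.image (fun h : ↥Hp => (h : Equiv.Perm (Fin m)) y)
  have horb_card : ∀ y, (orb y).card ≤ Nat.card Hp := fun y => by
    rw [Nat.card_eq_fintype_card]; exact Finset.card_image_le
  have hself : ∀ y, y ∈ orb y := fun y => Finset.mem_image.mpr ⟨1, Finset.mem_univ _, rfl⟩
  have h3 : X.card ≤ Nat.card Hp * (X.image orb).card := by
    apply Finset.card_le_mul_card_image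
    intro a ha
    obtain ⟨y0, hy0, rfl⟩ := Finset.mem_image.mp ha
    refine le_trans (Finset.card_le_card ?_) (horb_card y0)
    intro y hy
    rw [Finset.mem_filter] at hy
    rw [← hy.2]; exact hself y
  have h4 : r < (X.image orb).card := by
    by_contra hcon
    push Not at hcon
    have := Nat.mul_le_mul_left (Nat.card Hp) hcon
    omega
  have h5 : Fintype.card (Fin r) ≤ Fintype.card ↥(X.image orb) := by
    simp only [Fintype.card_fin, Fintype.card_coe]; omega
  obtain ⟨e⟩ := Function.Embedding.nonempty_of_card_le h5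
  have h6 : ∀ i, ∃ y ∈ X, orb y = (e i : Finset (Fin m)) := fun i => by
    have := (e i).2; rw [Finset.mem_image] at this; exact this
  choose x hxX hxe using h6
  refine ⟨x, ?_, ?_⟩
  · intro i j h hh hfix
    have hi : c (x i) = S₀ := (Finset.mem_filter.mp (hxX i)).2
    have hj : c (x j) = S₀ := (Finset.mem_filter.mp (hxX j)).2
    have : (⟨h, hh⟩ : ↥Hp) ∈ c (x i) := hfix
    rw [hi, ← hj] at this
    exact this
  · intro i j h hh h' hh' heq
    have : orb (x i) = orb (x j) := by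
      have e1 : x i = (h⁻¹ * h') (x j) := by rw [Equiv.Perm.mul_apply, ← heq]; simp
      ext y
      simp only [orb, Finset.mem_image, Finset.mem_univ, true_and]
      constructor
      · rintro ⟨g, rfl⟩
        refine ⟨g * ⟨h⁻¹ * h', Hp.mul_mem (Hp.inv_mem hh) hh'⟩, ?_⟩
        rw [e1]; rfl
      · rintro ⟨g, rfl⟩
        refine ⟨g * ⟨h'⁻¹ * h, Hp.mul_mem (Hp.inv_mem hh') hh⟩, ?_⟩
        rw [e1]; simp [Equiv.Perm.mul_apply]
    apply e.injective
    apply Subtype.ext
    rw [← hxe i, ← hxe j, this]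

/-- There is a function `f` of two natural-number arguments such that, whenever `m ≥ f(n, r)`, every subgroup of order `n` of the alternating group of degree `m` centralizes some subgroup of that alternating group isomorphic to the alternating group of degree `r`. -/
theorem result :
    ∃ f : ℕ → ℕ → ℕ, ∀ (m r : ℕ) (H : Subgroup ↥(alternatingGroup (Fin m))), f (Nat.card H) r ≤ m →
      ∃ K : Subgroup ↥(alternatingGroup (Fin m)), Nonempty (↥K ≃* ↥(alternatingGroup (Fin r))) ∧
        K ≤ Subgroup.centralizer (H : Set ↥(alternatingGroup (Fin m))) := by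
  refine ⟨fun n r => 2 ^ n * (n * r) + 1, ?_⟩
  intro m r H hm
  classical
  set Hp : Subgroup (Equiv.Perm (Fin m)) := H.map (alternatingGroup (Fin m)).subtype with hHp
  have hcard : Nat.card Hp = Nat.card H :=
    Subgroup.card_map_of_injective (Subgroup.subtype_injective _)
  obtain ⟨x, h1, h2⟩ := exists_points Hp r (by rw [hcard]; exact hm)
  have hsign : ∀ σ : Equiv.Perm (Fin r), σ ∈ alternatingGroup (Fin r) →
      phiHom Hp x h1 h2 σ ∈ alternatingGroup (Fin m) := by
    intro σ hσ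
    rw [Equiv.Perm.mem_alternatingGroup]
    exact hom_alt_trivial (Equiv.Perm.sign.comp (phiHom Hp x h1 h2)) σ hσ
  let Ψ : alternatingGroup (Fin r) →* alternatingGroup (Fin m) :=
    { toFun := fun σ => ⟨phiHom Hp x h1 h2 σ, hsign σ σ.2⟩
      map_one' := Subtype.ext (map_one (phiHom Hp x h1 h2))
      map_mul' := fun a b => Subtype.ext (map_mul (phiHom Hp x h1 h2) (a : Equiv.Perm (Fin r)) (b : Equiv.Perm (Fin r))) }
  have hinj : Function.Injective Ψ := by
    intro a b hab
    apply Subtype.ext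
    apply phiHom_injective Hp x h1 h2
    exact congrArg Subtype.val hab
  refine ⟨Ψ.range, ⟨(MonoidHom.ofInjective hinj).symm⟩, ?_⟩
  rintro _ ⟨σ, rfl⟩
  rw [Subgroup.mem_centralizer_iff]
  intro h hh
  apply Subtype.ext
  apply Equiv.ext
  intro y
  have hmem : (h : Equiv.Perm (Fin m)) ∈ Hp := ⟨h, hh, rfl⟩
  exact phiHom_comm Hp x h1 h2 σ h hmem y

end Cfsg.Agent.S2532
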