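import Cfsg.Statements.S2533
import Mathlib

set_option autoImplicit false
open Cfsg

namespace Cfsg.Agent.S2533

open Matrix

variable (p : ℕ) [Fact p.Prime]

abbrev V3 := ZMod p × ZMod p × ZMod p
abbrev Nv := Multiplicative (V3 p)
def act : ℤˣ →* MulAut (Nv p) where
  toFun s :=
    { toFun := fun v => Multiplicative.ofAdd (s • Multiplicative.toAdd v)
      invFun := fun v => Multiplicative.ofAdd (s⁻¹ • Multiplicative.toAdd v)
      left_inv := fun v => by
        show Multiplicative.ofAdd (s⁻¹ • (s • Multiplicative.toAdd v)) = v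
        rw [inv_smul_smul]; rfl
      right_inv := fun v => by
        show Multiplicative.ofAdd (s • (s⁻¹ • Multiplicative.toAdd v)) = v
        rw [smul_inv_smul]; rfl
      map_mul' := fun v w => by
        show Multiplicative.ofAdd (s • (Multiplicative.toAdd v + Multiplicative.toAdd w)) =
          Multiplicative.ofAdd (s • Multiplicative.toAdd v) * Multiplicative.ofAdd (s • Multiplicative.toAdd w)
        rw [smul_add]; rfl }
  map_one' := by
    apply MulEquiv.ext
    intro v
    show Multiplicative.ofAdd ((1 : ℤˣ) • Multiplicative.toAdd v) = v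
    rw [one_smul]; rfl
  map_mul' s t := by
    apply MulEquiv.ext
    intro v
    show Multiplicative.ofAdd ((s * t) • Multiplicative.toAdd v) =
      Multiplicative.ofAdd (s • (t • Multiplicative.toAdd v))
    rw [mul_smul]

abbrev Hg := Nv p ⋊[act p] ℤˣ

def nil (m : ℕ) (v : V3 p) : Matrix (Fin (2*m+1)) (Fin (2*m+1)) (ZMod p) :=
  fun i j => if j.val < m then
      ((if i.val = j.val + m then v.1 else 0) + (if i.val = j.val + m + 1 then v.2.1 else 0)
        + (if j.val = 0 ∧ i.val = 2 * m then v.2.2 else 0))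
    else 0

lemma nil_row (m : ℕ) (v : V3 p) (i j : Fin (2*m+1)) (hi : i.val < m) : nil p m v i j = 0 := by
  simp only [nil]
  split_ifs <;> first | omega | simp

lemma nil_col (m : ℕ) (v : V3 p) (i j : Fin (2*m+1)) (hj : m ≤ j.val) : nil p m v i j = 0 := by
  simp only [nil]
  rw [if_neg (by omega)]

lemma nil_add (m : ℕ) (v w : V3 p) : nil p m (v + w) = nil p m v + nil p m w := by
  ext i j
  simp only [nil, Matrix.add_apply, Prod.fst_add, Prod.snd_add]
  split_ifs <;> ring

lemma nil_zero (m : ℕ) : nil p m 0 = 0 := by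
  ext i j
  simp [nil]

lemma nil_neg (m : ℕ) (v : V3 p) : nil p m (-v) = - nil p m v := by
  have h := nil_add p m (-v) v
  rw [neg_add_cancel, nil_zero] at h
  exact eq_neg_of_add_eq_zero_left h.symm

lemma nil_mul (m : ℕ) (v w : V3 p) : nil p m v * nil p m w = 0 := by
  ext i j
  rw [Matrix.mul_apply]
  apply Finset.sum_eq_zero
  intro k _
  by_cases hk : k.val < m
  · rw [nil_row p m w k j hk, mul_zero]
  · rw [nil_col p m v i k (by omega), zero_mul]

lemma one_add_nil_mul (m : ℕ) (v w : V3 p) :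
    (1 + nil p m v) * (1 + nil p m w) = 1 + nil p m (v + w) := by
  rw [nil_add]
  have h := nil_mul p m v w
  calc (1 + nil p m v) * (1 + nil p m w) = 1 + (nil p m v + nil p m w) + nil p m v * nil p m w := by
        noncomm_ring
    _ = _ := by rw [h, add_zero]

lemma nil_diag (m : ℕ) (v : V3 p) (i : Fin (2*m+1)) : nil p m v i i = 0 := by
  by_cases hi : i.val < m
  · exact nil_row p m v i i hi
  · exact nil_col p m v i i (by omega)

lemma det_one_add_nil (m : ℕ) (v : V3 p) : (1 + nil p m v).det = 1 := by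
  rw [Matrix.det_of_isLowerTriangular]
  · apply Finset.prod_eq_one
    intro i _
    rw [Matrix.add_apply, Matrix.one_apply_eq, nil_diag, add_zero]
  · intro i j hij
    have hij' : i < j := hij
    rw [Matrix.add_apply, Matrix.one_apply_ne (ne_of_lt hij'), zero_add]
    by_cases hj : j.val < m
    · exact nil_row p m v i j (by have := Fin.lt_def.mp hij'; omega)
    · exact nil_col p m v i j (by omega)

def tmat (m : ℕ) (s : ℤˣ) : Matrix (Fin (2*m+1)) (Fin (2*m+1)) (ZMod p) :=
  Matrix.diagonal (fun i => if i.val < m then ((s : ℤ) : ZMod p) else 1)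

lemma tmat_one (m : ℕ) : tmat p m 1 = 1 := by
  unfold tmat
  rw [← Matrix.diagonal_one]
  congr 1
  funext i
  simp

lemma tmat_mul (m : ℕ) (s t : ℤˣ) : tmat p m (s * t) = tmat p m s * tmat p m t := by
  unfold tmat
  rw [Matrix.diagonal_mul_diagonal]
  congr 1
  funext i
  split_ifs <;> simp

lemma det_tmat (m : ℕ) (hm : Even m) (s : ℤˣ) : (tmat p m s).det = 1 := by
  unfold tmat
  rw [Matrix.det_diagonal]
  rw [Fin.prod_univ_eq_prod_range (fun i => if i < m then ((s:ℤ):ZMod p) else 1) (2*m+1)]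
  rw [show 2*m+1 = m + (m+1) by ring, Finset.prod_range_add]
  rw [Finset.prod_congr rfl (fun i hi => if_pos (Finset.mem_range.mp hi)), Finset.prod_const,
    Finset.card_range]
  rw [Finset.prod_eq_one (fun i _ => if_neg (by omega)), mul_one]
  obtain ⟨k, rfl⟩ := hm
  have h1 : s ^ (k + k) = 1 := by rw [pow_add, ← mul_pow, Int.units_mul_self, one_pow]
  rw [← Int.cast_pow, ← Units.val_pow_eq_pow_val, h1]
  simp

lemma trace_tmat (m : ℕ) : (tmat p m (-1)).trace = 1 := by
  unfold tmat
  rw [Matrix.trace_diagonal]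
  rw [Fin.sum_univ_eq_sum_range (fun i => if i < m then (((-1 : ℤˣ) : ℤ) : ZMod p) else 1) (2*m+1)]
  rw [show 2*m+1 = m + (m+1) by ring, Finset.sum_range_add]
  rw [Finset.sum_congr rfl (fun i hi => if_pos (Finset.mem_range.mp hi)), Finset.sum_const,
    Finset.card_range]
  rw [Finset.sum_congr rfl (fun i _ => if_neg (by omega)), Finset.sum_const, Finset.card_range]
  simp

lemma trace_one_add_nil (m : ℕ) (v : V3 p) : (1 + nil p m v).trace = ((2 * m + 1 : ℕ) : ZMod p) := by
  rw [Matrix.trace_add, Matrix.trace_one, Fintype.card_fin]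
  have : (nil p m v).trace = 0 := by
    unfold Matrix.trace
    apply Finset.sum_eq_zero
    intro i _
    exact nil_diag p m v i
  rw [this, add_zero]

def f1 (m : ℕ) : Nv p →* Matrix.SpecialLinearGroup (Fin (2*m+1)) (ZMod p) where
  toFun v := ⟨1 + nil p m (Multiplicative.toAdd v), det_one_add_nil p m _⟩
  map_one' := by
    apply Subtype.ext
    show 1 + nil p m 0 = 1
    rw [nil_zero, add_zero]
  map_mul' v w := by
    apply Subtype.ext
    show 1 + nil p m (Multiplicative.toAdd v + Multiplicative.toAdd w) = (1 + nil p m _) * (1 + nil p m _)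
    rw [one_add_nil_mul]

def f2 (m : ℕ) (hm : Even m) : ℤˣ →* Matrix.SpecialLinearGroup (Fin (2*m+1)) (ZMod p) where
  toFun s := ⟨tmat p m s, det_tmat p m hm s⟩
  map_one' := by
    apply Subtype.ext
    exact tmat_one p m
  map_mul' s t := by
    apply Subtype.ext
    exact tmat_mul p m s t

lemma nil_tmat (m : ℕ) (v : V3 p) : nil p m (-v) * tmat p m (-1) = tmat p m (-1) * nil p m v := by
  ext i j
  unfold tmat
  rw [Matrix.mul_diagonal, Matrix.diagonal_mul]
  by_cases hj : j.val < m
  · by_cases hi : i.val < m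
    · rw [nil_row p m _ i j hi, nil_row p m _ i j hi]; simp
    · rw [if_pos hj, if_neg hi, nil_neg, Matrix.neg_apply]; simp
  · rw [nil_col p m _ i j (by omega), nil_col p m _ i j (by omega)]; simp

lemma compat (m : ℕ) (hm : Even m) (s : ℤˣ) :
    (f1 p m).comp (act p s).toMonoidHom =
      (MulAut.conj (f2 p m hm s)).toMonoidHom.comp (f1 p m) := by
  apply MonoidHom.ext
  intro v
  show f1 p m (act p s v) = f2 p m hm s * f1 p m v * (f2 p m hm s)⁻¹
  rw [eq_mul_inv_iff_mul_eq]
  rcases Int.units_eq_one_or s with rfl | rfl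
  · rw [map_one, map_one, mul_one, one_mul]; rfl
  · apply Subtype.ext
    show (1 + nil p m (Multiplicative.toAdd (act p (-1) v))) * tmat p m (-1) =
      tmat p m (-1) * (1 + nil p m (Multiplicative.toAdd v))
    have h1 : Multiplicative.toAdd (act p (-1) v) = - Multiplicative.toAdd v := by
      show (-1 : ℤˣ) • Multiplicative.toAdd v = _
      rw [Units.neg_smul, one_smul]
    rw [h1, add_mul, mul_add, one_mul, mul_one, nil_tmat]

def psi (m : ℕ) (hm : Even m) : Hg p →* Matrix.SpecialLinearGroup (Fin (2*m+1)) (ZMod p) :=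
  SemidirectProduct.lift (f1 p m) (f2 p m hm) (compat p m hm)

lemma psi_coe (m : ℕ) (hm : Even m) (h : Hg p) :
    ((psi p m hm h : Matrix.SpecialLinearGroup (Fin (2*m+1)) (ZMod p)) : Matrix (Fin (2*m+1)) (Fin (2*m+1)) (ZMod p)) =
      (1 + nil p m (Multiplicative.toAdd h.left)) * tmat p m h.right := rfl

lemma two_ne (hp : p ≠ 2) : (2 : ZMod p) ≠ 0 := by
  intro h
  have h2 : ((2 : ℕ) : ZMod p) = 0 := by exact_mod_cast h
  rw [ZMod.natCast_eq_zero_iff] at h2
  exact hp ((Nat.prime_dvd_prime_iff_eq (Fact.out : p.Prime) Nat.prime_two).mp h2)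

lemma psi_entry00 (m : ℕ) (hm : Even m) (hm2 : 2 ≤ m) (h : Hg p) :
    ((psi p m hm h : Matrix.SpecialLinearGroup (Fin (2*m+1)) (ZMod p)) : Matrix (Fin (2*m+1)) (Fin (2*m+1)) (ZMod p))
      ⟨0, by omega⟩ ⟨0, by omega⟩ = ((h.right : ℤ) : ZMod p) := by
  rw [psi_coe]
  unfold tmat
  rw [Matrix.mul_diagonal, Matrix.add_apply, Matrix.one_apply_eq, nil_diag, add_zero, one_mul]
  rw [if_pos (by show 0 < m; omega)]

lemma psi_entry_last (m : ℕ) (hm : Even m) (h : Hg p) :
    ((psi p m hm h : Matrix.SpecialLinearGroup (Fin (2*m+1)) (ZMod p)) : Matrix (Fin (2*m+1)) (Fin (2*m+1)) (ZMod p))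
      ⟨2*m, by omega⟩ ⟨2*m, by omega⟩ = 1 := by
  rw [psi_coe]
  unfold tmat
  rw [Matrix.mul_diagonal, Matrix.add_apply, Matrix.one_apply_eq, nil_diag, add_zero, one_mul]
  rw [if_neg (by show ¬ (2 * m < m); omega)]

lemma nil_entry1 (m : ℕ) (hm2 : 2 ≤ m) (v : V3 p) : nil p m v ⟨m, by omega⟩ ⟨0, by omega⟩ = v.1 := by
  show (if (0:ℕ) < m then ((if m = 0 + m then v.1 else 0) + (if m = 0 + m + 1 then v.2.1 else 0)
    + (if (0:ℕ) = 0 ∧ m = 2 * m then v.2.2 else 0)) else 0) = v.1
  rw [if_pos (show 0 < m by omega), if_pos (show m = 0 + m by omega),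
    if_neg (show ¬ (m = 0 + m + 1) by omega), if_neg (show ¬ ((0:ℕ) = 0 ∧ m = 2 * m) by omega)]
  simp

lemma nil_entry2 (m : ℕ) (hm2 : 2 ≤ m) (v : V3 p) : nil p m v ⟨m+1, by omega⟩ ⟨0, by omega⟩ = v.2.1 := by
  show (if (0:ℕ) < m then ((if m + 1 = 0 + m then v.1 else 0) + (if m + 1 = 0 + m + 1 then v.2.1 else 0)
    + (if (0:ℕ) = 0 ∧ m + 1 = 2 * m then v.2.2 else 0)) else 0) = v.2.1
  rw [if_pos (show 0 < m by omega), if_neg (show ¬ (m + 1 = 0 + m) by omega),
    if_pos (show m + 1 = 0 + m + 1 by omega), if_neg (show ¬ ((0:ℕ) = 0 ∧ m + 1 = 2 * m) by omega)]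
  simp

lemma nil_entry3 (m : ℕ) (hm2 : 2 ≤ m) (v : V3 p) : nil p m v ⟨2*m, by omega⟩ ⟨0, by omega⟩ = v.2.2 := by
  show (if (0:ℕ) < m then ((if 2 * m = 0 + m then v.1 else 0) + (if 2 * m = 0 + m + 1 then v.2.1 else 0)
    + (if (0:ℕ) = 0 ∧ 2 * m = 2 * m then v.2.2 else 0)) else 0) = v.2.2
  rw [if_pos (show 0 < m by omega), if_neg (show ¬ (2 * m = 0 + m) by omega),
    if_neg (show ¬ (2 * m = 0 + m + 1) by omega), if_pos (show ((0:ℕ) = 0 ∧ 2 * m = 2 * m) from ⟨rfl, rfl⟩)]
  simp

lemma psi_inj (hp : p ≠ 2) (m : ℕ) (hm : Even m) (hm2 : 2 ≤ m) (h : Hg p)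
    (h1 : ((psi p m hm h : Matrix.SpecialLinearGroup (Fin (2*m+1)) (ZMod p)) : Matrix (Fin (2*m+1)) (Fin (2*m+1)) (ZMod p)) = 1) :
    h = 1 := by
  have e0 := psi_entry00 p m hm hm2 h
  rw [h1, Matrix.one_apply_eq] at e0
  have hs : h.right = 1 := by
    rcases Int.units_eq_one_or h.right with hr | hr
    · exact hr
    · exfalso
      rw [hr] at e0
      apply two_ne p hp
      have : (1 : ZMod p) = -1 := by simpa using e0
      calc (2 : ZMod p) = 1 + 1 := by norm_num
        _ = 1 + (-1) := by rw [← this]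
        _ = 0 := by ring
  rw [psi_coe, hs, tmat_one, mul_one] at h1
  have hn : nil p m (Multiplicative.toAdd h.left) = 0 := by
    have := h1
    rw [add_eq_left] at this
    exact this
  have a1 := nil_entry1 p m hm2 (Multiplicative.toAdd h.left)
  have a2 := nil_entry2 p m hm2 (Multiplicative.toAdd h.left)
  have a3 := nil_entry3 p m hm2 (Multiplicative.toAdd h.left)
  rw [hn] at a1 a2 a3
  have hl : h.left = 1 := by
    have : Multiplicative.toAdd h.left = 0 := Prod.ext a1.symm (Prod.ext a2.symm a3.symm)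
    exact this
  exact SemidirectProduct.ext hl hs

lemma mul_nilx (m : ℕ) (g : Matrix (Fin (2*m+1)) (Fin (2*m+1)) (ZMod p)) (i j k : Fin (2*m+1))
    (hj : j.val < m) (hk : k.val = j.val + m) : (g * nil p m (1,0,0)) i j = g i k := by
  rw [Matrix.mul_apply, Finset.sum_eq_single k]
  · have : nil p m (1,0,0) k j = 1 := by simp [nil, hj, hk]
    rw [this, mul_one]
  · intro b _ hb
    have : nil p m (1,0,0) b j = 0 := by
      simp only [nil]
      rw [if_pos hj, if_neg (fun h : b.val = j.val + m => hb (Fin.ext (h.trans hk.symm)))]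
      simp
    rw [this, mul_zero]
  · intro h; exact absurd (Finset.mem_univ _) h

lemma nilx_mul (m : ℕ) (g : Matrix (Fin (2*m+1)) (Fin (2*m+1)) (ZMod p)) (i j k : Fin (2*m+1))
    (hk : i.val = k.val + m) (hkm : k.val < m) : (nil p m (1,0,0) * g) i j = g k j := by
  rw [Matrix.mul_apply, Finset.sum_eq_single k]
  · have : nil p m (1,0,0) i k = 1 := by simp [nil, hkm, hk]
    rw [this, one_mul]
  · intro b _ hb
    have : nil p m (1,0,0) i b = 0 := by
      simp only [nil]
      by_cases hbm : b.val < m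
      · rw [if_pos hbm, if_neg (fun h : i.val = b.val + m => hb (Fin.ext (by omega)))]
        simp
      · rw [if_neg hbm]
    rw [this, zero_mul]
  · intro h; exact absurd (Finset.mem_univ _) h

lemma nilx_mul0 (m : ℕ) (g : Matrix (Fin (2*m+1)) (Fin (2*m+1)) (ZMod p)) (i j : Fin (2*m+1))
    (hi : i.val = 2 * m) : (nil p m (1,0,0) * g) i j = 0 := by
  rw [Matrix.mul_apply]
  apply Finset.sum_eq_zero
  intro b _
  have : nil p m (1,0,0) i b = 0 := by
    simp only [nil]
    by_cases hbm : b.val < m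
    · rw [if_pos hbm, if_neg (show ¬ (i.val = b.val + m) by omega)]
      simp
    · rw [if_neg hbm]
  rw [this, zero_mul]

lemma mul_nily (m : ℕ) (g : Matrix (Fin (2*m+1)) (Fin (2*m+1)) (ZMod p)) (i j k : Fin (2*m+1))
    (hj : j.val < m) (hk : k.val = j.val + m + 1) : (g * nil p m (0,1,0)) i j = g i k := by
  rw [Matrix.mul_apply, Finset.sum_eq_single k]
  · have : nil p m (0,1,0) k j = 1 := by simp [nil, hj, hk]
    rw [this, mul_one]
  · intro b _ hb
    have : nil p m (0,1,0) b j = 0 := by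
      simp only [nil]
      rw [if_pos hj, if_neg (fun h : b.val = j.val + m + 1 => hb (Fin.ext (h.trans hk.symm)))]
      simp
    rw [this, mul_zero]
  · intro h; exact absurd (Finset.mem_univ _) h

lemma nily_mul (m : ℕ) (g : Matrix (Fin (2*m+1)) (Fin (2*m+1)) (ZMod p)) (i j k : Fin (2*m+1))
    (hk : i.val = k.val + m + 1) : (nil p m (0,1,0) * g) i j = g k j := by
  have hkm : k.val < m := by have := i.isLt; omega
  rw [Matrix.mul_apply, Finset.sum_eq_single k]
  · have : nil p m (0,1,0) i k = 1 := by simp [nil, hkm, hk]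
    rw [this, one_mul]
  · intro b _ hb
    have : nil p m (0,1,0) i b = 0 := by
      simp only [nil]
      by_cases hbm : b.val < m
      · rw [if_pos hbm, if_neg (fun h : i.val = b.val + m + 1 => hb (Fin.ext (by omega)))]
        simp
      · rw [if_neg hbm]
    rw [this, zero_mul]
  · intro h; exact absurd (Finset.mem_univ _) h

lemma nily_mul0 (m : ℕ) (g : Matrix (Fin (2*m+1)) (Fin (2*m+1)) (ZMod p)) (i j : Fin (2*m+1))
    (hi : i.val = m) : (nil p m (0,1,0) * g) i j = 0 := by
  rw [Matrix.mul_apply]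
  apply Finset.sum_eq_zero
  intro b _
  have : nil p m (0,1,0) i b = 0 := by
    simp only [nil]
    by_cases hbm : b.val < m
    · rw [if_pos hbm, if_neg (show ¬ (i.val = b.val + m + 1) by omega)]
      simp
    · rw [if_neg hbm]
  rw [this, zero_mul]

lemma scalar_of_comm (hp : p ≠ 2) (m : ℕ) (g : Matrix (Fin (2*m+1)) (Fin (2*m+1)) (ZMod p))
    (hT : g * tmat p m (-1) = tmat p m (-1) * g)
    (hx : g * nil p m (1,0,0) = nil p m (1,0,0) * g)
    (hy : g * nil p m (0,1,0) = nil p m (0,1,0) * g) :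
    ∃ c : ZMod p, ∀ i j, g i j = if i = j then c else 0 := by
  have two := two_ne p hp
  -- off-diagonal blocks vanish
  have hoff : ∀ i j : Fin (2*m+1), (i.val < m ∧ m ≤ j.val) ∨ (j.val < m ∧ m ≤ i.val) → g i j = 0 := by
    intro i j hij
    have h := congrFun (congrFun hT i) j
    unfold tmat at h
    rw [Matrix.mul_diagonal, Matrix.diagonal_mul] at h
    rcases hij with ⟨h1, h2⟩ | ⟨h1, h2⟩
    · rw [if_neg (by omega), if_pos h1] at h
      have h' : (2 : ZMod p) * g i j = 0 := by
        have : g i j = - g i j := by simpa using h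
        linear_combination this
      exact (mul_eq_zero.mp h').resolve_left two
    · rw [if_pos h1, if_neg (by omega)] at h
      have h' : (2 : ZMod p) * g i j = 0 := by
        have : - g i j = g i j := by simpa using h
        linear_combination -this
      exact (mul_eq_zero.mp h').resolve_left two
  have F1 : ∀ i j i' j' : Fin (2*m+1), i.val = i'.val + m → j.val = j'.val + m → i'.val < m → j'.val < m →
      g i j = g i' j' := by
    intro i j i' j' hi hj hi' hj'
    have h := congrFun (congrFun hx i) j'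
    rw [mul_nilx p m g i j' j hj' hj, nilx_mul p m g i j' i' hi hi'] at h
    exact h
  have F2 : ∀ i j : Fin (2*m+1), i.val = 2 * m → m ≤ j.val → j.val < 2 * m → g i j = 0 := by
    intro i j hi hj hj2
    have h := congrFun (congrFun hx i) (⟨j.val - m, by omega⟩ : Fin (2*m+1))
    rw [mul_nilx p m g i _ j (by show j.val - m < m; omega) (by show j.val = j.val - m + m; omega),
      nilx_mul0 p m g i _ hi] at h
    exact h
  have F3 : ∀ i j i' j' : Fin (2*m+1), i.val = i'.val + m + 1 → j.val = j'.val + m + 1 →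
      g i j = g i' j' := by
    intro i j i' j' hi hj
    have hj' : j'.val < m := by have := j.isLt; omega
    have h := congrFun (congrFun hy i) j'
    rw [mul_nily p m g i j' j hj' hj, nily_mul p m g i j' i' hi] at h
    exact h
  have F4 : ∀ i j : Fin (2*m+1), i.val = m → m + 1 ≤ j.val → g i j = 0 := by
    intro i j hi hj
    have h := congrFun (congrFun hy i) (⟨j.val - m - 1, by omega⟩ : Fin (2*m+1))
    rw [mul_nily p m g i _ j (by show j.val - m - 1 < m; have := j.isLt; omega)
      (by show j.val = j.val - m - 1 + m + 1; omega),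
      nily_mul0 p m g i _ hi] at h
    exact h
  have step : ∀ a b (ha : a < m) (hb : b < m),
      g ⟨m + (a + 1), by omega⟩ ⟨m + (b + 1), by omega⟩ = g ⟨m + a, by omega⟩ ⟨m + b, by omega⟩ := by
    intro a b ha hb
    rw [F3 ⟨m + (a + 1), by omega⟩ ⟨m + (b + 1), by omega⟩ ⟨a, by omega⟩ ⟨b, by omega⟩
      (by show m + (a + 1) = a + m + 1; omega) (by show m + (b + 1) = b + m + 1; omega)]
    rw [F1 ⟨m + a, by omega⟩ ⟨m + b, by omega⟩ ⟨a, by omega⟩ ⟨b, by omega⟩
      (by show m + a = a + m; omega) (by show m + b = b + m; omega) ha hb]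
  have key : ∀ k a b (h1 : a + k ≤ m) (h2 : b + k ≤ m),
      g ⟨m + (a + k), by omega⟩ ⟨m + (b + k), by omega⟩ = g ⟨m + a, by omega⟩ ⟨m + b, by omega⟩ := by
    intro k
    induction k with
    | zero => intro a b _ _; rfl
    | succ k ih =>
      intro a b h1 h2
      rw [← ih a b (by omega) (by omega)]
      exact step (a + k) (b + k) (by omega) (by omega)
  -- lower block is scalar
  have hB : ∀ a b (ha : a ≤ m) (hb : b ≤ m),
      g ⟨m + a, by omega⟩ ⟨m + b, by omega⟩ = if a = b then g ⟨m, by omega⟩ ⟨m, by omega⟩ else 0 := by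
    intro a b ha hb
    rcases lt_trichotomy a b with hab | hab | hab
    · rw [if_neg (by omega)]
      have h := key a 0 (b - a) (by omega) (by omega)
      have e1 : (⟨m + (0 + a), by omega⟩ : Fin (2*m+1)) = ⟨m + a, by omega⟩ := Fin.ext (by simp)
      have e2 : (⟨m + (b - a + a), by omega⟩ : Fin (2*m+1)) = ⟨m + b, by omega⟩ := Fin.ext (by simp; omega)
      rw [e1, e2] at h
      rw [h]
      exact F4 _ _ (by simp) (by simp; omega)
    · subst hab
      rw [if_pos rfl]
      have h := key a 0 0 (by omega) (by omega)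
      have e1 : (⟨m + (0 + a), by omega⟩ : Fin (2*m+1)) = ⟨m + a, by omega⟩ := Fin.ext (by simp)
      rw [e1] at h
      rw [h]
      rfl
    · rw [if_neg (by omega)]
      have h := key (m - a) a b (by omega) (by omega)
      rw [← h]
      exact F2 _ _ (by simp; omega) (by simp) (by simp; omega)
  refine ⟨g ⟨m, by omega⟩ ⟨m, by omega⟩, ?_⟩
  intro i j
  by_cases hi : i.val < m
  · by_cases hj : j.val < m
    · rw [← F1 ⟨m + i.val, by omega⟩ ⟨m + j.val, by omega⟩ i j (by show m + i.val = i.val + m; omega)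
        (by show m + j.val = j.val + m; omega) hi hj]
      rw [hB i.val j.val (by omega) (by omega)]
      by_cases hij : i = j
      · rw [if_pos hij, if_pos (congrArg Fin.val hij)]
      · rw [if_neg hij, if_neg (fun h => hij (Fin.ext h))]
    · rw [hoff i j (Or.inl ⟨hi, by omega⟩), if_neg (by intro h; rw [h] at hi; exact hj hi)]
  · by_cases hj : j.val < m
    · rw [hoff i j (Or.inr ⟨hj, by omega⟩), if_neg (by intro h; rw [h] at hi; exact hi hj)]
    · have e1 : i = ⟨m + (i.val - m), by omega⟩ := Fin.ext (by simp; omega)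
      have e2 : j = ⟨m + (j.val - m), by omega⟩ := Fin.ext (by simp; omega)
      have h := hB (i.val - m) (j.val - m) (by omega) (by omega)
      rw [← e1, ← e2] at h
      rw [h]
      by_cases hij : i = j
      · rw [if_pos hij, if_pos (by rw [hij])]
      · rw [if_neg hij, if_neg (fun h => hij (Fin.ext (by omega)))]

lemma comm_of_mk_comm {n : ℕ} (g a : Matrix.SpecialLinearGroup (Fin n) (ZMod p))
    (htr : (a : Matrix (Fin n) (Fin n) (ZMod p)).trace ≠ 0)
    (h : (QuotientGroup.mk a : Matrix.ProjectiveSpecialLinearGroup (Fin n) (ZMod p)) * QuotientGroup.mk g =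
      QuotientGroup.mk g * QuotientGroup.mk a) :
    (g : Matrix (Fin n) (Fin n) (ZMod p)) * (a : Matrix (Fin n) (Fin n) (ZMod p)) = a * g := by
  have hz : (a * g)⁻¹ * (g * a) ∈ Subgroup.center (Matrix.SpecialLinearGroup (Fin n) (ZMod p)) :=
    QuotientGroup.eq.mp h
  obtain ⟨r, -, hr⟩ := Matrix.SpecialLinearGroup.mem_center_iff.mp hz
  have e : g * a = a * g * ((a * g)⁻¹ * (g * a)) := by group
  have e' := congrArg (fun x : Matrix.SpecialLinearGroup (Fin n) (ZMod p) => (x : Matrix (Fin n) (Fin n) (ZMod p))) e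
  simp only [Matrix.SpecialLinearGroup.coe_mul] at e'
  have hr' : ((a * g)⁻¹ : Matrix.SpecialLinearGroup (Fin n) (ZMod p)) * ((g : Matrix (Fin n) (Fin n) (ZMod p)) * a) = r • (1 : Matrix (Fin n) (Fin n) (ZMod p)) := by
    rw [Matrix.smul_one_eq_diagonal, ← Matrix.scalar_apply, hr]
    simp only [Matrix.SpecialLinearGroup.coe_mul]
  rw [hr'] at e'
  have hgg : (g : Matrix (Fin n) (Fin n) (ZMod p)) * ((g⁻¹ : Matrix.SpecialLinearGroup (Fin n) (ZMod p)) : Matrix (Fin n) (Fin n) (ZMod p)) = 1 := by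
    rw [← Matrix.SpecialLinearGroup.coe_mul, mul_inv_cancel]; rfl
  have hgg' : ((g⁻¹ : Matrix.SpecialLinearGroup (Fin n) (ZMod p)) : Matrix (Fin n) (Fin n) (ZMod p)) * (g : Matrix (Fin n) (Fin n) (ZMod p)) = 1 := by
    rw [← Matrix.SpecialLinearGroup.coe_mul, inv_mul_cancel]; rfl
  have t1 : ((g : Matrix (Fin n) (Fin n) (ZMod p)) * a * ((g⁻¹ : Matrix.SpecialLinearGroup (Fin n) (ZMod p)) : Matrix (Fin n) (Fin n) (ZMod p))).trace
      = (a : Matrix (Fin n) (Fin n) (ZMod p)).trace := by
    rw [Matrix.trace_mul_cycle, hgg', one_mul]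
  have t2 : (g : Matrix (Fin n) (Fin n) (ZMod p)) * a * ((g⁻¹ : Matrix.SpecialLinearGroup (Fin n) (ZMod p)) : Matrix (Fin n) (Fin n) (ZMod p))
      = r • (a : Matrix (Fin n) (Fin n) (ZMod p)) := by
    rw [e', Matrix.mul_smul, Matrix.mul_one, Matrix.smul_mul, Matrix.mul_assoc, hgg, Matrix.mul_one]
  rw [t2, Matrix.trace_smul, smul_eq_mul] at t1
  have hr1 : r = 1 := by
    have : (r - 1) * (a : Matrix (Fin n) (Fin n) (ZMod p)).trace = 0 := by linear_combination t1
    rcases mul_eq_zero.mp this with h | h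
    · exact sub_eq_zero.mp h
    · exact absurd h htr
  rw [hr1, one_smul, Matrix.mul_one] at e'
  exact e'

lemma main (hp : p ≠ 2) (m : ℕ) (hm : Even m) (hm2 : 2 ≤ m) (hn : ((2 * m + 1 : ℕ) : ZMod p) ≠ 0) :
    ∃ φ : Hg p →* Matrix.ProjectiveSpecialLinearGroup (Fin (2*m+1)) (ZMod p),
      Function.Injective φ ∧ Subgroup.centralizer (φ.range : Set (Matrix.ProjectiveSpecialLinearGroup (Fin (2*m+1)) (ZMod p))) = ⊥ := by
  refine ⟨(QuotientGroup.mk' _).comp (psi p m hm), ?_, ?_⟩
  · rw [injective_iff_map_eq_one]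
    intro h hh
    have hc : psi p m hm h ∈ Subgroup.center (Matrix.SpecialLinearGroup (Fin (2*m+1)) (ZMod p)) :=
      (QuotientGroup.eq_one_iff _).mp hh
    obtain ⟨r, -, hr⟩ := Matrix.SpecialLinearGroup.mem_center_iff.mp hc
    have e := psi_entry_last p m hm h
    rw [← hr] at e
    have hr1 : r = 1 := by simpa using e
    apply psi_inj p hp m hm hm2 h
    rw [← hr, hr1]
    simp
  · rw [Subgroup.eq_bot_iff_forall]
    intro x hx
    obtain ⟨g, rfl⟩ := QuotientGroup.mk_surjective x
    rw [Subgroup.mem_centralizer_iff] at hx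
    have hcomm : ∀ h : Hg p, ((psi p m hm h : Matrix.SpecialLinearGroup (Fin (2*m+1)) (ZMod p)) : Matrix (Fin (2*m+1)) (Fin (2*m+1)) (ZMod p)).trace ≠ 0 →
        (g : Matrix (Fin (2*m+1)) (Fin (2*m+1)) (ZMod p)) * (psi p m hm h : Matrix.SpecialLinearGroup (Fin (2*m+1)) (ZMod p)) =
          (psi p m hm h : Matrix.SpecialLinearGroup (Fin (2*m+1)) (ZMod p)) * g := by
      intro h htr
      exact comm_of_mk_comm p g (psi p m hm h) htr (hx _ ⟨h, rfl⟩)
    have hinl : ∀ v : V3 p, ((psi p m hm (SemidirectProduct.inl (Multiplicative.ofAdd v)) : Matrix.SpecialLinearGroup (Fin (2*m+1)) (ZMod p)) : Matrix (Fin (2*m+1)) (Fin (2*m+1)) (ZMod p)) = 1 + nil p m v := by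
      intro v
      rw [psi_coe]
      show (1 + nil p m v) * tmat p m 1 = _
      rw [tmat_one, mul_one]
    have hinr : ((psi p m hm (SemidirectProduct.inr (-1)) : Matrix.SpecialLinearGroup (Fin (2*m+1)) (ZMod p)) : Matrix (Fin (2*m+1)) (Fin (2*m+1)) (ZMod p)) = tmat p m (-1) := by
      rw [psi_coe]
      show (1 + nil p m 0) * tmat p m (-1) = _
      rw [nil_zero, add_zero, one_mul]
    have cN : ∀ v : V3 p, (g : Matrix (Fin (2*m+1)) (Fin (2*m+1)) (ZMod p)) * nil p m v = nil p m v * g := by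
      intro v
      have h := hcomm (SemidirectProduct.inl (Multiplicative.ofAdd v)) (by rw [hinl, trace_one_add_nil]; exact hn)
      rw [hinl, mul_add, add_mul, mul_one, one_mul] at h
      exact add_left_cancel h
    have cT : (g : Matrix (Fin (2*m+1)) (Fin (2*m+1)) (ZMod p)) * tmat p m (-1) = tmat p m (-1) * g := by
      have h := hcomm (SemidirectProduct.inr (-1)) (by rw [hinr, trace_tmat]; exact one_ne_zero)
      rw [hinr] at h
      exact h
    obtain ⟨c, hc⟩ := scalar_of_comm p hp m g cT (cN _) (cN _)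
    have hg : (g : Matrix (Fin (2*m+1)) (Fin (2*m+1)) (ZMod p)) = c • 1 := by
      ext i j
      rw [hc i j, Matrix.smul_apply, Matrix.one_apply]
      split_ifs <;> simp
    apply (QuotientGroup.eq_one_iff g).mpr
    rw [Subgroup.mem_center_iff]
    intro B
    apply Subtype.ext
    simp only [Matrix.SpecialLinearGroup.coe_mul]
    rw [hg, Matrix.mul_smul, Matrix.smul_mul, Matrix.mul_one, Matrix.one_mul]

instance : Finite (Hg p) := Finite.of_equiv _ SemidirectProduct.equivProd.symm

lemma card_Hg : Nat.card (Hg p) = 2 * p ^ 3 := by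
  rw [Nat.card_congr SemidirectProduct.equivProd, Nat.card_prod]
  have h1 : Nat.card (Nv p) = p ^ 3 := by
    rw [Nat.card_congr Multiplicative.toAdd, Nat.card_prod, Nat.card_prod, Nat.card_zmod]
    ring
  have h2 : Nat.card ℤˣ = 2 := by
    rw [Nat.card_eq_fintype_card]; exact Fintype.card_units_int
  rw [h1, h2, mul_comm]

/-- For every odd prime `p` there is a finite group `H` of order `2p³` which, for infinitely many `n`, embeds in the projective special linear group `PSL(n, p)` as a subgroup with trivial centralizer. -/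
theorem result
    (p : ℕ) [Fact p.Prime] (hp : p ≠ 2) :
    ∃ (H : Type) (_ : Group H) (_ : Finite H), Nat.card H = 2 * p ^ 3 ∧
      ∀ N : ℕ, ∃ n, N ≤ n ∧ ∃ φ : H →* Matrix.ProjectiveSpecialLinearGroup (Fin n) (ZMod p),
        Function.Injective φ ∧ Subgroup.centralizer (φ.range : Set (Matrix.ProjectiveSpecialLinearGroup (Fin n) (ZMod p))) = ⊥ := by
  refine ⟨Hg p, inferInstance, inferInstance, card_Hg p, fun N => ?_⟩
  have hp' : p.Prime := Fact.out
  have h1 : N + 1 ≤ p * (N + 1) := Nat.le_mul_of_pos_left _ hp'.pos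
  refine ⟨2 * (2 * (p * (N + 1))) + 1, by omega, ?_⟩
  apply main p hp (2 * (p * (N + 1))) ⟨p * (N + 1), by ring⟩ (by omega)
  have : ((2 * (2 * (p * (N + 1))) + 1 : ℕ) : ZMod p) = 1 := by
    push_cast
    simp
  rw [this]
  exact one_ne_zero

end Cfsg.Agent.S2533
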