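import Cfsg.Statements.S2537
import Cfsg.Agent.Helper9.Tor7
import Cfsg.Agent.Helper9.Hall1
import Cfsg.Agent.Helper9.Prime3
import Cfsg.Agent.Helper9.Ico8
import Cfsg.Agent.S0802
import Cfsg.Agent.S0803

set_option autoImplicit false
open Cfsg

namespace Cfsg.Agent.S2537

open Cfsg.Agent.Helper9

theorem result {F : Type*} [Field F] [Fintype F] {p : ℕ} [Fact p.Prime] [CharP F p]
    (hp : 5 ≤ p) (q : ℕ) (hq : Fintype.card F = q) :
    (∃ H : Subgroup (Matrix.ProjectiveSpecialLinearGroup (Fin 2) F), Cfsg.IsPiHall ({2, 3} : Set ℕ) H) ↔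
      (3 ∣ q - 1 ∧ q % 4 = 1) ∨ (3 ∣ q + 1 ∧ q % 4 = 3) ∨
        2 ^ (q ^ 2 - 1).factorization 2 * 3 ^ (q ^ 2 - 1).factorization 3 = 24 ∨
        2 ^ (q ^ 2 - 1).factorization 2 * 3 ^ (q ^ 2 - 1).factorization 3 = 48 := by
  classical
  have hpp := (Fact.out : p.Prime)
  subst hq
  obtain ⟨n, -, hcard⟩ := FiniteField.card F p
  have hq2 : ¬ 2 ∣ Fintype.card F := by
    rw [hcard]; intro h
    have := (Nat.prime_dvd_prime_iff_eq Nat.prime_two hpp).mp (Nat.prime_two.dvd_of_dvd_pow h)
    omega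
  have hq3 : ¬ 3 ∣ Fintype.card F := by
    rw [hcard]; intro h
    have := (Nat.prime_dvd_prime_iff_eq Nat.prime_three hpp).mp (Nat.prime_three.dvd_of_dvd_pow h)
    omega
  have hq5 : 5 ≤ Fintype.card F := by
    rw [hcard]
    exact hp.trans (Nat.le_self_pow n.ne_zero p)
  have hodd : Fintype.card F % 2 = 1 := by omega
  have h2F : (2 : F) ≠ 0 := two_ne_zero_of_odd_card_h9 hodd
  obtain ⟨r, hr, hG⟩ := psl2_card_odd_h9 hodd
  have hN : Fintype.card F ^ 2 - 1 = r * (r + 2) := by
    rw [hr]
    have : (r + 1) ^ 2 = r * (r + 2) + 1 := by ring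
    omega
  have hq1 : Fintype.card F - 1 = r := by omega
  have hq1' : Fintype.card F + 1 = r + 2 := by omega
  rw [hN, hq1, hq1']
  have hr2 : r % 2 = 0 := by omega
  have hr4 : 4 ≤ r := by omega
  have hN0 : r * (r + 2) ≠ 0 := Nat.mul_ne_zero (by omega) (by omega)
  have h8N : 8 ∣ r * (r + 2) := eight_dvd_h9 r hr2
  have h3N : 3 ∣ r * (r + 2) := by
    have hq3' : Fintype.card F % 3 ≠ 0 := fun h => hq3 (Nat.dvd_of_mod_eq_zero h)
    have hr3 : r % 3 = 0 ∨ r % 3 = 1 := by omega
    rcases hr3 with h | h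
    · exact Dvd.dvd.mul_right (Nat.dvd_of_mod_eq_zero h) _
    · exact Dvd.dvd.mul_left (Nat.dvd_of_mod_eq_zero (by omega)) _
  have hrel : ∀ H : Subgroup (Matrix.ProjectiveSpecialLinearGroup (Fin 2) F),
      2 * (Nat.card H * H.index) = (r + 1) * (r * (r + 2)) := by
    intro H
    rw [Subgroup.card_mul_index, hG]; ring
  have hcop2 : ¬ 2 ∣ r + 1 := by omega
  have hcop3 : ¬ 3 ∣ r + 1 := by rw [← hr]; exact hq3
  constructor
  · rintro ⟨H, hH⟩
    obtain ⟨h1, h2i, h3i⟩ := hall23_elim_h9 H hH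
    have hpH : ¬ p ∣ Nat.card H := by
      intro h
      rcases h1 p hpp h with h' | h' <;> omega
    have hrelH := hrel H
    have h4H : 4 ∣ Nat.card H := by
      apply (coprime_two_pow_h9 2 _ h2i).dvd_of_dvd_mul_right
      obtain ⟨j, hj⟩ := h8N
      rw [hj] at hrelH
      have e : (r + 1) * (8 * j) = 8 * ((r + 1) * j) := by ring
      rw [e] at hrelH
      exact ⟨(r + 1) * j, by omega⟩
    have h3H : 3 ∣ Nat.card H := by
      have h3' : 3 ∣ 2 * (Nat.card H * H.index) := by
        rw [hrelH]; exact Dvd.dvd.mul_left h3N _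
      have h3'' : 3 ∣ Nat.card H * H.index :=
        (Nat.Coprime.dvd_of_dvd_mul_left (by norm_num : Nat.Coprime 3 2) h3')
      rcases (Nat.Prime.dvd_mul Nat.prime_three).mp h3'' with h | h
      · exact h
      · exact absurd h h3i
    rcases (psl2KPart_h9 H hpH).classify with (htriv | ⟨y, hy, hτ⟩) | ⟨y, hy, hc, -⟩ |
      ⟨⟨e⟩⟩ | ⟨⟨e⟩⟩ | ⟨⟨e⟩⟩
    · exfalso
      have : Nat.card H = 1 := by
        rw [Nat.card_eq_one_iff_unique]
        exact ⟨⟨fun a b => by rw [htriv a, htriv b]⟩, ⟨1⟩⟩
      rw [this] at h4H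
      omega
    · exfalso
      have hc : Nat.card (psl2Tau_h9 H y) = Nat.card H := by
        have : psl2Tau_h9 H y = ⊤ := hτ
        rw [this, Subgroup.card_top]
      have hd := psl2Tau_card_dvd_h9 h2F H hpH y hy
      rw [hc, hq1, hq1'] at hd
      have hHpos : 0 < Nat.card H := Nat.card_pos
      rcases hd with ⟨j, hj⟩ | ⟨j, hj⟩
      · apply h2i
        obtain ⟨s, hs⟩ : ∃ s, r + 2 = 2 * s := ⟨(r + 2) / 2, by omega⟩
        have e2 : (r + 1) * (r * (r + 2)) = (2 * Nat.card H) * ((r + 1) * j * (r + 2)) := by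
          have : (r + 1) * (r * (r + 2)) = (r + 1) * ((2 * Nat.card H * j) * (r + 2)) := by
            rw [← hj]
          rw [this]; ring
        have e1 : 2 * (Nat.card H * H.index) = (2 * Nat.card H) * H.index := by ring
        rw [e1, e2] at hrelH
        have h5 := Nat.eq_of_mul_eq_mul_left (by omega) hrelH
        rw [h5, hs]
        exact ⟨(r + 1) * j * s, by ring⟩
      · apply h2i
        obtain ⟨s, hs⟩ : ∃ s, r = 2 * s := ⟨r / 2, by omega⟩
        have e2 : (r + 1) * (r * (r + 2)) = (2 * Nat.card H) * ((r + 1) * r * j) := by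
          have : (r + 1) * (r * (r + 2)) = (r + 1) * (r * (2 * Nat.card H * j)) := by
            rw [← hj]
          rw [this]; ring
        have e1 : 2 * (Nat.card H * H.index) = (2 * Nat.card H) * H.index := by ring
        rw [e1, e2] at hrelH
        have h5 := Nat.eq_of_mul_eq_mul_left (by omega) hrelH
        rw [h5]
        nth_rewrite 2 [hs]
        exact ⟨(r + 1) * s * j, by ring⟩
    · have hc' : Nat.card H = 2 * Nat.card (psl2Tau_h9 H y) := hc
      have hd := psl2Tau_card_dvd_h9 h2F H hpH y hy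
      rw [← hc', hq1, hq1'] at hd
      rcases hd with hd | hd
      · left
        have h4r : 4 ∣ r := h4H.trans hd
        exact ⟨h3H.trans hd, by omega⟩
      · right; left
        have h4r : 4 ∣ r + 2 := h4H.trans hd
        exact ⟨h3H.trans hd, by omega⟩
    · right; right; left
      have hcH : Nat.card H = 12 := by rw [Nat.card_congr e.toEquiv, card_alt4_h9]
      rw [hcH] at hrelH
      have ha : (r * (r + 2)).factorization 2 = 3 := by
        apply fac_eq_of_h9 _ 2 3 Nat.prime_two hN0 (by norm_num; exact h8N)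
        rintro ⟨j, hj⟩
        rw [hj] at hrelH
        have e : (r + 1) * (2 ^ (3 + 1) * j) = 16 * ((r + 1) * j) := by ring
        rw [e] at hrelH
        omega
      have hb : (r * (r + 2)).factorization 3 = 1 := by
        apply fac_eq_of_h9 _ 3 1 Nat.prime_three hN0 (by norm_num; exact h3N)
        rintro ⟨j, hj⟩
        rw [hj] at hrelH
        have e : (r + 1) * (3 ^ (1 + 1) * j) = 9 * ((r + 1) * j) := by ring
        rw [e] at hrelH
        omega
      rw [ha, hb]; norm_num
    · right; right; right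
      have hcH : Nat.card H = 24 := by rw [Nat.card_congr e.toEquiv, card_perm4_h9]
      rw [hcH] at hrelH
      have h16 : 2 ^ 4 ∣ r * (r + 2) := by
        apply (coprime_two_pow_h9 4 _ hcop2).dvd_of_dvd_mul_left
        rw [← hrelH]
        exact ⟨3 * H.index, by ring⟩
      have ha : (r * (r + 2)).factorization 2 = 4 := by
        apply fac_eq_of_h9 _ 2 4 Nat.prime_two hN0 h16
        rintro ⟨j, hj⟩
        rw [hj] at hrelH
        have e : (r + 1) * (2 ^ (4 + 1) * j) = 32 * ((r + 1) * j) := by ring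
        rw [e] at hrelH
        omega
      have hb : (r * (r + 2)).factorization 3 = 1 := by
        apply fac_eq_of_h9 _ 3 1 Nat.prime_three hN0 (by norm_num; exact h3N)
        rintro ⟨j, hj⟩
        rw [hj] at hrelH
        have e : (r + 1) * (3 ^ (1 + 1) * j) = 9 * ((r + 1) * j) := by ring
        rw [e] at hrelH
        omega
      rw [ha, hb]; norm_num
    · exfalso
      have hcH : Nat.card H = 60 := by rw [Nat.card_congr e.toEquiv, card_A5_h9]
      have := h1 5 (by norm_num) (by rw [hcH]; norm_num)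
      omega
  · rintro (⟨h3, h4⟩ | ⟨h3, h4⟩ | h24 | h48)
    · obtain ⟨k, c, hX, hk, hc2, hc3, hprimes⟩ := part23_h9 r (by omega) (by omega)
      obtain ⟨H, hcH, -⟩ := psl2_dihedral_torus_h9 hodd k hk (Or.inl ⟨c, by rw [hq1]; exact hX⟩)
      have hI : 2 * H.index = c * (r + 1) * (r + 2) := by
        have h5 : (2 * k) * (2 * H.index) = (2 * k) * (c * (r + 1) * (r + 2)) := by
          have h6 := hrel H
          rw [hcH] at h6
          calc (2 * k) * (2 * H.index) = 2 * (2 * k * H.index) := by ring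
            _ = (r + 1) * (r * (r + 2)) := h6
            _ = (r + 1) * ((2 * k * c) * (r + 2)) := by rw [← hX]
            _ = (2 * k) * (c * (r + 1) * (r + 2)) := by ring
        exact Nat.eq_of_mul_eq_mul_left (by omega) h5
      refine ⟨H, hall23_of_h9 H (by rw [hcH]; exact hprimes) ?_ ?_⟩
      · rintro ⟨e, he⟩
        rw [he] at hI
        have hcop : Nat.Coprime (2 ^ 2) (c * (r + 1)) :=
          Nat.Coprime.mul_right (coprime_two_pow_h9 2 c hc2) (coprime_two_pow_h9 2 _ hcop2)
        have : 2 ^ 2 ∣ r + 2 := hcop.dvd_of_dvd_mul_left ⟨e, by omega⟩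
        omega
      · intro h
        have h' : 3 ∣ c * (r + 1) * (r + 2) := by rw [← hI]; exact Dvd.dvd.mul_left h 2
        rcases (Nat.Prime.dvd_mul Nat.prime_three).mp h' with h'' | h''
        · rcases (Nat.Prime.dvd_mul Nat.prime_three).mp h'' with h3' | h3'
          · exact hc3 h3'
          · exact hcop3 h3'
        · omega
    · obtain ⟨k, c, hX, hk, hc2, hc3, hprimes⟩ := part23_h9 (r + 2) (by omega) (by omega)
      obtain ⟨H, hcH, -⟩ := psl2_dihedral_torus_h9 hodd k hk (Or.inr ⟨c, by rw [hq1']; exact hX⟩)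
      have hI : 2 * H.index = c * (r + 1) * r := by
        have h5 : (2 * k) * (2 * H.index) = (2 * k) * (c * (r + 1) * r) := by
          have h6 := hrel H
          rw [hcH] at h6
          calc (2 * k) * (2 * H.index) = 2 * (2 * k * H.index) := by ring
            _ = (r + 1) * (r * (r + 2)) := h6
            _ = (r + 1) * (r * (2 * k * c)) := by rw [← hX]
            _ = (2 * k) * (c * (r + 1) * r) := by ring
        exact Nat.eq_of_mul_eq_mul_left (by omega) h5
      refine ⟨H, hall23_of_h9 H (by rw [hcH]; exact hprimes) ?_ ?_⟩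
      · rintro ⟨e, he⟩
        rw [he] at hI
        have hcop : Nat.Coprime (2 ^ 2) (c * (r + 1)) :=
          Nat.Coprime.mul_right (coprime_two_pow_h9 2 c hc2) (coprime_two_pow_h9 2 _ hcop2)
        have : 2 ^ 2 ∣ r := hcop.dvd_of_dvd_mul_left ⟨e, by omega⟩
        omega
      · intro h
        have h' : 3 ∣ c * (r + 1) * r := by rw [← hI]; exact Dvd.dvd.mul_left h 2
        rcases (Nat.Prime.dvd_mul Nat.prime_three).mp h' with h'' | h''
        · rcases (Nat.Prime.dvd_mul Nat.prime_three).mp h'' with h3' | h3'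
          · exact hc3 h3'
          · exact hcop3 h3'
        · omega
    · obtain ⟨ha, hb⟩ := pow23_eq_24_h9 _ _ h24
      have hn16 : ¬ 2 ^ 4 ∣ r * (r + 2) := by
        have := Nat.pow_succ_factorization_not_dvd hN0 Nat.prime_two
        rwa [ha] at this
      have hn9 : ¬ 3 ^ 2 ∣ r * (r + 2) := by
        have := Nat.pow_succ_factorization_not_dvd hN0 Nat.prime_three
        rwa [hb] at this
      obtain ⟨H, ⟨e⟩⟩ := (Cfsg.Agent.S0802.result p n hcard).mpr (by rintro ⟨h, -⟩; omega)
      have hcH : Nat.card H = 12 := by rw [Nat.card_congr e.toEquiv, card_alt4_h9]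
      have hrelH := hrel H
      rw [hcH] at hrelH
      refine ⟨H, hall23_of_h9 H (by rw [hcH]; exact prime_dvd_12_h9) ?_ ?_⟩
      · rintro ⟨j, hj⟩
        apply hn16
        apply (coprime_two_pow_h9 4 _ hcop2).dvd_of_dvd_mul_left
        rw [← hrelH, hj]
        exact ⟨3 * j, by ring⟩
      · rintro ⟨j, hj⟩
        apply hn9
        apply (coprime_three_pow_h9 2 _ hcop3).dvd_of_dvd_mul_left
        rw [← hrelH, hj]
        exact ⟨8 * j, by ring⟩
    · obtain ⟨ha, hb⟩ := pow23_eq_48_h9 _ _ h48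
      have h16 : 2 ^ 4 ∣ r * (r + 2) :=
        (Nat.Prime.pow_dvd_iff_le_factorization Nat.prime_two hN0).mpr (by omega)
      have hn32 : ¬ 2 ^ 5 ∣ r * (r + 2) := by
        have := Nat.pow_succ_factorization_not_dvd hN0 Nat.prime_two
        rwa [ha] at this
      have hn9 : ¬ 3 ^ 2 ∣ r * (r + 2) := by
        have := Nat.pow_succ_factorization_not_dvd hN0 Nat.prime_three
        rwa [hb] at this
      have hq16 : Fintype.card F ^ 2 % 16 = 1 := by
        have h1 : 1 ≤ Fintype.card F ^ 2 := Nat.one_le_pow _ _ (by omega)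
        obtain ⟨j, hj⟩ := h16
        rw [hj] at hN
        omega
      obtain ⟨H, ⟨e⟩⟩ := (Cfsg.Agent.S0803.result rfl).mpr hq16
      have hcH : Nat.card H = 24 := by rw [Nat.card_congr e.toEquiv, card_perm4_h9]
      have hrelH := hrel H
      rw [hcH] at hrelH
      refine ⟨H, hall23_of_h9 H (by rw [hcH]; exact prime_dvd_24_h9) ?_ ?_⟩
      · rintro ⟨j, hj⟩
        apply hn32
        apply (coprime_two_pow_h9 5 _ hcop2).dvd_of_dvd_mul_left
        rw [← hrelH, hj]
        exact ⟨3 * j, by ring⟩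
      · rintro ⟨j, hj⟩
        apply hn9
        apply (coprime_three_pow_h9 2 _ hcop3).dvd_of_dvd_mul_left
        rw [← hrelH, hj]
        exact ⟨16 * j, by ring⟩

end Cfsg.Agent.S2537
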