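import Cfsg.Statements.S2541

set_option autoImplicit false
open Cfsg

namespace Cfsg.Agent.S2541

/-- the diagonal embedding `a ↦ diag(a, 1)`. -/
def dhom (F : Type*) [Field F] : F →* Matrix (Fin 2) (Fin 2) F where
  toFun a := Matrix.diagonal ![a, 1]
  map_one' := by
    ext i j
    fin_cases i <;> fin_cases j <;> simp
  map_mul' a b := by
    rw [Matrix.diagonal_mul_diagonal]
    congr 1
    ext i
    fin_cases i <;> simp

theorem no_order_eight (σ : Equiv.Perm (Fin 6)) : orderOf σ ≠ 8 := by
  intro h
  rw [← Equiv.Perm.lcm_cycleType] at h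
  have hsum := Equiv.Perm.sum_cycleType_le σ
  rw [Fintype.card_fin] at hsum
  have h4 : σ.cycleType.lcm ∣ 4 := by
    rw [Multiset.lcm_dvd]
    intro a ha
    have h1 : a ∣ 8 := by rw [← h]; exact Multiset.dvd_lcm ha
    have h2 : a ≤ 6 := (Multiset.le_sum_of_mem ha).trans hsum
    have key : ∀ a : ℕ, a ≤ 6 → a ∣ 8 → a ∣ 4 := by decide
    exact key a h2 h1
  rw [h] at h4
  exact absurd h4 (by decide)

/-- Let F be a field with 9 elements. The symmetric group S_6 is not isomorphic to PGL_2(F) (although both have index-2 subgroups isomorphic to A_6). -/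
theorem result {F : Type*} [Field F] [Fintype F] (hF : Fintype.card F = 9) : ¬ Nonempty (Equiv.Perm (Fin 6) ≃* Matrix.ProjGenLinGroup (Fin 2) F) := by
  classical
  rintro ⟨e⟩
  let φ : Fˣ →* Matrix.ProjGenLinGroup (Fin 2) F :=
    Matrix.ProjGenLinGroup.mk.comp (Units.map (dhom F))
  have hφ : Function.Injective φ := by
    rw [injective_iff_map_eq_one]
    intro u hu
    have h1 : Units.map (dhom F) u ∈ Subgroup.center (Matrix.GeneralLinearGroup (Fin 2) F) := by
      rw [← Matrix.ProjGenLinGroup.mk_eq_one]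
      exact hu
    rw [Matrix.GeneralLinearGroup.center_eq_range_scalar] at h1
    obtain ⟨v, hv⟩ := h1
    have h2 : (Matrix.scalar (Fin 2) (v : F) : Matrix (Fin 2) (Fin 2) F) = Matrix.diagonal ![(u : F), 1] := by
      have := congrArg (fun g : Matrix.GeneralLinearGroup (Fin 2) F => (g : Matrix (Fin 2) (Fin 2) F)) hv
      simpa [dhom] using this
    have h11 := congrFun (congrFun h2 1) 1
    have h00 := congrFun (congrFun h2 0) 0
    simp at h11 h00
    apply Units.ext
    rw [← h00, h11]
  obtain ⟨ζ, hζ⟩ := IsCyclic.exists_generator (α := Fˣ)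
  have hord : orderOf ζ = 8 := by
    rw [orderOf_eq_card_of_forall_mem_zpowers hζ, Nat.card_eq_fintype_card, Fintype.card_units, hF]
  have h8 : orderOf (e.symm (φ ζ)) = 8 := by
    rw [MulEquiv.orderOf_eq, orderOf_injective φ hφ, hord]
  exact no_order_eight _ h8

end Cfsg.Agent.S2541
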