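import Cfsg.Statements.S2542
import Cfsg.Agent.Helper9.Ico8

set_option autoImplicit false
open Cfsg

namespace Cfsg.Agent.S2542

open Cfsg.Agent.Helper9

theorem result {F : Type*} [Field F] [Fintype F] (hF : Fintype.card F = 11) : ∃ H : Subgroup (Matrix.ProjectiveSpecialLinearGroup (Fin 2) F), H.index = 11 ∧ Nonempty (H ≃* alternatingGroup (Fin 5)) ∧ MulAction.IsMultiplyPretransitive (Matrix.ProjectiveSpecialLinearGroup (Fin 2) F) ((Matrix.ProjectiveSpecialLinearGroup (Fin 2) F) ⧸ H) 2 := by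
  have hodd : Fintype.card F % 2 = 1 := by rw [hF]
  obtain ⟨H, ⟨e⟩⟩ := psl2_A5_odd_h9 hodd (by rw [hF]; norm_num)
  have hH : Nat.card H = 60 := by rw [Nat.card_congr e.toEquiv, card_A5_h9]
  obtain ⟨r, hr, hP⟩ := psl2_card_odd_h9 hodd
  have hr10 : r = 10 := by omega
  subst hr10
  have hG : Nat.card (Matrix.ProjectiveSpecialLinearGroup (Fin 2) F) = 660 := by omega
  have hidx : H.index = 11 := by
    have := Subgroup.card_mul_index H
    rw [hH, hG] at this
    omega
  refine ⟨H, hidx, ⟨e⟩, ?_⟩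
  haveI : Finite (Matrix.ProjectiveSpecialLinearGroup (Fin 2) F) :=
    Nat.finite_of_card_ne_zero (by rw [hG]; norm_num)
  exact coset_two_trans_h9 H (by rw [hidx]; norm_num) e (psl2_11_not_normal_h9 hF H hH hidx)

end Cfsg.Agent.S2542
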