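import Cfsg.Statements.S2543
import Cfsg.Agent.Helper9.Pa2
import Cfsg.Agent.Helper9.Pa3
import Cfsg.Agent.Helper9.Pa4

set_option autoImplicit false
open scoped Pointwise
open Cfsg

namespace Cfsg.Agent.S2543

open Cfsg.Agent.Helper9

theorem result {F : Type*} [Field F] [Fintype F] (hF : Fintype.card F = 11) : Nat.card {H : Subgroup (Matrix.ProjectiveSpecialLinearGroup (Fin 2) F) // Nonempty (H ≃* alternatingGroup (Fin 5))} = 22 ∧ ∃ H K : Subgroup (Matrix.ProjectiveSpecialLinearGroup (Fin 2) F), Nonempty (H ≃* alternatingGroup (Fin 5)) ∧ Nonempty (K ≃* alternatingGroup (Fin 5)) ∧ (∀ g : Matrix.ProjectiveSpecialLinearGroup (Fin 2) F, MulAut.conj g • H ≠ K) ∧ ∀ L : Subgroup (Matrix.ProjectiveSpecialLinearGroup (Fin 2) F), Nonempty (L ≃* alternatingGroup (Fin 5)) → ∃ g : Matrix.ProjectiveSpecialLinearGroup (Fin 2) F, MulAut.conj g • L = H ∨ MulAut.conj g • L = K := by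
  obtain ⟨H₁, H₂, V₀, ⟨e₁⟩, ⟨e₂⟩, hne, hV, h1, h2⟩ := psl2_11_pair_h9 hF
  have hP := psl2_11_prof_h9 hF
  have : Finite (Matrix.ProjectiveSpecialLinearGroup (Fin 2) F) :=
    Nat.finite_of_card_ne_zero (by rw [hP.1]; norm_num)
  obtain ⟨hcount, hnc, hall⟩ := p660_main_h9 hP H₁ H₂ V₀ e₁ e₂ hne hV h1 h2
  exact ⟨hcount, H₁, H₂, ⟨e₁⟩, ⟨e₂⟩, hnc, hall⟩

end Cfsg.Agent.S2543
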