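import Cfsg.Statements.S2572
import Mathlib

set_option autoImplicit false
open Cfsg

namespace Cfsg.Agent.S2572

open Matrix

variable {F : Type*} [Field F]

/-- the standard nilpotent `E₁₀` -/
def E (F : Type*) [Field F] (k : ℕ) : Matrix (Fin (k+2)) (Fin (k+2)) F := Matrix.single 1 0 1

def mkM {k : ℕ} (c a : F) (r s : Fin k → F) (H : Matrix (Fin k) (Fin k) F) :
    Matrix (Fin (k+2)) (Fin (k+2)) F :=
  Matrix.of (fun i j => Fin.cases (motive := fun _ => F) (Fin.cases (motive := fun _ => F) c (fun _ => 0) j)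
    (fun i' => Fin.cases (motive := fun _ => F)
      (Fin.cases (motive := fun _ => F) a (fun j' => Fin.cases (motive := fun _ => F) c (fun j'' => r j'') j') j)
      (fun i'' => Fin.cases (motive := fun _ => F) (s i'')
        (fun j' => Fin.cases (motive := fun _ => F) 0 (fun j'' => H i'' j'') j') j) i') i)

section entries
variable {k : ℕ} (c a : F) (r s : Fin k → F) (H : Matrix (Fin k) (Fin k) F)

@[simp] lemma mkM_00 : mkM c a r s H 0 0 = c := rfl
@[simp] lemma mkM_0s (j : Fin (k+1)) : mkM c a r s H 0 j.succ = 0 := rfl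
@[simp] lemma mkM_01 : mkM c a r s H 0 1 = 0 := rfl
@[simp] lemma mkM_10 : mkM c a r s H 1 0 = a := rfl
@[simp] lemma mkM_11 : mkM c a r s H 1 1 = c := rfl
@[simp] lemma mkM_1s (j : Fin k) : mkM c a r s H 1 j.succ.succ = r j := rfl
@[simp] lemma mkM_s0 (i : Fin k) : mkM c a r s H i.succ.succ 0 = s i := rfl
@[simp] lemma mkM_s1 (i : Fin k) : mkM c a r s H i.succ.succ 1 = 0 := rfl
@[simp] lemma mkM_ss (i j : Fin k) : mkM c a r s H i.succ.succ j.succ.succ = H i j := rfl

end entries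

lemma mul_E {k : ℕ} (g : Matrix (Fin (k+2)) (Fin (k+2)) F) (i j : Fin (k+2)) :
    (g * E F k) i j = if j = 0 then g i 1 else 0 := by
  by_cases hj : j = 0
  · subst hj
    rw [if_pos rfl, show E F k = Matrix.single 1 0 1 from rfl, Matrix.mul_single_apply_same, mul_one]
  · rw [if_neg hj, show E F k = Matrix.single 1 0 1 from rfl, Matrix.mul_single_apply_of_ne _ _ _ _ _ hj]

lemma E_mul {k : ℕ} (g : Matrix (Fin (k+2)) (Fin (k+2)) F) (i j : Fin (k+2)) :
    (E F k * g) i j = if i = 1 then g 0 j else 0 := by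
  by_cases hi : i = 1
  · subst hi
    rw [if_pos rfl, show E F k = Matrix.single 1 0 1 from rfl, Matrix.single_mul_apply_same, one_mul]
  · rw [if_neg hi, show E F k = Matrix.single 1 0 1 from rfl, Matrix.single_mul_apply_of_ne _ _ _ _ _ hi]

lemma ss_ne_one {k : ℕ} (i : Fin k) : (i.succ.succ : Fin (k+2)) ≠ 1 :=
  fun h => Fin.succ_ne_zero i (Fin.succ_injective _ h)

lemma mkM_comm {k : ℕ} (c a : F) (r s : Fin k → F) (H : Matrix (Fin k) (Fin k) F) :
    mkM c a r s H * E F k = E F k * mkM c a r s H := by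
  ext i j
  rw [mul_E, E_mul]
  rcases Fin.eq_zero_or_eq_succ j with rfl | ⟨j', rfl⟩
  · rw [if_pos rfl]
    rcases Fin.eq_zero_or_eq_succ i with rfl | ⟨i', rfl⟩
    · rw [if_neg (by exact (Fin.succ_ne_zero (0 : Fin (k+1))).symm)]; simp
    · rcases Fin.eq_zero_or_eq_succ i' with rfl | ⟨i'', rfl⟩
      · rw [if_pos (show Fin.succ (0 : Fin (k+1)) = 1 from rfl)]; simp
      · rw [if_neg (ss_ne_one i'')]; simp
  · rw [if_neg (Fin.succ_ne_zero _)]
    split_ifs <;> simp

lemma eq_mkM_of_comm {k : ℕ} (g : Matrix (Fin (k+2)) (Fin (k+2)) F) (h : g * E F k = E F k * g) :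
    g = mkM (g 0 0) (g 1 0) (fun j => g 1 j.succ.succ) (fun i => g i.succ.succ 0)
      (g.submatrix (fun i => i.succ.succ) (fun j => j.succ.succ)) := by
  have key : ∀ i j, (if j = 0 then g i 1 else 0) = (if i = 1 then g 0 j else 0) := by
    intro i j
    rw [← mul_E, ← E_mul, h]
  ext i j
  rcases Fin.eq_zero_or_eq_succ i with rfl | ⟨i', rfl⟩
  · rcases Fin.eq_zero_or_eq_succ j with rfl | ⟨j', rfl⟩
    · simp
    · have h1 := key 1 j'.succ
      rw [if_neg (Fin.succ_ne_zero _), if_pos rfl] at h1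
      rw [← h1]; simp
  · rcases Fin.eq_zero_or_eq_succ i' with rfl | ⟨i'', rfl⟩
    · rcases Fin.eq_zero_or_eq_succ j with rfl | ⟨j', rfl⟩
      · simp
      · rcases Fin.eq_zero_or_eq_succ j' with rfl | ⟨j'', rfl⟩
        · have h1 := key 1 0
          rw [if_pos rfl, if_pos rfl] at h1
          simp [h1]
        · simp
    · rcases Fin.eq_zero_or_eq_succ j with rfl | ⟨j', rfl⟩
      · simp
      · rcases Fin.eq_zero_or_eq_succ j' with rfl | ⟨j'', rfl⟩
        · have h1 := key i''.succ.succ 0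
          rw [if_pos rfl, if_neg (ss_ne_one i'')] at h1
          simp [h1]
        · simp

lemma det_mkM {k : ℕ} (c a : F) (r s : Fin k → F) (H : Matrix (Fin k) (Fin k) F) :
    (mkM c a r s H).det = c * c * H.det := by
  rw [Matrix.det_succ_row_zero, Fin.sum_univ_succ, Finset.sum_eq_zero, add_zero]
  · rw [Matrix.det_succ_column_zero, Fin.sum_univ_succ, Finset.sum_eq_zero, add_zero]
    · have hH : ((mkM c a r s H).submatrix Fin.succ (Fin.succAbove 0)).submatrix (Fin.succAbove 0) Fin.succ = H := by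
        ext i j
        simp
      rw [hH]
      simp
      ring
    · intro i _
      simp
  · intro j _
    simp

section count
variable [Fintype F]

lemma card_comm (k : ℕ) :
    Nat.card {g : GL (Fin (k+2)) F // (g : Matrix (Fin (k+2)) (Fin (k+2)) F) * E F k = E F k * g} =
      (Fintype.card F - 1) * (Fintype.card F * (Fintype.card F ^ k * (Fintype.card F ^ k *
        ∏ i : Fin k, (Fintype.card F ^ k - Fintype.card F ^ (i : ℕ))))) := by
  have hcard : Nat.card (Fˣ × F × (Fin k → F) × (Fin k → F) × GL (Fin k) F) =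
      (Fintype.card F - 1) * (Fintype.card F * (Fintype.card F ^ k * (Fintype.card F ^ k *
        ∏ i : Fin k, (Fintype.card F ^ k - Fintype.card F ^ (i : ℕ))))) := by
    rw [Nat.card_prod, Nat.card_prod, Nat.card_prod, Nat.card_prod, Nat.card_units, Nat.card_fun,
      Matrix.card_GL_field, Nat.card_eq_fintype_card, Nat.card_fin]
  rw [← hcard]
  symm
  let Φ : (Fˣ × F × (Fin k → F) × (Fin k → F) × GL (Fin k) F) →
      {g : GL (Fin (k+2)) F // (g : Matrix (Fin (k+2)) (Fin (k+2)) F) * E F k = E F k * g} :=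
    fun x => ⟨Matrix.GeneralLinearGroup.mkOfDetNeZero
      (mkM (x.1 : F) x.2.1 x.2.2.1 x.2.2.2.1 (x.2.2.2.2 : Matrix (Fin k) (Fin k) F))
      (by
        rw [det_mkM]
        exact mul_ne_zero (mul_ne_zero x.1.ne_zero x.1.ne_zero) (Matrix.isUnits_det_units x.2.2.2.2).ne_zero),
      mkM_comm _ _ _ _ _⟩
  have hΦ : ∀ x, (((Φ x).1 : GL (Fin (k+2)) F) : Matrix (Fin (k+2)) (Fin (k+2)) F) =
      mkM (x.1 : F) x.2.1 x.2.2.1 x.2.2.2.1 (x.2.2.2.2 : Matrix (Fin k) (Fin k) F) := fun x => rfl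
  apply Nat.card_congr
  apply Equiv.ofBijective Φ
  constructor
  · intro x y hxy
    have h : mkM (x.1 : F) x.2.1 x.2.2.1 x.2.2.2.1 (x.2.2.2.2 : Matrix (Fin k) (Fin k) F) =
        mkM (y.1 : F) y.2.1 y.2.2.1 y.2.2.2.1 (y.2.2.2.2 : Matrix (Fin k) (Fin k) F) := by
      rw [← hΦ, ← hΦ, hxy]
    obtain ⟨c, a, r, s, H⟩ := x
    obtain ⟨c', a', r', s', H'⟩ := y
    have h1 : (c : F) = c' := by simpa using congrFun (congrFun h 0) 0
    have h2 : a = a' := by simpa using congrFun (congrFun h (Fin.succ 0)) 0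
    have h3 : r = r' := by
      funext j
      simpa using congrFun (congrFun h (Fin.succ 0)) j.succ.succ
    have h4 : s = s' := by
      funext i
      simpa using congrFun (congrFun h i.succ.succ) 0
    have h5 : H = H' := by
      apply Units.ext
      ext i j
      simpa using congrFun (congrFun h i.succ.succ) j.succ.succ
    rw [Units.ext h1, h2, h3, h4, h5]
  · rintro ⟨g, hg⟩
    have hm := eq_mkM_of_comm _ hg
    have hdet : (g : Matrix (Fin (k+2)) (Fin (k+2)) F).det ≠ 0 := (Matrix.isUnits_det_units g).ne_zero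
    rw [hm, det_mkM] at hdet
    have hc : (g : Matrix (Fin (k+2)) (Fin (k+2)) F) 0 0 ≠ 0 := fun h0 => hdet (by rw [h0]; ring)
    have hH : ((g : Matrix (Fin (k+2)) (Fin (k+2)) F).submatrix (fun i : Fin k => i.succ.succ) (fun j : Fin k => j.succ.succ)).det ≠ 0 :=
      fun h0 => hdet (by rw [h0]; ring)
    refine ⟨(Units.mk0 _ hc, (g : Matrix (Fin (k+2)) (Fin (k+2)) F) (Fin.succ 0) 0,
      (fun j => (g : Matrix (Fin (k+2)) (Fin (k+2)) F) (Fin.succ 0) j.succ.succ),
      (fun i => (g : Matrix (Fin (k+2)) (Fin (k+2)) F) i.succ.succ 0),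
      Matrix.GeneralLinearGroup.mkOfDetNeZero _ hH), ?_⟩
    apply Subtype.ext
    apply Units.ext
    rw [hΦ]
    exact hm.symm

end count

lemma rank_one_decomp {n : ℕ} (N : Matrix (Fin n) (Fin n) F) (h1 : N.rank = 1) (h2 : N * N = 0) :
    ∃ (u φ : Fin n → F) (i₀ j₀ : Fin n), u i₀ ≠ 0 ∧ φ j₀ = 1 ∧ (∀ i j, N i j = u i * φ j) ∧ φ ⬝ᵥ u = 0 := by
  have hN : N ≠ 0 := by
    rintro rfl
    rw [Matrix.rank_zero] at h1
    exact zero_ne_one h1
  obtain ⟨i₀, j₀, h0⟩ : ∃ i j, N i j ≠ 0 := by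
    by_contra hcon
    push Not at hcon
    exact hN (by ext i j; exact hcon i j)
  obtain ⟨u, hu_def⟩ : ∃ u : Fin n → F, u = fun i => N i j₀ := ⟨_, rfl⟩
  have hui : u i₀ = N i₀ j₀ := by rw [hu_def]
  have hu : u ≠ 0 := fun h => h0 (by rw [← hui, h]; rfl)
  have hcol : ∀ j, (fun i => N i j) ∈ LinearMap.range N.mulVecLin := by
    intro j
    refine ⟨Pi.single j 1, ?_⟩
    ext i
    simp
  have hrange : LinearMap.range N.mulVecLin = Submodule.span F {u} := by
    symm
    apply Submodule.eq_of_le_of_finrank_eq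
    · rw [Submodule.span_singleton_le_iff_mem, hu_def]
      exact hcol j₀
    · rw [finrank_span_singleton hu]
      exact h1.symm
  have hex : ∀ j, ∃ a : F, a • u = fun i => N i j := by
    intro j
    have := hcol j
    rw [hrange] at this
    exact Submodule.mem_span_singleton.mp this
  choose φ hφ using hex
  have hN' : ∀ i j, N i j = u i * φ j := by
    intro i j
    have := congrFun (hφ j) i
    rw [Pi.smul_apply, smul_eq_mul] at this
    rw [← this, mul_comm]
  have hφ0 : φ j₀ = 1 := by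
    have h3 := hN' i₀ j₀
    rw [hui] at h3
    have h4 : N i₀ j₀ * (φ j₀ - 1) = 0 := by linear_combination (-1 : F) * h3
    exact sub_eq_zero.mp ((mul_eq_zero.mp h4).resolve_left h0)
  refine ⟨u, φ, i₀, j₀, by rw [hui]; exact h0, hφ0, hN', ?_⟩
  have h4 := congrFun (congrFun h2 i₀) j₀
  rw [Matrix.mul_apply] at h4
  have h5 : ∑ l, N i₀ l * N l j₀ = u i₀ * (φ ⬝ᵥ u) := by
    rw [dotProduct, Finset.mul_sum]
    apply Finset.sum_congr rfl
    intro l _
    rw [hN' i₀ l, hN' l j₀, hφ0]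
    ring
  rw [h5] at h4
  exact (mul_eq_zero.mp h4).resolve_left (by rw [hui]; exact h0)

lemma normal_form {k : ℕ} (N : Matrix (Fin (k+2)) (Fin (k+2)) F) (u φ : Fin (k+2) → F)
    (i₀ j₀ : Fin (k+2)) (hu : u i₀ ≠ 0) (hφ : φ j₀ = 1) (hN : ∀ i j, N i j = u i * φ j)
    (hd : φ ⬝ᵥ u = 0) :
    ∃ P Q : Matrix (Fin (k+2)) (Fin (k+2)) F, P * Q = 1 ∧ Q * P = 1 ∧ N * P = P * E F k := by
  let φ' : (Fin (k+2) → F) →ₗ[F] F :=
    { toFun := fun x => φ ⬝ᵥ x
      map_add' := fun x y => dotProduct_add φ x y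
      map_smul' := fun c x => by simp [dotProduct_smul] }
  let ψ : (Fin (k+2) → F) →ₗ[F] F := LinearMap.proj i₀
  let f : (Fin (k+2) → F) →ₗ[F] F × F := φ'.prod ψ
  have hker : k ≤ Module.finrank F (LinearMap.ker f) := by
    have h1 := LinearMap.finrank_range_add_finrank_ker f
    have h2 : Module.finrank F (LinearMap.range f) ≤ 2 := by
      have := Submodule.finrank_le (LinearMap.range f)
      simpa using this
    have h3 : Module.finrank F (Fin (k+2) → F) = k + 2 := by simp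
    omega
  let b := Module.finBasis F (LinearMap.ker f)
  let c : Fin k → (Fin (k+2) → F) := fun j => ((b (Fin.castLE hker j) : LinearMap.ker f) : Fin (k+2) → F)
  have hc : LinearIndependent F c := by
    have h1 : LinearIndependent F (fun j : Fin k => b (Fin.castLE hker j)) :=
      b.linearIndependent.comp _ (Fin.castLE_injective hker)
    exact h1.map' (LinearMap.ker f).subtype (Submodule.ker_subtype _)
  have hcmem : ∀ j, φ ⬝ᵥ c j = 0 ∧ c j i₀ = 0 := by
    intro j
    have h1 : f (c j) = 0 := LinearMap.mem_ker.mp (b (Fin.castLE hker j)).2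
    have h2 : (φ ⬝ᵥ c j, c j i₀) = ((0 : F), (0 : F)) := h1
    exact Prod.mk.inj h2
  have hu_notin : u ∉ Submodule.span F (Set.range c) := by
    intro h
    have hle : Submodule.span F (Set.range c) ≤ LinearMap.ker ψ := by
      rw [Submodule.span_le]
      rintro _ ⟨j, rfl⟩
      exact LinearMap.mem_ker.mpr (hcmem j).2
    exact hu (LinearMap.mem_ker.mp (hle h))
  have h1 : LinearIndependent F (Fin.cons u c : Fin (k+1) → (Fin (k+2) → F)) :=
    linearIndependent_finCons.mpr ⟨hc, hu_notin⟩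
  have hv₀ : φ ⬝ᵥ (Pi.single j₀ 1 : Fin (k+2) → F) = 1 := by
    rw [dotProduct_single, hφ, mul_one]
  have hv_notin : (Pi.single j₀ 1 : Fin (k+2) → F) ∉
      Submodule.span F (Set.range (Fin.cons u c : Fin (k+1) → (Fin (k+2) → F))) := by
    intro h
    have hle : Submodule.span F (Set.range (Fin.cons u c : Fin (k+1) → (Fin (k+2) → F))) ≤ LinearMap.ker φ' := by
      rw [Submodule.span_le]
      rintro _ ⟨j, rfl⟩
      refine Fin.cases ?_ (fun j' => ?_) j
      · rw [Fin.cons_zero]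
        exact LinearMap.mem_ker.mpr hd
      · rw [Fin.cons_succ]
        exact LinearMap.mem_ker.mpr (hcmem j').1
    have h0 : φ ⬝ᵥ (Pi.single j₀ 1 : Fin (k+2) → F) = 0 := LinearMap.mem_ker.mp (hle h)
    exact one_ne_zero (hv₀.symm.trans h0)
  have h2 : LinearIndependent F
      (Fin.cons (Pi.single j₀ 1 : Fin (k+2) → F) (Fin.cons u c) : Fin (k+2) → (Fin (k+2) → F)) :=
    linearIndependent_finCons.mpr ⟨h1, hv_notin⟩
  let bB := basisOfLinearIndependentOfCardEqFinrank h2 (by simp)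
  have hbB : ∀ j, bB j = (Fin.cons (Pi.single j₀ 1 : Fin (k+2) → F) (Fin.cons u c) : Fin (k+2) → (Fin (k+2) → F)) j := by
    intro j
    simp [bB]
  refine ⟨(Pi.basisFun F (Fin (k+2))).toMatrix bB, bB.toMatrix (Pi.basisFun F (Fin (k+2))),
    Module.Basis.toMatrix_mul_toMatrix_flip _ _, Module.Basis.toMatrix_mul_toMatrix_flip _ _, ?_⟩
  have hP : ∀ i j, (Pi.basisFun F (Fin (k+2))).toMatrix bB i j =
      (Fin.cons (Pi.single j₀ 1 : Fin (k+2) → F) (Fin.cons u c) : Fin (k+2) → (Fin (k+2) → F)) j i := by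
    intro i j
    rw [Module.Basis.toMatrix_apply, Pi.basisFun_repr, hbB]
  ext i j
  have hL : (N * (Pi.basisFun F (Fin (k+2))).toMatrix bB) i j =
      u i * (φ ⬝ᵥ (Fin.cons (Pi.single j₀ 1 : Fin (k+2) → F) (Fin.cons u c) : Fin (k+2) → (Fin (k+2) → F)) j) := by
    rw [Matrix.mul_apply, dotProduct, Finset.mul_sum]
    apply Finset.sum_congr rfl
    intro l _
    rw [hN, hP]
    ring
  rw [hL, mul_E]
  rcases Fin.eq_zero_or_eq_succ j with rfl | ⟨j', rfl⟩
  · rw [if_pos rfl, hP, Fin.cons_zero, hv₀, mul_one]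
    rfl
  · rw [if_neg (Fin.succ_ne_zero j'), Fin.cons_succ]
    refine Fin.cases ?_ (fun j'' => ?_) j'
    · rw [Fin.cons_zero, hd, mul_zero]
    · rw [Fin.cons_succ, (hcmem j'').1, mul_zero]

lemma card_centralizer_conj {G : Type*} [Group G] (t p : G) :
    Nat.card (Subgroup.centralizer {p⁻¹ * t * p}) = Nat.card (Subgroup.centralizer {t}) := by
  apply Nat.card_congr
  refine ⟨fun g => ⟨p * g.1 * p⁻¹, ?_⟩, fun g => ⟨p⁻¹ * g.1 * p, ?_⟩, ?_, ?_⟩
  · have h := Subgroup.mem_centralizer_singleton_iff.mp g.2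
    rw [Subgroup.mem_centralizer_singleton_iff]
    have h' : g.1 * p⁻¹ * t = p⁻¹ * t * p * g.1 * p⁻¹ := by
      have := congrArg (· * p⁻¹) h
      simpa [mul_assoc] using this
    calc p * g.1 * p⁻¹ * t = p * (g.1 * p⁻¹ * t) := by group
      _ = p * (p⁻¹ * t * p * g.1 * p⁻¹) := by rw [h']
      _ = t * (p * g.1 * p⁻¹) := by group
  · have h := Subgroup.mem_centralizer_singleton_iff.mp g.2
    rw [Subgroup.mem_centralizer_singleton_iff]
    calc p⁻¹ * g.1 * p * (p⁻¹ * t * p) = p⁻¹ * (g.1 * t) * p := by group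
      _ = p⁻¹ * (t * g.1) * p := by rw [h]
      _ = p⁻¹ * t * p * (p⁻¹ * g.1 * p) := by group
  · intro g
    apply Subtype.ext
    show p⁻¹ * (p * g.1 * p⁻¹) * p = g.1
    group
  · intro g
    apply Subtype.ext
    show p * (p⁻¹ * g.1 * p) * p⁻¹ = g.1
    group

/-- Centraliser of a transvection in GL_n(q), n ≥ 2: if t − 1 has rank one and square zero, the centraliser of t in GL_n(q) has order q^(2n−3) (q − 1) |GL_(n−2)(q)| (a group of order q^(2n−3) extended by GL_1(q) × GL_(n−2)(q)). -/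
theorem result {F : Type*} [Field F] [Fintype F] {q n : ℕ} (hF : Fintype.card F = q) (hn : 2 ≤ n) (t : GL (Fin n) F) (ht : Cfsg.IsTransvection (t : Matrix (Fin n) (Fin n) F)) : Nat.card ↥(Subgroup.centralizer ({t} : Set (GL (Fin n) F))) = q ^ (2 * n - 3) * (q - 1) * ∏ i : Fin (n - 2), (q ^ (n - 2) - q ^ (i : ℕ)) := by
  obtain ⟨k, rfl⟩ : ∃ k, n = k + 2 := ⟨n - 2, by omega⟩
  obtain ⟨h1, h2⟩ := ht
  obtain ⟨u, φ, i₀, j₀, hu, hφ, hN, hd⟩ := rank_one_decomp _ h1 h2
  obtain ⟨P, Q, hPQ, hQP, hNP⟩ := normal_form _ u φ i₀ j₀ hu hφ hN hd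
  let Pu : GL (Fin (k+2)) F := ⟨P, Q, hPQ, hQP⟩
  have hT : ((Pu⁻¹ * t * Pu : GL (Fin (k+2)) F) : Matrix (Fin (k+2)) (Fin (k+2)) F) = 1 + E F k := by
    show Q * (t : Matrix (Fin (k+2)) (Fin (k+2)) F) * P = 1 + E F k
    have ht' : (t : Matrix (Fin (k+2)) (Fin (k+2)) F) = 1 + ((t : Matrix (Fin (k+2)) (Fin (k+2)) F) - 1) := by
      abel
    rw [ht', Matrix.mul_add, Matrix.add_mul, Matrix.mul_one, hQP, Matrix.mul_assoc, hNP,
      ← Matrix.mul_assoc, hQP, Matrix.one_mul]
  rw [← card_centralizer_conj t Pu]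
  have hmem : ∀ g : GL (Fin (k+2)) F, g ∈ Subgroup.centralizer {Pu⁻¹ * t * Pu} ↔
      (g : Matrix (Fin (k+2)) (Fin (k+2)) F) * E F k = E F k * g := by
    intro g
    rw [Subgroup.mem_centralizer_singleton_iff, Units.ext_iff]
    show (g : Matrix (Fin (k+2)) (Fin (k+2)) F) * ((Pu⁻¹ * t * Pu : GL (Fin (k+2)) F) : Matrix (Fin (k+2)) (Fin (k+2)) F) =
      ((Pu⁻¹ * t * Pu : GL (Fin (k+2)) F) : Matrix (Fin (k+2)) (Fin (k+2)) F) * (g : Matrix (Fin (k+2)) (Fin (k+2)) F) ↔ _
    rw [hT, Matrix.mul_add, Matrix.add_mul, Matrix.mul_one, Matrix.one_mul]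
    exact add_right_inj _
  rw [Nat.card_congr (Equiv.subtypeEquivRight hmem), card_comm, hF]
  have e1 : 2 * (k + 2) - 3 = 2 * k + 1 := by omega
  rw [e1]
  show (q - 1) * (q * (q ^ k * (q ^ k * ∏ i : Fin k, (q ^ k - q ^ (i : ℕ))))) =
    q ^ (2 * k + 1) * (q - 1) * ∏ i : Fin k, (q ^ k - q ^ (i : ℕ))
  ring

end Cfsg.Agent.S2572
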