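import Cfsg.Statements.S2550
import Mathlib
import Cfsg.Agent.S0242
import Cfsg.Agent.S2572

set_option autoImplicit false
open Cfsg

namespace Cfsg.Agent.S2550

open Matrix

section general
variable {K : Type*} [Field K]

lemma rank_eq_one_of_sq_zero (N : Matrix (Fin 3) (Fin 3) K) (hN : N ≠ 0) (hNN : N * N = 0) :
    N.rank = 1 := by
  have h1 := LinearMap.finrank_range_add_finrank_ker N.mulVecLin
  have hle : LinearMap.range N.mulVecLin ≤ LinearMap.ker N.mulVecLin := by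
    rintro _ ⟨y, rfl⟩
    rw [LinearMap.mem_ker]
    show N *ᵥ (N *ᵥ y) = 0
    rw [Matrix.mulVec_mulVec, hNN, Matrix.zero_mulVec]
  have h2 := Submodule.finrank_mono hle
  have h3 : Module.finrank K (Fin 3 → K) = 3 := by simp
  have h4 : Module.finrank K (LinearMap.range N.mulVecLin) ≠ 0 := by
    intro h0
    rw [Submodule.finrank_eq_zero] at h0
    apply hN
    ext i j
    have hmem : N *ᵥ (Pi.single j 1) ∈ LinearMap.range N.mulVecLin := ⟨_, rfl⟩
    rw [h0, Submodule.mem_bot] at hmem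
    have := congrFun hmem i
    simpa using this
  show Module.finrank K (LinearMap.range N.mulVecLin) = 1
  omega

end general

section psl3
variable {K : Type*} [Field K] [Fintype K]

lemma two_eq_zero (hK : Fintype.card K = 4) : (2 : K) = 0 := by
  have h4 : ((Fintype.card K : ℕ) : K) = 0 := Nat.cast_card_eq_zero K
  rw [hK] at h4
  have : (2 : K) * 2 = 0 := by
    have : ((4 : ℕ) : K) = 2 * 2 := by norm_num
    rw [← this]; exact h4
  exact mul_self_eq_zero.mp this

lemma cube_eq_one (hK : Fintype.card K = 4) (c : K) (hc : c ≠ 0) : c ^ 3 = 1 := by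
  have := FiniteField.pow_card_sub_one_eq_one c hc
  rw [hK] at this
  exact this

lemma fourth_scalar (hK : Fintype.card K = 4) (G' : Matrix (Fin 3) (Fin 3) K)
    (hcomm : G' * Cfsg.Agent.S2572.E K 1 = Cfsg.Agent.S2572.E K 1 * G') (hdet : G'.det = 1) :
    ∃ c : K, c ^ 3 = 1 ∧ G' ^ 4 = c • (1 : Matrix (Fin 3) (Fin 3) K) := by
  have two := two_eq_zero hK
  have hm := Cfsg.Agent.S2572.eq_mkM_of_comm (k := 1) G' hcomm
  have hd := hdet
  rw [hm, Cfsg.Agent.S2572.det_mkM, Matrix.det_unique] at hd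
  obtain ⟨c, hc_def⟩ : ∃ c : K, c = G' 0 0 := ⟨_, rfl⟩
  obtain ⟨d, hd_def⟩ : ∃ d : K, d = G' 2 2 := ⟨_, rfl⟩
  have hd' : c * c * d = 1 := by
    rw [hc_def, hd_def]
    exact hd
  have hc0 : c ≠ 0 := by
    rintro rfl
    simp at hd'
  have hc3 := cube_eq_one hK c hc0
  have hdc : d = c := by
    have h1 : c * c * (d - c) = 0 := by linear_combination hd' - hc3
    rcases mul_eq_zero.mp h1 with h | h
    · exact absurd (mul_self_eq_zero.mp h) hc0
    · exact sub_eq_zero.mp h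
  have e01 : G' 0 1 = 0 := (congrFun (congrFun hm 0) 1).trans rfl
  have e02 : G' 0 2 = 0 := (congrFun (congrFun hm 0) 2).trans rfl
  have e11 : G' 1 1 = c := by rw [hc_def]; exact (congrFun (congrFun hm 1) 1).trans rfl
  have e21 : G' 2 1 = 0 := (congrFun (congrFun hm 2) 1).trans rfl
  have e22 : G' 2 2 = c := by rw [← hd_def, hdc]
  have hG' : G' = !![c, 0, 0; G' 1 0, c, G' 1 2; G' 2 0, 0, c] := by
    ext i j
    fin_cases i <;> fin_cases j <;> simp [e01, e02, e11, e21, e22, hc_def]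
  obtain ⟨a, ha⟩ : ∃ a : K, a = G' 1 0 := ⟨_, rfl⟩
  obtain ⟨r, hr⟩ : ∃ r : K, r = G' 1 2 := ⟨_, rfl⟩
  obtain ⟨s, hs⟩ : ∃ s : K, s = G' 2 0 := ⟨_, rfl⟩
  rw [← ha, ← hr, ← hs] at hG'
  have h2 : G' * G' = !![c^2, 0, 0; r*s, c^2, 0; 0, 0, c^2] := by
    rw [hG']
    ext i j
    fin_cases i <;> fin_cases j <;> simp [Matrix.mul_apply, Fin.sum_univ_three] <;>
      first | ring1 | linear_combination (a * c) * two | linear_combination (r * c) * two |
        linear_combination (s * c) * two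
  have h4 : G' ^ 4 = (c ^ 4) • (1 : Matrix (Fin 3) (Fin 3) K) := by
    have : G' ^ 4 = (G' * G') * (G' * G') := by
      rw [show (4 : ℕ) = 2 + 2 from rfl, pow_add, pow_two]
    rw [this, h2]
    ext i j
    fin_cases i <;> fin_cases j <;> simp [Matrix.mul_apply, Fin.sum_univ_three] <;>
      first | ring1 | linear_combination (r * s * c ^ 2) * two
  refine ⟨c ^ 4, ?_, h4⟩
  calc (c ^ 4) ^ 3 = (c ^ 3) ^ 4 := by ring
    _ = 1 := by rw [hc3, one_pow]

lemma no_six (hK : Fintype.card K = 4) (y : Matrix.ProjectiveSpecialLinearGroup (Fin 3) K)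
    (h6 : y ^ 6 = 1) : y ^ 4 = 1 ∨ y ^ 3 = 1 := by
  obtain ⟨g, rfl⟩ := QuotientGroup.mk_surjective y
  have two := two_eq_zero hK
  have hc6 : g ^ 6 ∈ Subgroup.center (Matrix.SpecialLinearGroup (Fin 3) K) :=
    (QuotientGroup.eq_one_iff _).mp h6
  obtain ⟨ζ, hζ3, hζ⟩ := Matrix.SpecialLinearGroup.mem_center_iff.mp hc6
  rw [Fintype.card_fin] at hζ3
  obtain ⟨G, hG⟩ : ∃ G : Matrix (Fin 3) (Fin 3) K, G = g := ⟨_, rfl⟩
  have hG6 : G ^ 6 = ζ • (1 : Matrix (Fin 3) (Fin 3) K) := by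
    rw [hG, ← Matrix.SpecialLinearGroup.coe_pow, ← hζ, Matrix.scalar_apply, Matrix.smul_one_eq_diagonal]
  obtain ⟨N, hN⟩ : ∃ N : Matrix (Fin 3) (Fin 3) K, N = G ^ 3 - (ζ ^ 2) • (1 : Matrix (Fin 3) (Fin 3) K) := ⟨_, rfl⟩
  have hNN : N * N = 0 := by
    have e1 : N * N = G ^ 3 * G ^ 3 - ((2 : K) * ζ ^ 2) • G ^ 3 + (ζ ^ 2 * ζ ^ 2) • (1 : Matrix (Fin 3) (Fin 3) K) := by
      rw [hN]
      simp only [sub_mul, mul_sub, Matrix.smul_mul, Matrix.mul_smul, Matrix.one_mul, Matrix.mul_one,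
        smul_smul, two_mul, add_smul]
      abel
    rw [e1, ← pow_add, hG6, two, zero_mul, zero_smul, sub_zero, ← add_smul]
    have : ζ + ζ ^ 2 * ζ ^ 2 = 0 := by
      have h4 : ζ ^ 2 * ζ ^ 2 = ζ := by
        calc ζ ^ 2 * ζ ^ 2 = ζ ^ 3 * ζ := by ring
          _ = ζ := by rw [hζ3, one_mul]
      rw [h4]
      linear_combination ζ * two
    rw [this, zero_smul]
  by_cases hN0 : N = 0
  · right
    apply (QuotientGroup.eq_one_iff _).mpr
    rw [Matrix.SpecialLinearGroup.mem_center_iff]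
    refine ⟨ζ ^ 2, ?_, ?_⟩
    · rw [Fintype.card_fin]
      calc (ζ ^ 2) ^ 3 = (ζ ^ 3) ^ 2 := by ring
        _ = 1 := by rw [hζ3, one_pow]
    · rw [Matrix.SpecialLinearGroup.coe_pow, ← hG, Matrix.scalar_apply, ← Matrix.smul_one_eq_diagonal]
      rw [hN0] at hN
      exact (sub_eq_zero.mp hN.symm).symm
  · left
    have hrank := rank_eq_one_of_sq_zero N hN0 hNN
    obtain ⟨u, φ, i₀, j₀, hu, hφ, hNe, hd⟩ := Cfsg.Agent.S2572.rank_one_decomp N hrank hNN
    obtain ⟨P, Q, hPQ, hQP, hNP⟩ := Cfsg.Agent.S2572.normal_form (k := 1) N u φ i₀ j₀ hu hφ hNe hd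
    have hGN : G * N = N * G := by
      rw [hN, mul_sub, sub_mul, Matrix.mul_smul, Matrix.smul_mul, Matrix.mul_one, Matrix.one_mul,
        ← pow_succ', ← pow_succ]
    have hQN : Q * N = Cfsg.Agent.S2572.E K 1 * Q := by
      calc Q * N = Q * N * (P * Q) := by rw [hPQ, Matrix.mul_one]
        _ = Q * (N * P) * Q := by simp only [Matrix.mul_assoc]
        _ = (Q * P) * Cfsg.Agent.S2572.E K 1 * Q := by rw [hNP]; simp only [Matrix.mul_assoc]
        _ = Cfsg.Agent.S2572.E K 1 * Q := by rw [hQP, Matrix.one_mul]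
    have hcomm : (Q * G * P) * Cfsg.Agent.S2572.E K 1 = Cfsg.Agent.S2572.E K 1 * (Q * G * P) := by
      calc (Q * G * P) * Cfsg.Agent.S2572.E K 1 = Q * G * (N * P) := by rw [hNP]; simp only [Matrix.mul_assoc]
        _ = Q * (G * N) * P := by simp only [Matrix.mul_assoc]
        _ = (Q * N) * G * P := by rw [hGN]; simp only [Matrix.mul_assoc]
        _ = Cfsg.Agent.S2572.E K 1 * (Q * G * P) := by rw [hQN]; simp only [Matrix.mul_assoc]
    have hdet : (Q * G * P).det = 1 := by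
      rw [Matrix.det_mul, Matrix.det_mul, hG, g.det_coe, mul_one, ← Matrix.det_mul, hQP, Matrix.det_one]
    obtain ⟨c, hc3, hc4⟩ := fourth_scalar hK (Q * G * P) hcomm hdet
    have conj_mul : ∀ A B : Matrix (Fin 3) (Fin 3) K, (P * A * Q) * (P * B * Q) = P * (A * B) * Q := by
      intro A B
      calc (P * A * Q) * (P * B * Q) = P * A * (Q * P) * B * Q := by simp only [Matrix.mul_assoc]
        _ = P * (A * B) * Q := by rw [hQP, Matrix.mul_one]; simp only [Matrix.mul_assoc]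
    have hGP : G = P * (Q * G * P) * Q := by
      calc G = (P * Q) * G * (P * Q) := by rw [hPQ, Matrix.one_mul, Matrix.mul_one]
        _ = P * (Q * G * P) * Q := by simp only [Matrix.mul_assoc]
    have hG4 : G ^ 4 = c • (1 : Matrix (Fin 3) (Fin 3) K) := by
      have e1 : G ^ 4 = (G * G) * (G * G) := by
        rw [show (4 : ℕ) = 2 + 2 from rfl, pow_add, pow_two]
      have e2 : (Q * G * P) ^ 4 = ((Q * G * P) * (Q * G * P)) * ((Q * G * P) * (Q * G * P)) := by
        rw [show (4 : ℕ) = 2 + 2 from rfl, pow_add, pow_two]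
      have e3 : G * G = P * ((Q * G * P) * (Q * G * P)) * Q := by
        rw [← conj_mul, ← hGP]
      rw [e1, e3, conj_mul, ← e2, hc4, Matrix.mul_smul, Matrix.mul_one, Matrix.smul_mul, hPQ]
    apply (QuotientGroup.eq_one_iff _).mpr
    rw [Matrix.SpecialLinearGroup.mem_center_iff]
    refine ⟨c, by rw [Fintype.card_fin]; exact hc3, ?_⟩
    rw [Matrix.SpecialLinearGroup.coe_pow, ← hG, hG4, Matrix.scalar_apply, ← Matrix.smul_one_eq_diagonal]

lemma card_psl3 (hK : Fintype.card K = 4) :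
    Nat.card (Matrix.ProjectiveSpecialLinearGroup (Fin 3) K) = 20160 := by
  have h := Cfsg.Agent.S0242.result hK 3 (by norm_num)
  have hprod : ∏ i : Fin 3, (4 ^ 3 - 4 ^ (i : ℕ)) = 181440 := by decide
  rw [hprod] at h
  have hSL : Nat.card (Matrix.SpecialLinearGroup (Fin 3) K) = 60480 := by omega
  have hU : Nat.card Kˣ = 3 := by
    rw [Nat.card_units, Nat.card_eq_fintype_card, hK]
  have htop : rootsOfUnity (Fintype.card (Fin 3)) K = ⊤ := by
    rw [Subgroup.eq_top_iff']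
    intro x
    rw [mem_rootsOfUnity, Fintype.card_fin, ← hU]
    exact pow_card_eq_one'
  have hZ : Nat.card (Subgroup.center (Matrix.SpecialLinearGroup (Fin 3) K)) = 3 := by
    rw [Nat.card_congr (Matrix.SpecialLinearGroup.center_equiv_rootsOfUnity' (n := Fin 3) (R := K) 0).toEquiv,
      htop, Subgroup.card_top, hU]
  have hq := Subgroup.card_eq_card_quotient_mul_card_subgroup
    (Subgroup.center (Matrix.SpecialLinearGroup (Fin 3) K))
  rw [hSL, hZ] at hq
  show Nat.card (Matrix.SpecialLinearGroup (Fin 3) K ⧸ Subgroup.center (Matrix.SpecialLinearGroup (Fin 3) K)) = 20160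
  omega

end psl3

section psl4
variable {F : Type*} [Field F] [Fintype F]

lemma eq_one_of_ne_zero (hF : Fintype.card F = 2) (x : F) (hx : x ≠ 0) : x = 1 := by
  have hU : Nat.card Fˣ = 1 := by
    rw [Nat.card_units, Nat.card_eq_fintype_card, hF]
  have hsub : Subsingleton Fˣ := (Nat.card_eq_one_iff_unique.mp hU).1
  have : Units.mk0 x hx = 1 := Subsingleton.elim _ _
  exact congrArg Units.val this

def M₀ : Matrix (Fin 4) (Fin 4) (ZMod 2) := !![0,1,0,0; 1,1,0,0; 0,0,1,1; 0,0,0,1]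

lemma M₀_six : M₀ ^ 6 = 1 := by decide
lemma M₀_two : M₀ ^ 2 ≠ 1 := by decide
lemma M₀_three : M₀ ^ 3 ≠ 1 := by decide

lemma exists_six (hF : Fintype.card F = 2) :
    ∃ x : Matrix.ProjectiveSpecialLinearGroup (Fin 4) F, x ^ 6 = 1 ∧ x ^ 2 ≠ 1 ∧ x ^ 3 ≠ 1 := by
  obtain ⟨f, hf⟩ : ∃ f : ZMod 2 →+* F, Function.Injective f :=
    ⟨(ZMod.ringEquivOfPrime F Nat.prime_two hF : ZMod 2 ≃+* F).toRingHom,
      (ZMod.ringEquivOfPrime F Nat.prime_two hF).injective⟩
  have finj : Function.Injective (f.mapMatrix : Matrix (Fin 4) (Fin 4) (ZMod 2) → Matrix (Fin 4) (Fin 4) F) := by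
    intro A B hAB
    ext i j
    have := congrFun (congrFun hAB i) j
    exact hf this
  obtain ⟨M, hM⟩ : ∃ M : Matrix (Fin 4) (Fin 4) F, M = f.mapMatrix M₀ := ⟨_, rfl⟩
  have hM6 : M ^ 6 = 1 := by rw [hM, ← map_pow, M₀_six, map_one]
  have hM2 : M ^ 2 ≠ 1 := fun h => M₀_two (finj (by rw [map_pow, ← hM, h, map_one]))
  have hM3 : M ^ 3 ≠ 1 := fun h => M₀_three (finj (by rw [map_pow, ← hM, h, map_one]))
  have hdet : M.det = 1 := by
    apply eq_one_of_ne_zero hF
    intro h0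
    have := congrArg Matrix.det hM6
    rw [Matrix.det_pow, h0, Matrix.det_one] at this
    simp at this
  obtain ⟨g, hg⟩ : ∃ g : Matrix.SpecialLinearGroup (Fin 4) F, (g : Matrix (Fin 4) (Fin 4) F) = M :=
    ⟨⟨M, hdet⟩, rfl⟩
  have hcen : ∀ k : ℕ, ((QuotientGroup.mk g : Matrix.ProjectiveSpecialLinearGroup (Fin 4) F)) ^ k = 1 →
      M ^ k = 1 := by
    intro k hk
    have hc : g ^ k ∈ Subgroup.center (Matrix.SpecialLinearGroup (Fin 4) F) :=
      (QuotientGroup.eq_one_iff _).mp hk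
    obtain ⟨r, hr4, hr⟩ := Matrix.SpecialLinearGroup.mem_center_iff.mp hc
    have hr1 : r = 1 := by
      apply eq_one_of_ne_zero hF
      rintro rfl
      simp at hr4
    rw [hr1, Matrix.SpecialLinearGroup.coe_pow, hg] at hr
    rw [← hr]
    simp
  refine ⟨QuotientGroup.mk g, ?_, fun h => hM2 (hcen 2 h), fun h => hM3 (hcen 3 h)⟩
  apply (QuotientGroup.eq_one_iff _).mpr
  have : g ^ 6 = 1 := by
    apply Subtype.ext
    rw [Matrix.SpecialLinearGroup.coe_pow, hg]
    exact hM6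
  show g ^ 6 ∈ Subgroup.center (Matrix.SpecialLinearGroup (Fin 4) F)
  rw [this]
  exact Subgroup.one_mem _

lemma card_psl4 (hF : Fintype.card F = 2) :
    Nat.card (Matrix.ProjectiveSpecialLinearGroup (Fin 4) F) = 20160 := by
  have h := Cfsg.Agent.S0242.result hF 4 (by norm_num)
  have hprod : ∏ i : Fin 4, (2 ^ 4 - 2 ^ (i : ℕ)) = 20160 := by decide
  rw [hprod] at h
  have hSL : Nat.card (Matrix.SpecialLinearGroup (Fin 4) F) = 20160 := by omega
  have hU : Nat.card Fˣ = 1 := by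
    rw [Nat.card_units, Nat.card_eq_fintype_card, hF]
  have hZ : Nat.card (Subgroup.center (Matrix.SpecialLinearGroup (Fin 4) F)) = 1 := by
    rw [Nat.card_congr (Matrix.SpecialLinearGroup.center_equiv_rootsOfUnity' (n := Fin 4) (R := F) 0).toEquiv]
    have h1 := Subgroup.card_le_card_group (rootsOfUnity (Fintype.card (Fin 4)) F)
    have h2 : 0 < Nat.card (rootsOfUnity (Fintype.card (Fin 4)) F) := Nat.card_pos
    omega
  have hq := Subgroup.card_eq_card_quotient_mul_card_subgroup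
    (Subgroup.center (Matrix.SpecialLinearGroup (Fin 4) F))
  rw [hSL, hZ] at hq
  show Nat.card (Matrix.SpecialLinearGroup (Fin 4) F ⧸ Subgroup.center (Matrix.SpecialLinearGroup (Fin 4) F)) = 20160
  omega

end psl4

/-- Let F be a field with 2 elements and K a field with 4 elements. PSL_4(F) and PSL_3(K) have the same order (20160) but are not isomorphic. -/
theorem result {F K : Type*} [Field F] [Fintype F] [Field K] [Fintype K] (hF : Fintype.card F = 2) (hK : Fintype.card K = 4) : Nat.card (Matrix.ProjectiveSpecialLinearGroup (Fin 4) F) = Nat.card (Matrix.ProjectiveSpecialLinearGroup (Fin 3) K) ∧ ¬ Nonempty (Matrix.ProjectiveSpecialLinearGroup (Fin 4) F ≃* Matrix.ProjectiveSpecialLinearGroup (Fin 3) K) := by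
  refine ⟨by rw [card_psl4 hF, card_psl3 hK], ?_⟩
  rintro ⟨e⟩
  obtain ⟨x, h6, h2, h3⟩ := exists_six hF
  have hy6 : (e x) ^ 6 = 1 := by rw [← map_pow, h6, map_one]
  have hy2 : (e x) ^ 2 ≠ 1 := by
    intro h
    rw [← map_pow] at h
    exact h2 (e.map_eq_one_iff.mp h)
  have hy3 : (e x) ^ 3 ≠ 1 := by
    intro h
    rw [← map_pow] at h
    exact h3 (e.map_eq_one_iff.mp h)
  rcases no_six hK (e x) hy6 with h4 | h3'
  · apply hy2
    have : (e x) ^ 6 = (e x) ^ 4 * (e x) ^ 2 := by rw [← pow_add]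
    rw [hy6, h4, one_mul] at this
    exact this.symm
  · exact hy3 h3'

end Cfsg.Agent.S2550
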