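import Cfsg.Statements.S2552

set_option autoImplicit false
open Cfsg

namespace Cfsg.Agent.S2552

/-- a linear automorphism carrying one subspace onto another of the same dimension -/
theorem exists_equiv_map {F V : Type*} [Field F] [AddCommGroup V] [Module F V] [FiniteDimensional F V]
    (U₁ U₂ : Submodule F V) (h : Module.finrank F U₁ = Module.finrank F U₂) :
    ∃ e : V ≃ₗ[F] V, U₁.map (e : V →ₗ[F] V) = U₂ := by
  obtain ⟨W₁, hW₁⟩ := Submodule.exists_isCompl U₁
  obtain ⟨W₂, hW₂⟩ := Submodule.exists_isCompl U₂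
  have hWfin : Module.finrank F W₁ = Module.finrank F W₂ := by
    have h1 := Submodule.finrank_add_eq_of_isCompl hW₁
    have h2 := Submodule.finrank_add_eq_of_isCompl hW₂
    omega
  let eU : U₁ ≃ₗ[F] U₂ := LinearEquiv.ofFinrankEq _ _ h
  let eW : W₁ ≃ₗ[F] W₂ := LinearEquiv.ofFinrankEq _ _ hWfin
  let e : V ≃ₗ[F] V := (Submodule.prodEquivOfIsCompl U₁ W₁ hW₁).symm ≪≫ₗ
    (eU.prodCongr eW) ≪≫ₗ (Submodule.prodEquivOfIsCompl U₂ W₂ hW₂)
  refine ⟨e, ?_⟩
  have hle : U₁.map (e : V →ₗ[F] V) ≤ U₂ := by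
    rintro _ ⟨u, hu, rfl⟩
    have h1 : (Submodule.prodEquivOfIsCompl U₁ W₁ hW₁).symm u = ((⟨u, hu⟩ : U₁), 0) :=
      Submodule.prodEquivOfIsCompl_symm_apply_left U₁ W₁ hW₁ ⟨u, hu⟩
    have h2 : e u = ((eU ⟨u, hu⟩ : U₂) : V) := by
      simp only [e, LinearEquiv.trans_apply]
      rw [h1]
      simp [Submodule.coe_prodEquivOfIsCompl']
    show e u ∈ U₂
    rw [h2]
    exact (eU ⟨u, hu⟩).2
  apply Submodule.eq_of_le_of_finrank_eq hle
  rw [← h]
  exact LinearEquiv.finrank_map_eq e U₁

/-- Let F be a finite field and n ≥ 1. For every k, the special linear group SL_n(F) acts transitively on the set of k-dimensional subspaces of F^n: any two subspaces of the same dimension are carried onto each other by some matrix of determinant 1. -/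
theorem result {F : Type*} [Field F] [Fintype F] (n : ℕ) (hn : 1 ≤ n) (U₁ U₂ : Submodule F (Fin n → F)) (h : Module.finrank F U₁ = Module.finrank F U₂) : ∃ g : Matrix.SpecialLinearGroup (Fin n) F, U₁.map ((Matrix.SpecialLinearGroup.toLin' g : (Fin n → F) ≃ₗ[F] (Fin n → F)) : (Fin n → F) →ₗ[F] (Fin n → F)) = U₂ := by
  classical
  by_cases hbot : U₂ = ⊥
  · have h1 : U₁ = ⊥ := by
      rw [← Submodule.finrank_eq_zero (R := F), h, hbot]
      simp
    refine ⟨1, ?_⟩
    rw [h1, hbot]
    simp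
  · obtain ⟨v, hvU, hv0⟩ := (Submodule.ne_bot_iff U₂).mp hbot
    obtain ⟨i, hi⟩ : ∃ i, v i ≠ 0 := Function.ne_iff.mp hv0
    obtain ⟨e, he⟩ := exists_equiv_map U₁ U₂ h
    set E : Matrix (Fin n) (Fin n) F := LinearMap.toMatrix' (e : (Fin n → F) →ₗ[F] (Fin n → F)) with hE
    have hEdet : E.det ≠ 0 := by
      have h1 : IsUnit (LinearMap.det (e : (Fin n → F) →ₗ[F] (Fin n → F))) := LinearEquiv.isUnit_det' e
      rw [hE, LinearMap.det_toMatrix']
      exact h1.ne_zero
    set c : F := E.det⁻¹ with hc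
    -- the correcting matrix
    set w : Fin n → F := Pi.single i (v i)⁻¹ with hw
    have hwv : w ⬝ᵥ v = 1 := by
      rw [hw, single_dotProduct, inv_mul_cancel₀ hi]
    set H : Matrix (Fin n) (Fin n) F :=
      1 + Matrix.replicateCol Unit ((c - 1) • v) * Matrix.replicateRow Unit w with hH
    have hHdet : H.det = c := by
      rw [hH, Matrix.det_one_add_replicateCol_mul_replicateRow, dotProduct_smul, hwv]
      simp
    have hHmul : ∀ x : Fin n → F, H.mulVec x = x + ((c - 1) * (w ⬝ᵥ x)) • v := by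
      intro x
      rw [hH, Matrix.add_mulVec, Matrix.one_mulVec]
      congr 1
      ext j
      simp [Matrix.mulVec, dotProduct, Matrix.mul_apply, Finset.mul_sum, mul_assoc]
      rw [Finset.sum_mul]
      apply Finset.sum_congr rfl
      intro k _
      ring
    have hdet1 : (H * E).det = 1 := by
      rw [Matrix.det_mul, hHdet, hc, inv_mul_cancel₀ hEdet]
    let g : Matrix.SpecialLinearGroup (Fin n) F := ⟨H * E, hdet1⟩
    refine ⟨g, ?_⟩
    have hlin : ((Matrix.SpecialLinearGroup.toLin' g : (Fin n → F) ≃ₗ[F] (Fin n → F)) :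
        (Fin n → F) →ₗ[F] (Fin n → F)) =
        (Matrix.toLin' H).comp (e : (Fin n → F) →ₗ[F] (Fin n → F)) := by
      rw [Matrix.SpecialLinearGroup.toLin'_to_linearMap]
      show Matrix.toLin' (H * E) = _
      rw [Matrix.toLin'_mul, hE, Matrix.toLin'_toMatrix']
    rw [hlin, Submodule.map_comp, he]
    have hle : U₂.map (Matrix.toLin' H) ≤ U₂ := by
      rintro _ ⟨x, hx, rfl⟩
      rw [Matrix.toLin'_apply, hHmul]
      exact U₂.add_mem hx (U₂.smul_mem _ hvU)
    apply Submodule.eq_of_le_of_finrank_eq hle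
    have hinj : Function.Injective (Matrix.toLin' H) := by
      have hunit : IsUnit H := by
        rw [Matrix.isUnit_iff_isUnit_det, hHdet, hc]
        exact (inv_ne_zero hEdet).isUnit
      intro x y hxy
      rw [Matrix.toLin'_apply, Matrix.toLin'_apply] at hxy
      exact (Matrix.mulVec_injective_iff_isUnit.mpr hunit) hxy
    exact (Submodule.equivMapOfInjective _ hinj U₂).finrank_eq.symm

end Cfsg.Agent.S2552
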