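import Cfsg.Statements.S2562
import Mathlib

set_option autoImplicit false
open Cfsg

namespace Cfsg.Agent.S2562

/-- the nontrivial additive character of `ZMod 2` -/
def chi (a : ZMod 2) : ℤ := if a = 0 then 1 else -1

lemma chi_add (a b : ZMod 2) : chi (a + b) = chi a * chi b := by revert a b; decide

lemma chi_zero : chi 0 = 1 := by decide

lemma chi_one : chi 1 = -1 := by decide

lemma zmod2_add_self (a : ZMod 2) : a + a = 0 := by revert a; decide

lemma zmod2_eq_one (a : ZMod 2) (h : a ≠ 0) : a = 1 := by revert a; decide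

section lag
variable {ι : Type} [Fintype ι] [DecidableEq ι]

lemma lagrangian_sum_pos (Q : (ι → ZMod 2) → ZMod 2) (B : (ι → ZMod 2) → (ι → ZMod 2) → ZMod 2)
    (hQB : ∀ u v, Q (u + v) = Q u + Q v + B u v)
    (hBadd : ∀ v u u', B v (u + u') = B v u + B v u')
    (U : Submodule (ZMod 2) (ι → ZMod 2)) (hU : ∀ u ∈ U, Q u = 0)
    (hmax : ∀ v, (∀ u ∈ U, B v u = 0) → v ∈ U) :
    0 < ∑ v : ι → ZMod 2, chi (Q v) := by
  classical
  haveI : Fintype U := Fintype.ofFinite U
  have key : ∀ v : ι → ZMod 2,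
      ∑ u : U, chi (B v u) = if v ∈ U then (Fintype.card U : ℤ) else 0 := by
    intro v
    split_ifs with hv
    · have : ∀ u : U, chi (B v u) = 1 := by
        intro u
        have h1 := hQB v u
        rw [hU _ (U.add_mem hv u.2), hU v hv, hU u u.2] at h1
        have h2 : B v u = 0 := by simpa using h1.symm
        rw [h2, chi_zero]
      simp [this]
    · have hex : ∃ u0 ∈ U, B v u0 ≠ 0 := by
        by_contra hcon
        push Not at hcon
        exact hv (hmax v hcon)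
      obtain ⟨u0, hu0, hB0⟩ := hex
      have hB1 : B v u0 = 1 := zmod2_eq_one _ hB0
      have h2 : ∑ u : U, chi (B v ((u + ⟨u0, hu0⟩ : U) : ι → ZMod 2)) = ∑ u : U, chi (B v u) :=
        Fintype.sum_equiv (Equiv.addRight (⟨u0, hu0⟩ : U)) _ _ (fun u => rfl)
      have h3 : ∑ u : U, chi (B v ((u + ⟨u0, hu0⟩ : U) : ι → ZMod 2))
          = - ∑ u : U, chi (B v u) := by
        rw [← Finset.sum_neg_distrib]
        apply Finset.sum_congr rfl
        intro u _
        show chi (B v ((u : ι → ZMod 2) + u0)) = _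
        rw [hBadd, hB1, chi_add, chi_one]; ring
      linarith
  have htrans : ∀ u : ι → ZMod 2,
      ∑ v : ι → ZMod 2, chi (Q (v + u)) = ∑ v : ι → ZMod 2, chi (Q v) := by
    intro u
    exact Fintype.sum_equiv (Equiv.addRight u) _ _ (fun v => rfl)
  have h1 : (Fintype.card U : ℤ) * ∑ v : ι → ZMod 2, chi (Q v)
      = ∑ u : U, ∑ v : ι → ZMod 2, chi (Q (v + u)) := by
    rw [Finset.sum_congr rfl (fun (u : U) _ => htrans u), Finset.sum_const, nsmul_eq_mul]
    simp
  have h2 : ∑ u : U, ∑ v : ι → ZMod 2, chi (Q (v + u))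
      = ∑ v : ι → ZMod 2, chi (Q v) * ∑ u : U, chi (B v u) := by
    rw [Finset.sum_comm]
    apply Finset.sum_congr rfl
    intro v _
    rw [Finset.mul_sum]
    apply Finset.sum_congr rfl
    intro u _
    rw [hQB, hU u u.2, add_zero, chi_add]
  have h3 : ∑ v : ι → ZMod 2, chi (Q v) * ∑ u : U, chi (B v u)
      = (Fintype.card U : ℤ) * Fintype.card U := by
    simp_rw [key]
    have h4 : ∀ v : ι → ZMod 2, chi (Q v) * (if v ∈ U then (Fintype.card U : ℤ) else 0)
        = if v ∈ U then (Fintype.card U : ℤ) else 0 := by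
      intro v
      split_ifs with hv
      · rw [hU v hv, chi_zero, one_mul]
      · simp
    simp_rw [h4]
    rw [← Finset.sum_filter, Finset.sum_const, nsmul_eq_mul]
    congr 1
    rw [Fintype.card_subtype]
  have hpos : 0 < (Fintype.card U : ℤ) := by
    exact_mod_cast Fintype.card_pos
  have h5 : (Fintype.card U : ℤ) * ∑ v : ι → ZMod 2, chi (Q v)
      = (Fintype.card U : ℤ) * Fintype.card U := by rw [h1, h2, h3]
  have h6 := mul_left_cancel₀ hpos.ne' h5
  rw [h6]; exact hpos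

variable (τ : ι → ι) (hτ : ∀ k, τ (τ k) = k)

/-- the bilinear form `∑ u k * v (τ k)` -/
def Bf (τ : ι → ι) : LinearMap.BilinForm (ZMod 2) (ι → ZMod 2) :=
  LinearMap.mk₂ (ZMod 2) (fun u v => ∑ k, u k * v (τ k))
    (fun u u' v => by simp [add_mul, Finset.sum_add_distrib])
    (fun c u v => by simp [Finset.mul_sum, mul_assoc])
    (fun u v v' => by simp [mul_add, Finset.sum_add_distrib])
    (fun c u v => by simp [Finset.mul_sum, mul_left_comm])

lemma Bf_apply (u v : ι → ZMod 2) : Bf τ u v = ∑ k, u k * v (τ k) := rfl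

include hτ in
lemma Bf_symm (u v : ι → ZMod 2) : Bf τ u v = Bf τ v u := by
  rw [Bf_apply, Bf_apply]
  have e : ι ≃ ι := ⟨τ, τ, hτ, hτ⟩
  have : ∑ k, v k * u (τ k) = ∑ k, v (τ k) * u (τ (τ k)) :=
    (Fintype.sum_equiv ⟨τ, τ, hτ, hτ⟩ (fun k => v (τ k) * u (τ (τ k))) (fun k => v k * u (τ k))
      (fun k => rfl)).symm
  rw [this]
  apply Finset.sum_congr rfl
  intro k _
  rw [hτ, mul_comm]

include hτ in
lemma Bf_nondeg : (Bf τ).Nondegenerate := by
  have hleft : ∀ u : ι → ZMod 2, (∀ v, Bf τ u v = 0) → u = 0 := by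
    intro u hu
    funext k
    have := hu (Pi.single (τ k) 1)
    rw [Bf_apply] at this
    rw [Finset.sum_eq_single k] at this
    · simpa using this
    · intro j _ hjk
      have : τ j ≠ τ k := fun h => hjk (by rw [← hτ j, h, hτ])
      simp [Pi.single_apply, this]
    · intro h; exact absurd (Finset.mem_univ k) h
  refine ⟨hleft, ?_⟩
  intro v hv
  apply hleft
  intro u
  rw [Bf_symm τ hτ]
  exact hv u

include hτ in
lemma ts_finrank_le (Q : (ι → ZMod 2) → ZMod 2)
    (hQB : ∀ u v, Q (u + v) = Q u + Q v + ∑ k, u k * v (τ k))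
    (U : Submodule (ZMod 2) (ι → ZMod 2)) (hU : ∀ u ∈ U, Q u = 0) :
    U ≤ (Bf τ).orthogonal U ∧ 2 * Module.finrank (ZMod 2) U ≤ Fintype.card ι := by
  have hle : U ≤ (Bf τ).orthogonal U := by
    intro v hv
    rw [LinearMap.BilinForm.mem_orthogonal_iff]
    intro u hu
    have h1 := hQB u v
    rw [hU _ (U.add_mem hu hv), hU u hu, hU v hv] at h1
    rw [Bf_apply]
    simpa using h1.symm
  refine ⟨hle, ?_⟩
  have h1 := Submodule.finrank_mono hle
  rw [LinearMap.BilinForm.finrank_orthogonal (Bf_nondeg τ hτ), Module.finrank_fintype_fun_eq_card] at h1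
  have h2 := Submodule.finrank_le U
  rw [Module.finrank_fintype_fun_eq_card] at h2
  omega

include hτ in
lemma ts_half_sum_pos (Q : (ι → ZMod 2) → ZMod 2)
    (hQB : ∀ u v, Q (u + v) = Q u + Q v + ∑ k, u k * v (τ k))
    (U : Submodule (ZMod 2) (ι → ZMod 2)) (hU : ∀ u ∈ U, Q u = 0)
    (hdim : 2 * Module.finrank (ZMod 2) U = Fintype.card ι) :
    0 < ∑ v : ι → ZMod 2, chi (Q v) := by
  obtain ⟨hle, -⟩ := ts_finrank_le τ hτ Q hQB U hU
  have heq : U = (Bf τ).orthogonal U := by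
    apply Submodule.eq_of_le_of_finrank_eq hle
    rw [LinearMap.BilinForm.finrank_orthogonal (Bf_nondeg τ hτ), Module.finrank_fintype_fun_eq_card]
    omega
  refine lagrangian_sum_pos Q (fun u v => ∑ k, u k * v (τ k)) hQB ?_ U hU ?_
  · intro v u u'
    simp [mul_add, Finset.sum_add_distrib]
  · intro v hv
    rw [heq, LinearMap.BilinForm.mem_orthogonal_iff]
    intro u hu
    rw [Bf_symm τ hτ, Bf_apply]
    exact hv u hu

end lag

section kernels

lemma finrank_ker_funLeft {ι κ : Type} [Fintype ι] [Fintype κ] (e : κ → ι)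
    (he : Function.Injective e) :
    Module.finrank (ZMod 2) (LinearMap.ker (LinearMap.funLeft (ZMod 2) (ZMod 2) e))
      + Fintype.card κ = Fintype.card ι := by
  have h1 := LinearMap.finrank_range_add_finrank_ker (LinearMap.funLeft (ZMod 2) (ZMod 2) e)
  rw [LinearMap.range_eq_top.mpr (LinearMap.funLeft_surjective_of_injective _ _ e he),
    finrank_top, Module.finrank_fintype_fun_eq_card, Module.finrank_fintype_fun_eq_card] at h1
  omega

end kernels

section forms

lemma plus_polar (m : ℕ) (u v : Fin m ⊕ Fin m → ZMod 2) :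
    Cfsg.quadFormPlus m (ZMod 2) (u + v) = Cfsg.quadFormPlus m (ZMod 2) u
      + Cfsg.quadFormPlus m (ZMod 2) v + ∑ k, u k * v (Sum.swap k) := by
  simp only [Cfsg.quadFormPlus, Fintype.sum_sum_type, Pi.add_apply, Sum.swap_inl, Sum.swap_inr,
    ← Finset.sum_add_distrib]
  apply Finset.sum_congr rfl
  intro i _
  ring

/-- the pairing involution for the minus-type form -/
def tauMinus (k : ℕ) : (Fin k ⊕ Fin k) ⊕ Fin 2 → (Fin k ⊕ Fin k) ⊕ Fin 2 :=
  Sum.map Sum.swap Fin.rev

lemma tauMinus_invol (k : ℕ) (x : (Fin k ⊕ Fin k) ⊕ Fin 2) : tauMinus k (tauMinus k x) = x := by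
  rcases x with (x | x) | x <;> simp [tauMinus]

lemma minus_polar (k : ℕ) (u v : (Fin k ⊕ Fin k) ⊕ Fin 2 → ZMod 2) :
    Cfsg.quadFormMinus k (ZMod 2) 1 1 (u + v) = Cfsg.quadFormMinus k (ZMod 2) 1 1 u
      + Cfsg.quadFormMinus k (ZMod 2) 1 1 v + ∑ x, u x * v (tauMinus k x) := by
  have h2 : (2 : ZMod 2) = 0 := by decide
  have hsum : ∑ i : Fin k, (u (Sum.inl (Sum.inl i)) + v (Sum.inl (Sum.inl i)))
        * (u (Sum.inl (Sum.inr i)) + v (Sum.inl (Sum.inr i)))
      = ∑ i : Fin k, u (Sum.inl (Sum.inl i)) * u (Sum.inl (Sum.inr i))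
        + ∑ i : Fin k, v (Sum.inl (Sum.inl i)) * v (Sum.inl (Sum.inr i))
        + ∑ i : Fin k, u (Sum.inl (Sum.inl i)) * v (Sum.inl (Sum.inr i))
        + ∑ i : Fin k, u (Sum.inl (Sum.inr i)) * v (Sum.inl (Sum.inl i)) := by
    simp only [← Finset.sum_add_distrib]
    apply Finset.sum_congr rfl
    intro i _
    ring
  simp only [Cfsg.quadFormMinus, Fintype.sum_sum_type, Pi.add_apply, tauMinus, Sum.map_inl,
    Sum.map_inr, Sum.swap_inl, Sum.swap_inr, Fin.sum_univ_two]
  have e0 : Fin.rev (0 : Fin 2) = 1 := rfl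
  have e1 : Fin.rev (1 : Fin 2) = 0 := rfl
  rw [e0, e1, hsum]
  linear_combination (u (Sum.inr 0) * v (Sum.inr 0) + u (Sum.inr 1) * v (Sum.inr 1)) * h2

lemma sum_chi_aniso :
    ∑ z : Fin 2 → ZMod 2, chi (z 0 ^ 2 + 1 * z 0 * z 1 + 1 * z 1 ^ 2) = -2 := by
  decide

lemma minus_sum (k : ℕ) :
    ∑ v : (Fin k ⊕ Fin k) ⊕ Fin 2 → ZMod 2, chi (Cfsg.quadFormMinus k (ZMod 2) 1 1 v)
      = (∑ a : Fin k ⊕ Fin k → ZMod 2, chi (Cfsg.quadFormPlus k (ZMod 2) a)) * (-2) := by
  rw [← sum_chi_aniso, Finset.sum_mul_sum, ← Finset.sum_product', Finset.univ_product_univ]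
  refine Fintype.sum_equiv (Equiv.sumArrowEquivProdArrow _ _ _) _ _ ?_
  intro v
  rw [← chi_add]
  rfl

end forms

/-- Witt indices over the field of two elements, m ≥ 1: for the plus-type form Σ xᵢyᵢ in dimension 2m some m-dimensional subspace is totally singular and no totally singular subspace has larger dimension; for the minus-type form Σ xᵢyᵢ + (z₁² + z₁z₂ + z₂²) in dimension 2m the maximal dimension of a totally singular subspace is m − 1. -/
theorem result (m : ℕ) (hm : 1 ≤ m) :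
    (∃ U : Submodule (ZMod 2) (Fin m ⊕ Fin m → ZMod 2), (∀ u ∈ U, Cfsg.quadFormPlus m (ZMod 2) u = 0) ∧ Module.finrank (ZMod 2) ↥U = m) ∧
    (∀ U : Submodule (ZMod 2) (Fin m ⊕ Fin m → ZMod 2), (∀ u ∈ U, Cfsg.quadFormPlus m (ZMod 2) u = 0) → Module.finrank (ZMod 2) ↥U ≤ m) ∧
    (∃ U : Submodule (ZMod 2) ((Fin (m - 1) ⊕ Fin (m - 1)) ⊕ Fin 2 → ZMod 2), (∀ u ∈ U, Cfsg.quadFormMinus (m - 1) (ZMod 2) 1 1 u = 0) ∧ Module.finrank (ZMod 2) ↥U = m - 1) ∧
    (∀ U : Submodule (ZMod 2) ((Fin (m - 1) ⊕ Fin (m - 1)) ⊕ Fin 2 → ZMod 2), (∀ u ∈ U, Cfsg.quadFormMinus (m - 1) (ZMod 2) 1 1 u = 0) → Module.finrank (ZMod 2) ↥U ≤ m - 1) := by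
  classical
  refine ⟨?_, ?_, ?_, ?_⟩
  · refine ⟨LinearMap.ker (LinearMap.funLeft (ZMod 2) (ZMod 2)
      (Sum.inr : Fin m → Fin m ⊕ Fin m)), ?_, ?_⟩
    · intro u hu
      have h1 : ∀ i, u (Sum.inr i) = 0 := fun i => congrFun (LinearMap.mem_ker.mp hu) i
      simp [Cfsg.quadFormPlus, h1]
    · have := finrank_ker_funLeft (Sum.inr : Fin m → Fin m ⊕ Fin m) Sum.inr_injective
      simp only [Fintype.card_sum, Fintype.card_fin] at this
      omega
  · intro U hU
    have := (ts_finrank_le Sum.swap Sum.swap_swap _ (plus_polar m) U hU).2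
    simp only [Fintype.card_sum, Fintype.card_fin] at this
    omega
  · refine ⟨LinearMap.ker (LinearMap.funLeft (ZMod 2) (ZMod 2)
      (Sum.map Sum.inr id : Fin (m - 1) ⊕ Fin 2 → (Fin (m - 1) ⊕ Fin (m - 1)) ⊕ Fin 2)), ?_, ?_⟩
    · intro u hu
      have h0 := LinearMap.mem_ker.mp hu
      have h1 : ∀ i, u (Sum.inl (Sum.inr i)) = 0 := fun i => congrFun h0 (Sum.inl i)
      have h2 : ∀ j, u (Sum.inr j) = 0 := fun j => congrFun h0 (Sum.inr j)
      simp [Cfsg.quadFormMinus, h1, h2]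
    · have := finrank_ker_funLeft
        (Sum.map Sum.inr id : Fin (m - 1) ⊕ Fin 2 → (Fin (m - 1) ⊕ Fin (m - 1)) ⊕ Fin 2)
        (Sum.map_injective.mpr ⟨Sum.inr_injective, Function.injective_id⟩)
      simp only [Fintype.card_sum, Fintype.card_fin] at this
      omega
  · intro U hU
    have h1 := (ts_finrank_le (tauMinus (m - 1)) (tauMinus_invol (m - 1)) _
      (minus_polar (m - 1)) U hU).2
    simp only [Fintype.card_sum, Fintype.card_fin] at h1
    by_contra hcon
    have hdim : 2 * Module.finrank (ZMod 2) U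
        = Fintype.card ((Fin (m - 1) ⊕ Fin (m - 1)) ⊕ Fin 2) := by
      simp only [Fintype.card_sum, Fintype.card_fin]
      omega
    have hpos := ts_half_sum_pos (tauMinus (m - 1)) (tauMinus_invol (m - 1)) _
      (minus_polar (m - 1)) U hU hdim
    rw [minus_sum] at hpos
    -- the plus form in dimension 2(m-1) has a Lagrangian, so its sum is positive
    have hplus : 0 < ∑ a : Fin (m - 1) ⊕ Fin (m - 1) → ZMod 2,
        chi (Cfsg.quadFormPlus (m - 1) (ZMod 2) a) := by
      refine ts_half_sum_pos Sum.swap Sum.swap_swap _ (plus_polar (m - 1))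
        (LinearMap.ker (LinearMap.funLeft (ZMod 2) (ZMod 2)
          (Sum.inr : Fin (m - 1) → Fin (m - 1) ⊕ Fin (m - 1)))) ?_ ?_
      · intro u hu
        have h1 : ∀ i, u (Sum.inr i) = 0 := fun i => congrFun (LinearMap.mem_ker.mp hu) i
        simp [Cfsg.quadFormPlus, h1]
      · have := finrank_ker_funLeft (Sum.inr : Fin (m - 1) → Fin (m - 1) ⊕ Fin (m - 1))
          Sum.inr_injective
        simp only [Fintype.card_sum, Fintype.card_fin] at this ⊢
        omega
    nlinarith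

end Cfsg.Agent.S2562
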