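import Cfsg.Statements.S2564
import Mathlib
import Cfsg.Agent.S2562

set_option autoImplicit false
open Cfsg

namespace Cfsg.Agent.S2564

open Cfsg.Agent.S2562

section gen
variable {ι : Type} [Fintype ι] [DecidableEq ι] (τ : ι → ι) (hτ : ∀ k, τ (τ k) = k)

lemma q_zero (q : (ι → ZMod 2) → ZMod 2)
    (hq : ∀ u v, q (u + v) = q u + q v + Bf τ u v) : q 0 = 0 := by
  have h := hq 0 0
  simp only [add_zero, map_zero, LinearMap.zero_apply] at h
  have h2 := zmod2_add_self (q 0)
  rw [h2] at h; exact h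

lemma B_self_of_q (q : (ι → ZMod 2) → ZMod 2)
    (hq : ∀ u v, q (u + v) = q u + q v + Bf τ u v) (w : ι → ZMod 2) : Bf τ w w = 0 := by
  have h := hq w w
  have hw : w + w = 0 := by funext k; exact zmod2_add_self (w k)
  rw [hw, q_zero τ q hq, zmod2_add_self (q w), zero_add] at h
  exact h.symm

include hτ in
lemma sum_chi_B (v : ι → ZMod 2) (hv : v ≠ 0) : ∑ u : ι → ZMod 2, chi (Bf τ u v) = 0 := by
  have hex : ∃ u0, Bf τ u0 v ≠ 0 := by
    by_contra hcon
    push Not at hcon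
    exact hv ((Bf_nondeg τ hτ).2 v hcon)
  obtain ⟨u0, hu0⟩ := hex
  have h1 : Bf τ u0 v = 1 := zmod2_eq_one _ hu0
  have h2 : ∑ u : ι → ZMod 2, chi (Bf τ (u + u0) v) = ∑ u : ι → ZMod 2, chi (Bf τ u v) :=
    Fintype.sum_equiv (Equiv.addRight u0) _ _ (fun u => rfl)
  have h3 : ∑ u : ι → ZMod 2, chi (Bf τ (u + u0) v) = - ∑ u : ι → ZMod 2, chi (Bf τ u v) := by
    rw [← Finset.sum_neg_distrib]
    apply Finset.sum_congr rfl
    intro u _
    rw [map_add, LinearMap.add_apply, h1, chi_add, chi_one]; ring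
  linarith

include hτ in
lemma sum_sq (q : (ι → ZMod 2) → ZMod 2)
    (hq : ∀ u v, q (u + v) = q u + q v + Bf τ u v) :
    (∑ v : ι → ZMod 2, chi (q v)) ^ 2 = (Fintype.card (ι → ZMod 2) : ℤ) := by
  classical
  have h1 : (∑ v : ι → ZMod 2, chi (q v)) ^ 2
      = ∑ u : ι → ZMod 2, ∑ v : ι → ZMod 2, chi (q u) * chi (q (u + v)) := by
    rw [sq, Finset.sum_mul_sum]
    apply Finset.sum_congr rfl
    intro u _
    exact (Fintype.sum_equiv (Equiv.addLeft u) (fun v => chi (q u) * chi (q (u + v)))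
      (fun v => chi (q u) * chi (q v)) (fun v => rfl)).symm
  have h2 : ∀ u v : ι → ZMod 2, chi (q u) * chi (q (u + v)) = chi (q v) * chi (Bf τ u v) := by
    intro u v
    have key : chi (q u) * chi (q u) = 1 := by rw [← chi_add, zmod2_add_self, chi_zero]
    rw [hq, chi_add, chi_add]
    linear_combination (chi (q v) * chi (Bf τ u v)) * key
  rw [h1]
  simp_rw [h2]
  rw [Finset.sum_comm]
  simp_rw [← Finset.mul_sum]
  rw [Finset.sum_eq_single 0]
  · rw [q_zero τ q hq, chi_zero, one_mul]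
    simp [chi_zero]
  · intro v _ hv
    rw [sum_chi_B τ hτ v hv, mul_zero]
  · intro h; exact absurd (Finset.mem_univ _) h

/-- the map `v ↦ v + B(v,w) w` -/
def Tmap (w : ι → ZMod 2) : (ι → ZMod 2) →ₗ[ZMod 2] (ι → ZMod 2) where
  toFun v := v + (Bf τ v w) • w
  map_add' u v := by
    rw [map_add, LinearMap.add_apply, add_smul]; abel
  map_smul' c v := by
    rw [map_smul, LinearMap.smul_apply, RingHom.id_apply, smul_add, smul_smul]; rfl

lemma Tmap_apply (w v : ι → ZMod 2) : Tmap τ w v = v + (Bf τ v w) • w := rfl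

lemma Tmap_zero (w v : ι → ZMod 2) (h : Bf τ v w = 0) : Tmap τ w v = v := by
  rw [Tmap_apply, h, zero_smul, add_zero]

lemma Tmap_one (w v : ι → ZMod 2) (h : Bf τ v w = 1) : Tmap τ w v = v + w := by
  rw [Tmap_apply, h, one_smul]

lemma zmod2_cases (a : ZMod 2) : a = 0 ∨ a = 1 := by revert a; decide

lemma Tmap_invol (w : ι → ZMod 2) (hww : Bf τ w w = 0) : Function.Involutive (Tmap τ w) := by
  intro v
  rcases zmod2_cases (Bf τ v w) with h | h
  · rw [Tmap_zero τ w v h, Tmap_zero τ w v h]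
  · rw [Tmap_one τ w v h]
    have h2 : Bf τ (v + w) w = 1 := by rw [map_add, LinearMap.add_apply, h, hww, add_zero]
    rw [Tmap_one τ w _ h2, add_assoc]
    have hw : w + w = 0 := by funext k; exact zmod2_add_self (w k)
    rw [hw, add_zero]

/-- `Tmap` as a linear equivalence -/
def Tequiv (w : ι → ZMod 2) (hww : Bf τ w w = 0) : (ι → ZMod 2) ≃ₗ[ZMod 2] (ι → ZMod 2) :=
  LinearEquiv.ofInvolutive (Tmap τ w) (Tmap_invol τ w hww)

lemma Tequiv_apply (w : ι → ZMod 2) (hww : Bf τ w w = 0) (v : ι → ZMod 2) :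
    Tequiv τ w hww v = Tmap τ w v := rfl

lemma q_Tmap (q : (ι → ZMod 2) → ZMod 2)
    (hq : ∀ u v, q (u + v) = q u + q v + Bf τ u v) (w v : ι → ZMod 2) :
    q (Tmap τ w v) = q v + Bf τ v w * (q w + 1) := by
  rcases zmod2_cases (Bf τ v w) with h | h
  · rw [Tmap_zero τ w v h, h, zero_mul, add_zero]
  · rw [Tmap_one τ w v h, hq, h, one_mul, add_assoc]

include hτ in
lemma sum_ne_zero (q : (ι → ZMod 2) → ZMod 2)
    (hq : ∀ u v, q (u + v) = q u + q v + Bf τ u v) : ∑ v : ι → ZMod 2, chi (q v) ≠ 0 := by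
  intro h0
  have h := sum_sq τ hτ q hq
  rw [h0] at h
  have hpos : (0:ℤ) < Fintype.card (ι → ZMod 2) := by exact_mod_cast Fintype.card_pos
  rw [← h] at hpos
  simp at hpos

lemma sum_shift (q : (ι → ZMod 2) → ZMod 2)
    (hq : ∀ u v, q (u + v) = q u + q v + Bf τ u v) (w : ι → ZMod 2) :
    ∑ v : ι → ZMod 2, chi (q v + Bf τ v w) = chi (q w) * ∑ v : ι → ZMod 2, chi (q v) := by
  rw [Finset.mul_sum]
  have := Fintype.sum_equiv (Equiv.addRight w) (fun v => chi (q w) * chi (q (v + w)))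
    (fun v => chi (q w) * chi (q v)) (fun v => rfl)
  rw [← this]
  apply Finset.sum_congr rfl
  intro v _
  rw [hq v w, ← chi_add]
  congr 1
  have h2 := zmod2_add_self (q w)
  linear_combination -h2

lemma chi_eq_one (a : ZMod 2) (h : chi a = 1) : a = 0 := by
  revert a; decide

end gen

lemma plus_polar' (m : ℕ) (u v : Fin m ⊕ Fin m → ZMod 2) :
    Cfsg.quadFormPlus m (ZMod 2) (u + v) - Cfsg.quadFormPlus m (ZMod 2) u
      - Cfsg.quadFormPlus m (ZMod 2) v = Bf Sum.swap u v := by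
  rw [plus_polar, Bf_apply]; ring

/-- On the 2m-dimensional space over the field of two elements (m ≥ 1) let f be the alternating form obtained by polarizing the plus-type form Σ xᵢyᵢ, and let q be any quadratic form polarizing to f. For a vector w, the function q + f(·, w) again polarizes to f, and it is equivalent to q under an invertible linear map (that is, has the same type) if and only if q(w) = 0. -/
theorem result (m : ℕ) (hm : 1 ≤ m) (q : (Fin m ⊕ Fin m → ZMod 2) → ZMod 2) (hq : (∀ u v : (Fin m ⊕ Fin m → ZMod 2), q (u + v) = q u + q v + (Cfsg.quadFormPlus m (ZMod 2) (u + v) - Cfsg.quadFormPlus m (ZMod 2) u - Cfsg.quadFormPlus m (ZMod 2) v))) (w : (Fin m ⊕ Fin m → ZMod 2)) :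
    (∀ u v : (Fin m ⊕ Fin m → ZMod 2), (q (u + v) + (Cfsg.quadFormPlus m (ZMod 2) (u + v + w) - Cfsg.quadFormPlus m (ZMod 2) (u + v) - Cfsg.quadFormPlus m (ZMod 2) w)) =
        (q u + (Cfsg.quadFormPlus m (ZMod 2) (u + w) - Cfsg.quadFormPlus m (ZMod 2) u - Cfsg.quadFormPlus m (ZMod 2) w)) + (q v + (Cfsg.quadFormPlus m (ZMod 2) (v + w) - Cfsg.quadFormPlus m (ZMod 2) v - Cfsg.quadFormPlus m (ZMod 2) w)) +
        (Cfsg.quadFormPlus m (ZMod 2) (u + v) - Cfsg.quadFormPlus m (ZMod 2) u - Cfsg.quadFormPlus m (ZMod 2) v)) ∧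
    ((∃ g : (Fin m ⊕ Fin m → ZMod 2) ≃ₗ[ZMod 2] (Fin m ⊕ Fin m → ZMod 2), ∀ v, q v + (Cfsg.quadFormPlus m (ZMod 2) (v + w) - Cfsg.quadFormPlus m (ZMod 2) v - Cfsg.quadFormPlus m (ZMod 2) w) = q (g v)) ↔ q w = 0) := by
  classical
  simp only [plus_polar'] at hq ⊢
  have hww := B_self_of_q Sum.swap q hq w
  refine ⟨?_, ?_⟩
  · intro u v
    rw [hq u v, map_add, LinearMap.add_apply]
    ring
  · constructor
    · rintro ⟨g, hg⟩
      obtain ⟨S, hS⟩ : ∃ S, S = ∑ v : Fin m ⊕ Fin m → ZMod 2, chi (q v) := ⟨_, rfl⟩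
      have hSne : S ≠ 0 := by rw [hS]; exact sum_ne_zero Sum.swap Sum.swap_swap q hq
      have e1 : ∑ v : Fin m ⊕ Fin m → ZMod 2, chi (q v + Bf Sum.swap v w) = S := by
        rw [hS]
        have := Fintype.sum_equiv g.toEquiv (fun v => chi (q (g v))) (fun v => chi (q v))
          (fun v => rfl)
        rw [← this]
        apply Finset.sum_congr rfl
        intro v _
        rw [hg v]
      have e2 := sum_shift Sum.swap q hq w
      rw [e1, ← hS] at e2
      have e4 : chi (q w) = 1 := by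
        have : (chi (q w) - 1) * S = 0 := by linear_combination -e2
        rcases mul_eq_zero.mp this with h | h
        · linarith
        · exact absurd h hSne
      exact chi_eq_one _ e4
    · intro hqw
      refine ⟨Tequiv Sum.swap w hww, fun v => ?_⟩
      rw [Tequiv_apply, q_Tmap Sum.swap q hq w v, hqw]; ring

end Cfsg.Agent.S2564
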