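import Cfsg.Statements.S2561
import Mathlib
import Cfsg.Agent.S2562
import Cfsg.Agent.S2564

set_option autoImplicit false
open Cfsg

namespace Cfsg.Agent.S2561

open Cfsg.Agent.S2562 Cfsg.Agent.S2564

section
variable (m : ℕ)

/-- the quadratic form `Q⁺ + B(·, w)` -/
def qw (w : Fin m ⊕ Fin m → ZMod 2) : (Fin m ⊕ Fin m → ZMod 2) → ZMod 2 :=
  fun v => Cfsg.quadFormPlus m (ZMod 2) v + Bf Sum.swap v w

lemma plus_pol (u v : Fin m ⊕ Fin m → ZMod 2) :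
    Cfsg.quadFormPlus m (ZMod 2) (u + v) = Cfsg.quadFormPlus m (ZMod 2) u
      + Cfsg.quadFormPlus m (ZMod 2) v + Bf Sum.swap u v := by
  rw [plus_polar, Bf_apply]

lemma qw_pol (w u v : Fin m ⊕ Fin m → ZMod 2) :
    qw m w (u + v) = qw m w u + qw m w v + Bf Sum.swap u v := by
  unfold qw
  rw [plus_pol, map_add, LinearMap.add_apply]; ring

lemma exists_w (q : (Fin m ⊕ Fin m → ZMod 2) → ZMod 2)
    (hq : ∀ u v, q (u + v) = q u + q v + Bf Sum.swap u v) : ∃ w, q = qw m w := by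
  classical
  have hadd : ∀ u v : Fin m ⊕ Fin m → ZMod 2,
      (q (u + v) + Cfsg.quadFormPlus m (ZMod 2) (u + v))
        = (q u + Cfsg.quadFormPlus m (ZMod 2) u) + (q v + Cfsg.quadFormPlus m (ZMod 2) v) := by
    intro u v
    rw [hq, plus_pol]
    have := zmod2_add_self (Bf Sum.swap u v)
    linear_combination this
  let L : (Fin m ⊕ Fin m → ZMod 2) →ₗ[ZMod 2] ZMod 2 :=
    (AddMonoidHom.mk' (fun v => q v + Cfsg.quadFormPlus m (ZMod 2) v) hadd).toZModLinearMap 2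
  have hL : ∀ v, L v = q v + Cfsg.quadFormPlus m (ZMod 2) v := fun v => rfl
  refine ⟨fun k => L (fun j => if Sum.swap k = j then 1 else 0), ?_⟩
  funext v
  have h1 := LinearMap.pi_apply_eq_sum_univ L v
  rw [hL] at h1
  unfold qw
  rw [Bf_apply]
  simp only [Sum.swap_swap, smul_eq_mul] at h1 ⊢
  rw [← h1]
  have := zmod2_add_self (Cfsg.quadFormPlus m (ZMod 2) v)
  linear_combination -this

lemma qw_inj : Function.Injective (qw m) := by
  intro w w' h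
  have h2 : ∀ u, Bf Sum.swap u (w - w') = 0 := by
    intro u
    have := congrFun h u
    unfold qw at this
    rw [map_sub, sub_eq_zero]
    exact add_left_cancel this
  have := (Bf_nondeg Sum.swap Sum.swap_swap).2 (w - w') h2
  exact sub_eq_zero.mp this

lemma card_P : Nat.card {q : (Fin m ⊕ Fin m → ZMod 2) → ZMod 2 //
    ∀ u v, q (u + v) = q u + q v + Bf Sum.swap u v} = 2 ^ (2 * m) := by
  have e : (Fin m ⊕ Fin m → ZMod 2) ≃ {q : (Fin m ⊕ Fin m → ZMod 2) → ZMod 2 //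
      ∀ u v, q (u + v) = q u + q v + Bf Sum.swap u v} :=
    Equiv.ofBijective (fun w => ⟨qw m w, qw_pol m w⟩)
      ⟨fun w w' h => qw_inj m (congrArg Subtype.val h), fun ⟨q, hq⟩ => by
        obtain ⟨w, rfl⟩ := exists_w m q hq; exact ⟨w, rfl⟩⟩
  rw [← Nat.card_congr e, Nat.card_eq_fintype_card, Fintype.card_fun, ZMod.card,
    Fintype.card_sum, Fintype.card_fin]
  ring_nf

lemma plus_type_of (w : Fin m ⊕ Fin m → ZMod 2) (hw : Cfsg.quadFormPlus m (ZMod 2) w = 0) :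
    ∃ g : (Fin m ⊕ Fin m → ZMod 2) ≃ₗ[ZMod 2] (Fin m ⊕ Fin m → ZMod 2),
      ∀ v, qw m w v = Cfsg.quadFormPlus m (ZMod 2) (g v) := by
  have hww := B_self_of_q Sum.swap (Cfsg.quadFormPlus m (ZMod 2)) (plus_pol m) w
  refine ⟨Tequiv Sum.swap w hww, fun v => ?_⟩
  rw [Tequiv_apply, q_Tmap Sum.swap _ (plus_pol m) w v, hw]
  unfold qw; ring

lemma plus_sum_pos : 0 < ∑ a : Fin m ⊕ Fin m → ZMod 2, chi (Cfsg.quadFormPlus m (ZMod 2) a) := by
  classical
  refine ts_half_sum_pos Sum.swap Sum.swap_swap _ (plus_polar m)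
    (LinearMap.ker (LinearMap.funLeft (ZMod 2) (ZMod 2)
      (Sum.inr : Fin m → Fin m ⊕ Fin m))) ?_ ?_
  · intro u hu
    have h1 : ∀ i, u (Sum.inr i) = 0 := fun i => congrFun (LinearMap.mem_ker.mp hu) i
    simp [Cfsg.quadFormPlus, h1]
  · have := finrank_ker_funLeft (Sum.inr : Fin m → Fin m ⊕ Fin m) Sum.inr_injective
    simp only [Fintype.card_sum, Fintype.card_fin] at this ⊢
    omega

lemma sum_qw (w : Fin m ⊕ Fin m → ZMod 2) :
    ∑ v : Fin m ⊕ Fin m → ZMod 2, chi (qw m w v) = chi (Cfsg.quadFormPlus m (ZMod 2) w)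
      * ∑ v : Fin m ⊕ Fin m → ZMod 2, chi (Cfsg.quadFormPlus m (ZMod 2) v) :=
  sum_shift Sum.swap _ (plus_pol m) w

lemma plus_type_inv (w : Fin m ⊕ Fin m → ZMod 2)
    (h : ∃ g : (Fin m ⊕ Fin m → ZMod 2) ≃ₗ[ZMod 2] (Fin m ⊕ Fin m → ZMod 2),
      ∀ v, qw m w v = Cfsg.quadFormPlus m (ZMod 2) (g v)) :
    Cfsg.quadFormPlus m (ZMod 2) w = 0 := by
  obtain ⟨g, hg⟩ := h
  have hpos := plus_sum_pos m
  have e1 : ∑ v : Fin m ⊕ Fin m → ZMod 2, chi (qw m w v)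
      = ∑ v : Fin m ⊕ Fin m → ZMod 2, chi (Cfsg.quadFormPlus m (ZMod 2) v) := by
    have := Fintype.sum_equiv g.toEquiv (fun v => chi (Cfsg.quadFormPlus m (ZMod 2) (g v)))
      (fun v => chi (Cfsg.quadFormPlus m (ZMod 2) v)) (fun v => rfl)
    rw [← this]
    apply Finset.sum_congr rfl
    intro v _
    rw [hg v]
  rw [sum_qw] at e1
  apply chi_eq_one
  have : (chi (Cfsg.quadFormPlus m (ZMod 2) w) - 1)
      * ∑ v : Fin m ⊕ Fin m → ZMod 2, chi (Cfsg.quadFormPlus m (ZMod 2) v) = 0 := by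
    linear_combination e1
  rcases mul_eq_zero.mp this with h | h
  · linarith
  · rw [h] at hpos; exact absurd hpos (lt_irrefl _)

lemma zmod2_sq (a : ZMod 2) : a ^ 2 = a := by revert a; decide

lemma card_zero (hm : 1 ≤ m) :
    (Finset.univ.filter (fun w : Fin m ⊕ Fin m → ZMod 2 =>
        Cfsg.quadFormPlus m (ZMod 2) w = 0)).card = 2 ^ (2 * m - 1) + 2 ^ (m - 1) ∧
    (Finset.univ.filter (fun w : Fin m ⊕ Fin m → ZMod 2 =>
        Cfsg.quadFormPlus m (ZMod 2) w = 1)).card = 2 ^ (2 * m - 1) - 2 ^ (m - 1) := by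
  classical
  obtain ⟨k, rfl⟩ : ∃ k, m = k + 1 := ⟨m - 1, by omega⟩
  obtain ⟨Z, hZ⟩ : ∃ Z, Z = (Finset.univ.filter (fun w : Fin (k+1) ⊕ Fin (k+1) → ZMod 2 =>
        Cfsg.quadFormPlus (k+1) (ZMod 2) w = 0)).card := ⟨_, rfl⟩
  obtain ⟨N, hN⟩ : ∃ N, N = (Finset.univ.filter (fun w : Fin (k+1) ⊕ Fin (k+1) → ZMod 2 =>
        Cfsg.quadFormPlus (k+1) (ZMod 2) w = 1)).card := ⟨_, rfl⟩
  rw [← hZ, ← hN]
  have hN' : N = (Finset.univ.filter (fun w : Fin (k+1) ⊕ Fin (k+1) → ZMod 2 =>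
        ¬ Cfsg.quadFormPlus (k+1) (ZMod 2) w = 0)).card := by
    rw [hN]
    congr 1
    apply Finset.filter_congr
    intro w _
    constructor
    · intro h; rw [h]; decide
    · intro h; exact zmod2_eq_one _ h
  have hsum : Z + N = 2 ^ (2 * (k + 1)) := by
    rw [hZ, hN', Finset.card_filter_add_card_filter_not, Finset.card_univ, Fintype.card_fun,
      ZMod.card, Fintype.card_sum, Fintype.card_fin]
    ring_nf
  have hS : ∑ v : Fin (k+1) ⊕ Fin (k+1) → ZMod 2, chi (Cfsg.quadFormPlus (k+1) (ZMod 2) v)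
      = (Z : ℤ) - N := by
    unfold chi
    rw [Finset.sum_ite, Finset.sum_const, Finset.sum_const, ← hZ, ← hN']
    simp
    ring
  have hsq := sum_sq Sum.swap Sum.swap_swap (Cfsg.quadFormPlus (k+1) (ZMod 2)) (plus_pol (k+1))
  have hpos := plus_sum_pos (k+1)
  rw [hS] at hsq hpos
  have hcard : (Fintype.card (Fin (k+1) ⊕ Fin (k+1) → ZMod 2) : ℤ) = (2 ^ (k+1)) ^ 2 := by
    rw [Fintype.card_fun, ZMod.card, Fintype.card_sum, Fintype.card_fin]
    push_cast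
    ring
  rw [hcard] at hsq
  have h2 : ((Z : ℤ) - N - 2 ^ (k+1)) * ((Z : ℤ) - N + 2 ^ (k+1)) = 0 := by
    linear_combination hsq
  have h3 : (Z : ℤ) - N = 2 ^ (k+1) := by
    rcases mul_eq_zero.mp h2 with h | h
    · linarith
    · have : (0:ℤ) < 2 ^ (k+1) := by positivity
      linarith
  have e1 : 2 * (k + 1) - 1 = 2 * k + 1 := by omega
  have e2 : k + 1 - 1 = k := by omega
  rw [e1, e2]
  have e3 : (2:ℕ) ^ (2 * (k + 1)) = 2 * 2 ^ (2 * k + 1) := by ring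
  have e4 : ((2:ℤ)) ^ (k + 1) = 2 * 2 ^ k := by ring
  rw [e3] at hsum
  rw [e4] at h3
  have h5 : (Z : ℤ) + N = 2 * 2 ^ (2 * k + 1) := by exact_mod_cast hsum
  have hZ' : (Z : ℤ) = 2 ^ (2 * k + 1) + 2 ^ k := by linarith
  have hZ'' : Z = 2 ^ (2 * k + 1) + 2 ^ k := by exact_mod_cast hZ'
  constructor
  · exact hZ''
  · omega

end

/-- relabeling of coordinates -/
def sig (k : ℕ) : (Fin k ⊕ Fin k) ⊕ Fin 2 → Fin (k+1) ⊕ Fin (k+1)
  | Sum.inl (Sum.inl i) => Sum.inl i.castSucc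
  | Sum.inl (Sum.inr i) => Sum.inr i.castSucc
  | Sum.inr j => if j = 0 then Sum.inl (Fin.last k) else Sum.inr (Fin.last k)

/-- inverse relabeling -/
def sigInv (k : ℕ) : Fin (k+1) ⊕ Fin (k+1) → (Fin k ⊕ Fin k) ⊕ Fin 2
  | Sum.inl j => if h : j.val < k then Sum.inl (Sum.inl ⟨j.val, h⟩) else Sum.inr 0
  | Sum.inr j => if h : j.val < k then Sum.inl (Sum.inr ⟨j.val, h⟩) else Sum.inr 1

/-- the relabeling as an equivalence -/
def sigEquiv (k : ℕ) : (Fin k ⊕ Fin k) ⊕ Fin 2 ≃ Fin (k+1) ⊕ Fin (k+1) where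
  toFun := sig k
  invFun := sigInv k
  left_inv := by
    rintro ((i | i) | j)
    · show sigInv k (Sum.inl i.castSucc) = _
      have h : (i.castSucc : Fin (k+1)).val < k := i.2
      simp only [sigInv, dif_pos h]
      rfl
    · show sigInv k (Sum.inr i.castSucc) = _
      have h : (i.castSucc : Fin (k+1)).val < k := i.2
      simp only [sigInv, dif_pos h]
      rfl
    · fin_cases j
      · show sigInv k (Sum.inl (Fin.last k)) = _
        have h : ¬ (Fin.last k).val < k := by simp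
        simp only [sigInv, dif_neg h]
        rfl
      · show sigInv k (Sum.inr (Fin.last k)) = _
        have h : ¬ (Fin.last k).val < k := by simp
        simp only [sigInv, dif_neg h]
        rfl
  right_inv := by
    rintro (j | j)
    · by_cases h : j.val < k
      · simp only [sigInv, dif_pos h]
        show Sum.inl (Fin.castSucc ⟨j.val, h⟩) = Sum.inl j
        rfl
      · simp only [sigInv, dif_neg h]
        show Sum.inl (Fin.last k) = Sum.inl j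
        congr 1
        apply Fin.ext
        have := j.2
        simp only [Fin.val_last]; omega
    · by_cases h : j.val < k
      · simp only [sigInv, dif_pos h]
        show Sum.inr (Fin.castSucc ⟨j.val, h⟩) = Sum.inr j
        rfl
      · simp only [sigInv, dif_neg h]
        show Sum.inr (Fin.last k) = Sum.inr j
        congr 1
        apply Fin.ext
        have := j.2
        simp only [Fin.val_last]; omega

/-- the special vector -/
def w0 (k : ℕ) : Fin (k+1) ⊕ Fin (k+1) → ZMod 2 :=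
  fun j => if j = Sum.inl (Fin.last k) ∨ j = Sum.inr (Fin.last k) then 1 else 0

lemma B_w0 (k : ℕ) (v : Fin (k+1) ⊕ Fin (k+1) → ZMod 2) :
    Bf Sum.swap v (w0 k) = v (Sum.inl (Fin.last k)) + v (Sum.inr (Fin.last k)) := by
  rw [Bf_apply, Fintype.sum_sum_type]
  simp [w0]

lemma Q_w0 (k : ℕ) : Cfsg.quadFormPlus (k+1) (ZMod 2) (w0 k) = 1 := by
  simp [Cfsg.quadFormPlus, w0]

lemma minus_relabel (k : ℕ) (v : Fin (k+1) ⊕ Fin (k+1) → ZMod 2) :
    Cfsg.quadFormMinus k (ZMod 2) 1 1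
      (LinearEquiv.funCongrLeft (ZMod 2) (ZMod 2) (sigEquiv k) v) = qw (k+1) (w0 k) v := by
  unfold qw
  rw [B_w0]
  simp only [Cfsg.quadFormMinus, Cfsg.quadFormPlus, LinearEquiv.funCongrLeft_apply,
    LinearMap.funLeft_apply, Fin.sum_univ_castSucc]
  have h1 : ∀ i : Fin k, sigEquiv k (Sum.inl (Sum.inl i)) = Sum.inl i.castSucc := fun i => rfl
  have h2 : ∀ i : Fin k, sigEquiv k (Sum.inl (Sum.inr i)) = Sum.inr i.castSucc := fun i => rfl
  have h3 : sigEquiv k (Sum.inr 0) = Sum.inl (Fin.last k) := rfl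
  have h4 : sigEquiv k (Sum.inr 1) = Sum.inr (Fin.last k) := rfl
  simp only [h1, h2, h3, h4, zmod2_sq]
  ring

lemma minus_type_of (k : ℕ) (w : Fin (k+1) ⊕ Fin (k+1) → ZMod 2)
    (hw : Cfsg.quadFormPlus (k+1) (ZMod 2) w = 1) :
    ∃ g : (Fin (k+1) ⊕ Fin (k+1) → ZMod 2) ≃ₗ[ZMod 2] ((Fin k ⊕ Fin k) ⊕ Fin 2 → ZMod 2),
      ∀ v, qw (k+1) w v = Cfsg.quadFormMinus k (ZMod 2) 1 1 (g v) := by
  have hpol := qw_pol (k+1) (w0 k)
  have huu := B_self_of_q Sum.swap (qw (k+1) (w0 k)) hpol (w + w0 k)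
  have hw0w0 := B_self_of_q Sum.swap (qw (k+1) (w0 k)) hpol (w0 k)
  have hq0u : qw (k+1) (w0 k) (w + w0 k) = 0 := by
    unfold qw
    rw [plus_pol, hw, Q_w0, map_add, LinearMap.add_apply, hw0w0, add_zero]
    have := zmod2_add_self (Bf Sum.swap w (w0 k))
    have h11 : (1 : ZMod 2) + 1 = 0 := by decide
    linear_combination this + h11
  refine ⟨(Tequiv Sum.swap (w + w0 k) huu).trans
    (LinearEquiv.funCongrLeft (ZMod 2) (ZMod 2) (sigEquiv k)), fun v => ?_⟩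
  rw [LinearEquiv.trans_apply, minus_relabel, Tequiv_apply, q_Tmap Sum.swap _ hpol, hq0u]
  unfold qw
  rw [map_add]
  have := zmod2_add_self (Bf Sum.swap v (w0 k))
  linear_combination -this

lemma minus_type_inv (k : ℕ) (w : Fin (k+1) ⊕ Fin (k+1) → ZMod 2)
    (h : ∃ g : (Fin (k+1) ⊕ Fin (k+1) → ZMod 2) ≃ₗ[ZMod 2] ((Fin k ⊕ Fin k) ⊕ Fin 2 → ZMod 2),
      ∀ v, qw (k+1) w v = Cfsg.quadFormMinus k (ZMod 2) 1 1 (g v)) :
    Cfsg.quadFormPlus (k+1) (ZMod 2) w = 1 := by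
  obtain ⟨g, hg⟩ := h
  have hpos := plus_sum_pos (k+1)
  have hpos' := plus_sum_pos k
  have e1 : ∑ v : Fin (k+1) ⊕ Fin (k+1) → ZMod 2, chi (qw (k+1) w v)
      = ∑ v : (Fin k ⊕ Fin k) ⊕ Fin 2 → ZMod 2, chi (Cfsg.quadFormMinus k (ZMod 2) 1 1 v) := by
    have := Fintype.sum_equiv g.toEquiv (fun v => chi (Cfsg.quadFormMinus k (ZMod 2) 1 1 (g v)))
      (fun v => chi (Cfsg.quadFormMinus k (ZMod 2) 1 1 v)) (fun v => rfl)
    rw [← this]
    apply Finset.sum_congr rfl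
    intro v _
    rw [hg v]
  rw [sum_qw, minus_sum] at e1
  apply zmod2_eq_one
  intro h0
  rw [h0, chi_zero, one_mul] at e1
  linarith

/-- Fix the non-singular alternating form on the 2m-dimensional space over the field of two elements obtained by polarizing the plus-type form Σ xᵢyᵢ (m ≥ 1). The functions q on the space with q(u + v) = q(u) + q(v) + f(u, v) (the quadratic forms polarizing to f) number 2^(2m); each is equivalent under an invertible linear map either to the plus-type form or to the minus-type form Σ xᵢyᵢ + (z₁² + z₁z₂ + z₂²); and those of plus type number 2^(2m−1) + 2^(m−1), those of minus type 2^(2m−1) − 2^(m−1). -/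
theorem result (m : ℕ) (hm : 1 ≤ m) :
    Nat.card {q : (Fin m ⊕ Fin m → ZMod 2) → ZMod 2 // (∀ u v : (Fin m ⊕ Fin m → ZMod 2), q (u + v) = q u + q v + (Cfsg.quadFormPlus m (ZMod 2) (u + v) - Cfsg.quadFormPlus m (ZMod 2) u - Cfsg.quadFormPlus m (ZMod 2) v))} = 2 ^ (2 * m) ∧
    (∀ q : (Fin m ⊕ Fin m → ZMod 2) → ZMod 2, (∀ u v : (Fin m ⊕ Fin m → ZMod 2), q (u + v) = q u + q v + (Cfsg.quadFormPlus m (ZMod 2) (u + v) - Cfsg.quadFormPlus m (ZMod 2) u - Cfsg.quadFormPlus m (ZMod 2) v)) →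
      (∃ g : (Fin m ⊕ Fin m → ZMod 2) ≃ₗ[ZMod 2] (Fin m ⊕ Fin m → ZMod 2), ∀ v, q v = Cfsg.quadFormPlus m (ZMod 2) (g v)) ∨
      (∃ g : (Fin m ⊕ Fin m → ZMod 2) ≃ₗ[ZMod 2] ((Fin (m - 1) ⊕ Fin (m - 1)) ⊕ Fin 2 → ZMod 2), ∀ v, q v = Cfsg.quadFormMinus (m - 1) (ZMod 2) 1 1 (g v))) ∧
    Nat.card {q : (Fin m ⊕ Fin m → ZMod 2) → ZMod 2 // (∀ u v : (Fin m ⊕ Fin m → ZMod 2), q (u + v) = q u + q v + (Cfsg.quadFormPlus m (ZMod 2) (u + v) - Cfsg.quadFormPlus m (ZMod 2) u - Cfsg.quadFormPlus m (ZMod 2) v)) ∧ ∃ g : (Fin m ⊕ Fin m → ZMod 2) ≃ₗ[ZMod 2] (Fin m ⊕ Fin m → ZMod 2), ∀ v, q v = Cfsg.quadFormPlus m (ZMod 2) (g v)} = 2 ^ (2 * m - 1) + 2 ^ (m - 1) ∧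
    Nat.card {q : (Fin m ⊕ Fin m → ZMod 2) → ZMod 2 // (∀ u v : (Fin m ⊕ Fin m → ZMod 2), q (u + v) = q u + q v + (Cfsg.quadFormPlus m (ZMod 2) (u + v) - Cfsg.quadFormPlus m (ZMod 2) u - Cfsg.quadFormPlus m (ZMod 2) v)) ∧ ∃ g : (Fin m ⊕ Fin m → ZMod 2) ≃ₗ[ZMod 2] ((Fin (m - 1) ⊕ Fin (m - 1)) ⊕ Fin 2 → ZMod 2), ∀ v, q v = Cfsg.quadFormMinus (m - 1) (ZMod 2) 1 1 (g v)} = 2 ^ (2 * m - 1) - 2 ^ (m - 1) := by
  classical
  simp only [plus_polar']
  obtain ⟨k, rfl⟩ : ∃ k, m = k + 1 := ⟨m - 1, by omega⟩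
  refine ⟨card_P (k+1), ?_, ?_, ?_⟩
  · intro q hq
    obtain ⟨w, rfl⟩ := exists_w (k+1) q hq
    rcases zmod2_cases (Cfsg.quadFormPlus (k+1) (ZMod 2) w) with h | h
    · exact Or.inl (plus_type_of (k+1) w h)
    · exact Or.inr (minus_type_of k w h)
  · rw [← (card_zero (k+1) (by omega)).1]
    have e : {w : Fin (k+1) ⊕ Fin (k+1) → ZMod 2 // Cfsg.quadFormPlus (k+1) (ZMod 2) w = 0} ≃
        {q : (Fin (k+1) ⊕ Fin (k+1) → ZMod 2) → ZMod 2 //
          (∀ u v, q (u + v) = q u + q v + Bf Sum.swap u v) ∧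
          ∃ g : (Fin (k+1) ⊕ Fin (k+1) → ZMod 2) ≃ₗ[ZMod 2] (Fin (k+1) ⊕ Fin (k+1) → ZMod 2),
            ∀ v, q v = Cfsg.quadFormPlus (k+1) (ZMod 2) (g v)} :=
      Equiv.ofBijective (fun w => ⟨qw (k+1) w.1, qw_pol (k+1) w.1, plus_type_of (k+1) w.1 w.2⟩)
        ⟨fun w w' h => Subtype.ext (qw_inj (k+1) (congrArg Subtype.val h)), fun ⟨q, hq, hg⟩ => by
          obtain ⟨w, rfl⟩ := exists_w (k+1) q hq
          exact ⟨⟨w, plus_type_inv (k+1) w hg⟩, rfl⟩⟩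
    rw [← Nat.card_congr e, Nat.card_eq_fintype_card, Fintype.card_subtype]
  · rw [← (card_zero (k+1) (by omega)).2]
    have e : {w : Fin (k+1) ⊕ Fin (k+1) → ZMod 2 // Cfsg.quadFormPlus (k+1) (ZMod 2) w = 1} ≃
        {q : (Fin (k+1) ⊕ Fin (k+1) → ZMod 2) → ZMod 2 //
          (∀ u v, q (u + v) = q u + q v + Bf Sum.swap u v) ∧
          ∃ g : (Fin (k+1) ⊕ Fin (k+1) → ZMod 2) ≃ₗ[ZMod 2] ((Fin k ⊕ Fin k) ⊕ Fin 2 → ZMod 2),
            ∀ v, q v = Cfsg.quadFormMinus k (ZMod 2) 1 1 (g v)} :=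
      Equiv.ofBijective (fun w => ⟨qw (k+1) w.1, qw_pol (k+1) w.1, minus_type_of k w.1 w.2⟩)
        ⟨fun w w' h => Subtype.ext (qw_inj (k+1) (congrArg Subtype.val h)), fun ⟨q, hq, hg⟩ => by
          obtain ⟨w, rfl⟩ := exists_w (k+1) q hq
          exact ⟨⟨w, minus_type_inv k w hg⟩, rfl⟩⟩
    have h1 := Nat.card_congr e
    rw [Nat.card_eq_fintype_card, Fintype.card_subtype] at h1
    exact h1.symm

end Cfsg.Agent.S2561
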