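import Cfsg.Statements.S2565
import Cfsg.Agent.Helper16.Omega6Plus
import Cfsg.Agent.S0256
import Cfsg.Agent.S0302
import Cfsg.Agent.S0287

set_option autoImplicit false
open Cfsg

namespace Cfsg.Agent.S2565

open Cfsg.Agent.Helper16 in

/-- The commutator subgroup of the full orthogonal group of the plus-type form Σ xᵢyᵢ in dimension 6 over the field of two elements (the group Ω⁺₆(2), of index 2) is isomorphic to the alternating group of degree 8. -/
theorem result :
    (Cfsg.Omega (ZMod 2) (Cfsg.quadFormPlus 3 (ZMod 2))).index = 2 ∧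
    Nonempty (↥(Cfsg.Omega (ZMod 2) (Cfsg.quadFormPlus 3 (ZMod 2))) ≃* alternatingGroup (Fin 8)) := by
  haveI : Fact (Nat.Prime 2) := ⟨Nat.prime_two⟩
  have hidx : (Omega (ZMod 2) (quadFormPlus 3 (ZMod 2))).index = 2 := by
    have h := Omega_index_char2 (qfPlus 3 (ZMod 2)) qfPlus_nondegenerate
      (Or.inr (by simp)) (by simp)
    rw [coe_qfPlus] at h
    exact h
  refine ⟨hidx, ?_⟩
  have hO : Nat.card ↥(isometryGroup (ZMod 2) (quadFormPlus 3 (ZMod 2))) = 40320 := by
    rw [Cfsg.Agent.S0287.result (F := ZMod 2) (q := 2) (by simp [ZMod.card]) 3 (by norm_num)]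
    simp [Finset.prod_range_succ]
  have hΩ : Nat.card ↥(Omega (ZMod 2) (quadFormPlus 3 (ZMod 2))) = 20160 := by
    have h := (Omega (ZMod 2) (quadFormPlus 3 (ZMod 2))).card_mul_index
    rw [hidx, hO] at h
    omega
  obtain ⟨e1⟩ := Cfsg.Agent.S0302.result (F := ZMod 2)
  obtain ⟨e2⟩ := Cfsg.Agent.S0256.result (F := ZMod 2) (by simp [ZMod.card])
  have hA : Nat.card ↥(alternatingGroup (Fin 8)) = 20160 := by
    have h := two_mul_card_alternatingGroup (α := Fin 8)
    rw [Nat.card_eq_fintype_card]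
    rw [Fintype.card_perm, Fintype.card_fin] at h
    have h8 : Nat.factorial 8 = 40320 := by decide
    omega
  have hP : Nat.card (POmega (ZMod 2) (quadFormPlus 3 (ZMod 2))) = 20160 := by
    rw [Nat.card_congr (e1.trans e2).toEquiv, hA]
  have hZ : Nat.card ↥(Subgroup.center ↥(Omega (ZMod 2) (quadFormPlus 3 (ZMod 2)))) = 1 := by
    have h := Subgroup.card_eq_card_quotient_mul_card_subgroup
      (Subgroup.center ↥(Omega (ZMod 2) (quadFormPlus 3 (ZMod 2))))
    rw [hΩ] at h
    have hP' : Nat.card (↥(Omega (ZMod 2) (quadFormPlus 3 (ZMod 2))) ⧸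
        Subgroup.center ↥(Omega (ZMod 2) (quadFormPlus 3 (ZMod 2)))) = 20160 := hP
    rw [hP'] at h
    omega
  have hbot : Subgroup.center ↥(Omega (ZMod 2) (quadFormPlus 3 (ZMod 2))) = ⊥ :=
    Subgroup.eq_bot_of_card_eq _ hZ
  exact ⟨(QuotientGroup.quotientBot.symm.trans
    (QuotientGroup.quotientMulEquivOfEq hbot.symm)).trans (e1.trans e2)⟩

end Cfsg.Agent.S2565
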