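import Cfsg.Statements.S2567

set_option autoImplicit false
open Cfsg

namespace Cfsg.Agent.S2567

theorem center_card_coprime {F : Type*} [Field F] [Fintype F] {q n r : ℕ} (hF : Fintype.card F = q)
    (hr : r.Prime) (hdiv : ¬ r ∣ q - 1) :
    (Nat.card (Subgroup.center (GL (Fin n) F))).Coprime r := by
  classical
  have h1 : Nat.card (Subgroup.center (GL (Fin n) F)) ∣ q - 1 := by
    rw [Matrix.GeneralLinearGroup.center_eq_range_scalar]
    have := Subgroup.card_range_dvd (Matrix.GeneralLinearGroup.scalar (Fin n) (R := F))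
    have h2 : Nat.card Fˣ = q - 1 := by
      rw [Nat.card_eq_fintype_card, Fintype.card_units, hF]
    rwa [h2] at this
  rw [Nat.coprime_comm, hr.coprime_iff_not_dvd]
  exact fun h => hdiv (dvd_trans h h1)

/-- Lifting elements of prime order from PGL to GL: let F be a finite field with q elements, r a prime not dividing q − 1, and x an element of order r in GL_n(F) modulo its centre (the scalar matrices). Then x has exactly one preimage in GL_n(F) of order r. -/
theorem result {F : Type*} [Field F] [Fintype F] {q n r : ℕ} (hF : Fintype.card F = q) (hr : r.Prime) (hdiv : ¬ r ∣ q - 1) (x : GL (Fin n) F ⧸ Subgroup.center (GL (Fin n) F)) (hx : orderOf x = r) : ∃! g : GL (Fin n) F, (QuotientGroup.mk g : GL (Fin n) F ⧸ Subgroup.center (GL (Fin n) F)) = x ∧ orderOf g = r := by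
  classical
  have : Fact r.Prime := ⟨hr⟩
  have hcop := center_card_coprime (n := n) hF hr hdiv
  have hx1 : x ≠ 1 := by
    intro h
    rw [h, orderOf_one] at hx
    exact hr.one_lt.ne hx
  obtain ⟨g0, rfl⟩ := QuotientGroup.mk_surjective x
  have hg0 : g0 ^ r ∈ Subgroup.center (GL (Fin n) F) := by
    rw [← QuotientGroup.eq_one_iff, QuotientGroup.mk_pow, ← hx]
    exact pow_orderOf_eq_one _
  obtain ⟨z, hz⟩ := (powCoprime hcop).surjective ⟨g0 ^ r, hg0⟩
  have hz' : (z : GL (Fin n) F) ^ r = g0 ^ r := by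
    have := congrArg Subtype.val hz
    simpa [powCoprime] using this
  have hzc : ∀ h : GL (Fin n) F, h * (z : GL (Fin n) F) = (z : GL (Fin n) F) * h :=
    fun h => Subgroup.mem_center_iff.mp z.2 h
  refine ⟨g0 * (z : GL (Fin n) F)⁻¹, ⟨?_, ?_⟩, ?_⟩
  · rw [QuotientGroup.mk_mul, QuotientGroup.mk_inv]
    have : (QuotientGroup.mk (z : GL (Fin n) F) : GL (Fin n) F ⧸ Subgroup.center (GL (Fin n) F)) = 1 :=
      (QuotientGroup.eq_one_iff _).mpr z.2
    rw [this, inv_one, mul_one]
  · apply orderOf_eq_prime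
    · have hcomm : Commute g0 (z : GL (Fin n) F)⁻¹ := by
        have : Commute g0 (z : GL (Fin n) F) := hzc g0
        exact this.inv_right
      rw [hcomm.mul_pow, inv_pow, hz', mul_inv_cancel]
    · intro h
      apply hx1
      have : g0 = (z : GL (Fin n) F) := by
        have := congrArg (fun t => t * (z : GL (Fin n) F)) h
        simpa using this
      rw [this]
      exact (QuotientGroup.eq_one_iff _).mpr z.2
  · rintro g' ⟨hg'mk, hg'ord⟩
    -- g' = (g0 z⁻¹) w with w central, w^r = 1
    set g := g0 * (z : GL (Fin n) F)⁻¹ with hgdef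
    have hgmk : (QuotientGroup.mk g : GL (Fin n) F ⧸ Subgroup.center (GL (Fin n) F)) = QuotientGroup.mk g0 := by
      rw [hgdef, QuotientGroup.mk_mul, QuotientGroup.mk_inv]
      have : (QuotientGroup.mk (z : GL (Fin n) F) : GL (Fin n) F ⧸ Subgroup.center (GL (Fin n) F)) = 1 :=
        (QuotientGroup.eq_one_iff _).mpr z.2
      rw [this, inv_one, mul_one]
    have hgr : g ^ r = 1 := by
      have hcomm : Commute g0 (z : GL (Fin n) F)⁻¹ := by
        have : Commute g0 (z : GL (Fin n) F) := hzc g0
        exact this.inv_right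
      rw [hgdef, hcomm.mul_pow, inv_pow, hz', mul_inv_cancel]
    have hw : g⁻¹ * g' ∈ Subgroup.center (GL (Fin n) F) := by
      rw [← QuotientGroup.eq, hgmk, hg'mk]
    have hwc : Commute g (g⁻¹ * g') := (Subgroup.mem_center_iff.mp hw g)
    have hg'r : g' ^ r = 1 := by rw [← hg'ord]; exact pow_orderOf_eq_one _
    have hwr : (g⁻¹ * g') ^ r = 1 := by
      have h1 : g' = g * (g⁻¹ * g') := by group
      have h2 : g' ^ r = g ^ r * (g⁻¹ * g') ^ r := by
        conv_lhs => rw [h1]
        exact hwc.mul_pow r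
      rw [hg'r, hgr, one_mul] at h2
      exact h2.symm
    have hw1 : (⟨g⁻¹ * g', hw⟩ : Subgroup.center (GL (Fin n) F)) = 1 := by
      have h1 : orderOf (⟨g⁻¹ * g', hw⟩ : Subgroup.center (GL (Fin n) F)) ∣ r := by
        apply orderOf_dvd_of_pow_eq_one
        apply Subtype.ext
        simpa using hwr
      have h2 : orderOf (⟨g⁻¹ * g', hw⟩ : Subgroup.center (GL (Fin n) F)) ∣ Nat.card (Subgroup.center (GL (Fin n) F)) :=
        orderOf_dvd_natCard _
      have h3 := Nat.dvd_gcd h2 h1
      rw [hcop.gcd_eq_one, Nat.dvd_one] at h3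
      exact orderOf_eq_one_iff.mp h3
    have hw2 : g⁻¹ * g' = 1 := congrArg Subtype.val hw1
    have : g' = g := by
      have := congrArg (fun t => g * t) hw2
      simpa using this
    exact this

end Cfsg.Agent.S2567
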