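import Cfsg.Statements.S2571
import Mathlib

set_option autoImplicit false
open Cfsg

namespace Cfsg.Agent.S2571

open Matrix

section lin
variable {F : Type*} [Field F]

lemma finrank_ker_pow_succ_le {V : Type*} [AddCommGroup V] [Module F V] [FiniteDimensional F V]
    (f : V →ₗ[F] V) (k : ℕ) :
    Module.finrank F (LinearMap.ker (f ^ (k+1))) ≤
      Module.finrank F (LinearMap.ker (f ^ k)) + Module.finrank F (LinearMap.ker f) := by
  have h1 := LinearMap.finrank_range_add_finrank_ker ((f ^ k).domRestrict (LinearMap.ker (f ^ (k+1))))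
  have h2 : Module.finrank F (LinearMap.range ((f ^ k).domRestrict (LinearMap.ker (f ^ (k+1)))))
      ≤ Module.finrank F (LinearMap.ker f) := by
    apply Submodule.finrank_mono
    rintro _ ⟨x, rfl⟩
    rw [LinearMap.mem_ker]
    have hx : (f ^ (k+1)) (x : V) = 0 := LinearMap.mem_ker.mp x.2
    have e : ∀ y : V, (f ^ (k+1)) y = f ((f ^ k) y) := fun y => by rw [pow_succ']; rfl
    exact (e x.1).symm.trans hx
  have h3 : Module.finrank F (LinearMap.ker ((f ^ k).domRestrict (LinearMap.ker (f ^ (k+1)))))
      ≤ Module.finrank F (LinearMap.ker (f ^ k)) := by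
    rw [← Submodule.finrank_map_subtype_eq (LinearMap.ker (f ^ (k+1)))
      (LinearMap.ker ((f ^ k).domRestrict (LinearMap.ker (f ^ (k+1)))))]
    apply Submodule.finrank_mono
    rintro _ ⟨x, hx, rfl⟩
    exact hx
  omega

lemma finrank_ker_pow_le {V : Type*} [AddCommGroup V] [Module F V] [FiniteDimensional F V]
    (f : V →ₗ[F] V) (k : ℕ) :
    Module.finrank F (LinearMap.ker (f ^ k)) ≤ k * Module.finrank F (LinearMap.ker f) := by
  induction k with
  | zero =>
    rw [pow_zero, zero_mul]
    have : LinearMap.ker (1 : V →ₗ[F] V) = ⊥ := LinearMap.ker_id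
    rw [this, finrank_bot]
  | succ k ih =>
    have := finrank_ker_pow_succ_le f k
    rw [Nat.succ_mul]
    omega

lemma commute_aeval {A : Type*} [Ring A] [Algebra F A] (D N : A) (h : Commute D N)
    (f : Polynomial F) : Commute D (Polynomial.aeval N f) := by
  induction f using Polynomial.induction_on' with
  | add p q hp hq => rw [map_add]; exact hp.add_right hq
  | monomial n a =>
    rw [Polynomial.aeval_monomial]
    exact (Algebra.commute_algebraMap_right a D).mul_right (h.pow_right n)

end lin

/-- Centraliser of a regular unipotent element in GL_n(q): if u is an invertible n × n matrix over the field with q elements, n ≥ 1, with (u − 1)^n = 0 and rank(u − 1) = n − 1 (a single unipotent Jordan block), then its centraliser in GL_n(q) has order (q − 1) q^(n−1). -/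
theorem result {F : Type*} [Field F] [Fintype F] {q n : ℕ} (hF : Fintype.card F = q) (hn : 1 ≤ n) (u : GL (Fin n) F) (hnil : ((u : Matrix (Fin n) (Fin n) F) - 1) ^ n = 0) (hreg : ((u : Matrix (Fin n) (Fin n) F) - 1).rank = n - 1) : Nat.card ↥(Subgroup.centralizer ({u} : Set (GL (Fin n) F))) = (q - 1) * q ^ (n - 1) := by
  classical
  subst hF
  haveI : Nonempty (Fin n) := ⟨⟨0, hn⟩⟩
  set N : Matrix (Fin n) (Fin n) F := (u : Matrix (Fin n) (Fin n) F) - 1 with hN
  set Nl : (Fin n → F) →ₗ[F] (Fin n → F) := Matrix.toLinAlgEquiv' N with hNl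
  have hNlapp : ∀ x, Nl x = N *ᵥ x := fun x => Matrix.toLinAlgEquiv'_apply N x
  have hrange : Module.finrank F (LinearMap.range Nl) = n - 1 := by
    rw [← hreg]; rfl
  have hker : Module.finrank F (LinearMap.ker Nl) = 1 := by
    have := LinearMap.finrank_range_add_finrank_ker Nl
    rw [Module.finrank_fin_fun] at this
    omega
  have hNln : Nl ^ n = 0 := by rw [hNl, ← map_pow, hnil, map_zero]
  have hpow : Nl ^ (n - 1) ≠ 0 := by
    intro h0
    have h1 := finrank_ker_pow_le Nl (n - 1)
    rw [h0, hker, mul_one] at h1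
    have : LinearMap.ker (0 : (Fin n → F) →ₗ[F] (Fin n → F)) = ⊤ := LinearMap.ker_zero
    rw [this, finrank_top, Module.finrank_fin_fun] at h1
    omega
  obtain ⟨v, hv⟩ : ∃ v, (Nl ^ (n - 1)) v ≠ 0 := by
    by_contra hall
    apply hpow
    apply LinearMap.ext
    intro x
    by_contra hx
    exact hall ⟨x, hx⟩
  -- the cyclic subspace generated by v
  have haev : ∀ f : Polynomial F, Polynomial.aeval Nl f = Matrix.toLinAlgEquiv' (Polynomial.aeval N f) :=
    fun f => Polynomial.aeval_algHom_apply Matrix.toLinAlgEquiv' N f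
  have haevapp : ∀ (f : Polynomial F), (Polynomial.aeval Nl f) v = (Polynomial.aeval N f) *ᵥ v :=
    fun f => by rw [haev, Matrix.toLinAlgEquiv'_apply]
  have hcyc : ∀ w : Fin n → F, ∃ f : Polynomial F, (Polynomial.aeval N f) *ᵥ v = w := by
    let ψ : Polynomial F →ₗ[F] (Fin n → F) :=
      (LinearMap.applyₗ v).comp (Polynomial.aeval Nl).toLinearMap
    have hψ : ∀ f, ψ f = (Polynomial.aeval Nl f) v := fun f => rfl
    have hWinv : ∀ w ∈ LinearMap.range ψ, Nl w ∈ LinearMap.range ψ := by
      rintro _ ⟨f, rfl⟩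
      refine ⟨Polynomial.X * f, ?_⟩
      rw [hψ, hψ, map_mul, Polynomial.aeval_X]; rfl
    have hvW : v ∈ LinearMap.range ψ := ⟨1, by rw [hψ, map_one]; rfl⟩
    have hWtop : LinearMap.range ψ = ⊤ := by
      apply Submodule.eq_top_of_finrank_eq
      rw [Module.finrank_fin_fun]
      have hle : Module.finrank F (LinearMap.range ψ) ≤ n := by
        have := Submodule.finrank_le (LinearMap.range ψ)
        rwa [Module.finrank_fin_fun] at this
      by_contra hne
      have hlt : Module.finrank F (LinearMap.range ψ) ≤ n - 1 := by omega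
      have h1 := Module.End.ker_pow_le_ker_pow_finrank (Nl.restrict hWinv) n
      have h2 : (Nl.restrict hWinv) ^ n = 0 := by
        rw [Module.End.pow_restrict]; ext x; simp [hNln]
      rw [h2, LinearMap.ker_zero, top_le_iff] at h1
      have h3 : (Nl.restrict hWinv) ^ (Module.finrank F (LinearMap.range ψ)) = 0 :=
        LinearMap.ker_eq_top.mp h1
      rw [Module.End.pow_restrict] at h3
      have h4 : (Nl ^ (Module.finrank F (LinearMap.range ψ))) v = 0 := by
        have := congrArg (fun g => ((g ⟨v, hvW⟩ : LinearMap.range ψ) : Fin n → F)) h3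
        simpa using this
      apply hv
      have : n - 1 = (n - 1 - Module.finrank F (LinearMap.range ψ))
          + Module.finrank F (LinearMap.range ψ) := by omega
      rw [this, pow_add, Module.End.mul_apply, h4, map_zero]
    intro w
    have hw : w ∈ LinearMap.range ψ := hWtop ▸ Submodule.mem_top
    obtain ⟨f, hf⟩ := hw
    exact ⟨f, by rw [← haevapp, ← hψ, hf]⟩
  -- elements of the centralizer commute with N
  have hcommN : ∀ g : GL (Fin n) F, g ∈ Subgroup.centralizer ({u} : Set (GL (Fin n) F)) →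
      (g : Matrix (Fin n) (Fin n) F) * N = N * (g : Matrix (Fin n) (Fin n) F) := by
    intro g hg
    have h1 : u * g = g * u := Subgroup.mem_centralizer_iff.mp hg u (Set.mem_singleton u)
    have h2 : (u : Matrix (Fin n) (Fin n) F) * (g : Matrix (Fin n) (Fin n) F)
        = (g : Matrix (Fin n) (Fin n) F) * (u : Matrix (Fin n) (Fin n) F) := by
      rw [← Units.val_mul, ← Units.val_mul, h1]
    rw [hN, mul_sub, sub_mul, mul_one, one_mul, h2]
  -- v is not in the range of N
  have hvrange : ∀ y : Fin n → F, N *ᵥ y ≠ v := by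
    intro y hy
    apply hv
    rw [← hy, ← hNlapp, ← Module.End.mul_apply, ← pow_succ, Nat.sub_add_cancel hn, hNln]
    rfl
  -- the bijection
  have hΦwd : ∀ g : Subgroup.centralizer ({u} : Set (GL (Fin n) F)),
      ((g : GL (Fin n) F) : Matrix (Fin n) (Fin n) F) *ᵥ v ∉ LinearMap.range Nl := by
    rintro ⟨g, hg⟩ ⟨x, hx⟩
    rw [hNlapp] at hx
    apply hvrange (((g⁻¹ : GL (Fin n) F) : Matrix (Fin n) (Fin n) F) *ᵥ x)
    have h1 := hcommN g⁻¹ (inv_mem hg)
    rw [Matrix.mulVec_mulVec, ← h1, ← Matrix.mulVec_mulVec, hx, Matrix.mulVec_mulVec,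
      ← Units.val_mul, inv_mul_cancel, Units.val_one, Matrix.one_mulVec]
  let Φ : Subgroup.centralizer ({u} : Set (GL (Fin n) F)) →
      {w : Fin n → F // w ∉ LinearMap.range Nl} :=
    fun g => ⟨((g : GL (Fin n) F) : Matrix (Fin n) (Fin n) F) *ᵥ v, hΦwd g⟩
  have hΦinj : Function.Injective Φ := by
    rintro ⟨g, hg⟩ ⟨g', hg'⟩ h
    have h1 : (g : Matrix (Fin n) (Fin n) F) *ᵥ v = (g' : Matrix (Fin n) (Fin n) F) *ᵥ v :=
      congrArg Subtype.val h
    have hD : Commute ((g : Matrix (Fin n) (Fin n) F) - (g' : Matrix (Fin n) (Fin n) F)) N := by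
      have e1 := hcommN g hg
      have e2 := hcommN g' hg'
      show _ * _ = _ * _
      rw [sub_mul, e1, e2]
      exact (mul_sub _ _ _).symm
    have h2 : ∀ w : Fin n → F,
        ((g : Matrix (Fin n) (Fin n) F) - (g' : Matrix (Fin n) (Fin n) F)) *ᵥ w = 0 := by
      intro w
      obtain ⟨f, rfl⟩ := hcyc w
      rw [Matrix.mulVec_mulVec, (commute_aeval _ _ hD f).eq, ← Matrix.mulVec_mulVec,
        Matrix.sub_mulVec, h1, sub_self, Matrix.mulVec_zero]
    have h3 : (g : Matrix (Fin n) (Fin n) F) - (g' : Matrix (Fin n) (Fin n) F) = 0 := by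
      apply Matrix.toLin'.injective
      apply LinearMap.ext
      intro w
      rw [Matrix.toLin'_apply, h2 w]; simp
    apply Subtype.ext
    apply Units.ext
    exact sub_eq_zero.mp h3
  have hΦsurj : Function.Surjective Φ := by
    rintro ⟨w, hw⟩
    obtain ⟨f, hf⟩ := hcyc w
    have hc : f.coeff 0 ≠ 0 := by
      intro h0
      apply hw
      have h1 := Polynomial.divX_mul_X_add f
      rw [h0, Polynomial.C_0, add_zero, mul_comm] at h1
      refine ⟨(Polynomial.aeval N f.divX) *ᵥ v, ?_⟩
      rw [hNlapp, Matrix.mulVec_mulVec, ← hf]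
      conv_rhs => rw [← h1]
      rw [map_mul, Polynomial.aeval_X]
    have hdecomp : Polynomial.aeval N f
        = algebraMap F (Matrix (Fin n) (Fin n) F) (f.coeff 0) + N * Polynomial.aeval N f.divX := by
      conv_lhs => rw [← Polynomial.divX_mul_X_add f]
      rw [map_add, map_mul, Polynomial.aeval_X, Polynomial.aeval_C, add_comm,
        (commute_aeval N N (Commute.refl N) f.divX).eq]
    have hnilM : IsNilpotent (N * Polynomial.aeval N f.divX) := by
      refine ⟨n, ?_⟩
      rw [(commute_aeval N N (Commute.refl N) f.divX).mul_pow, hnil, zero_mul]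
    have hunit : IsUnit (Polynomial.aeval N f) := by
      rw [hdecomp]
      exact hnilM.isUnit_add_left_of_commute ((IsUnit.mk0 _ hc).map _)
        (Algebra.commute_algebraMap_right _ _)
    have hmem : hunit.unit ∈ Subgroup.centralizer ({u} : Set (GL (Fin n) F)) := by
      rw [Subgroup.mem_centralizer_iff]
      intro h hh
      rw [Set.mem_singleton_iff] at hh
      subst hh
      apply Units.ext
      rw [Units.val_mul, Units.val_mul, IsUnit.unit_spec]
      have h1 : (h : Matrix (Fin n) (Fin n) F) = N + 1 := by rw [hN]; abel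
      rw [h1, add_mul, mul_add, one_mul, mul_one, (commute_aeval N N (Commute.refl N) f).eq]
    refine ⟨⟨hunit.unit, hmem⟩, ?_⟩
    apply Subtype.ext
    show (hunit.unit : Matrix (Fin n) (Fin n) F) *ᵥ v = w
    rw [IsUnit.unit_spec, hf]
  rw [Nat.card_congr (Equiv.ofBijective Φ ⟨hΦinj, hΦsurj⟩)]
  rw [Nat.card_eq_fintype_card, Fintype.card_subtype_compl, ← Nat.card_eq_fintype_card,
    ← Nat.card_eq_fintype_card, Module.natCard_eq_pow_finrank (K := F) (V := Fin n → F),
    Module.natCard_eq_pow_finrank (K := F) (V := LinearMap.range Nl), hrange,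
    Module.finrank_fin_fun, Nat.card_eq_fintype_card]
  have : Fintype.card F ^ n = Fintype.card F * Fintype.card F ^ (n - 1) := by
    rw [← pow_succ']; congr 1; omega
  rw [this, Nat.sub_one_mul]

end Cfsg.Agent.S2571
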