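import Cfsg.Statements.S2573

set_option autoImplicit false
open Cfsg

namespace Cfsg.Agent.S2573

theorem finrank_ker_pow_le {F V : Type*} [Field F] [AddCommGroup V] [Module F V] [FiniteDimensional F V]
    (N : Module.End F V) (h1 : Module.finrank F (LinearMap.ker N) ≤ 1) (k : ℕ) :
    Module.finrank F (LinearMap.ker (N ^ k)) ≤ k := by
  induction k with
  | zero =>
    have : LinearMap.ker (N ^ 0) = ⊥ := by
      rw [pow_zero]
      exact LinearMap.ker_id
    rw [this]
    simp
  | succ k ih =>
    have hmap : ∀ v ∈ LinearMap.ker (N ^ (k + 1)), N v ∈ LinearMap.ker (N ^ k) := by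
      intro v hv
      rw [LinearMap.mem_ker] at hv ⊢
      rw [pow_succ] at hv
      exact hv
    let g : LinearMap.ker (N ^ (k + 1)) →ₗ[F] LinearMap.ker (N ^ k) :=
      (N.domRestrict _).codRestrict _ (fun v => hmap v v.2)
    have hrn := LinearMap.finrank_range_add_finrank_ker g
    have hrange : Module.finrank F (LinearMap.range g) ≤ k := (Submodule.finrank_le _).trans ih
    have hker : Module.finrank F (LinearMap.ker g) ≤ 1 := by
      let ι : LinearMap.ker g →ₗ[F] LinearMap.ker N :=
        ((Submodule.subtype _).comp (Submodule.subtype _)).codRestrict _ (fun v => by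
          have h2 := v.2
          rw [LinearMap.mem_ker] at h2 ⊢
          have h3 : ((g (v : LinearMap.ker (N ^ (k + 1))) : LinearMap.ker (N ^ k)) : V) = 0 := by
            rw [h2]; rfl
          exact h3)
      have hι : Function.Injective ι := by
        intro a b hab
        have h2 := congrArg Subtype.val hab
        simp only [ι, LinearMap.codRestrict_apply, LinearMap.comp_apply, Submodule.subtype_apply] at h2
        exact Subtype.ext (Subtype.ext h2)
      exact (LinearMap.finrank_le_finrank_of_injective hι).trans h1
    omega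

theorem eq_ker_pow_of_invariant {F V : Type*} [Field F] [AddCommGroup V] [Module F V] [FiniteDimensional F V]
    (N : Module.End F V) (n : ℕ) (hNn : N ^ n = 0) (hk1 : Module.finrank F (LinearMap.ker N) ≤ 1)
    (W : Submodule F V) (hNW : ∀ v ∈ W, N v ∈ W) :
    W = LinearMap.ker (N ^ Module.finrank F W) := by
  have hle : W ≤ LinearMap.ker (N ^ Module.finrank F W) := by
    intro w hw
    have hN'n : (N.restrict hNW) ^ n = 0 := by
      rw [Module.End.pow_restrict n hNW]
      ext x
      simp [hNn]
    have hker : LinearMap.ker ((N.restrict hNW) ^ n) ≤ LinearMap.ker ((N.restrict hNW) ^ (Module.finrank F W)) :=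
      Module.End.ker_pow_le_ker_pow_finrank (N.restrict hNW) n
    have hw' : (⟨w, hw⟩ : W) ∈ LinearMap.ker ((N.restrict hNW) ^ n) := by
      rw [hN'n]; simp
    have h2 := hker hw'
    rw [LinearMap.mem_ker, Module.End.pow_restrict _ hNW] at h2
    rw [LinearMap.mem_ker]
    have h3 := congrArg Subtype.val h2
    simpa using h3
  exact Submodule.eq_of_le_of_finrank_le hle (finrank_ker_pow_le N hk1 _)

/-- The invariant subspaces of a regular unipotent matrix form a chain: over a finite field, if u is an n × n matrix with (u − 1)^n = 0 and rank(u − 1) = n − 1, then every subspace W of F^n with u W ⊆ W is the kernel of (u − 1)^(dim W); so u has at most one invariant subspace of each dimension. -/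
theorem result {F : Type*} [Field F] [Finite F] {n : ℕ} (u : Matrix (Fin n) (Fin n) F) (hnil : (u - 1) ^ n = 0) (hreg : (u - 1).rank = n - 1) (W : Submodule F (Fin n → F)) (hW : ∀ v ∈ W, u.mulVec v ∈ W) : W = LinearMap.ker (Matrix.mulVecLin ((u - 1) ^ Module.finrank F W)) := by
  classical
  set N : Module.End F (Fin n → F) := Matrix.toLin' (u - 1) with hN
  have hNW : ∀ v ∈ W, N v ∈ W := by
    intro v hv
    have : N v = u.mulVec v - v := by
      simp [hN, Matrix.toLin'_apply]
    rw [this]; exact W.sub_mem (hW v hv) hv
  have hpow : ∀ k, Matrix.mulVecLin ((u - 1) ^ k) = N ^ k := by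
    intro k
    rw [hN, ← Matrix.toLin'_pow]
    rfl
  have hNn : N ^ n = 0 := by
    rw [← hpow, hnil]
    simp
  have hk1 : Module.finrank F (LinearMap.ker N) ≤ 1 := by
    have h := LinearMap.finrank_range_add_finrank_ker N
    have hr : Module.finrank F (LinearMap.range N) = n - 1 := by
      rw [← hreg]; rfl
    have hV : Module.finrank F (Fin n → F) = n := by simp
    omega
  rw [hpow]
  exact eq_ker_pow_of_invariant N n hNn hk1 W hNW

end Cfsg.Agent.S2573
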