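import Cfsg.Statements.S2574
import Cfsg.Agent.S2573

set_option autoImplicit false
open Cfsg

namespace Cfsg.Agent.S2574

open Matrix in
theorem transpose_pow_mul_J {m : ℕ} {F : Type*} [Field F] (A : Matrix (Fin m ⊕ Fin m) (Fin m ⊕ Fin m) F)
    (hA : Aᵀ * Matrix.J (Fin m) F * A = Matrix.J (Fin m) F) (k : ℕ) :
    ((A - 1)ᵀ) ^ k * Matrix.J (Fin m) F = (-1 : F) ^ k • ((Aᵀ) ^ k * Matrix.J (Fin m) F * (A - 1) ^ k) := by
  have h1 : (A - 1)ᵀ * Matrix.J (Fin m) F = -(Aᵀ * Matrix.J (Fin m) F * (A - 1)) := by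
    rw [Matrix.mul_sub, hA, Matrix.transpose_sub, Matrix.transpose_one, Matrix.sub_mul]
    simp
  have hcomm : Commute ((A - 1)ᵀ) (Aᵀ) := by
    have : Commute (A - 1) A := (Commute.refl A).sub_left (Commute.one_left A)
    rw [Commute, SemiconjBy, ← Matrix.transpose_mul, ← Matrix.transpose_mul]
    exact congrArg Matrix.transpose this.eq.symm
  induction k with
  | zero => simp
  | succ k ih =>
    calc ((A - 1)ᵀ) ^ (k + 1) * Matrix.J (Fin m) F
        = (A - 1)ᵀ * (((A - 1)ᵀ) ^ k * Matrix.J (Fin m) F) := by rw [pow_succ', Matrix.mul_assoc]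
      _ = (-1 : F) ^ k • ((A - 1)ᵀ * (Aᵀ) ^ k * Matrix.J (Fin m) F * (A - 1) ^ k) := by
          rw [ih, Matrix.mul_smul]; simp only [Matrix.mul_assoc]
      _ = (-1 : F) ^ k • ((Aᵀ) ^ k * ((A - 1)ᵀ * Matrix.J (Fin m) F) * (A - 1) ^ k) := by
          rw [(hcomm.pow_right k).eq]; simp only [Matrix.mul_assoc]
      _ = (-1 : F) ^ (k + 1) • ((Aᵀ) ^ (k + 1) * Matrix.J (Fin m) F * (A - 1) ^ (k + 1)) := by
          rw [h1, pow_succ (-1 : F), pow_succ (Aᵀ), pow_succ' (A - 1)]
          simp only [Matrix.neg_mul, Matrix.mul_assoc, smul_neg, mul_neg, mul_one, neg_smul]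

/-- A regular unipotent element of the symplectic group has totally isotropic small invariant subspaces: over a finite field, if u ∈ Sp_2m(F) satisfies (u − 1)^(2m) = 0 and rank(u − 1) = 2m − 1, and W is a u-invariant subspace with 2 dim W ≤ 2m, then the alternating form vanishes identically on W. -/
theorem result {F : Type*} [Field F] [Finite F] {m : ℕ} (u : Matrix.symplecticGroup (Fin m) F) (hnil : ((u : Matrix (Fin m ⊕ Fin m) (Fin m ⊕ Fin m) F) - 1) ^ (2 * m) = 0) (hreg : ((u : Matrix (Fin m ⊕ Fin m) (Fin m ⊕ Fin m) F) - 1).rank = 2 * m - 1) (W : Submodule F (Fin m ⊕ Fin m → F)) (hW : ∀ v ∈ W, (u : Matrix (Fin m ⊕ Fin m) (Fin m ⊕ Fin m) F).mulVec v ∈ W) (hdim : 2 * Module.finrank F W ≤ 2 * m) : ∀ v ∈ W, ∀ w ∈ W, Cfsg.sympForm m F v w = 0 := by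
  classical
  set A : Matrix (Fin m ⊕ Fin m) (Fin m ⊕ Fin m) F := (u : Matrix (Fin m ⊕ Fin m) (Fin m ⊕ Fin m) F) with hAdef
  have hA : A.transpose * Matrix.J (Fin m) F * A = Matrix.J (Fin m) F := SymplecticGroup.mem_iff'.mp u.2
  set N : Module.End F (Fin m ⊕ Fin m → F) := Matrix.toLin' (A - 1) with hN
  have hNW : ∀ v ∈ W, N v ∈ W := by
    intro v hv
    have : N v = A.mulVec v - v := by
      simp [hN, Matrix.toLin'_apply]
    rw [this]; exact W.sub_mem (hW v hv) hv
  have hpow : ∀ k, Matrix.toLin' ((A - 1) ^ k) = N ^ k := by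
    intro k
    rw [hN, ← Matrix.toLin'_pow]
  have hNn : N ^ (2 * m) = 0 := by
    rw [← hpow, hnil]
    simp
  have hV : Module.finrank F (Fin m ⊕ Fin m → F) = 2 * m := by simp; ring
  have hk1 : Module.finrank F (LinearMap.ker N) ≤ 1 := by
    have h := LinearMap.finrank_range_add_finrank_ker N
    have hr : Module.finrank F (LinearMap.range N) = 2 * m - 1 := by
      rw [← hreg]; rfl
    omega
  have hWker := Cfsg.Agent.S2573.eq_ker_pow_of_invariant N (2 * m) hNn hk1 W hNW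
  set d := Module.finrank F W with hd
  have hdm : d ≤ m := by omega
  -- range of N^(2m-d) equals ker N^d
  have hrange_le : LinearMap.range (N ^ (2 * m - d)) ≤ LinearMap.ker (N ^ d) := by
    rintro x ⟨a, rfl⟩
    rw [LinearMap.mem_ker, ← Module.End.mul_apply, ← pow_add]
    have : d + (2 * m - d) = 2 * m := by omega
    rw [this, hNn]; simp
  have hrange_eq : LinearMap.range (N ^ (2 * m - d)) = LinearMap.ker (N ^ d) := by
    apply Submodule.eq_of_le_of_finrank_le hrange_le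
    have h1 := LinearMap.finrank_range_add_finrank_ker (N ^ (2 * m - d))
    have h2 := Cfsg.Agent.S2573.finrank_ker_pow_le N hk1 (2 * m - d)
    have h3 := Cfsg.Agent.S2573.finrank_ker_pow_le N hk1 d
    omega
  intro v hv w hw
  rw [hWker, ← hrange_eq] at hv
  obtain ⟨a, rfl⟩ := hv
  have hw0 : ((A - 1) ^ (2 * m - d)).mulVec w = 0 := by
    rw [hWker] at hw
    have h1 : LinearMap.ker (N ^ d) ≤ LinearMap.ker (N ^ (2 * m - d)) := by
      have : 2 * m - d = (2 * m - d - d) + d := by omega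
      rw [this, pow_add]
      exact LinearMap.ker_le_ker_comp _ _
    have h2 := h1 hw
    rw [LinearMap.mem_ker, ← hpow, Matrix.toLin'_apply] at h2
    exact h2
  have hva : (N ^ (2 * m - d)) a = ((A - 1) ^ (2 * m - d)).mulVec a := by
    rw [← hpow, Matrix.toLin'_apply]
  rw [hva]
  unfold Cfsg.sympForm
  have key := transpose_pow_mul_J A hA (2 * m - d)
  calc ((A - 1) ^ (2 * m - d)).mulVec a ⬝ᵥ (Matrix.J (Fin m) F).mulVec w
      = a ⬝ᵥ ((((A - 1).transpose) ^ (2 * m - d) * Matrix.J (Fin m) F).mulVec w) := by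
        rw [← Matrix.mulVec_mulVec, Matrix.dotProduct_mulVec a, ← Matrix.transpose_pow, Matrix.vecMul_transpose]
    _ = 0 := by
        rw [key, Matrix.smul_mulVec, ← Matrix.mulVec_mulVec, hw0]
        simp

end Cfsg.Agent.S2574
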