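import Cfsg.Statements.S2575

set_option autoImplicit false
open Cfsg

namespace Cfsg.Agent.S2575

theorem two_adic_decomp (n : ℕ) (hn : n ≠ 0) : ∃ m, Odd m ∧ n = 2 ^ padicValNat 2 n * m := by
  obtain ⟨k, m, hm, rfl⟩ := Nat.exists_eq_two_pow_mul_odd hn
  refine ⟨m, hm, ?_⟩
  have hm0 : m ≠ 0 := by
    rintro rfl
    simp at hm
  have h2 : padicValNat 2 (2 ^ k * m) = k := by
    rw [padicValNat.mul (by positivity) hm0, padicValNat.prime_pow,
      padicValNat.eq_zero_of_not_dvd hm.not_two_dvd_nat, add_zero]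
  rw [h2]

theorem prod_diag {F : Type*} [Field F] {n : ℕ} (i : ℕ) (hi : i ≤ n) :
    ∏ j : Fin n, (if (j : ℕ) < i then (-1 : F) else 1) = (-1) ^ i := by
  rw [Fin.prod_univ_eq_prod_range (fun j => if j < i then (-1 : F) else 1) n, Finset.prod_ite]
  simp only [Finset.prod_const_one, mul_one, Finset.prod_const]
  congr 1
  have : (Finset.range n).filter (fun j => j < i) = Finset.range i := by
    ext j
    simp only [Finset.mem_filter, Finset.mem_range]
    omega
  rw [this, Finset.card_range]

theorem exists_pow_eq_neg_one_iff {F : Type*} [Field F] [Fintype F] {q : ℕ} (hF : Fintype.card F = q) (hq : Odd q)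
    {n : ℕ} (hn : 1 ≤ n) :
    (∃ c : F, c ≠ 0 ∧ c ^ n = -1) ↔ padicValNat 2 n < padicValNat 2 (q - 1) := by
  classical
  have hchar : ringChar F ≠ 2 := by
    intro h
    rw [FiniteField.even_card_iff_char_two, hF] at h
    rw [Nat.odd_iff] at hq
    omega
  have hneg : (-1 : F) ≠ 1 := Ring.neg_one_ne_one_of_char_ne_two hchar
  have hq3 : 3 ≤ q := by
    have h1 : 1 < Fintype.card F := Fintype.one_lt_card
    rw [hF] at h1
    rcases hq with ⟨t, ht⟩
    omega
  obtain ⟨n', hn'odd, hn'⟩ := two_adic_decomp n (by omega)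
  obtain ⟨N', hN'odd, hN'⟩ := two_adic_decomp (q - 1) (by omega)
  set e := padicValNat 2 n with he
  set f := padicValNat 2 (q - 1) with hf
  constructor
  · rintro ⟨c, hc0, hcn⟩
    by_contra hlt
    push Not at hlt
    have h1 : c ^ (n * N') = -1 := by
      rw [pow_mul, hcn, hN'odd.neg_one_pow]
    have h2 : c ^ (n * N') = 1 := by
      have : n * N' = (q - 1) * (2 ^ (e - f) * n') := by
        rw [hN']
        conv_lhs => rw [hn']
        have : 2 ^ e = 2 ^ f * 2 ^ (e - f) := by
          rw [← pow_add]; congr 1; omega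
        rw [this]; ring
      rw [this, pow_mul, ← hF, FiniteField.pow_card_sub_one_eq_one c hc0, one_pow]
    rw [h1] at h2
    exact hneg h2
  · intro hlt
    obtain ⟨ζ, hζ⟩ := IsCyclic.exists_generator (α := Fˣ)
    have hord : orderOf ζ = q - 1 := by
      rw [orderOf_eq_card_of_forall_mem_zpowers hζ, Nat.card_eq_fintype_card, Fintype.card_units, hF]
    set h := 2 ^ (f - 1) * N' with hh
    have h2h : 2 * h = q - 1 := by
      rw [hh, hN']
      have : 2 ^ f = 2 * 2 ^ (f - 1) := by
        rw [← pow_succ']; congr 1; omega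
      rw [this]; ring
    have hw2 : (ζ ^ h) * (ζ ^ h) = 1 := by
      rw [← pow_add, ← two_mul, h2h, ← hord, pow_orderOf_eq_one]
    have hw1 : ζ ^ h ≠ 1 := by
      apply pow_ne_one_of_lt_orderOf
      · omega
      · omega
    have hwF : ((ζ ^ h : Fˣ) : F) = -1 := by
      have h3 : ((ζ ^ h : Fˣ) : F) * ((ζ ^ h : Fˣ) : F) = 1 := by
        rw [← Units.val_mul, hw2]; rfl
      rcases mul_self_eq_one_iff.mp h3 with h4 | h4
      · exact absurd (Units.ext h4) hw1
      · exact h4
    refine ⟨((ζ ^ (2 ^ (f - 1 - e) * N') : Fˣ) : F), Units.ne_zero _, ?_⟩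
    rw [← Units.val_pow_eq_pow_val, ← pow_mul]
    have : 2 ^ (f - 1 - e) * N' * n = h * n' := by
      rw [hh]
      conv_lhs => rw [hn']
      have : 2 ^ (f - 1) = 2 ^ (f - 1 - e) * 2 ^ e := by
        rw [← pow_add]; congr 1; omega
      rw [this]; ring
    rw [this, pow_mul, Units.val_pow_eq_pow_val, hwF, hn'odd.neg_one_pow]

/-- Which diagonal involutions of PGL_n(q) lie in PSL_n(q), q odd: for the diagonal matrix t with i entries −1 and n − i entries 1, some non-zero scalar multiple of t has determinant one if and only if i is even or the 2-part of q − 1 exceeds the 2-part of n (that is, −1 is an n-th power in the field exactly in the latter case). -/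
theorem result {F : Type*} [Field F] [Fintype F] {q : ℕ} (hF : Fintype.card F = q) (hq : Odd q) {n : ℕ} (hn : 1 ≤ n) (i : ℕ) (hi : i ≤ n) : (∃ c : F, c ≠ 0 ∧ (c • Matrix.diagonal (fun j : Fin n => if (j : ℕ) < i then (-1 : F) else 1)).det = 1) ↔ (Even i ∨ padicValNat 2 n < padicValNat 2 (q - 1)) := by
  classical
  have hdet : ∀ c : F, (c • Matrix.diagonal (fun j : Fin n => if (j : ℕ) < i then (-1 : F) else 1)).det
      = c ^ n * (-1) ^ i := by
    intro c
    rw [Matrix.det_smul, Matrix.det_diagonal, prod_diag i hi, Fintype.card_fin]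
  simp only [hdet]
  rcases Nat.even_or_odd i with hi_even | hi_odd
  · simp only [hi_even.neg_one_pow, mul_one, hi_even, true_or, iff_true]
    exact ⟨1, one_ne_zero, one_pow n⟩
  · have hnot : ¬ Even i := Nat.not_even_iff_odd.mpr hi_odd
    simp only [hi_odd.neg_one_pow, hnot, false_or]
    rw [← exists_pow_eq_neg_one_iff hF hq hn]
    constructor
    · rintro ⟨c, hc0, hc⟩
      refine ⟨c, hc0, ?_⟩
      have : c ^ n = -(c ^ n * -1) := by ring
      rw [this, hc]
    · rintro ⟨c, hc0, hc⟩
      refine ⟨c, hc0, ?_⟩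
      rw [hc]; ring

end Cfsg.Agent.S2575
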