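import Cfsg.Statements.S2576
import Cfsg.Agent.Helper16.Gram

set_option autoImplicit false
open Cfsg

namespace Cfsg.Agent.S2576

theorem det_formula {F : Type*} [Field F] (m : ℕ) (μ c : F) :
    (c • Matrix.blockDiagonal (fun _ : Fin m => !![(0 : F), 1; μ, 0])).det =
      c ^ (2 * m) * (-μ) ^ m := by
  rw [Matrix.det_smul, Matrix.det_blockDiagonal]
  simp [Matrix.det_fin_two_of]

theorem result {F : Type*} [Field F] [Fintype F] {q : ℕ} (hF : Fintype.card F = q) (hq : Odd q) {m : ℕ} (hm : 1 ≤ m) (μ : F) (hμ : orderOf μ = 2 ^ padicValNat 2 (q - 1)) : (∃ c : F, c ≠ 0 ∧ (c • Matrix.blockDiagonal (fun _ : Fin m => !![(0 : F), 1; μ, 0])).det = 1) ↔ (q % 4 = 3 ∨ padicValNat 2 (q - 1) < padicValNat 2 (2 * m)) := by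
  have h2F : (2 : F) ≠ 0 := Cfsg.Agent.Helper16.two_ne_zero_of_odd_card (hF ▸ hq)
  have hneg1 : (-1 : F) ≠ 1 := by
    intro h
    apply h2F
    linear_combination -h
  simp only [det_formula]
  -- decompose q - 1 and m
  have hq1 : q - 1 ≠ 0 := by
    obtain ⟨k, rfl⟩ := hq
    intro h
    have : Fintype.card F = 1 := by omega
    have := Fintype.one_lt_card (α := F)
    omega
  obtain ⟨a, s, hs, hqs⟩ := Nat.exists_eq_pow_mul_and_not_dvd hq1 2 (by norm_num)
  obtain ⟨v, m', hm', hmv⟩ := Nat.exists_eq_pow_mul_and_not_dvd (show m ≠ 0 by omega) 2 (by norm_num)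
  have hs0 : s ≠ 0 := by rintro rfl; simp at hs
  have hm'0 : m' ≠ 0 := by rintro rfl; simp at hm'
  have ha : padicValNat 2 (q - 1) = a := by
    rw [hqs, padicValNat.mul (pow_ne_zero _ (by norm_num)) hs0, padicValNat.prime_pow,
      padicValNat.eq_zero_of_not_dvd hs, add_zero]
  have hv : padicValNat 2 (2 * m) = v + 1 := by
    rw [hmv, padicValNat.mul (by norm_num) (mul_ne_zero (pow_ne_zero _ (by norm_num)) hm'0),
      padicValNat.mul (pow_ne_zero _ (by norm_num)) hm'0, padicValNat.prime_pow,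
      padicValNat.eq_zero_of_not_dvd hm']
    simp
    omega
  rw [ha, hv]
  rw [ha] at hμ
  have hsodd : Odd s := Nat.odd_iff.mpr (by omega)
  have hm'odd : Odd m' := Nat.odd_iff.mpr (by omega)
  have ha1 : 1 ≤ a := by
    by_contra h
    have h0 : a = 0 := by omega
    rw [h0, pow_zero, one_mul] at hqs
    obtain ⟨k, rfl⟩ := hq
    obtain ⟨j, rfl⟩ := hsodd
    omega
  -- μ ^ 2^(a-1) = -1
  have hμhalf : μ ^ 2 ^ (a - 1) = -1 := by
    have h1 : μ ^ 2 ^ (a - 1) * μ ^ 2 ^ (a - 1) = 1 := by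
      rw [← pow_add, ← two_mul, ← pow_succ', Nat.sub_add_cancel ha1, ← hμ, pow_orderOf_eq_one]
    rcases mul_self_eq_one_iff.mp h1 with h | h
    · exfalso
      have h3 := orderOf_dvd_of_pow_eq_one h
      rw [hμ, Nat.pow_dvd_pow_iff_le_right (by norm_num)] at h3
      omega
    · exact h
  have hq4 : q % 4 = 3 ↔ a = 1 := by
    obtain ⟨j, rfl⟩ := hsodd
    constructor
    · intro h
      by_contra hne
      obtain ⟨b, rfl⟩ : ∃ b, a = b + 2 := ⟨a - 2, by omega⟩
      have : q - 1 = 4 * (2 ^ b * (2 * j + 1)) := by rw [hqs]; ring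
      omega
    · intro h
      rw [h] at hqs
      omega
  rw [hq4]
  constructor
  · rintro ⟨c, hc0, hc⟩
    by_contra hcon
    rw [not_or, not_lt] at hcon
    obtain ⟨hane, hav⟩ := hcon
    have ha2 : 2 ≤ a := by omega
    have hpow := congrArg (fun x => x ^ (2 ^ (a - v - 1) * s)) hc
    simp only [one_pow, mul_pow] at hpow
    have e1 : (c ^ (2 * m)) ^ (2 ^ (a - v - 1) * s) = 1 := by
      rw [← pow_mul]
      have : 2 * m * (2 ^ (a - v - 1) * s) = (q - 1) * m' := by
        rw [hqs, hmv]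
        have : a = (v + 1) + (a - v - 1) := by omega
        conv_rhs => rw [this, pow_add]
        ring
      rw [this, pow_mul, ← hF, FiniteField.pow_card_sub_one_eq_one c hc0, one_pow]
    have e2 : ((-μ) ^ m) ^ (2 ^ (a - v - 1) * s) = -1 := by
      rw [← pow_mul]
      have : m * (2 ^ (a - v - 1) * s) = 2 ^ (a - 1) * (m' * s) := by
        rw [hmv]
        have : a - 1 = v + (a - v - 1) := by omega
        rw [this, pow_add]
        ring
      rw [this, neg_pow, pow_mul μ, hμhalf, (hm'odd.mul hsodd).neg_one_pow]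
      have heven : Even (2 ^ (a - 1) * (m' * s)) := by
        apply Even.mul_right
        exact (Nat.even_pow.mpr ⟨even_two, by omega⟩)
      rw [heven.neg_one_pow, one_mul]
    rw [e1, e2, one_mul] at hpow
    exact hneg1 hpow
  · rintro (h | h)
    · refine ⟨1, one_ne_zero, ?_⟩
      rw [h] at hμhalf
      simp only [Nat.sub_self, pow_zero, pow_one] at hμhalf
      rw [hμhalf]
      simp
    · refine ⟨1, one_ne_zero, ?_⟩
      have hdvd : 2 ^ a ∣ m := by
        rw [hmv]
        exact Dvd.dvd.mul_right (pow_dvd_pow 2 (by omega)) _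
      have h1 : μ ^ m = 1 := by
        rw [← orderOf_dvd_iff_pow_eq_one, hμ]
        exact hdvd
      have heven : Even m := by
        have : 2 ∣ m := dvd_trans (dvd_pow_self 2 (by omega)) hdvd
        exact even_iff_two_dvd.mpr this
      rw [neg_pow, h1, heven.neg_one_pow]
      simp

end Cfsg.Agent.S2576
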