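import Mathlib
import Cfsg.Statements.S2578
import Cfsg.Agent.Helper14.RegUnip

set_option autoImplicit false
open Cfsg

namespace Cfsg.Agent.S2578


open Cfsg.Agent.Helper14 Cfsg.Agent.Helper14.RegUnip

section Aux
variable {F : Type*} [Field F] {n : ℕ}

theorem inv_comm_J (P A : Matrix (Fin n) (Fin n) F) (hP : IsUnit P.det)
    (h1 : A * P = P * J F n) : P⁻¹ * A = J F n * P⁻¹ := by
  calc P⁻¹ * A = P⁻¹ * (A * P) * P⁻¹ := by
        rw [Matrix.mul_assoc, Matrix.mul_assoc, Matrix.mul_nonsing_inv P hP, Matrix.mul_one]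
    _ = J F n * P⁻¹ := by
        rw [h1, ← Matrix.mul_assoc, Matrix.nonsing_inv_mul P hP, Matrix.one_mul]

theorem conj_imp (hn : 0 < n) (u u' : Matrix.SpecialLinearGroup (Fin n) F)
    (P P' : Matrix (Fin n) (Fin n) F) (hP : IsUnit P.det) (hP' : IsUnit P'.det)
    (h1 : ((u : Matrix (Fin n) (Fin n) F) - 1) * P = P * J F n)
    (h2 : ((u' : Matrix (Fin n) (Fin n) F) - 1) * P' = P' * J F n) (hc : IsConj u u') :
    ∃ c : F, c ≠ 0 ∧ P'.det = P.det * c ^ n := by
  obtain ⟨s, hs⟩ := isConj_iff.mp hc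
  have hs0 : s * u = u' * s := by rw [← hs]; group
  have hs1 : (s : Matrix (Fin n) (Fin n) F) * (u : Matrix (Fin n) (Fin n) F) =
      (u' : Matrix (Fin n) (Fin n) F) * (s : Matrix (Fin n) (Fin n) F) := by
    have := congrArg (fun x : Matrix.SpecialLinearGroup (Fin n) F =>
      (x : Matrix (Fin n) (Fin n) F)) hs0
    simpa using this
  have hYdet : ((s : Matrix (Fin n) (Fin n) F) * P).det = P.det := by
    rw [Matrix.det_mul, s.2, one_mul]
  have hYu : IsUnit ((s : Matrix (Fin n) (Fin n) F) * P).det := by rw [hYdet]; exact hP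
  have h3 : ((u' : Matrix (Fin n) (Fin n) F) - 1) * ((s : Matrix (Fin n) (Fin n) F) * P) =
      ((s : Matrix (Fin n) (Fin n) F) * P) * J F n := by
    calc ((u' : Matrix (Fin n) (Fin n) F) - 1) * ((s : Matrix (Fin n) (Fin n) F) * P)
        = ((u' : Matrix (Fin n) (Fin n) F) * (s : Matrix (Fin n) (Fin n) F)
            - (s : Matrix (Fin n) (Fin n) F)) * P := by
          rw [← Matrix.mul_assoc, Matrix.sub_mul, Matrix.one_mul]
      _ = ((s : Matrix (Fin n) (Fin n) F) * ((u : Matrix (Fin n) (Fin n) F) - 1)) * P := by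
          rw [← hs1, Matrix.mul_sub, Matrix.mul_one]
      _ = ((s : Matrix (Fin n) (Fin n) F) * P) * J F n := by
          rw [Matrix.mul_assoc, h1, ← Matrix.mul_assoc]
  have h4 := inv_comm_J _ _ hYu h3
  have hX : (((s : Matrix (Fin n) (Fin n) F) * P)⁻¹ * P') * J F n =
      J F n * (((s : Matrix (Fin n) (Fin n) F) * P)⁻¹ * P') := by
    rw [Matrix.mul_assoc, ← h2, ← Matrix.mul_assoc, h4, Matrix.mul_assoc]
  have hdX := det_of_comm hn _ hX
  have hdet : P'.det = P.det * (((s : Matrix (Fin n) (Fin n) F) * P)⁻¹ * P').det := by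
    rw [Matrix.det_mul, ← hYdet, ← mul_assoc, ← Matrix.det_mul,
      Matrix.mul_nonsing_inv _ hYu, Matrix.det_one, one_mul]
  refine ⟨_, ?_, by rw [hdet, hdX]⟩
  intro h0
  rw [hdX, h0, zero_pow (by omega), mul_zero] at hdet
  rw [hdet] at hP'
  exact not_isUnit_zero hP'

theorem imp_conj (u u' : Matrix.SpecialLinearGroup (Fin n) F)
    (P P' : Matrix (Fin n) (Fin n) F) (hP : IsUnit P.det)
    (h1 : ((u : Matrix (Fin n) (Fin n) F) - 1) * P = P * J F n)
    (h2 : ((u' : Matrix (Fin n) (Fin n) F) - 1) * P' = P' * J F n)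
    (c : F) (hc : c ≠ 0) (hdet : P'.det = P.det * c ^ n) : IsConj u u' := by
  have hdet0 : (c⁻¹ • (P' * P⁻¹)).det = 1 := by
    rw [Matrix.det_smul, Fintype.card_fin, Matrix.det_mul, hdet]
    have e1 : P.det * P⁻¹.det = 1 := by
      rw [← Matrix.det_mul, Matrix.mul_nonsing_inv P hP, Matrix.det_one]
    have e2 : c⁻¹ ^ n * c ^ n = 1 := by rw [← mul_pow, inv_mul_cancel₀ hc, one_pow]
    linear_combination (P.det * P⁻¹.det) * e2 + e1
  have h3 := inv_comm_J P _ hP h1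
  have h4 : (c⁻¹ • (P' * P⁻¹)) * ((u : Matrix (Fin n) (Fin n) F) - 1) =
      ((u' : Matrix (Fin n) (Fin n) F) - 1) * (c⁻¹ • (P' * P⁻¹)) := by
    rw [Matrix.smul_mul, Matrix.mul_smul, Matrix.mul_assoc, h3, ← Matrix.mul_assoc, ← h2,
      Matrix.mul_assoc]
  have h5 : (c⁻¹ • (P' * P⁻¹)) * (u : Matrix (Fin n) (Fin n) F) =
      (u' : Matrix (Fin n) (Fin n) F) * (c⁻¹ • (P' * P⁻¹)) := by
    rw [Matrix.mul_sub, Matrix.sub_mul, Matrix.mul_one, Matrix.one_mul] at h4
    exact sub_left_injective h4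
  let s : Matrix.SpecialLinearGroup (Fin n) F := ⟨c⁻¹ • (P' * P⁻¹), hdet0⟩
  refine isConj_iff.mpr ⟨s, ?_⟩
  rw [mul_inv_eq_iff_eq_mul]
  apply Subtype.ext
  rw [Matrix.SpecialLinearGroup.coe_mul, Matrix.SpecialLinearGroup.coe_mul]
  exact h5

theorem conj_pow' (P A : Matrix (Fin n) (Fin n) F) (hP : IsUnit P.det) (k : ℕ) :
    (P * A * P⁻¹) ^ k = P * A ^ k * P⁻¹ := by
  induction k with
  | zero => rw [pow_zero, pow_zero, Matrix.mul_one, Matrix.mul_nonsing_inv P hP]
  | succ k ih =>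
    rw [pow_succ, ih, pow_succ]
    calc P * A ^ k * P⁻¹ * (P * A * P⁻¹) = P * A ^ k * (P⁻¹ * P) * A * P⁻¹ := by
          simp only [Matrix.mul_assoc]
      _ = P * (A ^ k * A) * P⁻¹ := by
          rw [Matrix.nonsing_inv_mul P hP, Matrix.mul_one, Matrix.mul_assoc P]

end Aux


/-- Regular unipotent classes of SL_n(q): for n ≥ 2 over the field with q elements, the matrices u of determinant one with (u − 1)^n = 0 and rank(u − 1) = n − 1 form a single GL_n(q)-class which splits into exactly gcd(n, q − 1) conjugacy classes of SL_n(q). -/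
theorem result {F : Type*} [Field F] [Fintype F] {q : ℕ} (hF : Fintype.card F = q) {n : ℕ} (hn : 2 ≤ n) : Nat.card {C : ConjClasses (Matrix.SpecialLinearGroup (Fin n) F) // ∃ u : Matrix.SpecialLinearGroup (Fin n) F, ConjClasses.mk u = C ∧ ((u : Matrix (Fin n) (Fin n) F) - 1) ^ n = 0 ∧ ((u : Matrix (Fin n) (Fin n) F) - 1).rank = n - 1} = Nat.gcd n (q - 1) := by

  classical
  have hn' : 0 < n := by omega
  let SLn := Matrix.SpecialLinearGroup (Fin n) F
  let Reg : SLn → Prop := fun u => ((u : Matrix (Fin n) (Fin n) F) - 1) ^ n = 0 ∧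
    ((u : Matrix (Fin n) (Fin n) F) - 1).rank = n - 1
  let 𝒞 := {C : ConjClasses SLn // ∃ u : SLn, ConjClasses.mk u = C ∧ Reg u}
  let H : Subgroup Fˣ := (powMonoidHom n : Fˣ →* Fˣ).range
  -- choices
  have hex : ∀ C : 𝒞, ∃ (u : SLn) (P : Matrix (Fin n) (Fin n) F), ConjClasses.mk u = C.1 ∧
      IsUnit P.det ∧ ((u : Matrix (Fin n) (Fin n) F) - 1) * P = P * J F n := by
    intro C
    obtain ⟨u, hu, hreg⟩ := C.2
    obtain ⟨P, hP, hPJ⟩ := exists_conj_J hn' _ hreg.1 hreg.2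
    exact ⟨u, P, hu, hP, hPJ⟩
  choose rep PP hrep hPP hPJ using hex
  let Ψ : 𝒞 → Fˣ ⧸ H := fun C => QuotientGroup.mk (Units.mk0 (PP C).det (hPP C).ne_zero)
  have hinj : Function.Injective Ψ := by
    intro C C' hCC
    have h1 : (Units.mk0 (PP C).det (hPP C).ne_zero)⁻¹ * Units.mk0 (PP C').det (hPP C').ne_zero
        ∈ H := QuotientGroup.eq.mp hCC
    obtain ⟨c, hc⟩ := h1
    have hc' : (c : F) ^ n = ((PP C).det)⁻¹ * (PP C').det := by
      have := congrArg (fun x : Fˣ => (x : F)) hc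
      simpa using this
    have h2 : (PP C').det = (PP C).det * (c : F) ^ n := by
      rw [hc', ← mul_assoc, mul_inv_cancel₀ (hPP C).ne_zero, one_mul]
    have h3 := imp_conj (rep C) (rep C') (PP C) (PP C') (hPP C) (hPJ C) (hPJ C') c c.ne_zero h2
    apply Subtype.ext
    rw [← hrep C, ← hrep C']
    exact ConjClasses.mk_eq_mk_iff_isConj.mpr h3
  have hsurj : Function.Surjective Ψ := by
    intro x
    obtain ⟨d, rfl⟩ := QuotientGroup.mk_surjective x
    let P : Matrix (Fin n) (Fin n) F :=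
      Matrix.diagonal (fun i : Fin n => if i = ⟨0, hn'⟩ then (d : F) else 1)
    have hPdet : P.det = d := by
      rw [Matrix.det_diagonal, Finset.prod_ite_eq' Finset.univ (⟨0, hn'⟩ : Fin n) (fun _ => (d : F)),
        if_pos (Finset.mem_univ _)]
    have hPu : IsUnit P.det := by rw [hPdet]; exact d.isUnit
    have hPi : IsUnit P⁻¹.det := Matrix.isUnit_nonsing_inv_det P hPu
    have hdet1 : (P * (1 + J F n) * P⁻¹).det = 1 := by
      rw [Matrix.det_mul, Matrix.det_mul, det_one_add_J, mul_one, ← Matrix.det_mul,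
        Matrix.mul_nonsing_inv P hPu, Matrix.det_one]
    let u : SLn := ⟨P * (1 + J F n) * P⁻¹, hdet1⟩
    have hu1 : (u : Matrix (Fin n) (Fin n) F) - 1 = P * J F n * P⁻¹ := by
      show P * (1 + J F n) * P⁻¹ - 1 = _
      rw [Matrix.mul_add, Matrix.add_mul, Matrix.mul_one, Matrix.mul_nonsing_inv P hPu,
        add_sub_cancel_left]
    have hreg : Reg u := by
      constructor
      · show ((u : Matrix (Fin n) (Fin n) F) - 1) ^ n = 0
        rw [hu1, conj_pow' P _ hPu, J_pow_self, Matrix.mul_zero, Matrix.zero_mul]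
      · show ((u : Matrix (Fin n) (Fin n) F) - 1).rank = n - 1
        rw [hu1, Matrix.rank_mul_eq_left_of_isUnit_det _ _ hPi,
          Matrix.rank_mul_eq_right_of_isUnit_det _ _ hPu, rank_J hn']
    have huP : ((u : Matrix (Fin n) (Fin n) F) - 1) * P = P * J F n := by
      rw [hu1, Matrix.mul_assoc, Matrix.nonsing_inv_mul P hPu, Matrix.mul_one]
    let C : 𝒞 := ⟨ConjClasses.mk u, u, rfl, hreg⟩
    refine ⟨C, ?_⟩
    have hconj : IsConj (rep C) u := ConjClasses.mk_eq_mk_iff_isConj.mp (hrep C)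
    obtain ⟨c, hc0, hc⟩ := conj_imp hn' (rep C) u (PP C) P (hPP C) hPu (hPJ C) huP hconj
    show (QuotientGroup.mk (Units.mk0 (PP C).det (hPP C).ne_zero) : Fˣ ⧸ H) = QuotientGroup.mk d
    rw [QuotientGroup.eq]
    refine ⟨Units.mk0 c hc0, ?_⟩
    apply Units.ext
    show ((Units.mk0 c hc0 : Fˣ) : F) ^ n = _
    simp only [Units.val_mk0, Units.val_mul, Units.val_inv_eq_inv_val]
    rw [← hPdet, hc, ← mul_assoc, inv_mul_cancel₀ (hPP C).ne_zero, one_mul]
  have hcard : Nat.card 𝒞 = Nat.card (Fˣ ⧸ H) :=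
    Nat.card_congr (Equiv.ofBijective Ψ ⟨hinj, hsurj⟩)
  have hidx : Nat.card (Fˣ ⧸ H) = (Nat.card Fˣ).gcd n := IsCyclic.index_powMonoidHom_range (G := Fˣ) n
  have hFu : Nat.card Fˣ = q - 1 := by
    rw [Nat.card_eq_fintype_card, Fintype.card_units, hF]
  show Nat.card 𝒞 = Nat.gcd n (q - 1)
  rw [hcard, hidx, hFu, Nat.gcd_comm]

end Cfsg.Agent.S2578
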