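import Cfsg.Statements.S2585

set_option autoImplicit false
open Cfsg

namespace Cfsg.Agent.S2585

open Matrix

variable {F : Type*} [Field F] [CharP F 2] {m : ℕ}

/-- The bilinear form `Σ u_(inl i) v_(inr i)`. -/
noncomputable def B0 (m : ℕ) (F : Type*) [Field F] : LinearMap.BilinForm F (Fin m ⊕ Fin m → F) :=
  Matrix.toBilin' (Matrix.fromBlocks 0 1 0 0)

noncomputable def Q0 (m : ℕ) (F : Type*) [Field F] : QuadraticForm F (Fin m ⊕ Fin m → F) :=
  (B0 m F).toQuadraticMap

theorem polar_Q0 (u v : Fin m ⊕ Fin m → F) :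
    QuadraticMap.polar ⇑(Q0 m F) u v = sympForm m F u v := by
  unfold Q0
  rw [LinearMap.BilinMap.polar_toQuadraticMap]
  unfold B0 sympForm
  rw [Matrix.toBilin'_apply', Matrix.toBilin'_apply']
  simp only [dotProduct, Matrix.mulVec, Fintype.sum_sum_type, Matrix.J, Matrix.fromBlocks_apply₁₁,
    Matrix.fromBlocks_apply₁₂, Matrix.fromBlocks_apply₂₁, Matrix.fromBlocks_apply₂₂,
    Matrix.zero_apply, Matrix.one_apply, Matrix.neg_apply, zero_mul, Finset.sum_const_zero,
    zero_add, add_zero, mul_zero, CharTwo.neg_eq]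
  simp only [ite_mul, one_mul, zero_mul, Finset.sum_ite_eq, Finset.mem_univ, if_true]
  congr 1
  apply Finset.sum_congr rfl
  intro i _
  ring

theorem symp_inv (A : Matrix.symplecticGroup (Fin m) F) (u v : Fin m ⊕ Fin m → F) :
    sympForm m F ((A : Matrix (Fin m ⊕ Fin m) (Fin m ⊕ Fin m) F) *ᵥ u)
      ((A : Matrix (Fin m ⊕ Fin m) (Fin m ⊕ Fin m) F) *ᵥ v) = sympForm m F u v := by
  unfold sympForm
  have hA := SymplecticGroup.mem_iff'.mp A.2
  rw [← Matrix.vecMul_transpose, ← Matrix.dotProduct_mulVec, Matrix.mulVec_mulVec,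
    Matrix.mulVec_mulVec, hA]

theorem result {F : Type*} [Field F] [Fintype F] [CharP F 2] {m : ℕ} (A : Matrix.symplecticGroup (Fin m) F) : ∃ Q : QuadraticForm F (Fin m ⊕ Fin m → F), (∀ u v : Fin m ⊕ Fin m → F, QuadraticMap.polar ⇑Q u v = Cfsg.sympForm m F u v) ∧ ∀ v : Fin m ⊕ Fin m → F, Q ((A : Matrix (Fin m ⊕ Fin m) (Fin m ⊕ Fin m) F).mulVec v) = Q v := by
  classical
  set Am : Matrix (Fin m ⊕ Fin m) (Fin m ⊕ Fin m) F := (A : Matrix (Fin m ⊕ Fin m) (Fin m ⊕ Fin m) F) with hAm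
  -- D v = Q0 (A v) + Q0 v
  let D : (Fin m ⊕ Fin m → F) → F := fun v => Q0 m F (Am *ᵥ v) + Q0 m F v
  have hD_add : ∀ u v, D (u + v) = D u + D v := by
    intro u v
    have h1 := polar_Q0 (F := F) (Am *ᵥ u) (Am *ᵥ v)
    have h2 := polar_Q0 (F := F) u v
    rw [symp_inv A u v, ← h2] at h1
    simp only [QuadraticMap.polar] at h1
    simp only [D]
    rw [Matrix.mulVec_add]
    have e1 : Q0 m F (Am *ᵥ u + Am *ᵥ v) = Q0 m F (u + v) - Q0 m F u - Q0 m F v
        + Q0 m F (Am *ᵥ u) + Q0 m F (Am *ᵥ v) := by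
      rw [← h1]; ring
    rw [e1]
    have e2 : ∀ x : F, -x = x := CharTwo.neg_eq
    have e3 : ∀ x : F, x + x = 0 := CharTwo.add_self_eq_zero
    linear_combination (Q0 m F (u + v)) * 0 + e3 (Q0 m F (u + v)) - e3 (Q0 m F u) - e3 (Q0 m F v)
  have hD_smul : ∀ (c : F) v, D (c • v) = c * c * D v := by
    intro c v
    simp only [D]
    rw [Matrix.mulVec_smul, QuadraticMap.map_smul, QuadraticMap.map_smul]
    simp only [smul_eq_mul]
    ring
  let φ : F ≃+* F := (frobeniusEquiv F 2).symm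
  have hφ : ∀ x : F, φ x * φ x = x := by
    intro x
    have := frobeniusEquiv_symm_pow_p F 2 x
    rw [pow_two] at this
    exact this
  have hφ2 : ∀ c : F, φ (c * c) = c := by
    intro c
    have h1 : φ (c * c) * φ (c * c) = c * c := hφ _
    rw [map_mul] at h1 ⊢
    have h3 : (φ c * φ c - c) * (φ c * φ c - c) = 0 := by
      have : φ c * φ c = c := hφ c
      rw [this]; ring
    have := mul_self_eq_zero.mp h3
    exact sub_eq_zero.mp this
  let lam : (Fin m ⊕ Fin m → F) →ₗ[F] F :=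
    { toFun := fun v => φ (D v)
      map_add' := fun u v => by rw [hD_add, map_add]
      map_smul' := fun c v => by
        rw [hD_smul, map_mul, hφ2]; simp }
  let f : (Fin m ⊕ Fin m → F) →ₗ[F] (Fin m ⊕ Fin m → F) := Matrix.toLin' Am - LinearMap.id
  have hlam : lam ∈ (LinearMap.ker f).dualAnnihilator := by
    rw [Submodule.mem_dualAnnihilator]
    intro v hv
    rw [LinearMap.mem_ker] at hv
    simp only [f, LinearMap.sub_apply, Matrix.toLin'_apply, LinearMap.id_apply, sub_eq_zero] at hv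
    show φ (D v) = 0
    simp only [D]
    rw [hv, CharTwo.add_self_eq_zero, map_zero]
  rw [← LinearMap.range_dualMap_eq_dualAnnihilator_ker] at hlam
  obtain ⟨μ, hμ⟩ := hlam
  have hμ' : ∀ v, μ (Am *ᵥ v) - μ v = φ (D v) := by
    intro v
    have := congrArg (fun g : (Fin m ⊕ Fin m → F) →ₗ[F] F => g v) hμ
    simp only [LinearMap.dualMap_apply, f, LinearMap.sub_apply, Matrix.toLin'_apply,
      LinearMap.id_apply, map_sub] at this
    exact this
  refine ⟨Q0 m F + QuadraticMap.linMulLin μ μ, ?_, ?_⟩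
  · intro u v
    rw [QuadraticMap.coeFn_add, QuadraticMap.polar_add, polar_Q0]
    have : QuadraticMap.polar (⇑(QuadraticMap.linMulLin μ μ)) u v = 0 := by
      simp only [QuadraticMap.polar, QuadraticMap.linMulLin_apply, map_add]
      have e3 : ∀ x : F, x + x = 0 := CharTwo.add_self_eq_zero
      linear_combination e3 (μ u * μ v)
    rw [this, add_zero]
  · intro v
    simp only [QuadraticMap.add_apply, QuadraticMap.linMulLin_apply]
    have h1 := hμ' v
    have h2 := hφ (D v)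
    rw [← h1] at h2
    have e3 : ∀ x : F, x + x = 0 := CharTwo.add_self_eq_zero
    simp only [D] at h2
    linear_combination h2 + e3 (Q0 m F (Am *ᵥ v)) + e3 (μ (Am *ᵥ v) * μ v) - e3 (μ v * μ v)

end Cfsg.Agent.S2585
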