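import Cfsg.Statements.S2586
import Cfsg.Agent.Helper16.SimTranspose

set_option autoImplicit false
open Cfsg

namespace Cfsg.Agent.S2586

theorem result {F : Type*} [Field F] [Finite F] {m : ℕ} (A : Matrix.symplecticGroup (Fin m) F) : IsConj (A : Matrix (Fin m ⊕ Fin m) (Fin m ⊕ Fin m) F) ((A⁻¹ : Matrix.symplecticGroup (Fin m) F) : Matrix (Fin m ⊕ Fin m) (Fin m ⊕ Fin m) F) := by
  refine (Cfsg.Agent.Helper16.isConj_transpose (A : Matrix (Fin m ⊕ Fin m) (Fin m ⊕ Fin m) F)).trans ?_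
  have hJ : Matrix.J (Fin m) F * (-Matrix.J (Fin m) F) = 1 := by
    rw [mul_neg, Matrix.J_squared, neg_neg]
  have hJ' : (-Matrix.J (Fin m) F) * Matrix.J (Fin m) F = 1 := by
    rw [neg_mul, Matrix.J_squared, neg_neg]
  refine ⟨⟨-Matrix.J (Fin m) F, Matrix.J (Fin m) F, hJ', hJ⟩, ?_⟩
  show -Matrix.J (Fin m) F * (A : Matrix (Fin m ⊕ Fin m) (Fin m ⊕ Fin m) F).transpose =
    ((A⁻¹ : Matrix.symplecticGroup (Fin m) F) : Matrix (Fin m ⊕ Fin m) (Fin m ⊕ Fin m) F) * -Matrix.J (Fin m) F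
  rw [SymplecticGroup.coe_inv, mul_assoc, hJ, mul_one]

end Cfsg.Agent.S2586
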