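import Mathlib
import Cfsg.Statements.S2594
import Cfsg.Agent.Helper6.SpFrames
import Cfsg.Agent.Helper6.SpPerfect
import Cfsg.Agent.Helper6.SpCard
import Cfsg.Agent.S0271

set_option autoImplicit false
open Cfsg

namespace Cfsg.Agent.S2594

section aux

open Cfsg.Agent.Helper6

variable {F : Type*} [Field F] {m : ℕ}

theorem sf_nondeg (u : Fin m ⊕ Fin m → F)
    (h : ∀ y : Fin m ⊕ Fin m → F, Cfsg.sympForm m F u y = 0) : u = 0 := by
  classical
  ext k
  rcases k with i | i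
  · have h1 := h (Pi.single (.inr i) 1)
    rw [sf_single_inr] at h1
    simpa using h1
  · have h1 := h (Pi.single (.inl i) 1)
    rw [sf_single_inl] at h1
    simpa using h1

/-- a symplectic matrix `t` with `t - 1` of rank one is a transvection -/
theorem rank_one_tv (t : Matrix.symplecticGroup (Fin m) F)
    (ht : ((t : Matrix (Fin m ⊕ Fin m) (Fin m ⊕ Fin m) F) - 1).rank = 1) :
    ∃ u : Fin m ⊕ Fin m → F, u ≠ 0 ∧ ∃ c : F, c ≠ 0 ∧ t = tvS u c := by
  classical
  have hr : Module.finrank F (LinearMap.range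
      ((t : Matrix (Fin m ⊕ Fin m) (Fin m ⊕ Fin m) F) - 1).mulVecLin) = 1 := ht
  obtain ⟨⟨u, hur⟩, hu0', hspan⟩ := finrank_eq_one_iff'.1 hr
  have hu0 : u ≠ 0 := fun h => hu0' (Subtype.ext h)
  obtain ⟨y0, hy0⟩ := hur
  have hy0' : ((t : Matrix (Fin m ⊕ Fin m) (Fin m ⊕ Fin m) F) - 1).mulVec y0 = u := hy0
  have hNx : ∀ x, ∃ a : F, ((t : Matrix (Fin m ⊕ Fin m) (Fin m ⊕ Fin m) F) - 1).mulVec x = a • u := by
    intro x
    obtain ⟨a, ha⟩ := hspan ⟨((t : Matrix (Fin m ⊕ Fin m) (Fin m ⊕ Fin m) F) - 1).mulVec x, ⟨x, rfl⟩⟩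
    exact ⟨a, (congrArg Subtype.val ha).symm⟩
  have htx : ∀ x, (t : Matrix (Fin m ⊕ Fin m) (Fin m ⊕ Fin m) F).mulVec x
      = x + ((t : Matrix (Fin m ⊕ Fin m) (Fin m ⊕ Fin m) F) - 1).mulVec x := by
    intro x
    rw [Matrix.sub_mulVec, Matrix.one_mulVec]
    abel
  have hstar : ∀ x y, Cfsg.sympForm m F x
        (((t : Matrix (Fin m ⊕ Fin m) (Fin m ⊕ Fin m) F) - 1).mulVec y)
      + Cfsg.sympForm m F (((t : Matrix (Fin m ⊕ Fin m) (Fin m ⊕ Fin m) F) - 1).mulVec x) y = 0 := by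
    intro x y
    have h := sp_preserves t x y
    rw [htx, htx, sf_add_left, sf_add_right, sf_add_right] at h
    obtain ⟨a, ha⟩ := hNx x
    obtain ⟨b, hb⟩ := hNx y
    have h0 : Cfsg.sympForm m F (((t : Matrix (Fin m ⊕ Fin m) (Fin m ⊕ Fin m) F) - 1).mulVec x)
        (((t : Matrix (Fin m ⊕ Fin m) (Fin m ⊕ Fin m) F) - 1).mulVec y) = 0 := by
      rw [ha, hb, sf_smul_left, sf_smul_right, sf_self]
      ring
    rw [h0] at h
    linear_combination h
  have hκ : Cfsg.sympForm m F u y0 ≠ 0 := by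
    intro hk
    apply hu0
    apply sf_nondeg
    intro x
    have h := hstar x y0
    rw [hy0'] at h
    obtain ⟨a, ha⟩ := hNx x
    rw [ha, sf_smul_left, hk, mul_zero, add_zero] at h
    rw [sf_swap, h, neg_zero]
  refine ⟨u, hu0, -(Cfsg.sympForm m F u y0)⁻¹, neg_ne_zero.2 (inv_ne_zero hκ), ?_⟩
  apply sp_ext
  intro x
  have h1 := tvS_mulVec u (-(Cfsg.sympForm m F u y0)⁻¹) x
  have h2 := htx x
  obtain ⟨a, ha⟩ := hNx x
  have h := hstar x y0
  rw [hy0', ha, sf_smul_left] at h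
  have ha' : a = -(Cfsg.sympForm m F u y0)⁻¹ * Cfsg.sympForm m F x u := by
    field_simp
    linear_combination h
  exact (h2.trans (by rw [ha, ha'])).trans h1.symm

theorem tv_cent (h2 : (2 : F) = 0) (u : Fin m ⊕ Fin m → F) (hu0 : u ≠ 0) (c : F) (hc0 : c ≠ 0)
    (g : Matrix.symplecticGroup (Fin m) F) :
    g ∈ Subgroup.centralizer ({tvS u c} : Set (Matrix.symplecticGroup (Fin m) F))
      ↔ (g : Matrix (Fin m ⊕ Fin m) (Fin m ⊕ Fin m) F).mulVec u = u := by
  rw [Subgroup.mem_centralizer_singleton_iff]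
  constructor
  · intro h
    have h1 : g * tvS u c * g⁻¹ = tvS u c := by
      rw [mul_inv_eq_iff_eq_mul]
      exact h
    rw [tvS_conj] at h1
    have h3 : ∀ x, Cfsg.sympForm m F x ((g : Matrix (Fin m ⊕ Fin m) (Fin m ⊕ Fin m) F).mulVec u)
        • ((g : Matrix (Fin m ⊕ Fin m) (Fin m ⊕ Fin m) F).mulVec u)
        = Cfsg.sympForm m F x u • u := by
      intro x
      have h4 : (tvS ((g : Matrix (Fin m ⊕ Fin m) (Fin m ⊕ Fin m) F).mulVec u) c :
            Matrix (Fin m ⊕ Fin m) (Fin m ⊕ Fin m) F).mulVec x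
          = (tvS u c : Matrix (Fin m ⊕ Fin m) (Fin m ⊕ Fin m) F).mulVec x := by rw [h1]
      have e1 := tvS_mulVec ((g : Matrix (Fin m ⊕ Fin m) (Fin m ⊕ Fin m) F).mulVec u) c x
      have e2 := tvS_mulVec u c x
      have h5 : (c * Cfsg.sympForm m F x ((g : Matrix (Fin m ⊕ Fin m) (Fin m ⊕ Fin m) F).mulVec u))
          • ((g : Matrix (Fin m ⊕ Fin m) (Fin m ⊕ Fin m) F).mulVec u)
          = (c * Cfsg.sympForm m F x u) • u := by
        apply add_left_cancel (a := x)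
        exact (e1.symm.trans h4).trans e2
      have h6 := congrArg (fun z => c⁻¹ • z) h5
      simp only [smul_smul] at h6
      rwa [← mul_assoc, inv_mul_cancel₀ hc0, one_mul, ← mul_assoc, inv_mul_cancel₀ hc0,
        one_mul] at h6
    obtain ⟨x0, hx0⟩ : ∃ x0, Cfsg.sympForm m F x0 u ≠ 0 := by
      by_contra hcon
      push Not at hcon
      apply hu0
      apply sf_nondeg
      intro y
      rw [sf_swap, hcon y, neg_zero]
    have h6 := h3 x0
    generalize (g : Matrix (Fin m ⊕ Fin m) (Fin m ⊕ Fin m) F).mulVec u = w at h6 ⊢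
    have hua : u = ((Cfsg.sympForm m F x0 u)⁻¹ * Cfsg.sympForm m F x0 w) • w := by
      have h7 : (Cfsg.sympForm m F x0 u)⁻¹ • (Cfsg.sympForm m F x0 u • u) = u := by
        rw [smul_smul, inv_mul_cancel₀ hx0, one_smul]
      rw [← smul_smul, h6, h7]
    have hb : Cfsg.sympForm m F x0 u
        = ((Cfsg.sympForm m F x0 u)⁻¹ * Cfsg.sympForm m F x0 w) * Cfsg.sympForm m F x0 w := by
      conv_lhs => rw [hua]
      rw [sf_smul_right]
    have ha2 : ((Cfsg.sympForm m F x0 u)⁻¹ * Cfsg.sympForm m F x0 w) ^ 2 = 1 := by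
      field_simp
      field_simp at hb
      linear_combination -hb
    have ha1 : (Cfsg.sympForm m F x0 u)⁻¹ * Cfsg.sympForm m F x0 w = 1 := by
      have h8 : ((Cfsg.sympForm m F x0 u)⁻¹ * Cfsg.sympForm m F x0 w - 1) ^ 2 = 0 := by
        linear_combination ha2 + (1 - (Cfsg.sympForm m F x0 u)⁻¹ * Cfsg.sympForm m F x0 w) * h2
      have h9 := (pow_eq_zero_iff two_ne_zero).1 h8
      linear_combination h9
    rw [ha1, one_smul] at hua
    exact hua.symm
  · intro h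
    have h1 : g * tvS u c * g⁻¹ = tvS u c := by
      rw [tvS_conj, h]
    exact (mul_inv_eq_iff_eq_mul.1 h1)

end aux

/-- Over a finite field with q elements, q even, an element t of Sp_2m(F) with rank(t − 1) = 1 (a symplectic transvection) has centraliser in Sp_2m(F) of order q^(2m−1) · |Sp_(2m−2)(q)| = q^(2m−1) · q^((m−1)²) · Π_(i=1)^(m−1) (q^(2i) − 1). -/
theorem result {F : Type*} [Field F] [Fintype F] [CharP F 2] {q : ℕ} (hF : Fintype.card F = q) {m : ℕ} (hm : 1 ≤ m) (t : Matrix.symplecticGroup (Fin m) F) (ht : ((t : Matrix (Fin m ⊕ Fin m) (Fin m ⊕ Fin m) F) - 1).rank = 1) : Nat.card ↥(Subgroup.centralizer ({t} : Set ↥(Matrix.symplecticGroup (Fin m) F))) = q ^ (2 * m - 1) * (q ^ ((m - 1) ^ 2) * ∏ i : Fin (m - 1), (q ^ (2 * ((i : ℕ) + 1)) - 1)) := by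
  classical
  have h2 : (2 : F) = 0 := CharTwo.two_eq_zero
  obtain ⟨u, hu0, c, hc0, rfl⟩ := rank_one_tv t ht
  letI := Cfsg.Agent.Helper6.spAct m F
  have hq1 : 1 < q := by rw [← hF]; exact Fintype.one_lt_card
  have key := Cfsg.Agent.Helper6.orbit_preimage_card (G := Matrix.symplecticGroup (Fin m) F)
    {v : Fin m ⊕ Fin m → F | v ≠ 0} {u}
    (by intro x hx; rw [Set.mem_singleton_iff] at hx; subst hx; exact hu0) u hu0
    (by
      intro g x hx h0
      apply hx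
      have h1 : (g : Matrix (Fin m ⊕ Fin m) (Fin m ⊕ Fin m) F).mulVec x = 0 := h0
      have h3 := Cfsg.Agent.Helper6.sp_inv_mulVec g x
      rw [h1, Matrix.mulVec_zero] at h3
      exact h3.symm)
    (by intro x hx y hy; exact Cfsg.Agent.S0271.result m x y hx hy)
  have e : ↥(Subgroup.centralizer ({Cfsg.Agent.Helper6.tvS u c} :
        Set (Matrix.symplecticGroup (Fin m) F)))
      ≃ {g : Matrix.symplecticGroup (Fin m) F // g • u ∈ ({u} : Set (Fin m ⊕ Fin m → F))} :=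
    Equiv.subtypeEquivRight (fun g => by
      rw [tv_cent h2 u hu0 c hc0 g]
      exact Iff.rfl)
  rw [Nat.card_congr e]
  have hX : Nat.card ({v : Fin m ⊕ Fin m → F | v ≠ 0} : Set (Fin m ⊕ Fin m → F))
      = q ^ (2 * m) - 1 := by
    show Nat.card {v : Fin m ⊕ Fin m → F // v ≠ 0} = _
    rw [Nat.card_eq_fintype_card, Fintype.card_subtype_compl, Fintype.card_subtype_eq,
      Fintype.card_fun, Fintype.card_sum, Fintype.card_fin, ← two_mul, hF]
  have hS : Nat.card (({u} : Set (Fin m ⊕ Fin m → F))) = 1 := by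
    rw [Nat.card_coe_set_eq, Set.ncard_singleton]
  rw [hX, hS, one_mul, Cfsg.Agent.Helper6.sp_card hF m] at key
  obtain ⟨k, rfl⟩ : ∃ k, m = k + 1 := ⟨m - 1, by omega⟩
  rw [Finset.prod_range_succ] at key
  have hpos : 0 < q ^ (2 * (k + 1)) - 1 := by
    have : 1 < q ^ (2 * (k + 1)) := Nat.one_lt_pow (by omega) hq1
    omega
  have hk1 : k + 1 - 1 = k := by omega
  rw [hk1, Fin.prod_univ_eq_prod_range (fun i => q ^ (2 * (i + 1)) - 1) k]
  apply Nat.eq_of_mul_eq_mul_right hpos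
  rw [key]
  have h3 : (k + 1) ^ 2 = (2 * (k + 1) - 1) + k ^ 2 := by
    have : 2 * (k + 1) - 1 = 2 * k + 1 := by omega
    rw [this]
    ring
  rw [h3, pow_add]
  ring

end Cfsg.Agent.S2594
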