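import Cfsg.Statements.S2599

set_option autoImplicit false
open Cfsg

namespace Cfsg.Agent.S2599

theorem result {F : Type*} [Field F] [Fintype F] {p : ℕ} [Fact p.Prime] [CharP F p] {n : ℕ} (Q : QuadraticForm F (Fin n → F)) (hQ : (QuadraticMap.polarBilin Q).Nondegenerate) (x : ↥(Cfsg.isometryGroup F ⇑Q)) (hx : (orderOf x).Coprime p) (U : Submodule F (Fin n → F)) (hU0 : U ≠ ⊥) (hUx : ∀ u ∈ U, ((x : Matrix.GeneralLinearGroup (Fin n) F) : Matrix (Fin n) (Fin n) F).mulVec u ∈ U) (hirr : ∀ W : Submodule F (Fin n → F), W ≤ U → (∀ w ∈ W, ((x : Matrix.GeneralLinearGroup (Fin n) F) : Matrix (Fin n) (Fin n) F).mulVec w ∈ W) → W = ⊥ ∨ W = U) : U ⊓ LinearMap.BilinForm.orthogonal (QuadraticMap.polarBilin Q) U = ⊥ ∨ (∀ u ∈ U, Q u = 0) ∨ (p = 2 ∧ Module.finrank F U = 1 ∧ (∃ u ∈ U, Q u ≠ 0) ∧ ∀ u ∈ U, ((x : Matrix.GeneralLinearGroup (Fin n) F) : Matrix (Fin n) (Fin n) F).mulVec u = u) := by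
  classical
  set A : Matrix (Fin n) (Fin n) F := ((x : Matrix.GeneralLinearGroup (Fin n) F) : Matrix (Fin n) (Fin n) F) with hA
  have hQA : ∀ v, Q (A.mulVec v) = Q v := fun v => x.2 v v
  have hfA : ∀ u v, QuadraticMap.polarBilin Q (A.mulVec u) (A.mulVec v) = QuadraticMap.polarBilin Q u v := by
    intro u v
    rw [QuadraticMap.polarBilin_apply_apply, QuadraticMap.polarBilin_apply_apply]
    unfold QuadraticMap.polar
    rw [← Matrix.mulVec_add, hQA, hQA, hQA]
  -- A maps U onto U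
  let T : U →ₗ[F] U :=
    { toFun := fun u => ⟨A.mulVec u.1, hUx u.1 u.2⟩
      map_add' := by
        intro u v
        apply Subtype.ext
        simp [Matrix.mulVec_add]
      map_smul' := by
        intro c u
        apply Subtype.ext
        simp [Matrix.mulVec_smul] }
  have hTinj : Function.Injective T := by
    intro u v huv
    have h1 : A.mulVec u.1 = A.mulVec v.1 := congrArg Subtype.val huv
    have hAinv : (((x : Matrix.GeneralLinearGroup (Fin n) F)⁻¹ : Matrix.GeneralLinearGroup (Fin n) F) : Matrix (Fin n) (Fin n) F) * A = 1 :=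
      Units.inv_mul _
    have h2 := congrArg (fun w => ((((x : Matrix.GeneralLinearGroup (Fin n) F)⁻¹ : Matrix.GeneralLinearGroup (Fin n) F) : Matrix (Fin n) (Fin n) F)).mulVec w) h1
    simp only [Matrix.mulVec_mulVec, hAinv, Matrix.one_mulVec] at h2
    exact Subtype.ext h2
  have hTsurj : Function.Surjective T := LinearMap.surjective_of_injective hTinj
  have hpre : ∀ u ∈ U, ∃ u' ∈ U, A.mulVec u' = u := by
    intro u hu
    obtain ⟨u', hu'⟩ := hTsurj ⟨u, hu⟩
    exact ⟨u'.1, u'.2, congrArg Subtype.val hu'⟩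
  -- the radical
  have hW := hirr (U ⊓ LinearMap.BilinForm.orthogonal (QuadraticMap.polarBilin Q) U) inf_le_left (by
    rintro w ⟨hwU, hwO⟩
    refine ⟨hUx w hwU, ?_⟩
    rw [SetLike.mem_coe, LinearMap.BilinForm.mem_orthogonal_iff] at hwO ⊢
    intro m hm
    obtain ⟨m', hm', rfl⟩ := hpre m hm
    rw [hfA]
    exact hwO m' hm')
  rcases hW with hW | hW
  · exact Or.inl hW
  right
  have hUO : ∀ u ∈ U, ∀ v ∈ U, QuadraticMap.polarBilin Q u v = 0 := by
    intro u hu v hv
    have hv' : v ∈ U ⊓ LinearMap.BilinForm.orthogonal (QuadraticMap.polarBilin Q) U := by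
      rw [hW]; exact hv
    exact (LinearMap.BilinForm.mem_orthogonal_iff.mp hv'.2) u hu
  have hadd : ∀ u ∈ U, ∀ v ∈ U, Q (u + v) = Q u + Q v := by
    intro u hu v hv
    have h := hUO u hu v hv
    rw [QuadraticMap.polarBilin_apply_apply] at h
    unfold QuadraticMap.polar at h
    linear_combination h
  by_cases h2 : (2 : F) = 0
  swap
  · left
    intro u hu
    have h := hUO u hu u hu
    rw [QuadraticMap.polarBilin_apply_apply] at h
    unfold QuadraticMap.polar at h
    have h3 : Q (u + u) = 4 * Q u := by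
      have : u + u = (2 : F) • u := by rw [two_smul]
      rw [this, QuadraticMap.map_smul, smul_eq_mul]
      ring
    rw [h3] at h
    have h4 : 2 * Q u = 0 := by linear_combination h
    rcases mul_eq_zero.mp h4 with h5 | h5
    · exact absurd h5 h2
    · exact h5
  have haa : ∀ a : F, a + a = 0 := by
    intro a
    have : a + a = 2 * a := by ring
    rw [this, h2, zero_mul]
  -- the singular vectors of U
  let U₀ : Submodule F (Fin n → F) :=
    { carrier := {u | u ∈ U ∧ Q u = 0}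
      add_mem' := by
        rintro u v ⟨hu, hu0⟩ ⟨hv, hv0⟩
        exact ⟨U.add_mem hu hv, by rw [hadd u hu v hv, hu0, hv0, add_zero]⟩
      zero_mem' := ⟨U.zero_mem, by simp⟩
      smul_mem' := by
        rintro c u ⟨hu, hu0⟩
        exact ⟨U.smul_mem c hu, by rw [QuadraticMap.map_smul, hu0, smul_zero]⟩ }
  have hU₀ := hirr U₀ (fun u hu => hu.1) (by
    rintro w ⟨hwU, hw0⟩
    exact ⟨hUx w hwU, by rw [hQA]; exact hw0⟩)
  rcases hU₀ with hU₀ | hU₀
  swap
  · left
    intro u hu
    have : u ∈ U₀ := by rw [hU₀]; exact hu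
    exact this.2
  right
  have hzero : ∀ u ∈ U, Q u = 0 → u = 0 := by
    intro u hu hu0
    have : u ∈ U₀ := ⟨hu, hu0⟩
    rw [hU₀] at this
    exact (Submodule.mem_bot F).mp this
  have hp2 : p = 2 := by
    have h3 : ((2 : ℕ) : F) = 0 := by exact_mod_cast h2
    have h4 := (CharP.cast_eq_zero_iff F p 2).mp h3
    exact (Nat.prime_dvd_prime_iff_eq (Fact.out : p.Prime) Nat.prime_two).mp h4
  obtain ⟨u₀, hu₀U, hu₀⟩ := (Submodule.ne_bot_iff U).mp hU0
  have hQu₀ : Q u₀ ≠ 0 := fun h => hu₀ (hzero u₀ hu₀U h)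
  have hspan : U = F ∙ u₀ := by
    apply le_antisymm
    · intro v hv
      have hch : ringChar F = 2 := by
        have : CharP F 2 := hp2 ▸ (inferInstance : CharP F p)
        exact ringChar.eq F 2
      obtain ⟨c, hc⟩ := FiniteField.isSquare_of_char_two hch (Q v / Q u₀)
      have h5 : Q (v + c • u₀) = 0 := by
        rw [hadd v hv _ (U.smul_mem c hu₀U), QuadraticMap.map_smul, smul_eq_mul, ← hc,
          div_mul_cancel₀ _ hQu₀]
        exact haa _
      have h6 := hzero _ (U.add_mem hv (U.smul_mem c hu₀U)) h5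
      rw [Submodule.mem_span_singleton]
      refine ⟨-c, ?_⟩
      rw [neg_smul]
      exact (eq_neg_of_add_eq_zero_left h6).symm
    · rw [Submodule.span_singleton_le_iff_mem]
      exact hu₀U
  refine ⟨hp2, ?_, ⟨u₀, hu₀U, hQu₀⟩, ?_⟩
  · rw [hspan]
    exact finrank_span_singleton hu₀
  · intro u hu
    have h5 : Q (A.mulVec u + -u) = 0 := by
      rw [hadd _ (hUx u hu) _ (U.neg_mem hu), hQA, QuadraticMap.map_neg]
      exact haa _
    have h6 := hzero _ (U.add_mem (hUx u hu) (U.neg_mem hu)) h5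
    exact eq_neg_of_add_eq_zero_left h6 |>.trans (neg_neg u)

end Cfsg.Agent.S2599
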