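import Cfsg.Statements.S2602
import Cfsg.Agent.Helper9.Au4

set_option autoImplicit false
open Cfsg

namespace Cfsg.Agent.S2602

open Cfsg.Agent.Helper9

theorem result {F : Type*} [Field F] [Fintype F] {p f : ℕ} [Fact p.Prime] (hf : 1 ≤ f) (hF : Fintype.card F = p ^ f) (h4 : 4 ≤ p ^ f) : ∃ φ : Cfsg.Out (Matrix.ProjectiveSpecialLinearGroup (Fin 2) F) →* Multiplicative (ZMod f), Function.Surjective φ ∧ IsCyclic φ.ker ∧ Nat.card φ.ker = Nat.gcd 2 (p ^ f - 1) := by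
  obtain ⟨φ, hsurj, hker⟩ := out_psl2_exists_h9 (F := F) hF hf
  refine ⟨φ, hsurj, ?_, ?_⟩
  · rw [hker]; exact theta_range_cyclic_h9
  · rw [hker, theta_range_card_h9, hF]

end Cfsg.Agent.S2602
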