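import Cfsg.Statements.S2610
import Cfsg.Agent.Helper16.SpinorApps
import Cfsg.Agent.S2623

set_option autoImplicit false
open Cfsg

namespace Cfsg.Agent.S2610

open QuadraticMap Cfsg.Agent.Helper16

/-- For a quadratic form Q on F^n with non-degenerate polar form, F finite of odd order and n ≥ 2 even, the isometry −1 lies in Ω (the commutator subgroup of the orthogonal group) if and only if the discriminant of Q (the determinant of the Gram matrix of its polar form) is a square. -/
theorem result {F : Type*} [Field F] [Fintype F] (h2 : (2 : F) ≠ 0) {n : ℕ} (hn : 2 ≤ n) (he : Even n) (Q : QuadraticForm F (Fin n → F)) (hQ : (QuadraticMap.polarBilin Q).Nondegenerate) : (∃ g : ↥(Cfsg.isometryGroup F ⇑Q), g ∈ Cfsg.Omega F ⇑Q ∧ ((g : Matrix.GeneralLinearGroup (Fin n) F) : Matrix (Fin n) (Fin n) F) = -1) ↔ IsSquare (Matrix.of (fun i j : Fin n => QuadraticMap.polar ⇑Q (Pi.single i 1) (Pi.single j 1))).det := by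
  classical
  haveI : Invertible (2 : F) := invertibleOfNonzero h2
  obtain ⟨b, hb⟩ := LinearMap.BilinForm.exists_orthogonal_basis (polarBilin_isSymm Q)
  have hne : ∀ i, Q (b i) ≠ 0 := by
    intro i h0
    have h3 := LinearMap.IsOrthoᵢ.not_isOrtho_basis_self_of_separatingLeft hb hQ.1 i
    apply h3
    show polar Q (b i) (b i) = 0
    rw [qf_polar_self, h0, mul_zero]
  obtain ⟨vs, hvsdef⟩ : ∃ vs : List (Fin n → F), vs = List.ofFn (fun i => b i) := ⟨_, rfl⟩
  have hvs : ∀ v ∈ vs, Q v ≠ 0 := by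
    intro v hv
    rw [hvsdef, List.mem_ofFn] at hv
    obtain ⟨i, rfl⟩ := hv
    exact hne i
  have hpw : vs.Pairwise (fun u v => polar Q u v = 0) := by
    rw [hvsdef, List.pairwise_ofFn]
    intro i j hij
    exact hb (ne_of_lt hij)
  have hprod : (vs.map (qrefl Q)).prod = -LinearMap.id := by
    apply b.ext
    intro i
    rw [prod_qrefl_neg Q vs hvs hpw (b i) (by rw [hvsdef, List.mem_ofFn]; exact ⟨i, rfl⟩)]
    simp
  have hg₀ := coe_prod_reflElt Q vs hvs
  have hmat : (vs.map (fun v => Cfsg.reflectionMatrix ⇑Q v)).prod = -1 := by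
    apply Matrix.toLin'.injective
    rw [toLin'_prod_reflMatrix, hprod, map_neg, Matrix.toLin'_one]
  have hiff := mem_Omega_iff h2 Q hQ _ vs hvs hg₀
  have hlen : vs.length = n := by
    rw [hvsdef, List.length_ofFn]
    simp
  have hprodQ : (vs.map (fun v => Q v)).prod = ∏ i, Q (b i) := by
    rw [hvsdef, List.map_ofFn, List.prod_ofFn]
    rfl
  have hdet : IsSquare (∏ i, Q (b i)) ↔ IsSquare (Matrix.of (fun i j : Fin n =>
      QuadraticMap.polar ⇑Q (Pi.single i 1) (Pi.single j 1))).det := by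
    rw [← isSquare_gram_det_iff b _ (polar Q) (Cfsg.Agent.S2623.polar_eq_dot Q)]
    have hdiag : (Matrix.of fun i j => polar Q (b i) (b j)) =
        Matrix.diagonal (fun i => 2 * Q (b i)) := by
      ext i j
      by_cases hij : i = j
      · subst hij
        rw [Matrix.of_apply, Matrix.diagonal_apply_eq, qf_polar_self]
      · rw [Matrix.of_apply, Matrix.diagonal_apply_ne _ hij]
        exact hb hij
    rw [hdiag, Matrix.det_diagonal, Finset.prod_mul_distrib, Finset.prod_const, Finset.card_univ,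
      Fintype.card_fin]
    have hfr : Module.finrank F (Fin n → F) = n := by simp
    obtain ⟨k, hk⟩ := he
    have h2k : (2 : F) ^ Module.finrank F (Fin n → F) = 2 ^ k * 2 ^ k := by rw [hfr, hk, pow_add]
    have h2k0 : (2 : F) ^ k ≠ 0 := pow_ne_zero _ h2
    rw [h2k]
    constructor
    · rintro ⟨r, hr⟩
      exact ⟨2 ^ k * r, by rw [hr]; ring⟩
    · rintro ⟨r, hr⟩
      refine ⟨r / 2 ^ k, ?_⟩
      field_simp
      linear_combination hr
  rw [hprodQ, hlen] at hiff
  constructor
  · rintro ⟨g, hg, hgm⟩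
    have : g = (vs.map (reflElt Q)).prod := by
      apply isom_ext
      rw [hgm, hg₀, hmat]
    rw [this, hiff] at hg
    exact hdet.1 hg.2
  · intro h
    exact ⟨_, hiff.2 ⟨he, hdet.2 h⟩, by rw [hg₀, hmat]⟩

end Cfsg.Agent.S2610
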