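import Cfsg.Statements.S2612
import Cfsg.Agent.Helper16.PermIso

set_option autoImplicit false
open Cfsg

namespace Cfsg.Agent.S2612

open Cfsg.Agent.Helper16 QuadraticMap Module in
theorem aux {F : Type*} [Field F] {m : ℕ}
    (g : ↥(Cfsg.isometryGroup F ⇑(qfPlus m F))) (hg : g ∈ Cfsg.Omega F ⇑(qfPlus m F))
    (h1 : ∀ v : Fin m ⊕ Fin m → F, (∀ i, v (Sum.inr i) = 0) → ∀ i, (((g : Matrix.GeneralLinearGroup (Fin m ⊕ Fin m) F) : Matrix (Fin m ⊕ Fin m) (Fin m ⊕ Fin m) F).mulVec v) (Sum.inl i) = 0) :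
    Even m := by
  have hQ := qfPlus_nondegenerate (m := m) (F := F)
  have hV := finrank_plus m F
  have h := parIso_Omega (qfPlus m F) hQ hV (subE m F) (TS_subE) (finrank_subE) g hg
  have hbot : subE m F ⊓ mapG (g : Matrix.GeneralLinearGroup (Fin m ⊕ Fin m) F) (subE m F) = ⊥ := by
    rw [eq_bot_iff, ← subE_inf_subE']
    intro x hx
    refine ⟨hx.1, ?_⟩
    obtain ⟨e, he, rfl⟩ := (mem_mapG _ _ _).1 hx.2
    exact (mem_subE' _).2 (h1 e ((mem_subE e).1 he))
  unfold lagDist at h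
  rw [hbot, finrank_bot, Nat.sub_zero] at h
  exact h

/-- For the hyperbolic quadratic form Σ x_i y_i on F^(2m) (F finite, m ≥ 1, excluding m = 2 over the field of two elements), Ω⁺_2m(F) (the commutator subgroup of the orthogonal group) contains an element interchanging the two complementary maximal totally singular subspaces {y = 0} and {x = 0} if and only if m is even (dimension divisible by 4). -/
theorem result {F : Type*} [Field F] [Fintype F] {m : ℕ} (hm : 1 ≤ m) (h : Fintype.card F ≠ 2 ∨ m ≠ 2) : (∃ g : ↥(Cfsg.isometryGroup F (Cfsg.quadFormPlus m F)), g ∈ Cfsg.Omega F (Cfsg.quadFormPlus m F) ∧ (∀ v : Fin m ⊕ Fin m → F, (∀ i, v (Sum.inr i) = 0) → ∀ i, (((g : Matrix.GeneralLinearGroup (Fin m ⊕ Fin m) F) : Matrix (Fin m ⊕ Fin m) (Fin m ⊕ Fin m) F).mulVec v) (Sum.inl i) = 0) ∧ (∀ v : Fin m ⊕ Fin m → F, (∀ i, v (Sum.inl i) = 0) → ∀ i, (((g : Matrix.GeneralLinearGroup (Fin m ⊕ Fin m) F) : Matrix (Fin m ⊕ Fin m) (Fin m ⊕ Fin m) F).mulVec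 v) (Sum.inr i) = 0)) ↔ Even m := by
  constructor
  · rintro ⟨g, hg, h1, -⟩
    have hco : ⇑(Cfsg.Agent.Helper16.qfPlus m F) = Cfsg.quadFormPlus m F :=
      Cfsg.Agent.Helper16.coe_qfPlus m F
    revert g
    rw [← hco]
    intro g hg h1
    exact aux g hg h1
  · rintro ⟨j, rfl⟩
    refine ⟨Cfsg.Agent.Helper16.permElt (Cfsg.quadFormPlus (j + j) F) (Equiv.sumComm (Fin (j + j)) (Fin (j + j)))
      Cfsg.Agent.Helper16.plus_comp_swap, ?_, ?_, ?_⟩
    · apply Cfsg.Agent.Helper16.swapElt_mem_Omega (fun i => (finSumFinEquiv.symm i).isLeft)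
        ((finSumFinEquiv.symm.trans (Equiv.sumComm (Fin j) (Fin j))).trans finSumFinEquiv)
      · intro i
        simp
      · intro i
        simp
    · intro v hv i
      rw [Cfsg.Agent.Helper16.permElt_mulVec]
      exact hv i
    · intro v hv i
      rw [Cfsg.Agent.Helper16.permElt_mulVec]
      exact hv i

end Cfsg.Agent.S2612
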