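import Cfsg.Statements.S2615
import Cfsg.Agent.Helper16.SpinorApps
import Cfsg.Agent.S2679

set_option autoImplicit false
open Cfsg

namespace Cfsg.Agent.S2615

/-- For an elliptic form Σ_(j<m−1) x_j y_j + (z₁² + a z₁z₂ + b z₂²) (anisotropic binary part) on F^(2m), F finite with q elements, q odd, and 1 ≤ i ≤ m − 1: the involution negating the first i hyperbolic pairs and fixing the rest lies in Ω⁻_2m(q) (commutator subgroup of the orthogonal group) if and only if q^i ≡ 1 (mod 4). -/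
theorem result {F : Type*} [Field F] [Fintype F] {q : ℕ} (hF : Fintype.card F = q) (hq : Odd q) {m : ℕ} (a b : F) (hab : ∀ z₁ z₂ : F, z₁ ^ 2 + a * z₁ * z₂ + b * z₂ ^ 2 = 0 → z₁ = 0 ∧ z₂ = 0) (i : ℕ) (hi : 1 ≤ i) (him : i + 1 ≤ m) : (∃ g : ↥(Cfsg.isometryGroup F (Cfsg.quadFormMinus (m - 1) F a b)), g ∈ Cfsg.Omega F (Cfsg.quadFormMinus (m - 1) F a b) ∧ ((g : Matrix.GeneralLinearGroup ((Fin (m - 1) ⊕ Fin (m - 1)) ⊕ Fin 2) F) : Matrix ((Fin (m - 1) ⊕ Fin (m - 1)) ⊕ Fin 2) ((Fin (m - 1) ⊕ Fin (m - 1)) ⊕ Fin 2) F) = Matrix.diagonal (fun k : (Fin (m - 1) ⊕ Fin (m - 1)) ⊕ Fin 2 => if (Sum.elim (Sum.elim (fun j : Fin (m - 1) => (j : ℕ)) (fun j : Fin (m - 1) => (j : ℕ))) (fun _ : Fin 2 => i) k) < i then (-1 : F) else 1)) ↔ q ^ i % 4 = 1 := by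
  classical
  have h2 : (2 : F) ≠ 0 := Cfsg.Agent.Helper16.two_ne_zero_of_odd_card (by rw [hF]; exact hq)
  have hd : 4 * b - a ^ 2 ≠ 0 := by
    have := Cfsg.Agent.S2679.disc_ne_zero a b hab
    intro h
    apply this
    linear_combination -h
  rw [← Cfsg.Agent.Helper16.coe_qfMinus (m - 1) F a b,
    ← Cfsg.Agent.Helper16.isSquare_neg_one_pow_iff' hF hq i]
  apply Cfsg.Agent.Helper16.negPairs_mem_Omega_iff h2 (Cfsg.Agent.Helper16.qfMinus (m - 1) F a b)
    (Cfsg.Agent.Helper16.qfMinus_nondegenerate a b hd) (fun j => Sum.inl (Sum.inl j))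
    (fun j => Sum.inl (Sum.inr j))
    (fun j j' h => Sum.inl_injective (Sum.inl_injective h))
    (fun j j' h => Sum.inr_injective (Sum.inl_injective h))
    (fun j j' h => Sum.inl_ne_inr (Sum.inl_injective h))
    (fun j x => Cfsg.Agent.Helper16.polar_qfMinus_inl a b j x)
    (fun j x => Cfsg.Agent.Helper16.polar_qfMinus_inr a b j x)
    (Cfsg.Agent.Helper16.qfMinus_single_inl a b) (Cfsg.Agent.Helper16.qfMinus_single_inr a b) i
    (by omega)
  congr 1
  funext k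
  rcases k with (j | j) | j
  · by_cases h : (j : ℕ) < i <;> simp [h]
  · by_cases h : (j : ℕ) < i <;> simp [h]
  · simp

end Cfsg.Agent.S2615
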