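import Cfsg.Statements.S2616
import Cfsg.Agent.Helper16.QuadBasis

set_option autoImplicit false
open Cfsg

namespace Cfsg.Agent.S2616

open QuadraticMap Cfsg.Agent.Helper16

/-- Standard bases of a non-degenerate quadratic space of even dimension 2m over a finite field: either there is a hyperbolic basis e_i, f_i (Q(e_i) = Q(f_i) = 0, B(e_i, f_j) = δ_ij, the e's pairwise orthogonal and the f's pairwise orthogonal, B the polar form), or there is an elliptic basis: hyperbolic pairs e_i, f_i for i < m − 1 together with x, y orthogonal to them with Q(x) = 1, B(x, y) = 1, Q(y) = ζ where t² + t + ζ has no root in the field. -/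
theorem result {F V : Type*} [Field F] [Finite F] [AddCommGroup V] [Module F V] [FiniteDimensional F V] {m : ℕ} (hm : 1 ≤ m) (hV : Module.finrank F V = 2 * m) (Q : QuadraticForm F V) (hQ : (QuadraticMap.polarBilin Q).Nondegenerate) : (∃ b : Module.Basis (Fin m ⊕ Fin m) F V, (∀ i, Q (b (Sum.inl i)) = 0 ∧ Q (b (Sum.inr i)) = 0) ∧ (∀ i j, QuadraticMap.polar ⇑Q (b (Sum.inl i)) (b (Sum.inr j)) = if i = j then 1 else 0) ∧ (∀ i j, QuadraticMap.polar ⇑Q (b (Sum.inl i)) (b (Sum.inl j)) = 0 ∧ QuadraticMap.polar ⇑Q (b (Sum.inr i)) (b (Sum.inr j)) = 0)) ∨ (∃ (b : Module.Basis ((Fin (m - 1) ⊕ Fin (m - 1)) ⊕ Fin 2) F V) (ζ : F), (∀ t : F, t ^ 2 + t + ζ ≠ 0) ∧ (∀ i, Q (b (Sum.inl (Sum.inl i))) = 0 ∧ Q (b (Sum.inl (Sum.inr i))) = 0) ∧ (∀ i j, QuadraticMap.polar ⇑Q (b (Sum.inl (Sum.inl i))) (b (Sum.inl (Sum.inr j))) = if i = j then 1 else 0) ∧ (∀ i j, QuadraticMap.polar ⇑Q (b (Sum.inl (Sum.inl i))) (b (Sum.inl (Sum.inl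 j))) = 0 ∧ QuadraticMap.polar ⇑Q (b (Sum.inl (Sum.inr i))) (b (Sum.inl (Sum.inr j))) = 0) ∧ (∀ i (k : Fin 2), QuadraticMap.polar ⇑Q (b (Sum.inl (Sum.inl i))) (b (Sum.inr k)) = 0 ∧ QuadraticMap.polar ⇑Q (b (Sum.inl (Sum.inr i))) (b (Sum.inr k)) = 0) ∧ Q (b (Sum.inr 0)) = 1 ∧ QuadraticMap.polar ⇑Q (b (Sum.inr 0)) (b (Sum.inr 1)) = 1 ∧ Q (b (Sum.inr 1)) = ζ) := by
  obtain ⟨k, rfl⟩ : ∃ k, m = k + 1 := ⟨m - 1, by omega⟩
  obtain ⟨e, f, u, hfam, hP, horth⟩ := exists_witt_decomp (F := F) (r := 2) (d₀ := 2) (by norm_num)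
    (fun q p => (q 0 = 0 ∧ q 1 = 0 ∧ p 0 1 = 1) ∨
      (q 0 = 1 ∧ p 0 1 = 1 ∧ ∀ t : F, t ^ 2 + t + q 1 ≠ 0))
    (fun V _ _ _ Q hQ hV => exists_binary_type Q hQ hV) k V Q hQ (by rw [hV]; ring)
  rcases hP with ⟨h0, h1, h01⟩ | ⟨h0, h01, hζ⟩
  · left
    have hfam' := IsHypFamily.cons Q hfam (u 0) (u 1) h0 h1 h01 (fun i =>
      ⟨by rw [polar_comm]; exact (horth i 0).1, by rw [polar_comm]; exact (horth i 0).2,
       by rw [polar_comm]; exact (horth i 1).1, by rw [polar_comm]; exact (horth i 1).2⟩)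
    have hli := linearIndependent_hyp Q hfam'
    have hcard : Fintype.card (Fin (k + 1) ⊕ Fin (k + 1)) = Module.finrank F V := by
      rw [hV]
      simp
      omega
    refine ⟨basisOfLinearIndependentOfCardEqFinrank hli hcard, ?_⟩
    rw [coe_basisOfLinearIndependentOfCardEqFinrank]
    exact hfam'
  · right
    have hli := linearIndependent_ell Q hfam u h0 h01 hζ horth
    have hcard : Fintype.card ((Fin k ⊕ Fin k) ⊕ Fin 2) = Module.finrank F V := by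
      rw [hV]
      simp
      omega
    refine ⟨basisOfLinearIndependentOfCardEqFinrank hli hcard, Q (u 1), hζ, ?_⟩
    rw [coe_basisOfLinearIndependentOfCardEqFinrank]
    obtain ⟨h1, h2, h3⟩ := hfam
    exact ⟨h1, h2, h3, horth, h0, h01, rfl⟩

end Cfsg.Agent.S2616
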