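import Cfsg.Statements.S2617

set_option autoImplicit false
open Cfsg

namespace Cfsg.Agent.S2617

section

variable {F : Type*} [Field F] [Fintype F] [DecidableEq F]

/-- number of zeros of `Q(v) + x y` -/
theorem card_hyp {V : Type*} [Fintype V] (Q : V → F) :
    Fintype.card {w : V × F × F // Q w.1 + w.2.1 * w.2.2 = 0} =
      Fintype.card F * Fintype.card {v : V // Q v = 0} + (Fintype.card F - 1) * Fintype.card V := by
  classical
  rw [Fintype.card_subtype, Fintype.card_subtype, Finset.card_filter, Finset.card_filter,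
    Fintype.sum_prod_type]
  simp_rw [Fintype.sum_prod_type]
  have inner : ∀ v : V, (∑ x : F, ∑ y : F, if Q v + x * y = 0 then 1 else 0) =
      (if Q v = 0 then Fintype.card F else 0) + (Fintype.card F - 1) := by
    intro v
    rw [← Finset.add_sum_erase Finset.univ _ (Finset.mem_univ (0 : F))]
    congr 1
    · by_cases h : Q v = 0
      · simp [h]
      · simp [h]
    · have h1 : ∀ x ∈ Finset.univ.erase (0 : F), (∑ y : F, if Q v + x * y = 0 then 1 else 0) = 1 := by
        intro x hx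
        have hx0 : x ≠ 0 := Finset.ne_of_mem_erase hx
        have h2 : ∀ y : F, (Q v + x * y = 0) ↔ y = -Q v / x := by
          intro y
          constructor
          · intro h
            field_simp
            linear_combination h
          · intro h
            rw [h]
            field_simp
            ring
        simp only [h2, Finset.sum_ite_eq', Finset.mem_univ, if_true]
      rw [Finset.sum_congr rfl h1, Finset.sum_const, Finset.card_erase_of_mem (Finset.mem_univ _),
        Finset.card_univ, smul_eq_mul, mul_one]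
  rw [Finset.sum_congr rfl (fun v _ => inner v), Finset.sum_add_distrib, Finset.sum_const,
    Finset.card_univ, smul_eq_mul, Finset.mul_sum]
  congr 1
  · refine Finset.sum_congr rfl fun v _ => ?_
    by_cases h : Q v = 0
    · simp [h]
    · simp [h]
  · rw [mul_comm]

/-- peel off one hyperbolic pair (plus type) -/
def ePlus (k : ℕ) : (Fin (k + 1) ⊕ Fin (k + 1) → F) ≃ (Fin k ⊕ Fin k → F) × F × F where
  toFun w := (fun i => Sum.elim (fun a => w (Sum.inl a.succ)) (fun a => w (Sum.inr a.succ)) i,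
    w (Sum.inl 0), w (Sum.inr 0))
  invFun t := Sum.elim (Fin.cons t.2.1 (fun a => t.1 (Sum.inl a)))
    (Fin.cons t.2.2 (fun a => t.1 (Sum.inr a)))
  left_inv w := by
    funext i
    rcases i with i | i
    · refine Fin.cases ?_ (fun j => ?_) i <;> simp
    · refine Fin.cases ?_ (fun j => ?_) i <;> simp
  right_inv t := by
    obtain ⟨v, x, y⟩ := t
    refine Prod.ext ?_ (Prod.ext ?_ ?_)
    · funext i
      rcases i with i | i <;> simp
    · simp
    · simp

theorem quadFormPlus_ePlus (k : ℕ) (w : Fin (k + 1) ⊕ Fin (k + 1) → F) :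
    Cfsg.quadFormPlus (k + 1) F w =
      Cfsg.quadFormPlus k F (ePlus k w).1 + (ePlus k w).2.1 * (ePlus k w).2.2 := by
  unfold Cfsg.quadFormPlus
  rw [Fin.sum_univ_succ, add_comm]
  rfl

/-- peel off one hyperbolic pair (minus type) -/
def eMinus (k : ℕ) : ((Fin (k + 1) ⊕ Fin (k + 1)) ⊕ Fin 2 → F) ≃
    ((Fin k ⊕ Fin k) ⊕ Fin 2 → F) × F × F where
  toFun w := (fun i => Sum.elim (Sum.elim (fun a => w (Sum.inl (Sum.inl a.succ)))
      (fun a => w (Sum.inl (Sum.inr a.succ)))) (fun j => w (Sum.inr j)) i,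
    w (Sum.inl (Sum.inl 0)), w (Sum.inl (Sum.inr 0)))
  invFun t := Sum.elim (Sum.elim (Fin.cons t.2.1 (fun a => t.1 (Sum.inl (Sum.inl a))))
    (Fin.cons t.2.2 (fun a => t.1 (Sum.inl (Sum.inr a))))) (fun j => t.1 (Sum.inr j))
  left_inv w := by
    funext i
    rcases i with (i | i) | i
    · refine Fin.cases ?_ (fun j => ?_) i <;> simp
    · refine Fin.cases ?_ (fun j => ?_) i <;> simp
    · simp
  right_inv t := by
    obtain ⟨v, x, y⟩ := t
    refine Prod.ext ?_ (Prod.ext ?_ ?_)
    · funext i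
      rcases i with (i | i) | i <;> simp
    · simp
    · simp

theorem quadFormMinus_eMinus (k : ℕ) (a b : F) (w : (Fin (k + 1) ⊕ Fin (k + 1)) ⊕ Fin 2 → F) :
    Cfsg.quadFormMinus (k + 1) F a b w =
      Cfsg.quadFormMinus k F a b (eMinus k w).1 + (eMinus k w).2.1 * (eMinus k w).2.2 := by
  unfold Cfsg.quadFormMinus
  rw [Fin.sum_univ_succ]
  simp only [eMinus, Equiv.coe_fn_mk, Sum.elim_inl, Sum.elim_inr]
  ring

theorem card_plus_succ (k : ℕ) :
    Fintype.card {w : Fin (k + 1) ⊕ Fin (k + 1) → F // Cfsg.quadFormPlus (k + 1) F w = 0} =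
      Fintype.card F * Fintype.card {w : Fin k ⊕ Fin k → F // Cfsg.quadFormPlus k F w = 0} +
        (Fintype.card F - 1) * Fintype.card (Fin k ⊕ Fin k → F) := by
  rw [← card_hyp]
  apply Fintype.card_congr
  apply (ePlus k).subtypeEquiv
  intro w
  rw [quadFormPlus_ePlus]

theorem card_minus_succ (k : ℕ) (a b : F) :
    Fintype.card {w : (Fin (k + 1) ⊕ Fin (k + 1)) ⊕ Fin 2 → F //
        Cfsg.quadFormMinus (k + 1) F a b w = 0} =
      Fintype.card F * Fintype.card {w : (Fin k ⊕ Fin k) ⊕ Fin 2 → F //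
        Cfsg.quadFormMinus k F a b w = 0} +
        (Fintype.card F - 1) * Fintype.card ((Fin k ⊕ Fin k) ⊕ Fin 2 → F) := by
  rw [← card_hyp]
  apply Fintype.card_congr
  apply (eMinus k).subtypeEquiv
  intro w
  rw [quadFormMinus_eMinus]

theorem card_lt (a b : F)
    (hab : ∀ z₁ z₂ : F, z₁ ^ 2 + a * z₁ * z₂ + b * z₂ ^ 2 = 0 → z₁ = 0 ∧ z₂ = 0) (k : ℕ) :
    Fintype.card {w : (Fin k ⊕ Fin k) ⊕ Fin 2 → F // Cfsg.quadFormMinus k F a b w = 0} <
      Fintype.card {w : Fin (k + 1) ⊕ Fin (k + 1) → F // Cfsg.quadFormPlus (k + 1) F w = 0} := by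
  have hq : 2 ≤ Fintype.card F := Fintype.one_lt_card
  induction k with
  | zero =>
    rw [card_plus_succ]
    have h1 : Fintype.card {w : (Fin 0 ⊕ Fin 0) ⊕ Fin 2 → F // Cfsg.quadFormMinus 0 F a b w = 0} ≤ 1 := by
      rw [Fintype.card_le_one_iff_subsingleton]
      constructor
      rintro ⟨w, hw⟩ ⟨w', hw'⟩
      apply Subtype.ext
      unfold Cfsg.quadFormMinus at hw hw'
      simp only [Finset.univ_eq_empty, Finset.sum_empty, zero_add] at hw hw'
      have h1 := hab _ _ hw
      have h2 := hab _ _ hw'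
      funext i
      rcases i with (i | i) | i
      · exact Fin.elim0 i
      · exact Fin.elim0 i
      · fin_cases i
        · exact h1.1.trans h2.1.symm
        · exact h1.2.trans h2.2.symm
    have h2 : 1 ≤ Fintype.card {w : Fin 0 ⊕ Fin 0 → F // Cfsg.quadFormPlus 0 F w = 0} := by
      rw [Nat.succ_le_iff, Fintype.card_pos_iff]
      exact ⟨⟨0, by unfold Cfsg.quadFormPlus; simp⟩⟩
    have h3 : Fintype.card (Fin 0 ⊕ Fin 0 → F) = 1 := by
      rw [Fintype.card_eq_one_iff]
      refine ⟨0, fun w => ?_⟩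
      funext i
      rcases i with i | i <;> exact Fin.elim0 i
    rw [h3]
    have h4 : 1 ≤ Fintype.card F - 1 := by omega
    nlinarith
  | succ k ih =>
    rw [card_plus_succ, card_minus_succ]
    have h3 : Fintype.card ((Fin k ⊕ Fin k) ⊕ Fin 2 → F) =
        Fintype.card (Fin (k + 1) ⊕ Fin (k + 1) → F) := by
      simp only [Fintype.card_fun, Fintype.card_sum, Fintype.card_fin]
      congr 1
      omega
    rw [h3]
    have hpos : 0 < Fintype.card F := by omega
    have := Nat.mul_lt_mul_of_pos_left ih hpos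
    omega

end

theorem result {F : Type*} [Field F] [Finite F] {m : ℕ} (hm : 1 ≤ m) (ζ : F) (hζ : ∀ t : F, t ^ 2 + t + ζ ≠ 0) (g : (Fin m ⊕ Fin m → F) ≃ₗ[F] ((Fin (m - 1) ⊕ Fin (m - 1)) ⊕ Fin 2 → F)) : ¬ (∀ v : Fin m ⊕ Fin m → F, Cfsg.quadFormMinus (m - 1) F 1 ζ (g v) = Cfsg.quadFormPlus m F v) := by
  classical
  cases nonempty_fintype F
  intro h
  obtain ⟨k, rfl⟩ : ∃ k, m = k + 1 := ⟨m - 1, by omega⟩
  have hab : ∀ z₁ z₂ : F, z₁ ^ 2 + 1 * z₁ * z₂ + ζ * z₂ ^ 2 = 0 → z₁ = 0 ∧ z₂ = 0 := by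
    intro z₁ z₂ hz
    by_cases h2 : z₂ = 0
    · subst h2
      simp at hz
      exact ⟨hz, rfl⟩
    · exfalso
      apply hζ (z₁ / z₂)
      field_simp
      linear_combination hz
  have hlt := card_lt (1 : F) ζ hab k
  have heq : Fintype.card {w : Fin (k + 1) ⊕ Fin (k + 1) → F // Cfsg.quadFormPlus (k + 1) F w = 0} =
      Fintype.card {w : (Fin k ⊕ Fin k) ⊕ Fin 2 → F // Cfsg.quadFormMinus k F 1 ζ w = 0} := by
    apply Fintype.card_congr
    apply g.toEquiv.subtypeEquiv
    intro w
    have := h w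
    rw [← this]
    rfl
  omega

end Cfsg.Agent.S2617
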