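import Cfsg.Statements.S2618
import Cfsg.Agent.Helper16.QuadBasis

set_option autoImplicit false
open Cfsg

namespace Cfsg.Agent.S2618

open QuadraticMap Cfsg.Agent.Helper16

/-- Standard (parabolic) basis of a non-degenerate quadratic space of odd dimension 2m + 1 over a finite field (the non-degeneracy of the polar form forces the characteristic to be odd): there is a basis e_i, f_i (i < m), x with Q(e_i) = Q(f_i) = 0, B(e_i, f_j) = δ_ij (B the polar form), the e's pairwise orthogonal and the f's pairwise orthogonal, x orthogonal to all of them and Q(x) ≠ 0. -/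
theorem result {F V : Type*} [Field F] [Finite F] [AddCommGroup V] [Module F V] [FiniteDimensional F V] {m : ℕ} (hV : Module.finrank F V = 2 * m + 1) (Q : QuadraticForm F V) (hQ : (QuadraticMap.polarBilin Q).Nondegenerate) : ∃ b : Module.Basis (Unit ⊕ (Fin m ⊕ Fin m)) F V, Q (b (Sum.inl ())) ≠ 0 ∧ (∀ i, QuadraticMap.polar ⇑Q (b (Sum.inl ())) (b (Sum.inr (Sum.inl i))) = 0 ∧ QuadraticMap.polar ⇑Q (b (Sum.inl ())) (b (Sum.inr (Sum.inr i))) = 0) ∧ (∀ i, Q (b (Sum.inr (Sum.inl i))) = 0 ∧ Q (b (Sum.inr (Sum.inr i))) = 0) ∧ (∀ i j, QuadraticMap.polar ⇑Q (b (Sum.inr (Sum.inl i))) (b (Sum.inr (Sum.inr j))) = if i = j then 1 else 0) ∧ (∀ i j, QuadraticMap.polar ⇑Q (b (Sum.inr (Sum.inl i))) (b (Sum.inr (Sum.inl j))) = 0 ∧ QuadraticMap.polar ⇑Q (b (Sum.inr (Sum.inr i))) (b (Sum.inr (Sum.inr j))) = 0) := by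
  obtain ⟨e, f, u, hfam, hP, horth⟩ := exists_witt_decomp (F := F) (r := 1) (d₀ := 1) le_rfl
    (fun q p => q 0 ≠ 0 ∧ p 0 0 ≠ 0)
    (fun V _ _ _ Q hQ hV => by
      obtain ⟨x, hx⟩ := exists_ne_zero_of_finrank_one Q hQ hV
      exact ⟨fun _ => x, hx⟩) m V Q hQ hV
  obtain ⟨hx, hxx⟩ := hP
  have hli0 : LinearIndependent F (Sum.elim (Sum.elim e f) (fun _ : Unit => u 0)) := by
    apply linearIndependent_sum_hyp Q hfam (fun _ : Unit => u 0)
      (fun _ => (polar Q (u 0) (u 0))⁻¹ • polarBilin Q (u 0))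
    · intro i j
      show (polar Q (u 0) (u 0))⁻¹ * polar Q (u 0) (u 0) = _
      rw [inv_mul_cancel₀ hxx]
      simp
    · intro i j
      constructor
      · show (polar Q (u 0) (u 0))⁻¹ * polar Q (u 0) (e i) = 0
        rw [polar_comm Q (u 0) (e i), (horth i 0).1, mul_zero]
      · show (polar Q (u 0) (u 0))⁻¹ * polar Q (u 0) (f i) = 0
        rw [polar_comm Q (u 0) (f i), (horth i 0).2, mul_zero]
    · intro i j
      exact horth i 0
  have hli : LinearIndependent F (Sum.elim (fun _ : Unit => u 0) (Sum.elim e f)) := by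
    have h1 := (linearIndependent_equiv (Equiv.sumComm Unit (Fin m ⊕ Fin m))).2 hli0
    convert h1 using 1
    funext x
    rcases x with x | x <;> rfl
  have hcard : Fintype.card (Unit ⊕ (Fin m ⊕ Fin m)) = Module.finrank F V := by
    rw [hV]
    simp
    omega
  refine ⟨basisOfLinearIndependentOfCardEqFinrank hli hcard, ?_⟩
  rw [coe_basisOfLinearIndependentOfCardEqFinrank]
  obtain ⟨h1, h2, h3⟩ := hfam
  refine ⟨hx, ?_, h1, h2, h3⟩
  intro i
  constructor
  · show polar Q (u 0) (e i) = 0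
    rw [polar_comm, (horth i 0).1]
  · show polar Q (u 0) (f i) = 0
    rw [polar_comm, (horth i 0).2]

end Cfsg.Agent.S2618
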