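import Cfsg.Statements.S2619

set_option autoImplicit false
open Cfsg

namespace Cfsg.Agent.S2619

theorem result {F V ι : Type*} [Field F] [Finite F] [CharP F 2] [AddCommGroup V] [Module F V] [Fintype ι] (b : Module.Basis ι F V) (B : LinearMap.BilinForm F V) (hB : B.IsAlt) (c : ι → F) : ∃! Q : QuadraticForm F V, QuadraticMap.polarBilin Q = B ∧ ∀ i, Q (b i) = c i := by
  classical
  let e : ι ≃ Fin (Nat.card ι) := Finite.equivFin ι
  let M : Matrix ι ι F := fun i j =>
    if e i < e j then B (b i) (b j) else if i = j then c i else 0
  let C : LinearMap.BilinForm F V := Matrix.toBilin b M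
  have hC : ∀ i j, C (b i) (b j) = M i j := by
    intro i j
    rw [← LinearMap.BilinForm.toMatrix_apply b C i j, LinearMap.BilinForm.toMatrix_toBilin]
  refine ⟨C.toQuadraticMap, ⟨?_, ?_⟩, ?_⟩
  · apply LinearMap.BilinForm.ext_basis b
    intro i j
    rw [QuadraticMap.polarBilin_apply_apply, LinearMap.BilinMap.polar_toQuadraticMap, hC, hC]
    simp only [M]
    rcases lt_trichotomy (e i) (e j) with h | h | h
    · have hne : j ≠ i := by
        rintro rfl; exact lt_irrefl _ h
      rw [if_pos h, if_neg (not_lt.mpr h.le), if_neg hne, add_zero]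
    · have hij : i = j := e.injective h
      subst hij
      rw [if_neg (lt_irrefl _), if_pos rfl, CharTwo.add_self_eq_zero, hB.self_eq_zero]
    · have hne : i ≠ j := by
        rintro rfl; exact lt_irrefl _ h
      rw [if_neg (not_lt.mpr h.le), if_neg hne, if_pos h, zero_add, ← hB.neg_eq, CharTwo.neg_eq]
  · intro i
    rw [LinearMap.BilinMap.toQuadraticMap_apply, hC]
    simp [M]
  · rintro Q' ⟨hQ'1, hQ'2⟩
    have hQ1 : QuadraticMap.polarBilin C.toQuadraticMap = B := by
      rw [← hQ'1]
      apply LinearMap.BilinForm.ext_basis b
      intro i j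
      rw [hQ'1, QuadraticMap.polarBilin_apply_apply, LinearMap.BilinMap.polar_toQuadraticMap, hC, hC]
      simp only [M]
      rcases lt_trichotomy (e i) (e j) with h | h | h
      · have hne : j ≠ i := by
          rintro rfl; exact lt_irrefl _ h
        rw [if_pos h, if_neg (not_lt.mpr h.le), if_neg hne, add_zero]
      · have hij : i = j := e.injective h
        subst hij
        rw [if_neg (lt_irrefl _), if_pos rfl, CharTwo.add_self_eq_zero, hB.self_eq_zero]
      · have hne : i ≠ j := by
          rintro rfl; exact lt_irrefl _ h
        rw [if_neg (not_lt.mpr h.le), if_neg hne, if_pos h, zero_add, ← hB.neg_eq, CharTwo.neg_eq]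
    have hQ2 : ∀ i, C.toQuadraticMap (b i) = c i := by
      intro i
      rw [LinearMap.BilinMap.toQuadraticMap_apply, hC]
      simp [M]
    -- the set where Q' and Q agree is a submodule containing the basis
    let S : Submodule F V :=
      { carrier := {v | Q' v = C.toQuadraticMap v}
        add_mem' := by
          intro u v hu hv
          simp only [Set.mem_setOf_eq] at hu hv ⊢
          have h1 := QuadraticMap.map_add (⇑Q') u v
          have h2 := QuadraticMap.map_add (⇑C.toQuadraticMap) u v
          rw [← QuadraticMap.polarBilin_apply_apply, hQ'1] at h1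
          rw [← QuadraticMap.polarBilin_apply_apply, hQ1] at h2
          rw [h1, h2, hu, hv]
        zero_mem' := by simp
        smul_mem' := by
          intro a v hv
          simp only [Set.mem_setOf_eq] at hv ⊢
          rw [QuadraticMap.map_smul, QuadraticMap.map_smul, hv] }
    have hS : S = ⊤ := by
      rw [eq_top_iff, ← b.span_eq, Submodule.span_le]
      rintro _ ⟨i, rfl⟩
      show Q' (b i) = C.toQuadraticMap (b i)
      rw [hQ'2, hQ2]
    apply QuadraticMap.ext
    intro v
    have : v ∈ S := by rw [hS]; trivial
    exact this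

end Cfsg.Agent.S2619
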