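import Cfsg.Statements.S2620
import Cfsg.Agent.Helper16.Gram

set_option autoImplicit false
open Cfsg

namespace Cfsg.Agent.S2620

theorem result {F : Type*} [Field F] [Fintype F] {q : ℕ} (hF : Fintype.card F = q) (hq : Odd q) {m : ℕ} (hm : 1 ≤ m) {ι : Type*} [Fintype ι] [DecidableEq ι] (b : Module.Basis ι F (Fin m ⊕ Fin m → F)) : IsSquare (Matrix.of (fun i j : ι => QuadraticMap.polar (Cfsg.quadFormPlus m F) (b i) (b j))).det ↔ Even (m * (q - 1) / 2) := by
  rw [Cfsg.Agent.Helper16.isSquare_gram_det_iff b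
    (Matrix.fromBlocks (0 : Matrix (Fin m) (Fin m) F) (1 : Matrix (Fin m) (Fin m) F)
      (1 : Matrix (Fin m) (Fin m) F) (0 : Matrix (Fin m) (Fin m) F))
    (QuadraticMap.polar (Cfsg.quadFormPlus m F)), Cfsg.Agent.Helper16.det_hyperbolic,
    Cfsg.Agent.Helper16.isSquare_neg_one_pow_iff hF hq]
  intro x y
  have hy : y = Sum.elim (y ∘ Sum.inl) (y ∘ Sum.inr) := (Sum.elim_comp_inl_inr y).symm
  rw [hy, Matrix.fromBlocks_mulVec, ← hy]
  simp only [QuadraticMap.polar, Cfsg.quadFormPlus, dotProduct, Fintype.sum_sum_type,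
    Sum.elim_inl, Sum.elim_inr, Matrix.zero_mulVec, Matrix.one_mulVec, zero_add, add_zero,
    Pi.add_apply, Function.comp_apply]
  rw [← Finset.sum_add_distrib, ← Finset.sum_sub_distrib, ← Finset.sum_sub_distrib]
  refine Finset.sum_congr rfl fun i _ => ?_
  ring

end Cfsg.Agent.S2620
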