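import Cfsg.Statements.S2622

set_option autoImplicit false
open Cfsg

namespace Cfsg.Agent.S2622

universe u v

theorem exists_unit_vector {F : Type u} {V : Type v} [Field F] [Finite F] [CharP F 2] [AddCommGroup V]
    [Module F V] (B : LinearMap.BilinForm F V) {v₀ : V} (h : B v₀ v₀ ≠ 0) :
    ∃ d : F, d ≠ 0 ∧ B (d • v₀) (d • v₀) = 1 := by
  have hch : ringChar F = 2 := ringChar.eq F 2
  obtain ⟨d, hd⟩ := FiniteField.isSquare_of_char_two hch (B v₀ v₀)⁻¹
  have hd0 : d ≠ 0 := by
    rintro rfl
    rw [mul_zero] at hd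
    exact inv_ne_zero h hd
  refine ⟨d, hd0, ?_⟩
  simp only [map_smul, LinearMap.smul_apply, smul_eq_mul]
  rw [← mul_assoc, ← hd, inv_mul_cancel₀ h]

theorem exists_orthonormal_family {F : Type u} [Field F] [Finite F] [CharP F 2] :
    ∀ (n : ℕ) (V : Type v) [AddCommGroup V] [Module F V] [FiniteDimensional F V]
      (B : LinearMap.BilinForm F V), Module.finrank F V = n → B.IsSymm → B.Nondegenerate →
      (n = 0 ∨ ∃ v : V, B v v ≠ 0) →
      ∃ b : Fin n → V, ∀ i j, B (b i) (b j) = if i = j then 1 else 0 := by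
  intro n
  induction n with
  | zero =>
    intro V _ _ _ B _ _ _ _
    exact ⟨Fin.elim0, fun i => Fin.elim0 i⟩
  | succ n ih =>
    intro V _ _ _ B hV hS hB hna
    have h11 : (1 : F) + 1 = 0 := CharTwo.add_self_eq_zero 1
    obtain ⟨v₀, hv₀⟩ : ∃ v : V, B v v ≠ 0 := by
      rcases hna with h | h
      · exact absurd h (Nat.succ_ne_zero n)
      · exact h
    obtain ⟨d, hd0, hd⟩ := exists_unit_vector B hv₀
    obtain ⟨v₁, hv₁⟩ : ∃ v₁ : V, B v₁ v₁ = 1 := ⟨_, hd⟩
    -- choose a good unit vector
    have key : ∃ v : V, B v v = 1 ∧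
        (n = 0 ∨ ∃ w ∈ B.orthogonal (F ∙ v), B w w ≠ 0) := by
      by_cases hn : n = 0
      · exact ⟨v₁, hv₁, Or.inl hn⟩
      by_cases hw : ∃ w ∈ B.orthogonal (F ∙ v₁), B w w ≠ 0
      · exact ⟨v₁, hv₁, Or.inr hw⟩
      have halt : ∀ w ∈ B.orthogonal (F ∙ v₁), B w w = 0 := by
        intro w hw'
        by_contra hne
        exact hw ⟨w, hw', hne⟩
      have hv₁ne : B v₁ v₁ ≠ 0 := by rw [hv₁]; exact one_ne_zero
      have hv₁0 : v₁ ≠ 0 := by
        rintro rfl
        simp at hv₁
      have hcompl := LinearMap.BilinForm.isCompl_span_singleton_orthogonal hv₁ne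
      have hfr := Submodule.finrank_add_eq_of_isCompl hcompl
      rw [finrank_span_singleton hv₁0, hV] at hfr
      have hfrW : Module.finrank F ↥(B.orthogonal (F ∙ v₁)) = n := by omega
      have hndW := LinearMap.BilinForm.restrict_nondegenerate_orthogonal_spanSingleton B hB
        hS.isRefl hv₁ne
      -- a nonzero vector u in W
      have hpos : 0 < Module.finrank F ↥(B.orthogonal (F ∙ v₁)) := by omega
      obtain ⟨u, hu⟩ := Module.finrank_pos_iff_exists_ne_zero.mp hpos
      -- w in W with B u w ≠ 0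
      obtain ⟨w, hw1⟩ : ∃ w : ↥(B.orthogonal (F ∙ v₁)), B (u : V) (w : V) ≠ 0 := by
        by_contra hcon
        apply hu
        apply hndW.1
        intro y
        by_contra hne
        exact hcon ⟨y, hne⟩
      have horth : ∀ y ∈ B.orthogonal (F ∙ v₁), B v₁ y = 0 := by
        intro y hy
        exact (LinearMap.BilinForm.mem_orthogonal_iff.mp hy) v₁ (Submodule.mem_span_singleton_self v₁)
      have horth' : ∀ y ∈ B.orthogonal (F ∙ v₁), B y v₁ = 0 := by
        intro y hy
        rw [hS.eq]; exact horth y hy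
      set w' : V := (B (u : V) (w : V))⁻¹ • (w : V) with hw'
      have hw'W : w' ∈ B.orthogonal (F ∙ v₁) := Submodule.smul_mem _ _ w.2
      have huw' : B (u : V) w' = 1 := by
        rw [hw', map_smul, smul_eq_mul, inv_mul_cancel₀ hw1]
      have expand : ∀ a b c d : V, B (a + b) (c + d) = B a c + B a d + B b c + B b d := by
        intro a b c d
        simp only [map_add, LinearMap.add_apply]
        ring
      refine ⟨v₁ + (u : V), ?_, Or.inr ⟨v₁ + w', ?_, ?_⟩⟩
      · rw [expand, hv₁, horth _ u.2, horth' _ u.2, halt _ u.2]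
        simp
      · rw [LinearMap.BilinForm.mem_orthogonal_iff]
        intro y hy
        obtain ⟨c, rfl⟩ := Submodule.mem_span_singleton.mp hy
        rw [map_smul, LinearMap.smul_apply, expand, hv₁, horth _ hw'W, horth' _ u.2, huw']
        simp [h11]
      · rw [expand, hv₁, horth _ hw'W, horth' _ hw'W, halt _ hw'W]
        simp
    obtain ⟨v, hv, hgood⟩ := key
    have hvne : B v v ≠ 0 := by rw [hv]; exact one_ne_zero
    have hv0 : v ≠ 0 := by
      rintro rfl
      simp at hv
    have hcompl := LinearMap.BilinForm.isCompl_span_singleton_orthogonal hvne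
    have hfr := Submodule.finrank_add_eq_of_isCompl hcompl
    rw [finrank_span_singleton hv0, hV] at hfr
    have hfrW : Module.finrank F ↥(B.orthogonal (F ∙ v)) = n := by omega
    have hndW := LinearMap.BilinForm.restrict_nondegenerate_orthogonal_spanSingleton B hB
      hS.isRefl hvne
    have hgood' : n = 0 ∨ ∃ w : ↥(B.orthogonal (F ∙ v)), (B.restrict (B.orthogonal (F ∙ v))) w w ≠ 0 := by
      rcases hgood with h | ⟨w, hw, hww⟩
      · exact Or.inl h
      · exact Or.inr ⟨⟨w, hw⟩, hww⟩
    obtain ⟨b', hb'⟩ := ih ↥(B.orthogonal (F ∙ v)) (B.restrict (B.orthogonal (F ∙ v))) hfrW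
      (hS.restrict _) hndW hgood'
    have horth : ∀ y ∈ B.orthogonal (F ∙ v), B v y = 0 := by
      intro y hy
      exact (LinearMap.BilinForm.mem_orthogonal_iff.mp hy) v (Submodule.mem_span_singleton_self v)
    refine ⟨Fin.cons v (fun i => (b' i : V)), ?_⟩
    intro i j
    refine Fin.cases ?_ (fun i' => ?_) i <;> refine Fin.cases ?_ (fun j' => ?_) j
    · simp [hv]
    · rw [Fin.cons_zero, Fin.cons_succ, horth _ (b' j').2]
      simp [Fin.succ_ne_zero, eq_comm]
    · rw [Fin.cons_zero, Fin.cons_succ, hS.eq, horth _ (b' i').2]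
      simp [Fin.succ_ne_zero]
    · rw [Fin.cons_succ, Fin.cons_succ]
      have := hb' i' j'
      simp only [Fin.succ_inj]
      exact this

theorem result {F V : Type*} [Field F] [Finite F] [CharP F 2] [AddCommGroup V] [Module F V] [FiniteDimensional F V] {n : ℕ} (hV : Module.finrank F V = n) (B : LinearMap.BilinForm F V) (hS : B.IsSymm) (hB : B.Nondegenerate) (hna : ∃ v : V, B v v ≠ 0) : ∃ b : Module.Basis (Fin n) F V, ∀ i j, B (b i) (b j) = if i = j then 1 else 0 := by
  obtain ⟨b, hb⟩ := exists_orthonormal_family n V B hV hS hB (Or.inr hna)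
  by_cases hn : n = 0
  · subst hn
    exact ⟨Module.finBasisOfFinrankEq F V hV, fun i => Fin.elim0 i⟩
  · have hne : Nonempty (Fin n) := ⟨⟨0, Nat.pos_of_ne_zero hn⟩⟩
    have hli : LinearIndependent F b := by
      apply LinearMap.BilinForm.linearIndependent_of_iIsOrtho (B := B)
      · intro i j hij
        show B (b i) (b j) = 0
        rw [hb, if_neg hij]
      · intro i
        rw [hb, if_pos rfl]
        exact one_ne_zero
    refine ⟨basisOfLinearIndependentOfCardEqFinrank hli (by rw [Fintype.card_fin, hV]), ?_⟩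
    rw [coe_basisOfLinearIndependentOfCardEqFinrank]
    exact hb

end Cfsg.Agent.S2622
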