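import Cfsg.Statements.S2624
import Cfsg.Agent.S2623

set_option autoImplicit false
open Cfsg

namespace Cfsg.Agent.S2624

open QuadraticMap Cfsg.Agent.Helper16

/-- For a quadratic form Q on F^n with non-degenerate polar form, F finite and n ≥ 2 even, every non-zero scalar c is the multiplier of some similarity: there is an invertible linear map g with Q(g v) = c·Q(v) for all v. -/
theorem result {F : Type*} [Field F] [Fintype F] {n : ℕ} (hn : 2 ≤ n) (he : Even n) (Q : QuadraticForm F (Fin n → F)) (hQ : (QuadraticMap.polarBilin Q).Nondegenerate) (c : F) (hc : c ≠ 0) : ∃ g : (Fin n → F) ≃ₗ[F] (Fin n → F), ∀ v, Q (g v) = c * Q v := by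
  by_cases h2 : (2 : F) = 0
  · obtain ⟨s, hs⟩ := FiniteField.isSquare_of_char_two (ringChar_two_of_two_eq_zero h2) c
    have hs0 : s ≠ 0 := by
      rintro rfl
      rw [mul_zero] at hs
      exact hc hs
    refine ⟨LinearEquiv.smulOfNeZero F _ s hs0, ?_⟩
    intro v
    show Q (s • v) = c * Q v
    rw [qf_smul, ← hs]
  · have hcQ : (polarBilin (c • Q)).Nondegenerate := by
      rw [(polarBilin_isSymm _).isRefl.nondegenerate_iff_separatingLeft]
      intro x hx
      apply hQ.1
      intro y
      have h := hx y
      have h' : c * polar Q x y = 0 := by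
        have : polar (⇑(c • Q)) x y = c * polar Q x y := by
          simp only [polar, QuadraticMap.smul_apply, smul_eq_mul]
          ring
        rw [← this]
        exact h
      rcases mul_eq_zero.1 h' with h0 | h0
      · exact absurd h0 hc
      · exact h0
    have hsq : IsSquare ((Matrix.of (fun i j : Fin n => QuadraticMap.polar ⇑(c • Q) (Pi.single i 1) (Pi.single j 1))).det * (Matrix.of (fun i j : Fin n => QuadraticMap.polar ⇑Q (Pi.single i 1) (Pi.single j 1))).det) := by
      have hG : (Matrix.of (fun i j : Fin n => QuadraticMap.polar ⇑(c • Q) (Pi.single i 1) (Pi.single j 1))) =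
          c • (Matrix.of (fun i j : Fin n => QuadraticMap.polar ⇑Q (Pi.single i 1) (Pi.single j 1))) := by
        ext i j
        simp only [Matrix.of_apply, Matrix.smul_apply, polar, QuadraticMap.smul_apply, smul_eq_mul]
        ring
      rw [hG, Matrix.det_smul, Fintype.card_fin]
      obtain ⟨j, rfl⟩ := he
      exact ⟨c ^ j * (Matrix.of (fun i j : Fin (j + j) => QuadraticMap.polar ⇑Q (Pi.single i 1) (Pi.single j 1))).det, by ring⟩
    obtain ⟨g, hg⟩ := (Cfsg.Agent.S2623.result h2 (c • Q) Q hcQ hQ).2 hsq
    refine ⟨g, ?_⟩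
    intro v
    rw [hg v, QuadraticMap.smul_apply, smul_eq_mul]

end Cfsg.Agent.S2624
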