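import Cfsg.Statements.S2625

set_option autoImplicit false
open Cfsg

namespace Cfsg.Agent.S2625

theorem result {F : Type*} [Field F] [Fintype F] {n : ℕ} (hn : Odd n) (Q : QuadraticForm F (Fin n → F)) (hQ : (QuadraticMap.polarBilin Q).Nondegenerate) (g : (Fin n → F) ≃ₗ[F] (Fin n → F)) (c : F) (hg : ∀ v, Q (g v) = c * Q v) : IsSquare c := by
  classical
  by_cases h2 : ringChar F = 2
  · exact FiniteField.isSquare_of_char_two h2 c
  · set B : LinearMap.BilinForm F (Fin n → F) := QuadraticMap.polarBilin Q with hB
    have hcomp : B.comp (g : (Fin n → F) →ₗ[F] (Fin n → F)) (g : (Fin n → F) →ₗ[F] (Fin n → F)) = c • B := by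
      refine LinearMap.ext fun u => LinearMap.ext fun v => ?_
      rw [LinearMap.BilinForm.comp_apply]
      simp only [hB, QuadraticMap.polarBilin_apply_apply, LinearMap.smul_apply, smul_eq_mul,
        QuadraticMap.polar, LinearEquiv.coe_coe]
      rw [← map_add, hg, hg, hg]
      ring
    have hmat := congrArg LinearMap.BilinForm.toMatrix' hcomp
    rw [LinearMap.BilinForm.toMatrix'_comp, map_smul] at hmat
    have hdet := congrArg Matrix.det hmat
    rw [Matrix.det_mul, Matrix.det_mul, Matrix.det_transpose, Matrix.det_smul, Fintype.card_fin] at hdet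
    have hd : (LinearMap.BilinForm.toMatrix' B).det ≠ 0 := by
      rw [← Matrix.nondegenerate_iff_det_ne_zero, LinearMap.BilinForm.nondegenerate_toMatrix'_iff]
      exact hQ
    set m := (LinearMap.toMatrix' (g : (Fin n → F) →ₗ[F] (Fin n → F))).det with hm
    have hcn : c ^ n = m * m := by
      have : (c ^ n - m * m) * (LinearMap.BilinForm.toMatrix' B).det = 0 := by
        linear_combination -hdet
      rcases mul_eq_zero.mp this with h | h
      · exact sub_eq_zero.mp h
      · exact absurd h hd
    obtain ⟨j, rfl⟩ := hn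
    by_cases hc : c = 0
    · exact ⟨0, by rw [hc]; ring⟩
    · refine ⟨m / c ^ j, ?_⟩
      have hcj : c ^ j ≠ 0 := pow_ne_zero _ hc
      field_simp
      linear_combination hcn

end Cfsg.Agent.S2625
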