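import Cfsg.Statements.S2626

set_option autoImplicit false
open Cfsg

namespace Cfsg.Agent.S2626

open Matrix

variable {F : Type*} [Field F] {k l : ℕ}

/-- `A ↦ [A 0; 0 1]` as a monoid hom. -/
def blkL (F : Type*) [Field F] (k l : ℕ) :
    Matrix (Fin k) (Fin k) F →* Matrix (Fin k ⊕ Fin l) (Fin k ⊕ Fin l) F where
  toFun A := Matrix.fromBlocks A 0 0 1
  map_one' := Matrix.fromBlocks_one
  map_mul' A B := by
    rw [Matrix.fromBlocks_multiply]; simp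

/-- `B ↦ [1 0; 0 B]` as a monoid hom. -/
def blkR (F : Type*) [Field F] (k l : ℕ) :
    Matrix (Fin l) (Fin l) F →* Matrix (Fin k ⊕ Fin l) (Fin k ⊕ Fin l) F where
  toFun B := Matrix.fromBlocks 1 0 0 B
  map_one' := Matrix.fromBlocks_one
  map_mul' A B := by
    rw [Matrix.fromBlocks_multiply]; simp

theorem mem_isometryGroup_iff {ι : Type} [Fintype ι] [DecidableEq ι] (Q : (ι → F) → F)
    (g : Matrix.GeneralLinearGroup ι F) :
    g ∈ isometryGroup F Q ↔ ∀ u : ι → F, Q ((g : Matrix ι ι F) *ᵥ u) = Q u := by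
  constructor
  · intro h u
    exact h u u
  · intro h u _
    exact h u

/-- The embedding of the first isometry group. -/
def embL (Q₁ : (Fin k → F) → F) (Q₂ : (Fin l → F) → F) :
    ↥(isometryGroup F Q₁) →* ↥(isometryGroup F (fun v : Fin k ⊕ Fin l → F => Q₁ (v ∘ Sum.inl) + Q₂ (v ∘ Sum.inr))) :=
  ((Units.map (blkL F k l)).comp (isometryGroup F Q₁).subtype).codRestrict _ (by
    intro g
    rw [mem_isometryGroup_iff]
    intro u
    have hg := (mem_isometryGroup_iff Q₁ g.1).mp g.2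
    have e : ((Units.map (blkL F k l)) (g : Matrix.GeneralLinearGroup (Fin k) F) :
        Matrix (Fin k ⊕ Fin l) (Fin k ⊕ Fin l) F) =
        Matrix.fromBlocks ((g : Matrix.GeneralLinearGroup (Fin k) F) : Matrix (Fin k) (Fin k) F) 0 0 1 := rfl
    simp only [MonoidHom.coe_comp, Subgroup.coe_subtype, Function.comp_apply]
    rw [e, Matrix.fromBlocks_mulVec]
    simp only [Matrix.zero_mulVec, add_zero, zero_add, Matrix.one_mulVec]
    have e1 : (Sum.elim (((g : Matrix.GeneralLinearGroup (Fin k) F) : Matrix (Fin k) (Fin k) F) *ᵥ (u ∘ Sum.inl))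
        (u ∘ Sum.inr) : Fin k ⊕ Fin l → F) ∘ Sum.inl =
        ((g : Matrix.GeneralLinearGroup (Fin k) F) : Matrix (Fin k) (Fin k) F) *ᵥ (u ∘ Sum.inl) := rfl
    have e2 : (Sum.elim (((g : Matrix.GeneralLinearGroup (Fin k) F) : Matrix (Fin k) (Fin k) F) *ᵥ (u ∘ Sum.inl))
        (u ∘ Sum.inr) : Fin k ⊕ Fin l → F) ∘ Sum.inr = u ∘ Sum.inr := rfl
    rw [e1, e2, hg])

/-- The embedding of the second isometry group. -/
def embR (Q₁ : (Fin k → F) → F) (Q₂ : (Fin l → F) → F) :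
    ↥(isometryGroup F Q₂) →* ↥(isometryGroup F (fun v : Fin k ⊕ Fin l → F => Q₁ (v ∘ Sum.inl) + Q₂ (v ∘ Sum.inr))) :=
  ((Units.map (blkR F k l)).comp (isometryGroup F Q₂).subtype).codRestrict _ (by
    intro g
    rw [mem_isometryGroup_iff]
    intro u
    have hg := (mem_isometryGroup_iff Q₂ g.1).mp g.2
    have e : ((Units.map (blkR F k l)) (g : Matrix.GeneralLinearGroup (Fin l) F) :
        Matrix (Fin k ⊕ Fin l) (Fin k ⊕ Fin l) F) =
        Matrix.fromBlocks 1 0 0 ((g : Matrix.GeneralLinearGroup (Fin l) F) : Matrix (Fin l) (Fin l) F) := rfl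
    simp only [MonoidHom.coe_comp, Subgroup.coe_subtype, Function.comp_apply]
    rw [e, Matrix.fromBlocks_mulVec]
    simp only [Matrix.zero_mulVec, add_zero, zero_add, Matrix.one_mulVec]
    have e1 : (Sum.elim (u ∘ Sum.inl)
        (((g : Matrix.GeneralLinearGroup (Fin l) F) : Matrix (Fin l) (Fin l) F) *ᵥ (u ∘ Sum.inr)) :
          Fin k ⊕ Fin l → F) ∘ Sum.inl = u ∘ Sum.inl := rfl
    have e2 : (Sum.elim (u ∘ Sum.inl)
        (((g : Matrix.GeneralLinearGroup (Fin l) F) : Matrix (Fin l) (Fin l) F) *ᵥ (u ∘ Sum.inr)) :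
          Fin k ⊕ Fin l → F) ∘ Sum.inr =
        ((g : Matrix.GeneralLinearGroup (Fin l) F) : Matrix (Fin l) (Fin l) F) *ᵥ (u ∘ Sum.inr) := rfl
    rw [e1, e2, hg])

theorem map_mem_commutator {G H : Type*} [Group G] [Group H] (f : G →* H) {g : G}
    (hg : g ∈ commutator G) : f g ∈ commutator H := by
  have h1 : f g ∈ (commutator G).map f := Subgroup.mem_map_of_mem f hg
  rw [commutator_def, Subgroup.map_commutator] at h1
  rw [commutator_def]
  exact Subgroup.commutator_mono le_top le_top h1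

theorem result {F : Type*} [Field F] [Fintype F] {k l : ℕ} (Q₁ : QuadraticForm F (Fin k → F)) (Q₂ : QuadraticForm F (Fin l → F)) (h₁ : (QuadraticMap.polarBilin Q₁).Nondegenerate) (h₂ : (QuadraticMap.polarBilin Q₂).Nondegenerate) (g₁ : ↥(Cfsg.isometryGroup F ⇑Q₁)) (g₂ : ↥(Cfsg.isometryGroup F ⇑Q₂)) (hg₁ : g₁ ∈ Cfsg.Omega F ⇑Q₁) (hg₂ : g₂ ∈ Cfsg.Omega F ⇑Q₂) : ∃ g : ↥(Cfsg.isometryGroup F (fun v : Fin k ⊕ Fin l → F => Q₁ (v ∘ Sum.inl) + Q₂ (v ∘ Sum.inr))), g ∈ Cfsg.Omega F (fun v : Fin k ⊕ Fin l → F => Q₁ (v ∘ Sum.inl) + Q₂ (v ∘ Sum.inr)) ∧ ((g : Matrix.GeneralLinearGroup (Fin k ⊕ Fin l) F) : Matrix (Fin k ⊕ Fin l) (Fin k ⊕ Fin l) F) = Matrix.fromBlocks ((g₁ : Matrix.GeneralLinearGroup (Fin k) F) : Matrix (Fin k) (Fin k) F) 0 0 ((g₂ : Matrix.GeneralLinearGroup (Fin l) F) : Matrix (Fin l) (Fin l) F) := by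
  refine ⟨embL (⇑Q₁) (⇑Q₂) g₁ * embR (⇑Q₁) (⇑Q₂) g₂, ?_, ?_⟩
  · exact Subgroup.mul_mem _ (map_mem_commutator _ hg₁) (map_mem_commutator _ hg₂)
  · have e1 : ((embL (⇑Q₁) (⇑Q₂) g₁ : Matrix.GeneralLinearGroup (Fin k ⊕ Fin l) F) :
        Matrix (Fin k ⊕ Fin l) (Fin k ⊕ Fin l) F) =
        Matrix.fromBlocks ((g₁ : Matrix.GeneralLinearGroup (Fin k) F) : Matrix (Fin k) (Fin k) F) 0 0 1 := rfl
    have e2 : ((embR (⇑Q₁) (⇑Q₂) g₂ : Matrix.GeneralLinearGroup (Fin k ⊕ Fin l) F) :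
        Matrix (Fin k ⊕ Fin l) (Fin k ⊕ Fin l) F) =
        Matrix.fromBlocks 1 0 0 ((g₂ : Matrix.GeneralLinearGroup (Fin l) F) : Matrix (Fin l) (Fin l) F) := rfl
    rw [Subgroup.coe_mul, Units.val_mul, e1, e2, Matrix.fromBlocks_multiply]
    simp

end Cfsg.Agent.S2626
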