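import Cfsg.Statements.S2629
import Cfsg.Agent.Helper16.ParityIso

set_option autoImplicit false
open Cfsg

namespace Cfsg.Agent.S2629

open Cfsg.Agent.Helper16 QuadraticMap Module in
theorem aux {F : Type*} [Field F] [Fintype F] (h2 : (2 : F) ≠ 0) {m : ℕ} (hm : 1 ≤ m)
    (g : ↥(Cfsg.isometryGroup F ⇑(qfPlus m F))) :
    Even (lagDist m (subE m F) (g : Matrix.GeneralLinearGroup (Fin m ⊕ Fin m) F)) ↔
      ((g : Matrix.GeneralLinearGroup (Fin m ⊕ Fin m) F) : Matrix (Fin m ⊕ Fin m) (Fin m ⊕ Fin m) F).det = 1 := by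
  have hQ := qfPlus_nondegenerate (m := m) (F := F)
  have hV := finrank_plus m F
  rw [← parIso_eq_one_iff (qfPlus m F) hQ hV (subE m F) (TS_subE) (finrank_subE) g]
  obtain ⟨vs, hvs, rfl⟩ := exists_refl_list h2 (qfPlus m F) hQ g
  rw [coe_prod_reflElt _ vs hvs, det_eq_one_iff_even h2 _ vs hvs]
  have key : ∀ vs : List (Fin m ⊕ Fin m → F), (∀ v ∈ vs, qfPlus m F v ≠ 0) →
      parIso (qfPlus m F) hQ hV (subE m F) (TS_subE) (finrank_subE)
        ((vs.map (reflElt (qfPlus m F))).prod) = (Multiplicative.ofAdd (1 : ZMod 2)) ^ vs.length := by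
    intro vs
    induction vs with
    | nil => intro _; simp
    | cons a l ih =>
      intro hl
      rw [List.map_cons, List.prod_cons, map_mul, ih (fun v hv => hl v (List.mem_cons_of_mem a hv)),
        List.length_cons, pow_succ']
      congr 1
      show Multiplicative.ofAdd ((lagDist m (subE m F)
        (reflElt (qfPlus m F) a : Matrix.GeneralLinearGroup (Fin m ⊕ Fin m) F) : ℕ) : ZMod 2) = _
      rw [lagDist_refl (qfPlus m F) hQ hV (subE m F) (TS_subE) (finrank_subE) hm a
        (hl a List.mem_cons_self)]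
      simp
  rw [key vs hvs, ← ofAdd_nsmul, ofAdd_eq_one, nsmul_one, ZMod.natCast_eq_zero_iff_even]

/-- For the hyperbolic form Σ x_i y_i on F^(2m) over a finite field of odd order (m ≥ 1), an isometry g preserves the class of the maximal totally singular subspace U₀ = {y = 0} (that is, m − dim(U₀ ∩ gU₀) is even) if and only if det g = 1: the stabiliser of each of the two classes of maximal totally singular subspaces is SO. -/
theorem result {F : Type*} [Field F] [Fintype F] (h2 : (2 : F) ≠ 0) {m : ℕ} (hm : 1 ≤ m) (g : ↥(Cfsg.isometryGroup F (Cfsg.quadFormPlus m F))) : Even (m - Module.finrank F ↥(LinearMap.ker (LinearMap.funLeft F F (Sum.inr : Fin m → Fin m ⊕ Fin m)) ⊓ (LinearMap.ker (LinearMap.funLeft F F (Sum.inr : Fin m → Fin m ⊕ Fin m))).map (Matrix.mulVecLin ((g : Matrix.GeneralLinearGroup (Fin m ⊕ Fin m) F) : Matrix (Fin m ⊕ Fin m) (Fin m ⊕ Fin m) F)))) ↔ ((g : Matrix.GeneralLinearGroup (Fin m ⊕ Fin m) F) : Matrix (Fin m ⊕ Fin m) (Fin m ⊕ Fin m) F).det =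 1 := by
  have hco : ⇑(Cfsg.Agent.Helper16.qfPlus m F) = Cfsg.quadFormPlus m F :=
    Cfsg.Agent.Helper16.coe_qfPlus m F
  revert g
  rw [← hco]
  intro g
  exact aux h2 hm g

end Cfsg.Agent.S2629
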