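import Cfsg.Statements.S2630
import Cfsg.Agent.Helper16.Char2Omega

set_option autoImplicit false
open Cfsg

namespace Cfsg.Agent.S2630

open Cfsg.Agent.Helper16 QuadraticMap Module in
theorem aux {F : Type*} [Field F] [Fintype F] [CharP F 2] {m : ℕ} (hm : 1 ≤ m)
    (h : Fintype.card F ≠ 2 ∨ m ≠ 2) (g : ↥(Cfsg.isometryGroup F ⇑(qfPlus m F))) :
    Even (lagDist m (subE m F) (g : Matrix.GeneralLinearGroup (Fin m ⊕ Fin m) F)) ↔
      g ∈ Cfsg.Omega F ⇑(qfPlus m F) := by
  have hQ := qfPlus_nondegenerate (m := m) (F := F)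
  have hV := finrank_plus m F
  constructor
  · intro hE
    have hcard : Fintype.card F ≠ 2 ∨ Fintype.card (Fin m ⊕ Fin m) ≠ 4 := by
      rw [Fintype.card_sum, Fintype.card_fin]
      rcases h with h | h
      · exact Or.inl h
      · right
        omega
    obtain ⟨a₀, ha₀⟩ := exists_nonsing (qfPlus m F) hQ (by
      rw [Fintype.card_sum, Fintype.card_fin]
      omega)
    rcases Omega_dichotomy (qfPlus m F) hQ hcard a₀ ha₀ g with hg | hg
    · exact hg
    · exfalso
      have h1 := parIso_Omega (qfPlus m F) hQ hV (subE m F) TS_subE finrank_subE _ hg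
      rw [← parIso_eq_one_iff (qfPlus m F) hQ hV (subE m F) TS_subE finrank_subE, map_mul,
        (parIso_eq_one_iff (qfPlus m F) hQ hV (subE m F) TS_subE finrank_subE g).2 hE, mul_one,
        parIso_eq_one_iff, lagDist_refl (qfPlus m F) hQ hV (subE m F) TS_subE finrank_subE hm a₀
          ha₀] at h1
      exact absurd h1 (by decide)
  · intro hg
    exact parIso_Omega (qfPlus m F) hQ hV (subE m F) TS_subE finrank_subE g hg

/-- For the hyperbolic form Σ x_i y_i on F^(2m) over a finite field of characteristic two (m ≥ 1, excluding m = 2 over the field of two elements), an isometry g preserves the class of the maximal totally singular subspace U₀ = {y = 0} (m − dim(U₀ ∩ gU₀) even) if and only if g lies in Ω (the commutator subgroup of the orthogonal group): the stabiliser of each class is Ω. -/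
theorem result {F : Type*} [Field F] [Fintype F] [CharP F 2] {m : ℕ} (hm : 1 ≤ m) (h : Fintype.card F ≠ 2 ∨ m ≠ 2) (g : ↥(Cfsg.isometryGroup F (Cfsg.quadFormPlus m F))) : Even (m - Module.finrank F ↥(LinearMap.ker (LinearMap.funLeft F F (Sum.inr : Fin m → Fin m ⊕ Fin m)) ⊓ (LinearMap.ker (LinearMap.funLeft F F (Sum.inr : Fin m → Fin m ⊕ Fin m))).map (Matrix.mulVecLin ((g : Matrix.GeneralLinearGroup (Fin m ⊕ Fin m) F) : Matrix (Fin m ⊕ Fin m) (Fin m ⊕ Fin m) F)))) ↔ g ∈ Cfsg.Omega F (Cfsg.quadFormPlus m F) := by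
  have hco : ⇑(Cfsg.Agent.Helper16.qfPlus m F) = Cfsg.quadFormPlus m F :=
    Cfsg.Agent.Helper16.coe_qfPlus m F
  revert g
  rw [← hco]
  intro g
  exact aux hm h g

end Cfsg.Agent.S2630
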