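import Cfsg.Statements.S2631
import Cfsg.Agent.Helper16.OmegaTrans

set_option autoImplicit false
open Cfsg

namespace Cfsg.Agent.S2631

open Cfsg.Agent.Helper16 QuadraticMap Module in
theorem aux {F : Type*} [Field F] [Fintype F] {m : ℕ} (hm : 1 ≤ m)
    (h : Fintype.card F ≠ 2 ∨ m ≠ 2) (U W : Submodule F (Fin m ⊕ Fin m → F))
    (hU : Module.finrank F U = m) (hW : Module.finrank F W = m)
    (hU0 : TS (qfPlus m F) U) (hW0 : TS (qfPlus m F) W)
    (he : Even (m - Module.finrank F ↥(U ⊓ W))) :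
    ∃ g : ↥(Cfsg.isometryGroup F ⇑(qfPlus m F)), g ∈ Cfsg.Omega F ⇑(qfPlus m F) ∧
      mapG (g : Matrix.GeneralLinearGroup (Fin m ⊕ Fin m) F) U = W := by
  have hQ := qfPlus_nondegenerate (m := m) (F := F)
  have hV := finrank_plus m F
  obtain ⟨h₀, hh⟩ := exists_isom_map (qfPlus m F) hQ U W (hU.trans hW.symm) hU0 hW0
  have hpar : parIso (qfPlus m F) hQ hV U hU0 hU h₀ = 1 := by
    rw [parIso_eq_one_iff]
    unfold lagDist
    rw [hh]
    exact he
  by_cases h2 : (2 : F) = 0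
  · haveI : CharP F 2 := CharTwo.of_one_ne_zero_of_two_eq_zero one_ne_zero h2
    have hcard : Fintype.card F ≠ 2 ∨ Fintype.card (Fin m ⊕ Fin m) ≠ 4 := by
      rw [Fintype.card_sum, Fintype.card_fin]
      rcases h with h | h
      · exact Or.inl h
      · right
        omega
    exact ⟨h₀, mem_Omega_of_parIso_char2 (qfPlus m F) hQ hcard hV U hU0 hU hm h₀ hpar, hh⟩
  · have hdet := (parIso_eq_one_iff_det h2 (qfPlus m F) hQ hV U hU0 hU hm h₀).1 hpar
    by_cases hsp : spinorHom h2 (qfPlus m F) hQ h₀ = 1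
    · exact ⟨h₀, (mem_Omega_iff_det_spinor h2 _ hQ h₀).2 ⟨hdet, hsp⟩, hh⟩
    · have hU_ne : U ≠ ⊥ := by
        intro hb
        rw [hb, finrank_bot] at hU
        omega
      obtain ⟨s, hs1, hs2, hs3⟩ := exists_stab_spinor h2 (qfPlus m F) hQ U hU0 hU_ne
      refine ⟨h₀ * s, (mem_Omega_iff_det_spinor h2 _ hQ _).2 ⟨?_, ?_⟩, ?_⟩
      · rw [Subgroup.coe_mul, Units.val_mul, Matrix.det_mul, hdet, hs1, mul_one]
      · rw [map_mul]
        exact zmod2_mul_eq_one _ _ hsp hs2
      · rw [Subgroup.coe_mul, mapG_mul, hs3, hh]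

/-- For the hyperbolic form Σ x_i y_i on F^(2m) over a finite field (m ≥ 1, excluding m = 2 over the field of two elements), Ω (the commutator subgroup of the orthogonal group) acts transitively on each of the two classes of maximal totally singular subspaces: if U and W are m-dimensional totally singular subspaces with m − dim(U ∩ W) even, some element of Ω carries U to W. -/
theorem result {F : Type*} [Field F] [Fintype F] {m : ℕ} (hm : 1 ≤ m) (h : Fintype.card F ≠ 2 ∨ m ≠ 2) (U W : Submodule F (Fin m ⊕ Fin m → F)) (hU : Module.finrank F U = m) (hW : Module.finrank F W = m) (hU0 : ∀ u ∈ U, Cfsg.quadFormPlus m F u = 0) (hW0 : ∀ w ∈ W, Cfsg.quadFormPlus m F w = 0) (he : Even (m - Module.finrank F ↥(U ⊓ W))) : ∃ g : ↥(Cfsg.isometryGroup F (Cfsg.quadFormPlus m F)), g ∈ Cfsg.Omega F (Cfsg.quadFormPlus m F) ∧ U.map (Matrix.mulVecLin ((g : Matrix.GeneralLinearGroup (Fin m ⊕ Fin m) F) : Matrix (Fin m ⊕ Fin m) (Fin m ⊕ Fin m) F)) = W := by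
  have hco : ⇑(Cfsg.Agent.Helper16.qfPlus m F) = Cfsg.quadFormPlus m F :=
    Cfsg.Agent.Helper16.coe_qfPlus m F
  revert hU0 hW0
  rw [← hco]
  intro hU0 hW0
  exact aux hm h U W hU hW hU0 hW0 he

end Cfsg.Agent.S2631
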