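import Cfsg.Statements.S2633
import Cfsg.Agent.Helper16.OmegaTrans

set_option autoImplicit false
open Cfsg

namespace Cfsg.Agent.S2633

open Cfsg.Agent.Helper16 QuadraticMap Module in
theorem aux {F : Type*} [Field F] [Fintype F] {n : ℕ} (h : Fintype.card F ≠ 2 ∨ n ≠ 4)
    (Q : QuadraticForm F (Fin n → F)) (hQ : (QuadraticMap.polarBilin Q).Nondegenerate)
    (U W : Submodule F (Fin n → F)) {k : ℕ} (hk : 2 * k < n) (hU : Module.finrank F U = k)
    (hW : Module.finrank F W = k) (hU0 : TS Q U) (hW0 : TS Q W) :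
    ∃ g : ↥(Cfsg.isometryGroup F ⇑Q), g ∈ Cfsg.Omega F ⇑Q ∧
      mapG (g : Matrix.GeneralLinearGroup (Fin n) F) U = W := by
  have hcard : Fintype.card F ≠ 2 ∨ Fintype.card (Fin n) ≠ 4 := by
    rw [Fintype.card_fin]
    exact h
  obtain ⟨h₀, hh⟩ := exists_isom_map Q hQ U W (hU.trans hW.symm) hU0 hW0
  have hbig : Fintype.card (Fin n) < 2 * finrank F (orth Q U) := by
    rw [finrank_orth Q hQ, hU, Module.finrank_fintype_fun_eq_card, Fintype.card_fin]
    omega
  obtain ⟨a₀, ha₀U, ha₀⟩ := exists_nonsing_of_big Q hQ _ hbig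
  have hrU : mapG (reflElt Q a₀ : Matrix.GeneralLinearGroup (Fin n) F) U = U :=
    mapG_eq_of_act ⇑Q _ U U rfl (fun x hx => by
      rw [act_refl Q a₀ ha₀, qrefl_of_orth Q a₀ x (by rw [polar_comm]; exact ha₀U x hx)]
      exact hx)
  by_cases h2 : (2 : F) = 0
  · haveI : CharP F 2 := CharTwo.of_one_ne_zero_of_two_eq_zero one_ne_zero h2
    rcases Omega_dichotomy Q hQ hcard (act ⇑Q h₀ a₀) (by rw [act_Q ⇑Q h₀]; exact ha₀) h₀ with hg | hg
    · exact ⟨h₀, hg, hh⟩
    · have e : reflElt Q (act ⇑Q h₀ a₀) * h₀ = h₀ * reflElt Q a₀ := by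
        have := reflElt_conj Q h₀ a₀ ha₀
        rw [show reflElt Q (act ⇑Q h₀ a₀) = h₀ * reflElt Q a₀ * h₀⁻¹ from this.symm]
        group
      rw [e] at hg
      exact ⟨h₀ * reflElt Q a₀, hg, by rw [Subgroup.coe_mul, mapG_mul, hrU, hh]⟩
  · obtain ⟨h₁, hh₁, hdet₁⟩ : ∃ h₁ : ↥(Cfsg.isometryGroup F ⇑Q),
        mapG (h₁ : Matrix.GeneralLinearGroup (Fin n) F) U = W ∧
        ((h₁ : Matrix.GeneralLinearGroup (Fin n) F) : Matrix (Fin n) (Fin n) F).det = 1 := by
      rcases det_iso_dichotomy h2 Q hQ h₀ with hd | hd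
      · exact ⟨h₀, hh, hd⟩
      · refine ⟨h₀ * reflElt Q a₀, by rw [Subgroup.coe_mul, mapG_mul, hrU, hh], ?_⟩
        rw [Subgroup.coe_mul, Units.val_mul, Matrix.det_mul, hd, det_refl Q a₀ ha₀]
        ring
    by_cases hsp : spinorHom h2 Q hQ h₁ = 1
    · exact ⟨h₁, (mem_Omega_iff_det_spinor h2 Q hQ h₁).2 ⟨hdet₁, hsp⟩, hh₁⟩
    · by_cases hU_ne : U = ⊥
      · have hk0 : k = 0 := by rw [← hU, hU_ne, finrank_bot]
        have hWb : W = ⊥ := by
          apply Submodule.finrank_eq_zero.1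
          rw [hW, hk0]
        exact ⟨1, Subgroup.one_mem _, by rw [Subgroup.coe_one, mapG_one, hU_ne, hWb]⟩
      · obtain ⟨s, hs1, hs2, hs3⟩ := exists_stab_spinor h2 Q hQ U hU0 hU_ne
        refine ⟨h₁ * s, (mem_Omega_iff_det_spinor h2 Q hQ _).2 ⟨?_, ?_⟩, ?_⟩
        · rw [Subgroup.coe_mul, Units.val_mul, Matrix.det_mul, hdet₁, hs1, mul_one]
        · rw [map_mul]
          exact zmod2_mul_eq_one _ _ hsp hs2
        · rw [Subgroup.coe_mul, mapG_mul, hs3, hh₁]

/-- Ω is transitive on totally singular subspaces of each dimension less than half the dimension: for a quadratic form Q on F^n with non-degenerate polar form (F finite; excluding dimension 4 over the field of two elements), if U and W are subspaces of the same dimension k with 2k < n on which Q vanishes, then some element of Ω (the commutator subgroup of the orthogonal group) carries U to W. -/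
theorem result {F : Type*} [Field F] [Fintype F] {n : ℕ} (h : Fintype.card F ≠ 2 ∨ n ≠ 4) (Q : QuadraticForm F (Fin n → F)) (hQ : (QuadraticMap.polarBilin Q).Nondegenerate) (U W : Submodule F (Fin n → F)) {k : ℕ} (hk : 2 * k < n) (hU : Module.finrank F U = k) (hW : Module.finrank F W = k) (hU0 : ∀ u ∈ U, Q u = 0) (hW0 : ∀ w ∈ W, Q w = 0) : ∃ g : ↥(Cfsg.isometryGroup F ⇑Q), g ∈ Cfsg.Omega F ⇑Q ∧ U.map (Matrix.mulVecLin ((g : Matrix.GeneralLinearGroup (Fin n) F) : Matrix (Fin n) (Fin n) F)) = W := by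
  exact aux h Q hQ U W hk hU hW hU0 hW0

end Cfsg.Agent.S2633
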