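import Cfsg.Statements.S2634
import Cfsg.Agent.Helper16.Char2Omega

set_option autoImplicit false
open Cfsg

namespace Cfsg.Agent.S2634

open Cfsg.Agent.Helper16

/-- Over a finite field of characteristic two, Ω (the commutator subgroup of the orthogonal group of a quadratic form Q on F^n with non-degenerate polar form; excluding dimension 4 over the field of two elements) acts transitively on the non-singular 1-spaces: for u, v with Q(u) ≠ 0 and Q(v) ≠ 0 some element of Ω carries the line through u to the line through v. -/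
theorem result {F : Type*} [Field F] [Fintype F] [CharP F 2] {n : ℕ} (h : Fintype.card F ≠ 2 ∨ n ≠ 4) (Q : QuadraticForm F (Fin n → F)) (hQ : (QuadraticMap.polarBilin Q).Nondegenerate) (u v : Fin n → F) (hu : Q u ≠ 0) (hv : Q v ≠ 0) : ∃ g : ↥(Cfsg.isometryGroup F ⇑Q), g ∈ Cfsg.Omega F ⇑Q ∧ (F ∙ ((g : Matrix.GeneralLinearGroup (Fin n) F) : Matrix (Fin n) (Fin n) F).mulVec u) = F ∙ v := by
  have hcard : Fintype.card F ≠ 2 ∨ Fintype.card (Fin n) ≠ 4 := by
    rw [Fintype.card_fin]
    exact h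
  obtain ⟨c, hc⟩ := FiniteField.isSquare_of_char_two (ringChar.eq F 2) (Q u / Q v)
  have hc0 : c ≠ 0 := by
    rintro rfl
    rw [mul_zero] at hc
    exact (div_ne_zero hu hv) hc
  have hcv : Q (c • v) = Q u := by
    rw [qf_smul, ← hc]
    field_simp
  have hcv' : Q (c • v) ≠ 0 := by rw [hcv]; exact hu
  have hu0 : u ≠ 0 := by
    rintro rfl
    exact hu (QuadraticMap.map_zero Q)
  have hcv0 : c • v ≠ 0 := by
    intro h0
    rw [h0, QuadraticMap.map_zero] at hcv
    exact hu hcv.symm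
  obtain ⟨h₀, hh⟩ := witt_vector Q hQ u (c • v) hu0 hcv0 hcv.symm
  have hspan : (F ∙ (c • v)) = F ∙ v := Submodule.span_singleton_smul_eq (IsUnit.mk0 c hc0) v
  rcases Omega_dichotomy Q hQ hcard (c • v) hcv' h₀ with hg | hg
  · refine ⟨h₀, hg, ?_⟩
    show (F ∙ act ⇑Q h₀ u) = _
    rw [hh, hspan]
  · refine ⟨reflElt Q (c • v) * h₀, hg, ?_⟩
    show (F ∙ act ⇑Q (reflElt Q (c • v) * h₀) u) = _
    rw [act_mul, hh, act_refl Q _ hcv', qrefl_self Q _ hcv', ← neg_smul]
    exact Submodule.span_singleton_smul_eq (IsUnit.mk0 (-c) (neg_ne_zero.2 hc0)) v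

end Cfsg.Agent.S2634
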