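import Cfsg.Statements.S2636
-- import your own Cfsg.Agent.* helpers here

set_option autoImplicit false
open Cfsg

namespace Cfsg.Agent.S2636

open Matrix

/-- the fixed field of a ring automorphism of finite order `r` of a finite field with `q₀ ^ r`
elements has `q₀` elements -/
theorem exists_fixed_subfield {F : Type*} [Field F] [Fintype F] {q₀ r : ℕ} (hr : r.Prime)
    (hF : Fintype.card F = q₀ ^ r) (σ : F ≃+* F) (hσ : orderOf σ = r) :
    ∃ F₀ : Subfield F, (∀ x : F, x ∈ F₀ ↔ σ x = x) ∧ Nat.card F₀ = q₀ := by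
  have hfin : Finite ↥(Subgroup.zpowers σ) := by
    apply Nat.finite_of_card_ne_zero
    rw [Nat.card_zpowers, hσ]
    exact hr.ne_zero
  let _ : Fintype ↥(Subgroup.zpowers σ) := Fintype.ofFinite _
  refine ⟨FixedPoints.subfield ↥(Subgroup.zpowers σ) F, ?_, ?_⟩
  · intro x
    constructor
    · intro hx
      exact hx ⟨σ, Subgroup.mem_zpowers σ⟩
    · intro hx m
      obtain ⟨m, hm⟩ := m
      have hle : Subgroup.zpowers σ ≤ MulAction.stabilizer (F ≃+* F) x := by
        rw [Subgroup.zpowers_le]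
        exact hx
      exact hle hm
  · have h1 : Module.finrank (FixedPoints.subfield ↥(Subgroup.zpowers σ) F) F = r := by
      rw [FixedPoints.finrank_eq_card, ← Nat.card_eq_fintype_card, Nat.card_zpowers, hσ]
    have h2 : Nat.card F = Nat.card (FixedPoints.subfield ↥(Subgroup.zpowers σ) F) ^ r := by
      rw [← h1]
      exact Module.natCard_eq_pow_finrank
    rw [Nat.card_eq_fintype_card, hF] at h2
    exact (Nat.pow_left_injective hr.ne_zero h2).symm

/-- the scalar matrices as a homomorphism into `GL` -/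
noncomputable def scalarHom (n : ℕ) (R : Type*) [CommRing R] : Rˣ →* GL (Fin n) R :=
  Units.map ((Matrix.scalar (Fin n) : R →+* Matrix (Fin n) (Fin n) R) : R →* Matrix (Fin n) (Fin n) R)

theorem scalarHom_apply (n : ℕ) (R : Type*) [CommRing R] (d : Rˣ) (i j : Fin n) :
    ((scalarHom n R d : GL (Fin n) R) : Matrix (Fin n) (Fin n) R) i j = if i = j then (d : R) else 0 := by
  simp [scalarHom, Matrix.diagonal_apply]

theorem scalarHom_commute (n : ℕ) (R : Type*) [CommRing R] (d : Rˣ) (g : GL (Fin n) R) :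
    Commute (scalarHom n R d) g := by
  apply Units.ext
  show ((scalarHom n R d : GL (Fin n) R) : Matrix (Fin n) (Fin n) R) * (g : Matrix (Fin n) (Fin n) R) =
    (g : Matrix (Fin n) (Fin n) R) * ((scalarHom n R d : GL (Fin n) R) : Matrix (Fin n) (Fin n) R)
  ext i j
  simp [Matrix.mul_apply, scalarHom_apply, mul_comm]

/-- the product map `(d, h) ↦ d • h` from `Fˣ × GL_n(F₀)` -/
noncomputable def prodHom (n : ℕ) {F : Type*} [Field F] (F₀ : Subfield F) :
    Fˣ × GL (Fin n) F₀ →* GL (Fin n) F :=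
  MonoidHom.noncommCoprod (scalarHom n F) (Matrix.GeneralLinearGroup.map F₀.subtype)
    (fun d g => scalarHom_commute n F d _)

theorem prodHom_apply (n : ℕ) {F : Type*} [Field F] (F₀ : Subfield F) (d : Fˣ) (h : GL (Fin n) F₀)
    (i j : Fin n) :
    ((prodHom n F₀ (d, h) : GL (Fin n) F) : Matrix (Fin n) (Fin n) F) i j = (d : F) * (h i j : F) := by
  have : prodHom n F₀ (d, h) = scalarHom n F d * Matrix.GeneralLinearGroup.map F₀.subtype h := rfl
  rw [this]
  show (((scalarHom n F d : GL (Fin n) F) : Matrix (Fin n) (Fin n) F) *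
    ((Matrix.GeneralLinearGroup.map F₀.subtype h : GL (Fin n) F) : Matrix (Fin n) (Fin n) F)) i j = _
  rw [Matrix.mul_apply]
  simp [scalarHom_apply, Matrix.GeneralLinearGroup.map]

theorem range_prodHom {F : Type*} [Field F] [Fintype F] {n : ℕ} (hn : 1 ≤ n) (σ : F ≃+* F)
    (F₀ : Subfield F) (hmem : ∀ x : F, x ∈ F₀ ↔ σ x = x) (g : GL (Fin n) F) :
    g ∈ (prodHom n F₀).range ↔
      ∃ c : F, c ≠ 0 ∧ (g : Matrix (Fin n) (Fin n) F).map σ = c • (g : Matrix (Fin n) (Fin n) F) := by
  constructor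
  · rintro ⟨⟨d, h⟩, rfl⟩
    refine ⟨σ d * (d : F)⁻¹, mul_ne_zero ((map_ne_zero σ).2 d.ne_zero) (inv_ne_zero d.ne_zero), ?_⟩
    ext i j
    rw [Matrix.map_apply, Matrix.smul_apply, prodHom_apply, map_mul, (hmem _).1 (h i j).2,
      smul_eq_mul]
    field_simp
  · rintro ⟨c, hc, hg⟩
    -- a nonzero entry
    have hg0 : (g : Matrix (Fin n) (Fin n) F) ≠ 0 := by
      intro h0
      have hdet : (g : Matrix (Fin n) (Fin n) F).det ≠ 0 := by
        have := Matrix.GeneralLinearGroup.det_ne_zero g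
        simpa using this
      rw [h0] at hdet
      have : Nonempty (Fin n) := ⟨⟨0, hn⟩⟩
      exact hdet Matrix.det_zero
    obtain ⟨i₀, j₀, hij⟩ : ∃ i j, (g : Matrix (Fin n) (Fin n) F) i j ≠ 0 := by
      by_contra hcon
      apply hg0
      ext i j
      by_contra hne
      exact hcon ⟨i, j, hne⟩
    set d : F := (g : Matrix (Fin n) (Fin n) F) i₀ j₀ with hd
    have hcd : σ d = c * d := by
      have := congrFun (congrFun hg i₀) j₀
      simpa [Matrix.map_apply, Matrix.smul_apply] using this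
    have hfix : ∀ i j, σ (d⁻¹ * (g : Matrix (Fin n) (Fin n) F) i j) =
        d⁻¹ * (g : Matrix (Fin n) (Fin n) F) i j := by
      intro i j
      have h1 : σ ((g : Matrix (Fin n) (Fin n) F) i j) = c * (g : Matrix (Fin n) (Fin n) F) i j := by
        have := congrFun (congrFun hg i) j
        simpa [Matrix.map_apply, Matrix.smul_apply] using this
      rw [map_mul, map_inv₀, hcd, h1]
      field_simp
    let h₀ : Matrix (Fin n) (Fin n) F₀ := fun i j =>
      ⟨d⁻¹ * (g : Matrix (Fin n) (Fin n) F) i j, (hmem _).2 (hfix i j)⟩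
    have hmap : h₀.map F₀.subtype = d⁻¹ • (g : Matrix (Fin n) (Fin n) F) := by
      ext i j
      rfl
    have hdet : h₀.det ≠ 0 := by
      intro h0
      have h1 : (h₀.map F₀.subtype).det = 0 := by
        rw [← RingHom.mapMatrix_apply, ← RingHom.map_det, h0, map_zero]
      rw [hmap, Matrix.det_smul] at h1
      have hdetg : (g : Matrix (Fin n) (Fin n) F).det ≠ 0 := by
        have := Matrix.GeneralLinearGroup.det_ne_zero g
        simpa using this
      exact (mul_ne_zero (pow_ne_zero _ (inv_ne_zero hij)) hdetg) h1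
    refine ⟨(Units.mk0 d hij, Matrix.GeneralLinearGroup.mkOfDetNeZero h₀ hdet), ?_⟩
    apply Units.ext
    ext i j
    rw [prodHom_apply]
    show d * (d⁻¹ * (g : Matrix (Fin n) (Fin n) F) i j) = _
    field_simp

/-- the kernel map `e ↦ (e⁻¹, e • 1)` -/
noncomputable def kerHom (n : ℕ) {F : Type*} [Field F] (F₀ : Subfield F) :
    (↥F₀)ˣ →* Fˣ × GL (Fin n) F₀ :=
  MonoidHom.prod (invMonoidHom.comp (Units.map (F₀.subtype : ↥F₀ →* F))) (scalarHom n ↥F₀)

theorem kerHom_injective {n : ℕ} (hn : 1 ≤ n) {F : Type*} [Field F] (F₀ : Subfield F) :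
    Function.Injective (kerHom n F₀) := by
  intro e e' h
  have h2 : scalarHom n ↥F₀ e = scalarHom n ↥F₀ e' := congrArg Prod.snd h
  have h3 := congrArg (fun g : GL (Fin n) F₀ => (g : Matrix (Fin n) (Fin n) F₀) ⟨0, hn⟩ ⟨0, hn⟩) h2
  simp only [scalarHom_apply, if_true] at h3
  exact Units.ext h3

theorem ker_prodHom {n : ℕ} (hn : 1 ≤ n) {F : Type*} [Field F] (F₀ : Subfield F) :
    (prodHom n F₀).ker = (kerHom n F₀).range := by
  ext ⟨d, h⟩
  rw [MonoidHom.mem_ker, MonoidHom.mem_range]
  constructor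
  · intro hk
    have hent : ∀ i j, (d : F) * (h i j : F) = if i = j then 1 else 0 := by
      intro i j
      rw [← prodHom_apply, hk]
      simp [Matrix.one_apply]
    have h00 := hent ⟨0, hn⟩ ⟨0, hn⟩
    rw [if_pos rfl] at h00
    have he0 : h ⟨0, hn⟩ ⟨0, hn⟩ ≠ 0 := by
      intro h0
      rw [h0] at h00
      simp at h00
    refine ⟨Units.mk0 _ he0, ?_⟩
    apply Prod.ext
    · apply Units.ext
      show ((h ⟨0, hn⟩ ⟨0, hn⟩ : ↥F₀) : F)⁻¹ = (d : F)
      exact (eq_inv_of_mul_eq_one_left h00).symm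
    · apply Units.ext
      ext i j
      show (((scalarHom n ↥F₀ (Units.mk0 _ he0) : GL (Fin n) F₀) : Matrix (Fin n) (Fin n) F₀) i j : F)
        = (h i j : F)
      rw [scalarHom_apply]
      by_cases hij : i = j
      · subst hij
        rw [if_pos rfl]
        have h1 := hent i i
        rw [if_pos rfl] at h1
        show ((h ⟨0, hn⟩ ⟨0, hn⟩ : ↥F₀) : F) = (h i i : F)
        have hd : (d : F) ≠ 0 := d.ne_zero
        exact mul_left_cancel₀ hd (h00.trans h1.symm)
      · rw [if_neg hij]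
        have h1 := hent i j
        rw [if_neg hij] at h1
        have hd : (d : F) ≠ 0 := d.ne_zero
        show ((0 : ↥F₀) : F) = (h i j : F)
        rcases mul_eq_zero.1 h1 with h2 | h2
        · exact absurd h2 hd
        · rw [h2]; rfl
  · rintro ⟨e, he⟩
    rw [← he]
    apply Units.ext
    ext i j
    have : kerHom n F₀ e = ((Units.map (F₀.subtype : ↥F₀ →* F) e)⁻¹, scalarHom n ↥F₀ e) := rfl
    rw [this, prodHom_apply, scalarHom_apply]
    have he0 : ((e : ↥F₀) : F) ≠ 0 := by
      intro h0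
      exact e.ne_zero (Subtype.ext h0)
    by_cases hij : i = j
    · subst hij
      simp [he0]
    · simp [hij]

/-- Centraliser of a field automorphism in PGL_n: let F be the field with q = q₀^r elements, σ a field automorphism of F of prime order r (so its fixed field has q₀ elements) and n ≥ 1. The invertible matrices g whose entrywise image under σ is a scalar multiple of g — those whose coset modulo scalars is fixed by σ — number (q − 1)/(q₀ − 1) · |GL_n(q₀)|; equivalently the centraliser in PGL_n(q) of the induced automorphism has the order of PGL_n(q₀). -/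
theorem result {F : Type*} [Field F] [Fintype F] {q₀ r n : ℕ} (hr : r.Prime) (hn : 1 ≤ n) (hF : Fintype.card F = q₀ ^ r) (σ : F ≃+* F) (hσ : orderOf σ = r) : Nat.card {g : GL (Fin n) F // ∃ c : F, c ≠ 0 ∧ (g : Matrix (Fin n) (Fin n) F).map σ = c • (g : Matrix (Fin n) (Fin n) F)} = (q₀ ^ r - 1) / (q₀ - 1) * ∏ i : Fin n, (q₀ ^ n - q₀ ^ (i : ℕ)) := by
  obtain ⟨F₀, hmem, hcard⟩ := exists_fixed_subfield hr hF σ hσ
  have hX : Nat.card {g : GL (Fin n) F // ∃ c : F, c ≠ 0 ∧
      (g : Matrix (Fin n) (Fin n) F).map σ = c • (g : Matrix (Fin n) (Fin n) F)} =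
      Nat.card (prodHom n F₀).range :=
    Nat.card_congr (Equiv.subtypeEquivRight (fun g => (range_prodHom hn σ F₀ hmem g).symm))
  have hker : Nat.card (prodHom n F₀).ker = q₀ - 1 := by
    rw [ker_prodHom hn F₀, ← Nat.card_congr (MonoidHom.ofInjective (kerHom_injective hn F₀)).toEquiv,
      Nat.card_units, hcard]
  have htot : Nat.card (Fˣ × GL (Fin n) F₀) = (q₀ ^ r - 1) * ∏ i : Fin n, (q₀ ^ n - q₀ ^ (i : ℕ)) := by
    let _ : Fintype ↥F₀ := Fintype.ofFinite _
    rw [Nat.card_prod, Nat.card_units, Nat.card_eq_fintype_card, hF, Matrix.card_GL_field,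
      ← Nat.card_eq_fintype_card, hcard]
  have hmul := Subgroup.card_mul_index (prodHom n F₀).ker
  rw [Subgroup.index_ker, hker, htot, ← hX] at hmul
  have hq₀ : 2 ≤ q₀ := by
    rw [← hcard]
    have : Nontrivial ↥F₀ := inferInstance
    exact Finite.one_lt_card
  obtain ⟨b, hb⟩ := Nat.sub_one_dvd_pow_sub_one q₀ r
  rw [hb, Nat.mul_div_cancel_left _ (by omega : 0 < q₀ - 1)]
  rw [hb, mul_assoc] at hmul
  exact Nat.eq_of_mul_eq_mul_left (by omega : 0 < q₀ - 1) hmul

end Cfsg.Agent.S2636
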