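import Cfsg.Statements.S2638
-- import your own Cfsg.Agent.* helpers here

set_option autoImplicit false
open Cfsg

namespace Cfsg.Agent.S2638

open Polynomial

/-- the minimal polynomial of a matrix of prime order `r` is irreducible of degree `n` when the
order of `q` modulo `r` is `n` -/
theorem irreducible_minpoly {F : Type*} [Field F] [Fintype F] {p q : ℕ} [Fact p.Prime] [CharP F p]
    (hF : Fintype.card F = q) {n r : ℕ} (hr : r.Prime) (hrp : r ≠ p)
    (hi : orderOf (q : ZMod r) = n) (M : Matrix (Fin n) (Fin n) F) (hM : M ^ r = 1) (hM1 : M ≠ 1) :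
    Irreducible (minpoly F M) ∧ (minpoly F M).natDegree = n := by
  have hnt : Nontrivial (Matrix (Fin n) (Fin n) F) := ⟨⟨M, 1, hM1⟩⟩
  set μ := minpoly F M with hμ
  have hint : IsIntegral F M := Matrix.isIntegral M
  have hμ0 : μ ≠ 0 := minpoly.ne_zero hint
  have hdeg_le : μ.natDegree ≤ n := by
    have hc0 : M.charpoly ≠ 0 := (Matrix.charpoly_monic M).ne_zero
    have := Polynomial.natDegree_le_of_dvd (Matrix.minpoly_dvd_charpoly M) hc0
    rwa [Matrix.charpoly_natDegree_eq_dim, Fintype.card_fin] at this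
  let Φ : F[X] := ∑ i ∈ Finset.range r, X ^ i
  have hΦ : (X - C (1 : F)) * Φ = X ^ r - 1 := by
    rw [map_one]
    exact mul_geom_sum _ _
  have hμdvd : μ ∣ (X - C (1 : F)) * Φ := by
    rw [hΦ]
    apply minpoly.dvd
    simp [hM]
  have key : ∃ f : F[X], Irreducible f ∧ f ∣ μ ∧ f ∣ Φ := by
    by_cases h1 : (X - C (1 : F)) ∣ μ
    · obtain ⟨μ', hμ'⟩ := h1
      have hμ'Φ : μ' ∣ Φ := by
        rw [hμ'] at hμdvd
        exact (mul_dvd_mul_iff_left (X_sub_C_ne_zero 1)).1 hμdvd
      have hμ'0 : μ' ≠ 0 := by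
        rintro rfl
        rw [mul_zero] at hμ'
        exact hμ0 hμ'
      have hμ'unit : ¬ IsUnit μ' := by
        intro hu
        have h0 : aeval M μ = 0 := minpoly.aeval F M
        rw [hμ', map_mul] at h0
        have hu' : IsUnit (aeval M μ') := hu.map (aeval M)
        have h1 : aeval M (X - C (1 : F)) = 0 := (hu'.mul_left_eq_zero).1 h0
        simp at h1
        exact hM1 (sub_eq_zero.1 h1)
      obtain ⟨f, hf, hfd⟩ := WfDvdMonoid.exists_irreducible_factor hμ'unit hμ'0
      exact ⟨f, hf, hfd.trans (Dvd.intro_left _ hμ'.symm), hfd.trans hμ'Φ⟩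
    · have hcop : IsCoprime (X - C (1 : F)) μ :=
        (Irreducible.coprime_iff_not_dvd (irreducible_X_sub_C 1)).2 h1
      have hμΦ : μ ∣ Φ := hcop.symm.dvd_of_dvd_mul_left hμdvd
      have hμunit : ¬ IsUnit μ := minpoly.not_isUnit F M
      obtain ⟨f, hf, hfd⟩ := WfDvdMonoid.exists_irreducible_factor hμunit hμ0
      exact ⟨f, hf, hfd, hfd.trans hμΦ⟩
  obtain ⟨f, hf, hfμ, hfΦ⟩ := key
  have hfact : Fact (Irreducible f) := ⟨hf⟩
  obtain ⟨α, hα⟩ : ∃ α : AdjoinRoot f, α = AdjoinRoot.root f := ⟨_, rfl⟩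
  have hΦα : aeval α Φ = 0 := by
    rw [hα, AdjoinRoot.aeval_eq]
    exact AdjoinRoot.mk_eq_zero.2 hfΦ
  have hαr : α ^ r = 1 := by
    have h := congrArg (aeval α) hΦ
    rw [map_mul, hΦα, mul_zero] at h
    simp at h
    exact (sub_eq_zero.1 h.symm)
  have hα1 : α ≠ 1 := by
    intro h1
    have h2 : aeval α Φ = (r : AdjoinRoot f) := by
      simp [Φ, h1]
    rw [hΦα] at h2
    have hchar : CharP (AdjoinRoot f) p :=
      charP_of_injective_algebraMap (algebraMap F (AdjoinRoot f)).injective p
    have h3 := (CharP.cast_eq_zero_iff (AdjoinRoot f) p r).1 h2.symm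
    exact hrp ((Nat.prime_dvd_prime_iff_eq (Fact.out) hr).1 h3).symm
  have hfdeg : Module.finrank F (AdjoinRoot f) = f.natDegree := by
    rw [PowerBasis.finrank (AdjoinRoot.powerBasis hf.ne_zero), AdjoinRoot.powerBasis_dim]
  have hfinmod : Module.Finite F (AdjoinRoot f) := (AdjoinRoot.powerBasis hf.ne_zero).finite
  have hfinL : Finite (AdjoinRoot f) := Module.finite_of_finite F
  have hcardL : Nat.card (AdjoinRoot f) = q ^ f.natDegree := by
    rw [Module.natCard_eq_pow_finrank (K := F), hfdeg, Nat.card_eq_fintype_card, hF]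
  let _ : Fintype (AdjoinRoot f) := Fintype.ofFinite _
  have hα0 : α ≠ 0 := by
    intro h0
    rw [h0, zero_pow hr.ne_zero] at hαr
    exact zero_ne_one hαr
  have hpow : α ^ (q ^ f.natDegree - 1) = 1 := by
    have := FiniteField.pow_card_sub_one_eq_one α hα0
    rwa [← Nat.card_eq_fintype_card, hcardL] at this
  have hrfact : Fact r.Prime := ⟨hr⟩
  have hord : orderOf α = r := orderOf_eq_prime hαr hα1
  have hdvd : r ∣ q ^ f.natDegree - 1 := by
    rw [← hord]
    exact orderOf_dvd_of_pow_eq_one hpow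
  have hqpos : 0 < q := by
    rw [← hF]
    exact Fintype.card_pos
  have hq1 : 1 ≤ q ^ f.natDegree := Nat.one_le_pow _ _ hqpos
  have hz : (q : ZMod r) ^ f.natDegree = 1 := by
    have h0 : ((q ^ f.natDegree - 1 : ℕ) : ZMod r) = 0 := (ZMod.natCast_eq_zero_iff _ _).2 hdvd
    rw [Nat.cast_sub hq1, Nat.cast_pow, Nat.cast_one, sub_eq_zero] at h0
    exact h0
  have hn_dvd : n ∣ f.natDegree := by
    rw [← hi]
    exact orderOf_dvd_of_pow_eq_one hz
  have hfpos : 0 < f.natDegree := hf.natDegree_pos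
  have hfle : f.natDegree ≤ μ.natDegree := natDegree_le_of_dvd hfμ hμ0
  have hfn : f.natDegree = n := le_antisymm (hfle.trans hdeg_le) (Nat.le_of_dvd hfpos hn_dvd)
  have hμn : μ.natDegree = n := le_antisymm hdeg_le (hfn ▸ hfle)
  refine ⟨?_, hμn⟩
  obtain ⟨g, hg⟩ := hfμ
  have hg0 : g ≠ 0 := by
    rintro rfl
    rw [mul_zero] at hg
    exact hμ0 hg
  have hgdeg : g.natDegree = 0 := by
    have := natDegree_mul hf.ne_zero hg0
    rw [← hg, hμn, hfn] at this
    omega
  have hgunit : IsUnit g := by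
    rw [Polynomial.isUnit_iff]
    refine ⟨g.coeff 0, isUnit_iff_ne_zero.2 ?_, (eq_C_of_natDegree_eq_zero hgdeg).symm⟩
    intro h0
    apply hg0
    rw [eq_C_of_natDegree_eq_zero hgdeg, h0, map_zero]
  rw [hg]
  exact (associated_mul_unit_right f g hgunit).irreducible hf

/-- the algebra map `F[X]/(μ) → M_n(F)` sending the root to `M` -/
noncomputable def liftMat {F : Type*} [Field F] {n : ℕ} (M : Matrix (Fin n) (Fin n) F) :
    AdjoinRoot (minpoly F M) →ₐ[F] Matrix (Fin n) (Fin n) F :=
  Ideal.Quotient.liftₐ (Ideal.span {minpoly F M}) (Polynomial.aeval M) (by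
    intro a ha
    rw [Ideal.mem_span_singleton] at ha
    obtain ⟨b, rfl⟩ := ha
    rw [map_mul, minpoly.aeval, zero_mul])

theorem liftMat_mk {F : Type*} [Field F] {n : ℕ} (M : Matrix (Fin n) (Fin n) F) (P : F[X]) :
    liftMat M (AdjoinRoot.mk (minpoly F M) P) = aeval M P := rfl

/-- anything commuting with `M` is in the image of `liftMat M`, if the minimal polynomial is
irreducible of degree `n` -/
theorem exists_liftMat_eq {F : Type*} [Field F] {n : ℕ} (hn : 1 ≤ n) (M : Matrix (Fin n) (Fin n) F)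
    (hirr : Irreducible (minpoly F M)) (hdeg : (minpoly F M).natDegree = n)
    (g : Matrix (Fin n) (Fin n) F) (hg : g * M = M * g) :
    ∃ a : AdjoinRoot (minpoly F M), liftMat M a = g := by
  have hfact : Fact (Irreducible (minpoly F M)) := ⟨hirr⟩
  obtain ⟨φ, hφ⟩ : ∃ φ : AdjoinRoot (minpoly F M) →ₐ[F] Matrix (Fin n) (Fin n) F, φ = liftMat M :=
    ⟨_, rfl⟩
  rw [← hφ]
  -- `g` commutes with the image
  have hcomm : ∀ b, g * φ b = φ b * g := by
    intro b
    obtain ⟨P, rfl⟩ := AdjoinRoot.mk_surjective b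
    rw [hφ, liftMat_mk]
    have h1 : Algebra.adjoin F {M} ≤ Subalgebra.centralizer F {g} := by
      apply Algebra.adjoin_le
      intro z hz
      rw [Set.mem_singleton_iff] at hz
      subst hz
      rw [SetLike.mem_coe, Subalgebra.mem_centralizer_iff]
      intro y hy
      rw [Set.mem_singleton_iff] at hy
      subst hy
      exact hg
    have h2 := h1 (aeval_mem_adjoin_singleton F M (p := P))
    rw [Subalgebra.mem_centralizer_iff] at h2
    exact h2 g rfl
  let v : Fin n → F := Pi.single ⟨0, hn⟩ 1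
  have hv : v ≠ 0 := by
    intro h0
    have := congrFun h0 ⟨0, hn⟩
    simp [v] at this
  let T : AdjoinRoot (minpoly F M) →ₗ[F] (Fin n → F) :=
    { toFun := fun a => (φ a).mulVec v
      map_add' := by
        intro a b
        rw [map_add, Matrix.add_mulVec]
      map_smul' := by
        intro c a
        rw [map_smul, Matrix.smul_mulVec, RingHom.id_apply] }
  have hTinj : Function.Injective T := by
    rw [injective_iff_map_eq_zero]
    intro a ha
    by_contra ha0
    apply hv
    have h1 : (φ (a⁻¹ * a)).mulVec v = v := by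
      rw [inv_mul_cancel₀ ha0, map_one, Matrix.one_mulVec]
    rw [← h1, map_mul, ← Matrix.mulVec_mulVec]
    have : (φ a).mulVec v = 0 := ha
    rw [this, Matrix.mulVec_zero]
  have hfin : Module.Finite F (AdjoinRoot (minpoly F M)) :=
    (AdjoinRoot.powerBasis hirr.ne_zero).finite
  have hrank : Module.finrank F (AdjoinRoot (minpoly F M)) = Module.finrank F (Fin n → F) := by
    rw [PowerBasis.finrank (AdjoinRoot.powerBasis hirr.ne_zero), AdjoinRoot.powerBasis_dim, hdeg,
      Module.finrank_fin_fun]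
  have hTsurj : Function.Surjective T :=
    (LinearMap.injective_iff_surjective_of_finrank_eq_finrank hrank).1 hTinj
  obtain ⟨a, ha⟩ := hTsurj (g.mulVec v)
  refine ⟨a, ?_⟩
  apply Matrix.toLin'.injective
  apply LinearMap.ext
  intro w
  rw [Matrix.toLin'_apply, Matrix.toLin'_apply]
  obtain ⟨b, rfl⟩ := hTsurj w
  show (φ a).mulVec ((φ b).mulVec v) = g.mulVec ((φ b).mulVec v)
  have ha' : (φ a).mulVec v = g.mulVec v := ha
  have hba : φ b * φ a = φ a * φ b := by rw [← map_mul, ← map_mul, mul_comm]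
  calc (φ a).mulVec ((φ b).mulVec v) = (φ a * φ b).mulVec v := by rw [Matrix.mulVec_mulVec]
    _ = (φ b * φ a).mulVec v := by rw [hba]
    _ = (φ b).mulVec ((φ a).mulVec v) := by rw [Matrix.mulVec_mulVec]
    _ = (φ b).mulVec (g.mulVec v) := by rw [ha']
    _ = (φ b * g).mulVec v := by rw [Matrix.mulVec_mulVec]
    _ = (g * φ b).mulVec v := by rw [hcomm b]
    _ = g.mulVec ((φ b).mulVec v) := by rw [Matrix.mulVec_mulVec]

/-- If an element x of GL_n(q), n ≥ 1, has prime order r and the multiplicative order of q modulo r is n (r is a primitive prime divisor of q^n − 1, so x acts irreducibly), then the centraliser of x in GL_n(q) is cyclic of order q^n − 1 (the multiplicative group of the field with q^n elements, a Singer cycle). -/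
theorem result {F : Type*} [Field F] [Fintype F] {p q : ℕ} [Fact p.Prime] [CharP F p] (hF : Fintype.card F = q) {n r : ℕ} (hn : 1 ≤ n) (hr : r.Prime) (hrp : r ≠ p) (hi : orderOf (q : ZMod r) = n) (x : GL (Fin n) F) (hx : orderOf x = r) : IsCyclic ↥(Subgroup.centralizer ({x} : Set (GL (Fin n) F))) ∧ Nat.card ↥(Subgroup.centralizer ({x} : Set (GL (Fin n) F))) = q ^ n - 1 := by
  have hrfact : Fact r.Prime := ⟨hr⟩
  obtain ⟨M, hMdef⟩ : ∃ M : Matrix (Fin n) (Fin n) F, M = (x : Matrix (Fin n) (Fin n) F) := ⟨_, rfl⟩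
  have hMr : M ^ r = 1 := by
    have h1 := pow_orderOf_eq_one x
    rw [hx] at h1
    have h2 := congrArg (fun g : GL (Fin n) F => (g : Matrix (Fin n) (Fin n) F)) h1
    simpa [hMdef] using h2
  have hM1 : M ≠ 1 := by
    intro h
    have h1 : x = 1 := Units.ext (hMdef ▸ h)
    rw [h1, orderOf_one] at hx
    exact hr.ne_one hx.symm
  obtain ⟨hirr, hdeg⟩ := irreducible_minpoly hF hr hrp hi M hMr hM1
  have hfact : Fact (Irreducible (minpoly F M)) := ⟨hirr⟩
  have hnt : Nontrivial (Matrix (Fin n) (Fin n) F) := ⟨⟨M, 1, hM1⟩⟩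
  have hφinj : Function.Injective (liftMat M) := fun a b h =>
    RingHom.injective (liftMat M : AdjoinRoot (minpoly F M) →+* Matrix (Fin n) (Fin n) F) h
  let ψ : (AdjoinRoot (minpoly F M))ˣ →* GL (Fin n) F :=
    Units.map ((liftMat M : AdjoinRoot (minpoly F M) →+* Matrix (Fin n) (Fin n) F) :
      AdjoinRoot (minpoly F M) →* Matrix (Fin n) (Fin n) F)
  have hψinj : Function.Injective ψ := Units.map_injective hφinj
  have hroot : liftMat M (AdjoinRoot.root (minpoly F M)) = M := by
    have : AdjoinRoot.root (minpoly F M) = AdjoinRoot.mk (minpoly F M) X := rfl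
    rw [this, liftMat_mk, aeval_X]
  have hrange : ψ.range = Subgroup.centralizer ({x} : Set (GL (Fin n) F)) := by
    ext g
    rw [Subgroup.mem_centralizer_iff, MonoidHom.mem_range]
    constructor
    · rintro ⟨u, rfl⟩ y hy
      rw [Set.mem_singleton_iff] at hy
      subst hy
      apply Units.ext
      show (y : Matrix (Fin n) (Fin n) F) * liftMat M (u : AdjoinRoot (minpoly F M)) =
        liftMat M (u : AdjoinRoot (minpoly F M)) * (y : Matrix (Fin n) (Fin n) F)
      rw [← hMdef]
      have e1 : M * liftMat M (u : AdjoinRoot (minpoly F M)) =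
          liftMat M (AdjoinRoot.root (minpoly F M) * (u : AdjoinRoot (minpoly F M))) := by
        rw [map_mul, hroot]
      have e2 : liftMat M (u : AdjoinRoot (minpoly F M)) * M =
          liftMat M ((u : AdjoinRoot (minpoly F M)) * AdjoinRoot.root (minpoly F M)) := by
        rw [map_mul, hroot]
      rw [e1, e2, mul_comm]
    · intro hg
      have hg' : (g : Matrix (Fin n) (Fin n) F) * M = M * (g : Matrix (Fin n) (Fin n) F) := by
        have := hg x rfl
        rw [hMdef]
        exact (congrArg (fun g : GL (Fin n) F => (g : Matrix (Fin n) (Fin n) F)) this).symm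
      obtain ⟨a, ha⟩ := exists_liftMat_eq hn M hirr hdeg _ hg'
      have ha0 : a ≠ 0 := by
        rintro rfl
        rw [map_zero] at ha
        have hdet : (g : Matrix (Fin n) (Fin n) F).det ≠ 0 := by
          have := Matrix.GeneralLinearGroup.det_ne_zero g
          simpa using this
        rw [← ha] at hdet
        have : Nonempty (Fin n) := ⟨⟨0, hn⟩⟩
        exact hdet Matrix.det_zero
      refine ⟨Units.mk0 a ha0, ?_⟩
      apply Units.ext
      exact ha
  have hfin : Module.Finite F (AdjoinRoot (minpoly F M)) :=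
    (AdjoinRoot.powerBasis hirr.ne_zero).finite
  have hfinL : Finite (AdjoinRoot (minpoly F M)) := Module.finite_of_finite F
  have hcardL : Nat.card (AdjoinRoot (minpoly F M)) = q ^ n := by
    rw [Module.natCard_eq_pow_finrank (K := F), PowerBasis.finrank (AdjoinRoot.powerBasis hirr.ne_zero),
      AdjoinRoot.powerBasis_dim, hdeg, Nat.card_eq_fintype_card, hF]
  let e : (AdjoinRoot (minpoly F M))ˣ ≃* ↥(Subgroup.centralizer ({x} : Set (GL (Fin n) F))) :=
    (MonoidHom.ofInjective hψinj).trans (MulEquiv.subgroupCongr hrange)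
  constructor
  · exact (MulEquiv.isCyclic e).1 inferInstance
  · rw [← Nat.card_congr e.toEquiv, Nat.card_units, hcardL]

end Cfsg.Agent.S2638
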