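import Cfsg.Statements.S2639
import Cfsg.Agent.Helper16.ScalarRestrict

set_option autoImplicit false
open Cfsg

namespace Cfsg.Agent.S2639

open Cfsg.Agent.Helper16 Matrix


/-- The unitary group embeds in the symplectic group of twice the dimension over the subfield: for a field K with q² elements and a field F with q elements (isomorphic to the subfield of K of order q), there is an injective homomorphism GU_m(q) → Sp_2m(F). -/
theorem result {K F : Type*} [Field K] [Fintype K] [Field F] [Fintype F] {q : ℕ} (hK : Fintype.card K = q ^ 2) (hF : Fintype.card F = q) (m : ℕ) : ∃ φ : ↥(Cfsg.GU m K q) →* ↥(Matrix.symplecticGroup (Fin m) F), Function.Injective φ := by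
  subst hF
  obtain ⟨ι⟩ := exists_ringHom_of_card_sq rfl hK
  let _ : Algebra F K := ι.toAlgebra
  have hfr : Module.finrank F K = 2 := finrank_of_card_sq rfl hK
  have hfd : FiniteDimensional F K := Module.finite_of_finrank_pos (by omega)
  have hq2 : 2 ≤ Fintype.card F := Fintype.one_lt_card
  -- the Frobenius
  obtain ⟨σ, hσ⟩ : ∃ σ : K →ₐ[F] K, ∀ x, σ x = x ^ Fintype.card F :=
    ⟨FiniteField.frobeniusAlgHom F K, fun x => rfl⟩
  have hσsurj : Function.Surjective σ :=
    Finite.injective_iff_surjective.1 (σ : K →+* K).injective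
  have hh : ∀ u v : Fin m → K, Cfsg.hermForm m K (Fintype.card F) u v = ∑ i, u i * σ (v i) := by
    intro u v
    unfold Cfsg.hermForm
    exact Finset.sum_congr rfl fun i _ => by rw [hσ]
  -- an element outside `F`
  obtain ⟨θ, hθ⟩ : ∃ θ : K, θ ∉ Set.range (algebraMap F K) := by
    by_contra hcon
    have hsurj : Function.Surjective (algebraMap F K) := by
      intro x
      by_contra hx
      exact hcon ⟨x, hx⟩
    have hle := Fintype.card_le_of_surjective _ hsurj
    rw [hK] at hle
    nlinarith
  have hli : LinearIndependent F ![(1 : K), θ] := by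
    rw [LinearIndependent.pair_iff]
    intro s t hst
    by_cases ht : t = 0
    · subst ht
      rw [zero_smul, add_zero, Algebra.smul_def, mul_one] at hst
      exact ⟨(algebraMap F K).injective (hst.trans (map_zero _).symm), rfl⟩
    · exfalso
      apply hθ
      refine ⟨-(t⁻¹ * s), ?_⟩
      have h1 : t • θ = -(s • (1 : K)) := eq_neg_of_add_eq_zero_right hst
      have h3 : θ = t⁻¹ • (t • θ) := by rw [smul_smul, inv_mul_cancel₀ ht, one_smul]
      rw [h3, h1, Algebra.smul_def, Algebra.smul_def, mul_one, map_neg, map_mul]
      ring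
  let bK : Module.Basis (Fin 2) F K :=
    basisOfLinearIndependentOfCardEqFinrank hli (by rw [Fintype.card_fin, hfr])
  have hbK : ⇑bK = ![(1 : K), θ] := coe_basisOfLinearIndependentOfCardEqFinrank _ _
  obtain ⟨τ, hτdef⟩ : ∃ τ : K →ₗ[F] F, τ = bK.coord 1 := ⟨_, rfl⟩
  have hτθ : τ θ = 1 := by
    have h1 : θ = bK 1 := by rw [hbK]; rfl
    rw [hτdef, h1]
    simp
  have hτ1 : τ 1 = 0 := by
    have h1 : (1 : K) = bK 0 := by rw [hbK]; rfl
    rw [hτdef, h1]
    simp
  have hτ : τ ≠ 0 := by
    intro h0
    rw [h0] at hτθ
    simp at hτθ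
  have hτF : ∀ c : F, τ (algebraMap F K c) = 0 := by
    intro c
    rw [Algebra.algebraMap_eq_smul_one, map_smul, hτ1, smul_zero]
  let B : LinearMap.BilinForm F (Fin m → K) :=
    LinearMap.mk₂ F (fun u v => τ (∑ i, u i * σ (v i)))
      (by
        intro u u' v
        rw [← map_add, ← Finset.sum_add_distrib]
        congr 1
        exact Finset.sum_congr rfl fun i _ => by rw [Pi.add_apply, add_mul])
      (by
        intro c u v
        rw [← map_smul, Finset.smul_sum]
        congr 1
        exact Finset.sum_congr rfl fun i _ => by rw [Pi.smul_apply, smul_mul_assoc])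
      (by
        intro u v v'
        rw [← map_add, ← Finset.sum_add_distrib]
        congr 1
        exact Finset.sum_congr rfl fun i _ => by rw [Pi.add_apply, map_add, mul_add])
      (by
        intro c u v
        rw [← map_smul, Finset.smul_sum]
        congr 1
        exact Finset.sum_congr rfl fun i _ => by rw [Pi.smul_apply, map_smul, mul_smul_comm])
  have hBapp : ∀ u v, B u v = τ (Cfsg.hermForm m K (Fintype.card F) u v) := by
    intro u v
    rw [hh]
    rfl
  have hA : B.IsAlt := by
    intro u
    rw [hBapp, hh]
    have h1 : ∀ i, u i * σ (u i) = algebraMap F K (Algebra.norm F (u i)) := by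
      intro i
      rw [FiniteField.algebraMap_norm_eq_pow, hσ, Nat.card_eq_fintype_card, Nat.card_eq_fintype_card,
        hK]
      have h2 : (Fintype.card F ^ 2 - 1) / (Fintype.card F - 1) = Fintype.card F + 1 := by
        have h3 : Fintype.card F ^ 2 - 1 = (Fintype.card F + 1) * (Fintype.card F - 1) := by
          obtain ⟨c, hc⟩ : ∃ c, Fintype.card F = c + 2 := ⟨Fintype.card F - 2, by omega⟩
          rw [hc]
          have : c + 2 - 1 = c + 1 := by omega
          rw [this]
          have : (c + 2) ^ 2 = (c + 2 + 1) * (c + 1) + 1 := by ring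
          rw [this, Nat.add_sub_cancel]
        rw [h3, Nat.mul_div_cancel _ (by omega)]
      rw [h2, pow_succ, mul_comm]
    rw [Finset.sum_congr rfl (fun i _ => h1 i), ← map_sum, hτF]
  have hB : B.Nondegenerate := by
    apply (LinearMap.IsRefl.nondegenerate_iff_separatingLeft (LinearMap.IsAlt.isRefl hA)).2
    intro u hu
    refine separating_of_comp (fun (u v : Fin m → K) => ∑ i, u i * σ (v i)) ?_ ?_ τ hτ u
      (fun v => hu v)
    · intro u hu0
      obtain ⟨i, hi⟩ : ∃ i, u i ≠ 0 := by
        by_contra hcon
        apply hu0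
        funext i
        by_contra hne
        exact hcon ⟨i, hne⟩
      refine ⟨Pi.single i 1, ?_⟩
      rw [Finset.sum_eq_single i]
      · rw [Pi.single_eq_same, map_one, mul_one]
        exact hi
      · intro j _ hji
        rw [Pi.single_eq_of_ne hji, map_zero, mul_zero]
      · intro h
        exact absurd (Finset.mem_univ i) h
    · intro c u v
      obtain ⟨c', hc'⟩ := hσsurj c
      refine ⟨c' • v, ?_⟩
      rw [Finset.mul_sum]
      exact Finset.sum_congr rfl fun i _ => by
        rw [Pi.smul_apply, smul_eq_mul, map_mul, hc']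
        ring
  have hN : Module.finrank F (Fin m → K) = 2 * m := by
    rw [Module.finrank_pi_fintype]
    simp [hfr]
    ring
  have hψ : Function.Injective ((Units.coeHom (Matrix (Fin m) (Fin m) K)).comp
      (Cfsg.GU m K (Fintype.card F)).subtype) := by
    intro g g' hgg
    apply Subtype.ext
    apply Units.ext
    exact hgg
  exact exists_hom_symplectic _ hψ B hA hB
    (fun g u v => by rw [hBapp, hBapp]; exact congrArg τ (g.2 u v)) m hN

end Cfsg.Agent.S2639
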