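import Cfsg.Statements.S2640
import Cfsg.Agent.Helper16.Unitary

set_option autoImplicit false
open Cfsg

namespace Cfsg.Agent.S2640

/-- For m even, the unitary group GU_m(q) (over the field with q² elements) embeds in the orthogonal group O⁺_2m(q) of the hyperbolic form Σ x_i y_i over the field with q elements (there is an injective homomorphism). -/
theorem result {K F : Type*} [Field K] [Fintype K] [Field F] [Fintype F] {q : ℕ} (hK : Fintype.card K = q ^ 2) (hF : Fintype.card F = q) (m : ℕ) (hm : Even m) : ∃ φ : ↥(Cfsg.GU m K q) →* ↥(Cfsg.isometryGroup F (Cfsg.quadFormPlus m F)), Function.Injective φ := by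
  classical
  subst hF
  obtain ⟨ι⟩ := Cfsg.Agent.Helper16.exists_ringHom_of_card_sq (F := F) (K := K) rfl hK
  letI : Algebra F K := ι.toAlgebra
  obtain ⟨j, rfl⟩ := hm
  have hfr : Module.finrank F K = 2 := Cfsg.Agent.Helper16.finrank_of_card_sq rfl hK
  have hfd : FiniteDimensional F K := Module.finite_of_finrank_pos (by omega)
  by_cases hj : j = 0
  · subst hj
    refine ⟨1, ?_⟩
    intro x y _
    apply Subtype.ext
    apply Units.ext
    ext i
    exact i.elim0
  · obtain ⟨e, f, hef⟩ := Cfsg.Agent.Helper16.exists_hyp_normForm (F := F) (K := K) hK j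
    have hV : Module.finrank F (Fin (j + j) → K) = 2 * (j + j) := by
      rw [Module.finrank_pi_fintype]
      simp [hfr]
      ring
    obtain ⟨T, hT⟩ := Cfsg.Agent.Helper16.exists_equiv_plus
      (Cfsg.Agent.Helper16.normForm F K (Fin (j + j))) hef hV (by omega)
    exact Cfsg.Agent.Helper16.exists_isom_hom
      ((Units.coeHom (Matrix (Fin (j + j)) (Fin (j + j)) K)).comp
        (Cfsg.GU (j + j) K (Fintype.card F)).subtype)
      (fun x y hxy => Subtype.ext (Units.ext hxy))
      (Cfsg.Agent.Helper16.normForm F K (Fin (j + j)))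
      (fun g u => Cfsg.Agent.Helper16.normForm_GU hK (j + j) g u)
      (Cfsg.quadFormPlus (j + j) F) T hT

end Cfsg.Agent.S2640
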