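import Cfsg.Statements.S2641
import Cfsg.Agent.Helper16.Unitary
import Cfsg.Agent.S2679

set_option autoImplicit false
open Cfsg

namespace Cfsg.Agent.S2641

open QuadraticMap Cfsg.Agent.Helper16 in
theorem key {F K : Type*} [Field F] [Fintype F] [Field K] [Fintype K] [Algebra F K]
    [FiniteDimensional F K]
    (hK : Fintype.card K = Fintype.card F ^ 2) (N : ℕ) (hN : Even N) (a b : F) (θ θ' : K)
    (h1 : θ + θ' = algebraMap F K a) (h2 : θ * θ' = algebraMap F K b)
    (hfr : frobF F K θ = θ') (hd : 4 * b - a ^ 2 ≠ 0) :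
    ∃ T : ((Fin N ⊕ Fin N) ⊕ Fin 2 → F) ≃ₗ[F] (Fin (N + 1) → K),
      ∀ v, normForm F K (Fin (N + 1)) (T v) = Cfsg.quadFormMinus N F a b v := by
  classical
  obtain ⟨r, rfl⟩ := hN
  obtain ⟨e', f', h1', h2', h3'⟩ := exists_hyp_normForm (F := F) (K := K) hK r
  let ext : (Fin (r + r) → K) → (Fin (r + r + 1) → K) := fun v => Fin.snoc (α := fun _ => K) v 0
  have hext : ∀ u v : Fin (r + r) → K,
      ∑ i, ext u i * frobF F K (ext v i) = ∑ i, u i * frobF F K (v i) := by
    intro u v
    rw [Fin.sum_univ_castSucc]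
    simp [ext]
  have hextQ : ∀ v, normForm F K _ (ext v) = normForm F K _ v := by
    intro v
    apply (algebraMap F K).injective
    rw [algebraMap_normForm hK, algebraMap_normForm hK, hext]
  have hextP : ∀ u v, polar (normForm F K _) (ext u) (ext v) = polar (normForm F K _) u v := by
    intro u v
    apply (algebraMap F K).injective
    rw [algebraMap_polar_normForm hK, algebraMap_polar_normForm hK, Finset.sum_add_distrib,
      Finset.sum_add_distrib, hext, hext]
  have hextS : ∀ u (c : K),
      polar (normForm F K _) (ext u) (Pi.single (Fin.last (r + r)) c) = 0 := by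
    intro u c
    apply (algebraMap F K).injective
    rw [algebraMap_polar_normForm hK, map_zero, Fin.sum_univ_castSucc]
    simp [ext]
  have hSQ : ∀ c : K, algebraMap F K (normForm F K _ (Pi.single (Fin.last (r + r)) c)) =
      c * frobF F K c := by
    intro c
    rw [algebraMap_normForm hK, Finset.sum_eq_single (Fin.last _)]
    · rw [Pi.single_eq_same]
    · intro j _ hj
      rw [Pi.single_eq_of_ne hj, zero_mul]
    · intro h
      exact absurd (Finset.mem_univ _) h
  have hSP : ∀ c d : K, algebraMap F K (polar (normForm F K _) (Pi.single (Fin.last (r + r)) c)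
      (Pi.single (Fin.last (r + r)) d)) = c * frobF F K d + d * frobF F K c := by
    intro c d
    rw [algebraMap_polar_normForm hK, Finset.sum_eq_single (Fin.last _)]
    · rw [Pi.single_eq_same, Pi.single_eq_same]
    · intro j _ hj
      rw [Pi.single_eq_of_ne hj, Pi.single_eq_of_ne hj, zero_mul, add_zero]
    · intro h
      exact absurd (Finset.mem_univ _) h
  have hV : Module.finrank F (Fin (r + r + 1) → K) = 2 * (r + r) + 2 := by
    have hfr2 : Module.finrank F K = 2 := finrank_of_card_sq rfl hK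
    rw [Module.finrank_pi_fintype]
    simp [hfr2]
    ring
  refine exists_equiv_minus (normForm F K (Fin (r + r + 1))) (e := fun i => ext (e' i))
    (f := fun i => ext (f' i)) ⟨?_, ?_, ?_⟩
    ![Pi.single (Fin.last _) 1, Pi.single (Fin.last _) θ] a b ?_ ?_ ?_ hd ?_ hV
  · intro i
    exact ⟨by rw [hextQ]; exact (h1' i).1, by rw [hextQ]; exact (h1' i).2⟩
  · intro i j
    rw [hextP]
    exact h2' i j
  · intro i j
    exact ⟨by rw [hextP]; exact (h3' i j).1, by rw [hextP]; exact (h3' i j).2⟩
  · apply (algebraMap F K).injective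
    show algebraMap F K (normForm F K _ (Pi.single (Fin.last _) 1)) = _
    rw [hSQ, map_one, map_one, mul_one]
  · apply (algebraMap F K).injective
    show algebraMap F K (polar (normForm F K _) (Pi.single (Fin.last _) 1)
      (Pi.single (Fin.last _) θ)) = _
    rw [hSP, map_one, hfr, ← h1]
    ring
  · apply (algebraMap F K).injective
    show algebraMap F K (normForm F K _ (Pi.single (Fin.last _) θ)) = _
    rw [hSQ, hfr, h2]
  · intro i j
    have hj : ∀ j : Fin 2, ∃ c : K, (![Pi.single (Fin.last (r + r)) (1 : K),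
        Pi.single (Fin.last (r + r)) θ] : Fin 2 → (Fin (r + r + 1) → K)) j =
        Pi.single (Fin.last (r + r)) c := by
      intro j
      fin_cases j
      · exact ⟨1, rfl⟩
      · exact ⟨θ, rfl⟩
    obtain ⟨c, hc⟩ := hj j
    rw [hc]
    exact ⟨hextS _ c, hextS _ c⟩

/-- For m odd, the unitary group GU_m(q) (over the field with q² elements) embeds in the orthogonal group O⁻_2m(q) of an elliptic form (Σ_(i<m−1) x_i y_i plus an anisotropic binary form) over the field with q elements (there is an injective homomorphism). -/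
theorem result {K F : Type*} [Field K] [Fintype K] [Field F] [Fintype F] {q : ℕ} (hK : Fintype.card K = q ^ 2) (hF : Fintype.card F = q) (m : ℕ) (hm : Odd m) (a b : F) (hab : ∀ z₁ z₂ : F, z₁ ^ 2 + a * z₁ * z₂ + b * z₂ ^ 2 = 0 → z₁ = 0 ∧ z₂ = 0) : ∃ φ : ↥(Cfsg.GU m K q) →* ↥(Cfsg.isometryGroup F (Cfsg.quadFormMinus (m - 1) F a b)), Function.Injective φ := by
  classical
  subst hF
  have hab' : ∀ z₁ z₂ : F, z₁ ^ 2 + (-a) * z₁ * z₂ + b * z₂ ^ 2 = 0 → z₁ = 0 ∧ z₂ = 0 := by
    intro z₁ z₂ h
    have := hab z₁ (-z₂) (by linear_combination h)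
    exact ⟨this.1, neg_eq_zero.1 this.2⟩
  obtain ⟨ι, θ, θ', hsum, hprod, hne⟩ := Cfsg.Agent.S2679.exists_hom_roots rfl hK (-a) b hab'
  let _ : Algebra F K := ι.toAlgebra
  have hι : ∀ c : F, algebraMap F K c = ι c := fun c => rfl
  have hfrK : Module.finrank F K = 2 := Cfsg.Agent.Helper16.finrank_of_card_sq rfl hK
  have hfd : FiniteDimensional F K := Module.finite_of_finrank_pos (by omega)
  have hιa : ι a = θ + θ' := by rw [hsum, map_neg, neg_neg]
  have hfix : ∀ c : F, Cfsg.Agent.Helper16.frobF F K (ι c) = ι c :=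
    fun c => (Cfsg.Agent.Helper16.frobF F K).commutes c
  have hroot : (Cfsg.Agent.Helper16.frobF F K θ - θ) *
      (Cfsg.Agent.Helper16.frobF F K θ - θ') = 0 := by
    have h1 : θ ^ 2 - ι a * θ + ι b = 0 := by
      rw [hιa, ← hprod]
      ring
    have h2 := congrArg (Cfsg.Agent.Helper16.frobF F K) h1
    rw [map_add, map_sub, map_pow, map_mul, hfix, hfix, map_zero, hιa, ← hprod] at h2
    linear_combination h2
  have hfr : Cfsg.Agent.Helper16.frobF F K θ = θ' := by
    rcases mul_eq_zero.1 hroot with h | h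
    · exfalso
      obtain ⟨t, ht⟩ := Cfsg.Agent.Helper16.mem_range_of_frobF_eq θ (sub_eq_zero.1 h)
      rw [hι] at ht
      have h3 : t ^ 2 + a * t * (-1) + b * (-1) ^ 2 = 0 := by
        apply ι.injective
        simp only [map_add, map_mul, map_pow, map_neg, map_one, map_zero]
        rw [ht, hιa, ← hprod]
        ring
      have h4 := (hab t (-1) h3).2
      exact one_ne_zero (neg_eq_zero.1 h4)
    · exact sub_eq_zero.1 h
  have hd : 4 * b - a ^ 2 ≠ 0 := by
    have := Cfsg.Agent.S2679.disc_ne_zero a b hab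
    intro h
    apply this
    linear_combination -h
  obtain ⟨r, rfl⟩ := hm
  obtain ⟨T, hT⟩ := key hK (2 * r) (even_two_mul r) a b θ θ' (by rw [hι, hιa]) (by rw [hι, hprod])
    hfr hd
  exact Cfsg.Agent.Helper16.exists_isom_hom
    ((Units.coeHom (Matrix (Fin (2 * r + 1)) (Fin (2 * r + 1)) K)).comp
      (Cfsg.GU (2 * r + 1) K (Fintype.card F)).subtype)
    (fun x y hxy => Subtype.ext (Units.ext hxy))
    (Cfsg.Agent.Helper16.normForm F K (Fin (2 * r + 1)))
    (fun g u => Cfsg.Agent.Helper16.normForm_GU hK (2 * r + 1) g u)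
    (Cfsg.quadFormMinus (2 * r) F a b) T hT

end Cfsg.Agent.S2641
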