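import Cfsg.Statements.S2643
import Cfsg.Agent.Helper16.NormE

set_option autoImplicit false
open Cfsg

namespace Cfsg.Agent.S2643

open Matrix Cfsg.Agent.Helper3 Cfsg.Agent.Helper16 in
theorem ctr_smul_h16 {K : Type*} [Field K] [Fintype K] {q n : ℕ} (Φ : Frob K q) (a : K)
    (M : Matrix (Fin n) (Fin n) K) : ctr Φ (a • M) = Φ.φ a • ctr Φ M := by
  ext i j
  simp [ctr_apply, Matrix.smul_apply]


/-- Regular unipotent classes of SU_n(q), n ≥ 2: the elements u of the special unitary group (isometries of Σ u_i v_i^q of determinant one over the field with q² elements) with (u − 1)^n = 0 and rank(u − 1) = n − 1 form exactly gcd(n, q + 1) conjugacy classes of SU_n(q). -/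
theorem result {K : Type*} [Field K] [Fintype K] {q n : ℕ} (hK : Fintype.card K = q ^ 2) (hn : 2 ≤ n) : Nat.card {C : ConjClasses ↥(Cfsg.SU n K q) // ∃ u : ↥(Cfsg.SU n K q), ConjClasses.mk u = C ∧ (((u : GL (Fin n) K) : Matrix (Fin n) (Fin n) K) - 1) ^ n = 0 ∧ (((u : GL (Fin n) K) : Matrix (Fin n) (Fin n) K) - 1).rank = n - 1} = Nat.gcd n (q + 1) := by
  classical
  have hn' : 0 < n := by omega
  have hq0 : q ≠ 0 := by have := Cfsg.Agent.Helper3.two_le_q hK; omega
  obtain ⟨Φ⟩ := Cfsg.Agent.Helper16.exists_Frob hK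
  let SUn := ↥(Cfsg.SU n K q)
  let mat : SUn → Matrix (Fin n) (Fin n) K :=
    fun u => ((u : GL (Fin n) K) : Matrix (Fin n) (Fin n) K)
  have hmat_mul : ∀ u v : SUn, mat (u * v) = mat u * mat v := fun u v => rfl
  have hmat_unit : ∀ u : SUn, Cfsg.Agent.Helper16.ctr Φ (mat u) * mat u = 1 := fun u =>
    (Cfsg.Agent.Helper16.hpres_iff hK Φ _).mp ((Cfsg.Agent.Helper3.mem_SU_iff u.1).mp u.2)
  let Reg : SUn → Prop := fun u => (mat u - 1) ^ n = 0 ∧ (mat u - 1).rank = n - 1
  let 𝒞 := {C : ConjClasses SUn // ∃ u : SUn, ConjClasses.mk u = C ∧ Reg u}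
  show Nat.card 𝒞 = Nat.gcd n (q + 1)
  obtain ⟨u0, hu0, hu0det, hu0n, hu0r⟩ := Cfsg.Agent.Helper16.exists_reg_unitary hK Φ hn'
  obtain ⟨P0, hP0, hP0J⟩ := Cfsg.Agent.Helper14.RegUnip.exists_conj_J hn' _ hu0n hu0r
  let M : Subgroup Kˣ := (powMonoidHom (q + 1) : Kˣ →* Kˣ).ker
  have hM : ∀ l : Kˣ, l ∈ M ↔ (l : K) * (l : K) ^ q = 1 := by
    intro l
    rw [MonoidHom.mem_ker, powMonoidHom_apply, Units.ext_iff, Units.val_pow_eq_pow_val,
      Units.val_one, pow_succ']
  let D : Subgroup M := (powMonoidHom n : M →* M).range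
  have hex : ∀ C : 𝒞, ∃ (u : SUn) (x xi : Matrix (Fin n) (Fin n) K), ConjClasses.mk u = C.1 ∧
      x * xi = 1 ∧ xi * x = 1 ∧ Cfsg.Agent.Helper16.ctr Φ x * x = 1 ∧ x * u0 = mat u * x := by
    intro C
    obtain ⟨u, hu, hreg⟩ := C.2
    obtain ⟨x, xi, h1, h2, h3, h4⟩ := Cfsg.Agent.Helper16.reg_unitary_conj hK Φ hn' u0 (mat u)
      hu0 (hmat_unit u) hu0n hu0r hreg.1 hreg.2
    exact ⟨u, x, xi, hu, h1, h2, h3, h4⟩
  choose rep X Xi hrep hX1 hX2 hXu hXc using hex
  have hXi : ∀ C, Xi C = Cfsg.Agent.Helper16.ctr Φ (X C) := by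
    intro C
    calc Xi C = (Cfsg.Agent.Helper16.ctr Φ (X C) * X C) * Xi C := by rw [hXu, one_mul]
      _ = Cfsg.Agent.Helper16.ctr Φ (X C) := by rw [mul_assoc, hX1, mul_one]
  have hXdet : ∀ C, (X C).det * (X C).det ^ q = 1 := fun C => by
    have := congrArg Matrix.det (hXu C)
    rw [Matrix.det_mul, Cfsg.Agent.Helper16.ctr_det, Φ.hφ, Matrix.det_one] at this
    rw [mul_comm]; exact this
  have hXdet0 : ∀ C, (X C).det ≠ 0 := fun C h => by
    have := hXdet C
    rw [h, zero_mul] at this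
    exact zero_ne_one this
  let dM : 𝒞 → M := fun C => ⟨Units.mk0 (X C).det (hXdet0 C), (hM _).mpr (hXdet C)⟩
  let Ψ : 𝒞 → M ⧸ D := fun C => QuotientGroup.mk (dM C)
  have hinj : Function.Injective Ψ := by
    intro C C' hCC
    have h1 : (dM C)⁻¹ * dM C' ∈ D := QuotientGroup.eq.mp hCC
    obtain ⟨a, ha⟩ := h1
    obtain ⟨b, hb⟩ : ∃ b : K, b = ((a : Kˣ) : K) := ⟨_, rfl⟩
    have hb0 : b ≠ 0 := by rw [hb]; exact (a : Kˣ).ne_zero
    have hbN : b * b ^ q = 1 := by rw [hb]; exact (hM _).mp a.2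
    have hbn : b ^ n = ((X C).det)⁻¹ * (X C').det := by
      have h2 := congrArg (fun x : M => ((x : Kˣ) : K)) ha
      rw [hb]
      simpa [dM] using h2
    obtain ⟨s, hs⟩ : ∃ s : Matrix (Fin n) (Fin n) K, s = b⁻¹ • (X C' * Xi C) := ⟨_, rfl⟩
    have hbφ : Φ.φ b⁻¹ * b⁻¹ = 1 := by
      rw [Φ.hφ, inv_pow, ← mul_inv, mul_comm, hbN, inv_one]
    have hsu : Cfsg.Agent.Helper16.ctr Φ s * s = 1 := by
      rw [hs, ctr_smul_h16, smul_mul_smul_comm, hbφ, one_smul, Cfsg.Agent.Helper16.ctr_mul, hXi C,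
        Cfsg.Agent.Helper16.ctr_ctr]
      calc X C * Cfsg.Agent.Helper16.ctr Φ (X C') * (X C' * Cfsg.Agent.Helper16.ctr Φ (X C))
          = X C * (Cfsg.Agent.Helper16.ctr Φ (X C') * X C') * Cfsg.Agent.Helper16.ctr Φ (X C) := by
            simp only [mul_assoc]
        _ = 1 := by rw [hXu, mul_one, ← hXi C, hX1]
    have hsdet : s.det = 1 := by
      rw [hs, Matrix.det_smul, Fintype.card_fin, Matrix.det_mul]
      have h3 : (X C).det * (Xi C).det = 1 := by rw [← Matrix.det_mul, hX1, Matrix.det_one]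
      have h4 : b⁻¹ ^ n * b ^ n = 1 := by rw [← mul_pow, inv_mul_cancel₀ hb0, one_pow]
      have h5 : (X C').det = (X C).det * b ^ n := by
        rw [hbn, ← mul_assoc, mul_inv_cancel₀ (hXdet0 C), one_mul]
      rw [h5]
      linear_combination ((X C).det * (Xi C).det) * h4 + h3
    have hsc : s * mat (rep C) = mat (rep C') * s := by
      have h6 : Xi C * mat (rep C) = u0 * Xi C := by
        calc Xi C * mat (rep C) = Xi C * (mat (rep C) * X C) * Xi C := by
              rw [mul_assoc, mul_assoc, hX1, mul_one]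
          _ = u0 * Xi C := by rw [← hXc C, ← mul_assoc (Xi C), hX2, one_mul]
      rw [hs, smul_mul_assoc, mul_smul_comm]
      congr 1
      calc X C' * Xi C * mat (rep C) = X C' * (Xi C * mat (rep C)) := by rw [mul_assoc]
        _ = (X C' * u0) * Xi C := by rw [h6, mul_assoc]
        _ = mat (rep C') * (X C' * Xi C) := by rw [hXc C', mul_assoc]
    let S : SUn := Cfsg.Agent.Helper16.mkSU s ((Cfsg.Agent.Helper16.hpres_iff hK Φ s).mpr hsu) hsdet
    have hconj : IsConj (rep C) (rep C') := by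
      refine isConj_iff.mpr ⟨S, ?_⟩
      rw [mul_inv_eq_iff_eq_mul]
      apply Subtype.ext
      apply Subtype.ext
      exact hsc
    apply Subtype.ext
    rw [← hrep C, ← hrep C']
    exact ConjClasses.mk_eq_mk_iff_isConj.mpr hconj
  have hsurj : Function.Surjective Ψ := by
    intro x
    obtain ⟨d, rfl⟩ := QuotientGroup.mk_surjective x
    obtain ⟨dk, hdk⟩ : ∃ dk : K, dk = ((d : Kˣ) : K) := ⟨_, rfl⟩
    have hdk0 : dk ≠ 0 := by rw [hdk]; exact (d : Kˣ).ne_zero
    have hdkN : dk * dk ^ q = 1 := by rw [hdk]; exact (hM _).mp d.2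
    let i0 : Fin n := ⟨0, hn'⟩
    let dv : Fin n → K := Function.update (fun _ => (1 : K)) i0 dk
    have hdv : ∀ i, dv i * dv i ^ q = 1 := by
      intro i
      by_cases hi : i = i0
      · subst hi
        simp only [dv, Function.update_self]
        exact hdkN
      · simp only [dv, Function.update_of_ne hi, one_pow, mul_one]
    obtain ⟨xm, hxm⟩ : ∃ xm : Matrix (Fin n) (Fin n) K, xm = Matrix.diagonal dv := ⟨_, rfl⟩
    have hxu : Cfsg.Agent.Helper16.ctr Φ xm * xm = 1 := by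
      rw [hxm]
      exact (Cfsg.Agent.Helper16.hpres_iff hK Φ _).mp (Cfsg.Agent.Helper3.diag_pres dv hdv)
    have hxu' : xm * Cfsg.Agent.Helper16.ctr Φ xm = 1 := mul_eq_one_comm.mp hxu
    have hxdet : xm.det = dk := by
      rw [hxm, Matrix.det_diagonal, Finset.prod_update_of_mem (Finset.mem_univ _)]
      simp
    obtain ⟨um, hum⟩ : ∃ um : Matrix (Fin n) (Fin n) K,
        um = xm * u0 * Cfsg.Agent.Helper16.ctr Φ xm := ⟨_, rfl⟩
    have humu : Cfsg.Agent.Helper16.ctr Φ um * um = 1 := by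
      rw [hum, Cfsg.Agent.Helper16.ctr_mul, Cfsg.Agent.Helper16.ctr_mul,
        Cfsg.Agent.Helper16.ctr_ctr]
      calc xm * (Cfsg.Agent.Helper16.ctr Φ u0 * Cfsg.Agent.Helper16.ctr Φ xm)
            * (xm * u0 * Cfsg.Agent.Helper16.ctr Φ xm)
          = xm * (Cfsg.Agent.Helper16.ctr Φ u0 * (Cfsg.Agent.Helper16.ctr Φ xm * xm) * u0)
            * Cfsg.Agent.Helper16.ctr Φ xm := by simp only [mul_assoc]
        _ = 1 := by rw [hxu, mul_one, hu0, mul_one, hxu']
    have humdet : um.det = 1 := by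
      rw [hum, Matrix.det_mul, Matrix.det_mul, hu0det, mul_one, ← Matrix.det_mul, hxu',
        Matrix.det_one]
    have hum1 : um - 1 = xm * (u0 - 1) * Cfsg.Agent.Helper16.ctr Φ xm := by
      rw [hum, mul_sub, sub_mul, mul_one, hxu']
    have hxdetu : IsUnit xm.det := by rw [hxdet]; exact isUnit_iff_ne_zero.mpr hdk0
    have hxidetu : IsUnit (Cfsg.Agent.Helper16.ctr Φ xm).det := by
      have := congrArg Matrix.det hxu
      rw [Matrix.det_mul, Matrix.det_one] at this
      exact IsUnit.of_mul_eq_one _ this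
    have hpow : ∀ k : ℕ, (xm * (u0 - 1) * Cfsg.Agent.Helper16.ctr Φ xm) ^ k
        = xm * (u0 - 1) ^ k * Cfsg.Agent.Helper16.ctr Φ xm := by
      intro k
      induction k with
      | zero => rw [pow_zero, pow_zero, mul_one, hxu']
      | succ k ih =>
        rw [pow_succ, ih, pow_succ]
        calc xm * (u0 - 1) ^ k * Cfsg.Agent.Helper16.ctr Φ xm
              * (xm * (u0 - 1) * Cfsg.Agent.Helper16.ctr Φ xm)
            = xm * (u0 - 1) ^ k * (Cfsg.Agent.Helper16.ctr Φ xm * xm) * (u0 - 1)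
              * Cfsg.Agent.Helper16.ctr Φ xm := by simp only [mul_assoc]
          _ = xm * ((u0 - 1) ^ k * (u0 - 1)) * Cfsg.Agent.Helper16.ctr Φ xm := by
            rw [hxu, mul_one, mul_assoc xm]
    let U : SUn := Cfsg.Agent.Helper16.mkSU um
      ((Cfsg.Agent.Helper16.hpres_iff hK Φ um).mpr humu) humdet
    have hmatU : mat U = um := rfl
    have hreg : Reg U := by
      constructor
      · show (mat U - 1) ^ n = 0
        rw [hmatU, hum1, hpow, hu0n, mul_zero, zero_mul]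
      · show (mat U - 1).rank = n - 1
        rw [hmatU, hum1, Matrix.rank_mul_eq_left_of_isUnit_det _ _ hxidetu,
          Matrix.rank_mul_eq_right_of_isUnit_det _ _ hxdetu, hu0r]
    let C : 𝒞 := ⟨ConjClasses.mk U, U, rfl, hreg⟩
    refine ⟨C, ?_⟩
    have hconj : IsConj (rep C) U := ConjClasses.mk_eq_mk_iff_isConj.mp (hrep C)
    obtain ⟨s, hs⟩ := isConj_iff.mp hconj
    have hs' : s * rep C = U * s := mul_inv_eq_iff_eq_mul.mp hs
    have hsm : mat s * mat (rep C) = um * mat s := by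
      rw [← hmat_mul, hs', hmat_mul, hmatU]
    obtain ⟨c, hc⟩ : ∃ c : Matrix (Fin n) (Fin n) K,
        c = Cfsg.Agent.Helper16.ctr Φ xm * mat s * X C := ⟨_, rfl⟩
    have hcu : c * u0 = u0 * c := by
      have h7 : Cfsg.Agent.Helper16.ctr Φ xm * um = u0 * Cfsg.Agent.Helper16.ctr Φ xm := by
        rw [hum, ← mul_assoc, ← mul_assoc, hxu, one_mul]
      rw [hc]
      calc Cfsg.Agent.Helper16.ctr Φ xm * mat s * X C * u0
          = Cfsg.Agent.Helper16.ctr Φ xm * mat s * (X C * u0) := by rw [mul_assoc]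
        _ = Cfsg.Agent.Helper16.ctr Φ xm * (mat s * mat (rep C)) * X C := by
          rw [hXc C]; simp only [mul_assoc]
        _ = (Cfsg.Agent.Helper16.ctr Φ xm * um) * mat s * X C := by
          rw [hsm]; simp only [mul_assoc]
        _ = u0 * (Cfsg.Agent.Helper16.ctr Φ xm * mat s * X C) := by
          rw [h7]; simp only [mul_assoc]
    have hcun : Cfsg.Agent.Helper16.ctr Φ c * c = 1 := by
      rw [hc, Cfsg.Agent.Helper16.ctr_mul, Cfsg.Agent.Helper16.ctr_mul,
        Cfsg.Agent.Helper16.ctr_ctr]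
      calc Cfsg.Agent.Helper16.ctr Φ (X C) * (Cfsg.Agent.Helper16.ctr Φ (mat s) * xm)
            * (Cfsg.Agent.Helper16.ctr Φ xm * mat s * X C)
          = Cfsg.Agent.Helper16.ctr Φ (X C) * (Cfsg.Agent.Helper16.ctr Φ (mat s)
            * (xm * Cfsg.Agent.Helper16.ctr Φ xm) * mat s) * X C := by simp only [mul_assoc]
        _ = 1 := by rw [hxu', mul_one, hmat_unit s, mul_one, hXu]
    have hcdet : c.det = dk⁻¹ * (X C).det := by
      have h8 : (Cfsg.Agent.Helper16.ctr Φ xm).det * dk = 1 := by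
        have := congrArg Matrix.det hxu
        rw [Matrix.det_mul, Matrix.det_one, hxdet] at this
        exact this
      have h9 : (mat s).det = 1 := s.1.2
      rw [hc, Matrix.det_mul, Matrix.det_mul, h9, mul_one]
      have : (Cfsg.Agent.Helper16.ctr Φ xm).det = dk⁻¹ := eq_inv_of_mul_eq_one_left h8
      rw [this]
    obtain ⟨a, haN, hadet⟩ := Cfsg.Agent.Helper16.cent_det_unitary Φ hn' u0 P0 c hP0 hP0J hcun hcu
    have ha0 : a ≠ 0 := by
      intro h0
      rw [h0, zero_mul] at haN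
      exact zero_ne_one haN
    have haM : (Units.mk0 a ha0)⁻¹ ∈ M := by
      apply Subgroup.inv_mem
      rw [hM]
      show a * a ^ q = 1
      rw [← Φ.hφ]
      exact haN
    show (QuotientGroup.mk (dM C) : M ⧸ D) = QuotientGroup.mk d
    rw [QuotientGroup.eq]
    refine ⟨⟨(Units.mk0 a ha0)⁻¹, haM⟩, ?_⟩
    apply Subtype.ext
    apply Units.ext
    show (((Units.mk0 a ha0)⁻¹ ^ n : Kˣ) : K) = (((dM C : Kˣ)⁻¹ * (d : Kˣ) : Kˣ) : K)
    have h10 : (X C).det = dk * a ^ n := by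
      rw [← hadet, hcdet, ← mul_assoc, mul_inv_cancel₀ hdk0, one_mul]
    simp only [Units.val_pow_eq_pow_val, Units.val_inv_eq_inv_val, Units.val_mk0, Units.val_mul,
      dM]
    rw [h10, ← hdk, inv_pow]
    field_simp
  have hcard : Nat.card 𝒞 = Nat.card (M ⧸ D) :=
    Nat.card_congr (Equiv.ofBijective Ψ ⟨hinj, hsurj⟩)
  have hidx : Nat.card (M ⧸ D) = (Nat.card M).gcd n :=
    IsCyclic.index_powMonoidHom_range (G := M) n
  have hMc : Nat.card M = q + 1 := by
    rw [← Cfsg.Agent.Helper3.card_norm_units hK]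
    exact Nat.card_congr (Equiv.subtypeEquivRight hM)
  rw [hcard, hidx, hMc, Nat.gcd_comm]

end Cfsg.Agent.S2643
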