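import Cfsg.Statements.S2644
import Cfsg.Agent.Helper16.UnitH

set_option autoImplicit false
open Cfsg

namespace Cfsg.Agent.S2644

open Cfsg.Agent.Helper16 Cfsg.Agent.Helper3 in

/-- In the special unitary group SU_n(q) with n ≥ 3 (isometries of Σ u_i v_i^q of determinant one over the field with q² elements), any two transvections (elements t with t − 1 of rank one and square zero) are conjugate. -/
theorem result {K : Type*} [Field K] [Fintype K] {q n : ℕ} (hK : Fintype.card K = q ^ 2) (hn : 3 ≤ n) (s t : ↥(Cfsg.SU n K q)) (hs : Cfsg.IsTransvection (((s : GL (Fin n) K) : Matrix (Fin n) (Fin n) K))) (ht : Cfsg.IsTransvection (((t : GL (Fin n) K) : Matrix (Fin n) (Fin n) K))) : IsConj s t := by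
  have hs' : Cfsg.IsTransvection (s.1.1 : Matrix (Fin n) (Fin n) K) := hs
  have ht' : Cfsg.IsTransvection (t.1.1 : Matrix (Fin n) (Fin n) K) := ht
  obtain ⟨g, hg, hgd, hgS⟩ := tv_conj_exists hK hn s.1.1 t.1.1 ((mem_SU_iff s.1).mp s.2)
    ((mem_SU_iff t.1).mp t.2) hs' ht'
  rw [isConj_iff]
  refine ⟨⟨⟨g, hgd⟩, (mem_SU_iff _).mpr hg⟩, ?_⟩
  have h : (⟨⟨g, hgd⟩, (mem_SU_iff _).mpr hg⟩ : ↥(Cfsg.SU n K q)) * s =
      t * ⟨⟨g, hgd⟩, (mem_SU_iff _).mpr hg⟩ := Subtype.ext (Subtype.ext hgS)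
  rw [h, mul_inv_cancel_right]

end Cfsg.Agent.S2644
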