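import Cfsg.Statements.S2665
import Mathlib

set_option autoImplicit false
open scoped MatrixGroups
open Cfsg

namespace Cfsg.Agent.S2665

open Polynomial in
/-- Artin–Schreier equations are solvable -/
theorem exists_as {K : Type*} [Field K] [IsAlgClosed K] (q : ℕ) (hq : 2 ≤ q) (b : K) :
    ∃ t : K, t ^ q = t - b := by
  have hdeg : (X ^ q - X + C b : K[X]).degree ≠ 0 := by
    intro h0
    have h1 := eq_C_of_degree_eq_zero h0
    have h2 : (X ^ q - X : K[X]) = C ((X ^ q - X + C b : K[X]).coeff 0 - b) := by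
      rw [C_sub, ← h1]
      ring
    have h3 := congrArg (fun p : K[X] => p.coeff q) h2
    simp only [coeff_sub, coeff_X_pow, if_true, coeff_X, coeff_C] at h3
    rw [if_neg (by omega), if_neg (by omega)] at h3
    simp at h3
  obtain ⟨t, ht⟩ := IsAlgClosed.exists_root _ hdeg
  refine ⟨t, ?_⟩
  simp only [IsRoot, eval_add, eval_sub, eval_pow, eval_X, eval_C] at ht
  linear_combination ht

open Polynomial in
theorem exists_chain {K : Type*} [Field K] [IsAlgClosed K] (q : ℕ) (hq : 2 ≤ q) (r : ℕ)
    (a : ℕ → K) (ha : a 0 ≠ 0) :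
    ∃ c : ℕ → K, c r ≠ 0 ∧ c 0 = a 0 * (c r) ^ q ∧
      ∀ i, c (i + 1) = (c i) ^ q + a (i + 1) * (c r) ^ q := by
  let S : ℕ → K[X] := fun i =>
    Nat.rec (C (a 0)) (fun j Sj => X ^ (q * q - q) * Sj ^ q + C (a (j + 1))) i
  have hS0 : S 0 = C (a 0) := rfl
  have hSs : ∀ j, S (j + 1) = X ^ (q * q - q) * (S j) ^ q + C (a (j + 1)) := fun j => rfl
  have hqq : 1 ≤ q * q - q := by
    have : q * 2 ≤ q * q := Nat.mul_le_mul_left q hq
    omega
  have hSne : ∀ j, S j ≠ 0 := by
    intro j
    induction j with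
    | zero =>
      rw [hS0]
      exact C_ne_zero.2 ha
    | succ j ih =>
      rw [hSs]
      intro h0
      have h1 : (X ^ (q * q - q) * (S j) ^ q : K[X]) = C (-a (j + 1)) := by
        rw [C_neg]
        linear_combination h0
      have h2 := congrArg natDegree h1
      rw [natDegree_X_pow_mul _ (pow_ne_zero q ih), natDegree_C] at h2
      omega
  have hRdeg : (X ^ (q - 1) * S r - 1 : K[X]).degree ≠ 0 := by
    intro h0
    have h1 := eq_C_of_degree_eq_zero h0
    have h2 : (X ^ (q - 1) * S r : K[X]) = C ((X ^ (q - 1) * S r - 1 : K[X]).coeff 0 + 1) := by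
      rw [C_add, ← h1, C_1]
      ring
    have h3 := congrArg natDegree h2
    rw [natDegree_X_pow_mul _ (hSne r), natDegree_C] at h3
    omega
  obtain ⟨t, ht⟩ := IsAlgClosed.exists_root _ hRdeg
  simp only [IsRoot, eval_sub, eval_mul, eval_pow, eval_X, eval_one] at ht
  have ht1 : t ^ (q - 1) * (S r).eval t = 1 := by linear_combination ht
  have ht0 : t ≠ 0 := by
    rintro rfl
    rw [zero_pow (by omega), zero_mul] at ht1
    exact zero_ne_one ht1
  have hcr : t ^ q * (S r).eval t = t := by
    have : t ^ q = t * t ^ (q - 1) := by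
      rw [← pow_succ']
      congr 1
      omega
    rw [this, mul_assoc, ht1, mul_one]
  refine ⟨fun i => t ^ q * (S i).eval t, ?_, ?_, ?_⟩
  · show t ^ q * (S r).eval t ≠ 0
    rw [hcr]
    exact ht0
  · show t ^ q * (S 0).eval t = a 0 * (t ^ q * (S r).eval t) ^ q
    rw [hcr, hS0, eval_C]
    ring
  · intro i
    show t ^ q * (S (i + 1)).eval t = (t ^ q * (S i).eval t) ^ q + a (i + 1) * (t ^ q * (S r).eval t) ^ q
    rw [hcr, hSs]
    simp only [eval_add, eval_mul, eval_pow, eval_X, eval_C]
    have h1 : (t ^ q) ^ q = t ^ q * t ^ (q * q - q) := by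
      rw [← pow_mul, ← pow_add]
      congr 1
      have : q ≤ q * q := Nat.le_mul_self q
      omega
    rw [mul_pow, h1]
    ring

section
variable {K : Type*} [Field K] [IsAlgClosed K] {V : Type*} [AddCommGroup V] [Module K V]

theorem sum_mem_span (u : ℕ → V) (k : ℕ) (a : ℕ → K) :
    ∑ i ∈ Finset.range k, a i • u i ∈ Submodule.span K (Set.range (fun i : Fin k => u i)) := by
  apply Submodule.sum_mem
  intro i hi
  exact Submodule.smul_mem _ _ (Submodule.subset_span ⟨⟨i, Finset.mem_range.1 hi⟩, rfl⟩)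

theorem exists_of_mem_span (u : ℕ → V) (k : ℕ) (x : V)
    (hx : x ∈ Submodule.span K (Set.range (fun i : Fin k => u i))) :
    ∃ a : ℕ → K, x = ∑ i ∈ Finset.range k, a i • u i := by
  obtain ⟨c, hc⟩ := (Submodule.mem_span_range_iff_exists_fun K).1 hx
  refine ⟨fun i => if h : i < k then c ⟨i, h⟩ else 0, ?_⟩
  rw [← hc, ← Fin.sum_univ_eq_sum_range (fun i => (if h : i < k then c ⟨i, h⟩ else 0) • u i) k]
  refine Finset.sum_congr rfl fun i _ => ?_
  rw [dif_pos i.2]

/-- an injective Frobenius-semilinear map has a non-zero fixed vector -/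
theorem exists_fixed [FiniteDimensional K V] [Nontrivial V] (q : ℕ) (hq : 2 ≤ q) (σ : K →+* K)
    (hσ : ∀ x, σ x = x ^ q) (L : V →ₛₗ[σ] V) (hL : Function.Injective L) :
    ∃ w : V, w ≠ 0 ∧ L w = w := by
  obtain ⟨v, hv⟩ := exists_ne (0 : V)
  let u : ℕ → V := fun i => (L^[i]) v
  have hu0 : u 0 = v := rfl
  have hus : ∀ i, u (i + 1) = L (u i) := fun i => Function.iterate_succ_apply' L i v
  let U : ℕ → Submodule K V := fun k => Submodule.span K (Set.range (fun i : Fin k => u i))
  have hex : ∃ r, u r ∈ U r := by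
    by_contra hcon
    have hcon' : ∀ r, u r ∉ U r := fun r hr => hcon ⟨r, hr⟩
    have hlt : ∀ r, r ≤ Module.finrank K (U r) := by
      intro r
      induction r with
      | zero => exact Nat.zero_le _
      | succ r ih =>
        have hle : U r ≤ U (r + 1) := by
          apply Submodule.span_le.2
          rintro _ ⟨i, rfl⟩
          exact Submodule.subset_span ⟨⟨i, by omega⟩, rfl⟩
        have hlt : U r < U (r + 1) := by
          refine lt_of_le_of_ne hle ?_
          intro heq
          apply hcon' r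
          rw [heq]
          exact Submodule.subset_span ⟨⟨r, Nat.lt_succ_self r⟩, rfl⟩
        have := Submodule.finrank_lt_finrank_of_lt hlt
        omega
    have h1 := hlt (Module.finrank K V + 1)
    have h2 := Submodule.finrank_le (U (Module.finrank K V + 1))
    omega
  classical
  have hmin : ∀ m, m < Nat.find hex → u m ∉ U m := fun m hm => Nat.find_min hex hm
  have hspec : u (Nat.find hex) ∈ U (Nat.find hex) := Nat.find_spec hex
  obtain ⟨r, hr⟩ : ∃ r, Nat.find hex = r + 1 := by
    apply Nat.exists_eq_succ_of_ne_zero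
    · intro h0
      rw [h0] at hspec
      have : U 0 = ⊥ := by
        apply Submodule.span_eq_bot.2
        rintro _ ⟨i, rfl⟩
        exact i.elim0
      rw [this, Submodule.mem_bot] at hspec
      exact hv hspec
  rw [hr] at hmin hspec
  obtain ⟨a, ha⟩ := exists_of_mem_span u (r + 1) _ hspec
  -- `a 0 ≠ 0`
  have ha0 : a 0 ≠ 0 := by
    intro h0
    have hroot : ∀ i, ∃ b : K, b ^ q = a (i + 1) := fun i =>
      IsAlgClosed.exists_pow_nat_eq _ (by omega)
    choose b hb using hroot
    have h1 : u (r + 1) = L (∑ i ∈ Finset.range r, b i • u i) := by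
      rw [ha, Finset.sum_range_succ', h0, zero_smul, add_zero, map_sum]
      refine Finset.sum_congr rfl fun i _ => ?_
      rw [map_smulₛₗ, hσ, hb, hus]
    rw [hus] at h1
    have h2 := hL h1
    apply hmin r (Nat.lt_succ_self r)
    rw [h2]
    exact sum_mem_span u r b
  obtain ⟨c, hcr, hc0, hcs⟩ := exists_chain q hq r a ha0
  refine ⟨∑ i ∈ Finset.range (r + 1), c i • u i, ?_, ?_⟩
  · intro h0
    rw [Finset.sum_range_succ] at h0
    apply hmin r (Nat.lt_succ_self r)
    have h1 : u r = ∑ i ∈ Finset.range r, (-(c r)⁻¹ * c i) • u i := by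
      have h2 : c r • u r = -∑ i ∈ Finset.range r, c i • u i := by
        rw [eq_neg_iff_add_eq_zero, add_comm]
        exact h0
      have h3 : u r = (c r)⁻¹ • (c r • u r) := by
        rw [smul_smul, inv_mul_cancel₀ hcr, one_smul]
      rw [h3, h2, smul_neg, Finset.smul_sum, ← Finset.sum_neg_distrib]
      refine Finset.sum_congr rfl fun i _ => ?_
      rw [smul_smul, neg_mul, neg_smul]
    rw [h1]
    exact sum_mem_span u r _
  · have hL1 : L (∑ i ∈ Finset.range (r + 1), c i • u i) =
        ∑ i ∈ Finset.range r, (c i) ^ q • u (i + 1) + (c r) ^ q • u (r + 1) := by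
      rw [map_sum, Finset.sum_range_succ]
      congr 1
      · refine Finset.sum_congr rfl fun i _ => ?_
        rw [map_smulₛₗ, hσ, hus]
      · rw [map_smulₛₗ, hσ, hus]
    have hw : ∑ i ∈ Finset.range (r + 1), c i • u i =
        ∑ i ∈ Finset.range r, ((c i) ^ q • u (i + 1) + (c r) ^ q • (a (i + 1) • u (i + 1))) +
          (c r) ^ q • (a 0 • u 0) := by
      rw [Finset.sum_range_succ']
      congr 1
      · refine Finset.sum_congr rfl fun i _ => ?_
        rw [hcs, add_smul, smul_smul, mul_comm]
      · rw [hc0, smul_smul, mul_comm]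
    rw [hL1, hw, ha, Finset.sum_range_succ' (fun i => a i • u i), Finset.sum_add_distrib,
      smul_add, Finset.smul_sum, add_assoc]

theorem exists_lang {V : Type*} [AddCommGroup V] [Module K V] (q : ℕ) (hq : 2 ≤ q) (σ : K →+* K)
    (hσ : ∀ x, σ x = x ^ q) (L : V →ₛₗ[σ] V) (u : V)
    (hu : u ∈ Submodule.span K {w : V | L w = w}) :
    ∀ c : K, ∃ z ∈ Submodule.span K {w : V | L w = w}, L z = z - c • u := by
  induction hu using Submodule.span_induction with
  | mem w hw =>
    intro c
    obtain ⟨t, ht⟩ := exists_as q hq c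
    have hw' : L w = w := hw
    refine ⟨t • w, Submodule.smul_mem _ _ (Submodule.subset_span hw), ?_⟩
    rw [map_smulₛₗ, hσ, ht, hw', sub_smul]
  | zero =>
    intro c
    exact ⟨0, Submodule.zero_mem _, by simp⟩
  | add x y hx hy ihx ihy =>
    intro c
    obtain ⟨z1, hz1, h1⟩ := ihx c
    obtain ⟨z2, hz2, h2⟩ := ihy c
    exact ⟨z1 + z2, Submodule.add_mem _ hz1 hz2, by rw [map_add, h1, h2, smul_add]; abel⟩
  | smul a x hx ihx =>
    intro c
    obtain ⟨z, hz, h⟩ := ihx (c * a)
    exact ⟨z, hz, by rw [h, mul_smul]⟩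

theorem exists_preimage {V : Type*} [AddCommGroup V] [Module K V] (q : ℕ) (hq : 2 ≤ q)
    (σ : K →+* K) (hσ : ∀ x, σ x = x ^ q) (L : V →ₛₗ[σ] V) (u : V)
    (hu : u ∈ Submodule.span K {w : V | L w = w}) :
    ∃ z ∈ Submodule.span K {w : V | L w = w}, L z = u := by
  induction hu using Submodule.span_induction with
  | mem w hw => exact ⟨w, Submodule.subset_span hw, hw⟩
  | zero => exact ⟨0, Submodule.zero_mem _, map_zero _⟩
  | add x y hx hy ihx ihy =>
    obtain ⟨z1, hz1, h1⟩ := ihx
    obtain ⟨z2, hz2, h2⟩ := ihy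
    exact ⟨z1 + z2, Submodule.add_mem _ hz1 hz2, by rw [map_add, h1, h2]⟩
  | smul a x hx ihx =>
    obtain ⟨z, hz, h⟩ := ihx
    obtain ⟨b, hb⟩ := IsAlgClosed.exists_pow_nat_eq a (by omega : 0 < q)
    exact ⟨b • z, Submodule.smul_mem _ _ hz, by rw [map_smulₛₗ, hσ, hb, h]⟩

theorem map_mem_span {V : Type*} [AddCommGroup V] [Module K V]
    (σ : K →+* K) (L : V →ₛₗ[σ] V) (u : V)
    (hu : u ∈ Submodule.span K {w : V | L w = w}) :
    L u ∈ Submodule.span K {w : V | L w = w} := by
  induction hu using Submodule.span_induction with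
  | mem w hw =>
    have hw' : L w = w := hw
    rw [hw']
    exact Submodule.subset_span hw
  | zero =>
    rw [map_zero]
    exact Submodule.zero_mem _
  | add x y hx hy ihx ihy =>
    rw [map_add]
    exact Submodule.add_mem _ ihx ihy
  | smul a x hx ihx =>
    rw [map_smulₛₗ]
    exact Submodule.smul_mem _ _ ihx

/-- the fixed vectors of an injective Frobenius-semilinear map span the space -/
theorem span_fixed [FiniteDimensional K V] (q : ℕ) (hq : 2 ≤ q) (σ : K →+* K)
    (hσ : ∀ x, σ x = x ^ q) (L : V →ₛₗ[σ] V) (hL : Function.Injective L) :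
    Submodule.span K {w : V | L w = w} = ⊤ := by
  by_contra hne
  have hpre : ∀ v, L v ∈ Submodule.span K {w : V | L w = w} →
      v ∈ Submodule.span K {w : V | L w = w} := by
    intro v hv
    obtain ⟨z, hz, h⟩ := exists_preimage q hq σ hσ L _ hv
    rw [← hL h]
    exact hz
  have hUL : Submodule.span K {w : V | L w = w} ≤
      (Submodule.span K {w : V | L w = w}).comap L := fun u hu => map_mem_span σ L u hu
  let Lq : (V ⧸ Submodule.span K {w : V | L w = w}) →ₛₗ[σ]
      (V ⧸ Submodule.span K {w : V | L w = w}) := Submodule.mapQ _ _ L hUL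
  have hLq : Function.Injective Lq := by
    apply (injective_iff_map_eq_zero Lq).2
    intro x hx
    obtain ⟨v, rfl⟩ := Submodule.Quotient.mk_surjective _ x
    rw [Submodule.mapQ_apply, Submodule.Quotient.mk_eq_zero] at hx
    exact (Submodule.Quotient.mk_eq_zero _).2 (hpre v hx)
  haveI : Nontrivial (V ⧸ Submodule.span K {w : V | L w = w}) :=
    Submodule.Quotient.nontrivial_iff.2 hne
  obtain ⟨w, hw0, hw⟩ := exists_fixed q hq σ hσ Lq hLq
  obtain ⟨v, rfl⟩ := Submodule.Quotient.mk_surjective _ w
  rw [Submodule.mapQ_apply, Submodule.Quotient.eq] at hw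
  obtain ⟨z, hz, h⟩ := exists_lang q hq σ hσ L _ hw 1
  have hfix : L (v + z) = v + z := by
    rw [map_add, h, one_smul]
    abel
  apply hw0
  rw [Submodule.Quotient.mk_eq_zero]
  have h1 : v + z ∈ Submodule.span K {w : V | L w = w} := Submodule.subset_span hfix
  have h2 := Submodule.sub_mem _ h1 hz
  simpa using h2

end

/-- The Lang–Steinberg Theorem for the general linear group. Let `K` be an algebraically closed field of prime characteristic `p`, let `q = p^f` with `f ≥ 1`, and let `σ` be the endomorphism of GL_n(K) raising every matrix entry to the `q`-th power. Then every element `g` of GL_n(K) can be written `g = x · σ(x)⁻¹` for some `x` in GL_n(K): the map `x ↦ x σ(x)⁻¹` is surjective. -/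
theorem result {K : Type*} [Field K] [IsAlgClosed K] (p : ℕ) [Fact p.Prime] [CharP K p]
    (f : ℕ) (hf : 1 ≤ f) (n : ℕ) (g : GL (Fin n) K) :
    ∃ x : GL (Fin n) K, g = x * (Matrix.GeneralLinearGroup.map (iterateFrobenius K p f) x)⁻¹ := by
  classical
  have hq : 2 ≤ p ^ f := by
    have hp : 2 ≤ p := (Fact.out : p.Prime).two_le
    calc 2 ≤ p := hp
      _ = p ^ 1 := (pow_one p).symm
      _ ≤ p ^ f := Nat.pow_le_pow_right (by omega) hf
  have hσ : ∀ x : K, iterateFrobenius K p f x = x ^ (p ^ f) := fun x => rfl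
  let L : (Fin n → K) →ₛₗ[iterateFrobenius K p f] (Fin n → K) :=
    { toFun := fun v => (g : Matrix (Fin n) (Fin n) K).mulVec (fun i => iterateFrobenius K p f (v i))
      map_add' := by
        intro v w
        rw [← Matrix.mulVec_add]
        congr 1
        funext i
        simp
      map_smul' := by
        intro c v
        rw [← Matrix.mulVec_smul]
        congr 1
        funext i
        simp }
  have hLapp : ∀ v, L v = (g : Matrix (Fin n) (Fin n) K).mulVec
      (fun i => iterateFrobenius K p f (v i)) := fun v => rfl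
  have hLinj : Function.Injective L := by
    intro v w hvw
    rw [hLapp, hLapp] at hvw
    have h1 := congrArg ((g⁻¹ : GL (Fin n) K) : Matrix (Fin n) (Fin n) K).mulVec hvw
    rw [Matrix.mulVec_mulVec, Matrix.mulVec_mulVec, ← Units.val_mul, inv_mul_cancel, Units.val_one,
      Matrix.one_mulVec, Matrix.one_mulVec] at h1
    funext i
    exact (iterateFrobenius K p f).injective (congrFun h1 i)
  have hspan := span_fixed (p ^ f) hq (iterateFrobenius K p f) hσ L hLinj
  let b := Module.Basis.ofSpan (le_of_eq hspan.symm)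
  have hb : ∀ j, L (b j) = b j := fun j => Module.Basis.ofSpan_subset (le_of_eq hspan.symm) ⟨j, rfl⟩
  have hcard : Fintype.card _ = Fintype.card (Fin n) :=
    (Module.finrank_eq_card_basis b).symm.trans (Module.finrank_eq_card_basis (Pi.basisFun K (Fin n)))
  let e := Fintype.equivOfCardEq hcard
  let b' := b.reindex e
  have hb' : ∀ j, L (b' j) = b' j := by
    intro j
    rw [Module.Basis.reindex_apply]
    exact hb _
  let X : Matrix (Fin n) (Fin n) K := (Pi.basisFun K (Fin n)).toMatrix b'
  have hX : ∀ i j, X i j = b' j i := fun i j => rfl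
  haveI : Invertible X := Module.Basis.invertibleToMatrix (Pi.basisFun K (Fin n)) b'
  let x : GL (Fin n) K := unitOfInvertible X
  refine ⟨x, ?_⟩
  apply eq_mul_inv_of_mul_eq
  apply Units.ext
  ext i j
  have h1 : (x : Matrix (Fin n) (Fin n) K) = X := rfl
  rw [Units.val_mul, h1, hX, ← hb' j, hLapp, Matrix.mul_apply]
  rfl

end Cfsg.Agent.S2665
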