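import Cfsg.Statements.S2666

set_option autoImplicit false
open Cfsg

namespace Cfsg.Agent.S2666

theorem mem_fix {X : Type*} [Group X] (τ : MulAut X) (g : X) :
    g ∈ (MulEquiv.toMonoidHom τ).eqLocus (MonoidHom.id X) ↔ τ g = g := by
  simp [MonoidHom.eqLocus]

theorem pow_succ_apply {X : Type*} [Group X] (σ : MulAut X) (n : ℕ) (a : X) :
    (σ ^ (n + 1)) a = σ ((σ ^ n) a) := by
  rw [pow_succ', MulAut.mul_apply]

theorem pow_succ_apply' {X : Type*} [Group X] (σ : MulAut X) (n : ℕ) (a : X) :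
    (σ ^ (n + 1)) a = (σ ^ n) (σ a) := by
  rw [pow_succ, MulAut.mul_apply]

theorem pow_fix {X : Type*} [Group X] (σ : MulAut X) (x : X) (hx : σ x = x) (n : ℕ) :
    (σ ^ n) x = x := by
  induction n with
  | zero => simp
  | succ n ih => rw [pow_succ_apply, ih, hx]

theorem telescope {X : Type*} [Group X] (σ : MulAut X) (a : X) (d : ℕ) :
    ((List.range d).map (fun i => (σ ^ i) (a * (σ a)⁻¹))).prod = a * ((σ ^ d) a)⁻¹ := by
  induction d with
  | zero => simp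
  | succ n ih =>
    rw [List.range_succ, List.map_append, List.prod_append, ih]
    simp only [List.map_cons, List.map_nil, List.prod_cons, List.prod_nil, mul_one, map_mul, map_inv]
    rw [← pow_succ_apply' σ n a]
    group

theorem fix_x {X : Type*} [Group X] (σ : MulAut X) (e : ℕ) (a : X)
    (hg : (σ ^ e) (a * (σ a)⁻¹) = a * (σ a)⁻¹) :
    σ (((σ ^ e) a)⁻¹ * a) = ((σ ^ e) a)⁻¹ * a := by
  rw [map_mul, map_inv] at hg
  rw [map_mul, map_inv, ← pow_succ_apply, pow_succ_apply']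
  have h2 : ((σ ^ e) (σ a))⁻¹ = ((σ ^ e) a)⁻¹ * a * (σ a)⁻¹ := by
    rw [mul_assoc, ← hg]; group
  rw [h2]; group

theorem result {X : Type*} [Group X] (σ : MulAut X) (e : ℕ) (he : 1 ≤ e)
    (hL : ∀ g : X, ∃ a : X, g = a * (σ a)⁻¹) (hLe : ∀ g : X, ∃ a : X, g = a * ((σ ^ e) a)⁻¹) :
    (∀ g ∈ (MulEquiv.toMonoidHom (σ ^ e)).eqLocus (MonoidHom.id X), ∀ a : X, g = a * (σ a)⁻¹ →
        ((σ ^ e) a)⁻¹ * a ∈ (MulEquiv.toMonoidHom σ).eqLocus (MonoidHom.id X) ∧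
          a⁻¹ * ((List.range e).map (fun i => (σ ^ i) g)).prod * a = ((σ ^ e) a)⁻¹ * a) ∧
    (∀ g ∈ (MulEquiv.toMonoidHom (σ ^ e)).eqLocus (MonoidHom.id X), ∀ g' ∈ (MulEquiv.toMonoidHom (σ ^ e)).eqLocus (MonoidHom.id X), ∀ a b : X,
        g = a * (σ a)⁻¹ → g' = b * (σ b)⁻¹ →
          ((∃ k ∈ (MulEquiv.toMonoidHom (σ ^ e)).eqLocus (MonoidHom.id X), g' = k * g * (σ k)⁻¹) ↔
            (∃ h ∈ (MulEquiv.toMonoidHom σ).eqLocus (MonoidHom.id X), ((σ ^ e) b)⁻¹ * b = h * (((σ ^ e) a)⁻¹ * a) * h⁻¹))) ∧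
    (∀ x ∈ (MulEquiv.toMonoidHom σ).eqLocus (MonoidHom.id X), ∃ g ∈ (MulEquiv.toMonoidHom (σ ^ e)).eqLocus (MonoidHom.id X), ∃ a : X,
        g = a * (σ a)⁻¹ ∧ ((σ ^ e) a)⁻¹ * a = x) := by
  simp only [mem_fix]
  refine ⟨?_, ?_, ?_⟩
  · intro g hg a ha
    subst ha
    refine ⟨fix_x σ e a hg, ?_⟩
    rw [telescope]; group
  · intro g hg g' hg' a b ha hb
    subst ha; subst hb
    have hxa := fix_x σ e a hg
    have hxb := fix_x σ e b hg'
    constructor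
    · rintro ⟨k, hk, hkg⟩
      -- h' = (k a)⁻¹ b is σ-fixed
      have h1 : σ ((k * a)⁻¹ * b) = (k * a)⁻¹ * b := by
        have : σ b = (σ k * σ a) * ((k * a)⁻¹ * b) := by
          have h2 : b * (σ b)⁻¹ = (k * a) * (σ k * σ a)⁻¹ := by rw [hkg]; group
          have h3 : (σ b)⁻¹ = b⁻¹ * ((k * a) * (σ k * σ a)⁻¹) := by rw [← h2]; group
          have h4 : σ b = (b⁻¹ * ((k * a) * (σ k * σ a)⁻¹))⁻¹ := by rw [← h3]; group
          rw [h4]; group
        rw [map_mul, map_inv, map_mul, this]; group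
      refine ⟨((k * a)⁻¹ * b)⁻¹, by rw [map_inv, h1], ?_⟩
      have h5 := pow_fix σ _ h1 e
      have hb' : b = k * a * ((k * a)⁻¹ * b) := by group
      have h6 : (σ ^ e) b = k * (σ ^ e) a * ((k * a)⁻¹ * b) := by
        conv_lhs => rw [hb']
        rw [map_mul, map_mul, h5, hk]
      rw [h6]; group
    · rintro ⟨h, hh, hc⟩
      have hhe := pow_fix σ _ hh e
      refine ⟨b * h * a⁻¹, ?_, ?_⟩
      · rw [map_mul, map_mul, map_inv, hhe]
        have h7 : (σ ^ e) b = b * (h * (((σ ^ e) a)⁻¹ * a) * h⁻¹)⁻¹ := by rw [← hc]; group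
        rw [h7]; group
      · rw [map_mul, map_mul, map_inv, hh]; group
  · intro x hx
    obtain ⟨a', ha'⟩ := hLe x⁻¹
    have hx' : x = (σ ^ e) a' * a'⁻¹ := by
      have : x = (x⁻¹)⁻¹ := by group
      rw [this, ha']; group
    obtain ⟨b, hb⟩ : ∃ b : X, ((σ ^ e) b)⁻¹ * b = x := ⟨a'⁻¹, by rw [map_inv, hx']; group⟩
    refine ⟨b * (σ b)⁻¹, ?_, b, rfl, hb⟩
    have h8 : (σ ^ e) b = b * x⁻¹ := by rw [← hb]; group
    have h9 : (σ ^ e) (σ b) = σ b * x⁻¹ := by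
      rw [← pow_succ_apply', pow_succ_apply, h8, map_mul, map_inv, hx]
    rw [map_mul, map_inv, h9, h8]
    group

end Cfsg.Agent.S2666
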