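import Cfsg.Statements.S2667

set_option autoImplicit false
open Cfsg

namespace Cfsg.Agent.S2667

theorem mem_fix {X : Type*} [Group X] (τ : MulAut X) (g : X) :
    g ∈ (MulEquiv.toMonoidHom τ).eqLocus (MonoidHom.id X) ↔ τ g = g := by
  simp [MonoidHom.eqLocus]

theorem pow_succ_apply {X : Type*} [Group X] (σ : MulAut X) (n : ℕ) (a : X) :
    (σ ^ (n + 1)) a = σ ((σ ^ n) a) := by
  rw [pow_succ', MulAut.mul_apply]

theorem pow_fix {X : Type*} [Group X] (σ : MulAut X) (x : X) (hx : σ x = x) (n : ℕ) :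
    (σ ^ n) x = x := by
  induction n with
  | zero => simp
  | succ n ih => rw [pow_succ_apply, ih, hx]

theorem result {X : Type*} [Group X] (σ : MulAut X) (e : ℕ) (he : 1 ≤ e)
    (g : X) (hg : g ∈ (MulEquiv.toMonoidHom (σ ^ e)).eqLocus (MonoidHom.id X)) (a : X) (ha : g = a * (σ a)⁻¹) (k : X) :
    (k ∈ (MulEquiv.toMonoidHom (σ ^ e)).eqLocus (MonoidHom.id X) ∧ k * g * (σ k)⁻¹ = g) ↔
      (a⁻¹ * k * a ∈ (MulEquiv.toMonoidHom σ).eqLocus (MonoidHom.id X) ∧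
        (a⁻¹ * k * a) * (((σ ^ e) a)⁻¹ * a) = (((σ ^ e) a)⁻¹ * a) * (a⁻¹ * k * a)) := by
  rw [mem_fix] at hg
  rw [mem_fix, mem_fix]
  subst ha
  constructor
  · rintro ⟨hk, hkg⟩
    have h1 : σ k = (a * (σ a)⁻¹)⁻¹ * (k * (a * (σ a)⁻¹)) :=
      eq_inv_mul_iff_mul_eq.mpr (mul_inv_eq_iff_eq_mul.mp hkg).symm
    have h2 : σ (a⁻¹ * k * a) = a⁻¹ * k * a := by
      rw [map_mul, map_mul, map_inv, h1]; group
    refine ⟨h2, ?_⟩
    have h3 := pow_fix σ _ h2 e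
    rw [map_mul, map_mul, map_inv, hk] at h3
    calc a⁻¹ * k * a * (((σ ^ e) a)⁻¹ * a)
        = (((σ ^ e) a)⁻¹ * k * (σ ^ e) a) * (((σ ^ e) a)⁻¹ * a) := by rw [h3]
      _ = ((σ ^ e) a)⁻¹ * a * (a⁻¹ * k * a) := by group
  · rintro ⟨hh, hc⟩
    have hk : k = a * (a⁻¹ * k * a) * a⁻¹ := by group
    have hhe := pow_fix σ _ hh e
    constructor
    · have : (σ ^ e) k = (σ ^ e) a * (a⁻¹ * k * a) * ((σ ^ e) a)⁻¹ := by
        conv_lhs => rw [hk]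
        rw [map_mul, map_mul, map_inv, hhe]
      rw [this]
      calc (σ ^ e) a * (a⁻¹ * k * a) * ((σ ^ e) a)⁻¹
          = (σ ^ e) a * ((a⁻¹ * k * a) * (((σ ^ e) a)⁻¹ * a)) * a⁻¹ := by group
        _ = (σ ^ e) a * ((((σ ^ e) a)⁻¹ * a) * (a⁻¹ * k * a)) * a⁻¹ := by rw [hc]
        _ = k := by group
    · have : σ k = σ a * (a⁻¹ * k * a) * (σ a)⁻¹ := by
        conv_lhs => rw [hk]
        rw [map_mul, map_mul, map_inv, hh]
      rw [this]; group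

end Cfsg.Agent.S2667
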