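import Cfsg.Statements.S2668

set_option autoImplicit false
open Cfsg

namespace Cfsg.Agent.S2668

theorem mem_fix {X : Type*} [Group X] (τ : MulAut X) (g : X) :
    g ∈ (MulEquiv.toMonoidHom τ).eqLocus (MonoidHom.id X) ↔ τ g = g := by
  simp [MonoidHom.eqLocus]

theorem pow_succ_apply {X : Type*} [Group X] (σ : MulAut X) (n : ℕ) (a : X) :
    (σ ^ (n + 1)) a = σ ((σ ^ n) a) := by
  rw [pow_succ', MulAut.mul_apply]

theorem pow_succ_apply' {X : Type*} [Group X] (σ : MulAut X) (n : ℕ) (a : X) :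
    (σ ^ (n + 1)) a = (σ ^ n) (σ a) := by
  rw [pow_succ, MulAut.mul_apply]

theorem telescope {X : Type*} [Group X] (σ : MulAut X) (a : X) (d : ℕ) :
    ((List.range d).map (fun i => (σ ^ i) (a * (σ a)⁻¹))).prod = a * ((σ ^ d) a)⁻¹ := by
  induction d with
  | zero => simp
  | succ n ih =>
    rw [List.range_succ, List.map_append, List.prod_append, ih]
    simp only [List.map_cons, List.map_nil, List.prod_cons, List.prod_nil, mul_one, map_mul, map_inv]
    rw [← pow_succ_apply' σ n a]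
    group

theorem fix_x {X : Type*} [Group X] (σ : MulAut X) (e : ℕ) (a : X)
    (hg : (σ ^ e) (a * (σ a)⁻¹) = a * (σ a)⁻¹) :
    σ (((σ ^ e) a)⁻¹ * a) = ((σ ^ e) a)⁻¹ * a := by
  rw [map_mul, map_inv] at hg
  rw [map_mul, map_inv, ← pow_succ_apply, pow_succ_apply']
  have h2 : ((σ ^ e) (σ a))⁻¹ = ((σ ^ e) a)⁻¹ * a * (σ a)⁻¹ := by
    rw [mul_assoc, ← hg]; group
  rw [h2]; group

theorem pow_mul_apply {X : Type*} [Group X] (σ : MulAut X) (e : ℕ) (a x : X)
    (hx : σ x = x) (hax : (σ ^ e) a = a * x⁻¹) (d : ℕ) :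
    ((σ ^ e) ^ d) a = a * (x ^ d)⁻¹ := by
  have hxe : ∀ n : ℕ, (σ ^ n) x = x := by
    intro n
    induction n with
    | zero => simp
    | succ n ih => rw [pow_succ_apply, ih, hx]
  induction d with
  | zero => simp
  | succ n ih =>
    rw [pow_succ_apply, ih, map_mul, map_inv, map_pow, hxe, hax, pow_succ]
    group

theorem result {X : Type*} [Group X] (σ : MulAut X) (e d : ℕ) (he : 1 ≤ e) (hd : 1 ≤ d)
    (g : X) (hg : g ∈ (MulEquiv.toMonoidHom (σ ^ e)).eqLocus (MonoidHom.id X)) (a : X) (ha : g = a * (σ a)⁻¹) :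
    ((List.range d).map (fun i => (σ ^ i) g)).prod = a * ((σ ^ d) a)⁻¹ ∧
      ((List.range d).map (fun i => (σ ^ i) g)).prod ∈ (MulEquiv.toMonoidHom ((σ ^ d) ^ e)).eqLocus (MonoidHom.id X) ∧
      (((σ ^ d) ^ e) a)⁻¹ * a = (((σ ^ e) a)⁻¹ * a) ^ d := by
  rw [mem_fix] at hg
  subst ha
  have hx := fix_x σ e a hg
  refine ⟨telescope σ a d, ?_, ?_⟩
  · rw [mem_fix, map_list_prod, List.map_map]
    congr 1
    apply List.map_congr_left
    intro i _
    simp only [Function.comp_apply]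
    rw [← pow_mul, ← MulAut.mul_apply, ← pow_add, add_comm, mul_comm, pow_add, MulAut.mul_apply, pow_mul]
    have : ∀ n : ℕ, ((σ ^ e) ^ n) (a * (σ a)⁻¹) = a * (σ a)⁻¹ := by
      intro n
      induction n with
      | zero => simp
      | succ n ih => rw [pow_succ_apply, ih, hg]
    rw [this]
  · have hax : (σ ^ e) a = a * (((σ ^ e) a)⁻¹ * a)⁻¹ := by group
    have := pow_mul_apply σ e a _ hx hax d
    rw [← pow_mul, mul_comm, pow_mul, this]
    group

end Cfsg.Agent.S2668
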