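import Cfsg.Statements.S2669

set_option autoImplicit false
open Cfsg

namespace Cfsg.Agent.S2669

theorem mem_fix {X : Type*} [Group X] (τ : MulAut X) (g : X) :
    g ∈ (MulEquiv.toMonoidHom τ).eqLocus (MonoidHom.id X) ↔ τ g = g := by
  simp [MonoidHom.eqLocus]

theorem pow_succ_apply {X : Type*} [Group X] (σ : MulAut X) (n : ℕ) (a : X) :
    (σ ^ (n + 1)) a = σ ((σ ^ n) a) := by
  rw [pow_succ', MulAut.mul_apply]

theorem pow_succ_apply' {X : Type*} [Group X] (σ : MulAut X) (n : ℕ) (a : X) :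
    (σ ^ (n + 1)) a = (σ ^ n) (σ a) := by
  rw [pow_succ, MulAut.mul_apply]

theorem pow_fix {X : Type*} [Group X] (σ : MulAut X) (x : X) (hx : σ x = x) (n : ℕ) :
    (σ ^ n) x = x := by
  induction n with
  | zero => simp
  | succ n ih => rw [pow_succ_apply, ih, hx]

theorem fix_x {X : Type*} [Group X] (σ : MulAut X) (e : ℕ) (a : X)
    (hg : (σ ^ e) (a * (σ a)⁻¹) = a * (σ a)⁻¹) :
    σ (((σ ^ e) a)⁻¹ * a) = ((σ ^ e) a)⁻¹ * a := by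
  rw [map_mul, map_inv] at hg
  rw [map_mul, map_inv, ← pow_succ_apply, pow_succ_apply']
  have h2 : ((σ ^ e) (σ a))⁻¹ = ((σ ^ e) a)⁻¹ * a * (σ a)⁻¹ := by
    rw [mul_assoc, ← hg]; group
  rw [h2]; group

theorem pow_mem {X : Type*} [Group X] (σ : MulAut X) (Y : Subgroup X)
    (hY : ∀ y : X, y ∈ Y ↔ σ y ∈ Y) (n : ℕ) {y : X} (hy : y ∈ Y) : (σ ^ n) y ∈ Y := by
  induction n with
  | zero => simpa using hy
  | succ n ih => rw [pow_succ_apply]; exact (hY _).mp ih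

section main

variable {X : Type*} [Group X] (σ : MulAut X) (e : ℕ) (Y : Subgroup X) (a : X)

/-- Flat versions of the sets involved. -/
abbrev TA : Type _ := {k : X // (σ ^ e) k = k ∧ k⁻¹ * (a * (σ a)⁻¹) * σ k ∈ Y}
abbrev T1 : Type _ := {t : X // t ∈ Y ∧ σ t = t}
abbrev TP : Type _ := {q : X × X // q.1 ∈ Y ∧ σ q.2 = q.2 ∧
  (σ ^ e) (a * q.2⁻¹ * q.1⁻¹) = a * q.2⁻¹ * q.1⁻¹}
abbrev TB : Type _ := {h : X // σ h = h ∧ h⁻¹ * (((σ ^ e) a)⁻¹ * a) * h ∈ Y}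
abbrev Te : Type _ := {s : X // s ∈ Y ∧ (σ ^ e) s = s}

variable {σ e Y a}

theorem key1 {k y h : X} (hh : σ h = h) (hk : k = a * h⁻¹ * y⁻¹) :
    k⁻¹ * (a * (σ a)⁻¹) * σ k = y * (σ y)⁻¹ := by
  subst hk
  rw [map_mul, map_mul, map_inv, map_inv, hh]; group

noncomputable def E1 (hY : ∀ y : X, y ∈ Y ↔ σ y ∈ Y)
    (hYL : ∀ y ∈ Y, ∃ a ∈ Y, y = a * (σ a)⁻¹) :
    TA σ e Y a × T1 σ Y ≃ TP σ e Y a := by
  classical
  let ysec : TA σ e Y a → X := fun k => Classical.choose (hYL _ k.2.2)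
  have ysec_mem : ∀ k, ysec k ∈ Y := fun k => (Classical.choose_spec (hYL _ k.2.2)).1
  have ysec_spec : ∀ k : TA σ e Y a,
      (k : X)⁻¹ * (a * (σ a)⁻¹) * σ (k : X) = ysec k * (σ (ysec k))⁻¹ :=
    fun k => (Classical.choose_spec (hYL _ k.2.2)).2
  let kOf : TP σ e Y a → TA σ e Y a := fun q => ⟨a * q.1.2⁻¹ * q.1.1⁻¹, q.2.2.2, by
    rw [key1 q.2.2.1 rfl]
    exact Y.mul_mem q.2.1 (Y.inv_mem ((hY _).mp q.2.1))⟩
  have kOf_val : ∀ q : TP σ e Y a, (kOf q : X) = a * q.1.2⁻¹ * q.1.1⁻¹ := fun q => rfl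
  have kOf_spec : ∀ q : TP σ e Y a,
      ysec (kOf q) * (σ (ysec (kOf q)))⁻¹ = q.1.1 * (σ q.1.1)⁻¹ := fun q =>
    (ysec_spec (kOf q)).symm.trans (key1 q.2.2.1 rfl)
  refine
    { toFun := fun kt => ⟨(ysec kt.1 * kt.2, (ysec kt.1 * kt.2)⁻¹ * (kt.1 : X)⁻¹ * a), ?_, ?_, ?_⟩
      invFun := fun q => (kOf q, ⟨(ysec (kOf q))⁻¹ * q.1.1, ?_, ?_⟩)
      left_inv := ?_
      right_inv := ?_ }
  · exact Y.mul_mem (ysec_mem _) kt.2.2.1
  · obtain ⟨k, t⟩ := kt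
    have hs := ysec_spec k
    have h1 : (σ (ysec k))⁻¹ = (ysec k)⁻¹ * ((k : X)⁻¹ * (a * (σ a)⁻¹) * σ (k : X)) := by
      rw [hs]; group
    simp only [map_mul, map_inv, mul_inv_rev]
    rw [t.2.2, h1]; group
  · obtain ⟨k, t⟩ := kt
    have : a * ((ysec k * (t : X))⁻¹ * (k : X)⁻¹ * a)⁻¹ * (ysec k * (t : X))⁻¹ = (k : X) := by group
    simp only
    rw [this]; exact k.2.1
  · exact Y.mul_mem (Y.inv_mem (ysec_mem _)) q.2.1
  · have hs := kOf_spec q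
    rw [map_mul, map_inv]
    have h2 : (σ (ysec (kOf q)))⁻¹ = (ysec (kOf q))⁻¹ * (q.1.1 * (σ q.1.1)⁻¹) := by
      rw [← hs]; group
    rw [h2]; group
  · rintro ⟨k, t⟩
    have hk' : kOf ⟨(ysec k * (t : X), (ysec k * (t : X))⁻¹ * (k : X)⁻¹ * a), by
        exact Y.mul_mem (ysec_mem _) t.2.1, by
        have hs := ysec_spec k
        have h1 : (σ (ysec k))⁻¹ = (ysec k)⁻¹ * ((k : X)⁻¹ * (a * (σ a)⁻¹) * σ (k : X)) := by
          rw [hs]; group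
        simp only [map_mul, map_inv, mul_inv_rev]
        rw [t.2.2, h1]; group, by
        have : a * ((ysec k * (t : X))⁻¹ * (k : X)⁻¹ * a)⁻¹ * (ysec k * (t : X))⁻¹ = (k : X) := by group
        simp only
        rw [this]; exact k.2.1⟩ = k := by
      apply Subtype.ext
      rw [kOf_val]
      simp only
      group
    apply Prod.ext
    · exact hk'
    · apply Subtype.ext
      simp only
      rw [hk']
      group
  · rintro ⟨⟨y, h⟩, hy, hh, hk⟩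
    apply Subtype.ext
    simp only
    apply Prod.ext
    · simp only; group
    · simp only [kOf_val]; group

theorem lang_e (hYLe : ∀ y ∈ Y, ∃ a ∈ Y, y = a * ((σ ^ e) a)⁻¹) {c : X} (hc : c ∈ Y) :
    ∃ z ∈ Y, ((σ ^ e) z)⁻¹ * z = c := by
  obtain ⟨b, hb, hb'⟩ := hYLe c⁻¹ (Y.inv_mem hc)
  refine ⟨b⁻¹, Y.inv_mem hb, ?_⟩
  have : c = (c⁻¹)⁻¹ := by group
  rw [this, hb', map_inv]; group

theorem key2 (hg : (σ ^ e) (a * (σ a)⁻¹) = a * (σ a)⁻¹) {y h : X} (hh : σ h = h) :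
    (σ ^ e) (a * h⁻¹ * y⁻¹) = a * h⁻¹ * y⁻¹ ↔
      ((σ ^ e) y)⁻¹ * y = h * (((σ ^ e) a)⁻¹ * a) * h⁻¹ := by
  have hhe := pow_fix σ h hh e
  rw [map_mul, map_mul, map_inv, map_inv, hhe]
  constructor
  · intro h1
    have h2 : ((σ ^ e) y)⁻¹ = h * ((σ ^ e) a)⁻¹ * (a * h⁻¹ * y⁻¹) := by rw [← h1]; group
    rw [h2]; group
  · intro h1
    have h2 : ((σ ^ e) y)⁻¹ = h * (((σ ^ e) a)⁻¹ * a) * h⁻¹ * y⁻¹ := by rw [← h1]; group
    rw [h2]; group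

noncomputable def E2 (hY : ∀ y : X, y ∈ Y ↔ σ y ∈ Y)
    (hYLe : ∀ y ∈ Y, ∃ a ∈ Y, y = a * ((σ ^ e) a)⁻¹)
    (hg : (σ ^ e) (a * (σ a)⁻¹) = a * (σ a)⁻¹) :
    TB σ e Y a × Te σ e Y ≃ TP σ e Y a := by
  classical
  let zsec : TB σ e Y a → X := fun h => Classical.choose (lang_e hYLe h.2.2)
  have zsec_mem : ∀ h, zsec h ∈ Y := fun h => (Classical.choose_spec (lang_e hYLe h.2.2)).1
  have zsec_spec : ∀ h : TB σ e Y a,
      ((σ ^ e) (zsec h))⁻¹ * zsec h = (h : X)⁻¹ * (((σ ^ e) a)⁻¹ * a) * (h : X) :=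
    fun h => (Classical.choose_spec (lang_e hYLe h.2.2)).2
  let hOf : TP σ e Y a → TB σ e Y a := fun q => ⟨q.1.2⁻¹, by rw [map_inv, q.2.2.1], by
    have h1 := (key2 hg q.2.2.1).mp q.2.2.2
    rw [inv_inv, ← h1]
    exact Y.mul_mem (Y.inv_mem (pow_mem σ Y hY e q.2.1)) q.2.1⟩
  have hOf_val : ∀ q : TP σ e Y a, (hOf q : X) = q.1.2⁻¹ := fun q => rfl
  have hOf_spec : ∀ q : TP σ e Y a,
      ((σ ^ e) (zsec (hOf q)))⁻¹ * zsec (hOf q) = ((σ ^ e) q.1.1)⁻¹ * q.1.1 := fun q => by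
    rw [zsec_spec, hOf_val, inv_inv]
    exact ((key2 hg q.2.2.1).mp q.2.2.2).symm
  refine
    { toFun := fun hs => ⟨((hs.2 : X) * zsec hs.1, (hs.1 : X)⁻¹), ?_, ?_, ?_⟩
      invFun := fun q => (hOf q, ⟨q.1.1 * (zsec (hOf q))⁻¹, ?_, ?_⟩)
      left_inv := ?_
      right_inv := ?_ }
  · exact Y.mul_mem hs.2.2.1 (zsec_mem _)
  · simp only
    rw [map_inv, hs.1.2.1]
  · have hinv : σ ((hs.1 : X)⁻¹) = (hs.1 : X)⁻¹ := by rw [map_inv, hs.1.2.1]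
    refine (key2 hg hinv).mpr ?_
    simp only
    rw [map_mul, hs.2.2.2, inv_inv, ← zsec_spec]
    group
  · exact Y.mul_mem q.2.1 (Y.inv_mem (zsec_mem _))
  · have h1 := hOf_spec q
    rw [map_mul, map_inv]
    have h2 : ((σ ^ e) (zsec (hOf q)))⁻¹ = ((σ ^ e) q.1.1)⁻¹ * q.1.1 * (zsec (hOf q))⁻¹ := by
      rw [← h1]; group
    rw [h2]; group
  · rintro ⟨h, s⟩
    have hh' : hOf ⟨((s : X) * zsec h, (h : X)⁻¹), by
        exact Y.mul_mem s.2.1 (zsec_mem _), by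
        simp only
        rw [map_inv, h.2.1], by
        have hinv : σ ((h : X)⁻¹) = (h : X)⁻¹ := by rw [map_inv, h.2.1]
        refine (key2 hg hinv).mpr ?_
        simp only
        rw [map_mul, s.2.2, inv_inv, ← zsec_spec]
        group⟩ = h := by
      apply Subtype.ext
      rw [hOf_val]
      simp
    apply Prod.ext
    · exact hh'
    · apply Subtype.ext
      simp only
      rw [hh']
      group
  · rintro ⟨⟨y, h⟩, hy, hh, hk⟩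
    apply Subtype.ext
    simp only
    apply Prod.ext
    · simp only; group
    · simp only [hOf_val]; group

end main

theorem result {X : Type*} [Group X] (σ : MulAut X) (e : ℕ) (he : 1 ≤ e)
    [Finite ↥((MulEquiv.toMonoidHom (σ ^ e)).eqLocus (MonoidHom.id X))]
    (Y : Subgroup X) (hY : ∀ y : X, y ∈ Y ↔ σ y ∈ Y)
    (hYL : ∀ y ∈ Y, ∃ a ∈ Y, y = a * (σ a)⁻¹) (hYLe : ∀ y ∈ Y, ∃ a ∈ Y, y = a * ((σ ^ e) a)⁻¹)
    (g : X) (hg : g ∈ (MulEquiv.toMonoidHom (σ ^ e)).eqLocus (MonoidHom.id X)) (a : X) (ha : g = a * (σ a)⁻¹) :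
    Nat.card {k : ↥((MulEquiv.toMonoidHom (σ ^ e)).eqLocus (MonoidHom.id X)) // (k : X)⁻¹ * g * σ k ∈ Y} *
        Nat.card ↥(Y ⊓ (MulEquiv.toMonoidHom σ).eqLocus (MonoidHom.id X)) =
      Nat.card {h : ↥((MulEquiv.toMonoidHom σ).eqLocus (MonoidHom.id X)) // (h : X)⁻¹ * (((σ ^ e) a)⁻¹ * a) * h ∈ Y} *
        Nat.card ↥(Y ⊓ (MulEquiv.toMonoidHom (σ ^ e)).eqLocus (MonoidHom.id X)) := by
  rw [mem_fix] at hg
  subst ha
  have cA : {k : ↥((MulEquiv.toMonoidHom (σ ^ e)).eqLocus (MonoidHom.id X)) //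
      (k : X)⁻¹ * (a * (σ a)⁻¹) * σ k ∈ Y} ≃ TA σ e Y a :=
    (Equiv.subtypeSubtypeEquivSubtypeInter
      (fun k : X => k ∈ (MulEquiv.toMonoidHom (σ ^ e)).eqLocus (MonoidHom.id X))
      (fun k : X => k⁻¹ * (a * (σ a)⁻¹) * σ k ∈ Y)).trans
      (Equiv.subtypeEquivRight (fun k => by rw [mem_fix]))
  have c1 : ↥(Y ⊓ (MulEquiv.toMonoidHom σ).eqLocus (MonoidHom.id X)) ≃ T1 σ Y :=
    Equiv.subtypeEquivRight (fun t => by rw [Subgroup.mem_inf, mem_fix])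
  have cB : {h : ↥((MulEquiv.toMonoidHom σ).eqLocus (MonoidHom.id X)) //
      (h : X)⁻¹ * (((σ ^ e) a)⁻¹ * a) * h ∈ Y} ≃ TB σ e Y a :=
    (Equiv.subtypeSubtypeEquivSubtypeInter
      (fun h : X => h ∈ (MulEquiv.toMonoidHom σ).eqLocus (MonoidHom.id X))
      (fun h : X => h⁻¹ * (((σ ^ e) a)⁻¹ * a) * h ∈ Y)).trans
      (Equiv.subtypeEquivRight (fun k => by rw [mem_fix]))
  have ce : ↥(Y ⊓ (MulEquiv.toMonoidHom (σ ^ e)).eqLocus (MonoidHom.id X)) ≃ Te σ e Y :=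
    Equiv.subtypeEquivRight (fun t => by rw [Subgroup.mem_inf, mem_fix])
  rw [Nat.card_congr cA, Nat.card_congr c1, Nat.card_congr cB, Nat.card_congr ce,
    ← Nat.card_prod, ← Nat.card_prod]
  exact Nat.card_congr ((E1 hY hYL).trans (E2 hY hYLe hg).symm)

end Cfsg.Agent.S2669
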