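import Cfsg.Statements.S2677
import Cfsg.Agent.Helper16.NormE
import Cfsg.Agent.S2636

set_option autoImplicit false
open Cfsg

namespace Cfsg.Agent.S2677

open Matrix Cfsg.Agent.Helper3 Cfsg.Agent.Helper16 Cfsg.Agent.S2636

theorem pow_q_h16 {K : Type*} [Field K] (q₀ r : ℕ) (hr : Odd r) (x : K)
    (hx : x ^ (q₀ ^ 2) = x) : x ^ (q₀ ^ r) = x ^ q₀ := by
  obtain ⟨j, rfl⟩ := hr
  induction j with
  | zero => simp
  | succ j ih =>
    have : q₀ ^ (2 * (j + 1) + 1) = q₀ ^ 2 * q₀ ^ (2 * j + 1) := by ring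
    rw [this, pow_mul, hx, ih]

theorem card_GU_int_h16 {F : Type*} [Field F] [Fintype F] {q : ℕ} (hF : Fintype.card F = q ^ 2)
    (n : ℕ) : (Nat.card (GU n F q) : ℤ) = (q : ℤ) ^ (n * (n - 1) / 2) *
      ∏ i : Fin n, ((q : ℤ) ^ ((i : ℕ) + 1) - (-1) ^ ((i : ℕ) + 1)) := by
  rw [card_GU hF, Fin.prod_univ_eq_prod_range (fun i => (q : ℤ) ^ (i + 1) - (-1) ^ (i + 1)) n,
    Nat.cast_mul, Nat.cast_pow, Nat.cast_prod]
  congr 1
  apply Finset.prod_congr rfl
  intro i _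
  have hq1 : 1 ≤ q ^ (i + 1) := Nat.one_le_pow _ _ (by have := two_le_q hF; omega)
  by_cases hi : Even i
  · rw [if_pos hi]
    have h1 : Odd (i + 1) := hi.add_one
    rw [h1.neg_one_pow]
    push_cast
    ring
  · rw [if_neg hi]
    have h1 : Even (i + 1) := by rw [Nat.even_add_one]; exact hi
    rw [h1.neg_one_pow, Nat.cast_sub hq1]
    push_cast
    ring

theorem ctr_smul_h16 {K : Type*} [Field K] [Fintype K] {q n : ℕ} (Φ : Frob K q) (a : K)
    (M : Matrix (Fin n) (Fin n) K) : ctr Φ (a • M) = Φ.φ a • ctr Φ M := by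
  ext i j
  simp [ctr_apply, Matrix.smul_apply]

/-- compatibility of the conjugate transposes over the subfield and the field -/
theorem ctr_map_h16 {K : Type*} [Field K] [Fintype K] {q q₀ n : ℕ} (K₀ : Subfield K)
    [Fintype K₀] (Φ : Frob K q) (Φ₀ : Frob K₀ q₀)
    (hcompat : ∀ x : K₀, ((Φ₀.φ x : K₀) : K) = Φ.φ (x : K))
    (h : Matrix (Fin n) (Fin n) K₀) :
    ctr Φ (h.map K₀.subtype) = (ctr Φ₀ h).map K₀.subtype := by
  ext i j
  rw [ctr_apply, Matrix.map_apply, Matrix.map_apply, ctr_apply]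
  exact (hcompat _).symm

theorem unit_map_h16 {K : Type*} [Field K] [Fintype K] {q q₀ n : ℕ} (K₀ : Subfield K)
    [Fintype K₀] (Φ : Frob K q) (Φ₀ : Frob K₀ q₀)
    (hcompat : ∀ x : K₀, ((Φ₀.φ x : K₀) : K) = Φ.φ (x : K))
    (h : Matrix (Fin n) (Fin n) K₀) (l : K₀) :
    ctr Φ₀ h * h = l • 1 ↔ ctr Φ (h.map K₀.subtype) * h.map K₀.subtype
      = (l : K) • (1 : Matrix (Fin n) (Fin n) K) := by
  have e1 : ctr Φ (h.map K₀.subtype) * h.map K₀.subtype
      = (ctr Φ₀ h * h).map K₀.subtype := by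
    rw [ctr_map_h16 K₀ Φ Φ₀ hcompat, Matrix.map_mul]
  have e2 : ((l : K) • (1 : Matrix (Fin n) (Fin n) K))
      = (l • (1 : Matrix (Fin n) (Fin n) K₀)).map K₀.subtype := by
    ext i j
    simp [Matrix.smul_apply, Matrix.one_apply, Matrix.map_apply]
    split_ifs <;> simp
  rw [e1, e2]
  constructor
  · intro hh
    rw [hh]
  · intro hh
    exact Matrix.map_injective K₀.subtype_injective hh


/-- Centraliser of a field automorphism of odd prime order in PGU_n(q): let q = q₀^r with r an odd prime, K the field with q² elements and σ a field automorphism of K of order r (fixed field of order q₀²). The elements g of GU_n(q) whose entrywise image under σ is a scalar multiple of g — those whose coset modulo the q + 1 unitary scalars is fixed by σ — number (q + 1)/(q₀ + 1) · |GU_n(q₀)|; equivalently the centraliser in PGU_n(q) of the induced automorphism has the order of PGU_n(q₀). -/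
theorem result {K : Type*} [Field K] [Fintype K] {q₀ q r n : ℕ} (hr : r.Prime) (hr2 : r ≠ 2) (hn : 1 ≤ n) (hq : q = q₀ ^ r) (hK : Fintype.card K = q ^ 2) (σ : K ≃+* K) (hσ : orderOf σ = r) : (Nat.card {g : ↥(Cfsg.GU n K q) // ∃ c : K, c ≠ 0 ∧ ((g : GL (Fin n) K) : Matrix (Fin n) (Fin n) K).map σ = c • ((g : GL (Fin n) K) : Matrix (Fin n) (Fin n) K)} : ℤ) = ((q + 1) / (q₀ + 1) : ℕ) * ((q₀ : ℤ) ^ (n * (n - 1) / 2) * ∏ i : Fin n, ((q₀ : ℤ) ^ ((i : ℕ) + 1) - (-1) ^ ((i : ℕ) + 1))) := by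
  classical
  have hrodd : Odd r := hr.odd_of_ne_two hr2
  have hq2 : 2 ≤ q := two_le_q hK
  have hq0 : q ≠ 0 := by omega
  have hK' : Fintype.card K = (q₀ ^ 2) ^ r := by rw [hK, hq]; ring
  obtain ⟨K₀, hmem, hcard⟩ := exists_fixed_subfield hr hK' σ hσ
  letI : Fintype ↥K₀ := Fintype.ofFinite _
  have hK₀ : Fintype.card ↥K₀ = q₀ ^ 2 := by rw [← Nat.card_eq_fintype_card]; exact hcard
  have hq₀2 : 2 ≤ q₀ := two_le_q hK₀
  obtain ⟨Φ⟩ := exists_Frob hK
  obtain ⟨Φ₀⟩ := exists_Frob hK₀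
  have hcompat : ∀ x : K₀, ((Φ₀.φ x : K₀) : K) = Φ.φ (x : K) := by
    intro x
    rw [Φ₀.hφ, Φ.hφ, hq]
    have hx : (x : K) ^ (q₀ ^ 2) = x := by
      have := FiniteField.pow_card x
      rw [hK₀] at this
      have h2 := congrArg (fun y : K₀ => (y : K)) this
      simpa using h2
    rw [pow_q_h16 q₀ r hrodd _ hx]
    rfl
  -- the groups
  let M : Subgroup Kˣ := (powMonoidHom (q + 1) : Kˣ →* Kˣ).ker
  have hM : ∀ l : Kˣ, l ∈ M ↔ (l : K) * (l : K) ^ q = 1 := by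
    intro l
    rw [MonoidHom.mem_ker, powMonoidHom_apply, Units.ext_iff, Units.val_pow_eq_pow_val,
      Units.val_one, pow_succ']
  let Pm : ↥M × ↥(Cfsg.GU n ↥K₀ q₀) →* GL (Fin n) K :=
    (prodHom n K₀).comp (MonoidHom.prodMap M.subtype (Cfsg.GU n ↥K₀ q₀).subtype)
  have hPm : ∀ (d : ↥M) (h : ↥(Cfsg.GU n ↥K₀ q₀)),
      ((Pm (d, h) : GL (Fin n) K) : Matrix (Fin n) (Fin n) K)
        = ((d : Kˣ) : K) • ((h : GL (Fin n) ↥K₀) : Matrix (Fin n) (Fin n) ↥K₀).map K₀.subtype := by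
    intro d h
    ext i j
    show ((prodHom n K₀ ((d : Kˣ), (h : GL (Fin n) ↥K₀)) : GL (Fin n) K)
      : Matrix (Fin n) (Fin n) K) i j = _
    rw [prodHom_apply]
    rfl
  -- range
  have hrange : ∀ g : GL (Fin n) K, g ∈ Pm.range ↔ (g ∈ Cfsg.GU n K q ∧
      ∃ c : K, c ≠ 0 ∧ (g : Matrix (Fin n) (Fin n) K).map σ
        = c • (g : Matrix (Fin n) (Fin n) K)) := by
    intro g
    constructor
    · rintro ⟨⟨d, h⟩, rfl⟩
      constructor
      · rw [mem_GU_iff, hpres_iff hK Φ, hPm, ctr_smul_h16, smul_mul_smul_comm]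
        have h1 : ctr Φ₀ ((h : GL (Fin n) ↥K₀) : Matrix (Fin n) (Fin n) ↥K₀)
            * ((h : GL (Fin n) ↥K₀) : Matrix (Fin n) (Fin n) ↥K₀)
            = (1 : ↥K₀) • (1 : Matrix (Fin n) (Fin n) ↥K₀) := by
          rw [one_smul]
          exact (hpres_iff hK₀ Φ₀ _).mp ((mem_GU_iff _).mp h.2)
        rw [(unit_map_h16 K₀ Φ Φ₀ hcompat _ 1).mp h1]
        have h2 : Φ.φ ((d : Kˣ) : K) * ((d : Kˣ) : K) = 1 := by
          rw [Φ.hφ, mul_comm]
          exact (hM _).mp d.2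
        rw [h2, one_smul]
        simp
      · exact (range_prodHom hn σ K₀ hmem _).mp ⟨((d : Kˣ), (h : GL (Fin n) ↥K₀)), rfl⟩
    · rintro ⟨hgU, hc⟩
      obtain ⟨⟨d, h⟩, hdh⟩ := (range_prodHom hn σ K₀ hmem g).mpr hc
      obtain ⟨hm, hhm⟩ : ∃ hm : Matrix (Fin n) (Fin n) ↥K₀, hm = (h : Matrix (Fin n) (Fin n) ↥K₀) :=
        ⟨_, rfl⟩
      have hgm : (g : Matrix (Fin n) (Fin n) K) = (d : K) • hm.map K₀.subtype := by
        rw [← hdh, hhm]
        ext i j
        rw [prodHom_apply]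
        rfl
      have hgu : ctr Φ (g : Matrix (Fin n) (Fin n) K) * (g : Matrix (Fin n) (Fin n) K) = 1 :=
        (hpres_iff hK Φ _).mp ((mem_GU_iff _).mp hgU)
      rw [hgm, ctr_smul_h16, smul_mul_smul_comm] at hgu
      have hd0 : (d : K) ≠ 0 := d.ne_zero
      have hNd : Φ.φ (d : K) * (d : K) ≠ 0 := mul_ne_zero (by rw [Ne, map_eq_zero]; exact hd0) hd0
      obtain ⟨μ, hμ⟩ : ∃ μ : K, μ = (Φ.φ (d : K) * (d : K))⁻¹ := ⟨_, rfl⟩
      have hX : ctr Φ (hm.map K₀.subtype) * hm.map K₀.subtype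
          = μ • (1 : Matrix (Fin n) (Fin n) K) := by
        rw [hμ, ← hgu, smul_smul, inv_mul_cancel₀ hNd, one_smul]
      -- the scalar lies in the subfield
      obtain ⟨l, hl⟩ : ∃ l : ↥K₀, l = (ctr Φ₀ hm * hm) ⟨0, hn⟩ ⟨0, hn⟩ := ⟨_, rfl⟩
      have hlμ : (l : K) = μ := by
        have e1 : ctr Φ (hm.map K₀.subtype) * hm.map K₀.subtype
            = (ctr Φ₀ hm * hm).map K₀.subtype := by
          rw [ctr_map_h16 K₀ Φ Φ₀ hcompat, Matrix.map_mul]
        have e2 := congrFun (congrFun (e1.symm.trans hX) ⟨0, hn⟩) ⟨0, hn⟩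
        rw [Matrix.map_apply, ← hl] at e2
        rw [Matrix.smul_apply, Matrix.one_apply_eq, smul_eq_mul, mul_one] at e2
        exact e2
      have hX₀ : ctr Φ₀ hm * hm = l • 1 := by
        rw [unit_map_h16 K₀ Φ Φ₀ hcompat, hlμ]
        exact hX
      have hμ0 : μ ≠ 0 := by rw [hμ]; exact inv_ne_zero hNd
      have hl0 : l ≠ 0 := by
        intro h0
        rw [h0] at hlμ
        exact hμ0 hlμ.symm
      have hμfix : Φ.φ μ = μ := by
        rw [hμ, map_inv₀, map_mul, Φ.hφ2, mul_comm]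
      have hlfix : l ^ q₀ = l := by
        rw [← Φ₀.hφ]
        apply Subtype.ext
        rw [hcompat, hlμ, hμfix]
      have hfib := norm_fiber hK₀ l hl0 hlfix
      obtain ⟨b, hb⟩ : ∃ b : ↥K₀, b * b ^ q₀ = l := by
        have hpos : 0 < q₀ + 1 := by omega
        rw [← hfib] at hpos
        obtain ⟨b, hb⟩ := Finset.card_pos.mp hpos
        exact ⟨b, by simpa using hb⟩
      have hb0 : b ≠ 0 := by
        intro h0
        rw [h0, zero_mul] at hb
        exact hl0 hb.symm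
      -- the corrected pair
      have hu' : ctr Φ₀ (b⁻¹ • hm) * (b⁻¹ • hm) = 1 := by
        rw [ctr_smul_h16, smul_mul_smul_comm, hX₀, smul_smul, Φ₀.hφ, ← hb]
        have : b⁻¹ ^ q₀ * b⁻¹ * (b * b ^ q₀) = 1 := by
          rw [inv_pow]
          field_simp
        rw [this, one_smul]
      have hP' : HPres n q₀ (b⁻¹ • hm) := (hpres_iff hK₀ Φ₀ _).mpr hu'
      have hq₀0 : q₀ ≠ 0 := by omega
      have hunit := isUnit_of_hpres hq₀0 _ hP'
      obtain ⟨h', hh'⟩ : ∃ h' : GL (Fin n) ↥K₀,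
          (h' : Matrix (Fin n) (Fin n) ↥K₀) = b⁻¹ • hm := ⟨hunit.unit, rfl⟩
      have hh'U : h' ∈ Cfsg.GU n ↥K₀ q₀ := by
        rw [mem_GU_iff, hh']
        exact hP'
      have hd'0 : (d : K) * (b : K) ≠ 0 := mul_ne_zero hd0 (by
        intro h0
        apply hb0
        exact Subtype.ext h0)
      have hd'M : Units.mk0 ((d : K) * (b : K)) hd'0 ∈ M := by
        rw [hM]
        show (d : K) * (b : K) * ((d : K) * (b : K)) ^ q = 1
        have e3 : (b : K) ^ q = ((b ^ q₀ : ↥K₀) : K) := by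
          rw [← Φ.hφ, ← hcompat, Φ₀.hφ]
        have e4 : (b : K) * ((b ^ q₀ : ↥K₀) : K) = μ := by
          rw [← hlμ, ← hb]
          rfl
        have e5 : (d : K) ^ q * (d : K) * μ = 1 := by
          rw [hμ, ← Φ.hφ, mul_inv_cancel₀ hNd]
        rw [mul_pow, e3]
        linear_combination ((d : K) ^ q * (d : K)) * e4 + e5
      refine ⟨(⟨Units.mk0 ((d : K) * (b : K)) hd'0, hd'M⟩, ⟨h', hh'U⟩), ?_⟩
      apply Units.ext
      rw [hPm, hgm]
      show ((d : K) * (b : K)) • ((h' : Matrix (Fin n) (Fin n) ↥K₀)).map K₀.subtype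
        = (d : K) • hm.map K₀.subtype
      rw [hh']
      ext i j
      simp only [Matrix.smul_apply, Matrix.map_apply, smul_eq_mul, Subfield.coe_subtype,
        Subfield.coe_mul, Subfield.coe_inv]
      have hbK : (b : K) ≠ 0 := fun h0 => hb0 (Subtype.ext h0)
      field_simp
  -- kernel
  let M₀ := {e : (↥K₀)ˣ // (e : ↥K₀) * (e : ↥K₀) ^ q₀ = 1}
  have hnormK : ∀ e : (↥K₀)ˣ, (((e : ↥K₀) : K)) * (((e : ↥K₀) : K)) ^ q = 1
      ↔ (e : ↥K₀) * (e : ↥K₀) ^ q₀ = 1 := by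
    intro e
    have e3 : ((e : ↥K₀) : K) ^ q = (((e : ↥K₀) ^ q₀ : ↥K₀) : K) := by
      rw [← Φ.hφ, ← hcompat, Φ₀.hφ]
    rw [e3]
    constructor
    · intro h
      apply Subtype.ext
      exact h
    · intro h
      have := congrArg (fun y : ↥K₀ => (y : K)) h
      exact this
  have hkermem : ∀ e : M₀, kerHom n K₀ e.1 ∈ (MonoidHom.prodMap M.subtype
      (Cfsg.GU n ↥K₀ q₀).subtype).range := by
    intro e
    have h1 : (Units.map (K₀.subtype : ↥K₀ →* K) e.1)⁻¹ ∈ M := by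
      apply Subgroup.inv_mem
      rw [hM]
      exact (hnormK e.1).mpr e.2
    have h2 : scalarHom n ↥K₀ e.1 ∈ Cfsg.GU n ↥K₀ q₀ := by
      rw [mem_GU_iff]
      have h3 : ((scalarHom n ↥K₀ e.1 : GL (Fin n) ↥K₀) : Matrix (Fin n) (Fin n) ↥K₀)
          = (e.1 : ↥K₀) • (1 : Matrix (Fin n) (Fin n) ↥K₀) := by
        ext i j
        rw [scalarHom_apply, Matrix.smul_apply, Matrix.one_apply]
        split_ifs <;> simp
      rw [h3]
      exact scalar_pres _ e.2
    exact ⟨(⟨_, h1⟩, ⟨_, h2⟩), rfl⟩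
  have hsubinj : Function.Injective (MonoidHom.prodMap M.subtype
      (Cfsg.GU n ↥K₀ q₀).subtype) := by
    rintro ⟨a, b⟩ ⟨a', b'⟩ h
    have h1 := congrArg Prod.fst h
    have h2 := congrArg Prod.snd h
    exact Prod.ext (Subtype.ext h1) (Subtype.ext h2)
  have hkerex : ∀ e : M₀, ∃ x : ↥M × ↥(Cfsg.GU n ↥K₀ q₀),
      MonoidHom.prodMap M.subtype (Cfsg.GU n ↥K₀ q₀).subtype x = kerHom n K₀ e.1 :=
    fun e => hkermem e
  choose kf hkf using hkerex
  have hkfker : ∀ e : M₀, kf e ∈ Pm.ker := by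
    intro e
    rw [MonoidHom.mem_ker]
    show prodHom n K₀ (MonoidHom.prodMap M.subtype (Cfsg.GU n ↥K₀ q₀).subtype (kf e)) = 1
    rw [hkf]
    have : kerHom n K₀ e.1 ∈ (prodHom n K₀).ker := by
      rw [ker_prodHom hn K₀]
      exact ⟨e.1, rfl⟩
    exact this
  have hkbij : Function.Bijective (fun e : M₀ => (⟨kf e, hkfker e⟩ : Pm.ker)) := by
    constructor
    · intro e e' h
      have h1 : kf e = kf e' := congrArg Subtype.val h
      have h2 : kerHom n K₀ e.1 = kerHom n K₀ e'.1 := by rw [← hkf, ← hkf, h1]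
      exact Subtype.ext (kerHom_injective hn K₀ h2)
    · rintro ⟨x, hx⟩
      have h1 : MonoidHom.prodMap M.subtype (Cfsg.GU n ↥K₀ q₀).subtype x ∈ (prodHom n K₀).ker := hx
      rw [ker_prodHom hn K₀] at h1
      obtain ⟨e, he⟩ := h1
      have heM : (e : ↥K₀) * (e : ↥K₀) ^ q₀ = 1 := by
        rw [← hnormK]
        have h2 : (Units.map (K₀.subtype : ↥K₀ →* K) e)⁻¹ = (x.1 : Kˣ) := by
          have := congrArg Prod.fst he
          exact this
        have h3 : Units.map (K₀.subtype : ↥K₀ →* K) e ∈ M := by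
          have : (Units.map (K₀.subtype : ↥K₀ →* K) e)⁻¹ ∈ M := by rw [h2]; exact x.1.2
          exact (Subgroup.inv_mem_iff M).mp this
        exact (hM _).mp h3
      refine ⟨⟨e, heM⟩, ?_⟩
      apply Subtype.ext
      apply hsubinj
      show MonoidHom.prodMap M.subtype (Cfsg.GU n ↥K₀ q₀).subtype (kf ⟨e, heM⟩) = _
      rw [hkf, he]
  have hkercard : Nat.card Pm.ker = q₀ + 1 := by
    rw [← Nat.card_congr (Equiv.ofBijective _ hkbij)]
    exact card_norm_units hK₀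
  have hMcard : Nat.card M = q + 1 := by
    rw [← card_norm_units hK]
    exact Nat.card_congr (Equiv.subtypeEquivRight hM)
  -- the set
  have hXcard : Nat.card {g : ↥(Cfsg.GU n K q) // ∃ c : K, c ≠ 0 ∧
      ((g : GL (Fin n) K) : Matrix (Fin n) (Fin n) K).map σ
        = c • ((g : GL (Fin n) K) : Matrix (Fin n) (Fin n) K)} = Nat.card Pm.range := by
    refine Nat.card_congr
      { toFun := fun g => ⟨(g.1 : GL (Fin n) K), (hrange _).mpr ⟨g.1.2, g.2⟩⟩
        invFun := fun y => ⟨⟨y.1, ((hrange _).mp y.2).1⟩, ((hrange _).mp y.2).2⟩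
        left_inv := fun g => rfl
        right_inv := fun y => rfl }
  have hmul := Subgroup.card_mul_index Pm.ker
  rw [Subgroup.index_ker, hkercard, Nat.card_prod, hMcard, ← hXcard] at hmul
  have hdvd : q₀ + 1 ∣ q + 1 := by
    rw [hq]
    have := Odd.nat_add_dvd_pow_add_pow q₀ 1 hrodd
    rwa [one_pow] at this
  obtain ⟨t, ht⟩ := hdvd
  have hXval : Nat.card {g : ↥(Cfsg.GU n K q) // ∃ c : K, c ≠ 0 ∧
      ((g : GL (Fin n) K) : Matrix (Fin n) (Fin n) K).map σ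
        = c • ((g : GL (Fin n) K) : Matrix (Fin n) (Fin n) K)}
      = t * Nat.card ↥(Cfsg.GU n ↥K₀ q₀) := by
    rw [ht, mul_assoc] at hmul
    exact Nat.eq_of_mul_eq_mul_left (by omega : 0 < q₀ + 1) hmul
  rw [hXval, ht, Nat.mul_div_cancel_left _ (by omega : 0 < q₀ + 1), Nat.cast_mul,
    card_GU_int_h16 hK₀]

end Cfsg.Agent.S2677
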