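import Cfsg.Statements.S2678
import Cfsg.Agent.Helper16.ScalarRestrict

set_option autoImplicit false
open Cfsg

namespace Cfsg.Agent.S2678

open Cfsg.Agent.Helper16 Matrix

theorem symp_alt {K : Type*} [Field K] (a : ℕ) (u : Fin a ⊕ Fin a → K) :
    u ⬝ᵥ (Matrix.J (Fin a) K *ᵥ u) = 0 := by
  have hu : u = Sum.elim (u ∘ Sum.inl) (u ∘ Sum.inr) := (Sum.elim_comp_inl_inr u).symm
  rw [hu, Matrix.J, Matrix.fromBlocks_mulVec, sumElim_dotProduct_sumElim]
  simp only [Matrix.zero_mulVec, Matrix.one_mulVec, zero_add, add_zero, Matrix.neg_mulVec,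
    dotProduct_neg, Sum.elim_comp_inl, Sum.elim_comp_inr]
  rw [dotProduct_comm (u ∘ Sum.inr) (u ∘ Sum.inl)]
  ring

theorem symp_inv {K : Type*} [Field K] (a : ℕ) (A : Matrix.symplecticGroup (Fin a) K)
    (u v : Fin a ⊕ Fin a → K) :
    ((A : Matrix (Fin a ⊕ Fin a) (Fin a ⊕ Fin a) K) *ᵥ u) ⬝ᵥ (Matrix.J (Fin a) K *ᵥ
      ((A : Matrix (Fin a ⊕ Fin a) (Fin a ⊕ Fin a) K) *ᵥ v)) = u ⬝ᵥ (Matrix.J (Fin a) K *ᵥ v) := by
  have hA := SymplecticGroup.mem_iff'.mp A.2
  rw [← Matrix.vecMul_transpose, ← Matrix.dotProduct_mulVec, Matrix.mulVec_mulVec,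
    Matrix.mulVec_mulVec, hA]

theorem symp_nondeg {K : Type*} [Field K] (a : ℕ) (u : Fin a ⊕ Fin a → K) (hu : u ≠ 0) :
    ∃ v, u ⬝ᵥ (Matrix.J (Fin a) K *ᵥ v) ≠ 0 := by
  obtain ⟨i, hi⟩ : ∃ i, u i ≠ 0 := by
    by_contra hcon
    apply hu
    funext i
    by_contra hne
    exact hcon ⟨i, hne⟩
  refine ⟨Matrix.J (Fin a) K *ᵥ Pi.single i 1, ?_⟩
  rw [Matrix.mulVec_mulVec, Matrix.J_squared, Matrix.neg_mulVec, Matrix.one_mulVec, dotProduct_neg,
    dotProduct_single, mul_one]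
  exact neg_ne_zero.2 hi


/-- Field-extension embedding of symplectic groups: for a field K with q² elements and a field F with q elements there is an injective homomorphism Sp_2a(K) → Sp_4a(F). -/
theorem result {K F : Type*} [Field K] [Fintype K] [Field F] [Fintype F] {q : ℕ} (hK : Fintype.card K = q ^ 2) (hF : Fintype.card F = q) (a : ℕ) : ∃ φ : ↥(Matrix.symplecticGroup (Fin a) K) →* ↥(Matrix.symplecticGroup (Fin (2 * a)) F), Function.Injective φ := by
  obtain ⟨ι⟩ := exists_ringHom_of_card_sq hF hK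
  let _ : Algebra F K := ι.toAlgebra
  have hfr : Module.finrank F K = 2 := finrank_of_card_sq hF hK
  have hfd : FiniteDimensional F K := Module.finite_of_finrank_pos (by omega)
  let bK : Module.Basis (Fin 2) F K := Module.finBasisOfFinrankEq F K hfr
  obtain ⟨τ, hτdef⟩ : ∃ τ : K →ₗ[F] F, τ = bK.coord 0 := ⟨_, rfl⟩
  have hτ : τ ≠ 0 := by
    intro h0
    have h1 : τ (bK 0) = 1 := by
      rw [hτdef]
      simp
    rw [h0] at h1
    simp at h1
  let B : LinearMap.BilinForm F (Fin a ⊕ Fin a → K) :=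
    LinearMap.mk₂ F (fun u v => τ (u ⬝ᵥ (Matrix.J (Fin a) K *ᵥ v)))
      (by intro u u' v; rw [add_dotProduct, map_add])
      (by intro c u v; rw [smul_dotProduct, map_smul])
      (by intro u v v'; rw [Matrix.mulVec_add, dotProduct_add, map_add])
      (by intro c u v; rw [Matrix.mulVec_smul, dotProduct_smul, map_smul])
  have hBapp : ∀ u v, B u v = τ (u ⬝ᵥ (Matrix.J (Fin a) K *ᵥ v)) := fun u v => rfl
  have hA : B.IsAlt := by
    intro u
    rw [hBapp, symp_alt, map_zero]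
  have hB : B.Nondegenerate := by
    apply (LinearMap.IsRefl.nondegenerate_iff_separatingLeft (LinearMap.IsAlt.isRefl hA)).2
    intro u hu
    exact separating_of_comp (fun u v => u ⬝ᵥ (Matrix.J (Fin a) K *ᵥ v)) (symp_nondeg a)
      (fun c u v => ⟨c • v, by rw [Matrix.mulVec_smul, dotProduct_smul, smul_eq_mul]⟩) τ hτ u hu
  have hN : Module.finrank F (Fin a ⊕ Fin a → K) = 2 * (2 * a) := by
    rw [Module.finrank_pi_fintype]
    simp [hfr]
    ring
  exact exists_hom_symplectic (Matrix.symplecticGroup (Fin a) K).subtype Subtype.val_injective B hA hB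
    (fun g u v => by rw [hBapp, hBapp]; exact congrArg τ (symp_inv a g u v)) (2 * a) hN

end Cfsg.Agent.S2678
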