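import Cfsg.Statements.S2723
import Cfsg.Agent.Helper16.AutQuot2
import Cfsg.Agent.Helper16.ModFour
import Cfsg.Agent.S0790

set_option autoImplicit false
open Cfsg

namespace Cfsg.Agent.S2723

open Cfsg.Agent.Helper16

/-- Let T = PΩ⁺_{2m}(F) with m ≥ 4 and |F| = q odd. The image of the special orthogonal group in Aut(T) contains the inner automorphism group T with index 1 (they coincide) when m is odd and q ≡ 3 (mod 4), and with index 2 otherwise (the index is 2 exactly when the discriminant of the form is a square). -/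
theorem result {F : Type*} [Field F] [Fintype F] (hodd : Odd (Fintype.card F)) {m : ℕ} (hm : 4 ≤ m) :
    ((Odd m ∧ Fintype.card F % 4 = 3) → (Cfsg.Inn (Cfsg.POmega F (Cfsg.quadFormPlus m F))).relIndex (Cfsg.psoAut F (Cfsg.quadFormPlus m F)) = 1) ∧ (¬ (Odd m ∧ Fintype.card F % 4 = 3) → (Cfsg.Inn (Cfsg.POmega F (Cfsg.quadFormPlus m F))).relIndex (Cfsg.psoAut F (Cfsg.quadFormPlus m F)) = 2) := by
  have h2 : (2 : F) ≠ 0 := two_ne_zero_of_odd_card hodd
  have hiff := Cfsg.Agent.S0790.result (F := F) rfl hodd m (by omega)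
  rw [← coe_qfPlus, ← negIso_mem_iff] at hiff
  rw [← coe_qfPlus]
  constructor
  · intro hcond
    apply relIndex_inn_pso_of_not h2 (qfPlus m F) qfPlus_nondegenerate
      (siegelScalar_plus (by omega)) m (card_plus m) (by omega)
    rw [hiff, pow_mod_four_eq_one_iff _ _ hodd]
    exact not_not.2 hcond
  · intro hcond
    apply relIndex_inn_pso_of_mem h2 (qfPlus m F) qfPlus_nondegenerate
      (siegelScalar_plus (by omega)) m (card_plus m) (by omega)
    rw [hiff, pow_mod_four_eq_one_iff _ _ hodd]
    exact hcond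

end Cfsg.Agent.S2723
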