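import Cfsg.Statements.S2728
import Cfsg.Agent.Helper16.AutD8Main
import Cfsg.Agent.Helper16.ModFour
import Cfsg.Agent.S0791

set_option autoImplicit false
open Cfsg

namespace Cfsg.Agent.S2728

open Cfsg.Agent.Helper16

/-- Let T = PΩ⁻_{2m+2}(F) with m ≥ 3 and |F| = q odd (form with anisotropic binary part). The image G̃ of the conformal orthogonal group in Aut(T), taken modulo the inner automorphism group T, is dihedral of order 8 when m is even and q ≡ 3 (mod 4), and elementary abelian of order 4 otherwise. -/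
theorem result {F : Type*} [Field F] [Fintype F] (hodd : Odd (Fintype.card F)) {m : ℕ} (hm : 3 ≤ m) (a b : F) (hab : (∀ z₁ z₂ : F, z₁ ^ 2 + a * z₁ * z₂ + b * z₂ ^ 2 = 0 → z₁ = 0 ∧ z₂ = 0)) :
    ((Even m ∧ Fintype.card F % 4 = 3) → (∃ φ : ↥(Cfsg.pgoAut F (Cfsg.quadFormMinus m F a b)) →* DihedralGroup 4, Function.Surjective φ ∧ φ.ker = (Cfsg.Inn (Cfsg.POmega F (Cfsg.quadFormMinus m F a b))).subgroupOf (Cfsg.pgoAut F (Cfsg.quadFormMinus m F a b)))) ∧ (¬ (Even m ∧ Fintype.card F % 4 = 3) → (∃ φ : ↥(Cfsg.pgoAut F (Cfsg.quadFormMinus m F a b)) →* Multiplicative (ZMod 2 × ZMod 2), Function.Surjective φ ∧ φ.ker = (Cfsg.Inn (Cfsg.POmega F (Cfsg.quadFormMinus m F a b))).subgroupOf (Cfsg.pgoAut F (Cfsg.quadFormMinus m F a b)))) := by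
  have h2 : (2 : F) ≠ 0 := two_ne_zero_of_odd_card hodd
  have hiff := Cfsg.Agent.S0791.result (F := F) rfl hodd (m + 1) (by omega) a b hab
  rw [Nat.add_sub_cancel, ← coe_qfMinus, ← negIso_mem_iff, pow_mod_four_eq_three_iff _ _ hodd,
    Nat.odd_add_one, Nat.not_odd_iff_even] at hiff
  rw [← coe_qfMinus]
  have hQ := qfMinus_nondegenerate (m := m) a b (minus_disc_ne hodd a b hab)
  constructor
  · intro hcond
    apply exists_hom_pgo_inn_dihedral h2 (qfMinus m F a b) hQ
      (siegelScalar_minus (by omega) a b) (m + 1) (card_minus m) (by omega)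
      (exists_sim_nonsq_minus hodd m a b hab)
    rw [hiff]
    exact hcond
  · intro hcond
    apply exists_hom_pgo_inn_klein h2 (qfMinus m F a b) hQ
      (siegelScalar_minus (by omega) a b) (m + 1) (card_minus m) (by omega)
      (exists_sim_nonsq_minus hodd m a b hab)
    rw [hiff]
    exact hcond

end Cfsg.Agent.S2728
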