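import Cfsg.Statements.S2738

set_option autoImplicit false
open Cfsg

namespace Cfsg.Agent.S2738

open Matrix

theorem units_pow_three {F : Type*} [Field F] [Fintype F] (hF : Fintype.card F = 4) (u : Fˣ) :
    u ^ 3 = 1 := by
  classical
  have h : Fintype.card Fˣ = 3 := by rw [Fintype.card_units, hF]
  have := pow_card_eq_one (x := u)
  rwa [h] at this

theorem card_center {F : Type*} [Field F] [Fintype F] (hF : Fintype.card F = 4) :
    Nat.card ↥(Subgroup.center (Matrix.SpecialLinearGroup (Fin 3) F)) = 3 := by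
  classical
  rw [Nat.card_congr (Matrix.SpecialLinearGroup.center_equiv_rootsOfUnity (n := Fin 3) (R := F)).toEquiv]
  have h3 : max (Fintype.card (Fin 3)) 1 = 3 := by simp
  rw [h3]
  have htop : rootsOfUnity 3 F = ⊤ := by
    ext u
    simp only [mem_rootsOfUnity, Subgroup.mem_top, iff_true]
    exact units_pow_three hF u
  rw [htop, Nat.card_congr Subgroup.topEquiv.toEquiv, Nat.card_eq_fintype_card, Fintype.card_units, hF]

theorem exists_omega {F : Type*} [Field F] [Fintype F] (hF : Fintype.card F = 4) :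
    ∃ ω : F, ω ≠ 1 ∧ ω ^ 3 = 1 := by
  classical
  have h : Fintype.card Fˣ = 3 := by rw [Fintype.card_units, hF]
  have hnt : Nontrivial Fˣ := by
    rw [← Fintype.one_lt_card_iff_nontrivial, h]; norm_num
  obtain ⟨u, hu⟩ := exists_ne (1 : Fˣ)
  refine ⟨(u : F), fun h1 => hu (Units.ext h1), ?_⟩
  have := units_pow_three hF u
  have h2 := congrArg Units.val this
  simpa using h2

theorem mat_eq {F : Type*} [Field F] (ω : F) (hω3 : ω ^ 3 = 1) :
    (!![1, 0, 0; 0, ω, 0; 0, 0, ω ^ 2] * !![0, 0, 1; 1, 0, 0; 0, 1, 0] : Matrix (Fin 3) (Fin 3) F) =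
      !![ω, 0, 0; 0, ω, 0; 0, 0, ω] * (!![0, 0, 1; 1, 0, 0; 0, 1, 0] * !![1, 0, 0; 0, ω, 0; 0, 0, ω ^ 2]) := by
  have hω4 : ω * ω ^ 2 = 1 := by rw [← hω3]; ring
  ext i j
  fin_cases i <;> fin_cases j <;>
    simp [Matrix.mul_apply, Fin.sum_univ_three, hω4] <;> ring

theorem result (F : Type*) [Field F] [Fintype F] (hF : Fintype.card F = 4) : Nat.card ↥(Subgroup.center (Matrix.SpecialLinearGroup (Fin 3) F)) = 3 ∧ ¬ ∃ K : Subgroup (Matrix.SpecialLinearGroup (Fin 3) F), Subgroup.IsComplement' (Subgroup.center (Matrix.SpecialLinearGroup (Fin 3) F)) K := by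
  refine ⟨card_center hF, ?_⟩
  rintro ⟨K, hK⟩
  obtain ⟨ω, hω1, hω3⟩ := exists_omega hF
  -- the three matrices
  let a : Matrix.SpecialLinearGroup (Fin 3) F :=
    ⟨!![1, 0, 0; 0, ω, 0; 0, 0, ω ^ 2], by
      rw [Matrix.det_fin_three]; simp; rw [← hω3]; ring⟩
  let b : Matrix.SpecialLinearGroup (Fin 3) F :=
    ⟨!![0, 0, 1; 1, 0, 0; 0, 1, 0], by
      rw [Matrix.det_fin_three]; simp⟩
  let c : Matrix.SpecialLinearGroup (Fin 3) F :=
    ⟨!![ω, 0, 0; 0, ω, 0; 0, 0, ω], by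
      rw [Matrix.det_fin_three]; simp; rw [← hω3]; ring⟩
  have hab : a * b = c * (b * a) := by
    apply Subtype.ext
    exact mat_eq ω hω3
  have hc : c ∈ Subgroup.center (Matrix.SpecialLinearGroup (Fin 3) F) := by
    rw [Matrix.SpecialLinearGroup.mem_center_iff]
    refine ⟨ω, by simpa using hω3, ?_⟩
    ext i j
    fin_cases i <;> fin_cases j <;> simp [c, Matrix.scalar_apply, Matrix.diagonal_apply]
  have hc1 : c ≠ 1 := by
    intro h
    have := congrArg (fun M : Matrix.SpecialLinearGroup (Fin 3) F => (M : Matrix (Fin 3) (Fin 3) F) 0 0) h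
    simp [c] at this
    exact hω1 this
  -- decompose a and b
  obtain ⟨⟨z₁, k₁⟩, h₁, -⟩ := hK.existsUnique a
  obtain ⟨⟨z₂, k₂⟩, h₂, -⟩ := hK.existsUnique b
  simp only at h₁ h₂
  have hz₁ := Subgroup.mem_center_iff.mp z₁.2
  have hz₂ := Subgroup.mem_center_iff.mp z₂.2
  have hcK : c ∈ K := by
    have e1 : a * b = (z₁ : Matrix.SpecialLinearGroup (Fin 3) F) * z₂ * (k₁ * k₂) := by
      rw [← h₁, ← h₂]
      calc (z₁ : Matrix.SpecialLinearGroup (Fin 3) F) * k₁ * (z₂ * k₂)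
          = z₁ * (k₁ * z₂) * k₂ := by group
        _ = z₁ * (z₂ * k₁) * k₂ := by rw [hz₂ k₁]
        _ = z₁ * z₂ * (k₁ * k₂) := by group
    have e2 : b * a = (z₁ : Matrix.SpecialLinearGroup (Fin 3) F) * z₂ * (k₂ * k₁) := by
      rw [← h₁, ← h₂]
      calc (z₂ : Matrix.SpecialLinearGroup (Fin 3) F) * k₂ * (z₁ * k₁)
          = z₂ * (k₂ * z₁) * k₁ := by group
        _ = z₂ * (z₁ * k₂) * k₁ := by rw [hz₁ k₂]
        _ = (z₂ * z₁) * (k₂ * k₁) := by group
        _ = (z₁ * z₂) * (k₂ * k₁) := by rw [hz₁ z₂]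
    have e3 : c = (k₁ : Matrix.SpecialLinearGroup (Fin 3) F) * k₂ * (k₂ * k₁)⁻¹ := by
      have hcz := Subgroup.mem_center_iff.mp hc
      have : (z₁ : Matrix.SpecialLinearGroup (Fin 3) F) * z₂ * (k₁ * k₂) = z₁ * z₂ * (c * (k₂ * k₁)) := by
        rw [← e1, hab, e2]
        calc c * (↑z₁ * ↑z₂ * (↑k₂ * ↑k₁)) = (c * (↑z₁ * ↑z₂)) * (↑k₂ * ↑k₁) := by group
          _ = ((↑z₁ * ↑z₂) * c) * (↑k₂ * ↑k₁) := by rw [hcz (↑z₁ * ↑z₂)]
          _ = ↑z₁ * ↑z₂ * (c * (↑k₂ * ↑k₁)) := by group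
      have h5 := mul_left_cancel this
      exact eq_mul_inv_of_mul_eq h5.symm
    rw [e3]
    exact K.mul_mem (K.mul_mem k₁.2 k₂.2) (K.inv_mem (K.mul_mem k₂.2 k₁.2))
  have := hK.disjoint
  rw [Subgroup.disjoint_def] at this
  exact hc1 (this hc hcK)

end Cfsg.Agent.S2738
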