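import Mathlib
import Cfsg.Statements.S2739

set_option autoImplicit false
open scoped Pointwise
open Cfsg

namespace Cfsg.Agent.S2739

section aux

variable {F : Type*} [Field F]

/-- second coefficient of the characteristic polynomial of a `3 × 3` matrix -/
def e2 (M : Matrix (Fin 3) (Fin 3) F) : F :=
  M 0 0 * M 1 1 - M 0 1 * M 1 0 + (M 0 0 * M 2 2 - M 0 2 * M 2 0) + (M 1 1 * M 2 2 - M 1 2 * M 2 1)

/-- Cayley-Hamilton for `3 × 3` matrices -/
theorem ch3 (M : Matrix (Fin 3) (Fin 3) F) :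
    M ^ 3 = M.trace • M ^ 2 - e2 M • M + M.det • (1 : Matrix (Fin 3) (Fin 3) F) := by
  ext i j
  fin_cases i <;> fin_cases j <;>
    simp [pow_succ, Matrix.mul_apply, Fin.sum_univ_three, Matrix.det_fin_three, Matrix.trace, e2] <;> ring

theorem tr_sq (M : Matrix (Fin 3) (Fin 3) F) : (M ^ 2).trace = M.trace ^ 2 - 2 * e2 M := by
  simp [pow_two, Matrix.trace, Matrix.mul_apply, Fin.sum_univ_three, e2]
  ring

theorem nonscalar_lin (M : Matrix (Fin 3) (Fin 3) F)
    (hns : ∀ μ : F, M ≠ μ • (1 : Matrix (Fin 3) (Fin 3) F)) (β γ : F)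
    (h : β • M + γ • (1 : Matrix (Fin 3) (Fin 3) F) = 0) : β = 0 ∧ γ = 0 := by
  by_cases hβ : β = 0
  · subst hβ
    rw [zero_smul, zero_add] at h
    refine ⟨rfl, ?_⟩
    have h00 := congrFun (congrFun h 0) 0
    simpa using h00
  · exfalso
    apply hns (-(β⁻¹ * γ))
    have h1 : β • M = -(γ • (1 : Matrix (Fin 3) (Fin 3) F)) := eq_neg_of_add_eq_zero_left h
    have h2 : M = β⁻¹ • (β • M) := by rw [smul_smul, inv_mul_cancel₀ hβ, one_smul]
    rw [h2, h1, smul_neg, smul_smul, neg_smul]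

theorem ord3_std (h2 : (2 : F) = 0) (ω : F) (hω : ω ^ 2 = ω + 1)
    (hcube : ∀ c : F, c ≠ 0 → c ^ 3 = 1)
    (M : Matrix (Fin 3) (Fin 3) F) (hdet : M.det = 1)
    (hns : ∀ μ : F, M ≠ μ • (1 : Matrix (Fin 3) (Fin 3) F)) (r : F) (hr : r ^ 3 = 1)
    (hM3 : M ^ 3 = r • (1 : Matrix (Fin 3) (Fin 3) F)) :
    ∃ P : Matrix (Fin 3) (Fin 3) F, P.det = 1 ∧ M * P = P * Matrix.diagonal ![1, ω, ω ^ 2] := by
  classical
  have hCH := ch3 M
  rw [hdet, one_smul] at hCH
  have hrel : M.trace • M ^ 2 + (-(e2 M)) • M + (1 - r) • (1 : Matrix (Fin 3) (Fin 3) F) = 0 := by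
    have h : M.trace • M ^ 2 - e2 M • M + 1 = r • (1 : Matrix (Fin 3) (Fin 3) F) := by
      rw [← hCH, hM3]
    rw [sub_smul, one_smul, neg_smul, ← h]
    abel
  have hr1 : r = 1 := by
    by_cases ha0 : M.trace = 0
    · rw [ha0, zero_smul, zero_add] at hrel
      have h := (nonscalar_lin M hns _ _ hrel).2
      linear_combination -h
    · have h1 : M.trace • M ^ 2 = e2 M • M + (r - 1) • (1 : Matrix (Fin 3) (Fin 3) F) := by
        have h' : M.trace • M ^ 2
            = -((-(e2 M)) • M + (1 - r) • (1 : Matrix (Fin 3) (Fin 3) F)) := by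
          rw [add_assoc] at hrel
          exact eq_neg_of_add_eq_zero_left hrel
        rw [h']
        module
      have hM2 : M ^ 2 = (M.trace⁻¹ * e2 M) • M
          + (M.trace⁻¹ * (r - 1)) • (1 : Matrix (Fin 3) (Fin 3) F) := by
        have h2' : M ^ 2 = M.trace⁻¹ • (M.trace • M ^ 2) := by
          rw [smul_smul, inv_mul_cancel₀ ha0, one_smul]
        rw [h2', h1, smul_add, smul_smul, smul_smul]
      generalize M.trace⁻¹ * e2 M = c at hM2
      generalize M.trace⁻¹ * (r - 1) = d at hM2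
      have hM3' : M ^ 3 = (c ^ 2 + d) • M + (c * d) • (1 : Matrix (Fin 3) (Fin 3) F) := by
        rw [pow_succ, hM2, add_mul, smul_mul_assoc, smul_mul_assoc, one_mul, ← pow_two, hM2]
        module
      have hrel2 : (c ^ 2 + d) • M + (c * d - r) • (1 : Matrix (Fin 3) (Fin 3) F) = 0 := by
        have h : (c ^ 2 + d) • M + (c * d) • (1 : Matrix (Fin 3) (Fin 3) F)
            = r • (1 : Matrix (Fin 3) (Fin 3) F) := by rw [← hM3', hM3]
        rw [sub_smul, ← add_sub_assoc, h, sub_self]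
      obtain ⟨h3, h4⟩ := nonscalar_lin M hns _ _ hrel2
      have hc0 : c ≠ 0 := by
        intro hc
        rw [hc] at h4
        have h5 : r = 0 := by linear_combination -h4
        rw [h5] at hr
        simp at hr
      have hc3 := hcube c hc0
      linear_combination -h4 + c * h3 - hc3 - h2
  have hM31 : M ^ 3 = 1 := by rw [hM3, hr1, one_smul]
  have hab : M.trace = 0 ∧ e2 M = 0 := by
    rw [hr1, sub_self, zero_smul, add_zero] at hrel
    have h5 : (M.trace • M + (-(e2 M)) • (1 : Matrix (Fin 3) (Fin 3) F)) * M = 0 := by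
      rw [add_mul, smul_mul_assoc, smul_mul_assoc, one_mul, ← pow_two]
      exact hrel
    have h6 : M.trace • M + (-(e2 M)) • (1 : Matrix (Fin 3) (Fin 3) F) = 0 := by
      have h := congrArg (· * M ^ 2) h5
      simp only [zero_mul] at h
      rw [mul_assoc, ← pow_succ', hM31, mul_one] at h
      exact h
    obtain ⟨h7, h8⟩ := nonscalar_lin M hns _ _ h6
    exact ⟨h7, neg_eq_zero.1 h8⟩
  have htr2 : (M ^ 2).trace = 0 := by
    rw [tr_sq, hab.1, hab.2]
    ring
  have hE : ∀ l : F, l ^ 3 = 1 → ∃ v : Fin 3 → F, v ≠ 0 ∧ M.mulVec v = l • v := by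
    intro l hl
    have hME : M * (1 + l ^ 2 • M + l • M ^ 2) = l • (1 + l ^ 2 • M + l • M ^ 2) := by
      rw [mul_add, mul_add, mul_one, mul_smul_comm, mul_smul_comm, ← pow_two, ← pow_succ', hM31]
      have h : l • (1 + l ^ 2 • M + l • M ^ 2)
          = l • (1 : Matrix (Fin 3) (Fin 3) F) + (l ^ 3) • M + l ^ 2 • M ^ 2 := by
        module
      rw [h, hl, one_smul]
      abel
    have hE0 : (1 + l ^ 2 • M + l • M ^ 2 : Matrix (Fin 3) (Fin 3) F) ≠ 0 := by
      intro h0
      have h := congrArg Matrix.trace h0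
      rw [Matrix.trace_add, Matrix.trace_add, Matrix.trace_smul, Matrix.trace_smul, htr2, hab.1,
        Matrix.trace_one, Matrix.trace_zero] at h
      simp only [Fintype.card_fin, smul_zero, add_zero] at h
      have h1 : (1 : F) = 0 := by
        have h3 : ((3 : ℕ) : F) = 1 + 2 := by norm_num
        rw [h3, h2, add_zero] at h
        exact h
      exact one_ne_zero h1
    obtain ⟨j, hj⟩ : ∃ j, (fun i => (1 + l ^ 2 • M + l • M ^ 2 : Matrix (Fin 3) (Fin 3) F) i j) ≠ 0 := by
      by_contra hcon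
      push Not at hcon
      apply hE0
      ext i j
      exact congrFun (hcon j) i
    refine ⟨_, hj, ?_⟩
    ext i
    have h := congrFun (congrFun hME i) j
    rw [Matrix.mul_apply] at h
    exact h
  have hω0 : ω ≠ 0 := by
    intro h
    rw [h] at hω
    simp at hω
  have hω3 : ω ^ 3 = 1 := hcube ω hω0
  obtain ⟨v1, hv1, he1⟩ := hE 1 (one_pow 3)
  obtain ⟨v2, hv2, he2⟩ := hE ω hω3
  obtain ⟨v3, hv3, he3⟩ := hE (ω ^ 2) (by rw [← pow_mul, mul_comm, pow_mul, hω3, one_pow])
  rw [one_smul] at he1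
  let P : Matrix (Fin 3) (Fin 3) F := Matrix.of fun i j => ![v1, v2, v3] j i
  have hP : ∀ x : Fin 3 → F, P.mulVec x = x 0 • v1 + x 1 • v2 + x 2 • v3 := by
    intro x
    ext i
    simp [P, Matrix.mulVec, dotProduct, Fin.sum_univ_three]
    ring
  have hPinj : Function.Injective P.mulVec := by
    have hlin : ∀ a b : Fin 3 → F, P.mulVec (a - b) = P.mulVec a - P.mulVec b :=
      fun a b => Matrix.mulVec_sub _ _ _
    intro a b hab'
    have h0 : P.mulVec (a - b) = 0 := by rw [hlin, hab', sub_self]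
    set x := a - b with hx
    rw [hP] at h0
    have h1 := congrArg M.mulVec h0
    rw [Matrix.mulVec_add, Matrix.mulVec_add, Matrix.mulVec_smul, Matrix.mulVec_smul,
      Matrix.mulVec_smul, he1, he2, he3, Matrix.mulVec_zero] at h1
    have h1' := congrArg M.mulVec h1
    rw [Matrix.mulVec_add, Matrix.mulVec_add, Matrix.mulVec_smul, Matrix.mulVec_smul,
      Matrix.mulVec_smul, Matrix.mulVec_smul, Matrix.mulVec_smul, he1, he2, he3,
      Matrix.mulVec_zero] at h1'
    have hA : ∀ i, x 0 * v1 i = 0 ∧ x 1 * v2 i = 0 ∧ x 2 * v3 i = 0 := by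
      intro i
      have e1 := congrFun h0 i
      have e2' := congrFun h1 i
      have e3 := congrFun h1' i
      simp only [Pi.add_apply, Pi.smul_apply, smul_eq_mul, Pi.zero_apply] at e1 e2' e3
      refine ⟨?_, ?_, ?_⟩ <;> grind
    have hx0 : x 0 = 0 := by
      by_contra hne
      apply hv1
      ext i
      exact (mul_eq_zero.1 (hA i).1).resolve_left hne
    have hx1 : x 1 = 0 := by
      by_contra hne
      apply hv2
      ext i
      exact (mul_eq_zero.1 (hA i).2.1).resolve_left hne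
    have hx2 : x 2 = 0 := by
      by_contra hne
      apply hv3
      ext i
      exact (mul_eq_zero.1 (hA i).2.2).resolve_left hne
    have hx' : x = 0 := by
      ext i
      fin_cases i
      · exact hx0
      · exact hx1
      · exact hx2
    exact sub_eq_zero.1 hx'
  have hPu : IsUnit P := Matrix.mulVec_injective_iff_isUnit.1 hPinj
  have hd : P.det ≠ 0 := ((Matrix.isUnit_iff_isUnit_det P).1 hPu).ne_zero
  have hMP : M * P = P * Matrix.diagonal ![1, ω, ω ^ 2] := by
    apply Matrix.mulVec_injective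
    funext x
    rw [← Matrix.mulVec_mulVec, ← Matrix.mulVec_mulVec, hP, hP, Matrix.mulVec_add,
      Matrix.mulVec_add, Matrix.mulVec_smul, Matrix.mulVec_smul, Matrix.mulVec_smul, he1, he2, he3]
    simp only [Matrix.mulVec_diagonal, Matrix.cons_val_zero, Matrix.cons_val_one,
      Matrix.cons_val_two, Matrix.head_cons, Matrix.tail_cons, one_mul, smul_smul]
    congr 2
    · rw [mul_comm]
    · rw [mul_comm]
  refine ⟨P * Matrix.diagonal ![1, 1, (P.det)⁻¹], ?_, ?_⟩
  · rw [Matrix.det_mul, Matrix.det_diagonal, Fin.prod_univ_three]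
    simp [hd]
  · rw [← Matrix.mul_assoc, hMP, Matrix.mul_assoc, Matrix.mul_assoc, Matrix.diagonal_mul_diagonal,
      Matrix.diagonal_mul_diagonal]
    congr 2
    ext i
    fin_cases i <;> simp [mul_comm]

end aux

/-- In the projective special linear group PSL(3, 4) all subgroups of order 3 are conjugate. -/
theorem result (F : Type*) [Field F] [Fintype F] (hF : Fintype.card F = 4) (X Y : Subgroup (Matrix.ProjectiveSpecialLinearGroup (Fin 3) F)) (hX : Nat.card ↥X = 3) (hY : Nat.card ↥Y = 3) : ∃ g : Matrix.ProjectiveSpecialLinearGroup (Fin 3) F, MulAut.conj g • X = Y := by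
  classical
  have h2 : (2 : F) = 0 := by
    have h4 : ((Fintype.card F : ℕ) : F) = 0 := Nat.cast_card_eq_zero F
    rw [hF] at h4
    have h5 : (2 : F) * 2 = 0 := by
      have h : ((4 : ℕ) : F) = 2 * 2 := by norm_num
      rw [← h]
      exact h4
    exact mul_self_eq_zero.1 h5
  have hcube : ∀ c : F, c ≠ 0 → c ^ 3 = 1 := by
    intro c hc
    have h := FiniteField.pow_card_sub_one_eq_one c hc
    rwa [hF] at h
  obtain ⟨ω, hω0, hω1⟩ : ∃ ω : F, ω ≠ 0 ∧ ω ≠ 1 := by
    by_contra hcon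
    push Not at hcon
    have hsub : (Finset.univ : Finset F) ⊆ {0, 1} := by
      intro x _
      by_cases hx : x = 0
      · simp [hx]
      · simp [hcon x hx]
    have h := Finset.card_le_card hsub
    rw [Finset.card_univ, hF] at h
    have h' : ({0, 1} : Finset F).card ≤ 2 := Finset.card_le_two
    omega
  have hω3 : ω ^ 3 = 1 := hcube ω hω0
  have hω : ω ^ 2 = ω + 1 := by
    have h : (ω - 1) * (ω ^ 2 + ω + 1) = 0 := by linear_combination hω3
    rcases mul_eq_zero.1 h with h | h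
    · exact absurd (sub_eq_zero.1 h) hω1
    · linear_combination h - (ω + 1) * h2
  have hDdet : (Matrix.diagonal ![1, ω, ω ^ 2] : Matrix (Fin 3) (Fin 3) F).det = 1 := by
    rw [Matrix.det_diagonal, Fin.prod_univ_three]
    simp only [Matrix.cons_val_zero, Matrix.cons_val_one, Matrix.cons_val_two, Matrix.head_cons,
      Matrix.tail_cons]
    linear_combination hω3
  let Ds : Matrix.SpecialLinearGroup (Fin 3) F := ⟨Matrix.diagonal ![1, ω, ω ^ 2], hDdet⟩
  have key : ∀ x : Matrix.ProjectiveSpecialLinearGroup (Fin 3) F, orderOf x = 3 →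
      ∃ P : Matrix.SpecialLinearGroup (Fin 3) F,
        x = QuotientGroup.mk (P * Ds * P⁻¹) := by
    intro x hx
    obtain ⟨g0, rfl⟩ := QuotientGroup.mk_surjective x
    have hx3 : (QuotientGroup.mk g0 : Matrix.ProjectiveSpecialLinearGroup (Fin 3) F) ^ 3 = 1 := by
      have h := pow_orderOf_eq_one (QuotientGroup.mk g0 : Matrix.ProjectiveSpecialLinearGroup (Fin 3) F)
      rw [hx] at h
      exact h
    have hx1 : (QuotientGroup.mk g0 : Matrix.ProjectiveSpecialLinearGroup (Fin 3) F) ≠ 1 := by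
      intro h
      rw [h, orderOf_one] at hx
      omega
    have hz : g0 ^ 3 ∈ Subgroup.center (Matrix.SpecialLinearGroup (Fin 3) F) := by
      rw [← QuotientGroup.eq_one_iff, QuotientGroup.mk_pow]
      exact hx3
    obtain ⟨r, hr, hrz⟩ := Matrix.SpecialLinearGroup.mem_center_iff.1 hz
    have hr3 : r ^ 3 = 1 := by simpa using hr
    have hM3 : g0.1 ^ 3 = r • (1 : Matrix (Fin 3) (Fin 3) F) := by
      have h : (g0 ^ 3).1 = g0.1 ^ 3 := Matrix.SpecialLinearGroup.coe_pow g0 3
      rw [← h, ← hrz, Matrix.scalar_apply, Matrix.smul_one_eq_diagonal]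
    have hns : ∀ μ : F, g0.1 ≠ μ • (1 : Matrix (Fin 3) (Fin 3) F) := by
      intro μ hμ
      apply hx1
      rw [QuotientGroup.eq_one_iff, Matrix.SpecialLinearGroup.mem_center_iff]
      have hdet : g0.1.det = 1 := g0.2
      refine ⟨μ, ?_, ?_⟩
      · rw [hμ, Matrix.det_smul, Matrix.det_one, mul_one] at hdet
        simpa using hdet
      · rw [Matrix.scalar_apply, ← Matrix.smul_one_eq_diagonal]
        exact hμ.symm
    obtain ⟨P, hPd, hPg⟩ := ord3_std h2 ω hω hcube g0.1 g0.2 hns r hr3 hM3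
    let Ps : Matrix.SpecialLinearGroup (Fin 3) F := ⟨P, hPd⟩
    have h7 : g0 * Ps = Ps * Ds := Subtype.ext hPg
    refine ⟨Ps, ?_⟩
    congr 1
    exact eq_mul_inv_of_mul_eq h7
  have gen : ∀ X : Subgroup (Matrix.ProjectiveSpecialLinearGroup (Fin 3) F), Nat.card ↥X = 3 →
      ∃ x : Matrix.ProjectiveSpecialLinearGroup (Fin 3) F, orderOf x = 3 ∧
        X = Subgroup.zpowers x := by
    intro X hX
    haveI : Finite X := Nat.finite_of_card_ne_zero (by rw [hX]; norm_num)
    obtain ⟨x, hx⟩ : ∃ x : X, x ≠ 1 := by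
      by_contra hcon
      push Not at hcon
      have h1 : Nat.card X = 1 :=
        Nat.card_eq_one_iff_unique.2 ⟨⟨fun a b => by rw [hcon a, hcon b]⟩, ⟨1⟩⟩
      omega
    have ho : orderOf x = 3 := by
      have hdvd := orderOf_dvd_natCard x
      rw [hX] at hdvd
      rcases (Nat.dvd_prime Nat.prime_three).1 hdvd with h | h
      · exact absurd (orderOf_eq_one_iff.1 h) hx
      · exact h
    have ho' : orderOf (x : Matrix.ProjectiveSpecialLinearGroup (Fin 3) F) = 3 := by
      rw [Subgroup.orderOf_coe]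
      exact ho
    refine ⟨x, ho', ?_⟩
    symm
    apply Subgroup.eq_of_le_of_card_ge
    · rw [Subgroup.zpowers_le]
      exact x.2
    · rw [hX, Nat.card_zpowers, ho']
  obtain ⟨x, hxo, rfl⟩ := gen X hX
  obtain ⟨y, hyo, rfl⟩ := gen Y hY
  obtain ⟨P, rfl⟩ := key x hxo
  obtain ⟨Q, rfl⟩ := key y hyo
  refine ⟨QuotientGroup.mk (Q * P⁻¹), ?_⟩
  rw [Subgroup.pointwise_smul_def]
  show (Subgroup.zpowers (QuotientGroup.mk (P * Ds * P⁻¹)
      : Matrix.ProjectiveSpecialLinearGroup (Fin 3) F)).map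
    (MulAut.conj (QuotientGroup.mk (Q * P⁻¹)
      : Matrix.ProjectiveSpecialLinearGroup (Fin 3) F)).toMonoidHom = _
  rw [MonoidHom.map_zpowers]
  congr 1
  show (QuotientGroup.mk (Q * P⁻¹) : Matrix.ProjectiveSpecialLinearGroup (Fin 3) F)
    * QuotientGroup.mk (P * Ds * P⁻¹) * (QuotientGroup.mk (Q * P⁻¹))⁻¹ = QuotientGroup.mk (Q * Ds * Q⁻¹)
  rw [← QuotientGroup.mk_inv, ← QuotientGroup.mk_mul, ← QuotientGroup.mk_mul]
  congr 1
  group

end Cfsg.Agent.S2739
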