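import Cfsg.Statements.S2758
import Cfsg.Agent.Helper16.Dihedral

set_option autoImplicit false
open Cfsg

namespace Cfsg.Agent.S2758

open Cfsg.Agent.Helper16

theorem involves_to_A {G : Type*} [Group G] [Finite G] {p : ℕ} [Fact p.Prime] (hp : p ≠ 2)
    (h : Cfsg.Involves (DihedralGroup p) G) :
    ∃ (x : G) (P : Subgroup G), (∃ k : ℕ, orderOf x = 2 ^ k) ∧ IsPGroup p ↥P ∧
      x ∈ Subgroup.normalizer (P : Set G) ∧ x ∉ Subgroup.centralizer (P : Set G) := by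
  obtain ⟨K, R, hn, ⟨e⟩⟩ := h
  have hsurj : Function.Surjective (e.toMonoidHom.comp (QuotientGroup.mk' (R.subgroupOf K))) :=
    e.surjective.comp (QuotientGroup.mk'_surjective _)
  obtain ⟨x, P, ⟨k, hk⟩, hP, hxN, hxC⟩ := exists_two_elt_of_surj_dihedral hp _ hsurj
  refine ⟨(x : G), P.map K.subtype, ⟨k, ?_⟩, hP.map _, ?_, ?_⟩
  · rw [Subgroup.orderOf_coe, hk]
  · exact Subgroup.le_normalizer_map K.subtype ⟨x, hxN, rfl⟩
  · intro hC
    apply hxC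
    rw [Subgroup.mem_centralizer_iff]
    intro h hh
    apply Subtype.ext
    have := (Subgroup.mem_centralizer_iff.mp hC) (h : G) ⟨h, hh, rfl⟩
    simpa using this

theorem A_to_B {G : Type*} [Group G] [Finite G] {p : ℕ} [Fact p.Prime]
    (h : ∃ (x : G) (P : Subgroup G), (∃ k : ℕ, orderOf x = 2 ^ k) ∧ IsPGroup p ↥P ∧
      x ∈ Subgroup.normalizer (P : Set G) ∧ x ∉ Subgroup.centralizer (P : Set G)) :
    ∃ x y : G, (∃ k : ℕ, orderOf x = 2 ^ k) ∧ (∃ k : ℕ, orderOf y = p ^ k) ∧ y ≠ 1 ∧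
      x * y * x⁻¹ = y⁻¹ := by
  obtain ⟨x, P, hx, hP, hxN, hxC⟩ := h
  exact exists_inverted_of_normalizes P hP (orderOf x) x rfl hx hxN hxC

theorem B_to_involves {G : Type*} [Group G] [Finite G] {p : ℕ} [Fact p.Prime] (hp : p ≠ 2)
    (h : ∃ x y : G, (∃ k : ℕ, orderOf x = 2 ^ k) ∧ (∃ k : ℕ, orderOf y = p ^ k) ∧ y ≠ 1 ∧
      x * y * x⁻¹ = y⁻¹) : Cfsg.Involves (DihedralGroup p) G := by
  have hpp : p.Prime := Fact.out
  obtain ⟨x, y, hx, ⟨j, hj⟩, hy1, hxy⟩ := h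
  have hj0 : j ≠ 0 := by
    rintro rfl
    rw [pow_zero, orderOf_eq_one_iff] at hj
    exact hy1 hj
  obtain ⟨j', rfl⟩ := Nat.exists_eq_succ_of_ne_zero hj0
  have hord : orderOf (y ^ p ^ j') = p := by
    rw [orderOf_pow' y (pow_ne_zero _ hpp.ne_zero), hj, pow_succ,
      Nat.gcd_eq_right (dvd_mul_right _ _), Nat.mul_div_cancel_left _ (pow_pos hpp.pos _)]
  have hinv : x * y ^ p ^ j' * x⁻¹ = (y ^ p ^ j')⁻¹ := by
    rw [← conj_pow, hxy, inv_pow]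
  exact involves_dihedral_of_inverts hp x (y ^ p ^ j') hx hord hinv

theorem result {G : Type*} [Group G] [Finite G] {p : ℕ} [Fact p.Prime] (hp : p ≠ 2) : (Cfsg.Involves (DihedralGroup p) G ↔ ∃ (x : G) (P : Subgroup G), (∃ k : ℕ, orderOf x = 2 ^ k) ∧ IsPGroup p ↥P ∧ x ∈ Subgroup.normalizer (P : Set G) ∧ x ∉ Subgroup.centralizer (P : Set G)) ∧ (Cfsg.Involves (DihedralGroup p) G ↔ ∃ x y : G, (∃ k : ℕ, orderOf x = 2 ^ k) ∧ (∃ k : ℕ, orderOf y = p ^ k) ∧ y ≠ 1 ∧ x * y * x⁻¹ = y⁻¹) :=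
  ⟨⟨involves_to_A hp, fun h => B_to_involves hp (A_to_B h)⟩,
    ⟨fun h => A_to_B (involves_to_A hp h), B_to_involves hp⟩⟩

end Cfsg.Agent.S2758
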