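import Cfsg.Statements.S2760
import Cfsg.Agent.Helper16.CharP

set_option autoImplicit false
open Cfsg

namespace Cfsg.Agent.S2760

open Cfsg.Agent.Helper16

theorem result {G : Type*} [Group G] [Finite G] (hchar : Subgroup.centralizer (Cfsg.pCore 2 G : Set G) ≤ Cfsg.pCore 2 G) (H : Subgroup G) (hH : H.Normal ∨ ((Cfsg.pResidual 2 ↥H).map H.subtype).Normal) : Subgroup.centralizer (Cfsg.pCore 2 ↥H : Set ↥H) ≤ Cfsg.pCore 2 ↥H := by
  apply centralizer_pCore_le_of_forall_coprime
  intro y hy hyo
  have hyo' : (orderOf (y : G)).Coprime 2 := by rw [Subgroup.orderOf_coe]; exact hyo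
  have hcomm : ∀ r ∈ pCoreOf 2 H, (y : G) * r = r * (y : G) := by
    rintro _ ⟨n, hn, rfl⟩
    have h2 := (Subgroup.mem_centralizer_iff.mp hy) n hn
    have h3 := congrArg (Subtype.val) h2
    simpa using h3.symm
  rcases hH with hH | hH
  · have h1 : (y : G) = 1 := eq_one_of_centralizes_pCoreOf hchar H (y : G) y.2 hyo' hcomm
    exact Subtype.ext h1
  · have hyK : (y : G) ∈ (Cfsg.pResidual 2 ↥H).map H.subtype := by
      refine ⟨y, ?_, rfl⟩
      exact Subgroup.subset_closure hyo
    have hKH : (Cfsg.pResidual 2 ↥H).map H.subtype ≤ H := Subgroup.map_subtype_le _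
    have hle : pCoreOf 2 ((Cfsg.pResidual 2 ↥H).map H.subtype) ≤ pCoreOf 2 H := by
      apply le_pCoreOf
      · exact (Subgroup.map_subtype_le _).trans hKH
      · intro z _
        rw [Subgroup.mem_normalizer_iff]
        have h1 := pCoreOf_map_conj 2 ((Cfsg.pResidual 2 ↥H).map H.subtype) z
        have h2 : ((Cfsg.pResidual 2 ↥H).map H.subtype).map (MulAut.conj z).toMonoidHom =
            (Cfsg.pResidual 2 ↥H).map H.subtype := by
          ext w
          constructor
          · rintro ⟨v, hv, rfl⟩
            exact hH.conj_mem v hv z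
          · intro hw
            exact ⟨z⁻¹ * w * z, by simpa using hH.conj_mem w hw z⁻¹, by simp [mul_assoc]⟩
        rw [h2] at h1
        intro w
        constructor
        · intro hw
          rw [h1]
          exact ⟨w, hw, rfl⟩
        · intro hw
          rw [h1] at hw
          obtain ⟨v, hv, hvw⟩ := hw
          have : v = w := by
            have : z * v * z⁻¹ = z * w * z⁻¹ := hvw
            simpa using this
          rw [← this]; exact hv
      · unfold pCoreOf
        exact (isPGroup_pCore 2 _).map _
    have h1 : (y : G) = 1 :=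
      eq_one_of_centralizes_pCoreOf hchar ((Cfsg.pResidual 2 ↥H).map H.subtype) (y : G) hyK hyo'
        (fun r hr => hcomm r (hle hr))
    exact Subtype.ext h1

end Cfsg.Agent.S2760
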