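import Cfsg.Statements.S2761

set_option autoImplicit false
open Cfsg

namespace Cfsg.Agent.S2761

open Matrix

/-- affine points -/
abbrev Pt : Type := {v : Fin 3 → ZMod 2 // v 2 = 1}

/-- matrices with last row `(0,0,1)` -/
def K : Subgroup (Matrix.SpecialLinearGroup (Fin 3) (ZMod 2)) where
  carrier := {M | (M : Matrix (Fin 3) (Fin 3) (ZMod 2)) 2 = ![0, 0, 1]}
  mul_mem' := by
    intro M N hM hN
    simp only [Set.mem_setOf_eq] at hM hN ⊢
    rw [Matrix.SpecialLinearGroup.coe_mul, Matrix.mul_apply_eq_vecMul, hM]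
    funext j
    simp [Matrix.vecMul, dotProduct, Fin.sum_univ_three, hN]
  one_mem' := by
    simp only [Set.mem_setOf_eq, Matrix.SpecialLinearGroup.coe_one]
    funext j
    fin_cases j <;> simp [Matrix.one_apply]
  inv_mem' := by
    intro M hM
    simp only [Set.mem_setOf_eq] at hM ⊢
    have h1 : ((M * M⁻¹ : Matrix.SpecialLinearGroup (Fin 3) (ZMod 2)) : Matrix (Fin 3) (Fin 3) (ZMod 2)) 2 = ![0, 0, 1] := by
      rw [mul_inv_cancel, Matrix.SpecialLinearGroup.coe_one]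
      funext j
      fin_cases j <;> simp [Matrix.one_apply]
    rw [Matrix.SpecialLinearGroup.coe_mul, Matrix.mul_apply_eq_vecMul, hM] at h1
    rw [← h1]
    funext j
    simp [Matrix.vecMul, dotProduct, Fin.sum_univ_three]

theorem qd_le : Cfsg.qd 2 ≤ K := by
  unfold Cfsg.qd
  rw [Subgroup.closure_le]
  rintro M ⟨h0, h1, h2⟩
  show (M : Matrix (Fin 3) (Fin 3) (ZMod 2)) 2 = ![0, 0, 1]
  funext j
  fin_cases j
  · exact h0
  · exact h1
  · exact h2

theorem mem_qd {M : Matrix.SpecialLinearGroup (Fin 3) (ZMod 2)}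
    (h : (M : Matrix (Fin 3) (Fin 3) (ZMod 2)) 2 = ![0, 0, 1]) : M ∈ Cfsg.qd 2 := by
  apply Subgroup.subset_closure
  refine ⟨?_, ?_, ?_⟩
  · rw [h]; rfl
  · rw [h]; rfl
  · rw [h]; rfl

theorem smul_mem (M : Cfsg.qd 2) (v : Pt) :
    ((M : Matrix.SpecialLinearGroup (Fin 3) (ZMod 2)) : Matrix (Fin 3) (Fin 3) (ZMod 2)).mulVec v.1 2 = 1 := by
  have h : ((M : Matrix.SpecialLinearGroup (Fin 3) (ZMod 2)) : Matrix (Fin 3) (Fin 3) (ZMod 2)) 2 = ![0, 0, 1] :=
    qd_le M.2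
  simp only [Matrix.mulVec, h]
  simp [dotProduct, Fin.sum_univ_three, v.2]

instance : MulAction (Cfsg.qd 2) Pt where
  smul M v := ⟨((M : Matrix.SpecialLinearGroup (Fin 3) (ZMod 2)) : Matrix (Fin 3) (Fin 3) (ZMod 2)).mulVec v.1, smul_mem M v⟩
  one_smul v := by
    apply Subtype.ext
    show ((((1 : Cfsg.qd 2) : Matrix.SpecialLinearGroup (Fin 3) (ZMod 2))) : Matrix (Fin 3) (Fin 3) (ZMod 2)).mulVec v.1 = v.1
    simp
  mul_smul M N v := by
    apply Subtype.ext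
    show ((((M * N : Cfsg.qd 2) : Matrix.SpecialLinearGroup (Fin 3) (ZMod 2))) : Matrix (Fin 3) (Fin 3) (ZMod 2)).mulVec v.1
      = ((M : Matrix.SpecialLinearGroup (Fin 3) (ZMod 2)) : Matrix (Fin 3) (Fin 3) (ZMod 2)).mulVec
        (((N : Matrix.SpecialLinearGroup (Fin 3) (ZMod 2)) : Matrix (Fin 3) (Fin 3) (ZMod 2)).mulVec v.1)
    simp [Matrix.mulVec_mulVec]

theorem smul_val (M : Cfsg.qd 2) (v : Pt) :
    (M • v).1 = ((M : Matrix.SpecialLinearGroup (Fin 3) (ZMod 2)) : Matrix (Fin 3) (Fin 3) (ZMod 2)).mulVec v.1 := rfl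

/-- explicit enumeration of the points -/
def pts : Fin 4 → Pt :=
  ![⟨![0, 0, 1], rfl⟩, ⟨![1, 0, 1], rfl⟩, ⟨![0, 1, 1], rfl⟩, ⟨![1, 1, 1], rfl⟩]

theorem pts_bij : Function.Bijective pts := by decide

noncomputable def e : Fin 4 ≃ Pt := Equiv.ofBijective pts pts_bij

theorem e_apply (i : Fin 4) : e i = pts i := rfl

noncomputable def f : Cfsg.qd 2 →* Equiv.Perm (Fin 4) :=
  (Equiv.permCongrHom e.symm).toMonoidHom.comp (MulAction.toPermHom (Cfsg.qd 2) Pt)

theorem f_apply (M : Cfsg.qd 2) (i : Fin 4) : e (f M i) = M • e i := by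
  simp [f, Equiv.permCongrHom]

theorem f_injective : Function.Injective f := by
  rw [injective_iff_map_eq_one]
  intro M hM
  have h : ∀ i : Fin 4, ((M : Matrix.SpecialLinearGroup (Fin 3) (ZMod 2)) : Matrix (Fin 3) (Fin 3) (ZMod 2)).mulVec (pts i).1 = (pts i).1 := by
    intro i
    have := f_apply M i
    rw [hM, Equiv.Perm.one_apply, e_apply] at this
    rw [← smul_val, ← this]
  apply Subtype.ext
  apply Subtype.ext
  show ((M : Matrix.SpecialLinearGroup (Fin 3) (ZMod 2)) : Matrix (Fin 3) (Fin 3) (ZMod 2)) = 1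
  have h0 := h 0
  have h1 := h 1
  have h2 := h 2
  ext i j
  have h0i := congrFun h0 i
  have h1i := congrFun h1 i
  have h2i := congrFun h2 i
  simp only [pts, Matrix.mulVec, dotProduct, Fin.sum_univ_three] at h0i h1i h2i
  fin_cases i <;> fin_cases j <;> simp at h0i h1i h2i ⊢ <;> simp_all

theorem f_eq_swap (M : Cfsg.qd 2) (a b : Fin 4)
    (h : ∀ x : Fin 4, ((M : Matrix.SpecialLinearGroup (Fin 3) (ZMod 2)) : Matrix (Fin 3) (Fin 3) (ZMod 2)).mulVec (pts x).1 = (pts (Equiv.swap a b x)).1) :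
    f M = Equiv.swap a b := by
  apply Equiv.ext
  intro x
  apply e.injective
  rw [f_apply, e_apply, e_apply]
  apply Subtype.ext
  rw [smul_val]
  exact h x

def m01 : Matrix.SpecialLinearGroup (Fin 3) (ZMod 2) :=
  ⟨!![1, 1, 1; 0, 1, 0; 0, 0, 1], by rw [Matrix.det_fin_three]; decide⟩

def m12 : Matrix.SpecialLinearGroup (Fin 3) (ZMod 2) :=
  ⟨!![0, 1, 0; 1, 0, 0; 0, 0, 1], by rw [Matrix.det_fin_three]; decide⟩

def m23 : Matrix.SpecialLinearGroup (Fin 3) (ZMod 2) :=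
  ⟨!![1, 1, 0; 0, 1, 0; 0, 0, 1], by rw [Matrix.det_fin_three]; decide⟩

theorem swap_mem (i : Fin 3) : Equiv.swap i.castSucc i.succ ∈ f.range := by
  fin_cases i
  · refine ⟨⟨m01, mem_qd (by decide)⟩, ?_⟩
    apply f_eq_swap
    decide
  · refine ⟨⟨m12, mem_qd (by decide)⟩, ?_⟩
    apply f_eq_swap
    decide
  · refine ⟨⟨m23, mem_qd (by decide)⟩, ?_⟩
    apply f_eq_swap
    decide

theorem f_surjective : Function.Surjective f := by
  rw [← MonoidHom.range_eq_top, eq_top_iff,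
    ← Subgroup.closure_eq_top_of_mclosure_eq_top (Equiv.Perm.mclosure_swap_castSucc_succ 3),
    Subgroup.closure_le]
  rintro _ ⟨i, rfl⟩
  exact swap_mem i

theorem result : Nonempty (↥(Cfsg.qd 2) ≃* Equiv.Perm (Fin 4)) :=
  ⟨MulEquiv.ofBijective f ⟨f_injective, f_surjective⟩⟩

end Cfsg.Agent.S2761
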