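import Cfsg.Statements.S2779
-- import your own Cfsg.Agent.* helpers here
import Cfsg.Agent.Helper29.NatSL2

set_option autoImplicit false
open Cfsg

namespace Cfsg.Agent.S2779

open scoped commutatorElement

/-- Let L act on the elementary abelian p-group V (inside a finite group, by conjugation, faithfully) as SL₂(F) on its natural module, F a field with p^n elements, and let S be a Sylow p-subgroup of L. Then [V, S, S] = 1; |V| = p^(2n) and |C_V(S)| = p^n; and for every nonidentity s ∈ S and every v ∈ V outside C_V(S): C_V(s) = C_V(S) = [V, S] = [V, s] = the subgroup generated by the commutators [v, t], t ∈ S. -/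
theorem result {G : Type*} [Group G] [Finite G] {p : ℕ} [Fact p.Prime] {F : Type*} [Field F] [Fintype F] (n : ℕ) (hF : Fintype.card F = p ^ n) (V L : Subgroup G) (hnat : Cfsg.IsNaturalSL2Module F V L) (hf : L ⊓ Subgroup.centralizer (V : Set G) = ⊥) (S : Sylow p ↥L) (T : Subgroup G) (hT : T = ((S : Subgroup ↥L).map L.subtype)) : ⁅⁅V, T⁆, T⁆ = ⊥ ∧ Nat.card V = p ^ (2 * n) ∧ Nat.card ↥(V ⊓ Subgroup.centralizer ((T : Subgroup G) : Set G)) = p ^ n ∧ ∀ s ∈ T, s ≠ 1 → (V ⊓ Subgroup.centralizer ({s} : Set G)) = (V ⊓ Subgroup.centralizer ((T : Subgroup G) : Set G)) ∧ ⁅V, T⁆ = (V ⊓ Subgroup.centralizer ((T : Subgroup G) : Set G)) ∧ ⁅V, Subgroup.zpowers s⁆ = (V ⊓ Subgroup.centralizer ((T : Subgroup G) : Set G)) ∧ ∀ v ∈ V, v ∉ Subgroup.centralizer (T : Set G) → Subgroup.closure {x : G | ∃ t ∈ T, x = v * t * v⁻¹ * t⁻¹} = (V ⊓ Subgroup.centralizer ((T : Subgroup G) : Set G)) := by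
  obtain ⟨D⟩ := Cfsg.Agent.Helper29.exists_stdData n hF V L hnat hf S T hT
  have hcomm_le : ⁅V, T⁆ ≤ V ⊓ Subgroup.centralizer (T : Set G) := by
    rw [Subgroup.commutator_le]
    intro v hv t ht
    obtain ⟨w, hw, hc⟩ := D.comm_T ht ⟨v, hv⟩
    have e : ⁅v, t⁆ = (w : G) := by rw [hw, commutatorElement_def]
    rw [e]
    exact ⟨w.2, (D.mem_CT w).mpr (by rw [hc]; rfl)⟩
  have hrep : ∀ (t : G) (ht : t ∈ T), D.xof ht ≠ 0 →
      ∀ g ∈ V ⊓ Subgroup.centralizer (T : Set G),
      ∃ v : V, g = (v : G) * t * (v : G)⁻¹ * t⁻¹ := by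
    intro t ht hx g hg
    have h1 : D.co ⟨g, hg.1⟩ 1 = 0 := (D.mem_CT ⟨g, hg.1⟩).mp hg.2
    obtain ⟨v, hv⟩ := D.co_surj ![0, -(D.co ⟨g, hg.1⟩ 0 / D.xof ht)]
    obtain ⟨w, hw, hc⟩ := D.comm_T ht v
    refine ⟨v, ?_⟩
    have e : w = ⟨g, hg.1⟩ := by
      apply D.co_inj
      rw [hc, hv]
      apply Cfsg.Agent.Helper29.vec2_ext
      · simp
        field_simp
      · simp [h1]
    have e' : (w : G) = g := congrArg (fun z : V => (z : G)) e
    rw [← e', hw]
  refine ⟨?_, ?_, ?_, ?_⟩
  · rw [Subgroup.commutator_eq_bot_iff_le_centralizer]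
    exact hcomm_le.trans inf_le_right
  · rw [D.card_V, hF, ← pow_mul, mul_comm]
  · rw [D.card_CVT, hF]
  · intro s hs hs1
    have hx : D.xof hs ≠ 0 := D.xof_ne_zero hs hs1
    refine ⟨?_, ?_, ?_, ?_⟩
    · apply le_antisymm
      · rintro g ⟨hgV, hgs⟩
        refine ⟨hgV, ?_⟩
        obtain ⟨w, hw, hc⟩ := D.conj_T hs ⟨g, hgV⟩
        have h1 : s * g = g * s := Subgroup.mem_centralizer_iff.mp hgs s (Set.mem_singleton s)
        have h2 : w = ⟨g, hgV⟩ := by
          apply Subtype.ext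
          rw [hw]
          show s * g * s⁻¹ = g
          rw [h1, mul_inv_cancel_right]
        rw [h2] at hc
        have h3 := congrFun hc 0
        simp at h3
        exact (D.mem_CT ⟨g, hgV⟩).mpr (h3.resolve_left hx)
      · exact inf_le_inf_left V (Subgroup.centralizer_le (Set.singleton_subset_iff.mpr hs))
    · apply le_antisymm hcomm_le
      intro g hg
      obtain ⟨v, hv⟩ := hrep s hs hx g hg
      rw [hv, ← commutatorElement_def]
      exact Subgroup.commutator_mem_commutator v.2 hs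
    · apply le_antisymm
      · exact (Subgroup.commutator_mono le_rfl
          (by rw [Subgroup.zpowers_le]; exact hs)).trans hcomm_le
      · intro g hg
        obtain ⟨v, hv⟩ := hrep s hs hx g hg
        rw [hv, ← commutatorElement_def]
        exact Subgroup.commutator_mem_commutator v.2 (Subgroup.mem_zpowers s)
    · intro v hv hvT
      apply le_antisymm
      · rw [Subgroup.closure_le]
        rintro x ⟨t, ht, rfl⟩
        apply hcomm_le
        rw [← commutatorElement_def]
        exact Subgroup.commutator_mem_commutator hv ht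
      · intro g hg
        apply Subgroup.subset_closure
        have hb : D.co ⟨v, hv⟩ 1 ≠ 0 := fun h => hvT ((D.mem_CT ⟨v, hv⟩).mpr h)
        obtain ⟨t, ht, hxt⟩ := D.exists_T (-(D.co ⟨g, hg.1⟩ 0 / D.co ⟨v, hv⟩ 1))
        obtain ⟨w, hw, hc⟩ := D.comm_T ht ⟨v, hv⟩
        refine ⟨t, ht, ?_⟩
        have h1 : D.co ⟨g, hg.1⟩ 1 = 0 := (D.mem_CT ⟨g, hg.1⟩).mp hg.2
        have e : w = ⟨g, hg.1⟩ := by
          apply D.co_inj
          rw [hc, hxt]
          apply Cfsg.Agent.Helper29.vec2_ext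
          · simp
            field_simp
          · simp [h1]
        have e' : (w : G) = g := congrArg (fun z : V => (z : G)) e
        rw [← e', hw]

end Cfsg.Agent.S2779
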