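import Cfsg.Statements.S2780
-- import your own Cfsg.Agent.* helpers here
import Cfsg.Agent.Helper29.NatSL2

set_option autoImplicit false
open Cfsg

namespace Cfsg.Agent.S2780

open scoped Matrix
open Cfsg.Agent.Helper29

theorem mem_cent_map_conj {G : Type*} [Group G] (T : Subgroup G) (g v : G) :
    v ∈ Subgroup.centralizer ((T.map (MulAut.conj g).toMonoidHom : Subgroup G) : Set G) ↔
      g⁻¹ * v * g ∈ Subgroup.centralizer (T : Set G) := by
  rw [Subgroup.mem_centralizer_iff, Subgroup.mem_centralizer_iff]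
  constructor
  · intro h t ht
    have h1 := h (g * t * g⁻¹) ⟨t, ht, rfl⟩
    calc t * (g⁻¹ * v * g) = g⁻¹ * (g * t * g⁻¹ * v) * g := by group
      _ = g⁻¹ * (v * (g * t * g⁻¹)) * g := by rw [h1]
      _ = g⁻¹ * v * g * t := by group
  · rintro h y ⟨t, ht, rfl⟩
    have h1 := h t ht
    show g * t * g⁻¹ * v = v * (g * t * g⁻¹)
    calc g * t * g⁻¹ * v = g * (t * (g⁻¹ * v * g)) * g⁻¹ := by group
      _ = g * (g⁻¹ * v * g * t) * g⁻¹ := by rw [h1]
      _ = v * (g * t * g⁻¹) := by group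

theorem m2_zero {R : Type*} [Zero R] {a b c d : R} (h1 : a = 0) (h2 : b = 0) (h3 : c = 0)
    (h4 : d = 0) : (!![a, b; c, d] : Matrix (Fin 2) (Fin 2) R) = 0 := by
  subst h1 h2 h3 h4
  ext i j
  fin_cases i <;> fin_cases j <;> rfl

theorem pow_p_eq_one {F : Type*} [Field F] {p : ℕ} (hp0 : (p : F) = 0)
    (A : Matrix.SpecialLinearGroup (Fin 2) F) (u : Fin 2 → F) (hu : u ≠ 0)
    (hA : A.1 *ᵥ u = u) : A ^ p = 1 := by
  have E1 := congrFun hA 0
  have E2 := congrFun hA 1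
  rw [mv2_0] at E1
  rw [mv2_1] at E2
  have hd := sl2_det A
  have htr : A.1 0 0 + A.1 1 1 = 2 := by
    have h0 : (2 - A.1 0 0 - A.1 1 1) * u 0 = 0 := by
      linear_combination (A.1 1 1 - 1) * E1 - A.1 0 1 * E2 - u 0 * hd
    have h1 : (2 - A.1 0 0 - A.1 1 1) * u 1 = 0 := by
      linear_combination (A.1 0 0 - 1) * E2 - A.1 1 0 * E1 - u 1 * hd
    by_contra hne
    have hne' : 2 - A.1 0 0 - A.1 1 1 ≠ 0 := fun h => hne (by linear_combination -h)
    apply hu
    apply vec2_ext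
    · exact (mul_eq_zero.mp h0).resolve_left hne'
    · exact (mul_eq_zero.mp h1).resolve_left hne'
  have eN : A.1 - 1 = !![A.1 0 0 - 1, A.1 0 1; A.1 1 0, A.1 1 1 - 1] := by
    ext i j
    fin_cases i <;> fin_cases j <;> simp [Matrix.sub_apply]
  have hN : (A.1 - 1) * (A.1 - 1) = 0 := by
    rw [eN, Matrix.mul_fin_two]
    exact m2_zero (by linear_combination A.1 0 0 * htr - hd) (by linear_combination A.1 0 1 * htr)
      (by linear_combination A.1 1 0 * htr) (by linear_combination A.1 1 1 * htr - hd)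
  obtain ⟨N, hNdef⟩ : ∃ N, N = A.1 - 1 := ⟨_, rfl⟩
  rw [← hNdef] at hN
  have hAN : A.1 = 1 + N := by rw [hNdef]; abel
  have hpow : ∀ k : ℕ, A.1 ^ k = 1 + (k : F) • N := by
    intro k
    induction k with
    | zero => simp
    | succ k ih =>
      rw [pow_succ, ih]
      conv_lhs => rw [hAN]
      rw [mul_add, mul_one, add_mul, one_mul, smul_mul_assoc, hN, smul_zero, add_zero,
        Nat.cast_succ, add_smul, one_smul]
      abel
  apply Subtype.ext
  rw [Matrix.SpecialLinearGroup.coe_pow, hpow, hp0, zero_smul, add_zero]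
  rfl

theorem hMat_mv {F : Type*} [Field F] (a : F) (ha : a ≠ 0) (v : Fin 2 → F) :
    (hMat a ha).1 *ᵥ v = ![a * v 0, a⁻¹ * v 1] := by
  obtain ⟨e00, e01, e10, e11⟩ := hMat_entries a ha
  apply vec2_ext
  · rw [mv2_0, e00, e01]; simp
  · rw [mv2_1, e10, e11]; simp

/-- Let L act on the elementary abelian p-group V (inside a finite group, faithfully) as SL₂(F) on its natural module, F a field with p^n elements, S a Sylow p-subgroup of L. Then: for every g ∈ L not normalizing S, V is the internal direct product of C_V(S) and C_V(gSg⁻¹); every nonidentity element of L of order prime to p acts on V without nonidentity fixed points; and C_V(S) and V/C_V(S) are irreducible for N_L(S): the only N_L(S)-invariant subgroups of C_V(S) are 1 and C_V(S), and the only N_L(S)-invariant subgroups between C_V(S) and V are those two. -/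
theorem result {G : Type*} [Group G] [Finite G] {p : ℕ} [Fact p.Prime] {F : Type*} [Field F] [Fintype F] (n : ℕ) (hF : Fintype.card F = p ^ n) (V L : Subgroup G) (hnat : Cfsg.IsNaturalSL2Module F V L) (hf : L ⊓ Subgroup.centralizer (V : Set G) = ⊥) (S : Sylow p ↥L) (T : Subgroup G) (hT : T = ((S : Subgroup ↥L).map L.subtype)) : (∀ g ∈ L, g ∉ Subgroup.normalizer (T : Set G) → Cfsg.IsInternalDirectProduct (V ⊓ Subgroup.centralizer ((T : Subgroup G) : Set G)) (V ⊓ Subgroup.centralizer ((T.map (MulAut.conj g).toMonoidHom : Subgroup G) : Set G)) V) ∧ (∀ x ∈ L, x ≠ 1 → (orderOf x).Coprime p → (V ⊓ Subgroup.centralizer ({x} : Set G)) = ⊥) ∧ (∀ U : Subgroup G, U ≤ (V ⊓ Subgroup.centralizer ((T : Subgroup G) : Set G)) → L ⊓ Subgroup.normalizer (T : Set G) ≤ Subgroup.normalizer (U : Set G) → U = ⊥ ∨ U = (V ⊓ Subgroup.centralizer ((T : Subgroup G) : Set G))) ∧ (∀ U : Subgroup G, (V ⊓ Subgroup.centralizer ((T : Subgroup G) : Set G)) ≤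 U → U ≤ V → L ⊓ Subgroup.normalizer (T : Set G) ≤ Subgroup.normalizer (U : Set G) → U = (V ⊓ Subgroup.centralizer ((T : Subgroup G) : Set G)) ∨ U = V) := by
  obtain ⟨D⟩ := exists_stdData n hF V L hnat hf S T hT
  have hp := (Fact.out : p.Prime)
  have hp0 : (p : F) = 0 := by
    have h8 : ((Fintype.card F : ℕ) : F) = 0 := Nat.cast_card_eq_zero F
    rw [hF, Nat.cast_pow] at h8
    have hn0 : n ≠ 0 := by
      intro h0
      rw [h0, pow_zero] at h8
      exact one_ne_zero h8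
    exact (pow_eq_zero_iff hn0).mp h8
  -- diagonal elements normalize T
  have hdiag : ∀ (a : F) (ha : a ≠ 0), ∃ l : L, D.ρ l = hMat a ha ∧
      (l : G) ∈ L ⊓ Subgroup.normalizer (T : Set G) := by
    intro a ha
    obtain ⟨l, hl⟩ := D.surj (hMat a ha)
    refine ⟨l, hl, l.2, D.tri_norm l ?_⟩
    rw [hl]
    exact (hMat_entries a ha).2.2.1
  refine ⟨?_, ?_, ?_, ?_⟩
  · intro g hg hgN
    have hc : (D.ρ ⟨g, hg⟩).1 1 0 ≠ 0 := fun h => hgN (D.tri_norm ⟨g, hg⟩ h)
    refine ⟨inf_le_left, inf_le_left, ?_, ?_, ?_⟩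
    · intro a ha b hb
      have := D.comm_V ⟨a, ha.1⟩ ⟨b, hb.1⟩
      exact congrArg (fun z : V => (z : G)) this
    · rw [eq_bot_iff]
      rintro x ⟨⟨hxV, hxT⟩, -, hxTg⟩
      rw [Subgroup.mem_bot]
      have h1 : D.co ⟨x, hxV⟩ 1 = 0 := (D.mem_CT ⟨x, hxV⟩).mp hxT
      obtain ⟨w, hw, hcw⟩ := D.conj_co (⟨g, hg⟩⁻¹ : L) ⟨x, hxV⟩
      have hw' : (w : G) = g⁻¹ * x * g := by
        rw [hw]
        show g⁻¹ * x * g⁻¹⁻¹ = g⁻¹ * x * g
        rw [inv_inv]
      have hwT : (w : G) ∈ Subgroup.centralizer (T : Set G) := by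
        rw [hw']; exact (mem_cent_map_conj T g x).mp hxTg
      have h2 : D.co w 1 = 0 := (D.mem_CT w).mp hwT
      rw [hcw, mv2_1, map_inv, (sl2_inv_entries (D.ρ ⟨g, hg⟩)).2.2.1, h1] at h2
      have h3 : D.co ⟨x, hxV⟩ 0 = 0 := by
        have : (D.ρ ⟨g, hg⟩).1 1 0 * D.co ⟨x, hxV⟩ 0 = 0 := by linear_combination -h2
        exact (mul_eq_zero.mp this).resolve_left hc
      have h4 : (⟨x, hxV⟩ : V) = 1 := D.co_eq_zero (vec2_ext h3 h1)
      exact congrArg (fun z : V => (z : G)) h4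
    · apply le_antisymm (sup_le inf_le_left inf_le_left)
      intro v hv
      obtain ⟨v2', hv2'⟩ := D.co_surj ![D.co ⟨v, hv⟩ 1 / (D.ρ ⟨g, hg⟩).1 1 0, 0]
      have hv2T : (v2' : G) ∈ Subgroup.centralizer (T : Set G) :=
        (D.mem_CT v2').mpr (by rw [hv2']; rfl)
      obtain ⟨w2, hw2, hcw2⟩ := D.conj_co (⟨g, hg⟩ : L) v2'
      have hw2' : (w2 : G) = g * (v2' : G) * g⁻¹ := hw2
      have hw2T : (w2 : G) ∈ Subgroup.centralizer
          ((T.map (MulAut.conj g).toMonoidHom : Subgroup G) : Set G) := by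
        rw [mem_cent_map_conj, hw2']
        have e : g⁻¹ * (g * (v2' : G) * g⁻¹) * g = (v2' : G) := by group
        rw [e]; exact hv2T
      obtain ⟨v1, hv1⟩ := D.co_surj ![D.co ⟨v, hv⟩ 0 - (D.ρ ⟨g, hg⟩).1 0 0 *
        (D.co ⟨v, hv⟩ 1 / (D.ρ ⟨g, hg⟩).1 1 0), 0]
      have hv1T : (v1 : G) ∈ Subgroup.centralizer (T : Set G) :=
        (D.mem_CT v1).mpr (by rw [hv1]; rfl)
      have e : (⟨v, hv⟩ : V) = v1 * w2 := by
        apply D.co_inj
        rw [D.co_mul, hv1, hcw2, hv2']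
        apply vec2_ext
        · rw [Pi.add_apply, mv2_0]; simp
        · rw [Pi.add_apply, mv2_1]; simp; field_simp
      have e' : v = (v1 : G) * (w2 : G) := congrArg (fun z : V => (z : G)) e
      rw [e']
      exact Subgroup.mul_mem_sup ⟨v1.2, hv1T⟩ ⟨w2.2, hw2T⟩
  · intro x hx hx1 hcop
    rw [eq_bot_iff]
    rintro v ⟨hvV, hvx⟩
    rw [Subgroup.mem_bot]
    by_contra hv1
    apply hx1
    obtain ⟨w, hw, hcw⟩ := D.conj_co (⟨x, hx⟩ : L) ⟨v, hvV⟩
    have h1 : x * v = v * x := Subgroup.mem_centralizer_iff.mp hvx x (Set.mem_singleton x)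
    have h2 : w = ⟨v, hvV⟩ := by
      apply Subtype.ext
      rw [hw]
      show x * v * x⁻¹ = v
      rw [h1, mul_inv_cancel_right]
    rw [h2] at hcw
    have hu : D.co ⟨v, hvV⟩ ≠ 0 := by
      intro h0
      exact hv1 (congrArg (fun z : V => (z : G)) (D.co_eq_zero h0))
    have hpow := pow_p_eq_one hp0 (D.ρ ⟨x, hx⟩) _ hu hcw.symm
    have h3 : (⟨x, hx⟩ : L) ^ p = 1 := D.inj (by rw [map_pow, hpow, map_one])
    have h4 : x ^ p = 1 := congrArg (fun z : L => (z : G)) h3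
    have h5 : orderOf x ∣ p := orderOf_dvd_of_pow_eq_one h4
    rcases (Nat.dvd_prime hp).mp h5 with h6 | h6
    · exact orderOf_eq_one_iff.mp h6
    · rw [h6] at hcop
      exact absurd (Nat.coprime_self p |>.mp hcop) hp.one_lt.ne'
  · intro U hU hN
    by_cases hbot : U = ⊥
    · left; exact hbot
    right
    apply le_antisymm hU
    obtain ⟨u0, hu0U, hu01⟩ : ∃ u0 ∈ U, u0 ≠ 1 := by
      by_contra hcon
      have hcon : ∀ u0 ∈ U, u0 = 1 := fun u0 hu => by
        by_contra h1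
        exact hcon ⟨u0, hu, h1⟩
      exact hbot (eq_bot_iff.mpr (fun y hy => Subgroup.mem_bot.mpr (hcon y hy)))
    have hu0V : u0 ∈ V := (hU hu0U).1
    have hu0c : D.co ⟨u0, hu0V⟩ 1 = 0 := (D.mem_CT ⟨u0, hu0V⟩).mp (hU hu0U).2
    have hc0 : D.co ⟨u0, hu0V⟩ 0 ≠ 0 := by
      intro h0
      exact hu01 (congrArg (fun z : V => (z : G)) (D.co_eq_zero (vec2_ext h0 hu0c)))
    intro g hg
    have hgc : D.co ⟨g, hg.1⟩ 1 = 0 := (D.mem_CT ⟨g, hg.1⟩).mp hg.2
    by_cases hc : D.co ⟨g, hg.1⟩ 0 = 0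
    · have : (⟨g, hg.1⟩ : V) = 1 := D.co_eq_zero (vec2_ext hc hgc)
      have e : g = 1 := congrArg (fun z : V => (z : G)) this
      rw [e]; exact U.one_mem
    · have ha : D.co ⟨g, hg.1⟩ 0 / D.co ⟨u0, hu0V⟩ 0 ≠ 0 := div_ne_zero hc hc0
      obtain ⟨l, hl, hlN⟩ := hdiag _ ha
      have hlU := hN hlN
      have hconj : (l : G) * u0 * (l : G)⁻¹ ∈ U := (Subgroup.mem_normalizer_iff.mp hlU u0).mp hu0U
      obtain ⟨w, hw, hcw⟩ := D.conj_co l ⟨u0, hu0V⟩
      have e : w = ⟨g, hg.1⟩ := by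
        apply D.co_inj
        rw [hcw, hl, hMat_mv]
        apply vec2_ext
        · simp; field_simp
        · simp [hu0c, hgc]
      have e' : (w : G) = g := congrArg (fun z : V => (z : G)) e
      rw [← e', hw]
      exact hconj
  · intro U hCU hUV hN
    by_cases hle : U ≤ V ⊓ Subgroup.centralizer (T : Set G)
    · left; exact le_antisymm hle hCU
    right
    apply le_antisymm hUV
    obtain ⟨u, huU, hunot⟩ := SetLike.not_le_iff_exists.mp hle
    have huV : u ∈ V := hUV huU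
    have hb : D.co ⟨u, huV⟩ 1 ≠ 0 := fun h => hunot ⟨huV, (D.mem_CT ⟨u, huV⟩).mpr h⟩
    intro v hv
    by_cases hd : D.co ⟨v, hv⟩ 1 = 0
    · exact hCU ⟨hv, (D.mem_CT ⟨v, hv⟩).mpr hd⟩
    · have ha : D.co ⟨u, huV⟩ 1 / D.co ⟨v, hv⟩ 1 ≠ 0 := div_ne_zero hb hd
      obtain ⟨l, hl, hlN⟩ := hdiag _ ha
      have hlU := hN hlN
      have hconj : (l : G) * u * (l : G)⁻¹ ∈ U := (Subgroup.mem_normalizer_iff.mp hlU u).mp huU
      obtain ⟨w, hw, hcw⟩ := D.conj_co l ⟨u, huV⟩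
      have hwU : (w : G) ∈ U := by rw [hw]; exact hconj
      obtain ⟨z, hz⟩ := D.co_surj ![D.co ⟨v, hv⟩ 0 - D.co w 0, 0]
      have hzU : (z : G) ∈ U := hCU ⟨z.2, (D.mem_CT z).mpr (by rw [hz]; rfl)⟩
      have e : (⟨v, hv⟩ : V) = w * z := by
        apply D.co_inj
        rw [D.co_mul, hz]
        apply vec2_ext
        · simp
        · rw [Pi.add_apply, hcw, hl, hMat_mv]; simp; field_simp
      have e' : v = (w : G) * (z : G) := congrArg (fun z : V => (z : G)) e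
      rw [e']
      exact U.mul_mem hwU hzU

end Cfsg.Agent.S2780
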