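import Cfsg.Statements.S2781
import Cfsg.Agent.Helper17.Norm
-- import your own Cfsg.Agent.* helpers here

set_option autoImplicit false
open Cfsg

namespace Cfsg.Agent.S2781

open Cfsg.Agent.Helper17
open scoped commutatorElement
open Subgroup


/-- Let H act faithfully by conjugation on the elementary abelian p-subgroup V of a finite group, let O^p(H) be the subgroup of H generated by its elements of order prime to p, and T a Sylow p-subgroup of O^p(H). If V is generated by the H-conjugates of C_V(T) (V is the smallest H-invariant subgroup containing C_V(T)), then V = [V, O^p(H)]·C_V(O^p(H)). -/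
theorem result {G : Type*} [Group G] [Finite G] {p : ℕ} [Fact p.Prime] (V H : Subgroup G) (hV : Cfsg.IsElementaryAbelian p V) (hHV : H ≤ Subgroup.normalizer (V : Set G)) (hf : H ⊓ Subgroup.centralizer (V : Set G) = ⊥) (R : Subgroup G) (hR : R = (Cfsg.pResidual p ↥H).map H.subtype) (S : Sylow p ↥R) (T : Subgroup G) (hT : T = ((S : Subgroup ↥R).map R.subtype)) (hgen : ∀ W : Subgroup G, H ≤ Subgroup.normalizer (W : Set G) → (V ⊓ Subgroup.centralizer ((T : Subgroup G) : Set G)) ≤ W → V ≤ W) : ⁅V, R⁆ ⊔ (V ⊓ Subgroup.centralizer ((R : Subgroup G) : Set G)) = V := by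
  have hp : p.Prime := Fact.out
  haveI hVc : IsMulCommutative ↥V := hV.1
  have hRH : R ≤ H := by
    rw [hR]; rintro _ ⟨x, -, rfl⟩; exact x.2
  have hRV : R ≤ normalizer (V : Set G) := hRH.trans hHV
  have hHR : H ≤ normalizer (R : Set G) := by
    rw [hR]
    haveI := pResidual_normal' p ↥H
    exact le_normalizer_map_subtype _
  have hTR : T ≤ R := by
    rw [hT]; rintro _ ⟨x, -, rfl⟩; exact x.2
  have hn : ¬ p ∣ T.relIndex R := by
    have e1 : T.subgroupOf R = (S : Subgroup ↥R) := by
      rw [hT]; exact Subgroup.comap_map_eq_self_of_injective R.subtype_injective _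
    show ¬ p ∣ (T.subgroupOf R).index
    rw [e1]
    exact S.not_dvd_index
  obtain ⟨W, hW⟩ : ∃ W : Subgroup G, W = ⁅V, R⁆ ⊔ (V ⊓ centralizer (R : Set G)) := ⟨_, rfl⟩
  have hHW : H ≤ normalizer (W : Set G) := by
    rw [hW]
    exact le_normalizer_sup (le_normalizer_commutator' hHV hHR)
      (le_normalizer_inf' hHV (hHR.trans (normalizer_le_normalizer_centralizer R)))
  have hCW : V ⊓ centralizer ((T : Subgroup G) : Set G) ≤ W := by
    intro v hv
    have hvV : v ∈ V := (Subgroup.mem_inf.mp hv).1
    have hvT : v ∈ centralizer ((T : Subgroup G) : Set G) := (Subgroup.mem_inf.mp hv).2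
    have hvs : ∀ s ∈ T, s * v = v * s := fun s hs => Subgroup.mem_centralizer_iff.mp hvT s hs
    have hcomm : ∀ d ∈ R, d * v * d⁻¹ * v⁻¹ ∈ ⁅V, R⁆ := by
      intro d hd
      rw [Subgroup.commutator_comm]
      exact Subgroup.commutator_mem_commutator hd hvV
    obtain ⟨w, hwV, hwc, hwW⟩ := exists_norm_subgroup (S := T) hRV hvV hvs ⁅V, R⁆ hcomm
    have hwC : w ∈ V ⊓ centralizer (R : Set G) := by
      refine Subgroup.mem_inf.mpr ⟨hwV, ?_⟩
      rw [Subgroup.mem_centralizer_iff]
      exact hwc
    have h1 : v ^ T.relIndex R ∈ W := by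
      have e : v ^ T.relIndex R = (w * (v ^ T.relIndex R)⁻¹)⁻¹ * w := by group
      rw [e, hW]
      exact Subgroup.mul_mem _ (Subgroup.mem_sup_left (Subgroup.inv_mem _ hwW))
        (Subgroup.mem_sup_right hwC)
    have hcop : (T.relIndex R).Coprime (orderOf v) := by
      have h2 : orderOf v ∣ p := orderOf_dvd_of_pow_eq_one (hV.2 v hvV)
      have h3 : (T.relIndex R).Coprime p := by
        rw [Nat.coprime_comm, hp.coprime_iff_not_dvd]; exact hn
      exact Nat.Coprime.coprime_dvd_right h2 h3
    obtain ⟨k, hk⟩ := exists_pow_eq_self_of_coprime hcop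
    rw [← hk]
    exact Subgroup.pow_mem _ h1 k
  apply le_antisymm
  · exact sup_le (commutator_le_left_of_le_normalizer hRV) inf_le_left
  · rw [← hW]
    exact hgen W hHW hCW

end Cfsg.Agent.S2781
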