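import Mathlib
import Cfsg.Statements.S4218
import Cfsg.Agent.S4207
import Cfsg.Agent.S4208
import Cfsg.Agent.Helper13.PSolv
import Cfsg.Agent.Helper16.CharP

set_option autoImplicit false
open Cfsg

namespace Cfsg.Agent.S4218

/-- transport of the Frattini subgroup along an isomorphism -/
theorem frattini_equiv {A B : Type*} [Group A] [Group B] (e : A ≃* B) (x : A)
    (hx : x ∈ frattini A) : e x ∈ frattini B := by
  rw [S4208.mem_frattini_iff] at hx ⊢
  intro M hM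
  have h1 : IsCoatom (e.comapSubgroup M) := (e.comapSubgroup.isCoatom_iff M).mpr hM
  exact hx _ h1

/-- In a finite group `H` whose largest normal `p`-subgroup `R` contains its centralizer, an
element acting trivially on `R / Φ(R)` lies in `R`. -/
theorem core {H : Type*} [Group H] [Finite H] {p : ℕ} [Fact p.Prime] (R : Subgroup H) [R.Normal]
    (hR : IsPGroup p R) (hcent : Subgroup.centralizer (R : Set H) ≤ R)
    (hmax : ∀ N : Subgroup H, N.Normal → IsPGroup p N → N ≤ R)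
    (c : H) (hc : ∀ x ∈ R, c * x * c⁻¹ * x⁻¹ ∈ (frattini R).map R.subtype) : c ∈ R := by
  have hp : p.Prime := Fact.out
  obtain ⟨Φ, hΦ⟩ : ∃ Φ : Subgroup H, Φ = (frattini R).map R.subtype := ⟨_, rfl⟩
  have hΦn : Φ.Normal := by rw [hΦ]; infer_instance
  rw [← hΦ] at hc
  -- the kernel of the action on R/Φ
  let C : Subgroup H :=
    { carrier := {c | ∀ x ∈ R, c * x * c⁻¹ * x⁻¹ ∈ Φ}
      one_mem' := fun x _ => by simp [Φ.one_mem]
      mul_mem' := by
        intro a b ha hb x hx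
        have h1 := ha (b * x * b⁻¹) (‹R.Normal›.conj_mem x hx b)
        have h2 := hb x hx
        have h3 : a * b * x * (a * b)⁻¹ * x⁻¹ =
            (a * (b * x * b⁻¹) * a⁻¹ * (b * x * b⁻¹)⁻¹) * (b * x * b⁻¹ * x⁻¹) := by group
        rw [h3]; exact Φ.mul_mem h1 h2
      inv_mem' := by
        intro a ha x hx
        have h1 := ha (a⁻¹ * x * a) (by
          have := ‹R.Normal›.conj_mem x hx a⁻¹
          simpa using this)
        have h3 : a⁻¹ * x * a⁻¹⁻¹ * x⁻¹ = (a * (a⁻¹ * x * a) * a⁻¹ * (a⁻¹ * x * a)⁻¹)⁻¹ := by group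
        rw [h3]; exact Φ.inv_mem h1 }
  have hCmem : ∀ c : H, c ∈ C ↔ ∀ x ∈ R, c * x * c⁻¹ * x⁻¹ ∈ Φ := fun c => Iff.rfl
  have hCn : C.Normal := ⟨fun a ha h => by
    rw [hCmem] at ha ⊢
    intro x hx
    have h1 := ha (h⁻¹ * x * h) (by
      have := ‹R.Normal›.conj_mem x hx h⁻¹
      simpa using this)
    have h2 := hΦn.conj_mem _ h1 h
    have h3 : h * a * h⁻¹ * x * (h * a * h⁻¹)⁻¹ * x⁻¹ =
        h * (a * (h⁻¹ * x * h) * a⁻¹ * (h⁻¹ * x * h)⁻¹) * h⁻¹ := by group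
    rw [h3]; exact h2⟩
  -- elements of C of order prime to p are trivial
  have hprime : ∀ c' ∈ C, ∀ m : ℕ, ¬ p ∣ m → c' ^ m = 1 → c' = 1 := by
    intro c' hc' m hm hc'm
    obtain ⟨n, hn⟩ := IsPGroup.iff_card.mp hR
    obtain ⟨r, -, hr⟩ := (Nat.dvd_prime_pow hp).mp (hn ▸ (frattini R).index_dvd_card)
    obtain ⟨α, hα⟩ : ∃ α : MulAut R, α = MulAut.conjNormal c' := ⟨_, rfl⟩
    have hA : ∀ β ∈ Subgroup.zpowers α, ∀ x : R, β x * x⁻¹ ∈ frattini R := by
      intro β hβ x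
      obtain ⟨j, rfl⟩ := Subgroup.mem_zpowers_iff.mp hβ
      have h1 : α ^ j = MulAut.conjNormal (c' ^ j) := by rw [hα, map_zpow]
      have h2 := (hCmem _).mp (C.zpow_mem hc' j) x x.2
      rw [hΦ] at h2
      obtain ⟨y, hy, hy2⟩ := h2
      have h3 : y = (α ^ j) x * x⁻¹ := by
        apply Subtype.ext
        rw [h1, Subgroup.coe_mul, MulAut.conjNormal_apply, Subgroup.coe_inv]
        exact hy2
      rw [← h3]; exact hy
    have h4 := S4207.result hn hr (Subgroup.zpowers α) hA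
    have h5 : orderOf α ∣ m := by
      apply orderOf_dvd_of_pow_eq_one
      rw [hα, ← map_pow, hc'm, map_one]
    have h6 : orderOf α = 1 := by
      rw [Nat.card_zpowers] at h4
      have h7 : (orderOf α).Coprime m := by
        apply Nat.Coprime.coprime_dvd_left h4
        exact Nat.Coprime.pow_left _ ((Nat.Prime.coprime_iff_not_dvd hp).mpr hm)
      exact Nat.Coprime.eq_one_of_dvd h7 h5
    have h8 : α = 1 := orderOf_eq_one_iff.mp h6
    have h9 : c' ∈ Subgroup.centralizer (R : Set H) := by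
      rw [Subgroup.mem_centralizer_iff]
      intro x hx
      have h10 : α ⟨x, hx⟩ = ⟨x, hx⟩ := by rw [h8]; rfl
      have h11 := congrArg Subtype.val h10
      rw [hα, MulAut.conjNormal_apply] at h11
      have h12 : c' * x * c'⁻¹ = x := h11
      exact (mul_inv_eq_iff_eq_mul.mp h12).symm
    have h13 : c' ∈ R := hcent h9
    obtain ⟨k, hk⟩ := hR ⟨c', h13⟩
    have hk' : c' ^ p ^ k = 1 := congrArg Subtype.val hk
    have h14 : orderOf c' ∣ p ^ k := orderOf_dvd_of_pow_eq_one hk'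
    have h15 : orderOf c' ∣ m := orderOf_dvd_of_pow_eq_one hc'm
    have h16 : (orderOf c').Coprime m :=
      Nat.Coprime.coprime_dvd_left h14
        (Nat.Coprime.pow_left _ ((Nat.Prime.coprime_iff_not_dvd hp).mpr hm))
    exact orderOf_eq_one_iff.mp (Nat.Coprime.eq_one_of_dvd h16 h15)
  -- so C is a p-group
  have hCp : IsPGroup p C := by
    intro y
    obtain ⟨e, m, hm, hem⟩ := Nat.exists_eq_pow_mul_and_not_dvd (orderOf_pos (y : H)).ne' p hp.ne_one
    refine ⟨e, ?_⟩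
    apply Subtype.ext
    rw [Subgroup.coe_pow, Subgroup.coe_one]
    apply hprime _ (C.pow_mem y.2 _) m hm
    rw [← pow_mul, ← hem, pow_orderOf_eq_one]
  exact hmax C hCn hCp ((hCmem c).mpr hc)

/-- Let `G` be a finite `p`-solvable group, `N₀ = O_{p'}(G)`, `P₁ = O_{p',p}(G)`, and let `F ≤ P₁` be the preimage of the Frattini subgroup of `P₁/N₀`. Then an element `g` of `G` induces the identity on `P₁/F` by conjugation (that is, `g x g⁻¹ x⁻¹ ∈ F` for all `x ∈ P₁`) if and only if `g ∈ P₁`: the group `G/P₁` acts faithfully on `P₁/F`. -/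
theorem result {G : Type*} [Group G] [Finite G] {p : ℕ} [Fact p.Prime] (hG : Cfsg.IsPSolvable p G) (g : G) : (∀ x ∈ Cfsg.pPrimePCore p G, g * x * g⁻¹ * x⁻¹ ∈ ((frattini (↥(Cfsg.pPrimePCore p G) ⧸ (Cfsg.pPrimeCore p G).subgroupOf (Cfsg.pPrimePCore p G))).comap (QuotientGroup.mk' ((Cfsg.pPrimeCore p G).subgroupOf (Cfsg.pPrimePCore p G)))).map (Cfsg.pPrimePCore p G).subtype) ↔ g ∈ Cfsg.pPrimePCore p G := by
  obtain ⟨R, hRdef⟩ : ∃ R : Subgroup (G ⧸ (Cfsg.pPrimeCore p G)), R = Cfsg.pCore p (G ⧸ (Cfsg.pPrimeCore p G)) := ⟨_, rfl⟩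
  haveI hRn : R.Normal := by rw [hRdef]; infer_instance
  have hRp : IsPGroup p R := by rw [hRdef]; exact Helper16.isPGroup_pCore p _
  obtain ⟨P₁, hP₁⟩ : ∃ P₁ : Subgroup G, P₁ = R.comap (QuotientGroup.mk' (Cfsg.pPrimeCore p G)) := ⟨_, rfl⟩
  have hP₁eq : Cfsg.pPrimePCore p G = P₁ := by
    rw [hP₁, hRdef]; rfl
  rw [hP₁eq]
  have hmemP₁ : ∀ x : G, x ∈ P₁ ↔ (QuotientGroup.mk' (Cfsg.pPrimeCore p G) x) ∈ R := fun x => by
    rw [hP₁, Subgroup.mem_comap]
  -- the map P₁ → R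
  let ψ : P₁ →* R :=
    ((QuotientGroup.mk' (Cfsg.pPrimeCore p G)).comp P₁.subtype).codRestrict R (fun y => (hmemP₁ y).mp y.2)
  have hψval : ∀ y : P₁, ((ψ y : R) : G ⧸ (Cfsg.pPrimeCore p G)) = QuotientGroup.mk' (Cfsg.pPrimeCore p G) (y : G) := fun y => rfl
  have hψker : ψ.ker = ((Cfsg.pPrimeCore p G).subgroupOf P₁) := by
    ext y
    rw [MonoidHom.mem_ker, Subgroup.mem_subgroupOf, ← QuotientGroup.eq_one_iff (N := (Cfsg.pPrimeCore p G))]
    constructor
    · intro h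
      have := congrArg Subtype.val h
      exact this
    · intro h
      apply Subtype.ext
      exact h
  have hψsurj : Function.Surjective ψ := by
    intro r
    obtain ⟨x, hx⟩ := QuotientGroup.mk'_surjective (Cfsg.pPrimeCore p G) (r : G ⧸ (Cfsg.pPrimeCore p G))
    refine ⟨⟨x, (hmemP₁ x).mpr (hx ▸ r.2)⟩, Subtype.ext hx⟩
  -- the induced isomorphism
  let ψbar : P₁ ⧸ ((Cfsg.pPrimeCore p G).subgroupOf P₁) →* R := QuotientGroup.lift ((Cfsg.pPrimeCore p G).subgroupOf P₁) ψ (by rw [hψker])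
  have hψbar : ∀ y : P₁, ψbar (QuotientGroup.mk' ((Cfsg.pPrimeCore p G).subgroupOf P₁) y) = ψ y := fun y => rfl
  have hbij : Function.Bijective ψbar := by
    constructor
    · rw [injective_iff_map_eq_one]
      intro q hq
      obtain ⟨y, rfl⟩ := QuotientGroup.mk'_surjective ((Cfsg.pPrimeCore p G).subgroupOf P₁) q
      rw [hψbar] at hq
      rw [QuotientGroup.mk'_apply, QuotientGroup.eq_one_iff, ← hψker]
      exact hq
    · intro r
      obtain ⟨y, hy⟩ := hψsurj r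
      exact ⟨QuotientGroup.mk' ((Cfsg.pPrimeCore p G).subgroupOf P₁) y, by rw [hψbar, hy]⟩
  let e : P₁ ⧸ ((Cfsg.pPrimeCore p G).subgroupOf P₁) ≃* R := MulEquiv.ofBijective ψbar hbij
  have he : ∀ y : P₁, e (QuotientGroup.mk' ((Cfsg.pPrimeCore p G).subgroupOf P₁) y) = ψ y := fun y => rfl
  have hQp : IsPGroup p (P₁ ⧸ ((Cfsg.pPrimeCore p G).subgroupOf P₁)) := hRp.of_equiv e.symm
  constructor
  · intro h
    rw [hmemP₁]
    have hps : Cfsg.IsPSolvable p (G ⧸ (Cfsg.pPrimeCore p G)) := Helper13.isPSolvable_quotient hG (Cfsg.pPrimeCore p G)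
    have hcore : Cfsg.pPrimeCore p (G ⧸ (Cfsg.pPrimeCore p G)) = ⊥ := by
      exact Helper10.pPrimeCore_quotient p G
    have hcent : Subgroup.centralizer (R : Set (G ⧸ (Cfsg.pPrimeCore p G))) ≤ R := by
      rw [hRdef]; exact Helper13.centralizer_pCore_le_of_isPSolvable hps hcore
    apply core R hRp hcent (fun N hN hNp => by rw [hRdef]; exact Helper16.le_pCore hN hNp)
    intro xbar hxbar
    obtain ⟨x, rfl⟩ := QuotientGroup.mk'_surjective (Cfsg.pPrimeCore p G) xbar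
    have hx : x ∈ P₁ := (hmemP₁ x).mpr hxbar
    obtain ⟨y, hy, hy2⟩ := h x hx
    rw [SetLike.mem_coe, Subgroup.mem_comap] at hy
    have h1 := frattini_equiv e _ hy
    rw [he] at h1
    refine ⟨ψ y, h1, ?_⟩
    show ((ψ y : R) : G ⧸ (Cfsg.pPrimeCore p G)) = _
    rw [hψval]
    have hy3 : (y : G) = g * x * g⁻¹ * x⁻¹ := hy2
    rw [hy3]
    simp
  · intro hg x hx
    refine ⟨⟨g, hg⟩ * ⟨x, hx⟩ * ⟨g, hg⟩⁻¹ * ⟨x, hx⟩⁻¹, ?_, rfl⟩
    rw [SetLike.mem_coe, Subgroup.mem_comap]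
    have h1 := (S4208.frattini_quot_props hQp).1 (QuotientGroup.mk' ((Cfsg.pPrimeCore p G).subgroupOf P₁) ⟨g, hg⟩)
      (QuotientGroup.mk' ((Cfsg.pPrimeCore p G).subgroupOf P₁) ⟨x, hx⟩)
    rw [map_mul, map_mul, map_mul, map_inv, map_inv]
    exact h1

end Cfsg.Agent.S4218
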