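import Cfsg.Statements.S3103
import Cfsg.Agent.Helper1.LinRep4
import Cfsg.Agent.S4218
import Cfsg.Agent.S4208
import Cfsg.Agent.S0010
import Cfsg.Agent.S0256
import Cfsg.Agent.Helper10.PCons
import Mathlib

set_option autoImplicit false
open Cfsg

namespace Cfsg.Agent.S3103

/-- squares of a finite `2`-group lie in its Frattini subgroup -/
theorem sq_mem_frattini {Q : Type*} [Group Q] [Finite Q] (hQ : IsPGroup 2 Q) (x : Q) :
    x ^ 2 ∈ frattini Q := by
  have : Fact (Nat.Prime 2) := ⟨Nat.prime_two⟩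
  rw [S4208.mem_frattini_iff]
  intro M hM
  obtain ⟨hMn, hMi⟩ := S4208.index_coatom hQ M hM
  have := Subgroup.pow_index_mem M x
  rwa [hMi] at this

/-- a group of exponent two is commutative -/
theorem comm_of_sq {V : Type*} [Group V] (h : ∀ v : V, v ^ 2 = 1) (v w : V) : v * w = w * v := by
  have hv : v⁻¹ = v := by rw [inv_eq_iff_mul_eq_one, ← pow_two]; exact h v
  have hw : w⁻¹ = w := by rw [inv_eq_iff_mul_eq_one, ← pow_two]; exact h w
  have hvw : (v * w)⁻¹ = v * w := by rw [inv_eq_iff_mul_eq_one, ← pow_two]; exact h (v * w)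
  rw [← hvw, mul_inv_rev, hv, hw]

/-- the centre of `SL₄(2)` is trivial -/
theorem sl42_center (A : Matrix.SpecialLinearGroup (Fin 4) (ZMod 2))
    (hA : A ∈ Subgroup.center (Matrix.SpecialLinearGroup (Fin 4) (ZMod 2))) : A = 1 := by
  rw [Matrix.SpecialLinearGroup.mem_center_iff] at hA
  obtain ⟨r, hr, hrA⟩ := hA
  have key : ∀ r : ZMod 2, r ^ 4 = 1 → r = 1 := by decide
  have hr1 : r = 1 := key r (by simpa using hr)
  apply Subtype.ext
  rw [← hrA, hr1]
  simp

theorem aux {X : Type*} [Group X] [Finite X] (Q : Subgroup X) [hQn : Q.Normal]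
    (hQp : IsPGroup 2 Q)
    (hcent : Subgroup.centralizer (Q : Set X) ≤ Q)
    (hmax : ∀ N : Subgroup X, N.Normal → IsPGroup 2 N → N ≤ Q)
    (h4 : Cfsg.SectionalPRankLE 2 4 ↥Q) :
    ∃ f : X ⧸ Q →* ↥(alternatingGroup (Fin 8)), Function.Injective f := by
  classical
  have : Fact (Nat.Prime 2) := ⟨Nat.prime_two⟩
  have hsq : ∀ x : ↥Q, x ^ 2 ∈ frattini ↥Q := sq_mem_frattini hQp
  have hV2 : ∀ v : ↥Q ⧸ frattini ↥Q, v ^ 2 = 1 := by
    intro v
    induction v using QuotientGroup.induction_on with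
    | H x =>
      rw [← QuotientGroup.mk_pow]
      exact (QuotientGroup.eq_one_iff _).mpr (hsq x)
  have hVcomm : ∀ v w : ↥Q ⧸ frattini ↥Q, v * w = w * v := comm_of_sq hV2
  have hW2 : ∀ v : ↥(⊤ : Subgroup ↥Q) ⧸ (frattini ↥Q).subgroupOf ⊤, v ^ 2 = 1 := by
    intro v
    induction v using QuotientGroup.induction_on with
    | H y =>
      rw [← QuotientGroup.mk_pow]
      refine (QuotientGroup.eq_one_iff _).mpr ?_
      rw [Subgroup.mem_subgroupOf]
      simpa using hsq (y : ↥Q)
  have hVcard : Nat.card (↥Q ⧸ frattini ↥Q) ≤ 16 := by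
    have h := h4 ⊤ ((frattini ↥Q).subgroupOf ⊤) ⊤
      ⟨⟨fun a b => Subtype.ext (comm_of_sq hW2 a.1 b.1)⟩⟩ (fun a _ => hW2 a)
    rw [Subgroup.card_top] at h
    have e : Nat.card (↥(⊤ : Subgroup ↥Q) ⧸ (frattini ↥Q).subgroupOf ⊤) =
        Nat.card (↥Q ⧸ frattini ↥Q) := by
      rw [← Subgroup.index_eq_card, ← Subgroup.index_eq_card]
      exact Subgroup.relIndex_top_right _
    rw [e] at h
    exact h
  -- the action
  have hle : ∀ g : X, frattini ↥Q ≤ (frattini ↥Q).comap
      (MulAut.conjNormal g : MulAut ↥Q).toMonoidHom := fun g =>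
    Subgroup.characteristic_iff_le_comap.mp frattini_characteristic _
  obtain ⟨f, hf⟩ : ∃ f : X → (↥Q ⧸ frattini ↥Q) →* (↥Q ⧸ frattini ↥Q),
      ∀ g (x : ↥Q), f g (QuotientGroup.mk x) = QuotientGroup.mk (MulAut.conjNormal g x) :=
    ⟨fun g => QuotientGroup.map (frattini ↥Q) (frattini ↥Q)
      (MulAut.conjNormal g : MulAut ↥Q).toMonoidHom (hle g), fun g x => rfl⟩
  have hf1 : ∀ v, f 1 v = v := by
    intro v
    induction v using QuotientGroup.induction_on with
    | H x =>
      rw [hf]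
      congr 1
      apply Subtype.ext
      simp
  have hfmul : ∀ g h v, f (g * h) v = f g (f h v) := by
    intro g h v
    induction v using QuotientGroup.induction_on with
    | H x =>
      rw [hf, hf, hf]
      congr 1
      apply Subtype.ext
      simp [MulAut.conjNormal_apply, mul_assoc]
  have hker : ∀ g : X, (∀ v, f g v = v) ↔ g ∈ Q := by
    intro g
    constructor
    · intro h
      refine S4218.core Q hQp hcent hmax g ?_
      intro x hx
      have h1 := h (QuotientGroup.mk ⟨x, hx⟩)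
      rw [hf, QuotientGroup.eq_iff_div_mem] at h1
      have h2 := Subgroup.mem_map_of_mem Q.subtype h1
      simpa [MulAut.conjNormal_apply, div_eq_mul_inv] using h2
    · intro hg v
      induction v using QuotientGroup.induction_on with
      | H x =>
        rw [hf]
        have e : (MulAut.conjNormal g x : ↥Q) = ⟨g, hg⟩ * x * (⟨g, hg⟩ : ↥Q)⁻¹ :=
          Subtype.ext (by simp [MulAut.conjNormal_apply])
        rw [e, QuotientGroup.mk_mul, QuotientGroup.mk_mul, QuotientGroup.mk_inv,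
          hVcomm (QuotientGroup.mk ⟨g, hg⟩) (QuotientGroup.mk x), mul_inv_cancel_right]
  letI cg : CommGroup (↥Q ⧸ frattini ↥Q) :=
    { (inferInstance : Group (↥Q ⧸ frattini ↥Q)) with mul_comm := hVcomm }
  obtain ⟨ρ, hρ⟩ := Helper1.LinRep4.exists_rep (G := X) (V := ↥Q ⧸ frattini ↥Q) hV2 hVcard f hf1 hfmul
  have hρQ : ∀ g : X, ρ g = 1 ↔ g ∈ Q := fun g => (hρ g).trans (hker g)
  obtain ⟨e⟩ := S0256.result (F := ZMod 2) (ZMod.card 2)
  obtain ⟨φ, hφ⟩ : ∃ φ : X →* ↥(alternatingGroup (Fin 8)), ∀ g, φ g = 1 ↔ g ∈ Q := by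
    refine ⟨e.toMonoidHom.comp ((QuotientGroup.mk' (Subgroup.center
      (Matrix.SpecialLinearGroup (Fin 4) (ZMod 2)))).comp ρ), ?_⟩
    intro g
    rw [← hρQ g]
    constructor
    · intro h
      have h1 : QuotientGroup.mk' (Subgroup.center
          (Matrix.SpecialLinearGroup (Fin 4) (ZMod 2))) (ρ g) = 1 := by
        apply e.injective
        rw [map_one]
        exact h
      exact sl42_center _ ((QuotientGroup.eq_one_iff _).mp h1)
    · intro h
      show e (QuotientGroup.mk' _ (ρ g)) = 1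
      rw [h, map_one, map_one]
  refine ⟨QuotientGroup.lift Q φ (fun g hg => (hφ g).mpr hg), ?_⟩
  rw [injective_iff_map_eq_one]
  intro v hv
  induction v using QuotientGroup.induction_on with
  | H g =>
    have hv' : φ g = 1 := hv
    exact (QuotientGroup.eq_one_iff g).mpr ((hφ g).mp hv')

/-- Let X be a finite 2-constrained group with no nontrivial normal subgroup of odd order such that O₂(X) has sectional 2-rank at most 4. Then X/O₂(X) is isomorphic to a subgroup of the alternating group of degree 8. -/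
theorem result {X : Type*} [Group X] [Finite X] (hc : Cfsg.IsPConstrained 2 X) (hO : Cfsg.oddCore X = ⊥)
    (h4 : Cfsg.SectionalPRankLE 2 4 ↥(Cfsg.pCore 2 X)) :
    ∃ f : X ⧸ Cfsg.pCore 2 X →* ↥(alternatingGroup (Fin 8)), Function.Injective f := by
  have : Fact (Nat.Prime 2) := ⟨Nat.prime_two⟩
  have hM2 : IsPGroup 2 ↥(Cfsg.pPrimePCore 2 X) := by
    have hker : IsPGroup 2 (QuotientGroup.mk' (Cfsg.pPrimeCore 2 X)).ker := by
      rw [QuotientGroup.ker_mk']
      have : Cfsg.pPrimeCore 2 X = ⊥ := hO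
      rw [this]
      exact IsPGroup.of_bot
    exact IsPGroup.comap_of_ker_isPGroup (S0010.pCore_isPGroup 2) _ hker
  have hMQ : Cfsg.pPrimePCore 2 X ≤ Cfsg.pCore 2 X :=
    S0010.le_pCore 2 _ (Helper10.pPrimePCore_normal 2 X) hM2
  have hcent : Subgroup.centralizer (Cfsg.pCore 2 X : Set X) ≤ Cfsg.pCore 2 X := by
    obtain ⟨P⟩ : Nonempty (Sylow 2 ↥(Cfsg.pPrimePCore 2 X)) := inferInstance
    have hP : (P : Subgroup ↥(Cfsg.pPrimePCore 2 X)) = ⊤ :=
      (P.is_maximal' (hM2.to_subgroup ⊤) le_top).symm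
    have h1 := hc P
    rw [hP, ← MonoidHom.range_eq_map, Subgroup.range_subtype] at h1
    exact (Subgroup.centralizer_le hMQ).trans (h1.trans hMQ)
  haveI := S0010.pCore_normal (G := X) 2
  exact aux (Cfsg.pCore 2 X) (S0010.pCore_isPGroup 2) hcent
    (fun N hN hp => S0010.le_pCore 2 N hN hp) h4

end Cfsg.Agent.S3103
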