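import Mathlib
import Cfsg.Statements.S3116

set_option autoImplicit false
open Cfsg

namespace Cfsg.Agent.S3116

/-- A group of order `2^(n+1)` with an element `x` of order `2^n` such that all elements
outside `⟨x⟩` have smaller order has a `2`-group of automorphisms. -/
theorem gen {X : Type*} [Group X] [Finite X] (n : ℕ) (hn : 1 ≤ n) (x : X) (hx : orderOf x = 2 ^ n)
    (hcard : Nat.card X = 2 ^ (n + 1))
    (hout : ∀ g : X, g ∉ Subgroup.zpowers x → orderOf g < 2 ^ n) : IsPGroup 2 (MulAut X) := by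
  set C := Subgroup.zpowers x with hC
  have hCcard : Nat.card C = 2 ^ n := by rw [Nat.card_zpowers, hx]
  have hidx : C.index = 2 := by
    have := Subgroup.card_mul_index C
    rw [hCcard, hcard, pow_succ] at this
    exact Nat.eq_of_mul_eq_mul_left (pow_pos two_pos n) this
  obtain ⟨y, hy⟩ : ∃ y, y ∉ C := by
    by_contra hcon
    have : C = ⊤ := by
      rw [eq_top_iff]; intro g _; by_contra hg; exact hcon ⟨g, hg⟩
    rw [this, Subgroup.index_top] at hidx
    omega
  have hpow : ∀ g ∈ C, ∃ m : ℕ, g = x ^ m := by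
    intro g hg
    have : g ∈ Submonoid.powers x := (mem_powers_iff_mem_zpowers).mpr hg
    obtain ⟨m, hm⟩ := this
    exact ⟨m, hm.symm⟩
  intro φ
  have hφx : φ x ∈ C := by
    by_contra h
    have := hout _ h
    rw [MulEquiv.orderOf_eq, hx] at this
    exact lt_irrefl _ this
  obtain ⟨a, ha⟩ := hpow _ hφx
  have hodd : a.Coprime (2 ^ n) := by
    apply Nat.Coprime.pow_right
    rw [Nat.coprime_comm, Nat.coprime_two_left]
    by_contra heven
    rw [Nat.not_odd_iff_even] at heven
    obtain ⟨b, hb⟩ := heven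
    have h1 : (φ x) ^ (2 ^ (n - 1)) = 1 := by
      have e : a * 2 ^ (n - 1) = 2 ^ n * b := by
        have : 2 ^ n = 2 * 2 ^ (n - 1) := by
          rw [← pow_succ']; congr 1; omega
        rw [hb, this]; ring
      rw [ha, ← pow_mul, e, pow_mul, ← hx, pow_orderOf_eq_one, one_pow]
    have h2 := orderOf_dvd_of_pow_eq_one h1
    rw [MulEquiv.orderOf_eq, hx] at h2
    have h3 := Nat.le_of_dvd (pow_pos two_pos _) h2
    have h4 : 2 ^ (n - 1) < 2 ^ n := Nat.pow_lt_pow_right (by norm_num) (by omega)
    omega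
  have hφj : ∀ j : ℕ, (φ ^ j) x = x ^ (a ^ j) := by
    intro j
    induction j with
    | zero => simp
    | succ j ih =>
      rw [pow_succ, MulAut.mul_apply, ha, map_pow, ih, ← pow_mul, pow_succ]
  set ψ := φ ^ (2 ^ (n - 1)) with hψ
  have hψx : ψ x = x := by
    rw [hψ, hφj]
    have h1 : a ^ (2 ^ (n - 1)) ≡ 1 [MOD 2 ^ n] := by
      have := Nat.ModEq.pow_totient hodd
      rwa [Nat.totient_prime_pow Nat.prime_two (by omega : 0 < n), show (2 - 1) = 1 from rfl,
        mul_one] at this
    have h2 : x ^ (a ^ (2 ^ (n - 1))) = x ^ 1 := by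
      rw [pow_eq_pow_iff_modEq, hx]; exact h1
    rw [h2, pow_one]
  have hψC : ∀ c ∈ C, ψ c = c := by
    intro c hc
    obtain ⟨m, rfl⟩ := hpow c hc
    rw [map_pow, hψx]
  have hψy : ψ y * y⁻¹ ∈ C := by
    rw [Subgroup.mul_mem_iff_of_index_two hidx]
    constructor
    · intro h
      exfalso; apply hy
      have := hψC _ h
      have h2 : ψ y = y := ψ.injective this
      rw [← h2]; exact h
    · intro h
      exfalso; apply hy
      have := Subgroup.inv_mem _ h
      rwa [inv_inv] at this
  obtain ⟨c, hc⟩ : ∃ c, c = ψ y * y⁻¹ := ⟨_, rfl⟩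
  rw [← hc] at hψy
  have hψy' : ψ y = c * y := by rw [hc]; group
  have hψjC : ∀ j : ℕ, ∀ d ∈ C, (ψ ^ j) d = d := by
    intro j d hd
    induction j with
    | zero => simp
    | succ j ih => rw [pow_succ, MulAut.mul_apply, hψC d hd, ih]
  have hψj : ∀ j : ℕ, (ψ ^ j) y = c ^ j * y := by
    intro j
    induction j with
    | zero => simp
    | succ j ih =>
      rw [pow_succ, MulAut.mul_apply, hψy', map_mul, ih, hψjC j c hψy, pow_succ']
      group
  have hc2 : c ^ (2 ^ n) = 1 := by
    obtain ⟨m, hm⟩ := hpow c hψy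
    rw [hm, ← pow_mul, mul_comm, pow_mul, ← hx, pow_orderOf_eq_one, one_pow]
  refine ⟨(n - 1) + n, ?_⟩
  rw [pow_add, pow_mul, ← hψ]
  ext g
  rw [MulAut.one_apply]
  by_cases hg : g ∈ C
  · exact hψjC _ g hg
  · have hgy : g * y⁻¹ ∈ C := by
      rw [Subgroup.mul_mem_iff_of_index_two hidx]
      constructor
      · intro h; exact absurd h hg
      · intro h
        exfalso; apply hy
        have := Subgroup.inv_mem _ h
        rwa [inv_inv] at this
    have e : g = (g * y⁻¹) * y := by group
    rw [e, map_mul, hψjC _ _ hgy, hψj, hc2, one_mul]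

/-- The automorphism group of a dihedral 2-group of order at least 8, or of a quasi-dihedral (semidihedral) 2-group of order at least 16, is a 2-group. -/
theorem result {X : Type*} [Group X] [Finite X] (h2 : IsPGroup 2 X)
    (h : (∃ n : ℕ, 4 ≤ n ∧ Nonempty (X ≃* DihedralGroup n)) ∨ Cfsg.IsQuasiDihedral X) : IsPGroup 2 (MulAut X) := by
  rcases h with ⟨m, hm, ⟨e⟩⟩ | ⟨n, hn, hcard, x, y, hx, hy, hxy⟩
  · have hmne : NeZero m := ⟨by omega⟩
    obtain ⟨k, hk⟩ := IsPGroup.iff_card.mp h2
    have hcard : Nat.card X = 2 * m := by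
      rw [Nat.card_congr e.toEquiv, DihedralGroup.nat_card]
    have hmdvd : m ∣ 2 ^ k := by rw [← hk, hcard]; exact dvd_mul_left _ _
    obtain ⟨j, _, hj⟩ := (Nat.dvd_prime_pow Nat.prime_two).mp hmdvd
    have hj2 : 2 ≤ j := by
      by_contra hlt
      have : j ≤ 1 := by omega
      have : 2 ^ j ≤ 2 ^ 1 := Nat.pow_le_pow_right (by norm_num) this
      omega
    have hox : orderOf (e.symm (DihedralGroup.r 1)) = 2 ^ j := by
      rw [MulEquiv.orderOf_eq, DihedralGroup.orderOf_r_one, hj]
    apply gen j (by omega) (e.symm (DihedralGroup.r 1)) hox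
    · rw [hcard, hj, pow_succ']
    · intro g hg
      have hord : orderOf g = orderOf (e g) := (MulEquiv.orderOf_eq e g).symm
      rcases hge : e g with i | i
      · exfalso
        apply hg
        have : g = e.symm (DihedralGroup.r 1) ^ (i.val) := by
          rw [← map_pow, DihedralGroup.r_one_pow]
          apply e.injective
          rw [hge]
          simp
        rw [this]
        exact Subgroup.pow_mem _ (Subgroup.mem_zpowers _) _
      · rw [hord, hge, DihedralGroup.orderOf_sr]
        have : 2 ^ 2 ≤ 2 ^ j := Nat.pow_le_pow_right (by norm_num) hj2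
        omega
  · apply gen n (by omega) x hx hcard
    intro g hg
    have hCcard : Nat.card (Subgroup.zpowers x) = 2 ^ n := by rw [Nat.card_zpowers, hx]
    have hidx : (Subgroup.zpowers x).index = 2 := by
      have := Subgroup.card_mul_index (Subgroup.zpowers x)
      rw [hCcard, hcard, pow_succ] at this
      exact Nat.eq_of_mul_eq_mul_left (pow_pos two_pos n) this
    have h8 : 2 ^ 3 ≤ 2 ^ n := Nat.pow_le_pow_right (by norm_num) hn
    have hn1 : 2 ^ n = 2 * 2 ^ (n - 1) := by
      rw [← pow_succ']; congr 1; omega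
    have hy2 : y * y = 1 := by
      have := pow_orderOf_eq_one y
      rw [hy, pow_two] at this
      exact this
    have hyinv : y⁻¹ = y := by
      rw [inv_eq_iff_mul_eq_one]; exact hy2
    -- y ∉ ⟨x⟩
    have hyC : y ∉ Subgroup.zpowers x := by
      intro hmem
      obtain ⟨k, hk⟩ := Subgroup.mem_zpowers_iff.mp hmem
      have hcomm : y * x = x * y := by
        rw [← hk]
        exact ((Commute.refl x).zpow_left k).eq
      have h1 : x ^ (2 ^ (n - 1) - 1) = x ^ 1 := by
        rw [← hxy, hcomm, pow_one]; group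
      rw [pow_eq_pow_iff_modEq, hx] at h1
      have h2 : (2 ^ (n - 1) - 1) % 2 ^ n = 1 % 2 ^ n := h1
      have h4 : 2 ^ 2 ≤ 2 ^ (n - 1) := Nat.pow_le_pow_right (by norm_num) (by omega)
      rw [Nat.mod_eq_of_lt (by omega), Nat.mod_eq_of_lt (by omega)] at h2
      omega
    have hgy : g * y⁻¹ ∈ Subgroup.zpowers x := by
      rw [Subgroup.mul_mem_iff_of_index_two hidx]
      constructor
      · intro h; exact absurd h hg
      · intro h
        exfalso; apply hyC
        have := Subgroup.inv_mem _ h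
        rwa [inv_inv] at this
    have hgy' : g * y⁻¹ ∈ Submonoid.powers x := (mem_powers_iff_mem_zpowers).mpr hgy
    obtain ⟨i, hi⟩ := hgy'
    have hg' : g = x ^ i * y := by
      have hi' : x ^ i = g * y⁻¹ := hi
      rw [hi']; group
    have hconj : y * x ^ i * y⁻¹ = x ^ ((2 ^ (n - 1) - 1) * i) := by
      have : y * x ^ i * y⁻¹ = (y * x * y⁻¹) ^ i := by
        rw [conj_pow]
      rw [this, hxy, ← pow_mul]
    have hg2 : g * g = x ^ (2 ^ (n - 1) * i) := by
      have e1 : g * g = x ^ i * (y * x ^ i * y⁻¹) * (y * y) := by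
        rw [hg']; group
      rw [e1, hconj, hy2, mul_one, ← pow_add]
      congr 1
      have h4 : 1 ≤ 2 ^ (n - 1) := Nat.one_le_two_pow
      have : i + (2 ^ (n - 1) - 1) * i = (1 + (2 ^ (n - 1) - 1)) * i := by ring
      rw [this]
      congr 1
      omega
    have hg4 : g ^ 4 = 1 := by
      have : g ^ 4 = (g * g) * (g * g) := by
        rw [show (4 : ℕ) = 2 + 2 from rfl, pow_add, pow_two]
      rw [this, hg2, ← pow_add, ← two_mul, ← mul_assoc, ← hn1, pow_mul, ← hx, pow_orderOf_eq_one,
        one_pow]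
    have := Nat.le_of_dvd (by norm_num) (orderOf_dvd_of_pow_eq_one hg4)
    omega

end Cfsg.Agent.S3116
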