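import Cfsg.Statements.S3356
import Mathlib
-- import your own Cfsg.Agent.* helpers here

set_option autoImplicit false
open Cfsg

namespace Cfsg.Agent.S3356

/-- orbit counting: all stabilizers of the same order `d`. -/
theorem oc {S X : Type*} [Group S] [MulAction S X] [Finite S] [Finite X] (d : ℕ)
    (h : ∀ x : X, Nat.card (MulAction.stabilizer S x) = d) : Nat.card S ∣ d * Nat.card X := by
  classical
  have e := MulAction.selfEquivSigmaOrbitsQuotientStabilizer S X
  haveI : Fintype (Quotient (MulAction.orbitRel S X)) := Fintype.ofFinite _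
  rw [Nat.card_congr e, Nat.card_sigma, Finset.mul_sum]
  have : ∀ ω : Quotient (MulAction.orbitRel S X),
      d * Nat.card (S ⧸ MulAction.stabilizer S ω.out) = Nat.card S := by
    intro ω
    rw [← h ω.out]
    exact Subgroup.card_mul_index _
  rw [Finset.sum_congr rfl (fun ω _ => this ω), Finset.sum_const, smul_eq_mul]
  exact Dvd.intro_left _ rfl

/-- conjugation action of a subgroup on an invariant set. -/
def conjAct {G : Type*} [Group G] (S : Subgroup G) (X : Set G)
    (hX : ∀ h ∈ S, ∀ y ∈ X, h * y * h⁻¹ ∈ X) : MulAction S X where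
  smul h y := ⟨h.1 * y.1 * h.1⁻¹, hX h.1 h.2 y.1 y.2⟩
  one_smul y := Subtype.ext (by change (1 : G) * y.1 * (1 : G)⁻¹ = y.1; simp)
  mul_smul a b y := Subtype.ext (by
    change (a.1 * b.1) * y.1 * (a.1 * b.1)⁻¹ = a.1 * (b.1 * y.1 * b.1⁻¹) * a.1⁻¹
    simp [mul_assoc])

theorem oc_conj {G : Type*} [Group G] [Finite G] (S : Subgroup G) (X : Set G)
    (hX : ∀ h ∈ S, ∀ y ∈ X, h * y * h⁻¹ ∈ X) (d : ℕ)
    (hst : ∀ y ∈ X, Nat.card ↥(S ⊓ Subgroup.centralizer ({y} : Set G)) = d) :
    Nat.card S ∣ d * X.ncard := by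
  letI := conjAct S X hX
  have h1 : ∀ y : X, Nat.card (MulAction.stabilizer S y) = d := by
    intro y
    rw [← hst y.1 y.2]
    have : (MulAction.stabilizer S y).map S.subtype = S ⊓ Subgroup.centralizer ({y.1} : Set G) := by
      ext g
      constructor
      · rintro ⟨h, hh, rfl⟩
        have h2 : h • y = y := hh
        have h3 : h.1 * y.1 * h.1⁻¹ = y.1 := congrArg Subtype.val h2
        refine Subgroup.mem_inf.mpr ⟨h.2, ?_⟩
        rw [Subgroup.mem_centralizer_iff]
        intro z hz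
        rw [Set.mem_singleton_iff] at hz
        rw [hz]
        exact (mul_inv_eq_iff_eq_mul.mp h3).symm
      · intro hg
        obtain ⟨hgS, hgc⟩ := Subgroup.mem_inf.mp hg
        rw [Subgroup.mem_centralizer_iff] at hgc
        have h4 := hgc y.1 rfl
        refine ⟨⟨g, hgS⟩, ?_, rfl⟩
        change (⟨g, hgS⟩ : S) • y = y
        apply Subtype.ext
        change g * y.1 * g⁻¹ = y.1
        rw [← h4, mul_inv_cancel_right]
    rw [← this]
    exact (Subgroup.card_map_of_injective S.subtype_injective).symm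
  have := oc d h1
  rwa [Nat.card_coe_set_eq] at this

/-- centralizer of `x` in `H`. -/
def cen {G : Type*} [Group G] (H : Subgroup G) (x : G) : Subgroup G :=
  H ⊓ Subgroup.centralizer ({x} : Set G)

theorem mem_cen {G : Type*} [Group G] (H : Subgroup G) (x h : G) :
    h ∈ cen H x ↔ h ∈ H ∧ Commute h x := by
  unfold cen
  rw [Subgroup.mem_inf, Subgroup.mem_centralizer_iff]
  constructor
  · rintro ⟨a, b⟩; exact ⟨a, (b x rfl).symm⟩
  · rintro ⟨a, b⟩
    refine ⟨a, fun z hz => ?_⟩
    rw [Set.mem_singleton_iff.mp hz]; exact b.symm.eq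

/-- setwise stabilizer (under conjugation) in `H` of `X`. -/
def setStab {G : Type*} [Group G] (H : Subgroup G) (X : Set G) : Subgroup G where
  carrier := {h | h ∈ H ∧ (∀ y ∈ X, h * y * h⁻¹ ∈ X) ∧ (∀ y ∈ X, h⁻¹ * y * h ∈ X)}
  one_mem' := ⟨H.one_mem, fun y hy => by simpa using hy, fun y hy => by simpa using hy⟩
  mul_mem' := by
    rintro a b ⟨ha, ha1, ha2⟩ ⟨hb, hb1, hb2⟩
    refine ⟨H.mul_mem ha hb, fun y hy => ?_, fun y hy => ?_⟩
    · have := ha1 _ (hb1 y hy)
      simpa [mul_assoc] using this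
    · have := hb2 _ (ha2 y hy)
      simpa [mul_assoc] using this
  inv_mem' := by
    rintro a ⟨ha, ha1, ha2⟩
    exact ⟨H.inv_mem ha, fun y hy => by simpa using ha2 y hy, fun y hy => by simpa using ha1 y hy⟩

theorem keyK {G : Type*} [Group G] [Finite G] (H : Subgroup G) (d : ℕ) (hd : 0 < d) (X : Set G)
    (c : ℕ)
    (hcard : ∀ y ∈ X, Nat.card ↥(cen H y) = d)
    (hinv : ∀ y ∈ X, ∀ h ∈ cen H y, ∀ z ∈ X, h * z * h⁻¹ ∈ X)
    (hXc : X.ncard ∣ c) (hH : Nat.card H ∣ d * (c - 1)) (hc : 1 ≤ c) :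
    ∀ y ∈ X, ∀ y' ∈ X, cen H y = cen H y' := by
  have hSH : setStab H X ≤ H := fun h hh => hh.1
  have hCS : ∀ y ∈ X, cen H y ≤ setStab H X := by
    intro y hy h hh
    have hh' : h⁻¹ ∈ cen H y := (cen H y).inv_mem hh
    refine ⟨((mem_cen H y h).mp hh).1, hinv y hy h hh, fun z hz => ?_⟩
    have := hinv y hy h⁻¹ hh' z hz
    simpa using this
  have hst : ∀ y ∈ X, Nat.card ↥(setStab H X ⊓ Subgroup.centralizer ({y} : Set G)) = d := by
    intro y hy
    rw [← hcard y hy]
    have : setStab H X ⊓ Subgroup.centralizer ({y} : Set G) = cen H y := by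
      apply le_antisymm
      · exact inf_le_inf_right _ hSH
      · exact le_inf (hCS y hy) inf_le_right
    rw [this]
  have h1 := oc_conj (setStab H X) X (fun h hh y hy => hh.2.1 y hy) d hst
  have h2 : Nat.card (setStab H X) ∣ d * c := h1.trans (Nat.mul_dvd_mul_left d hXc)
  have h3 : Nat.card (setStab H X) ∣ d * (c - 1) := (Subgroup.card_dvd_of_le hSH).trans hH
  have h4 : Nat.card (setStab H X) ∣ d := by
    have := Nat.dvd_sub h2 h3
    obtain ⟨c', rfl⟩ : ∃ c', c = c' + 1 := ⟨c - 1, by omega⟩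
    have e : d * (c' + 1) - d * (c' + 1 - 1) = d := by
      rw [Nat.add_sub_cancel, Nat.mul_succ, Nat.add_sub_cancel_left]
    rwa [e] at this
  have h5 : Nat.card (setStab H X) ≤ d := Nat.le_of_dvd hd h4
  have h6 : ∀ y ∈ X, cen H y = setStab H X := fun y hy =>
    Subgroup.eq_of_le_of_card_ge (hCS y hy) (by rw [hcard y hy]; exact h5)
  intro y hy y' hy'
  rw [h6 y hy, h6 y' hy']

theorem card_stab_inf {G Ω : Type*} [Group G] [Finite G] [MulAction G Ω] (H : Subgroup G)
    (b : Ω) :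
    Nat.card (MulAction.orbit H b) * Nat.card ↥(H ⊓ MulAction.stabilizer G b) = Nat.card H := by
  have h1 : (MulAction.stabilizer H b).map H.subtype = H ⊓ MulAction.stabilizer G b := by
    ext g
    constructor
    · rintro ⟨h, hh, rfl⟩
      exact Subgroup.mem_inf.mpr ⟨h.2, hh⟩
    · intro hg
      obtain ⟨h1, h2⟩ := Subgroup.mem_inf.mp hg
      exact ⟨⟨g, h1⟩, h2, rfl⟩
  rw [← h1, Subgroup.card_map_of_injective H.subtype_injective]
  rw [← Nat.card_prod]
  exact Nat.card_congr (MulAction.orbitProdStabilizerEquivGroup H b)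

theorem core {G : Type*} [Group G] [Finite G] (N H : Subgroup G) [hN : N.Normal]
    (hNH : ∀ g : G, ∃ n ∈ N, ∃ h ∈ H, g = n * h)
    (hfaith : ∀ h ∈ H, (∀ x ∈ N, Commute h x) → h = 1)
    (d : ℕ) (hd : 1 < d)
    (hcard : ∀ x ∈ N, x ≠ 1 → Nat.card ↥(cen H x) = d)
    (hNbot : N ≠ ⊥) :
    (∃ p : ℕ, p.Prime ∧ IsMulCommutative N ∧ ∀ x ∈ N, x ^ p = 1) ∧
    (∀ M : Subgroup G, M.Normal → M ≠ ⊥ → N ≤ M) := by
  classical
  have hd0 : 0 < d := by omega
  have F1 : ∀ x y, x ∈ N → y ∈ N → x ≠ 1 → y ≠ 1 → cen H x ≤ cen H y → cen H x = cen H y := by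
    intro x y hx hy hx1 hy1 hle
    exact Subgroup.eq_of_le_of_card_ge hle (by rw [hcard x hx hx1, hcard y hy hy1])
  have exD : ∀ x ∈ N, x ≠ 1 → ∃ h ∈ cen H x, h ≠ 1 := by
    intro x hx hx1
    by_contra hcon
    push Not at hcon
    have : cen H x = ⊥ := (Subgroup.eq_bot_iff_forall _).mpr hcon
    have h1 := hcard x hx hx1
    rw [this, Subgroup.card_bot] at h1
    omega
  have stepA : ∀ M : Subgroup G, M ≤ N → (∀ h ∈ H, ∀ m ∈ M, h * m * h⁻¹ ∈ M) →
      Nat.card H ∣ d * (Nat.card M - 1) := by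
    intro M hMN hinv
    have h1 := oc_conj H ((M : Set G) \ {1}) (by
      intro h hh y hy
      refine ⟨hinv h hh y hy.1, ?_⟩
      intro h1
      apply hy.2
      rw [Set.mem_singleton_iff] at h1 ⊢
      have : y = h⁻¹ * (h * y * h⁻¹) * h := by group
      rw [this, h1]; group) d (by
      intro y hy
      exact hcard y (hMN hy.1) hy.2)
    have h2 : ((M : Set G) \ {1}).ncard = Nat.card M - 1 := by
      have e : (M : Set G).ncard = Nat.card M := (Nat.card_coe_set_eq (M : Set G)).symm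
      rw [Set.ncard_sdiff_singleton_of_mem (show (1 : G) ∈ (M : Set G) from M.one_mem), e]
    rwa [h2] at h1
  have L1 : ∀ M : Subgroup G, M ≤ N → (∀ h ∈ H, ∀ m ∈ M, h * m * h⁻¹ ∈ M) →
      M = ⊥ ∨ M = N := by
    intro M hMN hinv
    by_contra hcon
    push Not at hcon
    obtain ⟨hMb, hMN'⟩ := hcon
    obtain ⟨m0, hm0, hm01⟩ : ∃ m ∈ M, m ≠ 1 := by
      by_contra h
      push Not at h
      exact hMb ((Subgroup.eq_bot_iff_forall _).mpr h)
    obtain ⟨x0, hx0N, hx0M⟩ : ∃ x ∈ N, x ∉ M := by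
      by_contra h
      push Not at h
      exact hMN' (le_antisymm hMN h)
    have claim : ∀ x ∈ N, x ∉ M → ∀ m ∈ M, m ≠ 1 → cen H x = cen H m := by
      intro x hxN hxM m hm hm1
      have hx1 : x ≠ 1 := fun h => hxM (h ▸ M.one_mem)
      have hK := keyK H d hd0 ((fun m => x * m) '' (M : Set G)) (Nat.card M)
        (by
          rintro y ⟨m', hm', rfl⟩
          refine hcard _ (N.mul_mem hxN (hMN hm')) ?_
          intro h
          apply hxM
          have : x = m'⁻¹ := eq_inv_of_mul_eq_one_left h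
          rw [this]; exact M.inv_mem hm')
        (by
          rintro y ⟨m', hm', rfl⟩ h hh z ⟨m'', hm'', rfl⟩
          obtain ⟨hhH, hcomm⟩ := (mem_cen H _ h).mp hh
          refine ⟨m' * (h * (m'⁻¹ * m'') * h⁻¹),
            M.mul_mem hm' (hinv h hhH _ (M.mul_mem (M.inv_mem hm') hm'')), ?_⟩
          have e : h * (x * m') = (x * m') * h := hcomm.eq
          calc x * (m' * (h * (m'⁻¹ * m'') * h⁻¹))
              = ((x * m') * h) * (m'⁻¹ * m'' * h⁻¹) := by group
            _ = (h * (x * m')) * (m'⁻¹ * m'' * h⁻¹) := by rw [e]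
            _ = h * (x * m'') * h⁻¹ := by group)
        (by
          rw [Set.ncard_image_of_injective _ (mul_right_injective x)]
          exact dvd_of_eq (Nat.card_coe_set_eq (M : Set G)).symm)
        (stepA M hMN hinv) Nat.card_pos
      have h1 : cen H x = cen H (x * m) := by
        have := hK (x * 1) ⟨1, M.one_mem, rfl⟩ (x * m) ⟨m, hm, rfl⟩
        simpa using this
      apply F1 x m hxN (hMN hm) hx1 hm1
      intro h hh
      have hh2 : h ∈ cen H (x * m) := h1 ▸ hh
      obtain ⟨hhH, c1⟩ := (mem_cen H _ h).mp hh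
      obtain ⟨_, c2⟩ := (mem_cen H _ h).mp hh2
      refine (mem_cen H _ h).mpr ⟨hhH, ?_⟩
      have : m = x⁻¹ * (x * m) := by group
      rw [this]
      exact c1.inv_right.mul_right c2
    obtain ⟨h, hh, hh1⟩ := exD x0 hx0N (fun h => hx0M (h ▸ M.one_mem))
    apply hh1
    apply hfaith h ((mem_cen H _ h).mp hh).1
    intro z hz
    by_cases hzM : z ∈ M
    · by_cases hz1 : z = 1
      · rw [hz1]; exact Commute.one_right h
      · have := claim x0 hx0N hx0M z hzM hz1
        exact ((mem_cen H _ h).mp (this ▸ hh)).2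
    · have e1 := claim z hz hzM m0 hm0 hm01
      have e2 := claim x0 hx0N hx0M m0 hm0 hm01
      have : h ∈ cen H z := by rw [e1, ← e2]; exact hh
      exact ((mem_cen H _ h).mp this).2
  have stepA' : Nat.card H ∣ d * (Nat.card N - 1) :=
    stepA N le_rfl (fun h _ m hm => hN.conj_mem m hm h)
  have star : ∀ x ∈ N, x ≠ 1 → ∀ n ∈ N, cen H x = cen H (n * x * n⁻¹) := by
    intro x hx hx1 n hn
    have hK := keyK H d hd0 {y | ∃ n ∈ N, y = n * x * n⁻¹} (Nat.card N)
      (by
        rintro y ⟨n', hn', rfl⟩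
        refine hcard _ (hN.conj_mem x hx n') ?_
        intro h
        apply hx1
        have : x = n'⁻¹ * (n' * x * n'⁻¹) * n' := by group
        rw [this, h]; group)
      (by
        rintro y ⟨n0, hn0, rfl⟩ h hh z ⟨n', hn', rfl⟩
        obtain ⟨hhH, hcomm⟩ := (mem_cen H _ h).mp hh
        refine ⟨(h * (n' * n0⁻¹) * h⁻¹) * n0,
          N.mul_mem (hN.conj_mem _ (N.mul_mem hn' (N.inv_mem hn0)) h) hn0, ?_⟩
        have e : h * (n0 * x * n0⁻¹) = (n0 * x * n0⁻¹) * h := hcomm.eq
        symm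
        calc (h * (n' * n0⁻¹) * h⁻¹ * n0) * x * (h * (n' * n0⁻¹) * h⁻¹ * n0)⁻¹
            = (h * (n' * n0⁻¹) * h⁻¹) * ((n0 * x * n0⁻¹) * h) * (n0 * n'⁻¹ * h⁻¹) := by group
          _ = (h * (n' * n0⁻¹) * h⁻¹) * (h * (n0 * x * n0⁻¹)) * (n0 * n'⁻¹ * h⁻¹) := by rw [e]
          _ = h * (n' * x * n'⁻¹) * h⁻¹ := by group)
      (by
        letI := conjAct N (Set.univ : Set G) (fun _ _ _ _ => Set.mem_univ _)
        have h1 : {y | ∃ n ∈ N, y = n * x * n⁻¹} = Subtype.val ''
            (MulAction.orbit N (⟨x, Set.mem_univ x⟩ : (Set.univ : Set G))) := by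
          ext y
          constructor
          · rintro ⟨n, hn, rfl⟩
            exact ⟨⟨n * x * n⁻¹, Set.mem_univ _⟩, ⟨⟨n, hn⟩, rfl⟩, rfl⟩
          · rintro ⟨y', ⟨n, hn⟩, rfl⟩
            exact ⟨n.1, n.2, by rw [← hn]; rfl⟩
        rw [h1, Set.ncard_image_of_injective _ Subtype.val_injective,
          ← MulAction.index_stabilizer]
        exact Subgroup.index_dvd_card _)
      stepA' Nat.card_pos
    exact hK x ⟨1, N.one_mem, by simp⟩ (n * x * n⁻¹) ⟨n, hn, rfl⟩
  have comm : ∀ x ∈ N, ∀ y ∈ N, x ≠ 1 → y ≠ 1 → cen H x ≠ cen H y → x * y = y * x := by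
    intro x hx y hy hx1 hy1 hne
    by_contra hxy
    have hc1 : x * y * x⁻¹ * y⁻¹ ≠ 1 := by
      intro h
      apply hxy
      have : x * y = (x * y * x⁻¹ * y⁻¹) * (y * x) := by group
      rw [this, h, one_mul]
    have hcN : x * y * x⁻¹ * y⁻¹ ∈ N :=
      N.mul_mem (N.mul_mem (N.mul_mem hx hy) (N.inv_mem hx)) (N.inv_mem hy)
    have e1 : cen H x = cen H (x * y * x⁻¹ * y⁻¹) := by
      apply F1 x _ hx hcN hx1 hc1
      intro h hh
      obtain ⟨hhH, c1⟩ := (mem_cen H _ h).mp hh
      have hh2 : h ∈ cen H (y * x * y⁻¹) := star x hx hx1 y hy ▸ hh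
      obtain ⟨_, c2⟩ := (mem_cen H _ h).mp hh2
      refine (mem_cen H _ h).mpr ⟨hhH, ?_⟩
      have : x * y * x⁻¹ * y⁻¹ = x * (y * x * y⁻¹)⁻¹ := by group
      rw [this]
      exact c1.mul_right c2.inv_right
    have e2 : cen H y = cen H (x * y * x⁻¹ * y⁻¹) := by
      apply F1 y _ hy hcN hy1 hc1
      intro h hh
      obtain ⟨hhH, c1⟩ := (mem_cen H _ h).mp hh
      have hh2 : h ∈ cen H (x * y * x⁻¹) := star y hy hy1 x hx ▸ hh
      obtain ⟨_, c2⟩ := (mem_cen H _ h).mp hh2
      refine (mem_cen H _ h).mpr ⟨hhH, ?_⟩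
      have : x * y * x⁻¹ * y⁻¹ = (x * y * x⁻¹) * y⁻¹ := by group
      rw [this]
      exact c2.mul_right c1.inv_right
    exact hne (e1.trans e2.symm)
  have abel : ∀ x ∈ N, ∀ y ∈ N, x * y = y * x := by
    intro x hx y hy
    by_contra hxy
    have hx1 : x ≠ 1 := fun h => hxy (by rw [h]; simp)
    have hy1 : y ≠ 1 := fun h => hxy (by rw [h]; simp)
    have hxyC : cen H x = cen H y := by
      by_contra h
      exact hxy (comm x hx y hy hx1 hy1 h)
    obtain ⟨h, hh, hh1⟩ := exD x hx hx1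
    obtain ⟨hhH, chx⟩ := (mem_cen H _ h).mp hh
    obtain ⟨w, hw, hcw⟩ : ∃ w ∈ N, ¬ Commute h w := by
      by_contra hcon
      push Not at hcon
      exact hh1 (hfaith h hhH hcon)
    have hw1 : w ≠ 1 := fun e => hcw (e ▸ Commute.one_right h)
    have hwx : cen H w ≠ cen H x := by
      intro e
      exact hcw ((mem_cen H _ h).mp (e ▸ hh)).2
    have c1 : w * x = x * w := comm w hw x hx hw1 hx1 hwx
    have c2 : w * y = y * w := comm w hw y hy hw1 hy1 (hxyC ▸ hwx)
    have hxw1 : x * w ≠ 1 := by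
      intro e
      apply hcw
      have : w = x⁻¹ := eq_inv_of_mul_eq_one_right e
      rw [this]; exact chx.inv_right
    have hxwy : cen H (x * w) ≠ cen H y := by
      intro e
      apply hcw
      have hh2 : h ∈ cen H (x * w) := by rw [e, ← hxyC]; exact hh
      have c3 := ((mem_cen H _ h).mp hh2).2
      have : w = x⁻¹ * (x * w) := by group
      rw [this]; exact chx.inv_right.mul_right c3
    have c4 : (x * w) * y = y * (x * w) :=
      comm (x * w) (N.mul_mem hx hw) y hy hxw1 hy1 hxwy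
    apply hxy
    have : x * y * w = y * x * w := by
      calc x * y * w = x * (y * w) := by group
        _ = x * (w * y) := by rw [c2]
        _ = (x * w) * y := by group
        _ = y * (x * w) := c4
        _ = y * x * w := by group
    exact mul_right_cancel this
  refine ⟨?_, ?_⟩
  · have hN1 : Nat.card N ≠ 1 := by
      have := (Subgroup.one_lt_card_iff_ne_bot N).mpr hNbot
      omega
    obtain ⟨p, hp, hpd⟩ := Nat.exists_prime_and_dvd hN1
    haveI : Fact p.Prime := ⟨hp⟩
    obtain ⟨g, hg⟩ := exists_prime_orderOf_dvd_card' p hpd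
    let M : Subgroup G :=
      { carrier := {x | x ∈ N ∧ x ^ p = 1}
        one_mem' := ⟨N.one_mem, one_pow p⟩
        mul_mem' := fun {a b} ha hb => ⟨N.mul_mem ha.1 hb.1, by
          rw [(show Commute a b from abel a ha.1 b hb.1).mul_pow, ha.2, hb.2, one_mul]⟩
        inv_mem' := fun {a} ha => ⟨N.inv_mem ha.1, by rw [inv_pow, ha.2, inv_one]⟩ }
    have hM := L1 M (fun x hx => hx.1) (fun h hh m hm =>
      ⟨hN.conj_mem m hm.1 h, by rw [conj_pow, hm.2]; simp⟩)
    rcases hM with hM | hM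
    · exfalso
      have hgM : g.1 ∈ M := ⟨g.2, by
        have := pow_orderOf_eq_one g
        rw [hg] at this
        exact_mod_cast congrArg Subtype.val this⟩
      rw [hM, Subgroup.mem_bot] at hgM
      have hg1 : g = 1 := Subtype.ext hgM
      rw [hg1, orderOf_one] at hg
      exact hp.one_lt.ne hg
    · refine ⟨p, hp, ⟨⟨fun a b => Subtype.ext (abel a.1 a.2 b.1 b.2)⟩⟩, fun x hx => ?_⟩
      have : x ∈ M := hM ▸ hx
      exact this.2
  · intro M hMn hMb
    have hK := L1 (M ⊓ N) inf_le_right (fun h hh m hm =>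
      Subgroup.mem_inf.mpr ⟨hMn.conj_mem m (Subgroup.mem_inf.mp hm).1 h,
        hN.conj_mem m (Subgroup.mem_inf.mp hm).2 h⟩)
    rcases hK with hK | hK
    · exfalso
      apply hMb
      rw [Subgroup.eq_bot_iff_forall]
      intro m hm
      obtain ⟨n, hn, h, hh, rfl⟩ := hNH m
      have hcomm : ∀ x ∈ N, Commute (n * h) x := by
        intro x hx
        have h1 : (n * h) * x * (n * h)⁻¹ * x⁻¹ ∈ M ⊓ N := by
          refine Subgroup.mem_inf.mpr ⟨?_, N.mul_mem (hN.conj_mem x hx _) (N.inv_mem hx)⟩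
          have : (n * h) * x * (n * h)⁻¹ * x⁻¹ = (n * h) * (x * (n * h)⁻¹ * x⁻¹) := by group
          rw [this]
          exact M.mul_mem hm (hMn.conj_mem _ (M.inv_mem hm) x)
        rw [hK, Subgroup.mem_bot] at h1
        have : (n * h) * x = ((n * h) * x * (n * h)⁻¹ * x⁻¹) * (x * (n * h)) := by group
        have h2 : (n * h) * x = x * (n * h) := by rw [this, h1, one_mul]
        exact h2
      have hh1 : h = 1 := hfaith h hh (fun x hx => by
        have c1 := hcomm x hx
        have c2 : Commute n x := abel n hn x hx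
        have : h = n⁻¹ * (n * h) := by group
        rw [this]; exact c2.inv_left.mul_left c1)
      rw [hh1, mul_one] at hm ⊢
      have : n ∈ M ⊓ N := Subgroup.mem_inf.mpr ⟨hm, hn⟩
      rw [hK] at this
      exact Subgroup.mem_bot.mp this
    · rw [← hK]; exact inf_le_left


/-- Let G be a finite 3/2-transitive permutation group: G acts faithfully and transitively on a finite set, the point stabilizers are non-trivial, and for each point a all orbits of G_a on the remaining points have the same size. Suppose G has a regular normal subgroup N and G is not a Frobenius group (some two-point stabilizer is non-trivial). Then N is an elementary abelian p-group for some prime p, and every non-trivial normal subgroup of G contains N (so N is the unique minimal normal subgroup). -/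
theorem result {G Ω : Type*} [Group G] [Finite G]
    [MulAction G Ω] [FaithfulSMul G Ω] [Finite Ω] (htrans : MulAction.IsPretransitive G Ω)
    (hne : ∀ a : Ω, MulAction.stabilizer G a ≠ ⊥)
    (hhalf : ∀ a b c : Ω, b ≠ a → c ≠ a →
      Nat.card (MulAction.orbit (MulAction.stabilizer G a) b) = Nat.card (MulAction.orbit (MulAction.stabilizer G a) c))
    (N : Subgroup G) [hN : N.Normal] (hNt : MulAction.IsPretransitive N Ω) (hNr : ∀ a : Ω, MulAction.stabilizer N a = ⊥)
    (hnotF : ∃ a b : Ω, a ≠ b ∧ MulAction.stabilizer G a ⊓ MulAction.stabilizer G b ≠ ⊥) :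
    (∃ p : ℕ, p.Prime ∧ IsMulCommutative N ∧ ∀ x ∈ N, x ^ p = 1) ∧
    (∀ M : Subgroup G, M.Normal → M ≠ ⊥ → N ≤ M) := by
  classical
  obtain ⟨a, b0, hab, hne2⟩ := hnotF
  have hNa : ∀ n ∈ N, n • a = a → n = 1 := by
    intro n hn h
    have : (⟨n, hn⟩ : N) ∈ MulAction.stabilizer N a := h
    rw [hNr a, Subgroup.mem_bot] at this
    exact congrArg Subtype.val this
  have hNex : ∀ ω : Ω, ∃ n ∈ N, n • a = ω := by
    intro ω
    obtain ⟨n, hn⟩ := MulAction.exists_smul_eq N a ω
    exact ⟨n.1, n.2, hn⟩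
  have stab_eq : ∀ x ∈ N, cen (MulAction.stabilizer G a) x =
      MulAction.stabilizer G a ⊓ MulAction.stabilizer G (x • a) := by
    intro x hx
    ext h
    rw [mem_cen, Subgroup.mem_inf, MulAction.mem_stabilizer_iff, MulAction.mem_stabilizer_iff]
    constructor
    · rintro ⟨hh, c⟩
      refine ⟨hh, ?_⟩
      rw [← mul_smul, c.eq, mul_smul, hh]
    · rintro ⟨hh, e⟩
      refine ⟨hh, ?_⟩
      have ha' : h⁻¹ • a = a := by rw [inv_smul_eq_iff, hh]
      have : (x⁻¹ * (h * x * h⁻¹)) • a = a := by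
        rw [mul_smul, mul_smul, mul_smul, ha', e, inv_smul_smul]
      have h1 := hNa _ (N.mul_mem (N.inv_mem hx) (hN.conj_mem x hx h)) this
      have h2 : h * x * h⁻¹ = x := by
        have := congrArg (fun t => x * t) h1
        simpa using this
      exact mul_inv_eq_iff_eq_mul.mp h2
  have key : ∀ b : Ω, b ≠ a →
      Nat.card ↥(MulAction.stabilizer G a ⊓ MulAction.stabilizer G b) =
      Nat.card ↥(MulAction.stabilizer G a ⊓ MulAction.stabilizer G b0) := by
    intro b hb
    have h1 := card_stab_inf (MulAction.stabilizer G a) b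
    have h2 := card_stab_inf (MulAction.stabilizer G a) b0
    have h3 := hhalf a b b0 hb hab.symm
    rw [← h2, h3] at h1
    haveI : Nonempty (MulAction.orbit (MulAction.stabilizer G a) b0) :=
      ⟨⟨b0, MulAction.mem_orbit_self b0⟩⟩
    exact Nat.eq_of_mul_eq_mul_left Nat.card_pos h1
  refine core N (MulAction.stabilizer G a) ?_ ?_
    (Nat.card ↥(MulAction.stabilizer G a ⊓ MulAction.stabilizer G b0))
    ((Subgroup.one_lt_card_iff_ne_bot _).mpr hne2) ?_ ?_
  · intro g
    obtain ⟨n, hn, e⟩ := hNex (g • a)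
    refine ⟨n, hn, n⁻¹ * g, ?_, by group⟩
    rw [MulAction.mem_stabilizer_iff, mul_smul, ← e, inv_smul_smul]
  · intro h hh hc
    apply FaithfulSMul.eq_of_smul_eq_smul (α := Ω)
    intro ω
    obtain ⟨n, hn, rfl⟩ := hNex ω
    rw [one_smul, ← mul_smul, (hc n hn).eq, mul_smul]
    congr 1
  · intro x hx hx1
    rw [stab_eq x hx]
    exact key (x • a) (fun e => hx1 (hNa x hx e))
  · intro e
    obtain ⟨n, hn, e2⟩ := hNex b0
    rw [e, Subgroup.mem_bot] at hn
    rw [hn, one_smul] at e2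
    exact hab e2

end Cfsg.Agent.S3356
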