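import Cfsg.Statements.S3370
import Mathlib
import Cfsg.Agent.Lead.Quat
-- import your own Cfsg.Agent.* helpers here

set_option autoImplicit false
open Cfsg

namespace Cfsg.Agent.S3370

/-! ### number theory -/

theorem nt_aux (x : ℤ) (N : ℤ) (h : N ∣ x ^ 2 - 1) (k : ℕ) : N ∣ x ^ (2 * k + 1) - x := by
  have h1 : x ^ 2 - 1 ∣ (x ^ 2) ^ k - 1 ^ k := sub_dvd_pow_sub_pow (x ^ 2) 1 k
  have h2 : x ^ (2 * k + 1) - x = x * ((x ^ 2) ^ k - 1 ^ k) := by
    rw [one_pow, pow_succ, pow_mul]; ring
  rw [h2]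
  exact Dvd.dvd.mul_left (h.trans h1) x

theorem two_pow_not_dvd (e : ℕ) : ¬ ((2 : ℤ) ^ (e + 1) ∣ 2 ^ e) := by
  intro h
  have h1 := Int.le_of_dvd (by positivity) h
  have h2 : (2 : ℤ) ^ e < 2 ^ (e + 1) := by
    rw [pow_succ]
    have : (0 : ℤ) < 2 ^ e := by positivity
    linarith
  linarith

/-- `p ^ b + 1 = 2 ^ d` forces `b = 1`. -/
theorem ntA (p b d : ℕ) (hp : 2 ≤ p) (hb : 1 ≤ b) (h : p ^ b + 1 = 2 ^ d) : b = 1 := by
  have hpb : p ≤ p ^ b := by
    calc p = p ^ 1 := (pow_one p).symm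
      _ ≤ p ^ b := Nat.pow_le_pow_right (by omega) hb
  have hd2 : 2 ≤ d := by
    by_contra hcon
    have hd1 : d ≤ 1 := by omega
    have : 2 ^ d ≤ 2 ^ 1 := Nat.pow_le_pow_right (by norm_num) hd1
    omega
  have h4 : 4 ∣ 2 ^ d := by
    have : (2 : ℕ) ^ 2 ∣ 2 ^ d := pow_dvd_pow 2 hd2
    simpa using this
  have hodd : Odd p := by
    by_contra hcon
    rw [Nat.not_odd_iff_even] at hcon
    have h1 : Even (p ^ b) := hcon.pow_of_ne_zero (by omega)
    have h2 : Even (2 ^ d) := (even_two).pow_of_ne_zero (by omega)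
    rw [← h] at h2
    have := (Nat.even_add_one.mp h2) h1
    exact this
  rcases Nat.even_or_odd b with hbe | hbo
  · exfalso
    obtain ⟨k, rfl⟩ := hbe
    have h1 : Odd (p ^ k) := hodd.pow
    have h2 : p ^ (k + k) = (p ^ k) * (p ^ k) := by rw [pow_add]
    obtain ⟨m, hm⟩ := h1
    rw [h2, hm] at h
    obtain ⟨c, hc⟩ := h4
    rw [hc] at h
    have : (2 * m + 1) * (2 * m + 1) = 4 * (m * m + m) + 1 := by ring
    omega
  · obtain ⟨k, rfl⟩ := hbo
    by_contra hk
    have hk1 : 1 ≤ k := by omega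
    have hdv : p + 1 ∣ p ^ (2 * k + 1) + 1 ^ (2 * k + 1) :=
      Odd.nat_add_dvd_pow_add_pow p 1 ⟨k, rfl⟩
    rw [one_pow, h] at hdv
    obtain ⟨e, hed, he⟩ := (Nat.dvd_prime_pow Nat.prime_two).mp hdv
    have hlt : p < p ^ (2 * k + 1) := by
      calc p = p ^ 1 := (pow_one p).symm
        _ < p ^ (2 * k + 1) := Nat.pow_lt_pow_right (by omega) (by omega)
    have hed' : e + 1 ≤ d := by
      by_contra hcon
      have : e = d := by omega
      rw [this] at he
      omega
    have hZ1 : ((p : ℤ)) + 1 = 2 ^ e := by exact_mod_cast he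
    have hZ2 : ((p : ℤ)) ^ (2 * k + 1) + 1 = 2 ^ d := by exact_mod_cast h
    have hsq : (2 : ℤ) ^ (e + 1) ∣ (p : ℤ) ^ 2 - 1 := by
      obtain ⟨m, hm⟩ := hodd
      have : (p : ℤ) ^ 2 - 1 = 2 ^ (e + 1) * m := by
        have e1 : (p : ℤ) ^ 2 - 1 = ((p : ℤ) + 1) * ((p : ℤ) - 1) := by ring
        rw [e1, hZ1, hm]; push_cast; ring
      exact ⟨m, this⟩
    have h3 := nt_aux (p : ℤ) _ hsq k
    have h5 : (2 : ℤ) ^ (e + 1) ∣ (p : ℤ) ^ (2 * k + 1) + 1 := by
      rw [hZ2]; exact pow_dvd_pow 2 hed'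
    have h6 : (2 : ℤ) ^ (e + 1) ∣ ((p : ℤ) ^ (2 * k + 1) + 1) - ((p : ℤ) ^ (2 * k + 1) - p) :=
      dvd_sub h5 h3
    have h7 : ((p : ℤ) ^ (2 * k + 1) + 1) - ((p : ℤ) ^ (2 * k + 1) - p) = 2 ^ e := by
      rw [← hZ1]; ring
    rw [h7] at h6
    exact two_pow_not_dvd e h6

/-- `q ^ d = 2 ^ b + 1` with `q` odd, `d ≥ 2` forces `q = 3`, `d = 2`. -/
theorem ntB (q d b : ℕ) (hq : 3 ≤ q) (hodd : Odd q) (hd : 2 ≤ d) (h : q ^ d = 2 ^ b + 1) :
    q = 3 ∧ d = 2 := by
  rcases Nat.even_or_odd d with hde | hdo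
  · obtain ⟨k, rfl⟩ := hde
    have hk1 : 1 ≤ k := by omega
    have hx3 : 3 ≤ q ^ k := by
      calc 3 ≤ q := hq
        _ = q ^ 1 := (pow_one q).symm
        _ ≤ q ^ k := Nat.pow_le_pow_right (by omega) hk1
    set x := q ^ k with hx
    have hxx : x * x = 2 ^ b + 1 := by rw [hx, ← pow_add]; exact h
    have hprod : (x - 1) * (x + 1) = 2 ^ b := by
      obtain ⟨y, hy⟩ : ∃ y, x = y + 1 := ⟨x - 1, by omega⟩
      rw [hy] at hxx ⊢
      have : (y + 1 - 1) * (y + 1 + 1) + 1 = (y + 1) * (y + 1) := by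
        rw [Nat.add_sub_cancel]; ring
      omega
    have hd1 : x - 1 ∣ 2 ^ b := ⟨x + 1, hprod.symm⟩
    have hd2 : x + 1 ∣ 2 ^ b := ⟨x - 1, by rw [mul_comm]; exact hprod.symm⟩
    obtain ⟨i, _, hi⟩ := (Nat.dvd_prime_pow Nat.prime_two).mp hd1
    obtain ⟨j, _, hj⟩ := (Nat.dvd_prime_pow Nat.prime_two).mp hd2
    have hij : 2 ^ i + 2 = 2 ^ j := by omega
    have hi1 : i = 1 := by
      rcases Nat.lt_or_ge i 2 with hlt | hge
      · interval_cases i
        · exfalso
          have hj0 : j ≠ 0 := by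
            rintro rfl; simp at hij
          have : 2 ∣ 2 ^ j := dvd_pow_self 2 hj0
          omega
        · rfl
      · exfalso
        have h4i : 4 ∣ 2 ^ i := by
          have : (2 : ℕ) ^ 2 ∣ 2 ^ i := pow_dvd_pow 2 hge
          simpa using this
        have hji : i < j := by
          by_contra hcon
          have : 2 ^ j ≤ 2 ^ i := Nat.pow_le_pow_right (by norm_num) (by omega)
          omega
        have h4j : 4 ∣ 2 ^ j := by
          have : (2 : ℕ) ^ 2 ∣ 2 ^ j := pow_dvd_pow 2 (by omega)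
          simpa using this
        omega
    rw [hi1] at hi
    have hx3' : x = 3 := by omega
    have hk : k = 1 := by
      by_contra hcon
      have hk2 : 2 ≤ k := by omega
      have : q ^ 2 ≤ q ^ k := Nat.pow_le_pow_right (by omega) hk2
      have : 3 * 3 ≤ q ^ 2 := by rw [pow_two]; exact Nat.mul_le_mul hq hq
      omega
    rw [hk, pow_one] at hx
    exact ⟨by omega, by omega⟩
  · exfalso
    obtain ⟨k, rfl⟩ := hdo
    have hk1 : 1 ≤ k := by omega
    have hlt : q < q ^ (2 * k + 1) := by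
      calc q = q ^ 1 := (pow_one q).symm
        _ < q ^ (2 * k + 1) := Nat.pow_lt_pow_right (by omega) (by omega)
    have hdv : q - 1 ∣ q ^ (2 * k + 1) - 1 ^ (2 * k + 1) := Nat.sub_dvd_pow_sub_pow q 1 _
    rw [one_pow, h, Nat.add_sub_cancel] at hdv
    obtain ⟨e, heb, he⟩ := (Nat.dvd_prime_pow Nat.prime_two).mp hdv
    have heb' : e + 1 ≤ b := by
      by_contra hcon
      have : e = b := by omega
      rw [this] at he
      omega
    have hZ1 : ((q : ℤ)) - 1 = 2 ^ e := by
      have : q = 2 ^ e + 1 := by omega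
      rw [this]; push_cast; ring
    have hZ2 : ((q : ℤ)) ^ (2 * k + 1) - 1 = 2 ^ b := by
      have : ((q ^ (2 * k + 1) : ℕ) : ℤ) = ((2 ^ b + 1 : ℕ) : ℤ) := by rw [h]
      push_cast at this
      rw [this]; ring
    have hsq : (2 : ℤ) ^ (e + 1) ∣ (q : ℤ) ^ 2 - 1 := by
      obtain ⟨m, hm⟩ := hodd
      have : (q : ℤ) ^ 2 - 1 = 2 ^ (e + 1) * (m + 1) := by
        have e1 : (q : ℤ) ^ 2 - 1 = ((q : ℤ) - 1) * ((q : ℤ) + 1) := by ring
        rw [e1, hZ1, hm]; push_cast; ring
      exact ⟨m + 1, this⟩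
    have h3 := nt_aux (q : ℤ) _ hsq k
    have h5 : (2 : ℤ) ^ (e + 1) ∣ (q : ℤ) ^ (2 * k + 1) - 1 := by
      rw [hZ2]; exact pow_dvd_pow 2 heb'
    have h6 : (2 : ℤ) ^ (e + 1) ∣ ((q : ℤ) ^ (2 * k + 1) - 1) - ((q : ℤ) ^ (2 * k + 1) - q) :=
      dvd_sub h5 h3
    have h7 : ((q : ℤ) ^ (2 * k + 1) - 1) - ((q : ℤ) ^ (2 * k + 1) - q) = 2 ^ e := by
      rw [← hZ1]; ring
    rw [h7] at h6
    exact two_pow_not_dvd e h6

abbrev A0 : Matrix (Fin 2) (Fin 2) (ZMod 3) := !![0,1;1,2]
abbrev A0i : Matrix (Fin 2) (Fin 2) (ZMod 3) := !![1,1;1,0]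
abbrev B0 : Matrix (Fin 2) (Fin 2) (ZMod 3) := !![1,2;0,2]

theorem hA1 : A0 * A0i = 1 := by decide
theorem hA2 : A0i * A0 = 1 := by decide
theorem hB1 : B0 * B0 = 1 := by decide

def gA : GL (Fin 2) (ZMod 3) := ⟨A0, A0i, hA1, hA2⟩
def gB : GL (Fin 2) (ZMod 3) := ⟨B0, B0, hB1, hB1⟩

theorem gA8 : gA ^ 8 = 1 := by
  rw [Units.ext_iff, Units.val_pow_eq_pow_val, Units.val_one]
  change A0 ^ 8 = 1
  decide

theorem gA4 : ¬ gA ^ 4 = 1 := by
  rw [Units.ext_iff, Units.val_pow_eq_pow_val, Units.val_one]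
  change ¬ A0 ^ 4 = 1
  decide

theorem gB2 : gB * gB = 1 := by
  rw [Units.ext_iff, Units.val_mul, Units.val_one]
  change B0 * B0 = 1
  decide

theorem gBne : gB ≠ 1 := by
  rw [Ne, Units.ext_iff, Units.val_one]
  change ¬ B0 = 1
  decide

theorem gBinv : gB⁻¹ = gB := inv_eq_of_mul_eq_one_left gB2

theorem gBA : gB * gA * gB⁻¹ = gA ^ 3 := by
  rw [gBinv, Units.ext_iff, Units.val_mul, Units.val_mul, Units.val_pow_eq_pow_val]
  change B0 * A0 * B0 = A0 ^ 3
  decide

theorem gA_order : orderOf gA = 8 := by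
  have := orderOf_eq_prime_pow (p := 2) (n := 2) (x := gA) (by norm_num; exact gA4) (by norm_num; exact gA8)
  simpa using this

theorem gB_order : orderOf gB = 2 := by
  apply orderOf_eq_prime
  · rw [pow_two]; exact gB2
  · exact gBne

theorem cardGL : Nat.card (GL (Fin 2) (ZMod 3)) = 48 := by
  rw [Matrix.card_GL_field]
  simp [Fin.prod_univ_two, ZMod.card]

theorem mem_smul' {G : Type*} [Group G] {p : ℕ} {g d : G} {S : Sylow p G} :
    d ∈ ((g • S : Sylow p G) : Subgroup G) ↔ g⁻¹ * d * g ∈ (S : Subgroup G) := by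
  rw [Sylow.coe_subgroup_smul, Subgroup.mem_pointwise_smul_iff_inv_smul_mem]
  simp [MulAut.smul_def, mul_assoc]

theorem gB_norm : Subgroup.zpowers gB ≤ Subgroup.normalizer (Subgroup.zpowers gA : Set (GL (Fin 2) (ZMod 3))) := by
  rw [Subgroup.zpowers_le, Subgroup.mem_normalizer_iff]
  intro h
  constructor
  · rintro ⟨k, rfl⟩
    have : gB * gA ^ k * gB⁻¹ = (gA ^ 3) ^ k := by
      rw [← gBA, conj_zpow]
    rw [this]
    exact Subgroup.zpow_mem _ (Subgroup.pow_mem _ (Subgroup.mem_zpowers gA) 3) k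
  · rintro ⟨k, hk⟩
    have hk' : gA ^ k = gB * h * gB⁻¹ := hk
    have : h = (gA ^ 3) ^ k := by
      rw [← gBA, conj_zpow, hk', gBinv]
      have e := gB2
      calc h = (gB * gB) * h * (gB * gB) := by rw [e]; simp
        _ = gB * (gB * h * gB) * gB := by group
    rw [this]
    exact Subgroup.zpow_mem _ (Subgroup.pow_mem _ (Subgroup.mem_zpowers gA) 3) k

theorem gl23 {G : Type*} [Group G] [Finite G] (ψ : G →* GL (Fin 2) (ZMod 3))
    (hψ : Function.Injective ψ) (hc : Nat.card G = 16) :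
    ∃ x y : G, orderOf x = 8 ∧ orderOf y = 2 ∧ y * x * y⁻¹ = x ^ 3 := by
  classical
  haveI : Fact (Nat.Prime 2) := ⟨Nat.prime_two⟩
  have hPcard : Nat.card ψ.range = 16 := by
    rw [← hc]; exact Nat.card_congr (MonoidHom.ofInjective hψ).symm.toEquiv
  have hA : IsPGroup 2 (Subgroup.zpowers gA) := by
    apply IsPGroup.of_card (n := 3)
    rw [Nat.card_zpowers, gA_order]; norm_num
  have hB : IsPGroup 2 (Subgroup.zpowers gB) := by
    apply IsPGroup.of_card (n := 1)
    rw [Nat.card_zpowers, gB_order]; norm_num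
  have hS0 : IsPGroup 2 (Subgroup.zpowers gB ⊔ Subgroup.zpowers gA : Subgroup (GL (Fin 2) (ZMod 3))) :=
    IsPGroup.to_sup_of_normal_right' hB hA gB_norm
  obtain ⟨S1, hS1⟩ := hS0.exists_le_sylow
  have hP : IsPGroup 2 ψ.range := IsPGroup.of_card (n := 4) (by rw [hPcard]; norm_num)
  obtain ⟨S2, hS2⟩ := hP.exists_le_sylow
  have hS2card : Nat.card (S2 : Subgroup (GL (Fin 2) (ZMod 3))) = 16 := by
    obtain ⟨n, hn⟩ := IsPGroup.iff_card.mp S2.isPGroup'
    have h1 : Nat.card (S2 : Subgroup (GL (Fin 2) (ZMod 3))) ∣ 48 := by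
      rw [← cardGL]; exact Subgroup.card_subgroup_dvd_card _
    have h2 : 16 ≤ Nat.card (S2 : Subgroup (GL (Fin 2) (ZMod 3))) := by
      rw [← hPcard]; exact Subgroup.card_le_of_le hS2
    rw [hn] at h1 h2 ⊢
    have hn4 : n ≤ 4 := by
      by_contra hcon
      have : (2 : ℕ) ^ 5 ∣ 2 ^ n := pow_dvd_pow 2 (by omega)
      have := this.trans h1
      norm_num at this
    have hn4' : 4 ≤ n := by
      by_contra hcon
      have : (2 : ℕ) ^ n ≤ 2 ^ 3 := Nat.pow_le_pow_right (by norm_num) (by omega)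
      omega
    have : n = 4 := by omega
    rw [this]; norm_num
  have hPS2 : ψ.range = (S2 : Subgroup (GL (Fin 2) (ZMod 3))) :=
    Subgroup.eq_of_le_of_card_ge hS2 (by rw [hS2card, hPcard])
  obtain ⟨c, hcS⟩ := MulAction.exists_smul_eq (GL (Fin 2) (ZMod 3)) S1 S2
  have hconj : ∀ h ∈ (S1 : Subgroup (GL (Fin 2) (ZMod 3))), c * h * c⁻¹ ∈ ψ.range := by
    intro h hh
    rw [hPS2, ← hcS, mem_smul']
    have : c⁻¹ * (c * h * c⁻¹) * c = h := by group
    rw [this]; exact hh
  have hAmem : gA ∈ (S1 : Subgroup (GL (Fin 2) (ZMod 3))) :=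
    hS1 (Subgroup.mem_sup_right (Subgroup.mem_zpowers gA))
  have hBmem : gB ∈ (S1 : Subgroup (GL (Fin 2) (ZMod 3))) :=
    hS1 (Subgroup.mem_sup_left (Subgroup.mem_zpowers gB))
  obtain ⟨x, hx⟩ := hconj gA hAmem
  obtain ⟨y, hy⟩ := hconj gB hBmem
  refine ⟨x, y, ?_, ?_, ?_⟩
  · have h1 : orderOf x = orderOf (ψ x) := (orderOf_injective ψ hψ x).symm
    have h2 : c * gA * c⁻¹ = MulAut.conj c gA := by simp
    rw [h1, hx, h2, MulEquiv.orderOf_eq, gA_order]
  · have h1 : orderOf y = orderOf (ψ y) := (orderOf_injective ψ hψ y).symm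
    have h2 : c * gB * c⁻¹ = MulAut.conj c gB := by simp
    rw [h1, hy, h2, MulEquiv.orderOf_eq, gB_order]
  · apply hψ
    rw [map_mul, map_mul, map_inv, map_pow, hx, hy, conj_pow, ← gBA]
    group

theorem orbit_card {G X : Type*} [Group G] [Finite G] [MulAction G X] (S : Set X) (x : X)
    (h1 : ∀ g : G, g • x ∈ S) (h2 : ∀ y ∈ S, ∃ g : G, g • x = y) :
    Nat.card G = Nat.card (MulAction.stabilizer G x) * S.ncard := by
  have : MulAction.orbit G x = S := by
    ext y; constructor
    · rintro ⟨g, rfl⟩; exact h1 g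
    · intro hy; obtain ⟨g, rfl⟩ := h2 y hy; exact ⟨g, rfl⟩
  rw [← this, ← MulAction.index_stabilizer, Subgroup.card_mul_index]

theorem stab_exists {q : ℕ} {V G : Type*} [AddCommGroup V] [Module (ZMod q) V] [Finite V]
    [Group G] [Finite G]
    (ρ : G →* (V ≃ₗ[ZMod q] V)) (htrans : ∀ v w : V, v ≠ 0 → w ≠ 0 → ∃ g : G, ρ g v = w)
    (v0 : V) (hv0 : v0 ≠ 0) :
    ∃ H : Subgroup G, (∀ g, g ∈ H ↔ ρ g v0 = v0) ∧
      Nat.card G = Nat.card H * (Nat.card V - 1) := by
  letI : MulAction G V := MulAction.compHom V ρ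
  refine ⟨MulAction.stabilizer G v0, fun g => Iff.rfl, ?_⟩
  have h := orbit_card (G := G) ({0}ᶜ : Set V) v0 (fun g => ?_) (fun y hy => ?_)
  · rw [h, Set.ncard_compl, Set.ncard_singleton]
  · change ρ g v0 ≠ 0
    intro h0
    exact hv0 (by simpa using h0)
  · exact htrans v0 y hv0 hy

/-- Let q be a prime, V a non-trivial finite vector space over the field with q elements, and G a non-trivial finite p-group (p prime) acting faithfully and linearly on V and transitively on the non-zero vectors. Then either q = 2 and G has prime order p = |V| − 1; or p = 2, V has q elements with q = 2^m + 1 and G is cyclic of order 2^m; or p = 2, q = 3, V has 9 elements and G is cyclic of order 8, quaternion of order 8, or semidihedral of order 16. -/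
theorem result (q : ℕ) [Fact q.Prime] {V : Type*} [AddCommGroup V] [Module (ZMod q) V] [Finite V] [Nontrivial V]
    {G : Type*} [Group G] [Finite G] [Nontrivial G] (p : ℕ) [Fact p.Prime] (hG : IsPGroup p G)
    (ρ : G →* (V ≃ₗ[ZMod q] V)) (hρ : Function.Injective ρ)
    (htrans : ∀ v w : V, v ≠ 0 → w ≠ 0 → ∃ g : G, ρ g v = w) :
    (q = 2 ∧ p = Nat.card V - 1 ∧ Nat.card G = p) ∨
    (p = 2 ∧ Nat.card V = q ∧ (∃ m : ℕ, q = 2 ^ m + 1 ∧ Nat.card G = 2 ^ m) ∧ IsCyclic G) ∨
    (p = 2 ∧ q = 3 ∧ Nat.card V = 9 ∧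
      ((IsCyclic G ∧ Nat.card G = 8) ∨ Nonempty (G ≃* QuaternionGroup 2) ∨ (Cfsg.IsQuasiDihedral G ∧ Nat.card G = 16))) := by
  classical
  have hqp : q.Prime := Fact.out
  have hpp : p.Prime := Fact.out
  obtain ⟨d, hd⟩ : ∃ d, d = Module.finrank (ZMod q) V := ⟨_, rfl⟩
  have hcardV : Nat.card V = q ^ d := by
    rw [hd, Module.natCard_eq_pow_finrank (K := ZMod q) (V := V), Nat.card_zmod]
  have hdpos : 1 ≤ d := by rw [hd]; exact Module.finrank_pos
  obtain ⟨v0, hv0⟩ := exists_ne (0 : V)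
  obtain ⟨H, hH, hcard⟩ := stab_exists ρ htrans v0 hv0
  obtain ⟨a, ha⟩ := IsPGroup.iff_card.mp hG
  have hV3 : 3 ≤ Nat.card V := by
    obtain ⟨g, hg⟩ := exists_ne (1 : G)
    have h1 : ρ g ≠ 1 := fun h => hg (hρ (h.trans (map_one ρ).symm))
    have h2 : ∃ v, ρ g v ≠ v := by
      by_contra hcon
      push Not at hcon
      exact h1 (LinearEquiv.ext hcon)
    obtain ⟨v, hv⟩ := h2
    have hvne : v ≠ 0 := fun h => hv (by rw [h, map_zero])
    have hgv : ρ g v ≠ 0 := fun h => hvne (by simpa using h)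
    have h3 : ({0, v, ρ g v} : Finset V).card = 3 := by
      rw [Finset.card_insert_of_notMem, Finset.card_pair (Ne.symm hv)]
      simp only [Finset.mem_insert, Finset.mem_singleton, not_or]
      exact ⟨Ne.symm hvne, Ne.symm hgv⟩
    haveI := Fintype.ofFinite V
    calc 3 = ({0, v, ρ g v} : Finset V).card := h3.symm
      _ ≤ Nat.card V := by rw [Nat.card_eq_fintype_card]; exact Finset.card_le_univ _
  have hdvd : Nat.card V - 1 ∣ p ^ a := by rw [← ha, hcard]; exact dvd_mul_left _ _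
  obtain ⟨b, hba, hb⟩ := (Nat.dvd_prime_pow hpp).mp hdvd
  have hb1 : 1 ≤ b := by
    by_contra hcon
    have : b = 0 := by omega
    rw [this, pow_zero] at hb; omega
  have hHbot : (∀ h ∈ H, ∀ v : V, ρ h v = v) → Nat.card H = 1 := by
    intro hfix
    have : H = ⊥ := by
      rw [Subgroup.eq_bot_iff_forall]
      intro h hh
      apply hρ
      rw [map_one]
      exact LinearEquiv.ext (hfix h hh)
    rw [this]; exact Subgroup.card_bot
  by_cases hq2 : q = 2
  · left
    subst hq2
    have hb' : p ^ b + 1 = 2 ^ d := by rw [← hb, ← hcardV]; omega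
    have hbeq : b = 1 := ntA p b d hpp.two_le hb1 hb'
    rw [hbeq, pow_one] at hb
    refine ⟨rfl, hb.symm, ?_⟩
    have hidx : H.index = p := by
      have h1 := Subgroup.card_mul_index H
      rw [hcard, hb] at h1
      have hHpos : 0 < Nat.card H := Nat.card_pos
      exact Nat.eq_of_mul_eq_mul_left hHpos h1
    have hnorm : H.Normal := by
      apply Subgroup.normal_of_index_eq_minFac_card
      rw [hidx, ha, Nat.Prime.pow_minFac hpp (by omega)]
    have hH1 : Nat.card H = 1 := by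
      apply hHbot
      intro h hh v
      by_cases hv : v = 0
      · rw [hv, map_zero]
      · obtain ⟨g, rfl⟩ := htrans v0 v hv0 hv
        have hc : g⁻¹ * h * g ∈ H := by
          have := hnorm.conj_mem h hh g⁻¹
          simpa using this
        have hc' := (hH _).mp hc
        have : ρ h (ρ g v0) = ρ g (ρ (g⁻¹ * h * g) v0) := by
          rw [← LinearEquiv.mul_apply, ← LinearEquiv.mul_apply, ← map_mul, ← map_mul]
          congr 2; group
        rw [this, hc']
    rw [hcard, hH1, hb, one_mul]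
  · have hqodd : Odd q := hqp.odd_of_ne_two hq2
    have hq3 : 3 ≤ q := by
      have := hqp.two_le
      omega
    have hp2 : p = 2 := by
      have h1 : Odd (q ^ d) := hqodd.pow
      have h2 : Even (p ^ b) := by
        rw [← hb, hcardV]
        obtain ⟨m, hm⟩ := h1
        exact ⟨m, by omega⟩
      have h3 : Even p := (Nat.even_pow.mp h2).1
      exact ((Nat.Prime.even_iff hpp).mp h3)
    subst hp2
    have hqd : q ^ d = 2 ^ b + 1 := by rw [← hb, ← hcardV]; omega
    by_cases hd1 : d = 1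
    · right; left
      rw [hd1, pow_one] at hcardV hqd
      have hinj : Function.Injective (fun c : ZMod q => c • v0) := smul_left_injective (ZMod q) hv0
      have hsurj : Function.Surjective (fun c : ZMod q => c • v0) := by
        have := hinj.bijective_of_nat_card_le (by rw [hcardV, Nat.card_zmod])
        exact this.2
      have hH1 : Nat.card H = 1 := by
        apply hHbot
        intro h hh v
        obtain ⟨c, rfl⟩ := hsurj v
        change ρ h (c • v0) = c • v0
        rw [map_smul, (hH h).mp hh]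
      have hGcard : Nat.card G = 2 ^ b := by rw [hcard, hH1, one_mul, hb]
      refine ⟨rfl, hcardV, ⟨b, hqd, hGcard⟩, ?_⟩
      have hex : ∀ g : G, ∃ c : ZMod q, c • v0 = ρ g v0 := fun g => hsurj (ρ g v0)
      choose c hc using hex
      have hc1 : c 1 = 1 := by
        apply hinj
        change c 1 • v0 = (1 : ZMod q) • v0
        rw [hc, map_one, one_smul]; rfl
      have hcm : ∀ g h, c (g * h) = c g * c h := by
        intro g h
        apply hinj
        change c (g * h) • v0 = (c g * c h) • v0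
        rw [hc, map_mul, LinearEquiv.mul_apply, ← hc h, map_smul, ← hc g, smul_smul, mul_comm]
      let f : G →* ZMod q := { toFun := c, map_one' := hc1, map_mul' := hcm }
      have hf : Function.Injective f := by
        intro g h hgh
        have hgh' : c g = c h := hgh
        have h1 : ρ g v0 = ρ h v0 := by rw [← hc, ← hc, hgh']
        have h2 : h⁻¹ * g ∈ H := by
          rw [hH, map_mul, LinearEquiv.mul_apply, h1, ← LinearEquiv.mul_apply, ← map_mul]
          simp
        have h3 : H = ⊥ := Subgroup.card_eq_one.mp hH1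
        rw [h3, Subgroup.mem_bot] at h2
        exact (inv_mul_eq_one.mp h2).symm
      exact isCyclic_of_injective_ringHom f hf
    · right; right
      have hd2 : 2 ≤ d := by omega
      obtain ⟨hq3', hd2'⟩ := ntB q d b hq3 hqodd hd2 hqd
      subst hq3'
      subst hd2'
      have hV9 : Nat.card V = 9 := by rw [hcardV]; norm_num
      refine ⟨rfl, rfl, hV9, ?_⟩
      rw [hV9] at hcard
      let bas : Module.Basis (Fin 2) (ZMod 3) V := Module.finBasisOfFinrankEq (ZMod 3) V hd.symm
      let Φ : (V ≃ₗ[ZMod 3] V) ≃* GL (Fin 2) (ZMod 3) :=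
        ((LinearMap.GeneralLinearGroup.generalLinearEquiv (ZMod 3) V).symm.trans
          (LinearMap.GeneralLinearGroup.congrLinearEquiv bas.equivFun)).trans
          Matrix.GeneralLinearGroup.toLin.symm
      let ψ : G →* GL (Fin 2) (ZMod 3) := Φ.toMonoidHom.comp ρ
      have hψ : Function.Injective ψ := Φ.injective.comp hρ
      have hdvd48 : Nat.card G ∣ 48 := by
        rw [← cardGL]; exact Subgroup.card_dvd_of_injective ψ hψ
      have h8 : Nat.card G = Nat.card H * 8 := hcard
      have ha34 : a = 3 ∨ a = 4 := by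
        rw [ha] at hdvd48
        have h8' : 8 ∣ 2 ^ a := by rw [← ha, h8]; exact dvd_mul_left _ _
        have ha3 : 3 ≤ a := by
          by_contra hcon
          have h1 : (2 : ℕ) ^ a ≤ 2 ^ 2 := Nat.pow_le_pow_right (by norm_num) (by omega)
          have h2 := Nat.le_of_dvd (by positivity) h8'
          omega
        have ha4 : a ≤ 4 := by
          by_contra hcon
          have h1 : (2 : ℕ) ^ 5 ∣ 2 ^ a := pow_dvd_pow 2 (by omega)
          have h2 := h1.trans hdvd48
          norm_num at h2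
        omega
      rcases ha34 with rfl | rfl
      · have hG8 : Nat.card G = 8 := by rw [ha]; norm_num
        have hH1 : Nat.card H = 1 := by omega
        have hHbot' : H = ⊥ := Subgroup.card_eq_one.mp hH1
        have hinv : ∀ t : G, t ≠ 1 → t * t = 1 → ∀ v : V, ρ t v = -v := by
          intro t ht htt v
          by_cases hv : v = 0
          · rw [hv, map_zero, neg_zero]
          · have hw : v + ρ t v = 0 := by
              by_contra hw
              obtain ⟨g, hg⟩ := htrans v0 (v + ρ t v) hv0 hw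
              have hfix : ρ t (v + ρ t v) = v + ρ t v := by
                rw [map_add, ← LinearEquiv.mul_apply, ← map_mul, htt, map_one, add_comm]; rfl
              have hmem : g⁻¹ * t * g ∈ H := by
                rw [hH, map_mul, map_mul, LinearEquiv.mul_apply, LinearEquiv.mul_apply, hg, hfix,
                  ← hg, ← LinearEquiv.mul_apply, ← map_mul]
                simp
              rw [hHbot', Subgroup.mem_bot] at hmem
              apply ht
              have e1 : t = g * (g⁻¹ * t * g) * g⁻¹ := by group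
              rw [e1, hmem]; group
            exact eq_neg_of_add_eq_zero_right hw
        have huniq : ∀ s t : G, s ≠ 1 → s * s = 1 → t ≠ 1 → t * t = 1 → s = t := by
          intro s t hs hss ht htt
          apply hρ
          ext v
          rw [hinv s hs hss, hinv t ht htt]
        have hsub : ∀ K : Subgroup G, Nat.card K = 2 →
            ∃ t : G, t ≠ 1 ∧ t * t = 1 ∧ K = Subgroup.zpowers t := by
          intro K hK
          have hKne : K ≠ ⊥ := by
            intro h; rw [h, Subgroup.card_bot] at hK; omega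
          obtain ⟨t, htK, ht1⟩ := (Subgroup.bot_or_exists_ne_one K).resolve_left hKne
          have ho : orderOf t = 2 := by
            have h1 : orderOf t ∣ 2 := by rw [← hK]; exact Subgroup.orderOf_dvd_natCard K htK
            have h2 : orderOf t ≠ 1 := by rwa [Ne, orderOf_eq_one_iff]
            exact ((Nat.dvd_prime Nat.prime_two).mp h1).resolve_left h2
          refine ⟨t, ht1, ?_, ?_⟩
          · rw [← pow_two, ← ho]; exact pow_orderOf_eq_one t
          · symm
            apply Subgroup.eq_of_le_of_card_ge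
            · rw [Subgroup.zpowers_le]; exact htK
            · rw [Nat.card_zpowers, ho, hK]
        have hG2 : IsPGroup 2 G := hG
        rcases Cfsg.Agent.Lead.cyclic_or_quaternion_of_unique_involution hG2 (by
            intro K L hK hL
            obtain ⟨s, hs, hss, rfl⟩ := hsub K hK
            obtain ⟨t, ht, htt, rfl⟩ := hsub L hL
            rw [huniq s t hs hss ht htt]) with hcyc | ⟨n, ⟨e⟩⟩
        · left; exact ⟨hcyc, hG8⟩
        · right; left
          have hcardQ : Nat.card (QuaternionGroup (2 ^ n)) = 8 := by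
            rw [← hG8]; exact (Nat.card_congr e.toEquiv).symm
          rw [Nat.card_eq_fintype_card, QuaternionGroup.card] at hcardQ
          have hn : n = 1 := by
            have h2 : 2 ^ n = 2 ^ 1 := by omega
            exact Nat.pow_right_injective (le_refl 2) h2
          subst hn
          exact ⟨e⟩
      · have hG16 : Nat.card G = 16 := by rw [ha]; norm_num
        right; right
        obtain ⟨x, y, hx, hy, hxy⟩ := gl23 ψ hψ hG16
        refine ⟨⟨3, le_refl 3, by rw [hG16]; norm_num, x, y, by rw [hx]; norm_num, hy, ?_⟩, hG16⟩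
        rw [hxy]; norm_num

end Cfsg.Agent.S3370
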