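import Cfsg.Statements.S3375
import Mathlib
-- import your own Cfsg.Agent.* helpers here

set_option autoImplicit false
open Cfsg

namespace Cfsg.Agent.S3375

/-- Let γ be an automorphism of order 2 of a finite group H. (i) If γ fixes only the identity, then H is abelian and γ inverts every element. (ii) If γ has exactly two fixed points and H has a subgroup of index 2, then H has a γ-invariant abelian subgroup of index 2 on which γ acts by inversion. -/
theorem result {H : Type*} [Group H] [Finite H] (γ : MulAut H) (hγ : orderOf γ = 2) :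
    ((∀ h : H, γ h = h → h = 1) → (∀ a b : H, a * b = b * a) ∧ ∀ h : H, γ h = h⁻¹) ∧
    ((Nat.card {h : H // γ h = h} = 2 ∧ ∃ M : Subgroup H, M.index = 2) →
      ∃ A : Subgroup H, A.index = 2 ∧ IsMulCommutative A ∧ (∀ a ∈ A, γ a ∈ A) ∧ ∀ a ∈ A, γ a = a⁻¹) := by
  have hγ2 : ∀ h : H, γ (γ h) = h := by
    intro h
    have h1 : γ ^ 2 = 1 := by rw [← hγ]; exact pow_orderOf_eq_one γ
    have h2 : (γ ^ 2) h = h := by rw [h1]; rfl
    simpa [pow_two] using h2
  have comm_of_inv : ∀ (S : Subgroup H), (∀ a ∈ S, γ a = a⁻¹) → ∀ a ∈ S, ∀ b ∈ S, a * b = b * a := by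
    intro S hS a ha b hb
    have h1 : γ (a * b) = (a * b)⁻¹ := hS _ (mul_mem ha hb)
    rw [map_mul, hS a ha, hS b hb] at h1
    have h2 := congrArg (·⁻¹) h1
    simpa using h2.symm
  constructor
  · intro hfix
    have hinj : Function.Injective (fun h : H => h * (γ h)⁻¹) := by
      intro a b hab
      simp only at hab
      have h1 : γ (b⁻¹ * a) = b⁻¹ * a := by
        rw [map_mul, map_inv]
        have h3 : b⁻¹ * (a * (γ a)⁻¹) * γ a = b⁻¹ * (b * (γ b)⁻¹) * γ a := by rw [hab]
        simp [mul_assoc] at h3
        exact h3.symm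
      have := hfix _ h1
      exact (inv_mul_eq_one.mp this).symm
    have hsurj : Function.Surjective (fun h : H => h * (γ h)⁻¹) := Finite.surjective_of_injective hinj
    have hinv : ∀ h : H, γ h = h⁻¹ := by
      intro x
      obtain ⟨h, rfl⟩ := hsurj x
      simp [hγ2]
    refine ⟨?_, hinv⟩
    intro a b
    exact comm_of_inv ⊤ (fun a _ => hinv a) a (Subgroup.mem_top a) b (Subgroup.mem_top b)
  · rintro ⟨hcard, M, hM⟩
    obtain ⟨N, hN, hNinv⟩ : ∃ N : Subgroup H, N.index = 2 ∧ ∀ a ∈ N, γ a ∈ N := by
      by_cases hMinv : ∀ a ∈ M, γ a ∈ M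
      · exact ⟨M, hM, hMinv⟩
      · push Not at hMinv
        obtain ⟨a, haM, haN⟩ := hMinv
        have key := fun (x y : H) => Subgroup.mul_mem_iff_of_index_two hM (a := x) (b := y)
        let N : Subgroup H :=
          { carrier := {h | h ∈ M ↔ γ h ∈ M}
            one_mem' := by simp [one_mem]
            mul_mem' := by
              intro x y hx hy
              simp only [Set.mem_ofPred_eq] at hx hy ⊢
              rw [map_mul, key, key, hx, hy]
            inv_mem' := by
              intro x hx
              simp only [Set.mem_ofPred_eq] at hx ⊢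
              rw [map_inv, inv_mem_iff, inv_mem_iff, hx] }
        have hmem : ∀ h, h ∈ N ↔ (h ∈ M ↔ γ h ∈ M) := fun h => Iff.rfl
        refine ⟨N, ?_, ?_⟩
        · rw [Subgroup.index_eq_two_iff]
          refine ⟨a, fun b => ?_⟩
          rw [hmem, hmem, map_mul, key, key]
          unfold Xor
          tauto
        · intro x hx
          rw [hmem] at hx ⊢
          rw [hγ2]
          exact hx.symm
    let F : Subgroup H :=
      { carrier := {h | γ h = h}
        one_mem' := map_one γ
        mul_mem' := by
          intro a b ha hb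
          simp only [Set.mem_ofPred_eq] at *
          rw [map_mul, ha, hb]
        inv_mem' := by
          intro a ha
          simp only [Set.mem_ofPred_eq] at *
          rw [map_inv, ha] }
    have hFcard : Nat.card F = 2 := hcard
    have hgN : ∀ h : H, h * (γ h)⁻¹ ∈ N := by
      intro h
      rw [Subgroup.mul_mem_iff_of_index_two hN, inv_mem_iff]
      exact ⟨hNinv h, fun hh => by simpa [hγ2] using hNinv _ hh⟩
    let g : H ⧸ F → N := fun q => Quotient.liftOn' q (fun h => (⟨h * (γ h)⁻¹, hgN h⟩ : N)) (by
      intro a b hab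
      rw [QuotientGroup.leftRel_apply] at hab
      apply Subtype.ext
      show a * (γ a)⁻¹ = b * (γ b)⁻¹
      have h1 : γ (a⁻¹ * b) = a⁻¹ * b := hab
      rw [map_mul, map_inv] at h1
      have : a * ((γ a)⁻¹ * γ b) * (γ b)⁻¹ = a * (a⁻¹ * b) * (γ b)⁻¹ := by rw [h1]
      simpa [mul_assoc] using this)
    have hginj : Function.Injective g := by
      intro q1 q2
      induction q1 using Quotient.inductionOn' with | h a =>
      induction q2 using Quotient.inductionOn' with | h b =>
      intro hab
      apply Quotient.sound'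
      rw [QuotientGroup.leftRel_apply]
      have h1 : a * (γ a)⁻¹ = b * (γ b)⁻¹ := congrArg Subtype.val hab
      show γ (a⁻¹ * b) = a⁻¹ * b
      rw [map_mul, map_inv]
      have : a⁻¹ * (a * (γ a)⁻¹) * γ b = a⁻¹ * (b * (γ b)⁻¹) * γ b := by rw [h1]
      simpa [mul_assoc] using this
    have hc1 : Nat.card H = Nat.card (H ⧸ F) * Nat.card F := Subgroup.card_eq_card_quotient_mul_card_subgroup F
    have hc2 : Nat.card N * N.index = Nat.card H := Subgroup.card_mul_index N
    have hc3 : Nat.card (H ⧸ F) = Nat.card N := by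
      rw [hFcard] at hc1; rw [hN] at hc2; omega
    have hgsurj : Function.Surjective g := (hginj.bijective_of_nat_card_le hc3.ge).2
    have hinvN : ∀ a ∈ N, γ a = a⁻¹ := by
      intro a ha
      obtain ⟨q, hq⟩ := hgsurj ⟨a, ha⟩
      induction q using Quotient.inductionOn' with | h h =>
      have h1 : h * (γ h)⁻¹ = a := congrArg Subtype.val hq
      rw [← h1]; simp [hγ2]
    exact ⟨N, hN, ⟨⟨fun a b => Subtype.ext (comm_of_inv N hinvN a a.2 b b.2)⟩⟩, hNinv, hinvN⟩

end Cfsg.Agent.S3375
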