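import Cfsg.Statements.S3379
import Mathlib
-- import your own Cfsg.Agent.* helpers here

set_option autoImplicit false
open Cfsg

namespace Cfsg.Agent.S3379

/-- Let G be a finite group all of whose Sylow subgroups are cyclic. Then G is generated by two elements x and y of coprime orders n and m with x⁻¹yx = y^r, where gcd(r − 1, m) = 1 and r^n ≡ 1 (mod m). -/
theorem result {G : Type*} [Group G] [Finite G]
    (hZ : ∀ (p : ℕ) [Fact p.Prime] (P : Sylow p G), IsCyclic (P : Subgroup G)) :
    ∃ (x y : G) (n m r : ℕ), Subgroup.closure {x, y} = ⊤ ∧ orderOf x = n ∧ orderOf y = m ∧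
      x⁻¹ * y * x = y ^ r ∧ Nat.Coprime (r - 1) m ∧ Nat.Coprime n m ∧ 1 ≤ r ∧ r ^ n % m = 1 % m := by
  classical
  haveI : IsZGroup G := ⟨fun p hp P => by haveI := Fact.mk hp; exact hZ p P⟩
  have hcop := IsZGroup.coprime_commutator_index G
  obtain ⟨H, hH⟩ := Subgroup.exists_right_complement'_of_coprime hcop
  haveI hNc : IsCyclic (commutator G) := IsZGroup.isCyclic_commutator G
  have e1 : Abelianization G ≃* H := hH.symm.QuotientMulEquiv
  haveI hHc : IsCyclic H := isCyclic_of_surjective _ e1.surjective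
  obtain ⟨⟨y, hyN⟩, hy⟩ := hNc.exists_generator
  obtain ⟨⟨x, hxH⟩, hx⟩ := hHc.exists_generator
  have hyN' : commutator G ≤ Subgroup.zpowers y := by
    intro u hu
    obtain ⟨k, hk⟩ := Subgroup.mem_zpowers_iff.mp (hy ⟨u, hu⟩)
    exact Subgroup.mem_zpowers_iff.mpr ⟨k, by simpa using congrArg Subtype.val hk⟩
  have hxH' : H ≤ Subgroup.zpowers x := by
    intro u hu
    obtain ⟨k, hk⟩ := Subgroup.mem_zpowers_iff.mp (hx ⟨u, hu⟩)
    exact Subgroup.mem_zpowers_iff.mpr ⟨k, by simpa using congrArg Subtype.val hk⟩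
  have hNeq : Subgroup.zpowers y = commutator G :=
    le_antisymm (Subgroup.zpowers_le.mpr hyN) hyN'
  have hHeq : Subgroup.zpowers x = H := le_antisymm (Subgroup.zpowers_le.mpr hxH) hxH'
  have hm : orderOf y = Nat.card (commutator G) := by rw [← hNeq, Nat.card_zpowers]
  have hn : orderOf x = Nat.card H := by rw [← hHeq, Nat.card_zpowers]
  have hidx : (commutator G).index = Nat.card H := hH.symm.index_eq_card
  have hmpos : 0 < orderOf y := orderOf_pos y
  have hNn : (commutator G).Normal := inferInstance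
  have hconj : x⁻¹ * y * x ∈ Subgroup.zpowers y := by
    rw [hNeq]
    have h1 := hNn.conj_mem y hyN x⁻¹
    simpa using h1
  obtain ⟨r₀, hr₀⟩ := (Submonoid.mem_powers_iff _ _).mp
    ((isOfFinOrder_of_finite y).mem_powers_iff_mem_zpowers.mpr hconj)
  have hrel : x⁻¹ * y * x = y ^ (r₀ + orderOf y) := by
    rw [pow_add, pow_orderOf_eq_one, mul_one, hr₀]
  have hcl : Subgroup.closure ({x, y} : Set G) = ⊤ := by
    rw [eq_top_iff, ← hH.sup_eq_top, sup_le_iff]
    constructor
    · rw [← hNeq, Subgroup.zpowers_le]; exact Subgroup.subset_closure (by simp)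
    · rw [← hHeq, Subgroup.zpowers_le]; exact Subgroup.subset_closure (by simp)
  refine ⟨x, y, orderOf x, orderOf y, r₀ + orderOf y, hcl, rfl, rfl, hrel, ?_, ?_, by omega, ?_⟩
  · have hKN : Subgroup.zpowers (y ^ (r₀ + orderOf y - 1)) ≤ commutator G := by
      rw [Subgroup.zpowers_le]; exact pow_mem hyN _
    haveI hKn : (Subgroup.zpowers (y ^ (r₀ + orderOf y - 1))).Normal := by
      constructor
      intro u hu g
      obtain ⟨k, rfl⟩ := Subgroup.mem_zpowers_iff.mp hu
      have h1 : g * y * g⁻¹ ∈ Subgroup.zpowers y := by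
        rw [hNeq]; exact hNn.conj_mem y hyN g
      obtain ⟨t, ht⟩ := Subgroup.mem_zpowers_iff.mp h1
      have h2 : g * (y ^ (r₀ + orderOf y - 1)) ^ k * g⁻¹ =
          ((y ^ (r₀ + orderOf y - 1)) ^ t) ^ k := by
        rw [← conj_zpow, ← conj_pow, ← ht]
        congr 1
        rw [← zpow_natCast, ← zpow_mul, ← zpow_natCast, ← zpow_mul, mul_comm]
      rw [h2]
      exact zpow_mem (zpow_mem (Subgroup.mem_zpowers _) t) k
    have hxy : (QuotientGroup.mk' (Subgroup.zpowers (y ^ (r₀ + orderOf y - 1))) x) *
        (QuotientGroup.mk' (Subgroup.zpowers (y ^ (r₀ + orderOf y - 1))) y) =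
        (QuotientGroup.mk' (Subgroup.zpowers (y ^ (r₀ + orderOf y - 1))) y) *
        (QuotientGroup.mk' (Subgroup.zpowers (y ^ (r₀ + orderOf y - 1))) x) := by
      rw [← map_mul, ← map_mul]
      apply QuotientGroup.eq.mpr
      have h1 : (x * y)⁻¹ * (y * x) = y ^ (r₀ + orderOf y - 1) := by
        have h2 : (x * y)⁻¹ * (y * x) = y⁻¹ * (x⁻¹ * y * x) := by simp [mul_assoc]
        rw [h2, hrel]
        have hr1 : r₀ + orderOf y = (r₀ + orderOf y - 1) + 1 := by omega
        conv_lhs => rw [hr1, pow_succ']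
        simp
      rw [h1]; exact Subgroup.mem_zpowers _
    have htop : Subgroup.closure
        {QuotientGroup.mk' (Subgroup.zpowers (y ^ (r₀ + orderOf y - 1))) x,
          QuotientGroup.mk' (Subgroup.zpowers (y ^ (r₀ + orderOf y - 1))) y} = ⊤ := by
      have h2 := congrArg (Subgroup.map
        (QuotientGroup.mk' (Subgroup.zpowers (y ^ (r₀ + orderOf y - 1))))) hcl
      rw [MonoidHom.map_closure, Subgroup.map_top_of_surjective _
        (QuotientGroup.mk'_surjective _), Set.image_pair] at h2
      exact h2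
    have hgen : ∀ c : G ⧸ Subgroup.zpowers (y ^ (r₀ + orderOf y - 1)),
        (QuotientGroup.mk' (Subgroup.zpowers (y ^ (r₀ + orderOf y - 1))) x) * c =
          c * (QuotientGroup.mk' (Subgroup.zpowers (y ^ (r₀ + orderOf y - 1))) x) ∧
        (QuotientGroup.mk' (Subgroup.zpowers (y ^ (r₀ + orderOf y - 1))) y) * c =
          c * (QuotientGroup.mk' (Subgroup.zpowers (y ^ (r₀ + orderOf y - 1))) y) := by
      intro c
      have hc : c ∈ Subgroup.closure
          {QuotientGroup.mk' (Subgroup.zpowers (y ^ (r₀ + orderOf y - 1))) x,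
            QuotientGroup.mk' (Subgroup.zpowers (y ^ (r₀ + orderOf y - 1))) y} := by
        rw [htop]; exact Subgroup.mem_top c
      constructor
      · have hle : Subgroup.closure
            {QuotientGroup.mk' (Subgroup.zpowers (y ^ (r₀ + orderOf y - 1))) x,
              QuotientGroup.mk' (Subgroup.zpowers (y ^ (r₀ + orderOf y - 1))) y} ≤
            Subgroup.centralizer
              {QuotientGroup.mk' (Subgroup.zpowers (y ^ (r₀ + orderOf y - 1))) x} := by
          rw [Subgroup.closure_le]
          rintro _ (rfl | rfl)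
          · exact Subgroup.mem_centralizer_singleton_iff.mpr rfl
          · exact Subgroup.mem_centralizer_singleton_iff.mpr hxy.symm
        exact (Subgroup.mem_centralizer_singleton_iff.mp (hle hc)).symm
      · have hle : Subgroup.closure
            {QuotientGroup.mk' (Subgroup.zpowers (y ^ (r₀ + orderOf y - 1))) x,
              QuotientGroup.mk' (Subgroup.zpowers (y ^ (r₀ + orderOf y - 1))) y} ≤
            Subgroup.centralizer
              {QuotientGroup.mk' (Subgroup.zpowers (y ^ (r₀ + orderOf y - 1))) y} := by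
          rw [Subgroup.closure_le]
          rintro _ (rfl | rfl)
          · exact Subgroup.mem_centralizer_singleton_iff.mpr hxy
          · exact Subgroup.mem_centralizer_singleton_iff.mpr rfl
        exact (Subgroup.mem_centralizer_singleton_iff.mp (hle hc)).symm
    have hcomm : ∀ c d : G ⧸ Subgroup.zpowers (y ^ (r₀ + orderOf y - 1)), c * d = d * c := by
      intro c d
      have hc : c ∈ Subgroup.closure
          {QuotientGroup.mk' (Subgroup.zpowers (y ^ (r₀ + orderOf y - 1))) x,
            QuotientGroup.mk' (Subgroup.zpowers (y ^ (r₀ + orderOf y - 1))) y} := by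
        rw [htop]; exact Subgroup.mem_top c
      have hle : Subgroup.closure
          {QuotientGroup.mk' (Subgroup.zpowers (y ^ (r₀ + orderOf y - 1))) x,
            QuotientGroup.mk' (Subgroup.zpowers (y ^ (r₀ + orderOf y - 1))) y} ≤
          Subgroup.centralizer {d} := by
        rw [Subgroup.closure_le]
        rintro _ (rfl | rfl)
        · exact Subgroup.mem_centralizer_singleton_iff.mpr (hgen d).1
        · exact Subgroup.mem_centralizer_singleton_iff.mpr (hgen d).2
      exact Subgroup.mem_centralizer_singleton_iff.mp (hle hc)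
    have hle : commutator G ≤ Subgroup.zpowers (y ^ (r₀ + orderOf y - 1)) := by
      rw [commutator_def, Subgroup.commutator_le]
      intro g₁ _ g₂ _
      rw [← QuotientGroup.eq_one_iff, commutatorElement_def]
      have h3 := hcomm (g₁ : G ⧸ Subgroup.zpowers (y ^ (r₀ + orderOf y - 1)))
        (g₂ : G ⧸ Subgroup.zpowers (y ^ (r₀ + orderOf y - 1)))
      simp only [QuotientGroup.mk_mul, QuotientGroup.mk_inv]
      rw [h3]; simp
    have hKeq : Subgroup.zpowers (y ^ (r₀ + orderOf y - 1)) = Subgroup.zpowers y :=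
      le_antisymm (hKN.trans hNeq.ge) (Subgroup.zpowers_le.mpr (hle hyN))
    have hcard : orderOf (y ^ (r₀ + orderOf y - 1)) = orderOf y := by
      rw [← Nat.card_zpowers, hKeq, Nat.card_zpowers]
    rw [orderOf_pow, Nat.div_eq_self] at hcard
    rcases hcard with h0 | h1
    · omega
    · exact Nat.Coprime.symm h1
  · rw [hn, hm, ← hidx]; exact hcop.symm
  · have hpow : ∀ j : ℕ, (x ^ j)⁻¹ * y * x ^ j = y ^ ((r₀ + orderOf y) ^ j) := by
      intro j
      induction j with
      | zero => simp
      | succ j ih =>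
        have h1 : (x ^ (j + 1))⁻¹ * y * x ^ (j + 1) = x⁻¹ * ((x ^ j)⁻¹ * y * x ^ j) * x := by
          rw [pow_succ]; simp [mul_assoc]
        have h2 : x⁻¹ * y ^ ((r₀ + orderOf y) ^ j) * x =
            (x⁻¹ * y * x) ^ ((r₀ + orderOf y) ^ j) := by
          have h3 := conj_pow (a := x⁻¹) (b := y) (i := (r₀ + orderOf y) ^ j)
          simpa using h3.symm
        rw [h1, ih, h2, hrel, ← pow_mul, pow_succ']
    have h1 := hpow (orderOf x)
    rw [pow_orderOf_eq_one] at h1
    simp only [inv_one, one_mul, mul_one] at h1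
    have h2 : y ^ ((r₀ + orderOf y) ^ orderOf x) = y ^ 1 := by rw [pow_one]; exact h1.symm
    exact pow_eq_pow_iff_modEq.mp h2

end Cfsg.Agent.S3379
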