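import Cfsg.Statements.S3381
import Mathlib
-- import your own Cfsg.Agent.* helpers here

set_option autoImplicit false
open Cfsg

namespace Cfsg.Agent.S3381

section
variable {q : ℕ} [Fact q.Prime] {V : Type*} [AddCommGroup V] [Module (ZMod q) V]
  {G : Type*} [Group G] (ρ : G →* (V ≃ₗ[ZMod q] V))

theorem rho_mul (g h : G) (v : V) : ρ (g * h) v = ρ g (ρ h v) := by
  rw [map_mul]; rfl

theorem rho_one (v : V) : ρ 1 v = v := by
  rw [map_one]; rfl

theorem stab_two (hstab : ∀ v : V, v ≠ 0 → Nat.card {g : G // ρ g v = v} = 2) (v : V)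
    (hv : v ≠ 0) :
    ∃ t : G, t ≠ 1 ∧ ρ t v = v ∧ t * t = 1 ∧ ∀ s : G, ρ s v = v → s = 1 ∨ s = t := by
  have h1 : ρ (1 : G) v = v := rho_one ρ v
  obtain ⟨y, hy, hyu⟩ :=
    (Nat.card_eq_two_iff' (⟨1, h1⟩ : {g : G // ρ g v = v})).mp (hstab v hv)
  have ht1 : y.1 ≠ 1 := fun h => hy (Subtype.ext h)
  have huniq : ∀ s : G, ρ s v = v → s = 1 ∨ s = y.1 := by
    intro s hs
    by_cases hs1 : s = 1
    · exact Or.inl hs1
    · right
      have h3 := hyu ⟨s, hs⟩ (fun h => hs1 (congrArg Subtype.val h))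
      exact congrArg Subtype.val h3
  refine ⟨y.1, ht1, y.2, ?_, huniq⟩
  have h2 : ρ (y.1 * y.1) v = v := by rw [rho_mul, y.2, y.2]
  rcases huniq _ h2 with h | h
  · exact h
  · exfalso; apply ht1
    exact mul_left_cancel (a := y.1) (by rw [mul_one]; exact h)

theorem central_neg (hρ : Function.Injective ρ)
    (hstab : ∀ v : V, v ≠ 0 → Nat.card {g : G // ρ g v = v} = 2)
    (c : G) (hc1 : c ≠ 1) (hcc : c * c = 1) (hcen : ∀ g : G, g * c = c * g) :
    (2 : ZMod q) ≠ 0 ∧ ∀ v : V, ρ c v = -v := by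
  have dich : ∀ v : V, ρ c v = v ∨ ρ c v = -v := by
    intro v
    by_cases hv : ρ c v = v
    · exact Or.inl hv
    · right
      have hv0 : v ≠ 0 := by rintro rfl; exact hv (map_zero _)
      obtain ⟨t, ht1, htv, -, -⟩ := stab_two ρ hstab v hv0
      have htc : t ≠ c := by rintro rfl; exact hv htv
      have hcw : ρ c (v + ρ c v) = v + ρ c v := by
        rw [map_add, ← rho_mul, hcc, rho_one, add_comm]
      have htw : ρ t (v + ρ c v) = v + ρ c v := by
        rw [map_add, htv, ← rho_mul, hcen t, rho_mul, htv]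
      by_contra hne
      have hw0 : v + ρ c v ≠ 0 := fun h => hne (eq_neg_of_add_eq_zero_right h)
      obtain ⟨t', -, -, -, hu⟩ := stab_two ρ hstab _ hw0
      have h1 : c = t' := (hu c hcw).resolve_left hc1
      have h2 : t = t' := (hu t htw).resolve_left ht1
      exact htc (h2.trans h1.symm)
  have hex : ∃ v₀ : V, ρ c v₀ ≠ v₀ := by
    by_contra hall
    push Not at hall
    apply hc1
    apply hρ
    rw [map_one]
    ext v
    exact hall v
  obtain ⟨v₀, hv₀⟩ := hex
  have hv₀neg : ρ c v₀ = -v₀ := (dich v₀).resolve_left hv₀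
  have h2 : (2 : ZMod q) ≠ 0 := by
    intro h2
    apply hv₀
    rw [hv₀neg]
    have h3 : v₀ + v₀ = 0 := by rw [← two_smul (ZMod q) v₀, h2, zero_smul]
    exact neg_eq_of_add_eq_zero_right h3
  refine ⟨h2, ?_⟩
  intro w
  by_contra hw
  have hw1 : ρ c w = w := (dich w).resolve_right hw
  have hsum : ρ c (v₀ + w) = -v₀ + w := by rw [map_add, hv₀neg, hw1]
  rcases dich (v₀ + w) with h | h
  · rw [hsum] at h
    apply hv₀; rw [hv₀neg]; exact add_right_cancel h
  · rw [hsum, neg_add] at h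
    apply hw; rw [hw1]; exact add_left_cancel h

theorem fix_prod (h2 : (2 : ZMod q) ≠ 0) (z : G) (hneg : ∀ v : V, ρ z v = -v) (t : G)
    (htt : t * t = 1) :
    Nat.card {v : V // ρ t v = v} * Nat.card {v : V // ρ (t * z) v = v} = Nat.card V := by
  rw [← Nat.card_prod]
  have htz : ∀ v : V, ρ (t * z) v = -ρ t v := by
    intro v; rw [rho_mul, hneg, map_neg]
  apply Nat.card_eq_of_bijective
    (fun p : {v : V // ρ t v = v} × {v : V // ρ (t * z) v = v} => p.1.1 + p.2.1)
  constructor
  · rintro ⟨⟨a, ha⟩, ⟨b, hb⟩⟩ ⟨⟨a', ha'⟩, ⟨b', hb'⟩⟩ h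
    simp only at h
    have hb2 : ρ t b = -b := neg_eq_iff_eq_neg.mp ((htz b).symm.trans hb)
    have hb2' : ρ t b' = -b' := neg_eq_iff_eq_neg.mp ((htz b').symm.trans hb')
    have hdiff : a - b = a' - b' := by
      have h3 := congrArg (ρ t) h
      rw [map_add, map_add, ha, ha', hb2, hb2'] at h3
      rw [sub_eq_add_neg, sub_eq_add_neg]; exact h3
    have haa : a = a' := by
      have h4 : a + a = a' + a' := by
        calc a + a = (a + b) + (a - b) := by abel
          _ = (a' + b') + (a' - b') := by rw [h, hdiff]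
          _ = a' + a' := by abel
      rw [← two_smul (ZMod q), ← two_smul (ZMod q)] at h4
      exact smul_right_injective V h2 h4
    subst haa
    have hbb : b = b' := add_left_cancel h
    subst hbb
    rfl
  · intro v
    refine ⟨(⟨(2⁻¹ : ZMod q) • (v + ρ t v), ?_⟩, ⟨(2⁻¹ : ZMod q) • (v - ρ t v), ?_⟩), ?_⟩
    · rw [map_smul, map_add, ← rho_mul, htt, rho_one, add_comm]
    · rw [htz, map_smul, map_sub, ← rho_mul, htt, rho_one, ← smul_neg, neg_sub]
    · simp only
      rw [← smul_add]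
      have h3 : v + ρ t v + (v - ρ t v) = (2 : ZMod q) • v := by rw [two_smul]; abel
      rw [h3, smul_smul, inv_mul_cancel₀ h2, one_smul]

theorem fix_inj [Finite V] (t u : G) (hdisj : ∀ v : V, ρ t v = v → ρ u v = v → v = 0) :
    Nat.card {v : V // ρ t v = v} * Nat.card {v : V // ρ u v = v} ≤ Nat.card V := by
  rw [← Nat.card_prod]
  apply Nat.card_le_card_of_injective
    (fun p : {v : V // ρ t v = v} × {v : V // ρ u v = v} => p.1.1 + p.2.1)
  rintro ⟨⟨a, ha⟩, ⟨b, hb⟩⟩ ⟨⟨a', ha'⟩, ⟨b', hb'⟩⟩ h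
  simp only at h
  have h3 : a - a' = b' - b := by
    rw [sub_eq_sub_iff_add_eq_add, h, add_comm]
  have h0 : a - a' = 0 := by
    apply hdisj
    · rw [map_sub, ha, ha']
    · rw [h3, map_sub, hb', hb]
  have haa : a = a' := sub_eq_zero.mp h0
  subst haa
  have hbb : b = b' := add_left_cancel h
  subst hbb
  rfl

theorem fix_pow [Finite V] (t : G) : ∃ r : ℕ, Nat.card {v : V // ρ t v = v} = q ^ r := by
  refine ⟨Module.finrank (ZMod q)
    (LinearMap.eqLocus ((ρ t : V ≃ₗ[ZMod q] V) : V →ₗ[ZMod q] V) LinearMap.id), ?_⟩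
  have h1 : Nat.card {v : V // ρ t v = v} = Nat.card
      (LinearMap.eqLocus ((ρ t : V ≃ₗ[ZMod q] V) : V →ₗ[ZMod q] V) LinearMap.id) :=
    Nat.card_congr (Equiv.subtypeEquivRight (fun v => by simp [LinearMap.mem_eqLocus]))
  rw [h1, Module.natCard_eq_pow_finrank (K := ZMod q), Nat.card_zmod]

end


/-- Let G be a finite group acting faithfully and linearly on a non-trivial finite vector space V over the field with q elements (q prime) so that every non-zero vector has a stabilizer of order 2, and suppose G has a central involution. Then V has q^(2r) elements for some r and G contains exactly q^r + 1 non-central involutions. -/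
theorem result
    (q : ℕ) [Fact q.Prime] {V : Type*} [AddCommGroup V] [Module (ZMod q) V] [Finite V] [Nontrivial V]
    {G : Type*} [Group G] [Finite G] (ρ : G →* (V ≃ₗ[ZMod q] V)) (hρ : Function.Injective ρ)
    (hstab : ∀ v : V, v ≠ 0 → Nat.card {g : G // ρ g v = v} = 2)
    (z : G) (hz : orderOf z = 2) (hzc : z ∈ Subgroup.center G) :
    ∃ r : ℕ, Nat.card V = q ^ (2 * r) ∧
      Nat.card {g : G // orderOf g = 2 ∧ g ∉ Subgroup.center G} = q ^ r + 1 := by
  classical
  haveI : Fintype G := Fintype.ofFinite G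
  haveI : Fintype V := Fintype.ofFinite V
  haveI : Fact (Nat.Prime 2) := ⟨Nat.prime_two⟩
  have hz1 : z ≠ 1 := by rintro rfl; rw [orderOf_one] at hz; omega
  have hzz : z * z = 1 := by have h3 := pow_orderOf_eq_one z; rwa [hz, pow_two] at h3
  have hzcen : ∀ g : G, g * z = z * g := fun g => Subgroup.mem_center_iff.mp hzc g
  obtain ⟨h2, hneg⟩ := central_neg ρ hρ hstab z hz1 hzz hzcen
  have hfixneg : ∀ v : V, v = -v → v = 0 := by
    intro v hv
    have h3 : (2 : ZMod q) • v = 0 := by
      rw [two_smul]; nth_rewrite 2 [hv]; exact add_neg_cancel v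
    exact (smul_eq_zero.mp h3).resolve_left h2
  obtain ⟨Iset, hI⟩ : ∃ Iset : Finset G, ∀ t : G, t ∈ Iset ↔
      orderOf t = 2 ∧ t ∉ Subgroup.center G :=
    ⟨Finset.univ.filter (fun g : G => orderOf g = 2 ∧ g ∉ Subgroup.center G), fun t => by simp⟩
  have hI1 : ∀ t ∈ Iset, t ≠ 1 := by
    intro t ht h1
    rw [h1] at ht
    have h3 := ((hI 1).mp ht).1
    rw [orderOf_one] at h3; omega
  have hItt : ∀ t ∈ Iset, t * t = 1 := by
    intro t ht
    have h3 := pow_orderOf_eq_one t
    rwa [((hI t).mp ht).1, pow_two] at h3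
  have hImem : ∀ t : G, t ≠ 1 → t * t = 1 → (∃ v : V, v ≠ 0 ∧ ρ t v = v) → t ∈ Iset := by
    intro t ht1 htt ⟨v, hv0, htv⟩
    rw [hI]
    refine ⟨orderOf_eq_prime (by rw [pow_two]; exact htt) ht1, ?_⟩
    intro hcen
    have h3 := (central_neg ρ hρ hstab t ht1 htt
      (fun g => Subgroup.mem_center_iff.mp hcen g)).2 v
    rw [htv] at h3
    exact hv0 (hfixneg v h3)
  have hP1 : ∀ v : V, v ≠ 0 → ∃ t ∈ Iset, ρ t v = v ∧ ∀ s ∈ Iset, ρ s v = v → s = t := by
    intro v hv
    obtain ⟨t, ht1, htv, htt, hu⟩ := stab_two ρ hstab v hv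
    refine ⟨t, hImem t ht1 htt ⟨v, hv, htv⟩, htv, ?_⟩
    intro s hs hsv
    exact (hu s hsv).resolve_left (hI1 s hs)
  have hIz : ∀ t ∈ Iset, t * z ∈ Iset ∧ t * z ≠ t := by
    intro t ht
    have htt := hItt t ht
    have hne : t * z ≠ t := by
      intro h; apply hz1; exact mul_left_cancel (a := t) (by rw [h, mul_one])
    refine ⟨?_, hne⟩
    rw [hI]
    have htz1 : t * z ≠ 1 := by
      intro h
      have h4 : t = z := by
        have h3 : t * z = z * z := by rw [h, hzz]
        exact mul_right_cancel h3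
      exact ((hI t).mp ht).2 (h4 ▸ hzc)
    have htztz : (t * z) * (t * z) = 1 := by
      rw [mul_assoc, ← mul_assoc z t z, ← hzcen t, mul_assoc t z z, hzz, mul_one, htt]
    refine ⟨orderOf_eq_prime (by rw [pow_two]; exact htztz) htz1, ?_⟩
    intro hcen
    apply ((hI t).mp ht).2
    have h4 : t = (t * z) * z := by rw [mul_assoc, hzz, mul_one]
    rw [h4]
    exact mul_mem hcen hzc
  obtain ⟨nz, hnz⟩ : ∃ nz : Finset V, ∀ v : V, v ∈ nz ↔ v ≠ 0 :=
    ⟨Finset.univ.filter (fun v : V => v ≠ 0), fun v => by simp⟩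
  obtain ⟨nzc, hnzc⟩ : ∃ nzc : G → ℕ, ∀ t : G, nzc t = (nz.filter (fun v => ρ t v = v)).card :=
    ⟨fun t => (nz.filter (fun v => ρ t v = v)).card, fun t => rfl⟩
  have h0nz : (0 : V) ∉ nz := by rw [hnz]; simp
  have hfc : ∀ t : G, Nat.card {v : V // ρ t v = v} = nzc t + 1 := by
    intro t
    rw [Nat.card_eq_fintype_card, Fintype.card_subtype, hnzc]
    have h3 : (Finset.univ.filter (fun v : V => ρ t v = v)) =
        insert 0 (nz.filter (fun v => ρ t v = v)) := by
      ext v
      simp only [Finset.mem_filter, Finset.mem_univ, true_and, Finset.mem_insert, hnz]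
      constructor
      · intro h
        by_cases hv : v = 0
        · exact Or.inl hv
        · exact Or.inr ⟨hv, h⟩
      · rintro (rfl | ⟨-, h⟩)
        · exact map_zero _
        · exact h
    rw [h3, Finset.card_insert_of_notMem (fun h => h0nz (Finset.mem_filter.mp h).1)]
  have hNcard : Nat.card V = nz.card + 1 := by
    rw [Nat.card_eq_fintype_card, ← Finset.card_univ]
    have h3 : (Finset.univ : Finset V) = insert 0 nz := by
      ext v
      simp only [Finset.mem_univ, Finset.mem_insert, hnz, true_iff]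
      exact em _
    rw [h3, Finset.card_insert_of_notMem h0nz]
  have hsum : nz.card = ∑ t ∈ Iset, nzc t := by
    have h1 : ∀ v ∈ nz, (Iset.filter (fun t => ρ t v = v)).card = 1 := by
      intro v hv
      have hv0 : v ≠ 0 := (hnz v).mp hv
      obtain ⟨t, htI, htv, hu⟩ := hP1 v hv0
      rw [Finset.card_eq_one]
      refine ⟨t, ?_⟩
      ext s
      simp only [Finset.mem_filter, Finset.mem_singleton]
      constructor
      · rintro ⟨hs, hsv⟩; exact hu s hs hsv
      · rintro rfl; exact ⟨htI, htv⟩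
    calc nz.card = ∑ v ∈ nz, 1 := by simp
      _ = ∑ v ∈ nz, (Iset.filter (fun t => ρ t v = v)).card :=
        Finset.sum_congr rfl (fun v hv => (h1 v hv).symm)
      _ = ∑ v ∈ nz, ∑ t ∈ Iset, (if ρ t v = v then 1 else 0) := by
        simp only [Finset.card_filter]
      _ = ∑ t ∈ Iset, ∑ v ∈ nz, (if ρ t v = v then 1 else 0) := Finset.sum_comm
      _ = ∑ t ∈ Iset, nzc t := by simp only [hnzc, Finset.card_filter]
  have hnzpos : ∀ t ∈ Iset, 1 ≤ nzc t := by
    intro t ht
    by_contra hlt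
    have h0 : nzc t = 0 := by omega
    rw [hnzc, Finset.card_eq_zero] at h0
    have hno : ∀ v : V, v ≠ 0 → ρ t v ≠ v := by
      intro v hv hfix
      have h3 : v ∈ nz.filter (fun v => ρ t v = v) :=
        Finset.mem_filter.mpr ⟨(hnz v).mpr hv, hfix⟩
      rw [h0] at h3
      exact absurd h3 (Finset.notMem_empty v)
    have hall : ∀ v : V, ρ t v = ρ z v := by
      intro v
      have hfix : ρ t (v + ρ t v) = v + ρ t v := by
        rw [map_add, ← rho_mul, hItt t ht, rho_one, add_comm]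
      have h0' : v + ρ t v = 0 := by
        by_contra hne; exact hno _ hne hfix
      rw [hneg]; exact eq_neg_of_add_eq_zero_right h0'
    have h4 : t = z := hρ (by ext v; exact hall v)
    exact ((hI t).mp ht).2 (h4 ▸ hzc)
  have hprod : ∀ t ∈ Iset, (nzc t + 1) * (nzc (t * z) + 1) = Nat.card V := by
    intro t ht
    rw [← hfc, ← hfc]; exact fix_prod ρ h2 z hneg t (hItt t ht)
  have hle : ∀ t ∈ Iset, ∀ u ∈ Iset, t ≠ u → (nzc t + 1) * (nzc u + 1) ≤ Nat.card V := by
    intro t ht u hu htu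
    rw [← hfc, ← hfc]
    apply fix_inj ρ t u
    intro v htv huv
    by_contra hv0
    obtain ⟨s, -, -, hs⟩ := hP1 v hv0
    exact htu ((hs t ht htv).trans (hs u hu huv).symm)
  have hthird : ∀ t ∈ Iset, ∃ u ∈ Iset, u ≠ t ∧ u ≠ t * z := by
    intro t ht
    by_contra hcon
    push Not at hcon
    have hIeq : Iset = {t, t * z} := by
      ext u
      simp only [Finset.mem_insert, Finset.mem_singleton]
      constructor
      · intro hu
        by_cases hut : u = t
        · exact Or.inl hut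
        · exact Or.inr (hcon u hu hut)
      · rintro (rfl | rfl)
        · exact ht
        · exact (hIz t ht).1
    have hs := hsum
    rw [hIeq, Finset.sum_pair (hIz t ht).2.symm] at hs
    have hp := hprod t ht
    rw [hNcard, hs] at hp
    have ha := hnzpos t ht
    have hb := hnzpos (t * z) (hIz t ht).1
    have hab : 1 ≤ nzc t * nzc (t * z) := Nat.mul_pos ha hb
    nlinarith [hp, hab]
  have hsq : ∀ t ∈ Iset, (nzc t + 1) * (nzc t + 1) = Nat.card V := by
    intro t ht
    obtain ⟨u, hu, hut, hutz⟩ := hthird t ht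
    have htz := (hIz t ht).1
    have huz := (hIz u hu).1
    have huzt : u * z ≠ t := by
      intro h; apply hutz
      calc u = u * z * z := by rw [mul_assoc, hzz, mul_one]
        _ = t * z := by rw [h]
    have huztz : u * z ≠ t * z := fun h => hut (mul_right_cancel h)
    have e1 := hprod t ht
    have e2 := hprod u hu
    have l1 := hle t ht u hu (Ne.symm hut)
    have l2 := hle t ht (u * z) huz (Ne.symm huzt)
    have l3 := hle (t * z) htz u hu (Ne.symm hutz)
    have l4 := hle (t * z) htz (u * z) huz (Ne.symm huztz)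
    have h1 : nzc t + 1 ≤ nzc u + 1 := by
      rw [← e2] at l2
      exact Nat.le_of_mul_le_mul_right l2 (Nat.succ_pos _)
    have h2' : nzc u + 1 ≤ nzc (t * z) + 1 := by
      rw [← e1] at l1
      exact Nat.le_of_mul_le_mul_left l1 (Nat.succ_pos _)
    have h3 : nzc (t * z) + 1 ≤ nzc u + 1 := by
      rw [← e2] at l4
      exact Nat.le_of_mul_le_mul_right l4 (Nat.succ_pos _)
    have h4 : nzc u + 1 ≤ nzc t + 1 := by
      rw [← e1, mul_comm (nzc (t * z) + 1) (nzc u + 1)] at l3
      exact Nat.le_of_mul_le_mul_right l3 (Nat.succ_pos _)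
    have hab : nzc t = nzc (t * z) := by omega
    rw [← hab] at e1
    exact e1
  obtain ⟨v₁, hv₁⟩ := exists_ne (0 : V)
  obtain ⟨t₀, ht₀, -, -⟩ := hP1 v₁ hv₁
  obtain ⟨r, hr⟩ := fix_pow ρ t₀
  rw [hfc] at hr
  have hN : Nat.card V = q ^ (2 * r) := by
    rw [← hsq t₀ ht₀, hr, pow_mul', pow_two]
  refine ⟨r, hN, ?_⟩
  have hall : ∀ t ∈ Iset, nzc t = nzc t₀ := by
    intro t ht
    have h3 : (nzc t + 1) * (nzc t + 1) = (nzc t₀ + 1) * (nzc t₀ + 1) := by
      rw [hsq t ht, hsq t₀ ht₀]
    have h4 := Nat.mul_self_inj.mp h3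
    omega
  have hs2 : nz.card = Iset.card * nzc t₀ := by
    rw [hsum, Finset.sum_congr rfl hall, Finset.sum_const, smul_eq_mul]
  have hcount : Nat.card {g : G // orderOf g = 2 ∧ g ∉ Subgroup.center G} = Iset.card := by
    rw [Nat.card_eq_fintype_card, Fintype.card_subtype]
    congr 1
    ext t
    simp [hI]
  rw [hcount, ← hr]
  have hd := hnzpos t₀ ht₀
  have hN2 := hsq t₀ ht₀
  rw [hNcard, hs2] at hN2
  have h5 : Iset.card * nzc t₀ = (nzc t₀ + 2) * nzc t₀ := by nlinarith [hN2]
  have h6 := Nat.eq_of_mul_eq_mul_right hd h5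
  omega

end Cfsg.Agent.S3381
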