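import Cfsg.Statements.S3382
import Cfsg.Agent.Helper17.MonoT

set_option autoImplicit false
open Cfsg

namespace Cfsg.Agent.S3382

/-- Let q = 2^m + 1 be a prime other than 5. Then the automorphism group of the group of linear maps of F_q² of the forms (x, y) ↦ (a x, ± a⁻¹ y) and (x, y) ↦ (± a⁻¹ y, a x) with a ≠ 0 is itself a 2-group. -/
theorem result (q m : ℕ) [Fact q.Prime] (hq : q = 2 ^ m + 1) (hq5 : q ≠ 5)
    (T : Subgroup ((Fin 2 → ZMod q) ≃ₗ[ZMod q] (Fin 2 → ZMod q)))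
    (hT : ∀ f, f ∈ T ↔ ∃ a s : ZMod q, a ≠ 0 ∧ (s = 1 ∨ s = -1) ∧
      ((∀ v, f v = ![a * v 0, s * a⁻¹ * v 1]) ∨ (∀ v, f v = ![s * a⁻¹ * v 1, a * v 0]))) :
    IsPGroup 2 (MulAut T) := by
  have key : ∀ ψ : MulAut T, ∀ o : ℕ, Odd o → ψ ^ o = 1 → ψ = 1 := by
    intro ψ o ho hψ
    rcases m with _ | _ | _ | m
    · exact Cfsg.Agent.Helper17.MonoT.small2 (by simpa using hq) T hT ψ
    · exact Cfsg.Agent.Helper17.MonoT.small3 (by simpa using hq) T hT ψ o ho hψ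
    · exact absurd (by simpa using hq) hq5
    · exact Cfsg.Agent.Helper17.MonoT.big m hq T hT ψ o ho hψ
  haveI : NeZero q := ⟨(Fact.out : q.Prime).ne_zero⟩
  haveI : Finite ((Fin 2 → ZMod q) ≃ₗ[ZMod q] (Fin 2 → ZMod q)) :=
    Finite.of_injective (fun f => (f : (Fin 2 → ZMod q) → (Fin 2 → ZMod q))) DFunLike.coe_injective
  haveI : Finite (MulAut T) :=
    Finite.of_injective (fun φ : MulAut T => (φ : T → T)) DFunLike.coe_injective
  intro φ
  obtain ⟨k, o, ho, hN⟩ := Nat.exists_eq_two_pow_mul_odd (orderOf_pos φ).ne'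
  refine ⟨k, ?_⟩
  apply key (φ ^ 2 ^ k) o ho
  rw [← pow_mul, ← hN, pow_orderOf_eq_one]

end Cfsg.Agent.S3382
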