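import Cfsg.Statements.S3419
import Mathlib
import Cfsg.Agent.Helper20.TwoPrimes
-- import your own Cfsg.Agent.* helpers here

set_option autoImplicit false
open Cfsg

namespace Cfsg.Agent.S3419

universe u

/-- A group of prime order `q` acting on a normal elementary `p`-subgroup of order `p ^ i` with
`q ∤ p ^ i - 1` centralises a nonidentity element; this gives an element of order `p * q`. -/
theorem fixed_elt {G : Type*} [Group G] [Finite G] (N : Subgroup G) [hNn : N.Normal]
    (p q i : ℕ) (hp : p.Prime) (hq : q.Prime) (hpq : p ≠ q) (hNp : ∀ x ∈ N, x ^ p = 1)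
    (hNcard : Nat.card N = p ^ i) (hqi : ¬ q ∣ p ^ i - 1) (y : G) (hy : orderOf y = q) :
    ∃ g : G, orderOf g = p * q := by
  classical
  haveI : Fact q.Prime := ⟨hq⟩
  haveI : Fact p.Prime := ⟨hp⟩
  haveI : Fintype N := Fintype.ofFinite N
  let f : Function.End N := fun x => ⟨y * x * y⁻¹, hNn.conj_mem x x.2 y⟩
  have hfx : ∀ x : N, ((f x : N) : G) = y * x * y⁻¹ := fun _ => rfl
  have key : ∀ k : ℕ, ∀ x : N, (((f ^ k) x : N) : G) = y ^ k * x * (y ^ k)⁻¹ := by
    intro k
    induction k with
    | zero =>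
      intro x
      rw [pow_zero, pow_zero, one_mul, inv_one, mul_one]; rfl
    | succ k ih =>
      intro x
      rw [pow_succ]
      show (((f ^ k) (f x) : N) : G) = _
      rw [ih, hfx, pow_succ]; group
  have hf : f ^ q ^ 1 = 1 := by
    rw [pow_one]
    funext x
    apply Subtype.ext
    rw [key, ← hy, pow_orderOf_eq_one, one_mul, inv_one, mul_one]; rfl
  have hmod := Equiv.Perm.card_fixedPoints_modEq (f := f) (p := q) (n := 1) hf
  have hex : ∃ x : N, f x = x ∧ x ≠ 1 := by
    by_contra hcon
    push Not at hcon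
    have h1 : Fintype.card (Function.fixedPoints f) = 1 := by
      rw [Fintype.card_eq_one_iff]
      refine ⟨⟨1, ?_⟩, ?_⟩
      · show f 1 = 1
        apply Subtype.ext
        rw [hfx]; simp
      · rintro ⟨z, hz⟩
        exact Subtype.ext (hcon z hz)
    rw [h1, ← Nat.card_eq_fintype_card, hNcard] at hmod
    exact hqi ((Nat.modEq_iff_dvd' (Nat.one_le_pow i p hp.pos)).mp hmod.symm)
  obtain ⟨x, hx, hx1⟩ := hex
  have hx' : y * (x : G) * y⁻¹ = x := by
    have := congrArg Subtype.val hx
    rwa [hfx] at this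
  have hcomm : Commute (x : G) y := by
    show (x : G) * y = y * x
    calc (x : G) * y = (y * x * y⁻¹) * y := by rw [hx']
      _ = y * x := by group
  have hox : orderOf (x : G) = p :=
    orderOf_eq_prime (hNp x x.2) (fun h => hx1 (Subtype.ext h))
  refine ⟨x * y, ?_⟩
  rw [hcomm.orderOf_mul_eq_mul_orderOf_of_coprime
    (by rw [hox, hy]; exact (Nat.coprime_primes hp hq).mpr hpq), hox, hy]

/-- A nontrivial finite solvable group has a nontrivial normal subgroup of prime exponent. -/
theorem exists_elem_ab {G : Type*} [Group G] [Finite G] [Nontrivial G]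
    (hsolv : Group.IsSolvable G) :
    ∃ (r : ℕ) (N : Subgroup G), r.Prime ∧ N.Normal ∧ N ≠ ⊥ ∧ ∀ x ∈ N, x ^ r = 1 := by
  classical
  have hex : ∃ n, derivedSeries G n = ⊥ := hsolv.solvable
  have hm1 : derivedSeries G (Nat.find hex) = ⊥ := Nat.find_spec hex
  have hm0 : Nat.find hex ≠ 0 := by
    intro h0
    rw [h0, derivedSeries_zero] at hm1
    exact top_ne_bot hm1
  obtain ⟨k, hk⟩ := Nat.exists_eq_succ_of_ne_zero hm0
  have hk1 : derivedSeries G k ≠ ⊥ := Nat.find_min hex (by omega)
  have hDD : ⁅derivedSeries G k, derivedSeries G k⁆ = ⊥ := by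
    rw [← derivedSeries_succ, ← Nat.succ_eq_add_one, ← hk]; exact hm1
  have hDn : (derivedSeries G k).Normal := derivedSeries_normal _ k
  obtain ⟨D, hD⟩ : ∃ D : Subgroup G, D = derivedSeries G k := ⟨_, rfl⟩
  rw [← hD] at hk1 hDD hDn
  have hDc : ∀ a ∈ D, ∀ b ∈ D, a * b = b * a := by
    intro a ha b hb
    have h1 : a * b * a⁻¹ * b⁻¹ ∈ ⁅D, D⁆ := Subgroup.commutator_mem_commutator ha hb
    rw [hDD, Subgroup.mem_bot] at h1
    calc a * b = (a * b * a⁻¹ * b⁻¹) * (b * a) := by group
      _ = b * a := by rw [h1, one_mul]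
  haveI : Nontrivial D := (Subgroup.nontrivial_iff_ne_bot D).mpr hk1
  obtain ⟨r, hr, hrd⟩ := Nat.exists_prime_and_dvd (show Nat.card D ≠ 1 from by
    have := Finite.one_lt_card (α := D); omega)
  haveI : Fact r.Prime := ⟨hr⟩
  obtain ⟨x, hx⟩ := exists_prime_orderOf_dvd_card' r hrd
  let N : Subgroup G :=
    { carrier := {x | x ∈ D ∧ x ^ r = 1}
      mul_mem' := by
        rintro a b ⟨ha, ha'⟩ ⟨hb, hb'⟩
        refine ⟨D.mul_mem ha hb, ?_⟩
        rw [(show Commute a b from hDc a ha b hb).mul_pow, ha', hb', one_mul]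
      one_mem' := ⟨D.one_mem, one_pow _⟩
      inv_mem' := by
        rintro a ⟨ha, ha'⟩
        exact ⟨D.inv_mem ha, by rw [inv_pow, ha', inv_one]⟩ }
  have hN : ∀ x, x ∈ N ↔ x ∈ D ∧ x ^ r = 1 := fun _ => Iff.rfl
  refine ⟨r, N, hr, ⟨fun n hn g => ?_⟩, ?_, fun x hx => ((hN x).mp hx).2⟩
  · rw [hN] at hn ⊢
    exact ⟨hDn.conj_mem n hn.1 g, by rw [conj_pow, hn.2]; group⟩
  · intro h
    have hxp : (x : G) ^ r = 1 := by
      have := pow_orderOf_eq_one x
      rw [hx] at this
      have h2 := congrArg Subtype.val this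
      simpa using h2
    have : (x : G) ∈ N := (hN _).mpr ⟨x.2, hxp⟩
    rw [h, Subgroup.mem_bot] at this
    have hx1 : x = 1 := Subtype.ext this
    rw [hx1, orderOf_one] at hx
    exact hr.ne_one hx.symm

/-- In a finite solvable group, two primes `p`, `q` whose Sylow subgroups are small enough
(no `q ∣ p ^ i - 1`, `p ∣ q ^ j - 1` in the relevant range) are joined in the prime graph. -/
theorem solv_pq : ∀ (M : ℕ) {G : Type u} [Group G] [Finite G], Group.IsSolvable G →
    Nat.card G = M → ∀ (p q a b : ℕ), p.Prime → q.Prime → p ≠ q → p ∣ Nat.card G →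
    q ∣ Nat.card G → ¬ p ^ (a + 1) ∣ Nat.card G → ¬ q ^ (b + 1) ∣ Nat.card G →
    (∀ i, 1 ≤ i → i ≤ a → ¬ q ∣ p ^ i - 1) → (∀ j, 1 ≤ j → j ≤ b → ¬ p ∣ q ^ j - 1) →
    ∃ g : G, orderOf g = p * q := by
  intro M
  induction M using Nat.strong_induction_on with
  | _ M ih =>
    intro G _ _ hsolv hM p q a b hp hq hpq hpG hqG hpa hqb hqa hpb
    classical
    haveI : Nontrivial G := by
      rw [← Finite.one_lt_card_iff_nontrivial]
      have h1 := Nat.le_of_dvd Nat.card_pos hpG
      have h2 := hp.two_le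
      omega
    obtain ⟨r, N, hr, hNn, hN1, hNr⟩ := exists_elem_ab hsolv
    haveI := hNn
    haveI : Fact r.Prime := ⟨hr⟩
    have hNp : IsPGroup r N := by
      intro g
      refine ⟨1, ?_⟩
      rw [pow_one]
      exact Subtype.ext (by simpa using hNr g g.2)
    obtain ⟨i, hi⟩ := IsPGroup.iff_card.mp hNp
    have hi1 : 1 ≤ i := by
      by_contra h
      have h0 : i = 0 := by omega
      rw [h0, pow_zero] at hi
      exact hN1 (Subgroup.card_eq_one.mp hi)
    have hNdvd : Nat.card N ∣ Nat.card G := Subgroup.card_subgroup_dvd_card N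
    by_cases hrp : r = p
    · subst hrp
      have hia : i ≤ a := by
        by_contra h
        apply hpa
        exact dvd_trans (pow_dvd_pow r (by omega)) (hi ▸ hNdvd)
      haveI : Fact q.Prime := ⟨hq⟩
      obtain ⟨y, hy⟩ := exists_prime_orderOf_dvd_card' q hqG
      exact fixed_elt N r q i hr hq hpq hNr hi (hqa i hi1 hia) y hy
    by_cases hrq : r = q
    · subst hrq
      have hib : i ≤ b := by
        by_contra h
        apply hqb
        exact dvd_trans (pow_dvd_pow r (by omega)) (hi ▸ hNdvd)
      haveI : Fact p.Prime := ⟨hp⟩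
      obtain ⟨y, hy⟩ := exists_prime_orderOf_dvd_card' p hpG
      obtain ⟨g, hg⟩ := fixed_elt N r p i hr hp (Ne.symm hpq) hNr hi (hpb i hi1 hib) y hy
      exact ⟨g, by rw [hg, mul_comm]⟩
    · have hcardQ : Nat.card G = Nat.card (G ⧸ N) * Nat.card N :=
        Subgroup.card_eq_card_quotient_mul_card_subgroup N
      have hlt : Nat.card (G ⧸ N) < M := by
        rw [← hM, hcardQ]
        have h1 : 1 < Nat.card N := by rw [hi]; exact Nat.one_lt_pow (by omega) hr.one_lt
        have h2 : 0 < Nat.card (G ⧸ N) := Nat.card_pos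
        nlinarith
      have hpQ : p ∣ Nat.card (G ⧸ N) := by
        rw [hcardQ, hi] at hpG
        exact (Nat.Coprime.dvd_mul_right
          (((Nat.coprime_primes hp hr).mpr (Ne.symm hrp)).pow_right i)).mp hpG
      have hqQ : q ∣ Nat.card (G ⧸ N) := by
        rw [hcardQ, hi] at hqG
        exact (Nat.Coprime.dvd_mul_right
          (((Nat.coprime_primes hq hr).mpr (Ne.symm hrq)).pow_right i)).mp hqG
      have hQdvd : Nat.card (G ⧸ N) ∣ Nat.card G := ⟨Nat.card N, hcardQ⟩
      haveI := hsolv
      obtain ⟨gbar, hgbar⟩ := ih _ hlt (G := G ⧸ N) inferInstance rfl p q a b hp hq hpq hpQ hqQ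
        (fun h => hpa (dvd_trans h hQdvd)) (fun h => hqb (dvd_trans h hQdvd)) hqa hpb
      obtain ⟨g, rfl⟩ := QuotientGroup.mk_surjective gbar
      have hdvd : p * q ∣ orderOf g := by
        rw [← hgbar]; exact orderOf_map_dvd (QuotientGroup.mk' N) g
      obtain ⟨c, hc⟩ := hdvd
      have hc0 : c ≠ 0 := by
        rintro rfl
        rw [mul_zero] at hc
        exact (orderOf_pos g).ne' hc
      refine ⟨g ^ c, ?_⟩
      rw [orderOf_pow_of_dvd hc0 ⟨p * q, by rw [hc, mul_comm]⟩, hc,
        Nat.mul_div_cancel _ (Nat.pos_of_ne_zero hc0)]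

theorem prime_dvd_lcm {p : ℕ} (hp : p.Prime) (s : Multiset ℕ) (h : p ∣ s.lcm) :
    ∃ a ∈ s, p ∣ a := by
  induction s using Multiset.induction_on with
  | empty =>
    rw [Multiset.lcm_zero] at h
    exact absurd (Nat.dvd_one.mp h) hp.ne_one
  | cons a s ih =>
    rw [Multiset.lcm_cons] at h
    have h' : p ∣ a * s.lcm := dvd_trans h (lcm_dvd (dvd_mul_right a _) (dvd_mul_left _ a))
    rcases (Nat.Prime.dvd_mul hp).mp h' with h1 | h1
    · exact ⟨a, Multiset.mem_cons_self a s, h1⟩
    · obtain ⟨c, hc, hpc⟩ := ih h1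
      exact ⟨c, Multiset.mem_cons_of_mem hc, hpc⟩

/-- A permutation of `n` points of order `p * q` (distinct primes) needs `p + q ≤ n`. -/
theorem no_pq (n p q : ℕ) (hp : p.Prime) (hq : q.Prime) (hpq : p ≠ q)
    (σ : Equiv.Perm (Fin n)) (hσ : orderOf σ = p * q) : p + q ≤ n := by
  have hl := Equiv.Perm.lcm_cycleType σ
  have hs := Equiv.Perm.sum_cycleType_le σ
  rw [Fintype.card_fin] at hs
  obtain ⟨c, hc, hpc⟩ := prime_dvd_lcm hp σ.cycleType (by rw [hl, hσ]; exact dvd_mul_right p q)
  obtain ⟨c', hc', hqc'⟩ := prime_dvd_lcm hq σ.cycleType (by rw [hl, hσ]; exact dvd_mul_left q p)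
  have hcpos : 0 < c := by have := Equiv.Perm.two_le_of_mem_cycleType hc; omega
  have hc'pos : 0 < c' := by have := Equiv.Perm.two_le_of_mem_cycleType hc'; omega
  by_cases hcc : c = c'
  · subst hcc
    have h0 : p * q ∣ c :=
      Nat.Coprime.mul_dvd_of_dvd_of_dvd ((Nat.coprime_primes hp hq).mpr hpq) hpc hqc'
    have h1 : p * q ≤ c := Nat.le_of_dvd hcpos h0
    have h2 : c ≤ σ.cycleType.sum := Multiset.le_sum_of_mem hc
    have h3 : p + q ≤ p * q := by nlinarith [hp.two_le, hq.two_le]
    omega
  · obtain ⟨t, ht⟩ := Multiset.exists_cons_of_mem hc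
    have hc't : c' ∈ t := by
      rw [ht, Multiset.mem_cons] at hc'
      rcases hc' with h | h
      · exact absurd h.symm hcc
      · exact h
    have h2 : c' ≤ t.sum := Multiset.le_sum_of_mem hc't
    have h3 : σ.cycleType.sum = c + t.sum := by rw [ht, Multiset.sum_cons]
    have h4 : p ≤ c := Nat.le_of_dvd hcpos hpc
    have h5 : q ≤ c' := Nat.le_of_dvd hc'pos hqc'
    omega

theorem not_sq_dvd_factorial (p n : ℕ) (hp : p.Prime) (hpn : p ≤ n) (hn : n < 2 * p) :
    ¬ p ^ 2 ∣ n.factorial := by
  haveI : Fact p.Prime := ⟨hp⟩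
  intro h
  have h1 : 2 ≤ padicValNat p n.factorial :=
    (padicValNat_dvd_iff_le (Nat.factorial_ne_zero n)).mp h
  have h2 : padicValNat p n.factorial = ∑ i ∈ Finset.Ico 1 2, n / p ^ i :=
    padicValNat_factorial (b := 2) (by
      apply Nat.log_lt_of_lt_pow (by have := hp.two_le; omega)
      nlinarith [hp.two_le])
  rw [h2] at h1
  have h3 : n / p < 2 := Nat.div_lt_of_lt_mul (by omega)
  simp at h1
  omega


/-- Let n ≥ 5 and let G be a finite group with the same order and the same set of element orders as the alternating group of degree n. Then G is not solvable. -/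
theorem result {G : Type*} [Group G] [Finite G] (n : ℕ) (hn : 5 ≤ n)
    (hcard : Nat.card G = Nat.card ↥(alternatingGroup (Fin n)))
    (hspec : Set.range (orderOf : G → ℕ) = Set.range (orderOf : ↥(alternatingGroup (Fin n)) → ℕ)) :
    ¬ Group.IsSolvable G := by
  intro hsolv
  have hn2 : Nontrivial (Fin n) := Fin.nontrivial_iff_two_le.mpr (by omega)
  have hA : 2 * Nat.card (alternatingGroup (Fin n)) = n.factorial := by
    rw [two_mul_nat_card_alternatingGroup, Nat.card_eq_fintype_card, Fintype.card_perm,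
      Fintype.card_fin]
  have key : ∀ p q a b : ℕ, p.Prime → q.Prime → p ≠ q → p ≠ 2 → q ≠ 2 → p ≤ n → q ≤ n →
      n < p + q → ¬ p ^ (a + 1) ∣ n.factorial → ¬ q ^ (b + 1) ∣ n.factorial →
      (∀ i, 1 ≤ i → i ≤ a → ¬ q ∣ p ^ i - 1) → (∀ j, 1 ≤ j → j ≤ b → ¬ p ∣ q ^ j - 1) →
      False := by
    intro p q a b hp hq hpq hp2 hq2 hpn hqn hsum hpa hqb hqa hpb
    have hcG : 2 * Nat.card G = n.factorial := by rw [hcard]; exact hA
    have hpG : p ∣ Nat.card G := by
      have h1 : p ∣ 2 * Nat.card G := by rw [hcG]; exact (Nat.Prime.dvd_factorial hp).mpr hpn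
      exact (Nat.Coprime.dvd_mul_left ((Nat.coprime_primes hp Nat.prime_two).mpr hp2)).mp h1
    have hqG : q ∣ Nat.card G := by
      have h1 : q ∣ 2 * Nat.card G := by rw [hcG]; exact (Nat.Prime.dvd_factorial hq).mpr hqn
      exact (Nat.Coprime.dvd_mul_left ((Nat.coprime_primes hq Nat.prime_two).mpr hq2)).mp h1
    have hpa' : ¬ p ^ (a + 1) ∣ Nat.card G := fun h => hpa (hcG ▸ dvd_mul_of_dvd_right h 2)
    have hqb' : ¬ q ^ (b + 1) ∣ Nat.card G := fun h => hqb (hcG ▸ dvd_mul_of_dvd_right h 2)
    obtain ⟨g, hg⟩ := solv_pq (Nat.card G) hsolv rfl p q a b hp hq hpq hpG hqG hpa' hqb' hqa hpb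
    have hmem : p * q ∈ Set.range (orderOf : G → ℕ) := ⟨g, hg⟩
    rw [hspec] at hmem
    obtain ⟨σ, hσ⟩ := hmem
    have := no_pq n p q hp hq hpq (σ : Equiv.Perm (Fin n)) (by rw [Subgroup.orderOf_coe]; exact hσ)
    omega
  by_cases h12 : 12 ≤ n
  · obtain ⟨p, q, hp, hq, hnq, hqp, hpn⟩ :=
      Cfsg.Agent.Helper20.TwoPrimes.two_primes (n / 2) (by omega)
    apply key p q 1 1 hp hq (by omega) (by omega) (by omega) (by omega) (by omega) (by omega)
    · exact not_sq_dvd_factorial p n hp (by omega) (by omega)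
    · exact not_sq_dvd_factorial q n hq (by omega) (by omega)
    · intro i hi1 hi2 hdvd
      have hi : i = 1 := by omega
      subst hi
      rw [pow_one] at hdvd
      obtain ⟨c, hc⟩ := hdvd
      have hc1 : c = 1 := by
        have h1 : 0 < c := by
          rcases Nat.eq_zero_or_pos c with h | h
          · rw [h, mul_zero] at hc; omega
          · exact h
        have h2 : c < 2 := by
          by_contra h
          have : 2 * q ≤ q * c := by nlinarith
          omega
        omega
      rw [hc1, mul_one] at hc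
      -- p = q + 1, both odd primes
      have hq_odd := hq.eq_two_or_odd
      have hp_odd := hp.eq_two_or_odd
      omega
    · intro j hj1 hj2 hdvd
      have hj : j = 1 := by omega
      subst hj
      rw [pow_one] at hdvd
      have := Nat.le_of_dvd (by omega) hdvd
      omega
  · have h11 : n ≤ 11 := by omega
    interval_cases n
    · exact key 5 3 1 1 (by norm_num) (by norm_num) (by norm_num) (by norm_num) (by norm_num)
        (by norm_num) (by norm_num) (by norm_num) (by decide) (by decide)
        (by intro i h1 h2; interval_cases i <;> norm_num)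
        (by intro j h1 h2; interval_cases j <;> norm_num)
    · exact key 5 3 1 2 (by norm_num) (by norm_num) (by norm_num) (by norm_num) (by norm_num)
        (by norm_num) (by norm_num) (by norm_num) (by decide) (by decide)
        (by intro i h1 h2; interval_cases i <;> norm_num)
        (by intro j h1 h2; interval_cases j <;> norm_num)
    · exact key 7 5 1 1 (by norm_num) (by norm_num) (by norm_num) (by norm_num) (by norm_num)
        (by norm_num) (by norm_num) (by norm_num) (by decide) (by decide)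
        (by intro i h1 h2; interval_cases i <;> norm_num)
        (by intro j h1 h2; interval_cases j <;> norm_num)
    · exact key 7 5 1 1 (by norm_num) (by norm_num) (by norm_num) (by norm_num) (by norm_num)
        (by norm_num) (by norm_num) (by norm_num) (by decide) (by decide)
        (by intro i h1 h2; interval_cases i <;> norm_num)
        (by intro j h1 h2; interval_cases j <;> norm_num)
    · exact key 7 5 1 1 (by norm_num) (by norm_num) (by norm_num) (by norm_num) (by norm_num)
        (by norm_num) (by norm_num) (by norm_num) (by decide) (by decide)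
        (by intro i h1 h2; interval_cases i <;> norm_num)
        (by intro j h1 h2; interval_cases j <;> norm_num)
    · exact key 7 5 1 2 (by norm_num) (by norm_num) (by norm_num) (by norm_num) (by norm_num)
        (by norm_num) (by norm_num) (by norm_num) (by decide) (by decide)
        (by intro i h1 h2; interval_cases i <;> norm_num)
        (by intro j h1 h2; interval_cases j <;> norm_num)
    · exact key 11 7 1 1 (by norm_num) (by norm_num) (by norm_num) (by norm_num) (by norm_num)
        (by norm_num) (by norm_num) (by norm_num) (by decide) (by decide)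
        (by intro i h1 h2; interval_cases i <;> norm_num)
        (by intro j h1 h2; interval_cases j <;> norm_num)

end Cfsg.Agent.S3419
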