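import Cfsg.Statements.S3430
import Mathlib
import Cfsg.Agent.Helper2.ZsigLarge

set_option autoImplicit false
open Cfsg

namespace Cfsg.Agent.S3430

/-- Let q, n ≥ 2 be integers. Unless (n = 2 and q + 1 = 2^s·3^t for some s ≥ 0 and t ≤ 1), or (q = 2 and n ∈ {4, 6, 10, 12, 18}), or (q = 3 and n ∈ {4, 6}), or (q, n) = (5, 6), there is a prime p dividing q^n − 1 but no q^i − 1 with 1 ≤ i < n (a primitive prime divisor), such that p > n + 1 or p² divides q^n − 1. -/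
theorem result (q n : ℕ) (hq : 2 ≤ q) (hn : 2 ≤ n)
    (h1 : ¬ (n = 2 ∧ ∃ s t : ℕ, t ≤ 1 ∧ q + 1 = 2 ^ s * 3 ^ t))
    (h2 : ¬ (q = 2 ∧ (n = 4 ∨ n = 6 ∨ n = 10 ∨ n = 12 ∨ n = 18)))
    (h3 : ¬ (q = 3 ∧ (n = 4 ∨ n = 6))) (h4 : ¬ (q = 5 ∧ n = 6)) :
    ∃ p : ℕ, p.Prime ∧ p ∣ q ^ n - 1 ∧ (∀ i : ℕ, 1 ≤ i → i < n → ¬ p ∣ q ^ i - 1) ∧ (n + 1 < p ∨ p ^ 2 ∣ q ^ n - 1) := by
  rcases Nat.lt_or_ge n 3 with hn3 | hn3
  · have hn2 : n = 2 := by omega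
    subst hn2
    have hnot : ¬ ∃ s t, t ≤ 1 ∧ q + 1 = 2 ^ s * 3 ^ t := fun h => h1 ⟨rfl, h⟩
    have hfac : q ^ 2 - 1 = (q + 1) * (q - 1) := by
      obtain ⟨c, rfl⟩ : ∃ c, q = c + 1 := ⟨q - 1, by omega⟩
      have : (c + 1) ^ 2 = (c + 1 + 1) * c + 1 := by ring
      rw [this]; simp
    obtain ⟨s, w, hw, hqw⟩ := Nat.exists_eq_two_pow_mul_odd (n := q + 1) (by omega)
    have hprim : ∀ p, p.Prime → p ∣ q + 1 → p ≠ 2 → ∀ i, 1 ≤ i → i < 2 → ¬ p ∣ q ^ i - 1 := by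
      intro p hp hpq hp2 i hi1 hi2 hdvd
      have hi : i = 1 := by omega
      subst hi
      rw [pow_one] at hdvd
      have h3 : p ∣ (q + 1) - (q - 1) := Nat.dvd_sub hpq hdvd
      have h4 : (q + 1) - (q - 1) = 2 := by omega
      rw [h4] at h3
      exact hp2 ((Nat.prime_dvd_prime_iff_eq hp Nat.prime_two).mp h3)
    by_cases hbig : ∃ p, p.Prime ∧ p ∣ w ∧ 5 ≤ p
    · obtain ⟨p, hp, hpw, hp5⟩ := hbig
      have hpq : p ∣ q + 1 := by rw [hqw]; exact Dvd.dvd.mul_left hpw _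
      refine ⟨p, hp, ?_, hprim p hp hpq (by omega), Or.inl (by omega)⟩
      rw [hfac]; exact Dvd.dvd.mul_right hpq _
    · have hw0 : w ≠ 0 := by
        rintro rfl
        obtain ⟨c, hc⟩ := hw
        omega
      have hw3 : w = 3 ^ w.primeFactorsList.length :=
        Nat.eq_prime_pow_of_unique_prime_dvd hw0 (fun {d} hd hdw => by
          have hd2 := hd.two_le
          have hd5 : d < 5 := by
            by_contra h
            exact hbig ⟨d, hd, hdw, by omega⟩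
          have hdodd : d ≠ 2 := by
            rintro rfl
            obtain ⟨c, hc⟩ := hw
            obtain ⟨c', hc'⟩ := hdw
            omega
          have hd4 : d ≠ 4 := by rintro rfl; exact absurd hd (by norm_num)
          omega)
      obtain ⟨k, hk⟩ : ∃ k, k = w.primeFactorsList.length := ⟨_, rfl⟩
      rw [← hk] at hw3
      have hk2 : 2 ≤ k := by
        by_contra hlt
        exact hnot ⟨s, k, by omega, by rw [hqw, hw3]⟩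
      have h9 : 9 ∣ q + 1 := by
        rw [hqw, hw3]
        obtain ⟨k', rfl⟩ : ∃ k', k = k' + 2 := ⟨k - 2, by omega⟩
        exact Dvd.dvd.mul_left (Dvd.intro_left (3 ^ k') (by ring)) _
      have h3 : 3 ∣ q + 1 := (by norm_num : 3 ∣ 9).trans h9
      refine ⟨3, by norm_num, ?_, hprim 3 (by norm_num) h3 (by norm_num), Or.inr ?_⟩
      · rw [hfac]; exact Dvd.dvd.mul_right h3 _
      · rw [hfac]; exact Dvd.dvd.mul_right (by norm_num; exact h9) _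
  · by_cases hL : (q, n) ∈ Cfsg.Agent.Helper2.zlList
    · simp only [Cfsg.Agent.Helper2.zlList, List.mem_cons, Prod.mk.injEq, List.mem_nil_iff, or_false] at hL
      rcases hL with ⟨rfl, rfl⟩ | ⟨rfl, rfl⟩ | ⟨rfl, rfl⟩ | ⟨rfl, rfl⟩ | ⟨rfl, rfl⟩ | ⟨rfl, rfl⟩ | ⟨rfl, rfl⟩ | ⟨rfl, rfl⟩ | ⟨rfl, rfl⟩ | ⟨rfl, rfl⟩ | ⟨rfl, rfl⟩ | ⟨rfl, rfl⟩ | ⟨rfl, rfl⟩ | ⟨rfl, rfl⟩ | ⟨rfl, rfl⟩ | ⟨rfl, rfl⟩ | ⟨rfl, rfl⟩ | ⟨rfl, rfl⟩ | ⟨rfl, rfl⟩ | ⟨rfl, rfl⟩ | ⟨rfl, rfl⟩ | ⟨rfl, rfl⟩ | ⟨rfl, rfl⟩ | ⟨rfl, rfl⟩ | ⟨rfl, rfl⟩ | ⟨rfl, rfl⟩ | ⟨rfl, rfl⟩ | ⟨rfl, rfl⟩ | ⟨rfl, rfl⟩ | ⟨rfl, rfl⟩ | ⟨rfl, rfl⟩ | ⟨rfl, rfl⟩ | ⟨rfl, rfl⟩ | ⟨rfl, rfl⟩ | ⟨rfl, rfl⟩ | ⟨rfl, rfl⟩ | ⟨rfl, rfl⟩ | ⟨rfl, rfl⟩ | ⟨rfl, rfl⟩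
      · exact ⟨7, by norm_num, by norm_num, fun i h1 h2 => (by decide : ∀ i < 3, 1 ≤ i → ¬ 7 ∣ 2 ^ i - 1) i h2 h1, Or.inl (by norm_num)⟩
      · exact ⟨13, by norm_num, by norm_num, fun i h1 h2 => (by decide : ∀ i < 3, 1 ≤ i → ¬ 13 ∣ 3 ^ i - 1) i h2 h1, Or.inl (by norm_num)⟩
      · exact ⟨7, by norm_num, by norm_num, fun i h1 h2 => (by decide : ∀ i < 3, 1 ≤ i → ¬ 7 ∣ 4 ^ i - 1) i h2 h1, Or.inl (by norm_num)⟩
      · exact ⟨31, by norm_num, by norm_num, fun i h1 h2 => (by decide : ∀ i < 3, 1 ≤ i → ¬ 31 ∣ 5 ^ i - 1) i h2 h1, Or.inl (by norm_num)⟩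
      · exact ⟨43, by norm_num, by norm_num, fun i h1 h2 => (by decide : ∀ i < 3, 1 ≤ i → ¬ 43 ∣ 6 ^ i - 1) i h2 h1, Or.inl (by norm_num)⟩
      · exact absurd ⟨rfl, by norm_num⟩ h2
      · exact absurd ⟨rfl, by norm_num⟩ h3
      · exact ⟨17, by norm_num, by norm_num, fun i h1 h2 => (by decide : ∀ i < 4, 1 ≤ i → ¬ 17 ∣ 4 ^ i - 1) i h2 h1, Or.inl (by norm_num)⟩
      · exact ⟨31, by norm_num, by norm_num, fun i h1 h2 => (by decide : ∀ i < 5, 1 ≤ i → ¬ 31 ∣ 2 ^ i - 1) i h2 h1, Or.inl (by norm_num)⟩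
      · exact ⟨11, by norm_num, by norm_num, fun i h1 h2 => (by decide : ∀ i < 5, 1 ≤ i → ¬ 11 ∣ 3 ^ i - 1) i h2 h1, Or.inl (by norm_num)⟩
      · exact absurd ⟨rfl, by norm_num⟩ h2
      · exact absurd ⟨rfl, by norm_num⟩ h3
      · exact ⟨13, by norm_num, by norm_num, fun i h1 h2 => (by decide : ∀ i < 6, 1 ≤ i → ¬ 13 ∣ 4 ^ i - 1) i h2 h1, Or.inl (by norm_num)⟩
      · exact absurd ⟨rfl, rfl⟩ h4
      · exact ⟨31, by norm_num, by norm_num, fun i h1 h2 => (by decide : ∀ i < 6, 1 ≤ i → ¬ 31 ∣ 6 ^ i - 1) i h2 h1, Or.inl (by norm_num)⟩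
      · exact ⟨43, by norm_num, by norm_num, fun i h1 h2 => (by decide : ∀ i < 6, 1 ≤ i → ¬ 43 ∣ 7 ^ i - 1) i h2 h1, Or.inl (by norm_num)⟩
      · exact ⟨19, by norm_num, by norm_num, fun i h1 h2 => (by decide : ∀ i < 6, 1 ≤ i → ¬ 19 ∣ 8 ^ i - 1) i h2 h1, Or.inl (by norm_num)⟩
      · exact ⟨127, by norm_num, by norm_num, fun i h1 h2 => (by decide : ∀ i < 7, 1 ≤ i → ¬ 127 ∣ 2 ^ i - 1) i h2 h1, Or.inl (by norm_num)⟩
      · exact ⟨17, by norm_num, by norm_num, fun i h1 h2 => (by decide : ∀ i < 8, 1 ≤ i → ¬ 17 ∣ 2 ^ i - 1) i h2 h1, Or.inl (by norm_num)⟩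
      · exact ⟨73, by norm_num, by norm_num, fun i h1 h2 => (by decide : ∀ i < 9, 1 ≤ i → ¬ 73 ∣ 2 ^ i - 1) i h2 h1, Or.inl (by norm_num)⟩
      · exact ⟨757, by norm_num, by norm_num, fun i h1 h2 => (by decide : ∀ i < 9, 1 ≤ i → ¬ 757 ∣ 3 ^ i - 1) i h2 h1, Or.inl (by norm_num)⟩
      · exact absurd ⟨rfl, by norm_num⟩ h2
      · exact ⟨61, by norm_num, by norm_num, fun i h1 h2 => (by decide : ∀ i < 10, 1 ≤ i → ¬ 61 ∣ 3 ^ i - 1) i h2 h1, Or.inl (by norm_num)⟩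
      · exact absurd ⟨rfl, by norm_num⟩ h2
      · exact ⟨73, by norm_num, by norm_num, fun i h1 h2 => (by decide : ∀ i < 12, 1 ≤ i → ¬ 73 ∣ 3 ^ i - 1) i h2 h1, Or.inl (by norm_num)⟩
      · exact ⟨241, by norm_num, by norm_num, fun i h1 h2 => (by decide : ∀ i < 12, 1 ≤ i → ¬ 241 ∣ 4 ^ i - 1) i h2 h1, Or.inl (by norm_num)⟩
      · exact ⟨43, by norm_num, by norm_num, fun i h1 h2 => (by decide : ∀ i < 14, 1 ≤ i → ¬ 43 ∣ 2 ^ i - 1) i h2 h1, Or.inl (by norm_num)⟩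
      · exact ⟨151, by norm_num, by norm_num, fun i h1 h2 => (by decide : ∀ i < 15, 1 ≤ i → ¬ 151 ∣ 2 ^ i - 1) i h2 h1, Or.inl (by norm_num)⟩
      · exact absurd ⟨rfl, by norm_num⟩ h2
      · exact ⟨37, by norm_num, by norm_num, fun i h1 h2 => (by decide : ∀ i < 18, 1 ≤ i → ¬ 37 ∣ 3 ^ i - 1) i h2 h1, Or.inl (by norm_num)⟩
      · exact ⟨37, by norm_num, by norm_num, fun i h1 h2 => (by decide : ∀ i < 18, 1 ≤ i → ¬ 37 ∣ 4 ^ i - 1) i h2 h1, Or.inl (by norm_num)⟩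
      · exact ⟨41, by norm_num, by norm_num, fun i h1 h2 => (by decide : ∀ i < 20, 1 ≤ i → ¬ 41 ∣ 2 ^ i - 1) i h2 h1, Or.inl (by norm_num)⟩
      · exact ⟨241, by norm_num, by norm_num, fun i h1 h2 => (by decide : ∀ i < 24, 1 ≤ i → ¬ 241 ∣ 2 ^ i - 1) i h2 h1, Or.inl (by norm_num)⟩
      · exact ⟨262657, by norm_num, by norm_num, fun i h1 h2 => (by decide : ∀ i < 27, 1 ≤ i → ¬ 262657 ∣ 2 ^ i - 1) i h2 h1, Or.inl (by norm_num)⟩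
      · exact ⟨331, by norm_num, by norm_num, fun i h1 h2 => (by decide : ∀ i < 30, 1 ≤ i → ¬ 331 ∣ 2 ^ i - 1) i h2 h1, Or.inl (by norm_num)⟩
      · exact ⟨109, by norm_num, by norm_num, fun i h1 h2 => (by decide : ∀ i < 36, 1 ≤ i → ¬ 109 ∣ 2 ^ i - 1) i h2 h1, Or.inl (by norm_num)⟩
      · exact ⟨97, by norm_num, by norm_num, fun i h1 h2 => (by decide : ∀ i < 48, 1 ≤ i → ¬ 97 ∣ 2 ^ i - 1) i h2 h1, Or.inl (by norm_num)⟩
      · exact ⟨87211, by norm_num, by norm_num, fun i h1 h2 => (by decide : ∀ i < 54, 1 ≤ i → ¬ 87211 ∣ 2 ^ i - 1) i h2 h1, Or.inl (by norm_num)⟩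
      · exact ⟨433, by norm_num, by norm_num, fun i h1 h2 => (by decide : ∀ i < 72, 1 ≤ i → ¬ 433 ∣ 2 ^ i - 1) i h2 h1, Or.inl (by norm_num)⟩
    · obtain ⟨P, hPd, hPpos, hPr, hPbig⟩ := Cfsg.Agent.Helper2.zl_core q n (by omega) hn3 hL
      by_cases hex : ∃ r, r.Prime ∧ r ∣ P ∧ n + 1 < r
      · obtain ⟨r, hr, hrP, hrn⟩ := hex
        exact ⟨r, hr, hrP.trans hPd, fun i hi1 hi2 => (hPr r hr hrP).2 i (by omega) hi2, Or.inl hrn⟩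
      · have hall : ∀ {d : ℕ}, d.Prime → d ∣ P → d = n + 1 := by
          intro d hd hdP
          have h1 := (hPr d hd hdP).1
          have h2 : n ≤ d - 1 := Nat.le_of_dvd (by have := hd.two_le; omega) h1
          have h3 : ¬ (n + 1 < d) := fun h => hex ⟨d, hd, hdP, h⟩
          omega
        have hPk : P = (n + 1) ^ P.primeFactorsList.length :=
          Nat.eq_prime_pow_of_unique_prime_dvd (by omega) hall
        obtain ⟨k, hk⟩ : ∃ k, k = P.primeFactorsList.length := ⟨_, rfl⟩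
        rw [← hk] at hPk
        have hk2 : 2 ≤ k := by
          by_contra hlt
          have : k = 0 ∨ k = 1 := by omega
          rcases this with rfl | rfl <;> simp at hPk <;> omega
        have hprime : (n + 1).Prime := by
          have hP1 : P ≠ 1 := by omega
          obtain ⟨d, hd, hdP⟩ := Nat.exists_prime_and_dvd hP1
          rw [← hall hd hdP]; exact hd
        have hsq : (n + 1) ^ 2 ∣ P := by
          rw [hPk]
          exact pow_dvd_pow _ hk2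
        have hdP : (n + 1) ∣ P := (dvd_pow_self (n + 1) (by norm_num : 2 ≠ 0)).trans hsq
        exact ⟨n + 1, hprime, hdP.trans hPd, fun i hi1 hi2 => (hPr _ hprime hdP).2 i (by omega) hi2, Or.inr (hsq.trans hPd)⟩

end Cfsg.Agent.S3430
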