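import Cfsg.Statements.S3704
import Cfsg.Agent.Helper2.PermChar
import Cfsg.Agent.Helper2.IndExtra
import Cfsg.Agent.Helper25.CharMore
import Mathlib

set_option autoImplicit false
open Cfsg
open scoped ComplexConjugate

namespace Cfsg.Agent.S3704

open Cfsg.Agent.Helper2

universe u v

theorem classInner_perm_one {G : Type u} [Group G] [Fintype G] (X : Type v) [MulAction G X]
    [Finite X] :
    classInner (fun g : G => (Nat.card (MulAction.fixedBy X g) : ℂ)) (fun _ => (1 : ℂ)) =
      (Nat.card (MulAction.orbitRel.Quotient G X) : ℂ) := by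
  unfold classInner
  simp only [map_one, mul_one]
  rw [sum_card_fixedBy X]
  have : (Nat.card G : ℂ) ≠ 0 := by exact_mod_cast Nat.card_pos.ne'
  field_simp

theorem classInner_perm_perm {G : Type u} [Group G] [Fintype G] (X : Type v) [MulAction G X]
    [Finite X] :
    classInner (fun g : G => (Nat.card (MulAction.fixedBy X g) : ℂ))
      (fun g : G => (Nat.card (MulAction.fixedBy X g) : ℂ)) =
      (Nat.card (MulAction.orbitRel.Quotient G (X × X)) : ℂ) := by
  unfold classInner
  have h1 : ∀ g : G, (Nat.card (MulAction.fixedBy X g) : ℂ) *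
      conj (Nat.card (MulAction.fixedBy X g) : ℂ) =
      (Nat.card (MulAction.fixedBy (X × X) g) : ℂ) := by
    intro g
    rw [card_fixedBy_prod, Complex.conj_natCast]
    push_cast
    ring
  rw [Finset.sum_congr rfl (fun g _ => h1 g), sum_card_fixedBy (X × X)]
  have : (Nat.card G : ℂ) ≠ 0 := by exact_mod_cast Nat.card_pos.ne'
  field_simp

theorem aux {G : Type u} {Ω : Type v} [Group G] [Fintype G] [MulAction G Ω] [Finite Ω]
    (h2 : MulAction.IsMultiplyPretransitive G Ω 2) (H : Subgroup G)
    (hidx : H.index = Nat.card Ω) (hnt : ¬ MulAction.IsPretransitive H Ω) :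
    Nat.card (MulAction.orbitRel.Quotient H Ω) = 2 := by
  classical
  haveI : Fintype H := Fintype.ofFinite H
  have hntriv : Nontrivial Ω := by
    by_contra h
    rw [not_nontrivial_iff_subsingleton] at h
    exact hnt ⟨fun x y => ⟨1, Subsingleton.elim _ _⟩⟩
  have hn2 : 2 ≤ Nat.card Ω := Finite.one_lt_card_iff_nontrivial.mpr hntriv
  haveI : Nonempty Ω := inferInstance
  haveI htr : MulAction.IsPretransitive G Ω := MulAction.isPretransitive_of_is_two_pretransitive
  have horb1 : Nat.card (MulAction.orbitRel.Quotient G Ω) = 1 := card_orbits_of_pretransitive Ω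
  have horb2 : Nat.card (MulAction.orbitRel.Quotient G (Ω × Ω)) = 2 :=
    (card_orbits_prod_eq_two_iff Ω hn2).mpr h2
  haveI : Finite (MulAction.orbitRel.Quotient H Ω) :=
    Finite.of_surjective (Quotient.mk'' : Ω → MulAction.orbitRel.Quotient H Ω)
      Quotient.mk''_surjective
  have ht2 : 2 ≤ Nat.card (MulAction.orbitRel.Quotient H Ω) := by
    have hne : Nonempty (MulAction.orbitRel.Quotient H Ω) :=
      ⟨Quotient.mk'' (Classical.arbitrary Ω)⟩
    have h1 : Nat.card (MulAction.orbitRel.Quotient H Ω) ≠ 1 := by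
      intro h
      apply hnt
      rw [MulAction.pretransitive_iff_subsingleton_quotient]
      exact (Nat.card_eq_one_iff_unique.mp h).1
    have h0 : 0 < Nat.card (MulAction.orbitRel.Quotient H Ω) := Nat.card_pos
    omega
  obtain ⟨t, ht⟩ : ∃ t : ℕ, t = Nat.card (MulAction.orbitRel.Quotient H Ω) := ⟨_, rfl⟩
  obtain ⟨n, hn⟩ : ∃ n : ℕ, n = Nat.card Ω := ⟨_, rfl⟩
  rw [← ht] at ht2 ⊢
  rw [← hn] at hn2 hidx
  -- the characters
  obtain ⟨π, hπ⟩ : ∃ π : G → ℂ, π = fun g => (Nat.card (MulAction.fixedBy Ω g) : ℂ) := ⟨_, rfl⟩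
  have hπc : IsCharacter G π := by rw [hπ]; exact isCharacter_permChar Ω
  have hπcl : IsClassFunction G π := isClassFunction_of_isCharacter hπc
  obtain ⟨one, hone⟩ : ∃ one : G → ℂ, one = (Helper25.trivChar G : G → ℂ) := ⟨_, rfl⟩
  have hone' : one = fun _ => (1 : ℂ) := by rw [hone]; rfl
  have h_π_one : classInner π one = 1 := by
    rw [hπ, hone', classInner_perm_one Ω, horb1]; simp
  have h_one_π : classInner one π = 1 := by
    rw [classInner_conj_symm π one, h_π_one]; simp
  have h_π_π : classInner π π = 2 := by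
    rw [hπ, classInner_perm_perm Ω, horb2]; simp
  have h_one_one : classInner one one = 1 := by
    rw [hone, classInner_irr_irr]; simp
  obtain ⟨θ, hθ⟩ : ∃ θ : G → ℂ, θ = indFun H (fun _ => (1 : ℂ)) := ⟨_, rfl⟩
  have h1H : IsCharacter H (fun _ => (1 : ℂ)) := isCharacter_one
  have hθc : IsCharacter G θ := by rw [hθ]; exact isCharacter_indFun H h1H
  have hθcl : IsClassFunction G θ := isClassFunction_of_isCharacter hθc
  have h_θ_π : classInner θ π = (t : ℂ) := by
    rw [hθ, frobenius_reciprocity H _ π hπcl, classInner_conj_symm]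
    have h3 : classInner (fun h : H => π h) (fun _ => (1 : ℂ)) = (t : ℂ) := by
      rw [ht, ← classInner_perm_one (G := H) Ω, hπ]
      rfl
    rw [h3]; simp
  have h_θ_one : classInner θ one = 1 := by
    rw [hθ, frobenius_reciprocity H _ one (by rw [hone']; intro g h; rfl), hone']
    show classInner (Helper25.trivChar H : H → ℂ) (Helper25.trivChar H : H → ℂ) = 1
    rw [classInner_irr_irr]; simp
  have hθ1 : θ 1 = (n : ℂ) := by
    rw [hθ, indFun_one_apply, hidx]; simp
  have hπ1 : π 1 = (n : ℂ) := by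
    rw [hπ, hn]
    show ((Nat.card (MulAction.fixedBy Ω (1 : G)) : ℕ) : ℂ) = _
    have h5 : MulAction.fixedBy Ω (1 : G) = Set.univ := by
      ext x; simp [MulAction.mem_fixedBy]
    rw [h5, Nat.card_coe_set_eq, Set.ncard_univ]
  -- χ = π - 1 is irreducible
  have hχcl : IsClassFunction G (π - one) := by
    intro g h
    simp only [Pi.sub_apply]
    rw [hπcl g h, hone']
  have hχc : IsCharacter G (π - one) := by
    apply isCharacter_of_nat hχcl
    intro ψ
    rw [classInner_sub_left]
    obtain ⟨m, hm⟩ := classInner_char_nat hπc (isCharacter_of_isIrrCharacter ψ.2)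
    by_cases hψ : Helper25.trivChar G = ψ
    · refine ⟨0, ?_⟩
      rw [← hψ, ← hone, h_π_one, h_one_one]; simp
    · refine ⟨m, ?_⟩
      rw [hm, hone, classInner_irr_irr, if_neg hψ]; simp
  have hχχ : classInner (π - one) (π - one) = 1 := by
    rw [classInner_sub_left, classInner_sub_right, classInner_sub_right, h_π_π, h_π_one,
      h_one_π, h_one_one]
    norm_num
  have hχirr : IsIrrCharacter G (π - one) := isIrrCharacter_of_classInner_self hχc hχχ
  obtain ⟨χ', hχ'⟩ : ∃ χ' : IrrCharacter G, (χ' : G → ℂ) = π - one := ⟨⟨_, hχirr⟩, rfl⟩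
  have hne : Helper25.trivChar G ≠ χ' := by
    intro h
    have h1 : classInner (π - one) one = 1 := by
      rw [← hχ', ← h, ← hone, h_one_one]
    rw [classInner_sub_left, h_π_one, h_one_one] at h1
    norm_num at h1
  -- decomposition of θ
  have hdec := congrFun (classFun_eq_sum_classInner hθcl) 1
  rw [Finset.sum_apply] at hdec
  choose m hm using fun ψ : IrrCharacter G =>
    classInner_char_nat hθc (isCharacter_of_isIrrCharacter ψ.2)
  have hdec' : n = ∑ ψ : IrrCharacter G, m ψ * charDegree (ψ : G → ℂ) := by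
    have h3 : (n : ℂ) = ∑ ψ : IrrCharacter G, (m ψ : ℂ) * (charDegree (ψ : G → ℂ) : ℂ) := by
      rw [← hθ1, hdec]
      apply Finset.sum_congr rfl
      intro ψ _
      rw [Pi.smul_apply, smul_eq_mul, hm ψ, Helper25.irr_one_eq_degree]
    exact_mod_cast h3
  have hsub : ∑ ψ ∈ ({Helper25.trivChar G, χ'} : Finset (IrrCharacter G)),
      m ψ * charDegree (ψ : G → ℂ) ≤ ∑ ψ : IrrCharacter G, m ψ * charDegree (ψ : G → ℂ) :=
    Finset.sum_le_sum_of_subset (Finset.subset_univ _)
  rw [Finset.sum_pair hne, ← hdec'] at hsub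
  have hm1 : m (Helper25.trivChar G) = 1 := by
    have := hm (Helper25.trivChar G)
    rw [← hone, h_θ_one] at this
    exact_mod_cast this.symm
  have hd1 : charDegree (Helper25.trivChar G : G → ℂ) = 1 := by
    have := Helper25.irr_one_eq_degree (Helper25.trivChar G)
    rw [Helper25.trivChar_apply] at this
    exact_mod_cast this.symm
  have hm2 : m χ' + 1 = t := by
    have := hm χ'
    rw [hχ', classInner_sub_right, h_θ_π, h_θ_one] at this
    have h4 : ((m χ' + 1 : ℕ) : ℂ) = (t : ℂ) := by
      push_cast; rw [← this]; ring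
    exact_mod_cast h4
  have hd2 : charDegree (χ' : G → ℂ) + 1 = n := by
    have h5 : (χ' : G → ℂ) 1 = (n : ℂ) - 1 := by rw [hχ', Pi.sub_apply, hπ1, hone']
    have := Helper25.irr_one_eq_degree χ'
    rw [h5] at this
    have h4 : ((charDegree (χ' : G → ℂ) + 1 : ℕ) : ℂ) = (n : ℂ) := by
      push_cast; rw [← this]; ring
    exact_mod_cast h4
  rw [hm1, hd1] at hsub
  -- arithmetic
  obtain ⟨a, ha⟩ : ∃ a : ℕ, a = m χ' := ⟨_, rfl⟩
  obtain ⟨b, hb⟩ : ∃ b : ℕ, b = charDegree (χ' : G → ℂ) := ⟨_, rfl⟩
  rw [← ha] at hm2 hsub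
  rw [← hb] at hd2 hsub
  have hb1 : 1 ≤ b := by omega
  have ha1 : 1 ≤ a := by omega
  have hab : a * b ≤ 1 * b := by omega
  have : a ≤ 1 := Nat.le_of_mul_le_mul_right hab (by omega)
  omega

/-- Let G be a finite group acting faithfully and 2-transitively on a finite set Ω of size n, and let H be a subgroup of index n in G which is not transitive on Ω and fixes no point of Ω. Then H has exactly two orbits on Ω. -/
theorem result {G Ω : Type*} [Group G] [Finite G] [MulAction G Ω] [FaithfulSMul G Ω] [Finite Ω] (h2 : MulAction.IsMultiplyPretransitive G Ω 2) (H : Subgroup G) (hidx : H.index = Nat.card Ω) (hnt : ¬ MulAction.IsPretransitive H Ω) (hfix : ∀ a : Ω, ∃ h : H, h • a ≠ a) : Nat.card (MulAction.orbitRel.Quotient H Ω) = 2 := by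
  haveI : Fintype G := Fintype.ofFinite G
  exact aux h2 H hidx hnt

end Cfsg.Agent.S3704
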