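import Mathlib
import Cfsg.Statements.S3707

set_option autoImplicit false
open Cfsg
open scoped Pointwise

namespace Cfsg.Agent.S3707

variable {G Ω : Type*} [Group G] [MulAction G Ω]

/-- Jordan set: the pointwise stabiliser of the complement is transitive on it. -/
def Jor (G : Type*) {Ω : Type*} [Group G] [MulAction G Ω] (Δ : Set Ω) : Prop :=
  ∀ x ∈ Δ, ∀ y ∈ Δ, ∃ g : G, (∀ z ∉ Δ, g • z = z) ∧ g • x = y

theorem jor_union {Δ1 Δ2 : Set Ω} (h1 : Jor G Δ1) (h2 : Jor G Δ2) (hne : (Δ1 ∩ Δ2).Nonempty) :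
    Jor G (Δ1 ∪ Δ2) := by
  obtain ⟨w, hw1, hw2⟩ := hne
  have key : ∀ x ∈ Δ1 ∪ Δ2, ∃ g : G, (∀ z ∉ Δ1 ∪ Δ2, g • z = z) ∧ g • x = w := by
    intro x hx
    rcases hx with hx | hx
    · obtain ⟨g, hg, hgx⟩ := h1 x hx w hw1
      exact ⟨g, fun z hz => hg z (fun h => hz (Or.inl h)), hgx⟩
    · obtain ⟨g, hg, hgx⟩ := h2 x hx w hw2
      exact ⟨g, fun z hz => hg z (fun h => hz (Or.inr h)), hgx⟩
  intro x hx y hy
  obtain ⟨g, hg, hgx⟩ := key x hx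
  obtain ⟨h, hh, hhy⟩ := key y hy
  refine ⟨h⁻¹ * g, fun z hz => ?_, ?_⟩
  · rw [mul_smul, hg z hz, inv_smul_eq_iff, hh z hz]
  · rw [mul_smul, hgx, inv_smul_eq_iff, hhy]

theorem jor_smul {Δ : Set Ω} (h : Jor G Δ) (g : G) : Jor G (g • Δ) := by
  intro x hx y hy
  obtain ⟨x', hx', rfl⟩ := hx
  obtain ⟨y', hy', rfl⟩ := hy
  obtain ⟨j, hj, hjx⟩ := h x' hx' y' hy'
  refine ⟨g * j * g⁻¹, fun z hz => ?_, ?_⟩
  · have hz' : g⁻¹ • z ∉ Δ := fun hc => hz ⟨g⁻¹ • z, hc, smul_inv_smul g z⟩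
    rw [mul_smul, mul_smul, hj _ hz', smul_inv_smul]
  · rw [mul_smul, mul_smul, inv_smul_smul, hjx]

theorem two_trans [Finite Ω] (hprim : MulAction.IsPreprimitive G Ω) {Δ : Set Ω} (hJ : Jor G Δ)
    (h1 : 1 < Δ.ncard) (h2 : Δ.ncard < Nat.card Ω) : MulAction.IsMultiplyPretransitive G Ω 2 := by
  have hc := Set.ncard_add_ncard_compl Δ
  have hs : Δᶜ.ncard = (Δᶜ.ncard - 1) + 1 := by omega
  refine hprim.is_two_pretransitive hs (by omega) ?_
  refine ⟨fun x y => ?_⟩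
  have hx : (x : Ω) ∈ Δ := by
    have := x.2
    rw [SubMulAction.mem_ofFixingSubgroup_iff] at this
    simpa using this
  have hy : (y : Ω) ∈ Δ := by
    have := y.2
    rw [SubMulAction.mem_ofFixingSubgroup_iff] at this
    simpa using this
  obtain ⟨g, hg, hgx⟩ := hJ x hx y hy
  refine ⟨⟨g, ?_⟩, ?_⟩
  · rw [mem_fixingSubgroup_iff]
    intro z hz
    exact hg z hz
  · apply Subtype.ext
    exact hgx

theorem three_trans_of (h2t : MulAction.IsMultiplyPretransitive G Ω 2) {Δ : Set Ω} (hJ : Jor G Δ)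
    {α β : Ω} (hαβ : α ≠ β) (hΔ : Δᶜ = {α, β}) : MulAction.IsMultiplyPretransitive G Ω 3 := by
  rw [MulAction.is_two_pretransitive_iff] at h2t
  have key : ∀ e : Fin 3 ↪ Ω, ∃ g : G, g • e 0 = α ∧ g • e 1 = β ∧ g • e 2 ∈ Δ := by
    intro e
    have h01 : e 0 ≠ e 1 := e.injective.ne (by decide)
    obtain ⟨g, hg0, hg1⟩ := h2t h01 hαβ
    refine ⟨g, hg0, hg1, ?_⟩
    by_contra hc
    have hmem : g • e 2 ∈ Δᶜ := hc
    rw [hΔ] at hmem
    rcases hmem with h | h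
    · rw [← hg0] at h
      exact (e.injective.ne (by decide : (2 : Fin 3) ≠ 0)) (smul_left_cancel g h)
    · rw [Set.mem_singleton_iff, ← hg1] at h
      exact (e.injective.ne (by decide : (2 : Fin 3) ≠ 1)) (smul_left_cancel g h)
  rw [MulAction.isMultiplyPretransitive_iff]
  intro e e'
  obtain ⟨g, hg0, hg1, hg2⟩ := key e
  obtain ⟨g', hg0', hg1', hg2'⟩ := key e'
  obtain ⟨j, hj, hjx⟩ := hJ _ hg2 _ hg2'
  have hαm : α ∈ Δᶜ := by rw [hΔ]; simp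
  have hβm : β ∈ Δᶜ := by rw [hΔ]; simp
  have hjα : j • α = α := hj α hαm
  have hjβ : j • β = β := hj β hβm
  refine ⟨g'⁻¹ * j * g, ?_⟩
  ext i
  rw [Function.Embedding.smul_apply]
  fin_cases i
  · show (g'⁻¹ * j * g) • e 0 = e' 0
    rw [mul_smul, mul_smul, hg0, hjα, inv_smul_eq_iff, hg0']
  · show (g'⁻¹ * j * g) • e 1 = e' 1
    rw [mul_smul, mul_smul, hg1, hjβ, inv_smul_eq_iff, hg1']
  · show (g'⁻¹ * j * g) • e 2 = e' 2
    rw [mul_smul, mul_smul, hjx, inv_smul_smul]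

theorem mem_smul_compl {g : G} {Δ : Set Ω} {u : Ω} : u ∈ g • Δᶜ ↔ u ∉ g • Δ := by
  rw [Set.smul_set_compl]; rfl

theorem grow [Finite Ω]
    (h2t : ∀ {a b c d : Ω}, a ≠ b → c ≠ d → ∃ g : G, g • a = c ∧ g • b = d)
    {Δ0 : Set Ω} (hJ0 : Jor G Δ0) (h01 : 1 < Δ0.ncard) (h02 : 2 * Δ0.ncard ≤ Nat.card Ω)
    {Δ : Set Ω} (h1 : 1 < Δ.ncard) (h3 : Δ.ncard + 3 ≤ Nat.card Ω) :
    ∃ g : G, (g • Δ ∩ Δ).Nonempty ∧ g • Δ ≠ Δ ∧ (g • Δ ∪ Δ).ncard + 2 ≤ Nat.card Ω := by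
  by_contra H
  push Not at H
  have hcard : ∀ g : G, (g • Δ ∪ Δ).ncard + (g • Δ ∩ Δ).ncard = 2 * Δ.ncard := by
    intro g
    rw [Set.ncard_union_add_ncard_inter, Set.ncard_smul_set]; ring
  have hbad2 : 2 * Δ.ncard ≤ Nat.card Ω → ∀ (g : G) (u v w : Ω), u ≠ v → u ∈ g • Δ → u ∈ Δ →
      v ∈ g • Δ → v ∈ Δ → w ∈ g • Δ → w ∉ Δ → False := by
    intro hle g u v w huv hu1 hu2 hv1 hv2 hw1 hw2
    have hne : g • Δ ≠ Δ := fun h => hw2 (h ▸ hw1)
    have hnonempty : (g • Δ ∩ Δ).Nonempty := ⟨u, hu1, hu2⟩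
    have h2 : 2 ≤ (g • Δ ∩ Δ).ncard := by
      have hsub : ({u, v} : Set Ω) ⊆ g • Δ ∩ Δ := by
        intro z hz
        rcases hz with rfl | rfl
        · exact ⟨hu1, hu2⟩
        · exact ⟨hv1, hv2⟩
      calc 2 = ({u, v} : Set Ω).ncard := (Set.ncard_pair huv).symm
        _ ≤ _ := Set.ncard_le_ncard hsub (Set.toFinite _)
    have h4 := H g hnonempty hne
    have h5 := hcard g
    omega
  obtain ⟨a, ha, a', ha', haa'⟩ := (Set.one_lt_ncard (Set.toFinite Δ)).mp h1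
  have hcompl := Set.ncard_add_ncard_compl Δ
  obtain ⟨b, hb⟩ : ∃ b, b ∉ Δ := by
    by_contra hc
    push Not at hc
    have : Δ = Set.univ := Set.eq_univ_of_forall hc
    rw [this, Set.ncard_univ] at h3
    omega
  rcases lt_trichotomy (2 * Δ.ncard) (Nat.card Ω) with hlt | heq | hgt
  · -- case 1
    obtain ⟨g, hga, hgb⟩ := h2t haa' (fun h => hb (h ▸ ha) : a ≠ b)
    have hne : g • Δ ≠ Δ := fun h => hb (h ▸ ⟨a', ha', hgb⟩)
    have hnonempty : (g • Δ ∩ Δ).Nonempty := ⟨a, ⟨a, ha, hga⟩, ha⟩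
    have h5 : 0 < (g • Δ ∩ Δ).ncard := (Set.ncard_pos (Set.toFinite _)).mpr hnonempty
    have h6 := H g hnonempty hne
    have h7 := hcard g
    omega
  · -- case 2
    obtain ⟨g1, hg1a, hg1b⟩ := h2t haa' (fun h => hb (h ▸ ha) : a ≠ b)
    have hb1 : b ∈ g1 • Δ := ⟨a', ha', hg1b⟩
    have ha1 : a ∈ g1 • Δ := ⟨a, ha, hg1a⟩
    have hne1 : g1 • Δ ≠ Δ := fun h => hb (h ▸ hb1)
    have hnonempty1 : (g1 • Δ ∩ Δ).Nonempty := ⟨a, ha1, ha⟩
    have hH1 := H g1 hnonempty1 hne1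
    have hc1 := hcard g1
    have hcu := Set.ncard_add_ncard_compl (g1 • Δ ∪ Δ)
    have h5 : 0 < (g1 • Δ ∩ Δ).ncard := (Set.ncard_pos (Set.toFinite _)).mpr hnonempty1
    have hcompl1 : (g1 • Δ ∪ Δ)ᶜ.ncard = 1 := by omega
    obtain ⟨c, hc⟩ := Set.ncard_eq_one.mp hcompl1
    have hcmem : c ∈ (g1 • Δ ∪ Δ)ᶜ := by rw [hc]; rfl
    have hc1' : c ∉ g1 • Δ := fun h => hcmem (Or.inl h)
    have hcΔ : c ∉ Δ := fun h => hcmem (Or.inr h)
    obtain ⟨g2, hg2a, hg2c⟩ := h2t haa' (fun h => hcΔ (h ▸ ha) : a ≠ c)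
    have ha2 : a ∈ g2 • Δ := ⟨a, ha, hg2a⟩
    have hc2 : c ∈ g2 • Δ := ⟨a', ha', hg2c⟩
    obtain ⟨x, hx2, hxn⟩ : ∃ x, x ∈ g2 • Δ ∧ x ∉ ({a, c} : Set Ω) := by
      apply Set.exists_mem_notMem_of_ncard_lt_ncard _ (Set.toFinite _)
      rw [Set.ncard_smul_set]
      have : ({a, c} : Set Ω).ncard ≤ 2 := Set.ncard_insert_le a {c} |>.trans (by simp)
      omega
    have hxa : x ≠ a := fun h => hxn (by rw [h]; simp)
    have hxc : x ≠ c := fun h => hxn (by rw [h]; simp)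
    have hx' : x ∈ g1 • Δ ∪ Δ := by
      by_contra hcon
      have hxm : x ∈ (g1 • Δ ∪ Δ)ᶜ := hcon
      rw [hc] at hxm
      exact hxc hxm
    rcases hx' with hx1 | hxΔ
    · have e1 : a = g1⁻¹ • a := by rw [eq_inv_smul_iff, hg1a]
      refine hbad2 heq.le (g1⁻¹ * g2) a (g1⁻¹ • x) (g1⁻¹ • c) ?_ ?_ ha ?_ ?_ ?_ ?_
      · intro h
        apply hxa
        rw [eq_inv_smul_iff, hg1a] at h
        exact h.symm
      · rw [mul_smul, e1]; exact Set.smul_mem_smul_set ha2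
      · rw [mul_smul]; exact Set.smul_mem_smul_set hx2
      · exact Set.mem_smul_set_iff_inv_smul_mem.mp hx1
      · rw [mul_smul]; exact Set.smul_mem_smul_set hc2
      · exact fun h => hc1' (Set.mem_smul_set_iff_inv_smul_mem.mpr h)
    · exact hbad2 heq.le g2 a x c (Ne.symm hxa) ha2 ha hx2 hxΔ hc2 hcΔ
  · -- case 3
    have hk3 : 3 ≤ Δᶜ.ncard := by omega
    have hinter : ∀ g : G, g • Δ ≠ Δ → ((g • Δ ∪ Δ)ᶜ).ncard ≤ 1 := by
      intro g hne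
      have h5 := hcard g
      have hcu := Set.ncard_add_ncard_compl (g • Δ ∪ Δ)
      have hnonempty : (g • Δ ∩ Δ).Nonempty := by
        rw [← Set.ncard_pos (Set.toFinite _)]
        omega
      have h6 := H g hnonempty hne
      omega
    have F1 : ∀ g h : G, ∀ u v : Ω, u ≠ v → u ∈ g • Δᶜ → v ∈ g • Δᶜ → u ∈ h • Δᶜ → v ∈ h • Δᶜ →
        g • Δᶜ = h • Δᶜ := by
      intro g h u v huv hug hvg huh hvh
      have ht : (h⁻¹ * g) • Δ = Δ := by
        by_contra hne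
        have h1le := hinter _ hne
        have hmem : ∀ w, w ∈ g • Δᶜ → w ∈ h • Δᶜ → h⁻¹ • w ∈ ((h⁻¹ * g) • Δ ∪ Δ)ᶜ := by
          intro w hwg hwh
          rw [mem_smul_compl] at hwg hwh
          rintro (hc | hc)
          · rw [mul_smul] at hc
            exact hwg ((Set.smul_mem_smul_set_iff).mp hc)
          · exact hwh (Set.mem_smul_set_iff_inv_smul_mem.mpr hc)
        have hsub : ({h⁻¹ • u, h⁻¹ • v} : Set Ω) ⊆ ((h⁻¹ * g) • Δ ∪ Δ)ᶜ := by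
          intro z hz
          rcases hz with rfl | rfl
          · exact hmem u hug huh
          · exact hmem v hvg hvh
        have hne' : h⁻¹ • u ≠ h⁻¹ • v := fun hc => huv (smul_left_cancel _ hc)
        have : 2 ≤ (((h⁻¹ * g) • Δ ∪ Δ)ᶜ).ncard := by
          calc 2 = ({h⁻¹ • u, h⁻¹ • v} : Set Ω).ncard := (Set.ncard_pair hne').symm
            _ ≤ _ := Set.ncard_le_ncard hsub (Set.toFinite _)
        omega
      have ht2 : g • Δ = h • Δ := by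
        rw [mul_smul] at ht
        rw [inv_smul_eq_iff] at ht
        exact ht
      rw [Set.smul_set_compl, Set.smul_set_compl, ht2]
    obtain ⟨p0, hp0, q0, hq0, hpq0⟩ := (Set.one_lt_ncard (Set.toFinite Δᶜ)).mp (by omega)
    have F2 : ∀ u v : Ω, u ≠ v → ∃ g : G, u ∈ g • Δᶜ ∧ v ∈ g • Δᶜ := by
      intro u v huv
      obtain ⟨g, hgu, hgv⟩ := h2t hpq0 huv
      exact ⟨g, ⟨p0, hp0, hgu⟩, ⟨q0, hq0, hgv⟩⟩
    have F3 : ∀ g : G, (g • Δᶜ).ncard = Δᶜ.ncard := fun g => Set.ncard_smul_set g _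
    have hcompl0 := Set.ncard_add_ncard_compl Δ0
    have F4 : ∀ (g : G) (p q x : Ω), p ≠ q → p ∈ Δ0ᶜ → q ∈ Δ0ᶜ → p ∈ g • Δᶜ → q ∈ g • Δᶜ →
        x ∈ Δ0 → x ∈ g • Δᶜ → Δ0 ⊆ g • Δᶜ := by
      intro g p q x hpq hp hq hpg hqg hx hxg y hy
      obtain ⟨j, hj, hjx⟩ := hJ0 x hx y hy
      have hjp : j • p = p := hj p hp
      have hjq : j • q = q := hj q hq
      have hpj : p ∈ (j * g) • Δᶜ := by
        rw [mul_smul, ← hjp]; exact Set.smul_mem_smul_set hpg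
      have hqj : q ∈ (j * g) • Δᶜ := by
        rw [mul_smul, ← hjq]; exact Set.smul_mem_smul_set hqg
      have heq := F1 (j * g) g p q hpq hpj hqj hpg hqg
      rw [← heq, mul_smul, ← hjx]
      exact Set.smul_mem_smul_set hxg
    obtain ⟨x, hx, x', hx', hxx'⟩ := (Set.one_lt_ncard (Set.toFinite Δ0)).mp h01
    have hA : ∀ g : G, x ∈ g • Δᶜ → ∀ p q : Ω, p ∈ Δ0ᶜ → q ∈ Δ0ᶜ → p ∈ g • Δᶜ → q ∈ g • Δᶜ →
        p = q := by
      intro g hxg p q hp hq hpg hqg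
      by_contra hpq
      have hsub := F4 g p q x hpq hp hq hpg hqg hx hxg
      obtain ⟨p', hp', hp'g⟩ : ∃ p', p' ∈ Δ0ᶜ ∧ p' ∉ g • Δᶜ := by
        apply Set.exists_mem_notMem_of_ncard_lt_ncard _ (Set.toFinite _)
        rw [F3]
        omega
      have hxp' : x ≠ p' := fun h => hp' (h ▸ hx)
      obtain ⟨h, hxh, hp'h⟩ := F2 x p' hxp'
      obtain ⟨y, hyh, hyn⟩ : ∃ y, y ∈ h • Δᶜ ∧ y ∉ ({x, p'} : Set Ω) := by
        apply Set.exists_mem_notMem_of_ncard_lt_ncard _ (Set.toFinite _)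
        rw [F3]
        have : ({x, p'} : Set Ω).ncard ≤ 2 := Set.ncard_insert_le x {p'} |>.trans (by simp)
        omega
      have hyx : y ≠ x := fun h => hyn (by rw [h]; simp)
      have hyp' : y ≠ p' := fun h => hyn (by rw [h]; simp)
      by_cases hy0 : y ∈ Δ0
      · have heq := F1 g h x y (Ne.symm hyx) hxg (hsub hy0) hxh hyh
        exact hp'g (heq ▸ hp'h)
      · have hsub2 := F4 h p' y x (Ne.symm hyp') hp' hy0 hp'h hyh hx hxh
        have heq := F1 g h x x' hxx' hxg (hsub hx') hxh (hsub2 hx')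
        exact hp'g (heq ▸ hp'h)
    have hex : ∀ p ∈ Δ0ᶜ, ∃ y, y ∈ Δ0 ∧ y ≠ x ∧ ∃ g : G, x ∈ g • Δᶜ ∧ p ∈ g • Δᶜ ∧ y ∈ g • Δᶜ := by
      intro p hp
      have hxp : x ≠ p := fun h => hp (h ▸ hx)
      obtain ⟨g, hxg, hpg⟩ := F2 x p hxp
      obtain ⟨y, hyg, hyn⟩ : ∃ y, y ∈ g • Δᶜ ∧ y ∉ ({x, p} : Set Ω) := by
        apply Set.exists_mem_notMem_of_ncard_lt_ncard _ (Set.toFinite _)
        rw [F3]
        have : ({x, p} : Set Ω).ncard ≤ 2 := Set.ncard_insert_le x {p} |>.trans (by simp)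
        omega
      have hyx : y ≠ x := fun h => hyn (by rw [h]; simp)
      have hyp : y ≠ p := fun h => hyn (by rw [h]; simp)
      refine ⟨y, ?_, hyx, g, hxg, hpg, hyg⟩
      by_contra hy0
      exact hyp (hA g hxg y p hy0 hp hyg hpg)
    haveI : Nonempty Ω := ⟨x⟩
    choose! f hf using hex
    have hinj : Set.InjOn f Δ0ᶜ := by
      intro p hp q hq hfpq
      obtain ⟨-, hne, g, hxg, hpg, hyg⟩ := hf p hp
      obtain ⟨-, -, g', hxg', hqg', hyg'⟩ := hf q hq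
      rw [← hfpq] at hyg'
      have heq := F1 g g' x (f p) (Ne.symm hne) hxg hyg hxg' hyg'
      exact hA g hxg p q hp hq hpg (heq ▸ hqg')
    have hmaps : ∀ p ∈ Δ0ᶜ, f p ∈ Δ0 \ {x} := by
      intro p hp
      obtain ⟨h1', h2', -⟩ := hf p hp
      exact ⟨h1', h2'⟩
    have hle := Set.ncard_le_ncard_of_injOn f hmaps hinj (Set.toFinite _)
    rw [Set.ncard_sdiff_singleton_of_mem hx] at hle
    omega

theorem main [Finite Ω] (hprim : MulAction.IsPreprimitive G Ω) (Δ0 : Set Ω) (h1 : 1 < Δ0.ncard)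
    (h2 : 2 * Δ0.ncard ≤ Nat.card Ω) (hJ0 : Jor G Δ0) : MulAction.IsMultiplyPretransitive G Ω 3 := by
  have h2t' : MulAction.IsMultiplyPretransitive G Ω 2 := two_trans hprim hJ0 h1 (by omega)
  have h2t : ∀ {a b c d : Ω}, a ≠ b → c ≠ d → ∃ g : G, g • a = c ∧ g • b = d :=
    fun {a b c d} hab hcd => MulAction.is_two_pretransitive_iff.mp h2t' hab hcd
  have key : ∀ d : ℕ, ∀ Δ : Set Ω, Jor G Δ → 1 < Δ.ncard → Δ.ncard + 2 + d = Nat.card Ω →
      MulAction.IsMultiplyPretransitive G Ω 3 := by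
    intro d
    induction d using Nat.strong_induction_on with
    | _ d ih =>
      intro Δ hJ hΔ1 hΔd
      rcases Nat.eq_zero_or_pos d with hd | hd
      · subst hd
        have hc := Set.ncard_add_ncard_compl Δ
        have h2c : Δᶜ.ncard = 2 := by omega
        obtain ⟨α, β, hαβ, hΔc⟩ := Set.ncard_eq_two.mp h2c
        exact three_trans_of h2t' hJ hαβ hΔc
      · obtain ⟨g, hne, hneq, hle⟩ := grow h2t hJ0 h1 h2 hΔ1 (by omega)
        have hJ' : Jor G (g • Δ ∪ Δ) := jor_union (jor_smul hJ g) hJ hne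
        have hlt : Δ.ncard < (g • Δ ∪ Δ).ncard := by
          apply Set.ncard_lt_ncard _ (Set.toFinite _)
          refine ⟨Set.subset_union_right, fun hsub => hneq ?_⟩
          apply Set.eq_of_subset_of_ncard_le (fun z hz => hsub (Or.inl hz)) _ (Set.toFinite _)
          rw [Set.ncard_smul_set]
        exact ih (Nat.card Ω - 2 - (g • Δ ∪ Δ).ncard) (by omega) _ hJ' (by omega) (by omega)
  exact key (Nat.card Ω - 2 - Δ0.ncard) Δ0 hJ0 h1 (by omega)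

theorem result {G Ω : Type*} [Group G] [Finite G] [MulAction G Ω] [FaithfulSMul G Ω] [Finite Ω] (hprim : MulAction.IsPreprimitive G Ω) (Γ : Set Ω) (h1 : 1 < Γ.ncard) (h2 : 2 * Γ.ncard ≤ Nat.card Ω) (htr : ∀ x ∈ Γ, ∀ y ∈ Γ, ∃ g : G, (∀ z ∉ Γ, g • z = z) ∧ g • x = y) : MulAction.IsMultiplyPretransitive G Ω 3 :=
  main hprim Γ h1 h2 htr

end Cfsg.Agent.S3707
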