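import Cfsg.Statements.S3740
import Cfsg.Agent.Helper9.SL2k

set_option autoImplicit false
open Cfsg

namespace Cfsg.Agent.S3740

open Cfsg.Agent.Helper9

theorem result (F : Type) [Field F] [Fintype F] {p : ℕ} [Fact p.Prime] [CharP F p] (hp : p ≠ 2) (a : Matrix.SpecialLinearGroup (Fin 2) F) (ha : IsPGroup p ↥(Subgroup.zpowers a)) (R : Subgroup (Matrix.SpecialLinearGroup (Fin 2) F)) (hR : (Nat.card R).Coprime p) (haR : a ∈ Subgroup.normalizer (R : Set (Matrix.SpecialLinearGroup (Fin 2) F))) (hnt : ⁅R, Subgroup.zpowers a⁆ ≠ ⊥) : p = 3 ∧ Nonempty (↥R ≃* QuaternionGroup 2) ∧ Nonempty (↥(R ⊔ Subgroup.zpowers a) ≃* Matrix.SpecialLinearGroup (Fin 2) (ZMod 3)) := by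
  classical
  have hpp := (Fact.out : p.Prime)
  have hncomm : ¬ (R ≤ Subgroup.centralizer (Subgroup.zpowers a : Set _)) :=
    fun h => hnt (Subgroup.commutator_eq_bot_iff_le_centralizer.mpr h)
  obtain ⟨k, hk⟩ := ha ⟨a, Subgroup.mem_zpowers a⟩
  have hak : a ^ (p ^ k) = 1 := congrArg Subtype.val hk
  have htr := sl2_unip_trace_h9 a k hak
  obtain ⟨x0, hx0R, hx0⟩ : ∃ x ∈ R, a * x * a⁻¹ ≠ x := by
    by_contra hcon
    push Not at hcon
    apply hncomm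
    intro x hx
    rw [Subgroup.mem_centralizer_iff]
    intro y hy
    obtain ⟨m, rfl⟩ := Subgroup.mem_zpowers_iff.mp hy
    have hc : Commute a x := mul_inv_eq_iff_eq_mul.mp (hcon x hx)
    exact (hc.zpow_left m).eq
  have ha1 : a ≠ 1 := by
    rintro rfl
    apply hx0
    simp
  obtain ⟨P, u, hu, haP⟩ := sl2_unip_conj_h9 a htr ha1
  let φ : Matrix.SpecialLinearGroup (Fin 2) F ≃* Matrix.SpecialLinearGroup (Fin 2) F :=
    MulAut.conj P⁻¹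
  have hφa : φ a = sl2E_h9 u := by
    show P⁻¹ * a * P⁻¹⁻¹ = sl2E_h9 u
    rw [haP]; group
  have hφinj : Function.Injective φ.toMonoidHom := φ.injective
  have hR' : (Nat.card (R.map φ.toMonoidHom)).Coprime p := by
    rw [Subgroup.card_map_of_injective hφinj]; exact hR
  have h1' : ∀ x ∈ R.map φ.toMonoidHom, sl2E_h9 u * x * (sl2E_h9 u)⁻¹ ∈ R.map φ.toMonoidHom := by
    rintro x ⟨y, hy, rfl⟩
    refine ⟨a * y * a⁻¹, (Subgroup.mem_normalizer_iff.mp haR y).mp hy, ?_⟩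
    show φ (a * y * a⁻¹) = sl2E_h9 u * φ y * (sl2E_h9 u)⁻¹
    rw [map_mul, map_mul, map_inv, hφa]
  have h2' : ∀ x ∈ R.map φ.toMonoidHom, (sl2E_h9 u)⁻¹ * x * sl2E_h9 u ∈ R.map φ.toMonoidHom := by
    rintro x ⟨y, hy, rfl⟩
    refine ⟨a⁻¹ * y * a, (Subgroup.mem_normalizer_iff''.mp haR y).mp hy, ?_⟩
    show φ (a⁻¹ * y * a) = (sl2E_h9 u)⁻¹ * φ y * sl2E_h9 u
    rw [map_mul, map_mul, map_inv, hφa]
  have hnt' : ∃ x ∈ R.map φ.toMonoidHom, sl2E_h9 u * x * (sl2E_h9 u)⁻¹ ≠ x := by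
    refine ⟨φ x0, ⟨x0, hx0R, rfl⟩, fun h => hx0 (φ.injective ?_)⟩
    rw [map_mul, map_mul, map_inv, hφa]; exact h
  obtain ⟨hp3, ⟨e1⟩, ⟨e2⟩⟩ :=
    sl2_pprime_final_h9 hp u hu (sl2E_h9 u) rfl (R.map φ.toMonoidHom) hR' h1' h2' hnt'
  refine ⟨hp3, ⟨(R.equivMapOfInjective φ.toMonoidHom hφinj).trans e1⟩, ?_⟩
  have hmap : (R ⊔ Subgroup.zpowers a).map φ.toMonoidHom
      = R.map φ.toMonoidHom ⊔ Subgroup.zpowers (sl2E_h9 u) := by
    rw [Subgroup.map_sup, MonoidHom.map_zpowers]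
    congr 2
  exact ⟨((R ⊔ Subgroup.zpowers a).equivMapOfInjective φ.toMonoidHom hφinj).trans
    ((MulEquiv.subgroupCongr hmap).trans e2)⟩

end Cfsg.Agent.S3740
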