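import Mathlib
import Cfsg.Statements.S3741

set_option autoImplicit false
open Cfsg
open scoped commutatorElement

namespace Cfsg.Agent.S3741

theorem central_of_card_prime {G : Type*} [Group G] [Finite G] {p : ℕ} [Fact p.Prime]
    (hG : IsPGroup p G) (Z : Subgroup G) (hZ : Nat.card Z = p) (g : G)
    (hg : ∀ z ∈ Z, g * z * g⁻¹ ∈ Z) : ∀ z ∈ Z, g * z * g⁻¹ = z := by
  classical
  haveI : Fintype Z := Fintype.ofFinite Z
  let f : Function.End Z := fun z => ⟨g * z * g⁻¹, hg z z.2⟩
  obtain ⟨n, hn⟩ := hG g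
  have hfpow : ∀ k : ℕ, ∀ z : Z, (((f ^ k) z : Z) : G) = g ^ k * z * (g ^ k)⁻¹ := by
    intro k
    induction k with
    | zero =>
      intro z
      show ((z : Z) : G) = g ^ 0 * z * (g ^ 0)⁻¹
      simp
    | succ k ih =>
      intro z
      rw [pow_succ]
      show (((f ^ k) (f z) : Z) : G) = _
      rw [ih]
      show g ^ k * (g * z * g⁻¹) * (g ^ k)⁻¹ = _
      rw [pow_succ]; group
  have hf : f ^ p ^ n = 1 := by
    funext z
    apply Subtype.ext
    show (((f ^ p ^ n) z : Z) : G) = (z : G)
    rw [hfpow, hn]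
    simp
  have hmod := Equiv.Perm.card_fixedPoints_modEq (p := p) (n := n) hf
  rw [← Nat.card_eq_fintype_card, ← Nat.card_eq_fintype_card, hZ] at hmod
  have h1 : (1 : Z) ∈ Function.fixedPoints f := by
    show f 1 = 1
    apply Subtype.ext
    show g * ((1 : Z) : G) * g⁻¹ = ((1 : Z) : G)
    simp
  rw [Nat.card_coe_set_eq] at hmod
  have hpos : 0 < (Function.fixedPoints f).ncard :=
    (Set.ncard_pos (Set.toFinite _)).mpr ⟨1, h1⟩
  have hdvd : p ∣ (Function.fixedPoints f).ncard := by
    have h2 : (Function.fixedPoints f).ncard ≡ 0 [MOD p] := by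
      refine hmod.symm.trans ?_
      simp [Nat.ModEq]
    exact Nat.modEq_zero_iff_dvd.mp h2
  have hle : p ≤ (Function.fixedPoints f).ncard := Nat.le_of_dvd hpos hdvd
  have huniv : Function.fixedPoints f = Set.univ := by
    apply Set.eq_of_subset_of_ncard_le (Set.subset_univ _) _ (Set.toFinite _)
    rw [Set.ncard_univ, hZ]; exact hle
  intro z hz
  have : (⟨z, hz⟩ : Z) ∈ Function.fixedPoints f := by rw [huniv]; trivial
  exact congrArg Subtype.val this

theorem comm_mul {G : Type*} [Group G] (a b b' : G) :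
    ⁅a, b * b'⁆ = ⁅a, b⁆ * (b * ⁅a, b'⁆ * b⁻¹) := by
  simp only [commutatorElement_def]; group

/-- Count of elements of `B` commuting with `a`. -/
theorem count_comm {G : Type*} [Group G] [Finite G] {p : ℕ} [Fact p.Prime]
    (B Z : Subgroup G) (hZp : Nat.card Z = p) (a : G)
    (haZ : ∀ b ∈ B, ⁅a, b⁆ ∈ Z) (hBc : ∀ b ∈ B, ∀ z ∈ Z, b * z * b⁻¹ = z)
    [Fintype B] [DecidablePred fun b : B => a * (b : G) = b * a]
    [Decidable (a ∈ Subgroup.centralizer (B : Set G))] :
    p * (Finset.univ.filter (fun b : B => a * (b : G) = b * a)).card =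
      if a ∈ Subgroup.centralizer (B : Set G) then p * Nat.card B else Nat.card B := by
  classical
  let φ : B →* Z :=
    { toFun := fun b => ⟨⁅a, (b : G)⁆, haZ b b.2⟩
      map_one' := by apply Subtype.ext; simp
      map_mul' := by
        intro b b'
        apply Subtype.ext
        show ⁅a, (b : G) * b'⁆ = ⁅a, (b : G)⁆ * ⁅a, (b' : G)⁆
        rw [comm_mul, hBc b b.2 _ (haZ b' b'.2)] }
  have hker : ∀ b : B, b ∈ φ.ker ↔ a * (b : G) = b * a := by
    intro b
    rw [MonoidHom.mem_ker]
    constructor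
    · intro h
      have : ⁅a, (b : G)⁆ = 1 := congrArg Subtype.val h
      exact commutatorElement_eq_one_iff_mul_comm.mp this
    · intro h
      apply Subtype.ext
      exact commutatorElement_eq_one_iff_mul_comm.mpr h
  have hcount : (Finset.univ.filter (fun b : B => a * (b : G) = b * a)).card = Nat.card φ.ker := by
    rw [Nat.card_eq_fintype_card, Fintype.card_subtype]
    congr 1
    ext b
    simp only [Finset.mem_filter, Finset.mem_univ, true_and]
    exact (hker b).symm
  rw [hcount]
  split_ifs with hc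
  · have : φ.ker = ⊤ := by
      rw [eq_top_iff]
      intro b _
      rw [hker]
      exact (Subgroup.mem_centralizer_iff.mp hc b b.2).symm
    rw [this, Subgroup.card_top]
  · have hne : φ.range ≠ ⊥ := by
      intro h
      apply hc
      rw [Subgroup.mem_centralizer_iff]
      intro b hb
      have : φ ⟨b, hb⟩ ∈ φ.range := ⟨_, rfl⟩
      rw [h, Subgroup.mem_bot] at this
      have h2 : (⟨b, hb⟩ : B) ∈ φ.ker := this
      exact ((hker _).mp h2).symm
    haveI : Fact (Nat.card Z).Prime := ⟨by rw [hZp]; exact Fact.out⟩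
    have htop : φ.range = ⊤ := (Subgroup.eq_bot_or_eq_top_of_prime_card φ.range).resolve_left hne
    have hidx : φ.ker.index = p := by
      rw [Subgroup.index_ker, htop, Subgroup.card_top, hZp]
    have := Subgroup.card_mul_index φ.ker
    rw [hidx] at this
    rw [← this, mul_comm]

theorem result {G : Type*} [Group G] [Finite G] {p : ℕ} [Fact p.Prime] (hG : IsPGroup p G) (A B : Subgroup G) (hAB : ⁅A, B⁆ ≤ A ⊓ B) (hcard : Nat.card ↥⁅A, B⁆ ≤ p) : (A ⊓ Subgroup.centralizer (B : Set G)).relIndex A = (B ⊓ Subgroup.centralizer (A : Set G)).relIndex B := by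
  classical
  have hp : p.Prime := Fact.out
  by_cases hZ1 : ⁅A, B⁆ = ⊥
  · have h1 : A ≤ Subgroup.centralizer (B : Set G) :=
      Subgroup.commutator_eq_bot_iff_le_centralizer.mp hZ1
    have h2 : B ≤ Subgroup.centralizer (A : Set G) := by
      rw [Subgroup.commutator_comm] at hZ1
      exact Subgroup.commutator_eq_bot_iff_le_centralizer.mp hZ1
    rw [Subgroup.relIndex_eq_one.mpr (le_inf le_rfl h1),
      Subgroup.relIndex_eq_one.mpr (le_inf le_rfl h2)]
  · obtain ⟨Z, hZdef⟩ : ∃ Z : Subgroup G, Z = ⁅A, B⁆ := ⟨_, rfl⟩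
    rw [← hZdef] at hAB hcard hZ1
    have hZp : Nat.card Z = p := by
      obtain ⟨k, hk⟩ := (hG.to_subgroup Z).exists_card_eq
      have hne : Nat.card Z ≠ 1 := fun h => hZ1 (Subgroup.card_eq_one.mp h)
      rcases k with _ | _ | k
      · rw [pow_zero] at hk; exact absurd hk hne
      · simpa using hk
      · exfalso
        have : p ^ 2 ≤ p ^ (k + 1 + 1) := Nat.pow_le_pow_right hp.pos (by omega)
        have h2 : p < p ^ 2 := by
          have := hp.two_le
          nlinarith
        omega
    have hAZ : ∀ a ∈ A, ∀ z ∈ Z, a * z * a⁻¹ ∈ Z := by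
      intro a ha z hz
      have hzB : z ∈ B := (hAB hz).2
      have h3 : ⁅a, z⁆ ∈ Z := by rw [hZdef]; exact Subgroup.commutator_mem_commutator ha hzB
      have e : a * z * a⁻¹ = ⁅a, z⁆ * z := by simp [commutatorElement_def]
      rw [e]; exact Z.mul_mem h3 hz
    have hBZ : ∀ b ∈ B, ∀ z ∈ Z, b * z * b⁻¹ ∈ Z := by
      intro b hb z hz
      have hzA : z ∈ A := (hAB hz).1
      have h3 : ⁅b, z⁆ ∈ Z := by
        rw [hZdef, Subgroup.commutator_comm]; exact Subgroup.commutator_mem_commutator hb hzA
      have e : b * z * b⁻¹ = ⁅b, z⁆ * z := by simp [commutatorElement_def]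
      rw [e]; exact Z.mul_mem h3 hz
    have hAc : ∀ a ∈ A, ∀ z ∈ Z, a * z * a⁻¹ = z :=
      fun a ha => central_of_card_prime hG Z hZp a (hAZ a ha)
    have hBc : ∀ b ∈ B, ∀ z ∈ Z, b * z * b⁻¹ = z :=
      fun b hb => central_of_card_prime hG Z hZp b (hBZ b hb)
    have hAB' : ∀ a ∈ A, ∀ b ∈ B, ⁅a, b⁆ ∈ Z := by
      intro a ha b hb; rw [hZdef]; exact Subgroup.commutator_mem_commutator ha hb
    have hBA' : ∀ b ∈ B, ∀ a ∈ A, ⁅b, a⁆ ∈ Z := by
      intro b hb a ha
      rw [hZdef, Subgroup.commutator_comm]; exact Subgroup.commutator_mem_commutator hb ha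
    haveI : Fintype A := Fintype.ofFinite A
    haveI : Fintype B := Fintype.ofFinite B
    -- double counting
    have hdc := Finset.sum_card_bipartiteAbove_eq_sum_card_bipartiteBelow
      (s := (Finset.univ : Finset A)) (t := (Finset.univ : Finset B))
      (r := fun (a : A) (b : B) => (a : G) * (b : G) = b * a)
    have hL : ∀ a : A, p * ((Finset.univ : Finset B).bipartiteAbove
        (fun (a : A) (b : B) => (a : G) * (b : G) = b * a) a).card =
        if (a : G) ∈ Subgroup.centralizer (B : Set G) then p * Nat.card B else Nat.card B := by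
      intro a
      exact count_comm B Z hZp (a : G) (hAB' a a.2) hBc
    have hR : ∀ b : B, p * ((Finset.univ : Finset A).bipartiteBelow
        (fun (a : A) (b : B) => (a : G) * (b : G) = b * a) b).card =
        if (b : G) ∈ Subgroup.centralizer (A : Set G) then p * Nat.card A else Nat.card A := by
      intro b
      have := count_comm A Z hZp (b : G) (hBA' b b.2) hAc
      rw [← this]
      congr 2
      ext a
      simp only [Finset.bipartiteBelow, Finset.mem_filter, Finset.mem_univ, true_and]
      exact eq_comm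
    have hsumL : p * ∑ a : A, ((Finset.univ : Finset B).bipartiteAbove
        (fun (a : A) (b : B) => (a : G) * (b : G) = b * a) a).card =
        ∑ a : A, if (a : G) ∈ Subgroup.centralizer (B : Set G) then p * Nat.card B else Nat.card B := by
      rw [Finset.mul_sum]; exact Finset.sum_congr rfl (fun a _ => hL a)
    have hsumR : p * ∑ b : B, ((Finset.univ : Finset A).bipartiteBelow
        (fun (a : A) (b : B) => (a : G) * (b : G) = b * a) b).card =
        ∑ b : B, if (b : G) ∈ Subgroup.centralizer (A : Set G) then p * Nat.card A else Nat.card A := by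
      rw [Finset.mul_sum]; exact Finset.sum_congr rfl (fun b _ => hR b)
    rw [hdc] at hsumL
    rw [hsumR] at hsumL
    -- evaluate sums
    have key : ∀ (K L : Subgroup G) [Fintype K] (c : ℕ),
        (∑ a : K, if (a : G) ∈ Subgroup.centralizer (L : Set G) then p * c else c) =
        Nat.card ((Subgroup.centralizer (L : Set G)).subgroupOf K) * (p * c) +
        (Nat.card K - Nat.card ((Subgroup.centralizer (L : Set G)).subgroupOf K)) * c := by
      intro K L _ c
      rw [Finset.sum_ite, Finset.sum_const, Finset.sum_const, smul_eq_mul, smul_eq_mul]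
      have e1 : (Finset.univ.filter (fun a : K => (a : G) ∈ Subgroup.centralizer (L : Set G))).card
          = Nat.card ((Subgroup.centralizer (L : Set G)).subgroupOf K) := by
        rw [Nat.card_eq_fintype_card, Fintype.card_subtype]
        congr 1
      have e2 := Finset.card_filter_add_card_filter_not (s := (Finset.univ : Finset K))
        (fun a : K => (a : G) ∈ Subgroup.centralizer (L : Set G))
      rw [Finset.card_univ, ← Nat.card_eq_fintype_card] at e2
      rw [e1] at e2 ⊢
      congr 2
      omega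
    rw [key A B, key B A] at hsumL
    -- relIndex
    have rA : (A ⊓ Subgroup.centralizer (B : Set G)).relIndex A =
        ((Subgroup.centralizer (B : Set G)).subgroupOf A).index := by
      rw [Subgroup.relIndex, Subgroup.inf_subgroupOf_left]
    have rB : (B ⊓ Subgroup.centralizer (A : Set G)).relIndex B =
        ((Subgroup.centralizer (A : Set G)).subgroupOf B).index := by
      rw [Subgroup.relIndex, Subgroup.inf_subgroupOf_left]
    rw [rA, rB]
    have cA := Subgroup.card_mul_index ((Subgroup.centralizer (B : Set G)).subgroupOf A)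
    have cB := Subgroup.card_mul_index ((Subgroup.centralizer (A : Set G)).subgroupOf B)
    obtain ⟨a0, ha0⟩ : ∃ x, x = Nat.card ((Subgroup.centralizer (B : Set G)).subgroupOf A) := ⟨_, rfl⟩
    obtain ⟨b0, hb0⟩ : ∃ x, x = Nat.card ((Subgroup.centralizer (A : Set G)).subgroupOf B) := ⟨_, rfl⟩
    obtain ⟨iA, hiA⟩ : ∃ x, x = ((Subgroup.centralizer (B : Set G)).subgroupOf A).index := ⟨_, rfl⟩
    obtain ⟨iB, hiB⟩ : ∃ x, x = ((Subgroup.centralizer (A : Set G)).subgroupOf B).index := ⟨_, rfl⟩
    obtain ⟨nA, hnA⟩ : ∃ x, x = Nat.card A := ⟨_, rfl⟩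
    obtain ⟨nB, hnB⟩ : ∃ x, x = Nat.card B := ⟨_, rfl⟩
    rw [← ha0, ← hb0, ← hnA, ← hnB] at hsumL
    rw [← ha0, ← hiA, ← hnA] at cA
    rw [← hb0, ← hiB, ← hnB] at cB
    rw [← hiA, ← hiB]
    have ha0pos : 0 < a0 := by rw [ha0]; exact Nat.card_pos
    have hb0pos : 0 < b0 := by rw [hb0]; exact Nat.card_pos
    have ha0le : a0 ≤ nA := by rw [← cA]; exact Nat.le_mul_of_pos_right _ (by
      rcases Nat.eq_zero_or_pos iA with h | h
      · rw [h, mul_zero] at cA
        have : 0 < nA := by rw [hnA]; exact Nat.card_pos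
        omega
      · exact h)
    have hb0le : b0 ≤ nB := by rw [← cB]; exact Nat.le_mul_of_pos_right _ (by
      rcases Nat.eq_zero_or_pos iB with h | h
      · rw [h, mul_zero] at cB
        have : 0 < nB := by rw [hnB]; exact Nat.card_pos
        omega
      · exact h)
    obtain ⟨dA, hdA⟩ := Nat.exists_eq_add_of_le ha0le
    obtain ⟨dB, hdB⟩ := Nat.exists_eq_add_of_le hb0le
    obtain ⟨q, hq⟩ : ∃ q, p = q + 1 := ⟨p - 1, by have := hp.pos; omega⟩
    have hqpos : 0 < q := by have := hp.two_le; omega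
    have e1 : nA - a0 = dA := by omega
    have e2 : nB - b0 = dB := by omega
    rw [e1, e2] at hsumL
    -- hsumL : b0 * (p * nA) + dB * nA = a0 * (p * nB) + dA * nB
    have h5 : q * (a0 * nB) = q * (b0 * nA) := by
      subst hq
      have h6 : a0 * nB + dA * nB = nA * nB := by rw [hdA]; ring
      have h7 : b0 * nA + dB * nA = nA * nB := by rw [hdB]; ring
      have hx : b0 * ((q + 1) * nA) + dB * nA = q * (b0 * nA) + (b0 * nA + dB * nA) := by ring
      have hy : a0 * ((q + 1) * nB) + dA * nB = q * (a0 * nB) + (a0 * nB + dA * nB) := by ring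
      rw [hx, hy, h6, h7] at hsumL
      linarith
    have h8 : a0 * nB = b0 * nA := Nat.eq_of_mul_eq_mul_left hqpos h5
    rw [← cA, ← cB] at h8
    have h9 : (a0 * b0) * iB = (a0 * b0) * iA := by
      rw [mul_assoc, h8]; ring
    exact (Nat.eq_of_mul_eq_mul_left (Nat.mul_pos ha0pos hb0pos) h9).symm

end Cfsg.Agent.S3741
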