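import Cfsg.Statements.S3742
import Mathlib
import Cfsg.Agent.S1012

set_option autoImplicit false
open Cfsg

namespace Cfsg.Agent.S3742

open QuaternionGroup

/-- the candidate endomorphism with `a 1 ↦ u`, `xa 0 ↦ v` -/
def mkEnd (u v : QuaternionGroup 2) : QuaternionGroup 2 → QuaternionGroup 2
  | a i => u ^ i.val
  | xa i => v * u ^ i.val

/-- the defining relations -/
def Good (u v : QuaternionGroup 2) : Prop :=
  u ^ 4 = 1 ∧ u ^ 2 ≠ 1 ∧ v ^ 2 = u ^ 2 ∧ v * u * v⁻¹ = u⁻¹

instance (u v : QuaternionGroup 2) : Decidable (Good u v) := by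
  unfold Good; infer_instance

theorem good_gen : Good (a 1 : QuaternionGroup 2) (xa 0) := by decide

theorem mkEnd_mul : ∀ u v : QuaternionGroup 2, Good u v →
    ∀ g h : QuaternionGroup 2, mkEnd u v (g * h) = mkEnd u v g * mkEnd u v h := by decide

theorem mkEnd_inj : ∀ u v : QuaternionGroup 2, Good u v →
    ∀ g h : QuaternionGroup 2, mkEnd u v g = mkEnd u v h → g = h := by decide

theorem mkEnd_gen : ∀ u v : QuaternionGroup 2, mkEnd u v (a 1) = u ∧ mkEnd u v (xa 0) = v := by
  decide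

theorem a_eq_pow : ∀ i : ZMod (2 * 2), (a i : QuaternionGroup 2) = (a 1) ^ i.val := by decide

theorem xa_eq_mul : ∀ i : ZMod (2 * 2), (xa i : QuaternionGroup 2) = xa 0 * a i := by decide

theorem card_good : Fintype.card {p : QuaternionGroup 2 × QuaternionGroup 2 // Good p.1 p.2} = 24 := by
  decide

theorem order_aux : ∀ u v : QuaternionGroup 2, Good u v →
    ((mkEnd u v)^[6] (a 1) = a 1 ∧ (mkEnd u v)^[6] (xa 0) = xa 0) →
    (((mkEnd u v)^[2] (a 1) = a 1 ∧ (mkEnd u v)^[2] (xa 0) = xa 0) ∨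
      ((mkEnd u v)^[3] (a 1) = a 1 ∧ (mkEnd u v)^[3] (xa 0) = xa 0)) := by decide

theorem good_of (φ : MulAut (QuaternionGroup 2)) : Good (φ (a 1)) (φ (xa 0)) := by
  obtain ⟨h1, h2, h3, h4⟩ := good_gen
  refine ⟨?_, ?_, ?_, ?_⟩
  · rw [← map_pow, h1, map_one]
  · rw [← map_pow]
    intro h
    apply h2
    apply φ.injective
    rw [h, map_one]
  · rw [← map_pow, ← map_pow, h3]
  · rw [← map_inv, ← map_inv, ← map_mul, ← map_mul, h4]

theorem agree (φ : MulAut (QuaternionGroup 2)) (g : QuaternionGroup 2) :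
    φ g = mkEnd (φ (a 1)) (φ (xa 0)) g := by
  cases g with
  | a i =>
    show φ (a i) = φ (a 1) ^ i.val
    rw [← map_pow, ← a_eq_pow]
  | xa i =>
    show φ (xa i) = φ (xa 0) * φ (a 1) ^ i.val
    rw [← map_pow, ← a_eq_pow, ← map_mul, ← xa_eq_mul]

theorem pow_apply_iter (φ : MulAut (QuaternionGroup 2)) (n : ℕ) (g : QuaternionGroup 2) :
    (φ ^ n) g = (⇑φ)^[n] g := by
  induction n with
  | zero => rfl
  | succ n ih =>
    rw [pow_succ', MulAut.mul_apply, ih, Function.iterate_succ_apply']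

theorem eq_of_gen (φ ψ : MulAut (QuaternionGroup 2)) (h1 : φ (a 1) = ψ (a 1))
    (h2 : φ (xa 0) = ψ (xa 0)) : φ = ψ := by
  apply MulEquiv.ext
  intro g
  rw [agree φ g, agree ψ g, h1, h2]

/-- The automorphism group of the quaternion group of order 8 is isomorphic to the symmetric group of degree 4. -/
theorem result : Nonempty (MulAut (QuaternionGroup 2) ≃* Equiv.Perm (Fin 4)) := by
  have : Finite (MulAut (QuaternionGroup 2)) :=
    Finite.of_injective (fun φ : MulAut (QuaternionGroup 2) => (φ : QuaternionGroup 2 → QuaternionGroup 2))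
      (fun φ ψ h => MulEquiv.ext (fun g => congrFun h g))
  apply Cfsg.Agent.S1012.result
  · -- cardinality
    let f : MulAut (QuaternionGroup 2) → {p : QuaternionGroup 2 × QuaternionGroup 2 // Good p.1 p.2} :=
      fun φ => ⟨(φ (a 1), φ (xa 0)), good_of φ⟩
    have hinj : Function.Injective f := by
      intro φ ψ h
      have h' := congrArg Subtype.val h
      exact eq_of_gen φ ψ (congrArg Prod.fst h') (congrArg Prod.snd h')
    have hsurj : Function.Surjective f := by
      rintro ⟨⟨u, v⟩, hg⟩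
      have hb : Function.Bijective (MonoidHom.mk' (mkEnd u v) (mkEnd_mul u v hg)) := by
        have hi : Function.Injective (MonoidHom.mk' (mkEnd u v) (mkEnd_mul u v hg)) :=
          fun g h e => mkEnd_inj u v hg g h e
        exact ⟨hi, Finite.injective_iff_surjective.mp hi⟩
      refine ⟨MulEquiv.ofBijective _ hb, ?_⟩
      apply Subtype.ext
      show (mkEnd u v (a 1), mkEnd u v (xa 0)) = (u, v)
      rw [(mkEnd_gen u v).1, (mkEnd_gen u v).2]
    rw [Nat.card_congr (Equiv.ofBijective f ⟨hinj, hsurj⟩), Nat.card_eq_fintype_card, card_good]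
  · intro φ hφ
    have h6 : φ ^ 6 = 1 := by rw [← hφ]; exact pow_orderOf_eq_one φ
    obtain ⟨u, hu⟩ : ∃ u, u = φ (a 1) := ⟨_, rfl⟩
    obtain ⟨v, hv⟩ : ∃ v, v = φ (xa 0) := ⟨_, rfl⟩
    have hgood : Good u v := by rw [hu, hv]; exact good_of φ
    have hfun : (⇑φ : QuaternionGroup 2 → QuaternionGroup 2) = mkEnd u v := by
      rw [hu, hv]; exact funext (agree φ)
    have hit : ∀ (n : ℕ) (g : QuaternionGroup 2), (φ ^ n) g = (mkEnd u v)^[n] g := by
      intro n g
      rw [pow_apply_iter, hfun]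
    have key := order_aux u v hgood
      ⟨by rw [← hit, h6]; rfl, by rw [← hit, h6]; rfl⟩
    rcases key with ⟨k1, k2⟩ | ⟨k1, k2⟩
    · rw [← hit] at k1 k2
      have : φ ^ 2 = 1 := eq_of_gen _ _ k1 k2
      have hd := orderOf_dvd_of_pow_eq_one this
      rw [hφ] at hd
      omega
    · rw [← hit] at k1 k2
      have : φ ^ 3 = 1 := eq_of_gen _ _ k1 k2
      have hd := orderOf_dvd_of_pow_eq_one this
      rw [hφ] at hd
      omega

end Cfsg.Agent.S3742
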