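import Cfsg.Statements.S3746
import Mathlib

set_option autoImplicit false
set_option linter.style.haveILetI false
open Cfsg

namespace Cfsg.Agent.S3746

/-- Let Z ≤ Z(G) be a central subgroup of a finite group G and E a subgroup of G containing Z whose image E/Z is a component of G/Z (subnormal and quasisimple). Then the derived subgroup [E, E] is a component of G. -/
theorem result {G : Type*} [Group G] [Finite G] (Z : Subgroup G) (hZ : Z ≤ Subgroup.center G) [Z.Normal] (E : Subgroup G) (hZE : Z ≤ E) (hE : Cfsg.IsComponent (E.map (QuotientGroup.mk' Z))) : Cfsg.IsComponent ⁅E, E⁆ := by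
  classical
  obtain ⟨hsub, hperf, hsimp⟩ := hE
  obtain ⟨π, hπ⟩ : ∃ π : G →* G ⧸ Z, π = QuotientGroup.mk' Z := ⟨_, rfl⟩
  have hπ1 : ∀ x : G, π x = 1 ↔ x ∈ Z := fun x => by rw [hπ]; exact QuotientGroup.eq_one_iff x
  rw [← hπ] at hsub hperf hsimp
  have hcen : ∀ z ∈ Z, ∀ g : G, g * z = z * g := fun z hz g =>
    Subgroup.mem_center_iff.mp (hZ hz) g
  have hEcomap : (E.map π).comap π = E := by
    rw [Subgroup.comap_map_eq, hπ, QuotientGroup.ker_mk']; exact sup_eq_left.mpr hZE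
  have hEsub : E.IsSubnormal := hEcomap ▸ hsub.comap π
  have hle : ⁅E, E⁆ ≤ E := Subgroup.commutator_le.mpr (fun a ha b hb => by
    rw [commutatorElement_def]
    exact E.mul_mem (E.mul_mem (E.mul_mem ha hb) (E.inv_mem ha)) (E.inv_mem hb))
  have hnorm : (⁅E, E⁆.subgroupOf E).Normal := by
    have h1 : ⁅E, E⁆.subgroupOf E = commutator ↥E := by
      rw [← Subgroup.map_subtype_commutator E]
      exact Subgroup.comap_map_eq_self_of_injective E.subtype_injective _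
    rw [h1]; infer_instance
  have hsubn : (⁅E, E⁆).IsSubnormal := Subgroup.IsSubnormal.trans hle hnorm.isSubnormal hEsub
  -- image of E' is all of the image of E
  have hmapE' : (⁅E, E⁆).map π = E.map π := by
    rw [Subgroup.map_commutator]
    exact Subgroup.isPerfect_iff.mp hperf
  have hdec : ∀ a ∈ E, ∃ a' ∈ ⁅E, E⁆, ∃ z ∈ Z, a = a' * z := by
    intro a ha
    have h1 : π a ∈ (⁅E, E⁆).map π := by rw [hmapE']; exact ⟨a, ha, rfl⟩
    obtain ⟨a', ha', h2⟩ := h1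
    refine ⟨a', ha', a'⁻¹ * a, ?_, by group⟩
    rw [← hπ1, map_mul, map_inv, h2, inv_mul_cancel]
  have hperf' : ⁅⁅E, E⁆, ⁅E, E⁆⁆ = ⁅E, E⁆ := by
    apply le_antisymm (Subgroup.commutator_mono hle hle)
    refine Subgroup.commutator_le.mpr (fun a ha b hb => ?_)
    obtain ⟨a', ha', z, hz, rfl⟩ := hdec a ha
    obtain ⟨b', hb', w, hw, rfl⟩ := hdec b hb
    have e : a' * z * (b' * w) * (a' * z)⁻¹ * (b' * w)⁻¹ = a' * b' * a'⁻¹ * b'⁻¹ := by
      have h1 := hcen z hz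
      have h2 := hcen w hw
      calc a' * z * (b' * w) * (a' * z)⁻¹ * (b' * w)⁻¹
          = a' * (z * b') * (w * z⁻¹) * a'⁻¹ * (w⁻¹ * b'⁻¹) := by group
        _ = a' * (b' * z) * (w * z⁻¹) * a'⁻¹ * (w⁻¹ * b'⁻¹) := by rw [h1 b']
        _ = a' * b' * ((z * w * z⁻¹) * a'⁻¹) * (w⁻¹ * b'⁻¹) := by group
        _ = a' * b' * (a'⁻¹ * (z * w * z⁻¹)) * (w⁻¹ * b'⁻¹) := by
            rw [← hcen (z * w * z⁻¹) (Z.mul_mem (Z.mul_mem hz hw) (Z.inv_mem hz)) a'⁻¹]
        _ = a' * b' * a'⁻¹ * (z * (w * z⁻¹ * w⁻¹)) * b'⁻¹ := by group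
        _ = a' * b' * a'⁻¹ * (w * z⁻¹ * w⁻¹ * z) * b'⁻¹ := by
            rw [← hcen z hz (w * z⁻¹ * w⁻¹)]
        _ = a' * b' * a'⁻¹ * (w * (z⁻¹ * w⁻¹) * z) * b'⁻¹ := by group
        _ = a' * b' * a'⁻¹ * (w * (w⁻¹ * z⁻¹) * z) * b'⁻¹ := by
            rw [hcen z⁻¹ (Z.inv_mem hz) w⁻¹]
        _ = a' * b' * a'⁻¹ * b'⁻¹ := by group
    rw [commutatorElement_def, e, ← commutatorElement_def]
    exact Subgroup.commutator_mem_commutator ha' hb'
  refine ⟨hsubn, Subgroup.isPerfect_iff.mpr hperf', ?_⟩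
  -- the simple quotient
  let f : ↥⁅E, E⁆ →* ↥(E.map π) := (π.comp (⁅E, E⁆).subtype).codRestrict (E.map π)
    (fun x => ⟨x, hle x.2, rfl⟩)
  let g : ↥⁅E, E⁆ →* ↥(E.map π) ⧸ Subgroup.center ↥(E.map π) := (QuotientGroup.mk' _).comp f
  have hg : Function.Surjective g := by
    intro q
    obtain ⟨⟨e, he⟩, rfl⟩ := QuotientGroup.mk_surjective q
    have h1 : e ∈ (⁅E, E⁆).map π := by rw [hmapE']; exact he
    obtain ⟨y, hy, rfl⟩ := h1
    exact ⟨⟨y, hy⟩, rfl⟩
  have hker : g.ker = Subgroup.center ↥⁅E, E⁆ := by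
    ext x
    rw [MonoidHom.mem_ker]
    have h0 : g x = 1 ↔ f x ∈ Subgroup.center ↥(E.map π) := QuotientGroup.eq_one_iff (f x)
    rw [h0, Subgroup.mem_center_iff, Subgroup.mem_center_iff]
    constructor
    · intro h
      -- x centralizes E' = [E,E]
      have hxa : ∀ a ∈ E, (x : G) * a * (x : G)⁻¹ * a⁻¹ ∈ Z := by
        intro a ha
        have h1 := h ⟨π a, a, ha, rfl⟩
        have h2 : π a * π (x : G) = π (x : G) * π a := congrArg Subtype.val h1
        rw [← hπ1, map_mul, map_mul, map_mul, map_inv, map_inv, ← h2]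
        group
      have hcent : ⁅E, E⁆ ≤ Subgroup.centralizer ({(x : G)} : Set G) := by
        refine Subgroup.commutator_le.mpr (fun a ha b hb => ?_)
        rw [Subgroup.mem_centralizer_iff]
        intro y hy
        rw [Set.mem_singleton_iff] at hy
        subst hy
        obtain ⟨c, hc⟩ : ∃ c, c = (x : G) * a * (x : G)⁻¹ * a⁻¹ := ⟨_, rfl⟩
        obtain ⟨d, hd⟩ : ∃ d, d = (x : G) * b * (x : G)⁻¹ * b⁻¹ := ⟨_, rfl⟩
        have hcZ : c ∈ Z := hc ▸ hxa a ha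
        have hdZ : d ∈ Z := hd ▸ hxa b hb
        have ha' : (x : G) * a = c * a * (x : G) := by rw [hc]; group
        have hb' : (x : G) * b = d * b * (x : G) := by rw [hd]; group
        have ha'' : (x : G) * a⁻¹ = a⁻¹ * c⁻¹ * (x : G) := by
          have : (x : G) * a⁻¹ = (c * a)⁻¹ * (c * a * (x : G)) * a⁻¹ := by group
          rw [this, ← ha']; group
        have hb'' : (x : G) * b⁻¹ = b⁻¹ * d⁻¹ * (x : G) := by
          have : (x : G) * b⁻¹ = (d * b)⁻¹ * (d * b * (x : G)) * b⁻¹ := by group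
          rw [this, ← hb']; group
        rw [commutatorElement_def]
        calc (x : G) * (a * b * a⁻¹ * b⁻¹) = ((x : G) * a) * b * a⁻¹ * b⁻¹ := by group
          _ = c * a * (((x : G) * b) * a⁻¹ * b⁻¹) := by rw [ha']; group
          _ = c * a * (d * b * (((x : G) * a⁻¹) * b⁻¹)) := by rw [hb']; group
          _ = c * a * (d * b * (a⁻¹ * c⁻¹ * ((x : G) * b⁻¹))) := by rw [ha'']; group
          _ = c * a * (d * b * (a⁻¹ * c⁻¹ * (b⁻¹ * d⁻¹ * (x : G)))) := by rw [hb'']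
          _ = c * (a * d) * b * a⁻¹ * (c⁻¹ * b⁻¹) * d⁻¹ * (x : G) := by group
          _ = c * (d * a) * b * a⁻¹ * (b⁻¹ * c⁻¹) * d⁻¹ * (x : G) := by
              rw [hcen d hdZ a, hcen c⁻¹ (Z.inv_mem hcZ) b⁻¹]
          _ = (c * d) * (a * b * a⁻¹ * b⁻¹) * (c⁻¹ * d⁻¹) * (x : G) := by group
          _ = (a * b * a⁻¹ * b⁻¹) * (c * d) * (c⁻¹ * d⁻¹) * (x : G) := by
              rw [← hcen (c * d) (Z.mul_mem hcZ hdZ) (a * b * a⁻¹ * b⁻¹)]
          _ = (a * b * a⁻¹ * b⁻¹) * (c * (d * c⁻¹) * d⁻¹) * (x : G) := by group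
          _ = (a * b * a⁻¹ * b⁻¹) * (c * (c⁻¹ * d) * d⁻¹) * (x : G) := by
              rw [hcen c⁻¹ (Z.inv_mem hcZ) d]
          _ = a * b * a⁻¹ * b⁻¹ * (x : G) := by group
      intro y
      have h3 := Subgroup.mem_centralizer_iff.mp (hcent y.2) (x : G) rfl
      exact Subtype.ext h3.symm
    · intro h y
      obtain ⟨e, he⟩ := y
      have h1 : e ∈ (⁅E, E⁆).map π := by rw [hmapE']; exact he
      obtain ⟨w, hw, rfl⟩ := h1
      have h2 := h ⟨w, hw⟩
      have h3 : w * (x : G) = (x : G) * w := congrArg Subtype.val h2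
      apply Subtype.ext
      show π w * π (x : G) = π (x : G) * π w
      rw [← map_mul, ← map_mul, h3]
  have e1 : ↥⁅E, E⁆ ⧸ Subgroup.center ↥⁅E, E⁆ ≃* ↥(E.map π) ⧸ Subgroup.center ↥(E.map π) :=
    (QuotientGroup.quotientMulEquivOfEq hker.symm).trans
      (QuotientGroup.quotientKerEquivOfSurjective g hg)
  exact (MulEquiv.isSimpleGroup_congr e1).mpr hsimp

end Cfsg.Agent.S3746
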