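import Cfsg.Statements.S3747
import Mathlib
import Cfsg.Agent.Helper10.FStar
import Cfsg.Agent.Helper10.Layer
-- import your own Cfsg.Agent.* helpers here

set_option autoImplicit false
open Cfsg

namespace Cfsg.Agent.S3747

/-- Let G be a finite group. (a) If K is a component of G with trivial centre, then the normal closure of K in G is a minimal normal subgroup of G. (b) If the Fitting subgroup of G is trivial, then the layer E(G) is generated by the minimal normal subgroups of G. -/
theorem result {G : Type*} [Group G] [Finite G] : (∀ K : Subgroup G, Cfsg.IsComponent K → Subgroup.center ↥K = ⊥ → (Subgroup.normalClosure (K : Set G) ≠ ⊥ ∧ ∀ N : Subgroup G, N.Normal → N ≤ Subgroup.normalClosure (K : Set G) → N = ⊥ ∨ N = Subgroup.normalClosure (K : Set G))) ∧ (Cfsg.fittingSubgroup G = ⊥ → sSup {N : Subgroup G | N ≠ ⊥ ∧ N.Normal ∧ ∀ N' : Subgroup G, N'.Normal → N' ≤ N → N' = ⊥ ∨ N' = N} = Cfsg.layer G) := by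
  classical
  have partA : ∀ K : Subgroup G, Cfsg.IsComponent K → Subgroup.center ↥K = ⊥ →
      (Subgroup.normalClosure (K : Set G) ≠ ⊥ ∧ ∀ N : Subgroup G, N.Normal →
        N ≤ Subgroup.normalClosure (K : Set G) → N = ⊥ ∨ N = Subgroup.normalClosure (K : Set G)) := by
    intro K hK hZ
    refine ⟨?_, ?_⟩
    · intro h
      apply Cfsg.Agent.Helper10.comp_ne_bot hK
      rw [eq_bot_iff, ← h]
      exact Subgroup.le_normalClosure
    · intro N hN hNM
      rcases Cfsg.Agent.Helper10.comp_le_or_comm K N hK hN.isSubnormal with h1 | h1
      · right
        exact le_antisymm hNM (Subgroup.normalClosure_le_normal h1)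
      · left
        rw [Cfsg.Agent.Helper10.comm_bot_iff] at h1
        haveI : Fintype G := Fintype.ofFinite G
        let s : Finset (Subgroup G) :=
          Finset.univ.image (fun g : G => K.map (MulAut.conj g).toMonoidHom)
        have hs : ∀ L ∈ s, ∃ g : G, L = K.map (MulAut.conj g).toMonoidHom := by
          intro L hL
          obtain ⟨g, -, rfl⟩ := Finset.mem_image.mp hL
          exact ⟨g, rfl⟩
        have hcen : ∀ L ∈ s, ∀ x ∈ L, (∀ y ∈ L, x * y = y * x) → x = 1 := by
          intro L hL x hx hxy
          obtain ⟨g, rfl⟩ := hs L hL
          obtain ⟨k, hk, rfl⟩ := Subgroup.mem_map.mp hx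
          have hk1 : (⟨k, hk⟩ : ↥K) ∈ Subgroup.center ↥K := by
            rw [Subgroup.mem_center_iff]
            intro y
            have := hxy ((MulAut.conj g).toMonoidHom y) (Subgroup.mem_map_of_mem _ y.2)
            rw [← map_mul, ← map_mul] at this
            have h2 := (MulAut.conj g).injective this
            apply Subtype.ext
            exact h2.symm
          rw [hZ, Subgroup.mem_bot] at hk1
          have : k = 1 := congrArg Subtype.val hk1
          rw [this, map_one]
        have hpair : ∀ L ∈ s, ∀ L' ∈ s, L ≠ L' → ∀ x ∈ L, ∀ y ∈ L', x * y = y * x := by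
          intro L hL L' hL' hne
          obtain ⟨g, rfl⟩ := hs L hL
          obtain ⟨h, rfl⟩ := hs L' hL'
          rcases Cfsg.Agent.Helper10.comp_eq_or_comm (Cfsg.Agent.Helper10.comp_conj hK g)
            (Cfsg.Agent.Helper10.comp_conj hK h) with h2 | h2
          · exact absurd h2 hne
          · exact (Cfsg.Agent.Helper10.comm_bot_iff _ _).mp h2
        have key : ∀ t : Finset (Subgroup G), t ⊆ s →
            ∀ z ∈ sSup (↑t : Set (Subgroup G)), (∀ L ∈ t, ∀ x ∈ L, x * z = z * x) → z = 1 := by
          intro t
          induction t using Finset.induction_on with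
          | empty =>
            intro _ z hz _
            simpa using hz
          | insert a t ha ih =>
            intro hts z hz hzc
            have has : a ∈ s := hts (Finset.mem_insert_self a t)
            have hts' : t ⊆ s := fun L hL => hts (Finset.mem_insert_of_mem hL)
            rw [Finset.coe_insert, sSup_insert] at hz
            have hcomm : ∀ x ∈ a, ∀ y ∈ sSup (↑t : Set (Subgroup G)), x * y = y * x := by
              intro x hx y hy
              have hle : sSup (↑t : Set (Subgroup G)) ≤ Subgroup.centralizer (a : Set G) := by
                apply sSup_le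
                intro L hL y hy
                rw [Subgroup.mem_centralizer_iff]
                intro x hx
                have hLa : a ≠ L := by
                  rintro rfl
                  exact ha hL
                exact hpair a has L (hts' hL) hLa x hx y hy
              exact (Subgroup.mem_centralizer_iff.mp (hle hy)) x hx
            obtain ⟨k, hk, m, hm, rfl⟩ := Cfsg.Agent.Helper10.mem_sup_of_comm hcomm hz
            have hk1 : k = 1 := by
              apply hcen a has k hk
              intro y hy
              have e1 := hzc a (Finset.mem_insert_self a t) y hy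
              have e2 := hcomm y hy m hm
              have e3 : y * k * m = k * y * m := by
                rw [mul_assoc, e1, mul_assoc, ← e2, mul_assoc]
              exact (mul_right_cancel e3).symm
            subst hk1
            rw [one_mul]
            apply ih hts' m hm
            intro L hL x hx
            have := hzc L (Finset.mem_insert_of_mem hL) x hx
            rwa [one_mul] at this
        rw [eq_bot_iff]
        intro z hz
        rw [Subgroup.mem_bot]
        have hnorm : (sSup (↑s : Set (Subgroup G))).Normal := by
          apply Cfsg.Agent.Helper10.sSup_normal_of_conj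
          intro L hL g
          have hL' : L ∈ s := hL
          obtain ⟨h, rfl⟩ := hs L hL'
          have : (K.map (MulAut.conj h).toMonoidHom).map (MulAut.conj g).toMonoidHom
              = K.map (MulAut.conj (g * h)).toMonoidHom := by
            rw [Subgroup.map_map]
            congr 1
            ext x
            simp [mul_assoc]
          rw [this]
          exact Finset.mem_coe.mpr (Finset.mem_image.mpr ⟨g * h, Finset.mem_univ _, rfl⟩)
        have hKle : K ≤ sSup (↑s : Set (Subgroup G)) := by
          apply le_sSup
          apply Finset.mem_coe.mpr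
          apply Finset.mem_image.mpr
          refine ⟨1, Finset.mem_univ _, ?_⟩
          ext x
          simp
        have hMle : Subgroup.normalClosure (K : Set G) ≤ sSup (↑s : Set (Subgroup G)) :=
          Subgroup.normalClosure_le_normal hKle
        apply key s (Finset.Subset.refl s) z (hMle (hNM hz))
        intro L hL x hx
        obtain ⟨g, rfl⟩ := hs L hL
        obtain ⟨k, hk, rfl⟩ := Subgroup.mem_map.mp hx
        have hz' : g⁻¹ * z * g ∈ N := by
          have := hN.conj_mem z hz g⁻¹
          simpa using this
        have e := h1 k hk _ hz'
        show g * k * g⁻¹ * z = z * (g * k * g⁻¹)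
        have e2 : g * (k * (g⁻¹ * z * g)) * g⁻¹ = g * ((g⁻¹ * z * g) * k) * g⁻¹ := by rw [e]
        simp only [mul_assoc] at e2 ⊢
        simpa using e2
  refine ⟨partA, ?_⟩
  intro hF
  have hFs : Cfsg.generalizedFittingSubgroup G = Cfsg.layer G := by
    unfold Cfsg.generalizedFittingSubgroup
    rw [hF, sup_bot_eq]
  apply le_antisymm
  · apply sSup_le
    rintro N ⟨hN1, hN, hmin⟩
    haveI := Cfsg.Agent.Helper10.layer_normal G
    have hinf : (N ⊓ Cfsg.layer G).Normal := Subgroup.normal_inf_normal N (Cfsg.layer G)
    rcases hmin (N ⊓ Cfsg.layer G) hinf inf_le_left with h | h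
    · exfalso
      apply hN1
      have hc : ⁅N, Cfsg.layer G⁆ = ⊥ := by
        rw [eq_bot_iff, ← h]
        exact Subgroup.commutator_le_inf N (Cfsg.layer G)
      rw [Subgroup.commutator_eq_bot_iff_le_centralizer] at hc
      have h2 := Cfsg.Agent.Helper10.centralizer_gfitting_le G
      rw [hFs] at h2
      have h3 : N ≤ N ⊓ Cfsg.layer G := le_inf le_rfl (hc.trans h2)
      rw [h] at h3
      exact eq_bot_iff.mpr h3
    · rw [← h]
      exact inf_le_right
  · unfold Cfsg.layer
    apply sSup_le
    intro K hK
    have hK' : Cfsg.IsComponent K := hK
    have hZ : Subgroup.center ↥K = ⊥ := by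
      have hsub : ((Subgroup.center ↥K).map K.subtype).IsSubnormal := by
        have hle : (Subgroup.center ↥K).map K.subtype ≤ K := by
          rintro x ⟨y, -, rfl⟩
          exact y.2
        have hn : (((Subgroup.center ↥K).map K.subtype).subgroupOf K).Normal := by
          have : ((Subgroup.center ↥K).map K.subtype).subgroupOf K = Subgroup.center ↥K :=
            Subgroup.comap_map_eq_self_of_injective K.subtype_injective _
          rw [this]
          infer_instance
        exact Subgroup.IsSubnormal.trans hle hn.isSubnormal hK'.1
      have hnil : Group.IsNilpotent ↥((Subgroup.center ↥K).map K.subtype) := by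
        apply Cfsg.Agent.Helper10.nilpotent_of_comm
        rintro ⟨a, ha⟩ ⟨b, hb⟩
        obtain ⟨a', ha', rfl⟩ := Subgroup.mem_map.mp ha
        obtain ⟨b', hb', rfl⟩ := Subgroup.mem_map.mp hb
        apply Subtype.ext
        show K.subtype a' * K.subtype b' = K.subtype b' * K.subtype a'
        rw [← map_mul, ← map_mul]
        congr 1
        exact ((Subgroup.mem_center_iff.mp ha') b').symm
      have h1 := Cfsg.Agent.Helper10.subnormal_nilpotent_le_fitting _ hsub hnil
      rw [hF, le_bot_iff] at h1
      exact (Subgroup.map_eq_bot_iff_of_injective _ K.subtype_injective).mp h1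
    obtain ⟨hA1, hA2⟩ := partA K hK' hZ
    refine le_trans Subgroup.le_normalClosure (le_sSup ?_)
    exact ⟨hA1, Subgroup.normalClosure_normal, hA2⟩

end Cfsg.Agent.S3747
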