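import Cfsg.Statements.S3748
import Cfsg.Agent.S0008
import Cfsg.Agent.S3735
import Cfsg.Agent.Helper24.Subnormal
import Mathlib

set_option autoImplicit false
open Cfsg

namespace Cfsg.Agent.S3748

open Cfsg.Agent.S3735 (Inv cm mem_cm)

variable {G : Type*} [Group G]

/-- relative subnormality: `SN K H` when `H` is subnormal in `K`. -/
inductive SN (K : Subgroup G) : Subgroup G → Prop
  | refl : SN K K
  | step (H H' : Subgroup G) : H ≤ H' → SN K H' → Inv H' H → SN K H

theorem SN.le {K H : Subgroup G} (h : SN K H) : H ≤ K := by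
  induction h with
  | refl => exact le_rfl
  | step H H' hle _ _ ih => exact hle.trans ih

theorem sn_of_isSubnormal {H : Subgroup G} (h : H.IsSubnormal) : SN ⊤ H := by
  induction h with
  | top => exact SN.refl
  | step H K h_le _ hN ih =>
    refine SN.step H K h_le ih ?_
    rw [Subgroup.normal_subgroupOf_iff_le_normalizer h_le] at hN
    exact (S3735.le_normalizer_iff K H).mp hN

theorem SN.cases' {K H : Subgroup G} (h : SN K H) :
    H = K ∨ ∃ K1, K1 ≤ K ∧ Inv K K1 ∧ K1 ≠ K ∧ SN K1 H := by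
  induction h with
  | refl => exact Or.inl rfl
  | step H H' hle hsn hinv ih =>
    rcases ih with rfl | ⟨K1, h1, h2, h3, h4⟩
    · by_cases hH : H = H'
      · exact Or.inl hH
      · exact Or.inr ⟨H, hle, hinv, hH, SN.refl⟩
    · exact Or.inr ⟨K1, h1, h2, h3, SN.step H H' hle h4 hinv⟩

/-- `N` is a minimal normal subgroup of `K`. -/
def MinNormIn (K N : Subgroup G) : Prop :=
  N ≤ K ∧ N ≠ ⊥ ∧ Inv K N ∧ ∀ X : Subgroup G, X ≤ N → Inv K X → X = ⊥ ∨ X = N

theorem cm_cm_inv (k : G) (X : Subgroup G) : cm k (cm k⁻¹ X) = X := by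
  ext x
  simp [mem_cm, mul_assoc]

theorem cm_inv_cm (k : G) (X : Subgroup G) : cm k⁻¹ (cm k X) = X := by
  ext x
  simp [mem_cm, mul_assoc]

theorem cm_mono (k : G) {X Y : Subgroup G} (h : X ≤ Y) : cm k X ≤ cm k Y :=
  fun _ hx => h hx

theorem cm_bot (k : G) : cm k (⊥ : Subgroup G) = ⊥ := by
  ext x
  rw [mem_cm, Subgroup.mem_bot, Subgroup.mem_bot]
  constructor
  · intro h
    have : x = k⁻¹ * (k * x * k⁻¹) * k := by group
    rw [this, h]; group
  · intro h; rw [h]; group

theorem inv_cm {K1 X : Subgroup G} {k : G} (hk : ∀ a ∈ K1, k * a * k⁻¹ ∈ K1) (hX : Inv K1 X) :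
    Inv K1 (cm k X) := by
  intro a ha x hx
  rw [mem_cm] at hx ⊢
  have h1 := hX _ (hk a ha) _ hx
  have e : k * (a * x * a⁻¹) * k⁻¹ = (k * a * k⁻¹) * (k * x * k⁻¹) * (k * a * k⁻¹)⁻¹ := by group
  rw [e]; exact h1

theorem minNorm_cm {K K1 N' : Subgroup G} {k : G} (hk : k ∈ K) (hKK1 : Inv K K1)
    (hN' : MinNormIn K1 N') : MinNormIn K1 (cm k N') := by
  obtain ⟨h1, h2, h3, h4⟩ := hN'
  have hk1 : ∀ a ∈ K1, k * a * k⁻¹ ∈ K1 := hKK1 k hk
  have hk2 : ∀ a ∈ K1, k⁻¹ * a * k⁻¹⁻¹ ∈ K1 := hKK1 k⁻¹ (K.inv_mem hk)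
  refine ⟨?_, ?_, inv_cm hk1 h3, ?_⟩
  · intro x hx
    have := hk2 _ (h1 (mem_cm.mp hx))
    simpa [mul_assoc] using this
  · intro hbot
    apply h2
    rw [← cm_inv_cm k N', hbot, cm_bot]
  · intro X hX hXi
    have hX' : cm k⁻¹ X ≤ N' := by
      have := cm_mono k⁻¹ hX
      rwa [cm_inv_cm] at this
    rcases h4 _ hX' (inv_cm hk2 hXi) with h | h
    · left
      rw [← cm_cm_inv k X, h, cm_bot]
    · right
      rw [← cm_cm_inv k X, h]

theorem exists_minNorm [Finite G] {K N : Subgroup G} (hNK : N ≤ K) (hN : N ≠ ⊥) (hi : Inv K N) :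
    ∃ N', N' ≤ N ∧ MinNormIn K N' := by
  obtain ⟨T, hT⟩ : ∃ T : Set (Subgroup G), T = {X | X ≠ ⊥ ∧ X ≤ K ∧ Inv K X} := ⟨_, rfl⟩
  have hNT : N ∈ T := by rw [hT]; exact ⟨hN, hNK, hi⟩
  obtain ⟨N', hN'le, hN'min⟩ := Set.Finite.exists_le_minimal (Set.toFinite T) hNT
  have hN'T := hN'min.1
  rw [hT] at hN'T
  refine ⟨N', hN'le, hN'T.2.1, hN'T.1, hN'T.2.2, fun X hX hXi => ?_⟩
  by_cases hXb : X = ⊥
  · exact Or.inl hXb
  · right
    have hXT : X ∈ T := by rw [hT]; exact ⟨hXb, hX.trans hN'T.2.1, hXi⟩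
    exact le_antisymm hX (hN'min.2 hXT hX)

/-- a minimal normal subgroup normalises every subnormal subgroup. -/
theorem minNorm_normalizes [Finite G] : ∀ n : ℕ, ∀ K : Subgroup G, Nat.card K ≤ n →
    ∀ H, SN K H → ∀ N, MinNormIn K N → Inv N H := by
  intro n
  induction n with
  | zero =>
    intro K hK
    have := Nat.card_pos (α := K)
    omega
  | succ n ih =>
    intro K hK H hH N hNmn
    obtain ⟨hNK, hNbot, hKN, hNmin⟩ := hNmn
    rcases SN.cases' hH with hHK | ⟨K1, hK1, hKK1, hne, hsn⟩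
    · rw [hHK]
      exact fun a ha x hx => K.mul_mem (K.mul_mem (hNK ha) hx) (K.inv_mem (hNK ha))
    · have hcard : Nat.card K1 ≤ n := by
        have : Nat.card K1 < Nat.card K :=
          lt_of_le_of_ne (Subgroup.card_le_of_le hK1)
            (fun h => hne (Subgroup.eq_of_le_of_card_ge hK1 h.ge))
        omega
      have hHK1 : H ≤ K1 := hsn.le
      by_cases hint : N ⊓ K1 = ⊥
      · intro a ha x hx
        have hx1 := hHK1 hx
        have h1 : a * x * a⁻¹ * x⁻¹ ∈ N ⊓ K1 := by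
          constructor
          · have := hKN x (hK1 hx1) a⁻¹ (N.inv_mem ha)
            have h2 := N.mul_mem ha this
            simpa [mul_assoc] using h2
          · have := hKK1 a (hNK ha) x hx1
            exact K1.mul_mem this (K1.inv_mem hx1)
        rw [hint, Subgroup.mem_bot] at h1
        have : a * x * a⁻¹ = x := mul_inv_eq_one.mp h1
        rw [this]; exact hx
      · have hNK1 : N ≤ K1 := by
          have hinv : Inv K (N ⊓ K1) := fun k hk x hx => ⟨hKN k hk x hx.1, hKK1 k hk x hx.2⟩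
          rcases hNmin (N ⊓ K1) inf_le_left hinv with h | h
          · exact absurd h hint
          · rw [← h]; exact inf_le_right
        obtain ⟨S, hS⟩ : ∃ S : Subgroup G, S = sSup {N' | MinNormIn K1 N'} := ⟨_, rfl⟩
        have hSH : S ≤ Subgroup.normalizer (H : Set G) := by
          rw [hS]; apply sSup_le
          intro N' hN'
          exact (S3735.le_normalizer_iff N' H).mpr (ih K1 hcard H hsn N' hN')
        have hKS : Inv K S := by
          intro k hk
          show S ≤ cm k S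
          conv_lhs => rw [hS]
          apply sSup_le
          intro N' hN' x hx
          rw [mem_cm]
          have h1 : cm k⁻¹ N' ≤ S := by
            rw [hS]; exact le_sSup (minNorm_cm (K.inv_mem hk) hKK1 hN')
          apply h1
          rw [mem_cm]
          simpa [mul_assoc] using hx
        have hNS : Inv K (N ⊓ S) := fun k hk x hx => ⟨hKN k hk x hx.1, hKS k hk x hx.2⟩
        rcases hNmin (N ⊓ S) inf_le_left hNS with h | h
        · exfalso
          obtain ⟨N', hN'le, hN'mn⟩ :=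
            exists_minNorm hNK1 hNbot (fun a ha => hKN a (hK1 ha))
          have : N' ≤ N ⊓ S := le_inf hN'le (by rw [hS]; exact le_sSup hN'mn)
          rw [h] at this
          exact hN'mn.2.1 (le_bot_iff.mp this)
        · have hNS' : N ≤ S := by rw [← h]; exact inf_le_right
          exact (S3735.le_normalizer_iff N H).mp (hNS'.trans hSH)

/-- Call a proper subgroup M of G primitive when M = N_G(N) for every non-trivial normal subgroup N of M. If M is a primitive subgroup of the finite group G, then no non-trivial subnormal subgroup of G is contained in M; in particular M ∩ F(G) = 1. -/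
theorem result {G : Type*} [Group G] [Finite G] (M : Subgroup G) (hM : M ≠ ⊤) (hprim : ∀ N : Subgroup G, N ≤ M → M ≤ Subgroup.normalizer (N : Set G) → N ≠ ⊥ → Subgroup.normalizer (N : Set G) = M) : (∀ L : Subgroup G, L.IsSubnormal → L ≤ M → L = ⊥) ∧ M ⊓ Cfsg.fittingSubgroup G = ⊥ := by
  have part1 : ∀ L : Subgroup G, L.IsSubnormal → L ≤ M → L = ⊥ := by
    intro L hL hLM
    by_contra hLne
    have htop : (⊤ : Subgroup G) ≠ ⊥ := by
      intro h; apply hLne; rw [eq_bot_iff, ← h]; exact le_top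
    obtain ⟨N, -, hNmn⟩ := exists_minNorm (K := ⊤) (N := (⊤ : Subgroup G)) le_rfl htop
      (fun a _ x _ => Subgroup.mem_top _)
    have hconj : ∀ m : G, SN ⊤ (cm m L) := fun m =>
      sn_of_isSubnormal (Subgroup.IsSubnormal.comap _ hL)
    obtain ⟨L0, hL0⟩ : ∃ L0 : Subgroup G, L0 = sSup {X | ∃ m ∈ M, X = cm m L} := ⟨_, rfl⟩
    have hL0M : L0 ≤ M := by
      rw [hL0]; apply sSup_le
      rintro X ⟨m, hm, rfl⟩ x hx
      have := hLM (mem_cm.mp hx)
      have h2 := M.mul_mem (M.mul_mem (M.inv_mem hm) this) hm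
      simpa [mul_assoc] using h2
    have hML0 : Inv M L0 := by
      intro m hm
      show L0 ≤ cm m L0
      conv_lhs => rw [hL0]
      apply sSup_le
      rintro X ⟨m', hm', rfl⟩ x hx
      rw [mem_cm]
      have h1 : cm (m' * m⁻¹) L ≤ L0 := by
        rw [hL0]; exact le_sSup ⟨m' * m⁻¹, M.mul_mem hm' (M.inv_mem hm), rfl⟩
      apply h1
      rw [mem_cm]
      have : m' * m⁻¹ * (m * x * m⁻¹) * (m' * m⁻¹)⁻¹ = m' * x * m'⁻¹ := by group
      rw [this]; exact mem_cm.mp hx
    have hL0ne : L0 ≠ ⊥ := by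
      intro h; apply hLne; rw [eq_bot_iff, ← h, hL0]
      apply le_sSup
      exact ⟨1, M.one_mem, by ext x; simp [mem_cm]⟩
    have hNL0 : Inv N L0 := by
      intro a ha
      show L0 ≤ cm a L0
      conv_lhs => rw [hL0]
      apply sSup_le
      rintro X ⟨m, hm, rfl⟩ x hx
      have h1 : cm m L ≤ L0 := by rw [hL0]; exact le_sSup ⟨m, hm, rfl⟩
      exact h1 (minNorm_normalizes _ ⊤ le_rfl _ (hconj m) N hNmn a ha x hx)
    have h1 := hprim L0 hL0M ((S3735.le_normalizer_iff M L0).mpr hML0) hL0ne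
    have hNM : N ≤ M := by rw [← h1]; exact (S3735.le_normalizer_iff N L0).mpr hNL0
    have h3 : Subgroup.normalizer (N : Set G) = ⊤ :=
      top_le_iff.mp ((S3735.le_normalizer_iff ⊤ N).mpr hNmn.2.2.1)
    have h2 := hprim N hNM (by rw [h3]; exact le_top) hNmn.2.1
    exact hM (by rw [← h2, h3])
  refine ⟨part1, ?_⟩
  apply part1 _ _ inf_le_left
  have hFn : (Cfsg.fittingSubgroup G).Normal := by
    rw [← Subgroup.normalizer_eq_top_iff, ← top_le_iff, S3735.le_normalizer_iff]
    intro a _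
    show Cfsg.fittingSubgroup G ≤ cm a (Cfsg.fittingSubgroup G)
    unfold Cfsg.fittingSubgroup
    apply sSup_le
    intro N hN x hx
    rw [mem_cm]
    exact (le_sSup hN : N ≤ _) (hN.1.conj_mem x hx a)
  haveI hnil : Group.IsNilpotent (Cfsg.fittingSubgroup G) := Cfsg.Agent.S0008.result
  have h1 : ((M ⊓ Cfsg.fittingSubgroup G).subgroupOf (Cfsg.fittingSubgroup G)).IsSubnormal :=
    Helper24.h24_isSubnormal_of_isNilpotent _
  exact Subgroup.IsSubnormal.trans inf_le_right h1 hFn.isSubnormal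

end Cfsg.Agent.S3748
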