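import Cfsg.Statements.S3749
import Cfsg.Agent.Lead.Coprime
import Cfsg.Agent.S3735
import Mathlib

set_option autoImplicit false
open Cfsg
open Pointwise

namespace Cfsg.Agent.S3749

open Cfsg.Agent.S3735 (Inv)

theorem exists_P {G : Type*} [Group G] (M : Subgroup G) {p : ℕ}
    (hOp : Cfsg.pCore p ↥M ≠ ⊥) :
    ∃ P : Subgroup G, P ≤ M ∧ P ≠ ⊥ ∧ IsPGroup p P ∧ Inv M P := by
  have : ∃ N0 : Subgroup ↥M, N0.Normal ∧ IsPGroup p N0 ∧ N0 ≠ ⊥ := by
    by_contra hcon
    push Not at hcon
    apply hOp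
    unfold Cfsg.pCore
    rw [eq_bot_iff]
    apply sSup_le
    intro N0 hN0
    rw [hcon N0 hN0.1 hN0.2]
  obtain ⟨N0, hn, hp, hne⟩ := this
  refine ⟨N0.map M.subtype, ?_, ?_, ?_, ?_⟩
  · rintro _ ⟨x, _, rfl⟩; exact x.2
  · intro h; apply hne; rwa [Subgroup.map_eq_bot_iff_of_injective _ M.subtype_injective] at h
  · exact hp.map M.subtype
  · rintro m hm _ ⟨x, hx, rfl⟩
    exact ⟨⟨m, hm⟩ * x * ⟨m, hm⟩⁻¹, hn.conj_mem x hx ⟨m, hm⟩, rfl⟩

theorem mem_conjNormal_smul {G : Type*} [Group G] {N : Subgroup G} [N.Normal] {q : ℕ}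
    (m : G) (Q : Sylow q ↥N) (x : G) :
    x ∈ ((MulAut.conjNormal (H := N) m • Q : Sylow q ↥N) : Subgroup ↥N).map N.subtype ↔
      m⁻¹ * x * m ∈ (Q : Subgroup ↥N).map N.subtype := by
  constructor
  · rintro ⟨y, hy, rfl⟩
    have hy' : y ∈ MulAut.conjNormal (H := N) m • (Q : Subgroup ↥N) := hy
    rw [Subgroup.mem_pointwise_smul_iff_inv_smul_mem] at hy'
    refine ⟨_, hy', ?_⟩
    rw [← map_inv, MulAut.smul_def]
    simp
  · rintro ⟨z, hz, hzx⟩
    refine ⟨MulAut.conjNormal (H := N) m z, ?_, ?_⟩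
    · exact Subgroup.smul_mem_pointwise_smul z (MulAut.conjNormal (H := N) m) _ hz
    · have hzx' : (z : G) = m⁻¹ * x * m := hzx
      simp [MulAut.conjNormal_apply, hzx', mul_assoc]

/-- Call a proper subgroup M of G primitive when M = N_G(N) for every non-trivial normal subgroup N of M. Let M be a primitive subgroup of the finite group G, p a prime with O_p(M) ≠ 1, and N a normal subgroup of G with M ∩ N = 1. Then p does not divide the order of N; for every prime q there is exactly one Sylow q-subgroup of N normalized by M; and if the order of N has at least two prime divisors then M is not a maximal subgroup of G. -/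
theorem result {G : Type*} [Group G] [Finite G] (M : Subgroup G) (hM : M ≠ ⊤) (hprim : ∀ N : Subgroup G, N ≤ M → M ≤ Subgroup.normalizer (N : Set G) → N ≠ ⊥ → Subgroup.normalizer (N : Set G) = M) {p : ℕ} [Fact p.Prime] (hOp : Cfsg.pCore p ↥M ≠ ⊥) (N : Subgroup G) [N.Normal] (hMN : M ⊓ N = ⊥) : ¬ p ∣ Nat.card N ∧ (∀ q : ℕ, [Fact q.Prime] → ∃! Q : Sylow q ↥N, M ≤ Subgroup.normalizer ((Q : Subgroup ↥N).map N.subtype : Set G)) ∧ ((∃ q r : ℕ, q.Prime ∧ r.Prime ∧ q ≠ r ∧ q ∣ Nat.card N ∧ r ∣ Nat.card N) → ¬ IsCoatom M) := by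
  classical
  have hp : p.Prime := Fact.out
  obtain ⟨P, hPM, hPne, hPp, hMP⟩ := exists_P M hOp
  have hNP : Subgroup.normalizer (P : Set G) = M :=
    hprim P hPM ((S3735.le_normalizer_iff M P).mpr hMP) hPne
  -- (a)
  have ha : ¬ p ∣ Nat.card N := by
    letI : MulAction P N := MulAction.compHom N ((MulAut.conjNormal (H := N)).comp P.subtype)
    have h1 := hPp.card_modEq_card_fixedPoints (α := N)
    have hfix : ∀ n : N, n ∈ MulAction.fixedPoints P N → n = 1 := by
      intro n hn
      have hn' : ∀ g : G, g ∈ P → g * n * g⁻¹ = n := by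
        intro g hg
        have := hn ⟨g, hg⟩
        have h2 : MulAut.conjNormal (H := N) g n = n := this
        have h3 := congrArg Subtype.val h2
        rwa [MulAut.conjNormal_apply] at h3
      have h4 : (n : G) ∈ Subgroup.normalizer (P : Set G) := by
        rw [Subgroup.mem_normalizer_iff]
        intro g
        have e : ∀ g : G, g ∈ P → (n : G) * g * (n : G)⁻¹ = g := by
          intro g hg
          have := hn' g hg
          calc (n : G) * g * (n : G)⁻¹ = (g * n * g⁻¹) * g * (n : G)⁻¹ := by rw [this]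
            _ = g := by group
        constructor
        · intro hg; rw [e g hg]; exact hg
        · intro hg
          have h5 : (n : G)⁻¹ * ((n : G) * g * (n : G)⁻¹) * (n : G) = g := by group
          have h6 := e _ hg
          have h7 : (n : G)⁻¹ * ((n : G) * ((n : G) * g * (n : G)⁻¹) * (n : G)⁻¹) * (n : G) =
              (n : G) * g * (n : G)⁻¹ := by group
          rw [h6] at h7
          rw [h5] at h7
          rw [h7]; exact hg
      rw [hNP] at h4
      have h5 : (n : G) ∈ M ⊓ N := ⟨h4, n.2⟩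
      rw [hMN, Subgroup.mem_bot] at h5
      exact Subtype.ext h5
    have h2 : Nat.card (MulAction.fixedPoints P N) = 1 := by
      rw [Nat.card_eq_one_iff_unique]
      refine ⟨⟨fun x y => Subtype.ext ((hfix x x.2).trans (hfix y y.2).symm)⟩, ⟨⟨1, ?_⟩⟩⟩
      intro g
      show MulAut.conjNormal (H := N) (g : G) 1 = 1
      exact map_one _
    rw [h2] at h1
    intro hdvd
    have h3 : Nat.card N % p = 1 % p := h1
    rw [Nat.mod_eq_zero_of_dvd hdvd, Nat.mod_eq_of_lt hp.one_lt] at h3
    exact absurd h3 (by norm_num)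
  have hcopPN : (Nat.card P).Coprime (Nat.card N) := by
    obtain ⟨k, hk⟩ := IsPGroup.iff_card.mp hPp
    rw [hk]; exact Nat.Coprime.pow_left k ((Nat.Prime.coprime_iff_not_dvd hp).mpr ha)
  have hPsolv : Group.IsSolvable P := by
    haveI := hPp.isNilpotent
    infer_instance
  -- (b)
  have hb : ∀ q : ℕ, [Fact q.Prime] → ∃! Q : Sylow q ↥N,
      M ≤ Subgroup.normalizer ((Q : Subgroup ↥N).map N.subtype : Set G) := by
    intro q hq
    have huniq : ∀ Q1 Q2 : Sylow q ↥N, Inv P ((Q1 : Subgroup ↥N).map N.subtype) →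
        Inv P ((Q2 : Subgroup ↥N).map N.subtype) → Q1 = Q2 := by
      intro Q1 Q2 h1 h2
      obtain ⟨n, hn⟩ := MulAction.exists_smul_eq ↥N Q1 Q2
      have hmem : ∀ x : G, x ∈ (Q2 : Subgroup ↥N).map N.subtype ↔
          (n : G)⁻¹ * x * n ∈ (Q1 : Subgroup ↥N).map N.subtype := by
        intro x
        rw [← hn]
        constructor
        · rintro ⟨y, hy, rfl⟩
          have hy' : y ∈ MulAut.conj n • (Q1 : Subgroup ↥N) := hy
          rw [Lead.mem_conj_smul'] at hy'
          exact ⟨_, hy', by simp⟩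
        · rintro ⟨z, hz, hzx⟩
          have hzx' : (z : G) = (n : G)⁻¹ * x * n := hzx
          refine ⟨n * z * n⁻¹, ?_, ?_⟩
          · show n * z * n⁻¹ ∈ MulAut.conj n • (Q1 : Subgroup ↥N)
            rw [Lead.mem_conj_smul']
            have : n⁻¹ * (n * z * n⁻¹) * n = z := by group
            rw [this]; exact hz
          · simp [hzx', mul_assoc]
      have hP1 : P ≤ Subgroup.normalizer ((Q1 : Subgroup ↥N).map N.subtype : Set G) :=
        (S3735.le_normalizer_iff _ _).mpr h1
      have hP2 : P ≤ Subgroup.normalizer ((Q2 : Subgroup ↥N).map N.subtype : Set G) :=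
        (S3735.le_normalizer_iff _ _).mpr h2
      obtain ⟨D, hD⟩ : ∃ D : Subgroup G,
          D = Subgroup.normalizer ((Q1 : Subgroup ↥N).map N.subtype : Set G) ⊓ N := ⟨_, rfl⟩
      have hPD : P ≤ Subgroup.normalizer (D : Set G) := by
        rw [S3735.le_normalizer_iff]
        intro g hg d hd
        rw [hD] at hd ⊢
        exact ⟨Subgroup.mul_mem _ (Subgroup.mul_mem _ (hP1 hg) hd.1) (Subgroup.inv_mem _ (hP1 hg)),
          Subgroup.Normal.conj_mem inferInstance d hd.2 g⟩
      have hcopD : (Nat.card P).Coprime (Nat.card D) :=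
        Nat.Coprime.coprime_dvd_right (Subgroup.card_dvd_of_le (by rw [hD]; exact inf_le_right))
          hcopPN
      have hx : ∀ a ∈ P, (n : G)⁻¹ * a * n * a⁻¹ ∈ D := by
        intro a ha'
        rw [hD]
        constructor
        · have hn1 : (n : G)⁻¹ * a * n ∈
              Subgroup.normalizer ((Q1 : Subgroup ↥N).map N.subtype : Set G) := by
            rw [Subgroup.mem_normalizer_iff]
            intro h
            have e1 : h = (n : G)⁻¹ * ((n : G) * h * (n : G)⁻¹) * n := by group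
            have e2 : (n : G)⁻¹ * a * n * h * ((n : G)⁻¹ * a * n)⁻¹ =
                (n : G)⁻¹ * (a * ((n : G) * h * (n : G)⁻¹) * a⁻¹) * n := by group
            rw [e2, ← hmem, ← Subgroup.mem_normalizer_iff.mp (hP2 ha') _, hmem, ← e1]
          exact Subgroup.mul_mem _ hn1 (Subgroup.inv_mem _ (hP1 ha'))
        · have h3 : a * (n : G) * a⁻¹ ∈ N := Subgroup.Normal.conj_mem inferInstance _ n.2 a
          have h4 := N.mul_mem (N.inv_mem n.2) h3
          simpa [mul_assoc] using h4
      obtain ⟨d, hd, hnd⟩ := Lead.exists_mul_mem_normalizer P D hPD hcopD (Or.inl hPsolv) n hx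
      rw [hNP] at hnd
      rw [hD] at hd
      have h5 : (n : G) * d ∈ M ⊓ N := ⟨hnd, N.mul_mem n.2 hd.2⟩
      rw [hMN, Subgroup.mem_bot] at h5
      have h6 : (n : G)⁻¹ = d := by
        rw [inv_eq_iff_eq_inv]; exact eq_inv_of_mul_eq_one_left h5
      have h7 : (n : G)⁻¹ ∈ Subgroup.normalizer ((Q1 : Subgroup ↥N).map N.subtype : Set G) := by
        rw [h6]; exact hd.1
      have h8 : (Q2 : Subgroup ↥N).map N.subtype = (Q1 : Subgroup ↥N).map N.subtype := by
        ext x
        rw [hmem, Subgroup.mem_normalizer_iff.mp h7 x, inv_inv]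
      have h9 : (Q2 : Subgroup ↥N) = (Q1 : Subgroup ↥N) :=
        Subgroup.map_injective N.subtype_injective h8
      exact (Sylow.ext h9).symm
    have hex : ∃ Q : Sylow q ↥N, Inv P ((Q : Subgroup ↥N).map N.subtype) := by
      letI : MulAction P (Sylow q ↥N) :=
        MulAction.compHom _ ((MulAut.conjNormal (H := N)).comp P.subtype)
      have hnd : ¬ p ∣ Nat.card (Sylow q ↥N) := by
        obtain ⟨Q0⟩ : Nonempty (Sylow q ↥N) := inferInstance
        intro h
        exact ha ((h.trans (Sylow.card_dvd_index Q0)).trans (Subgroup.index_dvd_card _))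
      obtain ⟨Q, hQ⟩ := hPp.nonempty_fixed_point_of_prime_not_dvd_card (Sylow q ↥N) hnd
      refine ⟨Q, ?_⟩
      intro g hg x hx
      have h1 : (MulAut.conjNormal (H := N) g) • Q = Q := hQ ⟨g, hg⟩
      rw [← h1, mem_conjNormal_smul]
      have : g⁻¹ * (g * x * g⁻¹) * g = x := by group
      rw [this]; exact hx
    obtain ⟨Q, hQ⟩ := hex
    have hMQ : Inv M ((Q : Subgroup ↥N).map N.subtype) := by
      intro m hm x hx
      have h1 : Inv P (((MulAut.conjNormal (H := N) m • Q : Sylow q ↥N) : Subgroup ↥N).map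
          N.subtype) := by
        intro g hg y hy
        rw [mem_conjNormal_smul] at hy ⊢
        have h2 := hMP m⁻¹ (M.inv_mem hm) g hg
        have h3 := hQ _ h2 _ hy
        have e : m⁻¹ * (g * y * g⁻¹) * m = m⁻¹ * g * m⁻¹⁻¹ * (m⁻¹ * y * m) * (m⁻¹ * g * m⁻¹⁻¹)⁻¹ := by
          group
        rw [e]; exact h3
      have h2 := huniq _ _ h1 hQ
      rw [← h2, mem_conjNormal_smul]
      have : m⁻¹ * (m * x * m⁻¹) * m = x := by group
      rw [this]; exact hx
    refine ⟨Q, (S3735.le_normalizer_iff _ _).mpr hMQ, fun Q2 hQ2 => ?_⟩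
    exact huniq Q2 Q ((S3735.le_normalizer_iff _ _).mp (hPM.trans hQ2)) hQ
  refine ⟨ha, hb, ?_⟩
  rintro ⟨q, r, hq, hr, hqr, hqN, hrN⟩ hco
  haveI : Fact q.Prime := ⟨hq⟩
  obtain ⟨Q, hMQ, -⟩ := hb q
  have hQ'N : (Q : Subgroup ↥N).map N.subtype ≤ N := by
    rintro _ ⟨x, _, rfl⟩; exact x.2
  have hQ'ne : (Q : Subgroup ↥N).map N.subtype ≠ ⊥ := by
    intro h
    rw [Subgroup.map_eq_bot_iff_of_injective _ N.subtype_injective] at h
    exact Sylow.ne_bot_of_dvd_card Q hqN h
  have hlt : M < M ⊔ (Q : Subgroup ↥N).map N.subtype := by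
    refine lt_of_le_of_ne le_sup_left (fun h => hQ'ne ?_)
    have : (Q : Subgroup ↥N).map N.subtype ≤ M ⊓ N :=
      le_inf (by rw [h]; exact le_sup_right) hQ'N
    rw [hMN] at this; exact le_bot_iff.mp this
  have htop := hco.2 _ hlt
  have hNQ : N ≤ (Q : Subgroup ↥N).map N.subtype := by
    intro x hx
    have hx' : x ∈ ((M ⊔ (Q : Subgroup ↥N).map N.subtype : Subgroup G) : Set G) := by
      rw [htop]; trivial
    rw [Subgroup.coe_mul_of_left_le_normalizer_right M _ hMQ] at hx'
    obtain ⟨m, hm, y, hy, hmy⟩ := hx'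
    have hmy' : m * y = x := hmy
    subst hmy'
    have : m ∈ M ⊓ N :=
      ⟨hm, by have := N.mul_mem hx (N.inv_mem (hQ'N hy)); simpa using this⟩
    rw [hMN, Subgroup.mem_bot] at this
    rw [this, one_mul]; exact hy
  have hcard : Nat.card N = Nat.card (Q : Subgroup ↥N) := by
    have h1 : Nat.card ((Q : Subgroup ↥N).map N.subtype) = Nat.card (Q : Subgroup ↥N) :=
      Subgroup.card_map_of_injective N.subtype_injective
    rw [← h1]
    exact congrArg (fun S : Subgroup G => Nat.card S) (le_antisymm hNQ hQ'N)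
  obtain ⟨k, hk⟩ := IsPGroup.iff_card.mp Q.isPGroup'
  rw [hcard, hk] at hrN
  exact hqr ((Nat.prime_dvd_prime_iff_eq hr hq).mp (hr.dvd_of_dvd_pow hrN)).symm

end Cfsg.Agent.S3749
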