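import Cfsg.Statements.S3750
import Cfsg.Agent.S3748
import Cfsg.Agent.Helper10.Layer
import Cfsg.Agent.Helper10.Sub
import Mathlib

set_option autoImplicit false
open Cfsg

namespace Cfsg.Agent.S3750

open Cfsg.Agent.Helper10

theorem gchar {N : Type*} [Group N] (φ : N ≃* N) :
    (generalizedFittingSubgroup N).map (φ : N →* N) ≤ generalizedFittingSubgroup N := by
  unfold generalizedFittingSubgroup
  rw [Subgroup.map_sup]
  apply sup_le_sup
  · show (sSup {K : Subgroup N | IsComponent K}).map (φ : N →* N) ≤ sSup {K | IsComponent K}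
    apply sSup_map_equiv_le (fun K => IsComponent K)
    intro K hK
    exact ⟨hK.1.map φ.surjective, qs_of_equiv (K.equivMapOfInjective _ φ.injective) hK.2⟩
  · exact fitting_char φ

/-- Call a proper subgroup M of G primitive when M = N_G(N) for every non-trivial normal subgroup N of M. Let M be a primitive subgroup of the finite group G and N a normal subgroup of G with M ∩ F*(N) ≠ 1. Then F(G) = 1 and F*(N) = F*(G) = E(G); in particular every minimal normal subgroup of G is contained in N. -/
theorem result {G : Type*} [Group G] [Finite G] (M : Subgroup G) (hM : M ≠ ⊤) (hprim : ∀ N : Subgroup G, N ≤ M → M ≤ Subgroup.normalizer (N : Set G) → N ≠ ⊥ → Subgroup.normalizer (N : Set G) = M) (N : Subgroup G) [N.Normal] (hMF : M ⊓ (Cfsg.generalizedFittingSubgroup ↥N).map N.subtype ≠ ⊥) : Cfsg.fittingSubgroup G = ⊥ ∧ (Cfsg.generalizedFittingSubgroup ↥N).map N.subtype = Cfsg.generalizedFittingSubgroup G ∧ Cfsg.generalizedFittingSubgroup G = Cfsg.layer G ∧ ∀ K : Subgroup G, K.Normal → K ≠ ⊥ → (∀ K' : Subgroup G, K'.Normal → K' ≤ K → K' = ⊥ ∨ K' = K)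 → K ≤ N := by
  have hNsub : N.IsSubnormal := Subgroup.Normal.isSubnormal inferInstance
  obtain ⟨Fn, hFn_def⟩ : ∃ Fn : Subgroup G,
      Fn = (Cfsg.generalizedFittingSubgroup ↥N).map N.subtype := ⟨_, rfl⟩
  rw [← hFn_def] at hMF ⊢
  have hFn : Fn.Normal := by
    rw [hFn_def]; exact map_subtype_normal_of_char N _ gchar
  have hFnN : Fn ≤ N := by rw [hFn_def]; exact Subgroup.map_subtype_le _
  obtain ⟨D, hD⟩ : ∃ D : Subgroup G, D = M ⊓ Fn := ⟨_, rfl⟩
  have hDM : D ≤ M := by rw [hD]; exact inf_le_left
  have hDFn : D ≤ Fn := by rw [hD]; exact inf_le_right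
  have hMD : M ≤ Subgroup.normalizer (D : Set G) := by
    rw [S3735.le_normalizer_iff]
    intro m hm x hx
    rw [hD] at hx ⊢
    exact ⟨M.mul_mem (M.mul_mem hm hx.1) (M.inv_mem hm), hFn.conj_mem x hx.2 m⟩
  have hND : Subgroup.normalizer (D : Set G) = M := hprim D hDM hMD (hD ▸ hMF)
  have hS := S3748.result M hM hprim
  have hFN : (fittingSubgroup ↥N).map N.subtype ≤ fittingSubgroup G := by
    rw [fitting_subnormal_eq N hNsub]; exact inf_le_left
  have hEN : (layer ↥N).map N.subtype ≤ layer G := by
    rw [Subgroup.map_le_iff_le_comap]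
    apply sSup_le
    intro K hK
    rw [← Subgroup.map_le_iff_le_comap]
    exact comp_le_layer (comp_map_subtype hNsub hK)
  have hFn_le : Fn ≤ layer G ⊔ fittingSubgroup G := by
    rw [hFn_def]; unfold generalizedFittingSubgroup; rw [Subgroup.map_sup]
    exact sup_le_sup hEN hFN
  have hcentD : Subgroup.centralizer (D : Set G) ≤ M := by
    rw [← hND]; exact Subgroup.centralizer_le_normalizer (s := (D : Set G))
  -- Step 1
  have hF : fittingSubgroup G = ⊥ := by
    by_contra hne
    haveI : Group.IsNilpotent (fittingSubgroup G) := Cfsg.Agent.S0008.result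
    haveI : Nontrivial (fittingSubgroup G) := (Subgroup.nontrivial_iff_ne_bot _).mpr hne
    have hc := Group.IsNilpotent.center_ne_bot (G := fittingSubgroup G)
    obtain ⟨a, ha⟩ := (Subgroup.ne_bot_iff_exists_ne_one).mp hc
    have hzF : ((a : fittingSubgroup G) : G) ∈ fittingSubgroup G := (a : fittingSubgroup G).2
    have hz1 : ((a : fittingSubgroup G) : G) ≠ 1 := by
      intro h
      apply ha
      apply Subtype.ext
      apply Subtype.ext
      exact h
    have hzc : ∀ f ∈ fittingSubgroup G, f * ((a : fittingSubgroup G) : G) =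
        ((a : fittingSubgroup G) : G) * f := by
      intro f hf
      have := Subgroup.mem_center_iff.mp a.2 ⟨f, hf⟩
      exact congrArg Subtype.val this
    have hle : layer G ⊔ fittingSubgroup G ≤
        Subgroup.centralizer ({((a : fittingSubgroup G) : G)} : Set G) := by
      apply sup_le
      · intro e he
        rw [Subgroup.mem_centralizer_iff]
        intro h hh
        rw [Set.mem_singleton_iff] at hh
        rw [hh]
        exact (layer_fitting_comm G e he _ hzF).symm
      · intro f hf
        rw [Subgroup.mem_centralizer_iff]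
        intro h hh
        rw [Set.mem_singleton_iff] at hh
        rw [hh]
        exact (hzc f hf).symm
    have hzD : ((a : fittingSubgroup G) : G) ∈ Subgroup.centralizer (D : Set G) := by
      rw [Subgroup.mem_centralizer_iff]
      intro d hd
      have := hle (hFn_le (hDFn hd))
      rw [Subgroup.mem_centralizer_iff] at this
      exact (this _ rfl).symm
    have hzM : ((a : fittingSubgroup G) : G) ∈ M ⊓ fittingSubgroup G := ⟨hcentD hzD, hzF⟩
    rw [hS.2, Subgroup.mem_bot] at hzM
    exact hz1 hzM
  have hgl : generalizedFittingSubgroup G = layer G := by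
    unfold generalizedFittingSubgroup; rw [hF, sup_bot_eq]
  have hFn_le' : Fn ≤ generalizedFittingSubgroup G := hFn_le
  have hle2 : generalizedFittingSubgroup G ≤ Fn := by
    rw [hgl]
    apply sSup_le
    intro K hK
    rcases comp_le_or_comm K N hK hNsub with hKN | hKN
    · have h1 : K.subgroupOf N ≤ generalizedFittingSubgroup ↥N :=
        (comp_le_layer (comp_subgroupOf hK hKN)).trans (layer_le_gfitting _)
      have h2 := Subgroup.map_mono (f := N.subtype) h1
      rw [Subgroup.map_subgroupOf_eq_of_le hKN] at h2
      rw [hFn_def]; exact h2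
    · exfalso
      have h1 : K ≤ Subgroup.centralizer (N : Set G) :=
        Subgroup.commutator_eq_bot_iff_le_centralizer.mp hKN
      have h2 : K ≤ M :=
        (h1.trans (Subgroup.centralizer_le (fun x hx => hFnN (hDFn hx)))).trans hcentD
      exact comp_ne_bot hK (hS.1 K hK.1 h2)
  have heq : Fn = generalizedFittingSubgroup G := le_antisymm hFn_le' hle2
  refine ⟨hF, heq, hgl, ?_⟩
  intro K hKn hKne hKmin
  have hgn := gfitting_normal G
  have hinf : (K ⊓ generalizedFittingSubgroup G).Normal := Subgroup.normal_inf_normal _ _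
  rcases hKmin _ hinf inf_le_left with h | h
  · exfalso
    have hcomm : K ≤ Subgroup.centralizer (generalizedFittingSubgroup G : Set G) := by
      intro k hk
      rw [Subgroup.mem_centralizer_iff]
      intro f hf
      exact ((Subgroup.commute_of_normal_of_disjoint K _ hKn hgn (disjoint_iff.mpr h) k f hk
        hf).eq).symm
    have h2 : K ≤ K ⊓ generalizedFittingSubgroup G :=
      le_inf le_rfl (hcomm.trans (centralizer_gfitting_le G))
    rw [h] at h2
    exact hKne (le_bot_iff.mp h2)
  · have : K ≤ generalizedFittingSubgroup G := by rw [← h]; exact inf_le_right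
    rw [← heq] at this
    exact this.trans hFnN

end Cfsg.Agent.S3750
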