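import Cfsg.Statements.S3752
import Mathlib
import Cfsg.Agent.Helper10.PrimPair

set_option autoImplicit false
open Cfsg
open Cfsg.Agent.Helper10

namespace Cfsg.Agent.S3752

/-- Bender's Theorem on primitive pairs. Two distinct subgroups M₁, M₂ of G form a primitive pair when, for {i, j} = {1, 2}, every non-trivial normal subgroup A of M_i contained in M₁ ∩ M₂ satisfies N_{M_j}(A) = M₁ ∩ M₂; the pair has characteristic p when moreover C_{M_i}(O_p(M_i)) ≤ O_p(M_i) for both i and O_p(M₁)O_p(M₂) ≤ M₁ ∩ M₂. If (M₁, M₂) is a primitive pair of the finite group G with F*(M₁) ≤ M₂ and F*(M₂) ≤ M₁, then for some prime p the pair has characteristic p. -/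
theorem result {G : Type*} [Group G] [Finite G] (M₁ M₂ : Subgroup G) (hne : M₁ ≠ M₂) (hP : ∀ A : Subgroup G, A ≠ ⊥ → A ≤ M₁ ⊓ M₂ → (M₁ ≤ Subgroup.normalizer (A : Set G) → M₂ ⊓ Subgroup.normalizer (A : Set G) = M₁ ⊓ M₂) ∧ (M₂ ≤ Subgroup.normalizer (A : Set G) → M₁ ⊓ Subgroup.normalizer (A : Set G) = M₁ ⊓ M₂)) (h₁ : (Cfsg.generalizedFittingSubgroup ↥M₁).map M₁.subtype ≤ M₂) (h₂ : (Cfsg.generalizedFittingSubgroup ↥M₂).map M₂.subtype ≤ M₁) : ∃ p : ℕ, p.Prime ∧ Subgroup.centralizer (Cfsg.pCore p ↥M₁ : Set ↥M₁) ≤ Cfsg.pCore p ↥M₁ ∧ Subgroup.centralizer (Cfsg.pCore p ↥M₂ : Set ↥M₂) ≤ Cfsg.pCore p ↥M₂ ∧ (Cfsg.pCore p ↥M₁).map M₁.subtype ⊔ (Cfsg.pCore p ↥M₂).map M₂.subtype ≤ M₁ ⊓ M₂ := by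
  obtain ⟨p, hp, hp1, hp2⟩ := bender_pair_gen M₁ M₂ hne
    (fun U hU hUle hn => ((hP U hU hUle).2 hn).le.trans inf_le_right)
    (fun U hU hUle hn => ((hP U hU hUle).1 hn).le.trans inf_le_left) h₁ h₂
  haveI : Fact p.Prime := ⟨hp⟩
  have key : ∀ (M : Subgroup G), IsPGroup p ↥(Cfsg.generalizedFittingSubgroup ↥M) →
      Subgroup.centralizer (Cfsg.pCore p ↥M : Set ↥M) ≤ Cfsg.pCore p ↥M ∧
      (Cfsg.pCore p ↥M).map M.subtype ≤ (Cfsg.generalizedFittingSubgroup ↥M).map M.subtype := by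
    intro M hpM
    have hle : Cfsg.generalizedFittingSubgroup ↥M ≤ Cfsg.pCore p ↥M :=
      Cfsg.Agent.Helper28.le_pCore (gfitting_normal ↥M) hpM
    have hle2 : Cfsg.pCore p ↥M ≤ Cfsg.generalizedFittingSubgroup ↥M :=
      (bp_pCore_le_fitting p).trans (fitting_le_gfitting ↥M)
    refine ⟨?_, Subgroup.map_mono hle2⟩
    exact ((Subgroup.centralizer_le hle).trans (centralizer_gfitting_le ↥M)).trans hle
  obtain ⟨k1, k1'⟩ := key M₁ hp1
  obtain ⟨k2, k2'⟩ := key M₂ hp2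
  refine ⟨p, hp, k1, k2, ?_⟩
  apply sup_le
  · exact le_inf (map_subtype_le' _) (k1'.trans h₁)
  · exact le_inf (k2'.trans h₂) (map_subtype_le' _)

end Cfsg.Agent.S3752
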