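import Cfsg.Statements.S3755
import Mathlib
import Cfsg.Agent.Helper21.S3Conf
import Cfsg.Agent.S0444
import Cfsg.Agent.Helper10.PComp

set_option autoImplicit false
set_option linter.style.haveILetI false
open Cfsg

namespace Cfsg.Agent.S3755

/-- Let M and V be subgroups of a finite group with V an elementary abelian 2-group, M normalizing V and acting faithfully on it (M ∩ C(V) = 1), and C_M(O_{2'}(M)) ≤ O_{2'}(M). If some elementary abelian 2-subgroup A of M satisfies |V : C_V(A)| < |A|², then M has a section isomorphic to the symmetric group of degree 3. -/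
theorem result {X : Type*} [Group X] [Finite X] (M V : Subgroup X) (hV : Cfsg.IsElementaryAbelian 2 V) (hMV : M ≤ Subgroup.normalizer (V : Set X)) (hfaith : M ⊓ Subgroup.centralizer (V : Set X) = ⊥) (hcon : Subgroup.centralizer (Cfsg.pPrimeCore 2 ↥M : Set ↥M) ≤ Cfsg.pPrimeCore 2 ↥M) (A : Subgroup X) (hAM : A ≤ M) (hA : Cfsg.IsElementaryAbelian 2 A) (hsmall : (V ⊓ Subgroup.centralizer (A : Set X)).relIndex V < Nat.card A ^ 2) : Cfsg.Involves (Equiv.Perm (Fin 3)) ↥M := by
  classical
  haveI : Fact (Nat.Prime 2) := ⟨Nat.prime_two⟩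
  have hV2 : ∀ v ∈ V, v * v = 1 := fun v hv => by rw [← pow_two]; exact hV.2 v hv
  have hA2 : ∀ a ∈ A, a * a = 1 := fun a ha => by rw [← pow_two]; exact hA.2 a ha
  obtain ⟨K, hKdef⟩ : ∃ K : Subgroup X, K = (Cfsg.pPrimeCore 2 ↥M).map M.subtype := ⟨_, rfl⟩
  have hKM : K ≤ M := by rw [hKdef]; exact Subgroup.map_subtype_le _
  have hKcard : (Nat.card K).Coprime 2 := by
    rw [hKdef, Subgroup.card_map_of_injective M.subtype_injective]
    exact Cfsg.Agent.Helper10.pPrimeCore_coprime 2 ↥M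
  have hKn : (Cfsg.pPrimeCore 2 ↥M).Normal := Subgroup.sSup_normal _ (fun _ h => h.1)
  have hsub : K.subgroupOf M = Cfsg.pPrimeCore 2 ↥M := by
    rw [hKdef]; exact Subgroup.comap_map_eq_self_of_injective M.subtype_injective _
  have hMK : M ≤ Subgroup.normalizer (K : Set X) := by
    rw [← Subgroup.normal_subgroupOf_iff_le_normalizer hKM, hsub]; exact hKn
  have hKf : K ⊓ Subgroup.centralizer (V : Set X) = ⊥ :=
    le_bot_iff.mp ((inf_le_inf_right _ hKM).trans (le_of_eq hfaith))
  have hAf : A ⊓ Subgroup.centralizer (K : Set X) = ⊥ := by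
    rw [Subgroup.eq_bot_iff_forall]
    intro a ha
    obtain ⟨haA, haC⟩ := Subgroup.mem_inf.mp ha
    rw [Subgroup.mem_centralizer_iff] at haC
    have h1 : (⟨a, hAM haA⟩ : ↥M) ∈ Subgroup.centralizer (Cfsg.pPrimeCore 2 ↥M : Set ↥M) := by
      rw [Subgroup.mem_centralizer_iff]
      intro h hh
      have h2 : (h : X) ∈ K := by
        have : h ∈ K.subgroupOf M := by rw [hsub]; exact hh
        exact Subgroup.mem_subgroupOf.mp this
      exact Subtype.ext (haC _ h2)
    have h3 := hcon h1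
    rw [← hsub, Subgroup.mem_subgroupOf] at h3
    have h4 : orderOf (⟨a, h3⟩ : ↥K) ∣ Nat.card K := orderOf_dvd_natCard _
    rw [Subgroup.orderOf_mk] at h4
    have h5 : orderOf a ∣ 2 := orderOf_dvd_of_pow_eq_one (hA.2 a haA)
    have h6 := Nat.eq_one_of_dvd_coprimes hKcard h4 h5
    exact orderOf_eq_one_iff.mp h6
  obtain ⟨a, haA, y, hyK, ha1, hy1, hy3, hay⟩ := Cfsg.Agent.Helper21.s3_config V K hV2 hKcard
    (hKM.trans hMV) hKf (Nat.card A) A le_rfl hA2 (hAM.trans hMK) (hAM.trans hMV) hAf hsmall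
  obtain ⟨a', ha'def⟩ : ∃ a' : ↥M, a' = ⟨a, hAM haA⟩ := ⟨_, rfl⟩
  obtain ⟨y', hy'def⟩ : ∃ y' : ↥M, y' = ⟨y, hKM hyK⟩ := ⟨_, rfl⟩
  have ha'2 : a' * a' = 1 := by rw [ha'def]; exact Subtype.ext (hA2 a haA)
  have ha'1 : a' ≠ 1 := by
    rw [ha'def]; intro h; exact ha1 (congrArg Subtype.val h)
  have hy'1 : y' ≠ 1 := by
    rw [hy'def]; intro h; exact hy1 (congrArg Subtype.val h)
  have hy'3 : y' ^ 3 = 1 := by rw [hy'def]; exact Subtype.ext hy3
  have hay' : a' * y' * a'⁻¹ = y'⁻¹ := by rw [ha'def, hy'def]; exact Subtype.ext hay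
  have ha'inv : a'⁻¹ = a' := inv_eq_of_mul_eq_one_left ha'2
  have hay2 : a' * y' * a' = y'⁻¹ := by
    have := hay'
    rwa [ha'inv] at this
  have hsq : (a' * y') * (a' * y') = 1 := by
    calc (a' * y') * (a' * y') = (a' * y' * a') * y' := by group
      _ = 1 := by rw [hay2, inv_mul_cancel]
  have hyinv3 : (y'⁻¹) ^ 3 = 1 := by rw [inv_pow, hy'3, inv_one]
  have hne : a' * y' ≠ 1 := by
    intro h
    have h1 : a' = y'⁻¹ := eq_inv_of_mul_eq_one_left h
    have h2 : a' ^ 3 = 1 := by rw [h1]; exact hyinv3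
    have h3 : a' ^ 3 = a' := by rw [pow_succ, pow_two, ha'2, one_mul]
    exact ha'1 (h3 ▸ h2)
  have hE : Cfsg.IsThreeTranspositionSet ({a', a' * y'} : Set ↥M) := by
    constructor
    · intro d hd
      rcases hd with rfl | rfl
      · exact orderOf_eq_prime (by rw [pow_two]; exact ha'2) ha'1
      · exact orderOf_eq_prime (by rw [pow_two]; exact hsq) hne
    · intro d hd e he
      rcases hd with rfl | rfl <;> rcases he with rfl | rfl
      · left; rw [ha'2]; exact one_pow 2
      · right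
        have : d * (d * y') = y' := by rw [← mul_assoc, ha'2, one_mul]
        rw [this]; exact hy'3
      · right
        rw [hay2]; exact hyinv3
      · left; rw [hsq]; exact one_pow 2
  have hnc : ¬ Commute a' (a' * y') := by
    intro h
    have h1 : a' * (a' * y') = (a' * y') * a' := h
    rw [← mul_assoc, ha'2, one_mul, hay2] at h1
    have h2 : y' * y' = 1 := by nth_rewrite 1 [h1]; exact inv_mul_cancel y'
    have h3 : y' = 1 := by
      have : y' ^ 3 = y' := by rw [pow_succ, pow_two, h2, one_mul]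
      rw [← this]; exact hy'3
    exact hy'1 h3
  obtain ⟨e₀⟩ := Cfsg.Agent.S0444.result hE (Set.mem_insert _ _)
    (Set.mem_insert_of_mem _ (Set.mem_singleton _)) hnc
  haveI inst : ((⊥ : Subgroup ↥M).subgroupOf
      (Subgroup.closure ({a', a' * y'} : Set ↥M))).Normal := by
    rw [Subgroup.bot_subgroupOf]; infer_instance
  exact ⟨Subgroup.closure ({a', a' * y'} : Set ↥M), ⊥, inst,
    ⟨(QuotientGroup.quotientMulEquivOfEq (Subgroup.bot_subgroupOf _)).trans
      (QuotientGroup.quotientBot.trans e₀)⟩⟩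

end Cfsg.Agent.S3755
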