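import Cfsg.Statements.S3760
import Mathlib

set_option autoImplicit false
open Cfsg

namespace Cfsg.Agent.S3760

theorem mem_cj {G : Type*} [Group G] (H : Subgroup G) (g y : G) :
    y ∈ H.map (MulAut.conj g).toMonoidHom ↔ g⁻¹ * y * g ∈ H := by
  constructor
  · rintro ⟨h, hh, rfl⟩
    simpa [MulAut.conj_apply, mul_assoc] using hh
  · intro hy
    refine ⟨g⁻¹ * y * g, hy, ?_⟩
    simp [MulAut.conj_apply, mul_assoc]

theorem cj_mul {G : Type*} [Group G] (H : Subgroup G) (a b : G) :
    H.map (MulAut.conj (a * b)).toMonoidHom =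
      (H.map (MulAut.conj b).toMonoidHom).map (MulAut.conj a).toMonoidHom := by
  ext y
  simp only [mem_cj]
  simp [mul_assoc]

theorem cj_one {G : Type*} [Group G] (H : Subgroup G) :
    H.map (MulAut.conj (1 : G)).toMonoidHom = H := by
  ext y
  rw [mem_cj]
  simp

theorem mem_normalizer_of_cj {G : Type*} [Group G] (H : Subgroup G) (g : G)
    (h : H.map (MulAut.conj g).toMonoidHom = H) :
    g ∈ Subgroup.normalizer (H : Set G) := by
  rw [Subgroup.mem_normalizer_iff_map_conj_eq]
  exact h

theorem cj_of_mem_normalizer {G : Type*} [Group G] (H : Subgroup G) (g : G)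
    (h : g ∈ Subgroup.normalizer (H : Set G)) : H.map (MulAut.conj g).toMonoidHom = H := by
  have := (Subgroup.mem_normalizer_iff_map_conj_eq).mp h
  exact this

/-- Let the group G act transitively on a set X, let x ∈ X with stabilizer H = G_x, and let K ≤ H. Then N_G(K) acts transitively on the set of fixed points of K if and only if every G-conjugate of K contained in H is already an H-conjugate of K. -/
theorem result {G : Type*} [Group G] {X : Type*} [MulAction G X] (htrans : ∀ a b : X, ∃ g : G, g • a = b) (x : X) (K : Subgroup G) (hK : K ≤ MulAction.stabilizer G x) : (∀ a b : X, (∀ k ∈ K, k • a = a) → (∀ k ∈ K, k • b = b) → ∃ g ∈ Subgroup.normalizer (K : Set G), g • a = b) ↔ ∀ g : G, K.map (MulAut.conj g).toMonoidHom ≤ MulAction.stabilizer G x → ∃ h ∈ MulAction.stabilizer G x, K.map (MulAut.conj g).toMonoidHom = K.map (MulAut.conj h).toMonoidHom := by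
  constructor
  · intro hN g hg
    have hKx : ∀ k ∈ K, k • x = x := fun k hk => MulAction.mem_stabilizer_iff.mp (hK hk)
    have hKg : ∀ k ∈ K, k • (g⁻¹ • x) = g⁻¹ • x := by
      intro k hk
      have h1 : g * k * g⁻¹ ∈ K.map (MulAut.conj g).toMonoidHom := by
        rw [mem_cj]; simpa [mul_assoc] using hk
      have h2 : (g * k * g⁻¹) • x = x := MulAction.mem_stabilizer_iff.mp (hg h1)
      calc k • (g⁻¹ • x) = g⁻¹ • ((g * k * g⁻¹) • x) := by
            simp [mul_smul]
        _ = g⁻¹ • x := by rw [h2]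
    obtain ⟨n, hn, hnx⟩ := hN x (g⁻¹ • x) hKx hKg
    refine ⟨g * n, ?_, ?_⟩
    · rw [MulAction.mem_stabilizer_iff, mul_smul, hnx]
      simp
    · rw [cj_mul, cj_of_mem_normalizer K n hn]
  · intro hF
    -- every fixed point is n • x with n in the normalizer
    have key : ∀ a : X, (∀ k ∈ K, k • a = a) → ∃ n ∈ Subgroup.normalizer (K : Set G), n • x = a := by
      intro a ha
      obtain ⟨u, hu⟩ := htrans x a
      have hle : K.map (MulAut.conj u⁻¹).toMonoidHom ≤ MulAction.stabilizer G x := by
        intro y hy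
        rw [mem_cj] at hy
        rw [MulAction.mem_stabilizer_iff]
        have h1 := ha _ hy
        rw [← hu] at h1
        have h2 : y • x = u⁻¹ • ((u⁻¹⁻¹ * y * u⁻¹) • (u • x)) := by
          simp [mul_smul]
        rw [h2, h1]
        simp
      obtain ⟨h, hh, hhe⟩ := hF u⁻¹ hle
      refine ⟨u * h, ?_, ?_⟩
      · apply mem_normalizer_of_cj
        rw [cj_mul, ← hhe, ← cj_mul, mul_inv_cancel, cj_one]
      · rw [mul_smul, MulAction.mem_stabilizer_iff.mp hh, hu]
    intro a b ha hb
    obtain ⟨n, hn, hna⟩ := key a ha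
    obtain ⟨m, hm, hmb⟩ := key b hb
    refine ⟨m * n⁻¹, Subgroup.mul_mem _ hm (Subgroup.inv_mem _ hn), ?_⟩
    rw [← hna, mul_smul, inv_smul_smul, hmb]

end Cfsg.Agent.S3760
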