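import Cfsg.Statements.S3767
import Mathlib
import Cfsg.Agent.Helper24.ExtraFpf

set_option autoImplicit false
open Cfsg

namespace Cfsg.Agent.S3767


theorem center_equiv {A P : Type*} [Group A] [Group P] (e : A ≃* P) (a : A) :
    a ∈ Subgroup.center A ↔ e a ∈ Subgroup.center P := by
  rw [Subgroup.mem_center_iff, Subgroup.mem_center_iff]
  constructor
  · intro h g
    obtain ⟨g', rfl⟩ := e.surjective g
    rw [← map_mul, ← map_mul, h g']
  · intro h g
    apply e.injective
    rw [map_mul, map_mul, h (e g)]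

/-- Let P be an extraspecial p-group of order p^(2n+1) and H a cyclic group of order h prime to p acting on P (inside a common finite group: H normalizes P) so that C_P(x) = Z(P) for every non-identity x ∈ H. Then h divides p^n + 1 or h divides p^n − 1. -/
theorem result {G : Type*} [Group G] [Finite G] {p : ℕ} [Fact p.Prime] (P H : Subgroup G) (hP : Cfsg.IsExtraspecial p ↥P) (n : ℕ) (hn : Nat.card P = p ^ (2 * n + 1)) (hH : IsCyclic H) (hcop : (Nat.card H).Coprime p) (hHP : H ≤ Subgroup.normalizer (P : Set G)) (hfix : ∀ x ∈ H, x ≠ 1 → P ⊓ Subgroup.centralizer {x} = (Subgroup.center ↥P).map P.subtype) : Nat.card H ∣ p ^ n + 1 ∨ Nat.card H ∣ p ^ n - 1 := by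
  classical
  obtain ⟨⟨hpg, hfrat, hcomm⟩, hZcard⟩ := hP
  obtain ⟨K, hK⟩ : ∃ K : Subgroup G, K = P ⊔ H := ⟨_, rfl⟩
  have hPK : P ≤ K := hK ▸ le_sup_left
  have hHK : H ≤ K := hK ▸ le_sup_right
  have hKN : K ≤ Subgroup.normalizer (P : Set G) := hK ▸ sup_le Subgroup.le_normalizer hHP
  haveI hA : (P.subgroupOf K).Normal := Subgroup.normal_subgroupOf_of_le_normalizer hKN
  letI : Fintype K := Fintype.ofFinite _
  letI : Fintype (P.subgroupOf K) := Fintype.ofFinite _
  letI : Fintype (H.subgroupOf K) := Fintype.ofFinite _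
  let eA : (P.subgroupOf K) ≃* P := Subgroup.subgroupOfEquivOfLe hPK
  let eB : (H.subgroupOf K) ≃* H := Subgroup.subgroupOfEquivOfLe hHK
  have heA : ∀ a : P.subgroupOf K, ((eA a : P) : G) = ((a : K) : G) := fun a => rfl
  have hcardA : Nat.card (P.subgroupOf K) = Nat.card P := Nat.card_congr eA.toEquiv
  have hcardB : Nat.card (H.subgroupOf K) = Nat.card H := Nat.card_congr eB.toEquiv
  have hsup : P.subgroupOf K ⊔ H.subgroupOf K = ⊤ := by
    rw [← Subgroup.subgroupOf_sup hPK hHK, ← hK, Subgroup.subgroupOf_self]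
  rw [← hcardB]
  refine Cfsg.Agent.Helper24.fp_main (P.subgroupOf K) (H.subgroupOf K) hsup n
    (by rw [hcardA, hn]) ?_ (by rw [hcardB]; exact hcop) ?_ ?_ ?_
  · intro a b
    apply eB.injective
    rw [map_mul, map_mul]
    haveI := hH
    exact (IsCyclic.isMulCommutative (α := H)).is_comm.comm _ _
  · intro x g
    rw [center_equiv eA]
    simp only [map_mul, map_inv]
    rw [← hcomm, commutator_def]
    have := Subgroup.commutator_mem_commutator (Subgroup.mem_top (eA x)⁻¹) (Subgroup.mem_top (eA g)⁻¹)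
    rw [commutatorElement_def] at this
    simpa using this
  · rw [← hZcard]
    exact Nat.card_congr (eA.toEquiv.subtypeEquiv (fun a => center_equiv eA a))
  · intro x hx hx1 a
    have hxH : ((x : K) : G) ∈ H := hx
    have hx1' : ((x : K) : G) ≠ 1 := fun h => hx1 (Subtype.ext h)
    have h1 := hfix _ hxH hx1'
    rw [center_equiv eA]
    constructor
    · intro hcomm'
      have h2 : ((a : K) : G) ∈ P ⊓ Subgroup.centralizer {((x : K) : G)} := by
        refine Subgroup.mem_inf.mpr ⟨a.2, Subgroup.mem_centralizer_singleton_iff.mpr ?_⟩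
        exact (congrArg Subtype.val hcomm').symm
      rw [h1] at h2
      obtain ⟨z, hz, hza⟩ := h2
      have h3 : z = eA a := Subtype.ext hza
      rw [← h3]
      exact hz
    · intro hz
      have h2 : ((a : K) : G) ∈ (Subgroup.center ↥P).map P.subtype := ⟨eA a, hz, rfl⟩
      rw [← h1] at h2
      have h3 := Subgroup.mem_centralizer_singleton_iff.mp (Subgroup.mem_inf.mp h2).2
      exact Subtype.ext h3.symm

end Cfsg.Agent.S3767
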