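import Cfsg.Statements.S3771
import Mathlib

set_option autoImplicit false
set_option linter.style.haveILetI false
open Cfsg

namespace Cfsg.Agent.S3771

/-- Let p be a prime and R a finite p-group of p-rank at most 2 (no elementary abelian subgroup of order p³) in which every element has order dividing p. Then R has order at most p³. -/
theorem result {R : Type*} [Group R] [Finite R] {p : ℕ} [Fact p.Prime] (hR : IsPGroup p R) (hrank : Cfsg.PRankLE p 2 R) (hexp : ∀ x : R, x ^ p = 1) : Nat.card R ≤ p ^ 3 := by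
  classical
  have hp : p.Prime := Fact.out
  by_contra hbig
  push Not at hbig
  obtain ⟨r, hr⟩ := IsPGroup.iff_card.mp hR
  have hr4 : 4 ≤ r := by
    rw [hr] at hbig
    have := (Nat.pow_lt_pow_iff_right hp.one_lt).mp hbig
    omega
  haveI : Nontrivial R := by
    rw [← Finite.one_lt_card_iff_nontrivial, hr]
    exact Nat.one_lt_pow (by omega) hp.one_lt
  haveI := hR.center_nontrivial
  obtain ⟨zc, hzc1⟩ := exists_ne (1 : Subgroup.center R)
  set z : R := (zc : R) with hz
  have hz1 : z ≠ 1 := fun h => hzc1 (Subtype.ext h)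
  have hzord : orderOf z = p := orderOf_eq_prime (hexp z) hz1
  have hzcen : ∀ g : R, g * z = z * g := fun g => Subgroup.mem_center_iff.mp zc.2 g
  let Zs : Subgroup R := Subgroup.zpowers z
  have hZcard : Nat.card Zs = p := by rw [Nat.card_zpowers, hzord]
  haveI hZn : Zs.Normal := ⟨fun n hn g => by
    have hnc : n ∈ Subgroup.center R := (Subgroup.zpowers_le.mpr zc.2) hn
    have : g * n * g⁻¹ = n := by rw [Subgroup.mem_center_iff.mp hnc g, mul_inv_cancel_right]
    rw [this]; exact hn⟩
  let π := QuotientGroup.mk' Zs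
  have hQ : IsPGroup p (R ⧸ Zs) := hR.to_quotient Zs
  haveI : Nontrivial (R ⧸ Zs) := by
    rw [← Finite.one_lt_card_iff_nontrivial]
    have h1 := Subgroup.card_mul_index Zs
    rw [hZcard, hr] at h1
    have h2 : Zs.index = p ^ (r - 1) := by
      have h3 : p ^ r = p * p ^ (r - 1) := by rw [← pow_succ']; congr 1; omega
      rw [h3] at h1
      exact Nat.eq_of_mul_eq_mul_left hp.pos h1
    change 1 < Zs.index
    rw [h2]
    exact Nat.one_lt_pow (by omega) hp.one_lt
  haveI := hQ.center_nontrivial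
  obtain ⟨yc, hyc1⟩ := exists_ne (1 : Subgroup.center (R ⧸ Zs))
  obtain ⟨y, hy⟩ := QuotientGroup.mk'_surjective Zs (yc : R ⧸ Zs)
  have hyZ : y ∉ Zs := by
    intro h
    apply hyc1
    apply Subtype.ext
    rw [← hy]
    exact (QuotientGroup.eq_one_iff y).mpr h
  have hycen : ∀ g : R, g * y * g⁻¹ * y⁻¹ ∈ Zs := by
    intro g
    apply (QuotientGroup.eq_one_iff _).mp
    show π (g * y * g⁻¹ * y⁻¹) = 1
    rw [map_mul, map_mul, map_mul, map_inv, map_inv]
    have h1 : π g * π y = π y * π g := by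
      have := Subgroup.mem_center_iff.mp yc.2 (π g)
      rw [← hy] at this
      exact this
    rw [h1]; group
  let f : R →* R := MonoidHom.mk' (fun g => g * y * g⁻¹ * y⁻¹) (by
    intro a b
    have hb : b * y * b⁻¹ * y⁻¹ ∈ Subgroup.center R := Subgroup.zpowers_le.mpr zc.2 (hycen b)
    have hc := Subgroup.mem_center_iff.mp hb
    calc a * b * y * (a * b)⁻¹ * y⁻¹
        = a * (b * y * b⁻¹ * y⁻¹) * (y * a⁻¹ * y⁻¹) := by group
      _ = (b * y * b⁻¹ * y⁻¹) * a * (y * a⁻¹ * y⁻¹) := by rw [hc a]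
      _ = (b * y * b⁻¹ * y⁻¹) * (a * y * a⁻¹ * y⁻¹) := by group
      _ = (a * y * a⁻¹ * y⁻¹) * (b * y * b⁻¹ * y⁻¹) := (hc _).symm)
  have hfapp : ∀ g, f g = g * y * g⁻¹ * y⁻¹ := fun g => rfl
  have hfrange : f.range ≤ Zs := by
    rintro _ ⟨g, rfl⟩
    exact hycen g
  have hker : ∀ g, g ∈ f.ker ↔ g * y = y * g := by
    intro g
    rw [MonoidHom.mem_ker, hfapp]
    constructor
    · intro h
      exact mul_inv_eq_iff_eq_mul.mp (mul_inv_eq_one.mp h)
    · intro h
      rw [h]; group
  have hkcard : p ^ 3 ≤ Nat.card f.ker := by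
    have h1 := Subgroup.card_mul_index f.ker
    rw [Subgroup.index_ker, hr] at h1
    have h2 : Nat.card f.range ≤ p := hZcard ▸ Subgroup.card_le_of_le hfrange
    by_contra hlt
    push Not at hlt
    have h3 : Nat.card f.ker * Nat.card f.range < p ^ 3 * p := by
      calc Nat.card f.ker * Nat.card f.range ≤ Nat.card f.ker * p := Nat.mul_le_mul_left _ h2
        _ < p ^ 3 * p := Nat.mul_lt_mul_of_pos_right hlt hp.pos
    rw [h1, ← pow_succ] at h3
    have := (Nat.pow_lt_pow_iff_right hp.one_lt).mp h3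
    omega
  let Ys : Subgroup R := Subgroup.zpowers y
  have hy1 : y ≠ 1 := fun h => hyZ (h ▸ one_mem _)
  have hyord : orderOf y = p := orderOf_eq_prime (hexp y) hy1
  have hYcard : Nat.card Ys = p := by rw [Nat.card_zpowers, hyord]
  have hinf : Zs ⊓ Ys = ⊥ := by
    by_contra hcon
    have h1 : Nat.card ↥(Zs ⊓ Ys) ∣ p :=
      (Subgroup.card_dvd_of_le (inf_le_right : Zs ⊓ Ys ≤ Ys)).trans (dvd_of_eq hYcard)
    rcases (Nat.dvd_prime hp).mp h1 with h1 | h1
    · exact hcon (Subgroup.card_eq_one.mp h1)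
    · have h2 : Zs ⊓ Ys = Ys := Subgroup.eq_of_le_of_card_ge inf_le_right (by rw [h1, hYcard])
      have h3 : Ys ≤ Zs := by rw [← h2]; exact inf_le_left
      exact hyZ (h3 (Subgroup.mem_zpowers y))
  have hNcard : Nat.card ↥(Ys ⊔ Zs) = p ^ 2 := by
    have h1 : Zs.relIndex (Ys ⊔ Zs) = p := by
      rw [Subgroup.relIndex_sup_right, ← Subgroup.inf_relIndex_right, hinf,
        Subgroup.relIndex_bot_left, hYcard]
    have h2 := Subgroup.relIndex_mul_relIndex (H := ⊥) (K := Zs) (L := Ys ⊔ Zs) bot_le le_sup_right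
    rw [Subgroup.relIndex_bot_left, Subgroup.relIndex_bot_left, h1, hZcard] at h2
    rw [← h2, sq]
  have hNle : Ys ⊔ Zs ≤ f.ker := by
    apply sup_le
    · rw [Subgroup.zpowers_le, hker]
    · rw [Subgroup.zpowers_le, hker]
      exact (hzcen y).symm
  obtain ⟨x, hxk, hxN⟩ : ∃ x ∈ f.ker, x ∉ Ys ⊔ Zs := by
    by_contra hcon
    push Not at hcon
    have h1 : Nat.card f.ker ≤ Nat.card ↥(Ys ⊔ Zs) :=
      Subgroup.card_le_of_le (fun x hx => hcon x hx)
    rw [hNcard] at h1
    have h3 : p ^ 2 < p ^ 3 := Nat.pow_lt_pow_right hp.one_lt (by norm_num)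
    omega
  have hxy : x * y = y * x := (hker x).mp hxk
  let E : Subgroup R := Subgroup.closure {z, y, x}
  have hEc : IsMulCommutative E := Subgroup.isMulCommutative_closure (by
    intro a ha b hb
    simp only [Set.mem_insert_iff, Set.mem_singleton_iff] at ha hb
    rcases ha with ha | ha | ha <;> rcases hb with hb | hb | hb <;> rw [ha, hb]
    · exact (hzcen y).symm
    · exact (hzcen x).symm
    · exact hzcen y
    · exact hxy.symm
    · exact hzcen x
    · exact hxy)
  have hNE : Ys ⊔ Zs < E := by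
    refine lt_of_le_of_ne (sup_le ?_ ?_) ?_
    · rw [Subgroup.zpowers_le]; exact Subgroup.subset_closure (by simp)
    · rw [Subgroup.zpowers_le]; exact Subgroup.subset_closure (by simp)
    · intro h
      apply hxN
      rw [h]
      exact Subgroup.subset_closure (by simp)
  have h1 := hrank E hEc (fun a _ => hexp a)
  have h2 : Nat.card ↥(Ys ⊔ Zs) < Nat.card E :=
    lt_of_le_of_ne (Subgroup.card_le_of_le hNE.le)
      (fun hc => hNE.ne (Subgroup.eq_of_le_of_card_ge hNE.le (le_of_eq hc.symm)))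
  rw [hNcard] at h2
  omega

end Cfsg.Agent.S3771
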