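import Cfsg.Statements.S3772
import Mathlib
import Cfsg.Agent.S0012
import Cfsg.Agent.S0013

set_option autoImplicit false
set_option linter.style.haveILetI false
open Cfsg
open scoped commutatorElement

namespace Cfsg.Agent.S3772

theorem sum_mult {H : Type*} [Group H] [Fintype H] (f : H → ℤ)
    (hmul : ∀ x y, f (x * y) = f x * f y) (hval : ∀ x, f x = 1 ∨ f x = -1) :
    ((∀ x, f x = 1) ∧ ∑ x, f x = Fintype.card H) ∨ ((∃ x, f x = -1) ∧ ∑ x, f x = 0) := by
  by_cases h : ∀ x, f x = 1
  · left
    refine ⟨h, ?_⟩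
    simp [h]
  · right
    have h' : ∃ y₀, f y₀ ≠ 1 := by
      by_contra hcon
      exact h (fun x => by
        by_contra hx
        exact hcon ⟨x, hx⟩)
    obtain ⟨y₀, hy₀⟩ := h'
    have hy₀' : f y₀ = -1 := (hval y₀).resolve_left hy₀
    refine ⟨⟨y₀, hy₀'⟩, ?_⟩
    have h1 : ∑ x, f x = ∑ x, f (x * y₀) := (Equiv.sum_comp (Equiv.mulRight y₀) f).symm
    have h2 : ∑ x, f (x * y₀) = - ∑ x, f x := by
      rw [← Finset.sum_neg_distrib]
      apply Finset.sum_congr rfl
      intro x _
      rw [hmul, hy₀']; ring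
    linarith

theorem sq_pow_two {a e : ℕ} (h : a * a = 2 ^ e) : ∃ m, a = 2 ^ m ∧ m + m = e := by
  have hd : a ∣ 2 ^ e := ⟨a, h.symm⟩
  obtain ⟨m, -, hm⟩ := (Nat.dvd_prime_pow Nat.prime_two).mp hd
  refine ⟨m, hm, ?_⟩
  rw [hm, ← pow_add] at h
  exact Nat.pow_right_injective (le_refl 2) h

theorem exp_two_false {G : Type*} [Group G] [Finite G] (hG : IsPGroup 2 G)
    (hΦ : Nat.card (frattini G) = 2) (h : ∀ x : G, x ^ 2 = 1) : False := by
  have hcomm : ∀ x y : G, x * y = y * x := by
    intro x y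
    have h1 := h (x * y)
    have h2 := h x
    have h3 := h y
    rw [pow_two] at h1 h2 h3
    calc x * y = x * (x * y * (x * y)) * y := by rw [h1, mul_one]
      _ = (x * x) * y * x * (y * y) := by group
      _ = y * x := by rw [h2, h3, one_mul, mul_one]
  have hc : commutator G ≤ ⊥ := by
    rw [commutator_def, Subgroup.commutator_le]
    intro a _ b _
    rw [Subgroup.mem_bot, commutatorElement_def, hcomm a b]
    group
  have := Cfsg.Agent.S0013.result 2 hG ⊥ hc (fun x => by rw [Subgroup.mem_bot]; exact h x)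
  rw [le_bot_iff] at this
  rw [this, Subgroup.card_bot] at hΦ
  exact absurd hΦ (by norm_num)

/-- Let G be a finite 2-group whose Frattini subgroup Φ(G) has order 2, with |G : Φ(G)| = 2^d, and let j be the number of elements x of G with x² = 1. Then j = 2^d, or j = 2^d + 2^(d−r) or j = 2^d − 2^(d−r) for some positive integer r with 2r ≤ d. Moreover if d = 2r and j is 2^d + 2^r or 2^d − 2^r, then G is extraspecial. -/
theorem result {G : Type*} [Group G] [Finite G] (hG : IsPGroup 2 G) (hΦ : Nat.card (frattini G) = 2) (d : ℕ) (hd : (frattini G).index = 2 ^ d) : (Nat.card {x : G // x ^ 2 = 1} = 2 ^ d ∨ ∃ r : ℕ, 1 ≤ r ∧ 2 * r ≤ d ∧ (Nat.card {x : G // x ^ 2 = 1} = 2 ^ d + 2 ^ (d - r) ∨ Nat.card {x : G // x ^ 2 = 1} + 2 ^ (d - r) = 2 ^ d)) ∧ (∀ r : ℕ, d = 2 * r → (Nat.card {x : G // x ^ 2 = 1} = 2 ^ d + 2 ^ r ∨ Nat.card {x : G // x ^ 2 = 1} + 2 ^ r = 2 ^ d) → Cfsg.IsExtraspecial 2 G) := by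
  classical
  haveI : Fintype G := Fintype.ofFinite G
  haveI : Fact (Nat.Prime 2) := ⟨Nat.prime_two⟩
  obtain ⟨hcomΦ, hsqΦ⟩ := Cfsg.Agent.S0012.result 2 hG
  -- the two elements of Φ
  obtain ⟨⟨z, hzΦ⟩, hz1, hzuniq⟩ := (Nat.card_eq_two_iff' (1 : ↥(frattini G))).mp hΦ
  have hz1' : z ≠ 1 := fun h => hz1 (Subtype.ext h)
  have hΦel : ∀ u ∈ frattini G, u = 1 ∨ u = z := by
    intro u hu
    by_cases h : u = 1
    · exact Or.inl h
    · right
      have := hzuniq ⟨u, hu⟩ (fun h' => h (congrArg Subtype.val h'))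
      exact congrArg Subtype.val this
  have hzz : z * z = 1 := by
    rcases hΦel (z * z) (Subgroup.mul_mem _ hzΦ hzΦ) with h | h
    · exact h
    · exfalso; apply hz1'
      calc z = z⁻¹ * (z * z) := by group
        _ = 1 := by rw [h, inv_mul_cancel]
  have hzc : ∀ g : G, g * z = z * g := by
    intro g
    have hn : (frattini G).Normal := inferInstance
    rcases hΦel _ (hn.conj_mem z hzΦ g) with h | h
    · exfalso; apply hz1'
      calc z = g⁻¹ * (g * z * g⁻¹) * g := by group
        _ = 1 := by rw [h]; group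
    · calc g * z = (g * z * g⁻¹) * g := by group
        _ = z * g := by rw [h]
  have hΦc : ∀ u ∈ frattini G, ∀ g : G, g * u = u * g := by
    intro u hu g
    rcases hΦel u hu with h | h
    · rw [h, mul_one, one_mul]
    · rw [h]; exact hzc g
  have hcommΦ : ∀ x y : G, x⁻¹ * y⁻¹ * x * y ∈ frattini G := by
    intro x y
    apply hcomΦ
    have := Subgroup.commutator_mem_commutator (Subgroup.mem_top x⁻¹) (Subgroup.mem_top y⁻¹)
    rw [commutatorElement_def, inv_inv, inv_inv] at this
    exact this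
  -- characters
  obtain ⟨χ, hχ⟩ : ∃ χ : G → ℤ, ∀ u, χ u = if u = 1 then 1 else -1 := ⟨_, fun _ => rfl⟩
  obtain ⟨σ, hσ⟩ : ∃ σ : G → ℤ, ∀ x, σ x = χ (x ^ 2) := ⟨_, fun _ => rfl⟩
  have hχ1 : χ 1 = 1 := by rw [hχ, if_pos rfl]
  have hχz : χ z = -1 := by rw [hχ, if_neg hz1']
  have hχval : ∀ u, χ u = 1 ∨ χ u = -1 := by
    intro u
    rw [hχ]
    split_ifs
    · exact Or.inl rfl
    · exact Or.inr rfl
  have hχmul : ∀ u ∈ frattini G, ∀ v ∈ frattini G, χ (u * v) = χ u * χ v := by
    intro u hu v hv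
    rcases hΦel u hu with h | h
    · rw [h, one_mul, hχ1, one_mul]
    · rcases hΦel v hv with h' | h'
      · rw [h', mul_one, hχ1, mul_one]
      · rw [h, h', hzz, hχ1, hχz]; norm_num
  have hσval : ∀ x, σ x = 1 ∨ σ x = -1 := fun x => by rw [hσ]; exact hχval _
  have hσsq : ∀ x, σ x * σ x = 1 := by
    intro x
    rcases hσval x with h | h <;> rw [h] <;> norm_num
  have hσ1 : ∀ x, σ x = 1 ↔ x ^ 2 = 1 := by
    intro x
    rw [hσ, hχ]
    split_ifs with h
    · simp [h]
    · simp [h]
  -- key identity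
  have hkey : ∀ x u : G, σ (x * u) = σ x * σ u * χ (u⁻¹ * x⁻¹ * u * x) := by
    intro x u
    obtain ⟨c, hc⟩ : ∃ c, c = u⁻¹ * x⁻¹ * u * x := ⟨_, rfl⟩
    have hcΦ : c ∈ frattini G := by rw [hc]; exact hcommΦ u x
    have hcc : c * u = u * c := (hΦc c hcΦ u).symm
    have e : (x * u) ^ 2 = x ^ 2 * u ^ 2 * c := by
      rw [pow_two, pow_two, pow_two]
      calc x * u * (x * u) = x * (x * u * c) * u := by rw [hc]; group
        _ = x * x * u * (c * u) := by group
        _ = x * x * u * (u * c) := by rw [hcc]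
        _ = x * x * (u * u) * c := by group
    rw [hσ, hσ, hσ, e, ← hc, hχmul _ (Subgroup.mul_mem _ (hsqΦ x) (hsqΦ u)) _ hcΦ,
      hχmul _ (hsqΦ x) _ (hsqΦ u)]
  -- ψ_u is multiplicative
  have hψmul : ∀ u x y : G, χ (u⁻¹ * (x * y)⁻¹ * u * (x * y)) =
      χ (u⁻¹ * x⁻¹ * u * x) * χ (u⁻¹ * y⁻¹ * u * y) := by
    intro u x y
    have hcx := hcommΦ u x
    have hcy := hcommΦ u y
    have e : u⁻¹ * (x * y)⁻¹ * u * (x * y) = (u⁻¹ * x⁻¹ * u * x) * (u⁻¹ * y⁻¹ * u * y) := by
      have h1 := hΦc _ hcx (u⁻¹ * y⁻¹ * u)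
      calc u⁻¹ * (x * y)⁻¹ * u * (x * y) = (u⁻¹ * y⁻¹ * u) * (u⁻¹ * x⁻¹ * u * x) * y := by group
        _ = (u⁻¹ * x⁻¹ * u * x) * (u⁻¹ * y⁻¹ * u) * y := by rw [h1]
        _ = (u⁻¹ * x⁻¹ * u * x) * (u⁻¹ * y⁻¹ * u * y) := by group
    rw [e, hχmul _ hcx _ hcy]
  have hψsum : ∀ u : G, ∑ x : G, χ (u⁻¹ * x⁻¹ * u * x) =
      if u ∈ Subgroup.center G then (Fintype.card G : ℤ) else 0 := by
    intro u
    rcases sum_mult (fun x => χ (u⁻¹ * x⁻¹ * u * x)) (hψmul u) (fun x => hχval _) with h | h
    · obtain ⟨h1, h2⟩ := h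
      have hu : u ∈ Subgroup.center G := by
        rw [Subgroup.mem_center_iff]
        intro g
        have h3 := h1 g
        simp only [hχ] at h3
        have h4 : u⁻¹ * g⁻¹ * u * g = 1 := by
          by_contra hne
          rw [if_neg hne] at h3
          norm_num at h3
        calc g * u = u * g * (u⁻¹ * g⁻¹ * u * g)⁻¹ := by group
          _ = u * g := by rw [h4, inv_one, mul_one]
      rw [if_pos hu]; exact h2
    · obtain ⟨⟨g, hg⟩, h2⟩ := h
      have hu : u ∉ Subgroup.center G := by
        intro hu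
        rw [Subgroup.mem_center_iff] at hu
        have h4 : u⁻¹ * g⁻¹ * u * g = 1 := by
          have := hu g⁻¹
          calc u⁻¹ * g⁻¹ * u * g = u⁻¹ * (g⁻¹ * u) * g := by group
            _ = u⁻¹ * (u * g⁻¹) * g := by rw [this]
            _ = 1 := by group
        simp only [h4, hχ1] at hg
        norm_num at hg
      rw [if_neg hu]; exact h2
  -- S^2
  obtain ⟨S, hS⟩ : ∃ S : ℤ, S = ∑ x : G, σ x := ⟨_, rfl⟩
  obtain ⟨τ, hτ⟩ : ∃ τ : ℤ, τ = ∑ u : G, if u ∈ Subgroup.center G then σ u else 0 := ⟨_, rfl⟩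
  have hSS : S * S = (Fintype.card G : ℤ) * τ := by
    have h1 : S * S = ∑ x : G, ∑ u : G, σ x * σ (x * u) := by
      rw [hS, Finset.sum_mul]
      apply Finset.sum_congr rfl
      intro x _
      rw [Finset.mul_sum]
      exact (Equiv.sum_comp (Equiv.mulLeft x) (fun u => σ x * σ u)).symm
    have h2 : ∑ x : G, ∑ u : G, σ x * σ (x * u) =
        ∑ x : G, ∑ u : G, σ u * χ (u⁻¹ * x⁻¹ * u * x) := by
      apply Finset.sum_congr rfl
      intro x _
      apply Finset.sum_congr rfl
      intro u _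
      rw [hkey]
      calc σ x * (σ x * σ u * χ (u⁻¹ * x⁻¹ * u * x))
          = (σ x * σ x) * (σ u * χ (u⁻¹ * x⁻¹ * u * x)) := by ring
        _ = σ u * χ (u⁻¹ * x⁻¹ * u * x) := by rw [hσsq, one_mul]
    rw [h1, h2, Finset.sum_comm, hτ, Finset.mul_sum]
    apply Finset.sum_congr rfl
    intro u _
    rw [← Finset.mul_sum, hψsum]
    split_ifs <;> ring
  -- τ
  have hσZ : ∀ u ∈ Subgroup.center G, ∀ v : G, σ (v * u) = σ v * σ u := by
    intro u hu v
    rw [hkey]
    have : u⁻¹ * v⁻¹ * u * v = 1 := by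
      have := Subgroup.mem_center_iff.mp hu v⁻¹
      calc u⁻¹ * v⁻¹ * u * v = u⁻¹ * (v⁻¹ * u) * v := by group
        _ = u⁻¹ * (u * v⁻¹) * v := by rw [this]
        _ = 1 := by group
    rw [this, hχ1, mul_one]
  have hτcases : (τ = 0) ∨ (τ = (Nat.card (Subgroup.center G) : ℤ)) := by
    by_cases h : ∀ u ∈ Subgroup.center G, σ u = 1
    · right
      rw [hτ, Nat.card_eq_fintype_card, Fintype.card_subtype]
      rw [Finset.sum_ite, Finset.sum_const_zero, add_zero, Finset.card_eq_sum_ones]
      push_cast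
      apply Finset.sum_congr rfl
      intro u hu
      exact h u (Finset.mem_filter.mp hu).2
    · left
      have h' : ∃ y₀ ∈ Subgroup.center G, σ y₀ ≠ 1 := by
        by_contra hcon
        exact h (fun u hu => by
          by_contra hx
          exact hcon ⟨u, hu, hx⟩)
      obtain ⟨y₀, hy₀Z, hy₀⟩ := h'
      have hy₀' : σ y₀ = -1 := (hσval y₀).resolve_left hy₀
      have h1 : τ = ∑ u : G, if u * y₀ ∈ Subgroup.center G then σ (u * y₀) else 0 := by
        rw [hτ]
        exact (Equiv.sum_comp (Equiv.mulRight y₀)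
          (fun u => if u ∈ Subgroup.center G then σ u else 0)).symm
      have h2 : (∑ u : G, if u * y₀ ∈ Subgroup.center G then σ (u * y₀) else 0) = -τ := by
        rw [hτ, ← Finset.sum_neg_distrib]
        apply Finset.sum_congr rfl
        intro u _
        have hiff : u * y₀ ∈ Subgroup.center G ↔ u ∈ Subgroup.center G := by
          constructor
          · intro hh
            have := Subgroup.mul_mem _ hh (Subgroup.inv_mem _ hy₀Z)
            rwa [mul_inv_cancel_right] at this
          · intro hh; exact Subgroup.mul_mem _ hh hy₀Z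
        by_cases hu : u ∈ Subgroup.center G
        · rw [if_pos (hiff.mpr hu), if_pos hu, hσZ y₀ hy₀Z u, hy₀']; ring
        · rw [if_neg (fun hh => hu (hiff.mp hh)), if_neg hu]; ring
      linarith
  -- counting
  obtain ⟨j, hj⟩ : ∃ j : ℕ, j = (Finset.univ.filter (fun x : G => x ^ 2 = 1)).card := ⟨_, rfl⟩
  have hjcard : Nat.card {x : G // x ^ 2 = 1} = j := by
    rw [hj, Nat.card_eq_fintype_card, Fintype.card_subtype]
  have hcardG : Fintype.card G = 2 ^ (d + 1) := by
    have := (frattini G).card_mul_index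
    rw [hΦ, hd, Nat.card_eq_fintype_card] at this
    rw [← this]; ring
  have hSj : S = 2 * (j : ℤ) - 2 ^ (d + 1) := by
    have h1 : S = ∑ x : G, if x ^ 2 = 1 then (1 : ℤ) else -1 := by
      rw [hS]
      apply Finset.sum_congr rfl
      intro x _
      by_cases hx : x ^ 2 = 1
      · rw [if_pos hx]; exact (hσ1 x).mpr hx
      · rw [if_neg hx]
        exact (hσval x).resolve_left (fun h => hx ((hσ1 x).mp h))
    have h2 := Finset.card_filter_add_card_filter_not (s := (Finset.univ : Finset G))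
      (fun x : G => x ^ 2 = 1)
    rw [Finset.card_univ, hcardG, ← hj] at h2
    rw [h1, Finset.sum_ite, Finset.sum_const, Finset.sum_const, ← hj]
    have h3 : ((Finset.univ.filter (fun x : G => ¬ x ^ 2 = 1)).card : ℤ) = 2 ^ (d + 1) - j := by
      have : ((j + (Finset.univ.filter (fun x : G => ¬ x ^ 2 = 1)).card : ℕ) : ℤ) = ((2 ^ (d + 1) : ℕ) : ℤ) := by
        rw [h2]
      push_cast at this
      linarith
    simp only [nsmul_eq_mul, mul_one, mul_neg]
    rw [h3]; ring
  have hjpos : 1 ≤ j := by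
    rw [hj]
    apply Finset.card_pos.mpr
    exact ⟨1, by simp⟩
  -- center
  obtain ⟨c, hc⟩ := IsPGroup.iff_card.mp (hG.to_subgroup (Subgroup.center G))
  have hΦZ : frattini G ≤ Subgroup.center G := by
    intro u hu
    rw [Subgroup.mem_center_iff]
    exact hΦc u hu
  have hc1 : 1 ≤ c := by
    have h1 := Subgroup.card_le_of_le hΦZ
    rw [hΦ, hc] at h1
    by_contra h0
    have : c = 0 := by omega
    rw [this] at h1
    norm_num at h1
  have hcd : c ≤ d + 1 := by
    have h1 : Nat.card (Subgroup.center G) ≤ Nat.card G := Subgroup.card_le_card_group _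
    rw [hc, Nat.card_eq_fintype_card, hcardG] at h1
    exact (Nat.pow_le_pow_iff_right (by norm_num)).mp h1
  -- main dichotomy
  have hmain : j = 2 ^ d ∨ ∃ m, m + m = d + c - 1 ∧ m < d ∧ (j = 2 ^ d + 2 ^ m ∨ j + 2 ^ m = 2 ^ d) := by
    rcases hτcases with h | h
    · left
      rw [h, mul_zero] at hSS
      have hS0 : S = 0 := by
        rcases mul_eq_zero.mp hSS with h' | h' <;> exact h'
      rw [hSj, pow_succ] at hS0
      have : (j : ℤ) = 2 ^ d := by linarith
      exact_mod_cast this
    · right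
      rw [h, hc, hcardG, hSj] at hSS
      obtain ⟨a, ha⟩ : ∃ a : ℕ, a = Int.natAbs ((j : ℤ) - 2 ^ d) := ⟨_, rfl⟩
      have haa : ((a * a : ℕ) : ℤ) = ((j : ℤ) - 2 ^ d) * ((j : ℤ) - 2 ^ d) := by
        rw [ha, Nat.cast_mul]; exact Int.natAbs_mul_self' _
      have hpw : ((a * a : ℕ) : ℤ) = ((2 ^ (d + c - 1) : ℕ) : ℤ) := by
        rw [haa]
        have e1 : (2 : ℤ) ^ (d + 1) = 2 * 2 ^ d := by rw [pow_succ]; ring
        have e2 : (((2 ^ (d + 1) : ℕ) : ℤ)) * ((2 ^ c : ℕ) : ℤ) = 4 * ((2 ^ (d + c - 1) : ℕ) : ℤ) := by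
          push_cast
          have : d + 1 + c = (d + c - 1) + 2 := by omega
          rw [← pow_add, this, pow_add]; ring
        rw [e2, e1] at hSS
        linarith
      have hpw' : a * a = 2 ^ (d + c - 1) := by exact_mod_cast hpw
      obtain ⟨m, ham, hm⟩ := sq_pow_two hpw'
      have hcases : (j : ℤ) = 2 ^ d + 2 ^ m ∨ (j : ℤ) + 2 ^ m = 2 ^ d := by
        have h3 := Int.natAbs_eq ((j : ℤ) - 2 ^ d)
        rw [← ha, ham] at h3
        push_cast at h3
        rcases h3 with h3 | h3
        · left; linarith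
        · right; linarith
      have hcases' : j = 2 ^ d + 2 ^ m ∨ j + 2 ^ m = 2 ^ d := by
        rcases hcases with h3 | h3
        · left; exact_mod_cast h3
        · right; exact_mod_cast h3
      have hmd : m < d := by
        by_contra hge
        have hc' : c = d + 1 ∨ c = d := by omega
        rcases hc' with hc' | hc'
        · have hmeq : m = d := by omega
          rw [hmeq] at hcases'
          rcases hcases' with h3 | h3
          · -- j = |G|
            have hall : ∀ x : G, x ^ 2 = 1 := by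
              have h4 : (Finset.univ.filter (fun x : G => x ^ 2 = 1)).card = (Finset.univ : Finset G).card := by
                rw [← hj, Finset.card_univ, hcardG, h3, pow_succ]; ring
              have h5 := (Finset.card_eq_iff_eq_univ _).mp (by rw [h4, Finset.card_univ])
              intro x
              have : x ∈ Finset.univ.filter (fun x : G => x ^ 2 = 1) := by rw [h5]; exact Finset.mem_univ x
              exact (Finset.mem_filter.mp this).2
            exact exp_two_false hG hΦ hall
          · have := Nat.pos_of_ne_zero (pow_ne_zero d (by norm_num : (2:ℕ) ≠ 0))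
            omega
        · omega
      exact ⟨m, hm, hmd, hcases'⟩
  rw [hjcard]
  constructor
  · rcases hmain with h | ⟨m, hm, hmd, hcases⟩
    · exact Or.inl h
    · right
      refine ⟨d - m, by omega, by omega, ?_⟩
      have : d - (d - m) = m := by omega
      rw [this]; exact hcases
  · intro r hdr hjr
    have hpd : 0 < 2 ^ d := Nat.pos_of_ne_zero (pow_ne_zero d (by norm_num : (2:ℕ) ≠ 0))
    have hpr : 0 < 2 ^ r := Nat.pos_of_ne_zero (pow_ne_zero r (by norm_num : (2:ℕ) ≠ 0))
    rcases hmain with h | ⟨m, hm, hmd, hcases⟩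
    · exfalso; omega
    · have hpm : 0 < 2 ^ m := Nat.pos_of_ne_zero (pow_ne_zero m (by norm_num : (2:ℕ) ≠ 0))
      have hmr : 2 ^ m = 2 ^ r := by omega
      have hmr' : m = r := Nat.pow_right_injective (le_refl 2) hmr
      have hc1' : c = 1 := by omega
      rw [hc1', pow_one] at hc
      have hΦeq : frattini G = Subgroup.center G :=
        Subgroup.eq_of_le_of_card_ge hΦZ (by rw [hc, hΦ])
      have hcomeq : commutator G = Subgroup.center G := by
        rw [← hΦeq]
        apply Subgroup.eq_of_le_of_card_ge hcomΦ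
        rw [hΦ]
        have hne : commutator G ≠ ⊥ := by
          intro hbot
          -- G abelian, so centre is everything
          have hab : ∀ x y : G, x * y = y * x := by
            intro x y
            have h1 :=
              Subgroup.commutator_mem_commutator (Subgroup.mem_top x) (Subgroup.mem_top y)
            rw [← commutator_def, hbot, Subgroup.mem_bot, commutatorElement_def] at h1
            calc x * y = (x * y * x⁻¹ * y⁻¹) * y * x := by group
              _ = y * x := by rw [h1, one_mul]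
          have hZtop : Subgroup.center G = ⊤ := by
            rw [eq_top_iff]
            intro u _
            rw [Subgroup.mem_center_iff]
            intro g; exact hab g u
          rw [hZtop, Subgroup.card_top, Nat.card_eq_fintype_card, hcardG] at hc
          have hd0 : d = 0 := by
            have : 2 ^ (d + 1) = 2 ^ 1 := by rw [hc, pow_one]
            have := Nat.pow_right_injective (le_refl 2) this
            omega
          omega
        have h1 : Nat.card (commutator G) ∣ 2 := by
          rw [← hΦ]; exact Subgroup.card_dvd_of_le hcomΦ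
        have h2 : Nat.card (commutator G) ≠ 1 := by
          intro h; exact hne (Subgroup.card_eq_one.mp h)
        rcases (Nat.dvd_prime Nat.prime_two).mp h1 with h | h
        · exact absurd h h2
        · exact h.ge
      exact ⟨⟨hG, hΦeq, hcomeq⟩, hc⟩

end Cfsg.Agent.S3772
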