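import Cfsg.Statements.S3773
import Mathlib
import Cfsg.Agent.S3772
import Cfsg.Agent.S0012
import Cfsg.Agent.S0013

set_option autoImplicit false
set_option linter.style.haveILetI false
open Cfsg
open scoped commutatorElement

namespace Cfsg.Agent.S3773

theorem unit_val (u : ℤˣ) : (u : ℤ) = 1 ∨ (u : ℤ) = -1 := by
  rcases Int.units_eq_one_or u with h | h
  · left; rw [h]; rfl
  · right; rw [h]; rfl

theorem two_pow_dvd_of_sq (t : ℕ) (S : ℤ) (h : (2 : ℤ) ^ t ∣ S ^ 2) :
    (2 : ℤ) ^ ((t + 1) / 2) ∣ S := by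
  by_cases hS : S = 0
  · rw [hS]; exact dvd_zero _
  · have hn : S.natAbs ≠ 0 := Int.natAbs_ne_zero.mpr hS
    have h1 : 2 ^ t ∣ S.natAbs ^ 2 := by
      have := Int.natAbs_dvd_natAbs.mpr h
      rw [Int.natAbs_pow, Int.natAbs_pow] at this
      simpa using this
    have h2 : t ≤ (S.natAbs ^ 2).factorization 2 :=
      (Nat.prime_two.pow_dvd_iff_le_factorization (pow_ne_zero 2 hn)).mp h1
    rw [Nat.factorization_pow] at h2
    have h3 : (t + 1) / 2 ≤ S.natAbs.factorization 2 := by
      simp only [Finsupp.smul_apply, smul_eq_mul] at h2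
      omega
    have h4 : 2 ^ ((t + 1) / 2) ∣ S.natAbs :=
      (Nat.prime_two.pow_dvd_iff_le_factorization hn).mpr h3
    have h5 : ((2 ^ ((t + 1) / 2) : ℕ) : ℤ) ∣ S := Int.natCast_dvd.mpr h4
    simpa using h5

theorem hasEnough2 : HasEnoughRootsOfUnity ℤ 2 := by
  apply HasEnoughRootsOfUnity.of_card_le
  have h : rootsOfUnity 2 ℤ = ⊤ := by
    ext u
    simp [mem_rootsOfUnity]
  rw [h, Subgroup.card_top]
  simp

/-- Character-sum bound for "quadratic maps" on a 2-group with values in an elementary abelian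
2-group. -/
theorem core {G : Type*} [Group G] [Finite G] (hG : IsPGroup 2 G) {W : Type*} [CommGroup W]
    [Finite W] (hW2 : ∀ w : W, w ^ 2 = 1) (q : G → W) (β : G → G → W)
    (hq : ∀ x y, q (x * y) = q x * q y * β x y)
    (hβl : ∀ x y z, β (x * y) z = β x z * β y z)
    (hβr : ∀ x y z, β x (y * z) = β x y * β x z)
    (hβa : ∀ x, β x x = 1)
    (C : Subgroup G) (hC : ∀ c ∈ C, ∀ x, β x c = 1) :
    Nat.card G * Nat.card C ≤ (Nat.card W * Nat.card {x : G // q x = 1}) ^ 2 := by
  classical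
  haveI : Fact (Nat.Prime 2) := ⟨Nat.prime_two⟩
  haveI : Fintype G := Fintype.ofFinite G
  haveI : Fintype W := Fintype.ofFinite W
  haveI h2 : HasEnoughRootsOfUnity ℤ 2 := hasEnough2
  haveI : NeZero (2 : ℕ) := ⟨by norm_num⟩
  haveI hE : HasEnoughRootsOfUnity ℤ (Monoid.exponent W) :=
    HasEnoughRootsOfUnity.of_dvd ℤ (Monoid.exponent_dvd_of_forall_pow_eq_one hW2)
  haveI : Fintype (W →* ℤˣ) := Fintype.ofFinite _
  have hβ1 : ∀ x, β x 1 = 1 := by
    intro x
    have := hβr x 1 1
    rw [mul_one] at this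
    exact mul_eq_left.mp this.symm
  have hβinv : ∀ x, β x x⁻¹ = 1 := by
    intro x
    have := hβr x x x⁻¹
    rw [mul_inv_cancel, hβ1, hβa, one_mul] at this
    exact this.symm
  have key : ∀ x z, q z = q x * q (x⁻¹ * z) * β x z := by
    intro x z
    have := hq x (x⁻¹ * z)
    rw [mul_inv_cancel_left, hβr, hβinv, one_mul] at this
    exact this
  have gauss : ∀ χ : W →* ℤˣ, ∃ R : Subgroup G, C ≤ R ∧
      ((∑ x : G, ((χ (q x) : ℤˣ) : ℤ)) ^ 2 = (Nat.card G : ℤ) * (Nat.card R : ℤ) ∨
        (∑ x : G, ((χ (q x) : ℤˣ) : ℤ)) = 0) := by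
    intro χ
    let R : Subgroup G :=
      { carrier := {z | ∀ x, χ (β x z) = 1}
        one_mem' := by
          intro x
          rw [hβ1, map_one]
        mul_mem' := by
          intro a b ha hb x
          show χ (β x (a * b)) = 1
          rw [hβr, map_mul, ha x, hb x, one_mul]
        inv_mem' := by
          intro a ha x
          show χ (β x a⁻¹) = 1
          have h := hβr x a a⁻¹
          rw [mul_inv_cancel, hβ1] at h
          have h' := congrArg χ h
          rw [map_one, map_mul, ha x, one_mul] at h'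
          exact h'.symm }
    have hRmem : ∀ z, z ∈ R ↔ ∀ x, χ (β x z) = 1 := fun z => Iff.rfl
    refine ⟨R, fun c hc => (hRmem c).mpr (fun x => by rw [hC c hc x, map_one]), ?_⟩
    set f : G → ℤ := fun x => ((χ (q x) : ℤˣ) : ℤ) with hf
    have hfval : ∀ x, f x = 1 ∨ f x = -1 := fun x => unit_val _
    have hinner : ∀ z : G, ∑ x : G, ((χ (β x z) : ℤˣ) : ℤ)
        = if z ∈ R then (Nat.card G : ℤ) else 0 := by
      intro z
      have hm := Cfsg.Agent.S3772.sum_mult (H := G) (fun x => ((χ (β x z) : ℤˣ) : ℤ))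
        (fun x y => by simp only [hβl, map_mul, Units.val_mul]) (fun x => unit_val _)
      rcases hm with ⟨h1, h2⟩ | ⟨⟨x0, hx0⟩, h2⟩
      · have hz : z ∈ R := (hRmem z).mpr (fun x => Units.ext (h1 x))
        rw [if_pos hz, h2, Nat.card_eq_fintype_card]
      · have hz : z ∉ R := by
          intro hz
          have := (hRmem z).mp hz x0
          simp only [this] at hx0
          norm_num at hx0
        rw [if_neg hz, h2]
    have hsq : (∑ x, f x) ^ 2 = ∑ z, f z * (if z ∈ R then (Nat.card G : ℤ) else 0) := by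
      rw [sq, Finset.sum_mul_sum]
      have h1 : ∀ x : G, ∑ y, f x * f y = ∑ z, f z * ((χ (β x z) : ℤˣ) : ℤ) := by
        intro x
        rw [← Equiv.sum_comp (Equiv.mulLeft x⁻¹) (fun y => f x * f y)]
        apply Finset.sum_congr rfl
        intro z _
        simp only [Equiv.coe_mulLeft]
        have hk : f z = f x * f (x⁻¹ * z) * ((χ (β x z) : ℤˣ) : ℤ) := by
          have := congrArg (fun w => ((χ w : ℤˣ) : ℤ)) (key x z)
          simp only [map_mul, Units.val_mul] at this
          exact this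
        have hb := unit_val (χ (β x z))
        rw [hk]
        rcases hb with hb | hb <;> rw [hb] <;> ring
      rw [Finset.sum_congr rfl (fun x _ => h1 x), Finset.sum_comm]
      apply Finset.sum_congr rfl
      intro z _
      rw [← Finset.mul_sum, hinner z]
    have hR : ∑ z, f z * (if z ∈ R then (Nat.card G : ℤ) else 0)
        = (Nat.card G : ℤ) * ∑ z : R, f z := by
      have e1 : ∀ z, f z * (if z ∈ R then (Nat.card G : ℤ) else 0)
          = if z ∈ R then (Nat.card G : ℤ) * f z else 0 := by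
        intro z
        split_ifs
        · ring
        · ring
      rw [Finset.sum_congr rfl (fun z _ => e1 z), ← Finset.sum_filter, ← Finset.mul_sum]
      congr 1
      exact Finset.sum_subtype (Finset.univ.filter (· ∈ R)) (by simp) f
    have hmR := Cfsg.Agent.S3772.sum_mult (H := R) (fun z => f (z : G))
      (fun z w => by
        have h1 := hq (z : G) (w : G)
        have h2 := (hRmem (w : G)).mp w.2 (z : G)
        have := congrArg (fun u => ((χ u : ℤˣ) : ℤ)) h1
        simp only [map_mul, Units.val_mul, h2, mul_one] at this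
        exact this) (fun z => hfval _)
    rcases hmR with ⟨-, h2⟩ | ⟨-, h2⟩
    · left
      rw [hsq, hR, h2, Nat.card_eq_fintype_card (α := R)]
    · right
      have : (∑ x, f x) ^ 2 = 0 := by rw [hsq, hR, h2, mul_zero]
      exact pow_eq_zero_iff (two_ne_zero) |>.mp this
  have horth : ∀ w : W, ∑ χ : W →* ℤˣ, ((χ w : ℤˣ) : ℤ)
      = if w = 1 then (Nat.card W : ℤ) else 0 := by
    intro w
    by_cases hw : w = 1
    · rw [if_pos hw, hw]
      simp only [map_one, Units.val_one, Finset.sum_const, Finset.card_univ, nsmul_eq_mul, mul_one]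
      rw [← CommGroup.card_monoidHom_of_hasEnoughRootsOfUnity W ℤ, Nat.card_eq_fintype_card]
    · rw [if_neg hw]
      obtain ⟨φ, hφ⟩ := CommGroup.exists_apply_ne_one_of_hasEnoughRootsOfUnity W ℤ hw
      have hφ' : ((φ w : ℤˣ) : ℤ) = -1 := by
        rcases Int.units_eq_one_or (φ w) with h | h
        · exact absurd h hφ
        · rw [h]; rfl
      have h1 : ∑ χ : W →* ℤˣ, ((χ w : ℤˣ) : ℤ) = ∑ χ : W →* ℤˣ, (((φ * χ) w : ℤˣ) : ℤ) :=
        (Equiv.sum_comp (Equiv.mulLeft φ) (fun χ : W →* ℤˣ => ((χ w : ℤˣ) : ℤ))).symm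
      have h2 : ∑ χ : W →* ℤˣ, (((φ * χ) w : ℤˣ) : ℤ) = - ∑ χ : W →* ℤˣ, ((χ w : ℤˣ) : ℤ) := by
        rw [← Finset.sum_neg_distrib]
        apply Finset.sum_congr rfl
        intro χ _
        rw [MonoidHom.mul_apply, Units.val_mul, hφ']
        ring
      linarith
  have hsum : ∑ χ : W →* ℤˣ, ∑ x : G, ((χ (q x) : ℤˣ) : ℤ)
      = (Nat.card W : ℤ) * (Nat.card {x : G // q x = 1} : ℤ) := by
    rw [Finset.sum_comm]
    rw [Finset.sum_congr rfl (fun x _ => horth (q x))]
    rw [← Finset.sum_filter, Finset.sum_const, nsmul_eq_mul, mul_comm]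
    congr 1
    rw [Nat.card_eq_fintype_card, Fintype.card_subtype]
  obtain ⟨g, hg⟩ := IsPGroup.iff_card.mp hG
  obtain ⟨z, hz⟩ := IsPGroup.iff_card.mp (hG.to_subgroup C)
  have hdiv : ∀ χ : W →* ℤˣ, (2 : ℤ) ^ ((g + z + 1) / 2) ∣ ∑ x : G, ((χ (q x) : ℤˣ) : ℤ) := by
    intro χ
    obtain ⟨R, hCR, h | h⟩ := gauss χ
    · apply two_pow_dvd_of_sq
      rw [h]
      obtain ⟨k, hk⟩ := Subgroup.card_dvd_of_le hCR
      rw [hk, hg, hz]
      refine ⟨k, ?_⟩
      push_cast
      rw [pow_add]; ring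
    · rw [h]; exact dvd_zero _
  have hD : (2 : ℤ) ^ ((g + z + 1) / 2)
      ∣ (Nat.card W : ℤ) * (Nat.card {x : G // q x = 1} : ℤ) := by
    rw [← hsum]
    exact Finset.dvd_sum (fun χ _ => hdiv χ)
  have hD' : 2 ^ ((g + z + 1) / 2) ∣ Nat.card W * Nat.card {x : G // q x = 1} := by
    have : (((2 ^ ((g + z + 1) / 2) : ℕ)) : ℤ)
        ∣ ((Nat.card W * Nat.card {x : G // q x = 1} : ℕ) : ℤ) := by
      push_cast; exact hD
    exact Int.natCast_dvd_natCast.mp this
  have hq1 : q 1 = 1 := by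
    have := hq 1 1
    rw [mul_one, hβa, mul_one] at this
    exact mul_eq_left.mp this.symm
  haveI : Nonempty {x : G // q x = 1} := ⟨⟨1, hq1⟩⟩
  have hpos : 0 < Nat.card W * Nat.card {x : G // q x = 1} :=
    Nat.mul_pos Nat.card_pos Nat.card_pos
  have hle := Nat.le_of_dvd hpos hD'
  calc Nat.card G * Nat.card C = 2 ^ (g + z) := by rw [hg, hz, pow_add]
    _ ≤ 2 ^ (2 * ((g + z + 1) / 2)) := Nat.pow_le_pow_right (by norm_num) (by omega)
    _ = (2 ^ ((g + z + 1) / 2)) ^ 2 := by rw [← pow_mul, mul_comm]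
    _ ≤ _ := Nat.pow_le_pow_left hle 2

/-- `core` for a target group that is only known to have exponent two. -/
theorem core' {G : Type*} [Group G] [Finite G] (hG : IsPGroup 2 G) {W : Type*} [Group W]
    [Finite W] (hW2 : ∀ w : W, w ^ 2 = 1) (q : G → W) (β : G → G → W)
    (hq : ∀ x y, q (x * y) = q x * q y * β x y)
    (hβl : ∀ x y z, β (x * y) z = β x z * β y z)
    (hβr : ∀ x y z, β x (y * z) = β x y * β x z)
    (hβa : ∀ x, β x x = 1)
    (C : Subgroup G) (hC : ∀ c ∈ C, ∀ x, β x c = 1) :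
    Nat.card G * Nat.card C ≤ (Nat.card W * Nat.card {x : G // q x = 1}) ^ 2 := by
  have hcomm : ∀ a b : W, a * b = b * a := by
    intro a b
    have ha : a⁻¹ = a := by rw [inv_eq_iff_mul_eq_one, ← sq]; exact hW2 a
    have hb : b⁻¹ = b := by rw [inv_eq_iff_mul_eq_one, ← sq]; exact hW2 b
    have hab : (a * b)⁻¹ = a * b := by rw [inv_eq_iff_mul_eq_one, ← sq]; exact hW2 (a * b)
    calc a * b = (a * b)⁻¹ := hab.symm
      _ = b⁻¹ * a⁻¹ := mul_inv_rev a b
      _ = b * a := by rw [ha, hb]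
  letI cg : CommGroup W := { (inferInstance : Group W) with mul_comm := hcomm }
  exact core hG hW2 q β hq hβl hβr hβa C hC

section cls2

variable {G : Type*} [Group G]

/-- The commutator `x y x⁻¹ y⁻¹`. -/
def cm (x y : G) : G := x * y * x⁻¹ * y⁻¹

theorem cm_central (hcl : (⊤ : Subgroup G).lowerCentralSeries 2 = ⊥) (x y z : G) :
    z * cm x y = cm x y * z := by
  have h1 : ⁅x, y⁆ ∈ (⊤ : Subgroup G).lowerCentralSeries 1 := by
    rw [Subgroup.lowerCentralSeries_succ, Subgroup.lowerCentralSeries_zero]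
    exact Subgroup.commutator_mem_commutator (Subgroup.mem_top x) (Subgroup.mem_top y)
  have h2 : ⁅⁅x, y⁆, z⁆ ∈ (⊤ : Subgroup G).lowerCentralSeries 2 := by
    rw [Subgroup.lowerCentralSeries_succ]
    exact Subgroup.commutator_mem_commutator h1 (Subgroup.mem_top z)
  rw [hcl, Subgroup.mem_bot, commutatorElement_def, commutatorElement_def] at h2
  exact (mul_inv_eq_iff_eq_mul.mp (mul_inv_eq_one.mp h2)).symm

variable (hc : ∀ x y z : G, z * cm x y = cm x y * z)
include hc

theorem cm_mul_left (x y z : G) : cm (x * y) z = cm x z * cm y z := by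
  have h1 : cm (x * y) z = x * cm y z * x⁻¹ * cm x z := by unfold cm; group
  rw [h1, hc y z x, mul_assoc (cm y z) x, mul_inv_cancel, mul_one]
  exact hc x z (cm y z)

theorem cm_mul_right (x y z : G) : cm x (y * z) = cm x y * cm x z := by
  have h1 : cm x (y * z) = cm x y * (y * cm x z * y⁻¹) := by unfold cm; group
  rw [h1, hc x z y, mul_assoc (cm x z) y, mul_inv_cancel, mul_one]

theorem sq_mul (x y : G) : (x * y) ^ 2 = x ^ 2 * y ^ 2 * cm y x := by
  have h1 : (x * y) ^ 2 = x * cm y x * x * y * y := by rw [sq]; unfold cm; group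
  rw [h1, hc y x x, hc y x (x ^ 2 * y ^ 2)]
  simp only [sq, mul_assoc]

theorem cm_sq (hexp : ∀ x : G, x ^ 4 = 1) (x y : G) : cm y x ^ 2 = 1 := by
  have h1 : cm (x ^ 2) (y ^ 2) = 1 := by
    rw [sq x, cm_mul_left hc, sq y, cm_mul_right hc]
    have := hexp (cm x y)
    rw [← this]
    simp only [pow_succ, pow_zero, one_mul, mul_assoc]
  have h2 : Commute (x ^ 2) (y ^ 2) := by
    have e : x ^ 2 * y ^ 2 = cm (x ^ 2) (y ^ 2) * y ^ 2 * x ^ 2 := by unfold cm; group
    rw [h1, one_mul] at e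
    exact e
  have h3 : Commute (x ^ 2 * y ^ 2) (cm y x) := hc y x (x ^ 2 * y ^ 2)
  have h4 : (x * y) ^ 4 = 1 := hexp _
  have h5 : (x * y) ^ 4 = ((x * y) ^ 2) ^ 2 := by rw [← pow_mul]
  rw [h5, sq_mul hc, h3.mul_pow, h2.mul_pow, ← pow_mul, ← pow_mul, hexp, hexp, one_mul,
    one_mul] at h4
  exact h4

theorem sq_central (hexp : ∀ x : G, x ^ 4 = 1) (x y : G) : y * x ^ 2 = x ^ 2 * y := by
  have h1 : cm (x ^ 2) y = 1 := by
    rw [sq x, cm_mul_left hc, ← sq]
    exact cm_sq hc hexp y x
  have e : x ^ 2 * y = cm (x ^ 2) y * y * x ^ 2 := by unfold cm; group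
  rw [h1, one_mul] at e
  exact e.symm

end cls2

/-- Let G be a finite 2-group of nilpotency class at most 2 and exponent dividing 4 in which the elements x with x² = 1 form a subgroup N. Then |G| ≤ |N|³, and |G| < |N|³ unless G is special. -/
theorem result {G : Type*} [Group G] [Finite G] (hG : IsPGroup 2 G) (hcl : (⊤ : Subgroup G).lowerCentralSeries 2 = ⊥) (hexp : ∀ x : G, x ^ 4 = 1) (hN : ∀ x y : G, x ^ 2 = 1 → y ^ 2 = 1 → (x * y) ^ 2 = 1) : Nat.card G ≤ Nat.card {x : G // x ^ 2 = 1} ^ 3 ∧ (¬ Cfsg.IsSpecial 2 G → Nat.card G < Nat.card {x : G // x ^ 2 = 1} ^ 3) := by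
  haveI : Fact (Nat.Prime 2) := ⟨Nat.prime_two⟩
  have hc : ∀ x y z : G, z * cm x y = cm x y * z := cm_central hcl
  have hcs : ∀ x y : G, cm x y ^ 2 = 1 := fun x y => cm_sq hc hexp y x
  have hsqc : ∀ x y : G, y * x ^ 2 = x ^ 2 * y := sq_central hc hexp
  have hsq2 : ∀ x : G, (x ^ 2) ^ 2 = 1 := fun x => by rw [← pow_mul]; exact hexp x
  let N : Subgroup G :=
    { carrier := {x | x ^ 2 = 1}
      one_mem' := one_pow 2
      mul_mem' := fun {a b} ha hb => hN a b ha hb
      inv_mem' := fun {a} ha => by show a⁻¹ ^ 2 = 1; rw [inv_pow, ha, inv_one] }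
  have hNmem : ∀ x, x ∈ N ↔ x ^ 2 = 1 := fun x => Iff.rfl
  have hcardN : Nat.card {x : G // x ^ 2 = 1} = Nat.card N :=
    Nat.card_congr (Equiv.subtypeEquivRight (fun x => (hNmem x).symm))
  have hcentral : ∀ x : G, x ^ 2 ∈ Subgroup.center G := fun x =>
    Subgroup.mem_center_iff.mpr (fun y => hsqc x y)
  have hcmcentral : ∀ x y : G, cm x y ∈ Subgroup.center G := fun x y =>
    Subgroup.mem_center_iff.mpr (fun z => hc x y z)
  -- the main inequality
  let M : Subgroup G := N ⊓ Subgroup.center G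
  let q : G → M := fun x => ⟨x ^ 2, ⟨(hNmem _).mpr (hsq2 x), hcentral x⟩⟩
  let β : G → G → M := fun x y => ⟨cm y x, ⟨(hNmem _).mpr (hcs y x), hcmcentral y x⟩⟩
  have hW2 : ∀ w : M, w ^ 2 = 1 := fun w => Subtype.ext ((hNmem _).mp w.2.1)
  have hmain := core' hG hW2 q β
    (fun x y => Subtype.ext (sq_mul hc x y))
    (fun x y z => Subtype.ext (cm_mul_right hc z x y))
    (fun x y z => Subtype.ext (cm_mul_left hc y z x))
    (fun x => Subtype.ext (by show cm x x = 1; unfold cm; group))
    (Subgroup.center G)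
    (fun c hcc x => Subtype.ext (by
      show cm c x = 1
      unfold cm
      rw [← Subgroup.mem_center_iff.mp hcc x]
      group))
  have hqcard : Nat.card {x : G // q x = 1} = Nat.card N := by
    rw [← hcardN]
    exact Nat.card_congr (Equiv.subtypeEquivRight
      (fun x => ⟨fun h => congrArg Subtype.val h, fun h => Subtype.ext h⟩))
  rw [hqcard] at hmain
  rw [hcardN]
  have hwz : Nat.card M ≤ Nat.card (Subgroup.center G) := Subgroup.card_le_of_le inf_le_right
  have hwn : Nat.card M ≤ Nat.card N := Subgroup.card_le_of_le inf_le_left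
  have hwpos : 0 < Nat.card M := Nat.card_pos
  have hnpos : 0 < Nat.card N := Nat.card_pos
  have hapos : 0 < Nat.card G := Nat.card_pos
  have hb1 : Nat.card G ≤ Nat.card M * Nat.card N ^ 2 := by
    have h1 : Nat.card M * Nat.card G ≤ Nat.card M * (Nat.card M * Nat.card N ^ 2) := by
      calc Nat.card M * Nat.card G = Nat.card G * Nat.card M := mul_comm _ _
        _ ≤ Nat.card G * Nat.card (Subgroup.center G) := Nat.mul_le_mul_left _ hwz
        _ ≤ (Nat.card M * Nat.card N) ^ 2 := hmain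
        _ = Nat.card M * (Nat.card M * Nat.card N ^ 2) := by ring
    exact Nat.le_of_mul_le_mul_left h1 hwpos
  have hb2 : Nat.card G ≤ Nat.card N ^ 3 := by
    calc Nat.card G ≤ Nat.card M * Nat.card N ^ 2 := hb1
      _ ≤ Nat.card N * Nat.card N ^ 2 := Nat.mul_le_mul_right _ hwn
      _ = Nat.card N ^ 3 := by ring
  refine ⟨hb2, fun hns => ?_⟩
  by_contra hge
  apply hns
  have heq : Nat.card G = Nat.card N ^ 3 := le_antisymm hb2 (not_lt.mp hge)
  -- M = N
  have hMN : Nat.card N ≤ Nat.card M := by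
    have h1 : Nat.card N ^ 2 * Nat.card N ≤ Nat.card N ^ 2 * Nat.card M := by
      calc Nat.card N ^ 2 * Nat.card N = Nat.card G := by rw [heq]; ring
        _ ≤ Nat.card M * Nat.card N ^ 2 := hb1
        _ = Nat.card N ^ 2 * Nat.card M := mul_comm _ _
    exact Nat.le_of_mul_le_mul_left h1 (pow_pos hnpos 2)
  have hMeq : M = N := Subgroup.eq_of_le_of_card_ge inf_le_left hMN
  have hNZ : N ≤ Subgroup.center G := by rw [← hMeq]; exact inf_le_right
  have hZN : Nat.card (Subgroup.center G) ≤ Nat.card N := by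
    have h1 : Nat.card G * Nat.card (Subgroup.center G) ≤ Nat.card G * Nat.card N := by
      calc Nat.card G * Nat.card (Subgroup.center G) ≤ (Nat.card M * Nat.card N) ^ 2 := hmain
        _ = (Nat.card N * Nat.card N) ^ 2 := by rw [hMeq]
        _ = Nat.card G * Nat.card N := by rw [heq]; ring
    exact Nat.le_of_mul_le_mul_left h1 hapos
  have hNZeq : N = Subgroup.center G := Subgroup.eq_of_le_of_card_ge hNZ hZN
  have hcommN : commutator G ≤ N := by
    rw [commutator_def, Subgroup.commutator_le]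
    intro g₁ _ g₂ _
    rw [commutatorElement_def]
    exact (hNmem _).mpr (hcs g₁ g₂)
  have hfr1 : frattini G ≤ Subgroup.center G :=
    Cfsg.Agent.S0013.result 2 hG (Subgroup.center G) (hNZeq ▸ hcommN) hcentral
  have hcomm_eq : commutator G = N := by
    by_contra hne
    have hlt : Nat.card (commutator G) < Nat.card N := by
      by_contra hcon
      exact hne (Subgroup.eq_of_le_of_card_ge hcommN (not_lt.mp hcon))
    obtain ⟨e, he⟩ := IsPGroup.iff_card.mp (hG.to_subgroup N)
    obtain ⟨k, hk⟩ := IsPGroup.iff_card.mp (hG.to_subgroup (commutator G))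
    have hke : k < e := by
      rw [he, hk] at hlt
      exact (Nat.pow_lt_pow_iff_right (by norm_num)).mp hlt
    let H : Subgroup N := (commutator G).subgroupOf N
    have hHcard : Nat.card H = 2 ^ k := by
      rw [← hk]
      exact Nat.card_congr (Subgroup.subgroupOfEquivOfLe hcommN).toEquiv
    obtain ⟨K, hKcard, hHK⟩ := Sylow.exists_subgroup_card_pow_prime_le 2
      (show 2 ^ (e - 1) ∣ Nat.card N by rw [he]; exact pow_dvd_pow 2 (by omega)) H hHcard
      (by omega)
    have hNcomm : ∀ a b : N, a * b = b * a := fun a b =>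
      Subtype.ext (Subgroup.mem_center_iff.mp (hNZ b.2) a)
    haveI hKn : K.Normal := ⟨fun n hn g => by
      rw [hNcomm g n, mul_inv_cancel_right]; exact hn⟩
    have hcmK : ∀ x y : G, (⟨cm x y, (hNmem _).mpr (hcs x y)⟩ : N) ∈ K := by
      intro x y
      apply hHK
      rw [Subgroup.mem_subgroupOf]
      show cm x y ∈ commutator G
      rw [commutator_def]
      exact Subgroup.commutator_mem_commutator (Subgroup.mem_top x) (Subgroup.mem_top y)
    let sqN : G → N := fun x => ⟨x ^ 2, (hNmem _).mpr (hsq2 x)⟩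
    let ψ : G →* N ⧸ K := MonoidHom.mk' (fun x => (QuotientGroup.mk (sqN x) : N ⧸ K)) (by
      intro x y
      rw [← QuotientGroup.mk_mul, QuotientGroup.eq]
      have e1 : (sqN (x * y))⁻¹ * (sqN x * sqN y)
          = (⟨cm y x, (hNmem _).mpr (hcs y x)⟩ : N)⁻¹ := by
        apply Subtype.ext
        show ((x * y) ^ 2)⁻¹ * (x ^ 2 * y ^ 2) = (cm y x)⁻¹
        rw [sq_mul hc x y]
        group
      rw [e1]
      exact inv_mem (hcmK y x))
    have hψmem : ∀ x : G, x ∈ ψ.ker ↔ sqN x ∈ K := by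
      intro x
      rw [MonoidHom.mem_ker]
      exact QuotientGroup.eq_one_iff _
    -- index of the kernel
    have hKidx : K.index = 2 := by
      have h1 := Subgroup.card_mul_index K
      rw [hKcard, he] at h1
      have h2 : (2 : ℕ) ^ e = 2 ^ (e - 1) * 2 := by
        rw [← pow_succ]; congr 1; omega
      rw [h2] at h1
      exact Nat.eq_of_mul_eq_mul_left (pow_pos (by norm_num) _) h1
    have hkt : Nat.card G ≤ 2 * Nat.card ψ.ker := by
      have h1 := Subgroup.card_mul_index ψ.ker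
      rw [Subgroup.index_ker] at h1
      have h2 : Nat.card ψ.range ≤ 2 := by
        have := Subgroup.card_le_card_group ψ.range
        rw [← hKidx]
        exact this
      calc Nat.card G = Nat.card ψ.ker * Nat.card ψ.range := h1.symm
        _ ≤ Nat.card ψ.ker * 2 := Nat.mul_le_mul_left _ h2
        _ = 2 * Nat.card ψ.ker := mul_comm _ _
    -- apply the bound to the kernel
    let Kt : Subgroup G := ψ.ker
    let q' : Kt → K := fun x => ⟨sqN (x : G), (hψmem _).mp x.2⟩
    let β' : Kt → Kt → K := fun x y => ⟨⟨cm (y : G) (x : G), (hNmem _).mpr (hcs _ _)⟩, hcmK _ _⟩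
    have hW2' : ∀ w : K, w ^ 2 = 1 := fun w =>
      Subtype.ext (Subtype.ext ((hNmem _).mp (w : N).2))
    have hmain' := core' (hG.to_subgroup Kt) hW2' q' β'
      (fun x y => Subtype.ext (Subtype.ext (sq_mul hc (x : G) (y : G))))
      (fun x y z => Subtype.ext (Subtype.ext (cm_mul_right hc (z : G) (x : G) (y : G))))
      (fun x y z => Subtype.ext (Subtype.ext (cm_mul_left hc (y : G) (z : G) (x : G))))
      (fun x => Subtype.ext (Subtype.ext (by show cm (x : G) (x : G) = 1; unfold cm; group)))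
      (N.subgroupOf Kt)
      (fun c hcc x => Subtype.ext (Subtype.ext (by
        show cm (c : G) (x : G) = 1
        have hcz : (c : G) ∈ Subgroup.center G := hNZ (Subgroup.mem_subgroupOf.mp hcc)
        unfold cm
        rw [← Subgroup.mem_center_iff.mp hcz (x : G)]
        group)))
    have hNKt : N ≤ Kt := by
      intro x hx
      show x ∈ ψ.ker
      rw [hψmem]
      have : sqN x = 1 := Subtype.ext ((hNmem x).mp hx)
      rw [this]
      exact one_mem K
    have hC'card : Nat.card (N.subgroupOf Kt) = Nat.card N :=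
      Nat.card_congr (Subgroup.subgroupOfEquivOfLe hNKt).toEquiv
    have hq'card : Nat.card {x : Kt // q' x = 1} ≤ Nat.card N := by
      rw [← hcardN]
      apply Nat.card_le_card_of_injective
        (fun x : {x : Kt // q' x = 1} => (⟨((x : Kt) : G),
          congrArg (fun w : K => (((w : N) : G))) x.2⟩ : {x : G // x ^ 2 = 1}))
      intro a b hab
      have := congrArg Subtype.val hab
      exact Subtype.ext (Subtype.ext this)
    rw [hC'card, hKcard] at hmain'
    -- numbers
    have he1 : 1 ≤ e := by omega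
    set w1 := 2 ^ (e - 1) with hw1
    have hn2 : Nat.card N = 2 * w1 := by
      rw [he, hw1, ← pow_succ']; congr 1; omega
    have hw1pos : 0 < w1 := pow_pos (by norm_num) _
    have e1 : Nat.card Kt * (2 * w1) ≤ (w1 * (2 * w1)) ^ 2 := by
      rw [← hn2]
      exact hmain'.trans (Nat.pow_le_pow_left (Nat.mul_le_mul_left _ hq'card) 2)
    have e2 : (2 * w1) ^ 3 ≤ 2 * Nat.card Kt := by
      rw [← hn2, ← heq]; exact hkt
    have e3 : 8 * w1 ^ 4 ≤ 4 * w1 ^ 4 := by
      calc 8 * w1 ^ 4 = (2 * w1) ^ 3 * w1 := by ring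
        _ ≤ 2 * Nat.card Kt * w1 := Nat.mul_le_mul_right _ e2
        _ = Nat.card Kt * (2 * w1) := by ring
        _ ≤ (w1 * (2 * w1)) ^ 2 := e1
        _ = 4 * w1 ^ 4 := by ring
    have := pow_pos hw1pos 4
    omega
  have hfr2 : Subgroup.center G ≤ frattini G := by
    rw [← hNZeq, ← hcomm_eq]
    exact (Cfsg.Agent.S0012.result 2 hG).1
  exact ⟨hG, le_antisymm hfr1 hfr2, hcomm_eq.trans hNZeq⟩

end Cfsg.Agent.S3773
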