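import Cfsg.Statements.S3774
import Mathlib

set_option autoImplicit false
open Cfsg

namespace Cfsg.Agent.S3774

theorem result {G : Type*} [Group G] [Finite G] [Nontrivial G] (hG : IsPGroup 2 G) (htrans : ∀ x y : G, x ≠ 1 → x ^ 2 = 1 → y ≠ 1 → y ^ 2 = 1 → ∃ a : MulAut G, a x = y) : (∀ x : G, x ^ 2 = 1 → x ∈ Subgroup.center G) ∧ ∃ m : ℕ, Nat.card G = Nat.card {z : G // z ^ 2 = 1} ^ m := by
  classical
  haveI : Fact (Nat.Prime 2) := ⟨Nat.prime_two⟩
  haveI : Fintype G := Fintype.ofFinite G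
  obtain ⟨f, hfdef⟩ : ∃ f : G → G, f = fun x => x ^ (orderOf x / 2) := ⟨_, rfl⟩
  have hf1 : ∀ x : G, x ≠ 1 → f x ≠ 1 ∧ (f x) ^ 2 = 1 := by
    intro x hx
    obtain ⟨k, hk⟩ := (IsPGroup.iff_orderOf.mp hG) x
    have hk0 : k ≠ 0 := by
      rintro rfl
      rw [pow_zero] at hk
      exact hx (orderOf_eq_one_iff.mp hk)
    obtain ⟨k', rfl⟩ := Nat.exists_eq_succ_of_ne_zero hk0
    have hdiv : orderOf x / 2 = 2 ^ k' := by rw [hk, pow_succ]; simp
    rw [hfdef]
    constructor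
    · show x ^ (orderOf x / 2) ≠ 1
      rw [hdiv]
      apply pow_ne_one_of_lt_orderOf (by positivity)
      rw [hk]; exact Nat.pow_lt_pow_right (by norm_num) (Nat.lt_succ_self k')
    · show (x ^ (orderOf x / 2)) ^ 2 = 1
      rw [hdiv, ← pow_mul, ← pow_succ, ← hk]; exact pow_orderOf_eq_one x
  have hf2 : ∀ (a : MulAut G) (x : G), f (a x) = a (f x) := by
    intro a x
    rw [hfdef]
    show (a x) ^ (orderOf (a x) / 2) = a (x ^ (orderOf x / 2))
    rw [MulEquiv.orderOf_eq, map_pow]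
  -- a central involution
  obtain ⟨z, hzc, hz1⟩ : ∃ z ∈ Subgroup.center G, z ≠ 1 := by
    haveI := hG.center_nontrivial
    obtain ⟨z, hz⟩ := exists_ne (1 : Subgroup.center G)
    exact ⟨z, z.2, fun h => hz (Subtype.ext h)⟩
  have hfz : f z ∈ Subgroup.center G := by rw [hfdef]; exact pow_mem hzc _
  have part1 : ∀ x : G, x ^ 2 = 1 → x ∈ Subgroup.center G := by
    intro x hx
    by_cases hx1 : x = 1
    · rw [hx1]; exact one_mem _
    obtain ⟨a, ha⟩ := htrans (f z) x (hf1 z hz1).1 (hf1 z hz1).2 hx1 hx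
    rw [← ha, Subgroup.mem_center_iff]
    intro g
    have h1 := Subgroup.mem_center_iff.mp hfz (a.symm g)
    have h2 := congrArg a h1
    simpa using h2
  refine ⟨part1, ?_⟩
  -- the subgroup Ω
  obtain ⟨Ω, hΩ⟩ : ∃ Ω : Subgroup G, ∀ x, x ∈ Ω ↔ x ^ 2 = 1 := by
    refine ⟨{ carrier := {x | x ^ 2 = 1}
              one_mem' := by simp
              mul_mem' := ?_
              inv_mem' := ?_ }, fun x => Iff.rfl⟩
    · intro a b ha hb
      have hc : Commute a b := (Subgroup.mem_center_iff.mp (part1 a ha) b).symm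
      show (a * b) ^ 2 = 1
      rw [hc.mul_pow]
      have ha' : a ^ 2 = 1 := ha
      have hb' : b ^ 2 = 1 := hb
      rw [ha', hb', one_mul]
    · intro a ha
      have ha' : a ^ 2 = 1 := ha
      show (a⁻¹) ^ 2 = 1
      rw [inv_pow, ha', inv_one]
  have hΩcard : Nat.card {z : G // z ^ 2 = 1} = Nat.card Ω :=
    Nat.card_congr (Equiv.subtypeEquivRight (fun x => (hΩ x).symm))
  obtain ⟨m, hm⟩ := IsPGroup.iff_card.mp (hG.to_subgroup Ω)
  obtain ⟨n, hn⟩ := IsPGroup.iff_card.mp hG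
  -- counting
  obtain ⟨S, hSdef⟩ : ∃ S : Finset G, S = Finset.univ.erase 1 := ⟨_, rfl⟩
  obtain ⟨T, hTdef⟩ : ∃ T : Finset G, T = (Finset.univ.filter (fun t : G => t ^ 2 = 1)).erase 1 :=
    ⟨_, rfl⟩
  have hScard : S.card = 2 ^ n - 1 := by
    rw [hSdef, Finset.card_erase_of_mem (Finset.mem_univ 1), Finset.card_univ,
      ← Nat.card_eq_fintype_card, hn]
  have hTcard : T.card = 2 ^ m - 1 := by
    rw [hTdef, Finset.card_erase_of_mem (by simp), ← hm, ← hΩcard, Nat.card_eq_fintype_card,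
      Fintype.card_subtype]
  have hmaps : (S : Set G).MapsTo f T := by
    intro x hx
    have hx1 : x ≠ 1 := by
      rw [hSdef] at hx
      exact (Finset.mem_erase.mp hx).1
    rw [hTdef]
    simp only [Finset.coe_erase, Finset.coe_filter, Finset.mem_univ, true_and, Set.mem_diff,
      Set.mem_setOf_eq, Set.mem_singleton_iff]
    exact ⟨(hf1 x hx1).2, (hf1 x hx1).1⟩
  have hTne : T.Nonempty := by
    refine ⟨f z, ?_⟩
    rw [hTdef]
    simp only [Finset.mem_erase, Finset.mem_filter, Finset.mem_univ, true_and]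
    exact ⟨(hf1 z hz1).1, (hf1 z hz1).2⟩
  obtain ⟨t₀, ht₀⟩ := hTne
  have hfib : ∀ t ∈ T, (S.filter (fun a => f a = t)).card = (S.filter (fun a => f a = t₀)).card := by
    intro t ht
    have ht' : t ≠ 1 ∧ t ^ 2 = 1 := by
      rw [hTdef] at ht
      simpa using ht
    have ht₀' : t₀ ≠ 1 ∧ t₀ ^ 2 = 1 := by
      rw [hTdef] at ht₀
      simpa using ht₀
    obtain ⟨a, ha⟩ := htrans t t₀ ht'.1 ht'.2 ht₀'.1 ht₀'.2
    apply Finset.card_bij (fun x _ => a x)
    · intro x hx
      rw [Finset.mem_filter] at hx ⊢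
      refine ⟨?_, by rw [hf2, hx.2, ha]⟩
      rw [hSdef] at hx ⊢
      rw [Finset.mem_erase] at hx ⊢
      refine ⟨fun h => hx.1.1 ?_, Finset.mem_univ _⟩
      have := congrArg a.symm h
      simpa using this
    · intro x _ y _ hxy
      exact a.injective hxy
    · intro y hy
      rw [Finset.mem_filter] at hy
      refine ⟨a.symm y, ?_, by simp⟩
      rw [Finset.mem_filter]
      refine ⟨?_, ?_⟩
      · rw [hSdef] at hy ⊢
        rw [Finset.mem_erase] at hy ⊢
        refine ⟨fun h => hy.1.1 ?_, Finset.mem_univ _⟩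
        have := congrArg a h
        simpa using this
      · have h1 : f (a (a.symm y)) = a (f (a.symm y)) := hf2 a (a.symm y)
        rw [MulEquiv.apply_symm_apply, hy.2] at h1
        have h2 : a.symm t₀ = f (a.symm y) := by rw [h1]; simp
        rw [← h2, ← ha]; simp
  have hdiv : (2 ^ m - 1) ∣ (2 ^ n - 1) := by
    rw [← hScard, ← hTcard, Finset.card_eq_sum_card_fiberwise hmaps, Finset.sum_const_nat hfib]
    exact dvd_mul_right _ _
  have hmn : m ∣ n := by
    have h1 := Nat.pow_sub_one_gcd_pow_sub_one 2 m n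
    rw [Nat.gcd_eq_left hdiv] at h1
    have h2 : 2 ^ m = 2 ^ Nat.gcd m n := by
      have e1 := Nat.one_le_two_pow (n := m)
      have e2 := Nat.one_le_two_pow (n := Nat.gcd m n)
      omega
    have h3 : m = Nat.gcd m n := Nat.pow_right_injective (le_refl 2) h2
    rw [h3]; exact Nat.gcd_dvd_right m n
  obtain ⟨k, rfl⟩ := hmn
  exact ⟨k, by rw [hn, hΩcard, hm, pow_mul]⟩

end Cfsg.Agent.S3774
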