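import Cfsg.Statements.S3775
import Mathlib
import Cfsg.Agent.Helper21.AbDecomp2

set_option autoImplicit false
set_option linter.style.haveILetI false
open Cfsg

namespace Cfsg.Agent.S3775

/-- Let A be a finite abelian p-group and X a group of automorphisms of A of order prime to p. Call a subgroup of A invariant when every element of X maps it onto itself. Then the following are equivalent: (i) A is not the direct product of two nontrivial invariant subgroups; (ii) every invariant subgroup of A is one of the subgroups Ω_i(A) = {a : a^(p^i) = 1}; (iii) the subgroup Ω₁(A) of elements of order dividing p has no invariant subgroups other than 1 and itself. -/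
theorem result {A : Type*} [CommGroup A] [Finite A] {p : ℕ} [Fact p.Prime] (hA : IsPGroup p A) (X : Subgroup (MulAut A)) (hX : (Nat.card X).Coprime p) : ((¬ ∃ B C : Subgroup A, B ≠ ⊥ ∧ C ≠ ⊥ ∧ (∀ x ∈ X, B.map x.toMonoidHom = B) ∧ (∀ x ∈ X, C.map x.toMonoidHom = C) ∧ B ⊓ C = ⊥ ∧ B ⊔ C = ⊤) ↔ (∀ B : Subgroup A, (∀ x ∈ X, B.map x.toMonoidHom = B) → ∃ i : ℕ, ∀ a : A, a ∈ B ↔ a ^ p ^ i = 1)) ∧ ((∀ B : Subgroup A, (∀ x ∈ X, B.map x.toMonoidHom = B) → ∃ i : ℕ, ∀ a : A, a ∈ B ↔ a ^ p ^ i = 1) ↔ (∀ B : Subgroup A, (∀ x ∈ X, B.map x.toMonoidHom = B) → (∀ b ∈ B, b ^ p = 1) → B = ⊥ ∨ ∀ a : A, a ∈ B ↔ a ^ p = 1)) := by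
  have hp : p.Prime := Fact.out
  have hmem : ∀ B : Subgroup A, (∀ x ∈ X, B.map x.toMonoidHom = B) →
      ∀ x ∈ X, ∀ b ∈ B, x b ∈ B := by
    intro B hB x hx b hb
    have : x b ∈ B.map x.toMonoidHom := Subgroup.mem_map_of_mem _ hb
    rwa [hB x hx] at this
  have h23 : (∀ B : Subgroup A, (∀ x ∈ X, B.map x.toMonoidHom = B) → ∃ i : ℕ, ∀ a : A, a ∈ B ↔ a ^ p ^ i = 1) → (∀ B : Subgroup A, (∀ x ∈ X, B.map x.toMonoidHom = B) → (∀ b ∈ B, b ^ p = 1) → B = ⊥ ∨ ∀ a : A, a ∈ B ↔ a ^ p = 1) := by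
    intro h2 B hB hBp
    obtain ⟨i, hi⟩ := h2 B hB
    rcases Nat.eq_zero_or_pos i with rfl | hipos
    · left
      rw [Subgroup.eq_bot_iff_forall]
      intro a ha
      have := (hi a).mp ha
      simpa using this
    · right
      intro a
      refine ⟨hBp a, fun ha => (hi a).mpr ?_⟩
      obtain ⟨k, rfl⟩ : ∃ k, i = k + 1 := ⟨i - 1, by omega⟩
      rw [pow_succ', pow_mul, ha, one_pow]
  have h32 : (∀ B : Subgroup A, (∀ x ∈ X, B.map x.toMonoidHom = B) → (∀ b ∈ B, b ^ p = 1) → B = ⊥ ∨ ∀ a : A, a ∈ B ↔ a ^ p = 1) → (∀ B : Subgroup A, (∀ x ∈ X, B.map x.toMonoidHom = B) → ∃ i : ℕ, ∀ a : A, a ∈ B ↔ a ^ p ^ i = 1) := by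
    intro h3 B hB
    classical
    have hex : ∃ e : ℕ, ∀ b ∈ B, b ^ p ^ e = 1 := by
      obtain ⟨m, hm⟩ := IsPGroup.iff_card.mp hA
      exact ⟨m, fun b _ => by rw [← hm]; exact pow_card_eq_one'⟩
    obtain ⟨e, he, hmin⟩ : ∃ e, (∀ b ∈ B, b ^ p ^ e = 1) ∧
        ∀ e' < e, ¬ (∀ b ∈ B, b ^ p ^ e' = 1) :=
      ⟨Nat.find hex, Nat.find_spec hex, fun e' he' => Nat.find_min hex he'⟩
    refine ⟨e, fun a => ⟨he a, fun ha => ?_⟩⟩
    rcases Nat.eq_zero_or_pos e with rfl | hepos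
    · have : a = 1 := by simpa using ha
      rw [this]; exact one_mem _
    obtain ⟨e', rfl⟩ : ∃ e', e = e' + 1 := ⟨e - 1, by omega⟩
    have hne := hmin e' (by omega)
    push Not at hne
    obtain ⟨b₀, hb₀, hb₀1⟩ := hne
    have hDinv : ∀ x ∈ X, (B.map (powMonoidHom (p ^ e') : A →* A)).map x.toMonoidHom =
        B.map (powMonoidHom (p ^ e') : A →* A) := by
      intro x hx
      rw [Subgroup.map_map]
      have hcomm : x.toMonoidHom.comp (powMonoidHom (p ^ e') : A →* A) =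
          (powMonoidHom (p ^ e') : A →* A).comp x.toMonoidHom := by
        ext a; simp
      rw [hcomm, ← Subgroup.map_map, hB x hx]
    have hDp : ∀ d ∈ B.map (powMonoidHom (p ^ e') : A →* A), d ^ p = 1 := by
      rintro _ ⟨b, hb, rfl⟩
      show (b ^ p ^ e') ^ p = 1
      rw [← pow_mul, ← pow_succ]; exact he b hb
    have hD := h3 _ hDinv hDp
    have hDne : B.map (powMonoidHom (p ^ e') : A →* A) ≠ ⊥ := by
      intro h
      have : b₀ ^ p ^ e' ∈ B.map (powMonoidHom (p ^ e') : A →* A) := ⟨b₀, hb₀, rfl⟩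
      rw [h, Subgroup.mem_bot] at this
      exact hb₀1 this
    have hDΩ : ∀ a : A, a ^ p = 1 → ∃ b ∈ B, b ^ p ^ e' = a := by
      intro a ha
      rcases hD with h | h
      · exact absurd h hDne
      · obtain ⟨b, hb, hba⟩ := (h a).mpr ha
        exact ⟨b, hb, hba⟩
    have hind : ∀ j, j ≤ e' + 1 → ∀ a : A, a ^ p ^ j = 1 → a ∈ B := by
      intro j
      induction j with
      | zero =>
        intro _ a ha
        have : a = 1 := by simpa using ha
        rw [this]; exact one_mem _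
      | succ j ih =>
        intro hj a ha
        have h1 : (a ^ p ^ j) ^ p = 1 := by rw [← pow_mul, ← pow_succ]; exact ha
        obtain ⟨b, hb, hba⟩ := hDΩ _ h1
        have hc : (b ^ p ^ (e' - j)) ^ p ^ j = a ^ p ^ j := by
          rw [← pow_mul, ← pow_add, show e' - j + j = e' by omega]; exact hba
        have h2 : (a * (b ^ p ^ (e' - j))⁻¹) ^ p ^ j = 1 := by
          rw [mul_pow, inv_pow, hc, mul_inv_cancel]
        have h3' := ih (by omega) _ h2
        have : a = (a * (b ^ p ^ (e' - j))⁻¹) * b ^ p ^ (e' - j) := by simp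
        rw [this]; exact mul_mem h3' (pow_mem hb _)
    exact hind (e' + 1) le_rfl a ha
  have h21 : (∀ B : Subgroup A, (∀ x ∈ X, B.map x.toMonoidHom = B) → ∃ i : ℕ, ∀ a : A, a ∈ B ↔ a ^ p ^ i = 1) → (¬ ∃ B C : Subgroup A, B ≠ ⊥ ∧ C ≠ ⊥ ∧ (∀ x ∈ X, B.map x.toMonoidHom = B) ∧ (∀ x ∈ X, C.map x.toMonoidHom = C) ∧ B ⊓ C = ⊥ ∧ B ⊔ C = ⊤) := by
    intro h2
    rintro ⟨B, C, hB1, hC1, hBinv, hCinv, hdisj, -⟩
    obtain ⟨i, hi⟩ := h2 B hBinv
    obtain ⟨j, hj⟩ := h2 C hCinv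
    have key : ∀ (B C : Subgroup A) (i j : ℕ), i ≤ j → (∀ a, a ∈ B ↔ a ^ p ^ i = 1) →
        (∀ a, a ∈ C ↔ a ^ p ^ j = 1) → B ≤ C := by
      intro B C i j hij hi hj a ha
      rw [hj]
      obtain ⟨d, rfl⟩ := Nat.exists_eq_add_of_le hij
      rw [pow_add, pow_mul, (hi a).mp ha, one_pow]
    rcases le_total i j with hij | hij
    · have hle := key B C i j hij hi hj
      apply hB1
      rw [← hdisj]; exact (inf_eq_left.mpr hle).symm
    · have hle := key C B j i hij hj hi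
      apply hC1
      rw [← hdisj]; exact (inf_eq_right.mpr hle).symm
  have h13 : (¬ ∃ B C : Subgroup A, B ≠ ⊥ ∧ C ≠ ⊥ ∧ (∀ x ∈ X, B.map x.toMonoidHom = B) ∧ (∀ x ∈ X, C.map x.toMonoidHom = C) ∧ B ⊓ C = ⊥ ∧ B ⊔ C = ⊤) → (∀ B : Subgroup A, (∀ x ∈ X, B.map x.toMonoidHom = B) → (∀ b ∈ B, b ^ p = 1) → B = ⊥ ∨ ∀ a : A, a ∈ B ↔ a ^ p = 1) := by
    intro h1 B hB hBp
    by_contra hcon
    rw [not_or] at hcon
    obtain ⟨hBne, hnot⟩ := hcon
    have hw : ∃ w : A, w ^ p = 1 ∧ w ∉ B := by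
      by_contra hc
      push Not at hc
      exact hnot (fun a => ⟨hBp a, hc a⟩)
    classical
    have hex : ∃ e : ℕ, ∀ a : A, a ^ p ^ e = 1 := by
      obtain ⟨m, hm⟩ := IsPGroup.iff_card.mp hA
      exact ⟨m, fun b => by rw [← hm]; exact pow_card_eq_one'⟩
    obtain ⟨e, he, hmin⟩ : ∃ e, (∀ a : A, a ^ p ^ e = 1) ∧
        ∀ e' < e, ¬ (∀ a : A, a ^ p ^ e' = 1) :=
      ⟨Nat.find hex, Nat.find_spec hex, fun e' he' => Nat.find_min hex he'⟩
    have hepos : 1 ≤ e := by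
      by_contra h0
      have he0 : e = 0 := by omega
      apply hBne
      rw [Subgroup.eq_bot_iff_forall]
      intro a _
      have := he a
      rw [he0] at this
      simpa using this
    have hne := hmin (e - 1) (by omega)
    push Not at hne
    obtain ⟨a₀, ha₀⟩ := hne
    apply h1
    by_cases hS : ∀ w : A, w ^ p = 1 → ∃ g : A, g ^ p ^ (e - 1) = w
    · exact Cfsg.Agent.Helper21.invariant_decomp X hX e hepos he B (hmem B hB) hBne
        (fun u hu => hS u (hBp u hu)) hw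
    · push Not at hS
      obtain ⟨w, hwp, hwS⟩ := hS
      refine Cfsg.Agent.Helper21.invariant_decomp X hX e hepos he
        ((powMonoidHom (p ^ (e - 1)) : A →* A).range) ?_ ?_ ?_ ⟨w, hwp, ?_⟩
      · rintro x hx _ ⟨g, rfl⟩
        exact ⟨x g, by simp⟩
      · intro h
        have : a₀ ^ p ^ (e - 1) ∈ (powMonoidHom (p ^ (e - 1)) : A →* A).range := ⟨a₀, rfl⟩
        rw [h, Subgroup.mem_bot] at this
        exact ha₀ this
      · rintro _ ⟨g, rfl⟩
        exact ⟨g, rfl⟩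
      · rintro ⟨g, hg⟩
        exact hwS g hg
  exact ⟨⟨fun h1 => h32 (h13 h1), h21⟩, ⟨h23, h32⟩⟩

end Cfsg.Agent.S3775
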