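import Cfsg.Statements.S3778
import Mathlib
import Cfsg.Agent.Helper21.Breadth

set_option autoImplicit false
set_option linter.style.haveILetI false
open Cfsg

namespace Cfsg.Agent.S3778

/-- If G is a finite p-group in which every conjugacy class has at most p^b elements (every element has centralizer of index at most p^b), then G is abelian when b = 0, and when b ≥ 1 its nilpotency class c satisfies (c − 1)(p − 1) < bp, that is c < bp/(p − 1) + 1, and hence c ≤ 2b. -/
theorem result {G : Type*} [Group G] [Finite G] {p : ℕ} [Fact p.Prime] (hG : IsPGroup p G) (b : ℕ) (hb : ∀ x : G, (Subgroup.centralizer ({x} : Set G)).index ≤ p ^ b) : ∃ c : ℕ, (⊤ : Subgroup G).lowerCentralSeries c = ⊥ ∧ (b ≠ 0 → (c - 1) * (p - 1) < b * p ∧ c ≤ 2 * b) ∧ (b = 0 → c ≤ 1) := by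
  classical
  have hp := (Fact.out : p.Prime)
  haveI : Group.IsNilpotent G := hG.isNilpotent
  have hex : ∃ n, (⊤ : Subgroup G).lowerCentralSeries n = ⊥ :=
    (Subgroup.isNilpotent_iff_lowerCentralSeries (S := (⊤ : Subgroup G))).mp inferInstance
  obtain ⟨c, hcdef⟩ : ∃ c, c = Nat.find hex := ⟨_, rfl⟩
  have hc : (⊤ : Subgroup G).lowerCentralSeries c = ⊥ := hcdef ▸ Nat.find_spec hex
  have hmin : ∀ m, m < c → (⊤ : Subgroup G).lowerCentralSeries m ≠ ⊥ := by
    intro m hm
    exact Nat.find_min hex (hcdef ▸ hm)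
  have key : 2 ≤ c → (c - 1) * (p - 1) < b * p := fun h2 =>
    Cfsg.Agent.Helper21.breadth_class_bound hG b hb c h2 (hmin _ (by omega)) hc
  refine ⟨c, hc, ?_, ?_⟩
  · intro hb0
    by_cases h2 : 2 ≤ c
    · have k := key h2
      refine ⟨k, ?_⟩
      by_contra hcon
      push Not at hcon
      have h3 : 2 * b ≤ c - 1 := by omega
      have hp2 := hp.two_le
      have h4 : b * p ≤ (c - 1) * (p - 1) := by
        calc b * p ≤ 2 * b * (p - 1) := by
              obtain ⟨q, rfl⟩ : ∃ q, p = q + 2 := ⟨p - 2, by omega⟩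
              have h5 : q + 2 - 1 = q + 1 := by omega
              rw [h5]
              nlinarith [Nat.zero_le (b * q)]
          _ ≤ (c - 1) * (p - 1) := Nat.mul_le_mul_right _ h3
      omega
    · have hc1 : c ≤ 1 := by omega
      constructor
      · have h3 : c - 1 = 0 := by omega
        rw [h3, zero_mul]
        exact Nat.mul_pos (Nat.pos_of_ne_zero hb0) hp.pos
      · omega
  · intro hb0
    by_contra hcon
    push Not at hcon
    have k := key (by omega)
    rw [hb0, zero_mul] at k
    exact Nat.not_lt_zero _ k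

end Cfsg.Agent.S3778
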