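import Cfsg.Statements.S3780
import Mathlib

set_option autoImplicit false
set_option linter.style.haveILetI false
open Cfsg

namespace Cfsg.Agent.S3780

theorem count_bound {V : Type*} [CommGroup V] [Finite V] {p : ℕ} [hpf : Fact p.Prime] (α : MulAut V)
    (hα : α ^ p = 1) :
    Nat.card {v : V // v ^ p = 1} ≤ (Nat.card {v : V // α v = v}) ^ p := by
  classical
  haveI : Fintype V := Fintype.ofFinite V
  have hp := hpf.out
  obtain ⟨a, ha_apply⟩ : ∃ a : AddMonoid.End (Additive V),
      ∀ x : Additive V, a x = Additive.ofMul (α x.toMul) :=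
    ⟨MonoidHom.toAdditive α.toMonoidHom, fun x => rfl⟩
  have hak : ∀ k : ℕ, ∀ x : Additive V, (a ^ k) x = Additive.ofMul ((α ^ k) x.toMul) := by
    intro k
    induction k with
    | zero => intro x; simp
    | succ k ih =>
      intro x
      rw [pow_succ, pow_succ]
      show (a ^ k) (a x) = _
      rw [ih, ha_apply]; rfl
  have hap : a ^ p = 1 := by
    ext x
    rw [hak, hα]; rfl
  obtain ⟨r, hr⟩ := Commute.exists_add_pow_prime_eq hp (Commute.neg_one_right a)
  have ht : ∃ s : AddMonoid.End (Additive V),
      (a - 1) ^ p = (p : AddMonoid.End (Additive V)) * s := by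
    rw [sub_eq_add_neg, hr, hap]
    rcases hp.eq_two_or_odd' with h2 | hodd
    · refine ⟨1 - a * r, ?_⟩
      rw [h2]
      simp only [Nat.cast_ofNat, neg_one_sq, mul_neg, neg_mul, mul_one, mul_assoc, mul_sub]
      rw [one_add_one_eq_two, sub_eq_add_neg]
    · refine ⟨-(a * r), ?_⟩
      rw [hodd.neg_one_pow]
      simp only [mul_neg, neg_mul, mul_one, mul_assoc, add_neg_cancel, zero_add]
      exact (mul_neg _ _).symm
  obtain ⟨s, hs⟩ := ht
  have hkill : ∀ x : Additive V, p • x = 0 → ((a - 1) ^ p) x = 0 := by
    intro x hx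
    rw [hs, Nat.cast_comm]
    show s ((p : AddMonoid.End (Additive V)) x) = 0
    rw [AddMonoid.End.natCast_apply, hx, map_zero]
  obtain ⟨t, htdef⟩ : ∃ t : AddMonoid.End (Additive V), t = a - 1 := ⟨_, rfl⟩
  rw [← htdef] at hkill
  have ht1 : ∀ x : Additive V, t x = a x - x := by
    intro x; rw [htdef]; rfl
  obtain ⟨N, hmem⟩ : ∃ N : ℕ → Finset (Additive V),
      ∀ i x, x ∈ N i ↔ (p • x = 0 ∧ (t ^ i) x = 0) :=
    ⟨fun i => Finset.univ.filter (fun x => p • x = 0 ∧ (t ^ i) x = 0), fun i x => by simp only [Finset.mem_filter, Finset.mem_univ, true_and]⟩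
  have hstep : ∀ i, (N (i+1)).card ≤ (N i).card * (N 1).card := by
    intro i
    apply Finset.card_le_mul_card_image_of_maps_to (f := fun x => (t ^ i) x)
    · intro x hx
      rw [hmem] at hx ⊢
      refine ⟨?_, ?_⟩
      · rw [← map_nsmul, hx.1, map_zero]
      · rw [pow_one]
        have := hx.2
        rw [pow_succ'] at this
        exact this
    · intro b hb
      by_cases hne : ((N (i+1)).filter (fun x => (t ^ i) x = b)).Nonempty
      · obtain ⟨x₀, hx₀⟩ := hne
        rw [Finset.mem_filter, hmem] at hx₀
        apply Finset.card_le_card_of_injOn (fun x => x - x₀)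
        · intro x hx
          rw [Finset.mem_coe, Finset.mem_filter, hmem] at hx
          rw [Finset.mem_coe, hmem]
          refine ⟨?_, ?_⟩
          · rw [nsmul_sub, hx.1.1, hx₀.1.1, sub_zero]
          · rw [map_sub, hx.2, hx₀.2, sub_self]
        · intro x _ y _ hxy
          exact sub_left_injective hxy
      · rw [Finset.not_nonempty_iff_eq_empty] at hne
        rw [hne]; simp
  have hind : ∀ i, (N i).card ≤ (N 1).card ^ i := by
    intro i
    induction i with
    | zero =>
      rw [pow_zero]
      have : N 0 ⊆ {0} := by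
        intro x hx
        rw [hmem] at hx
        rw [Finset.mem_singleton]
        simpa using hx.2
      exact (Finset.card_le_card this).trans (by simp)
    | succ i ih =>
      calc (N (i+1)).card ≤ (N i).card * (N 1).card := hstep i
        _ ≤ (N 1).card ^ i * (N 1).card := Nat.mul_le_mul_right _ ih
        _ = (N 1).card ^ (i+1) := (pow_succ _ _).symm
  have h1 : Nat.card {v : V // v ^ p = 1} ≤ (N p).card := by
    rw [Nat.card_eq_fintype_card, Fintype.card_subtype]
    apply Finset.card_le_card_of_injOn (fun v => Additive.ofMul v)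
    · intro v hv
      rw [Finset.mem_coe, Finset.mem_filter] at hv
      rw [Finset.mem_coe, hmem]
      have h0 : p • Additive.ofMul v = 0 := by
        rw [← ofMul_pow, hv.2]; rfl
      exact ⟨h0, hkill _ h0⟩
    · intro x _ y _ hxy
      exact Additive.ofMul.injective hxy
  have h2 : (N 1).card ≤ Nat.card {v : V // α v = v} := by
    rw [Nat.card_eq_fintype_card, Fintype.card_subtype]
    apply Finset.card_le_card_of_injOn (fun x => Additive.toMul x)
    · intro x hx
      rw [Finset.mem_coe, hmem, pow_one, ht1, sub_eq_zero, ha_apply] at hx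
      rw [Finset.mem_coe, Finset.mem_filter]
      refine ⟨Finset.mem_univ _, ?_⟩
      have := congrArg Additive.toMul hx.2
      exact this
    · intro x _ y _ hxy
      exact Additive.toMul.injective hxy
  calc Nat.card {v : V // v ^ p = 1} ≤ (N p).card := h1
    _ ≤ (N 1).card ^ p := hind p
    _ ≤ (Nat.card {v : V // α v = v}) ^ p := Nat.pow_le_pow_left h2 p

theorem gen_bound {V : Type*} [CommGroup V] [Finite V] {p : ℕ} [hpf : Fact p.Prime]
    (hV : IsPGroup p V) (d : ℕ) (hd : Nat.card {v : V // v ^ p = 1} ≤ p ^ d) :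
    ∃ S : Finset V, S.card ≤ d ∧ Subgroup.closure (S : Set V) = ⊤ := by
  classical
  have hp := hpf.out
  obtain ⟨f, hf⟩ : ∃ f : V →* V, f = powMonoidHom p := ⟨_, rfl⟩
  have hfa : ∀ v, f v = v ^ p := by intro v; rw [hf]; rfl
  have hcardW : Nat.card f.ker = Nat.card {v : V // v ^ p = 1} := by
    apply Nat.card_congr
    exact Equiv.subtypeEquivRight (fun v => by rw [MonoidHom.mem_ker, hfa])
  have hcardV : Nat.card V = Nat.card f.ker * Nat.card f.range := by
    rw [← Subgroup.index_ker, Subgroup.card_mul_index]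
  obtain ⟨m, hm⟩ := IsPGroup.iff_card.mp hV
  -- greedy construction
  have greedy : ∀ k : ℕ, ∃ S : Finset V, S.card ≤ k ∧
      (Subgroup.closure (S : Set V) ⊔ f.range = ⊤ ∨
        p ^ k * Nat.card f.range ≤ Nat.card ↥(Subgroup.closure (S : Set V) ⊔ f.range)) := by
    intro k
    induction k with
    | zero =>
      refine ⟨∅, le_rfl, Or.inr ?_⟩
      rw [Finset.coe_empty, Subgroup.closure_empty, bot_sup_eq, pow_zero, one_mul]
    | succ k ih =>
      obtain ⟨S, hS, hS'⟩ := ih
      rcases hS' with h | h
      · exact ⟨S, by omega, Or.inl h⟩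
      by_cases htop : Subgroup.closure (S : Set V) ⊔ f.range = ⊤
      · exact ⟨S, by omega, Or.inl htop⟩
      have hex : ∃ v, v ∉ Subgroup.closure (S : Set V) ⊔ f.range := by
        by_contra hcon
        exact htop (eq_top_iff.mpr fun x _ => by
          by_contra hx
          exact hcon ⟨x, hx⟩)
      obtain ⟨v, hv⟩ := hex
      refine ⟨insert v S, (Finset.card_insert_le _ _).trans (by omega), Or.inr ?_⟩
      have hle : Subgroup.closure (S : Set V) ⊔ f.range ≤
          Subgroup.closure ((insert v S : Finset V) : Set V) ⊔ f.range :=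
        sup_le_sup_right (Subgroup.closure_mono (by
          rw [Finset.coe_insert]; exact Set.subset_insert _ _)) _
      have hvin : v ∈ Subgroup.closure ((insert v S : Finset V) : Set V) ⊔ f.range :=
        Subgroup.mem_sup_left (Subgroup.subset_closure (by simp))
      have hlt : Subgroup.closure (S : Set V) ⊔ f.range <
          Subgroup.closure ((insert v S : Finset V) : Set V) ⊔ f.range :=
        lt_of_le_of_ne hle (fun heq => hv (heq ▸ hvin))
      obtain ⟨i, hi⟩ := IsPGroup.iff_card.mp (hV.to_subgroup (Subgroup.closure (S : Set V) ⊔ f.range))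
      obtain ⟨j, hj⟩ := IsPGroup.iff_card.mp
        (hV.to_subgroup (Subgroup.closure ((insert v S : Finset V) : Set V) ⊔ f.range))
      have hcl : Nat.card ↥(Subgroup.closure (S : Set V) ⊔ f.range) <
          Nat.card ↥(Subgroup.closure ((insert v S : Finset V) : Set V) ⊔ f.range) := by
        have h1 := Subgroup.card_le_of_le hle
        rcases Nat.lt_or_ge (Nat.card ↥(Subgroup.closure (S : Set V) ⊔ f.range))
          (Nat.card ↥(Subgroup.closure ((insert v S : Finset V) : Set V) ⊔ f.range)) with h2 | h2
        · exact h2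
        · exfalso
          have h3 : Nat.card ↥(Subgroup.closure (S : Set V) ⊔ f.range) =
            Nat.card ↥(Subgroup.closure ((insert v S : Finset V) : Set V) ⊔ f.range) := le_antisymm h1 h2
          exact hlt.ne (Subgroup.eq_of_le_of_card_ge hle h3.ge)
      rw [hi, hj] at hcl
      have hij : i < j := (Nat.pow_lt_pow_iff_right hp.one_lt).mp hcl
      rw [hj]
      rw [hi] at h
      calc p ^ (k + 1) * Nat.card f.range = p * (p ^ k * Nat.card f.range) := by ring
        _ ≤ p * p ^ i := Nat.mul_le_mul_left _ h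
        _ = p ^ (i + 1) := by ring
        _ ≤ p ^ j := Nat.pow_le_pow_right hp.pos hij
  obtain ⟨S, hS, hS'⟩ := greedy d
  have htop : Subgroup.closure (S : Set V) ⊔ f.range = ⊤ := by
    rcases hS' with h | h
    · exact h
    · apply Subgroup.eq_top_of_le_card
      calc Nat.card V = Nat.card f.ker * Nat.card f.range := hcardV
        _ ≤ p ^ d * Nat.card f.range := Nat.mul_le_mul_right _ (hcardW ▸ hd)
        _ ≤ _ := h
  refine ⟨S, hS, ?_⟩
  -- remove the Frattini part
  have hiter : ∀ j : ℕ, ∀ v : V, ∃ h ∈ Subgroup.closure (S : Set V), ∃ w : V, v = h * w ^ (p ^ j) := by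
    intro j
    induction j with
    | zero => intro v; exact ⟨1, one_mem _, v, by simp⟩
    | succ j ih =>
      intro v
      obtain ⟨h, hh, w, hw⟩ := ih v
      have hwtop : w ∈ Subgroup.closure (S : Set V) ⊔ f.range := by rw [htop]; trivial
      obtain ⟨h', hh', z, hz, hwz⟩ := Subgroup.mem_sup.mp hwtop
      obtain ⟨u, hu⟩ := MonoidHom.mem_range.mp hz
      rw [hfa] at hu
      refine ⟨h * h' ^ (p ^ j), Subgroup.mul_mem _ hh (Subgroup.pow_mem _ hh' _), u, ?_⟩
      rw [hw, ← hwz, ← hu, mul_pow, ← pow_mul, pow_succ', mul_assoc]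
  rw [eq_top_iff]
  intro v _
  obtain ⟨h, hh, w, hw⟩ := hiter m v
  have : w ^ (p ^ m) = 1 := by rw [← hm]; exact pow_card_eq_one'
  rw [hw, this, mul_one]
  exact hh

/-- Let V be a finite abelian p-group and α an automorphism of V of order p whose fixed-point subgroup has order p^n. Then V can be generated by pn elements: some subset of V with at most pn elements generates V. -/
theorem result {V : Type*} [CommGroup V] [Finite V] {p : ℕ} [Fact p.Prime] (hV : IsPGroup p V) (α : MulAut V) (hα : orderOf α = p) (n : ℕ) (hfix : Nat.card {v : V // α v = v} = p ^ n) : ∃ S : Finset V, S.card ≤ p * n ∧ Subgroup.closure (S : Set V) = ⊤ := by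
  have hαp : α ^ p = 1 := by rw [← hα]; exact pow_orderOf_eq_one α
  have h := count_bound α hαp
  rw [hfix, ← pow_mul, mul_comm n p] at h
  exact gen_bound hV (p * n) h

end Cfsg.Agent.S3780
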