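import Cfsg.Statements.S3784
import Mathlib

set_option autoImplicit false
open Cfsg

namespace Cfsg.Agent.S3784

theorem pow_sub_self_eq (x k : ℕ) : x ^ (2 * k + 1) - x = x * ((x ^ 2) ^ k - 1) := by
  rw [pow_succ, pow_mul, Nat.mul_sub, mul_one, mul_comm]

theorem L1 (x n : ℕ) (hx : Odd x) (hn : Odd n) : 2 * (x + 1) ∣ x ^ n - x := by
  obtain ⟨k, rfl⟩ := hn
  rw [pow_sub_self_eq]
  have h1 : x ^ 2 - 1 ∣ (x ^ 2) ^ k - 1 := by
    have := Nat.sub_dvd_pow_sub_pow (x ^ 2) 1 k
    rwa [one_pow] at this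
  have h2 : 2 * (x + 1) ∣ x ^ 2 - 1 := by
    obtain ⟨m, rfl⟩ := hx
    refine ⟨m, ?_⟩
    apply Nat.sub_eq_of_eq_add
    ring
  exact Dvd.dvd.mul_left (h2.trans h1) x

theorem L2 (x n : ℕ) (hx : Odd x) (hn : Odd n) : 2 * (x - 1) ∣ x ^ n - x := by
  obtain ⟨k, rfl⟩ := hn
  rw [pow_sub_self_eq]
  have h1 : x ^ 2 - 1 ∣ (x ^ 2) ^ k - 1 := by
    have := Nat.sub_dvd_pow_sub_pow (x ^ 2) 1 k
    rwa [one_pow] at this
  have h2 : 2 * (x - 1) ∣ x ^ 2 - 1 := by
    obtain ⟨m, rfl⟩ := hx
    refine ⟨m + 1, ?_⟩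
    apply Nat.sub_eq_of_eq_add
    simp only [Nat.add_sub_cancel]
    ring
  exact Dvd.dvd.mul_left (h2.trans h1) x

/-- if `2^(c+1) ∣ 2^a - 2^c` and `c ≤ a` then `c = a` -/
theorem L3 (a c : ℕ) (hca : c ≤ a) (h : 2 ^ (c + 1) ∣ 2 ^ a - 2 ^ c) : c = a := by
  by_contra hne
  have hlt : c + 1 ≤ a := by omega
  have h1 : 2 ^ (c + 1) ∣ 2 ^ a := pow_dvd_pow 2 hlt
  have hle : 2 ^ c ≤ 2 ^ a := Nat.pow_le_pow_right (by norm_num) hca
  have h2 : 2 ^ (c + 1) ∣ 2 ^ a - (2 ^ a - 2 ^ c) := Nat.dvd_sub h1 h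
  rw [Nat.sub_sub_self hle] at h2
  have h3 := (Nat.pow_dvd_pow_iff_le_right (by norm_num : 1 < 2)).mp h2
  omega

/-- Let p, q be primes and a, b positive integers with p^a = q^b + 1. Then either p = 2, b = 1, a is prime and q = 2^a − 1; or q = 2, a = 1, b is a power of 2 and p = 2^b + 1; or p^a = 9 and q^b = 8. -/
theorem result (p q a b : ℕ) (hp : p.Prime) (hq : q.Prime) (ha : 1 ≤ a) (hb : 1 ≤ b) (h : p ^ a = q ^ b + 1) : (p = 2 ∧ b = 1 ∧ a.Prime ∧ q + 1 = 2 ^ a) ∨ (q = 2 ∧ a = 1 ∧ (∃ m : ℕ, b = 2 ^ m) ∧ p = 2 ^ b + 1) ∨ (p ^ a = 9 ∧ q ^ b = 8) := by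
  rcases hp.eq_two_or_odd' with rfl | hpo
  · -- p = 2
    left
    have hqo : Odd q := by
      rcases hq.eq_two_or_odd' with rfl | hqo
      · exfalso
        have h1 : Even (2 ^ a) := (Nat.even_pow.mpr ⟨even_two, by omega⟩)
        have h2 : Even (2 ^ b) := (Nat.even_pow.mpr ⟨even_two, by omega⟩)
        rw [h] at h1
        exact (Nat.even_add_one.mp h1) h2
      · exact hqo
    have hq2 : 2 ≤ q := hq.two_le
    have hqb : q ≤ q ^ b := Nat.le_self_pow (by omega) q
    have hb1 : b = 1 := by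
      rcases Nat.even_or_odd b with hbe | hbo
      · exfalso
        -- q^b ≡ 1 mod 4
        obtain ⟨k, rfl⟩ := hbe
        have h4 : q ^ (k + k) % 4 = 1 := by
          rw [← two_mul, pow_mul]
          have hq4 : q ^ 2 % 4 = 1 := by
            obtain ⟨m, rfl⟩ := hqo
            have : (2 * m + 1) ^ 2 = 4 * (m * m + m) + 1 := by ring
            rw [this]; omega
          rw [Nat.pow_mod, hq4]; simp
        have ha1 : a = 1 := by
          by_contra hne
          have : 2 ^ a % 4 = 0 := by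
            obtain ⟨j, rfl⟩ : ∃ j, a = j + 2 := ⟨a - 2, by omega⟩
            rw [pow_add]; omega
          omega
        rw [ha1] at h
        have : 2 ≤ q ^ (k + k) := le_trans hq2 hqb
        omega
      · have hdvd : q + 1 ∣ 2 ^ a := by
          have := Odd.nat_add_dvd_pow_add_pow q 1 hbo
          rwa [one_pow, ← h] at this
        obtain ⟨c, hca, hc⟩ := (Nat.dvd_prime_pow Nat.prime_two).mp hdvd
        have hL := L1 q b hqo hbo
        have e1 : q ^ b - q = 2 ^ a - 2 ^ c := by omega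
        rw [e1, hc, ← pow_succ'] at hL
        have hce := L3 a c hca hL
        subst hce
        have : q ^ b = q := by omega
        exact (Nat.pow_eq_self_iff (by omega : 1 < q)).mp this
    subst hb1
    rw [pow_one] at h
    refine ⟨rfl, rfl, ?_, h.symm⟩
    have ha1 : a ≠ 1 := by
      rintro rfl
      have : q = 1 := by omega
      exact hq.one_lt.ne' this
    have hP : (2 ^ a - 1).Prime := by
      have : 2 ^ a - 1 = q := by omega
      rw [this]; exact hq
    exact (Nat.prime_of_pow_sub_one_prime ha1 hP).2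
  · -- p odd, so q = 2
    right
    have hq2 : q = 2 := by
      rcases hq.eq_two_or_odd' with rfl | hqo
      · rfl
      · exfalso
        have h1 : Odd (p ^ a) := hpo.pow
        have h2 : Odd (q ^ b) := hqo.pow
        rw [h] at h1
        have h3 : Even (q ^ b + 1) := h2.add_one
        exact (Nat.not_even_iff_odd.mpr h1) h3
    subst hq2
    have hp2 : 2 ≤ p := hp.two_le
    have hpa : p ≤ p ^ a := Nat.le_self_pow (by omega) p
    rcases Nat.even_or_odd a with hae | hao
    · -- a even: p^a = 9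
      right
      obtain ⟨c, rfl⟩ := hae
      have hc1 : 1 ≤ c := by omega
      obtain ⟨x, hx⟩ : ∃ x, x = p ^ c := ⟨_, rfl⟩
      have hxo : Odd x := hx ▸ hpo.pow
      have hx2 : 2 ≤ x := hx ▸ le_trans hp2 (Nat.le_self_pow (by omega) p)
      have hxx : x * x = 2 ^ b + 1 := by rw [hx, ← pow_add]; exact h
      have hfac : (x - 1) * (x + 1) = 2 ^ b := by
        have : (x - 1) * (x + 1) = x * x - 1 := by
          obtain ⟨y, rfl⟩ : ∃ y, x = y + 1 := ⟨x - 1, by omega⟩
          simp only [Nat.add_sub_cancel]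
          have : (y + 1) * (y + 1) = y * (y + 1 + 1) + 1 := by ring
          rw [this]; simp
        rw [this, hxx]; simp
      obtain ⟨i, -, hi⟩ := (Nat.dvd_prime_pow Nat.prime_two).mp (Dvd.intro _ hfac)
      obtain ⟨j, -, hj⟩ := (Nat.dvd_prime_pow Nat.prime_two).mp (Dvd.intro_left _ hfac)
      have hij : 2 ^ j = 2 ^ i + 2 := by omega
      have hi1 : i = 1 := by
        rcases Nat.lt_or_ge i 2 with hlt | hge
        · interval_cases i
          · exfalso
            have : x = 2 := by simp at hi; omega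
            rw [this] at hxo
            exact (by decide : ¬ Odd 2) hxo
          · rfl
        · exfalso
          obtain ⟨i', rfl⟩ : ∃ i', i = i' + 2 := ⟨i - 2, by omega⟩
          have h4 : 2 ^ (i' + 2) % 4 = 0 := by rw [pow_add]; omega
          have hj3 : 2 ≤ j := by
            by_contra hlt
            have hj' : j = 0 ∨ j = 1 := by omega
            have : 4 ≤ 2 ^ (i' + 2) := by rw [pow_add]; have := Nat.one_le_two_pow (n := i'); omega
            rcases hj' with rfl | rfl <;> simp at hij <;> omega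
          obtain ⟨j', rfl⟩ : ∃ j', j = j' + 2 := ⟨j - 2, by omega⟩
          have h4' : 2 ^ (j' + 2) % 4 = 0 := by rw [pow_add]; omega
          omega
      subst hi1
      have hx3 : x = 3 := by simp at hi; omega
      have h9 : p ^ (c + c) = 9 := by rw [pow_add, ← hx, hx3]; norm_num
      refine ⟨h9, ?_⟩
      omega
    · -- a odd
      left
      have hdvd : p - 1 ∣ 2 ^ b := by
        have := Nat.sub_dvd_pow_sub_pow p 1 a
        rw [one_pow, h] at this
        simpa using this
      obtain ⟨c, hcb, hc⟩ := (Nat.dvd_prime_pow Nat.prime_two).mp hdvd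
      have hL := L2 p a hpo hao
      have e1 : p ^ a - p = 2 ^ b - 2 ^ c := by omega
      rw [e1, hc, ← pow_succ'] at hL
      have hce := L3 b c hcb hL
      subst hce
      have hpe : p ^ a = p := by omega
      have ha1 : a = 1 := (Nat.pow_eq_self_iff (by omega : 1 < p)).mp hpe
      subst ha1
      rw [pow_one] at h
      refine ⟨rfl, rfl, ?_, h⟩
      have hb0 : c ≠ 0 := by omega
      exact Nat.pow_of_pow_add_prime (by norm_num : 1 < 2) hb0 (h ▸ hp)

end Cfsg.Agent.S3784
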