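import Cfsg.Statements.S3785
import Mathlib
import Cfsg.Agent.Helper21.OmegaCoprime
import Cfsg.Agent.S0008
import Cfsg.Agent.S0009
import Cfsg.Agent.S0010
import Cfsg.Agent.S0044
import Cfsg.Agent.Helper13.PCompl

set_option autoImplicit false
open Cfsg

namespace Cfsg.Agent.S3785

theorem fitting_normal (G : Type*) [Group G] : (Cfsg.fittingSubgroup G).Normal :=
  Subgroup.sSup_normal _ (fun _ h => h.1)

theorem result {G : Type*} [Group G] [Finite G] (hG : Group.IsSolvable G) (hodd : Odd (Nat.card (Cfsg.fittingSubgroup G))) (g : G) (hg : ∀ x ∈ Cfsg.fittingSubgroup G, (orderOf x).Prime → g * x = x * g) : g ∈ Cfsg.fittingSubgroup G := by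
  classical
  obtain ⟨F, hFdef⟩ : ∃ F : Subgroup G, F = Cfsg.fittingSubgroup G := ⟨_, rfl⟩
  rw [← hFdef] at hodd hg ⊢
  have hFn : F.Normal := hFdef ▸ fitting_normal G
  have hFsup : F = ⨆ p : Nat.Primes, Cfsg.pCore (p : ℕ) G := hFdef ▸ Cfsg.Agent.S0009.result
  have hcore_le : ∀ p : Nat.Primes, Cfsg.pCore (p : ℕ) G ≤ F := by
    intro p
    rw [hFsup]
    exact le_iSup (fun p : Nat.Primes => Cfsg.pCore (p : ℕ) G) p
  have hCF : Subgroup.centralizer (F : Set G) ≤ F := hFdef ▸ Cfsg.Agent.S0044.result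
  obtain ⟨C', hC'def⟩ : ∃ C' : Subgroup G,
      C' = Subgroup.centralizer {x | x ∈ F ∧ (orderOf x).Prime} := ⟨_, rfl⟩
  have hC'mem : ∀ y, y ∈ C' ↔ ∀ x ∈ F, (orderOf x).Prime → y * x = x * y := by
    intro y
    rw [hC'def, Subgroup.mem_centralizer_iff]
    constructor
    · intro h x hx hxp; exact (h x ⟨hx, hxp⟩).symm
    · rintro h x ⟨hx, hxp⟩; exact (h x hx hxp).symm
  have hC'n : C'.Normal := by
    constructor
    intro y hy h
    rw [hC'mem] at hy ⊢
    intro x hx hxp
    have hx' : h⁻¹ * x * h ∈ F := by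
      have := hFn.conj_mem x hx h⁻¹
      simpa using this
    have hxp' : (orderOf (h⁻¹ * x * h)).Prime := by
      have h0 : orderOf (h⁻¹ * x * h) = orderOf x := by
        have := orderOf_injective (MulAut.conj h⁻¹).toMonoidHom (MulAut.conj h⁻¹).injective x
        simpa using this
      rw [h0]; exact hxp
    have h1 := hy _ hx' hxp'
    calc h * y * h⁻¹ * x = h * (y * (h⁻¹ * x * h)) * h⁻¹ := by group
      _ = h * ((h⁻¹ * x * h) * y) * h⁻¹ := by rw [h1]
      _ = x * (h * y * h⁻¹) := by group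
  have hkey : ∀ (p : Nat.Primes) (y : G), y ∈ C' → (orderOf y).Coprime (p : ℕ) →
      y ∈ Subgroup.centralizer ((Cfsg.pCore (p : ℕ) G : Subgroup G) : Set G) := by
    intro p y hy hcop
    haveI : Fact (p : ℕ).Prime := ⟨p.2⟩
    by_cases hp2 : (p : ℕ) = 2
    · have hbot : Cfsg.pCore (p : ℕ) G = ⊥ := by
        obtain ⟨k, hk⟩ := IsPGroup.iff_card.mp (Cfsg.Agent.S0010.pCore_isPGroup (G := G) (p : ℕ))
        have hdvd : Nat.card (Cfsg.pCore (p : ℕ) G) ∣ Nat.card F :=
          Subgroup.card_dvd_of_le (hcore_le p)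
        have hk0 : k = 0 := by
          by_contra hne
          have h2 : 2 ∣ Nat.card F := dvd_trans (by rw [hk, hp2]; exact dvd_pow_self 2 hne) hdvd
          exact (Nat.not_even_iff_odd.mpr hodd) (even_iff_two_dvd.mpr h2)
        rw [hk0, pow_zero] at hk
        exact Subgroup.eq_bot_of_card_eq _ hk
      rw [hbot, Subgroup.mem_centralizer_iff]
      intro u hu
      have : u = 1 := Subgroup.mem_bot.mp hu
      rw [this]; simp
    · apply Cfsg.Agent.Helper21.oc_centralizes_odd hp2 y hcop _
        (Cfsg.Agent.S0010.pCore_isPGroup (G := G) (p : ℕ))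
      · haveI := Cfsg.Agent.S0010.pCore_normal (G := G) (p : ℕ)
        rw [Subgroup.normalizer_eq_top]; exact Subgroup.mem_top y
      · intro u hu hup
        by_cases hu1 : u = 1
        · rw [hu1]; simp
        · exact (hC'mem y).mp hy u (hcore_le p hu) (by rw [orderOf_eq_prime hup hu1]; exact p.2)
  have hq : ∀ (q : Nat.Primes) (y : G), y ∈ C' → (∃ j : ℕ, orderOf y = (q : ℕ) ^ j) → y ∈ F := by
    intro q y hy hyq
    haveI : Fact (q : ℕ).Prime := ⟨q.2⟩
    obtain ⟨N, hNdef⟩ : ∃ N : Subgroup G, N = Subgroup.normalClosure {y} := ⟨_, rfl⟩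
    have hNn : N.Normal := hNdef ▸ Subgroup.normalClosure_normal
    have hyN : y ∈ N := by
      rw [hNdef]; exact Subgroup.subset_normalClosure (Set.mem_singleton y)
    have hNC : N ≤ C' := by
      rw [hNdef]; exact Subgroup.normalClosure_le_normal (Set.singleton_subset_iff.mpr hy)
    have hNcent : ∀ p : Nat.Primes, p ≠ q →
        N ≤ Subgroup.centralizer ((Cfsg.pCore (p : ℕ) G : Subgroup G) : Set G) := by
      intro p hpq
      haveI := Cfsg.Agent.S0010.pCore_normal (G := G) (p : ℕ)
      rw [hNdef]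
      apply Subgroup.normalClosure_le_normal
      rw [Set.singleton_subset_iff]
      apply hkey p y hy
      obtain ⟨j, hj⟩ := hyq
      rw [hj]
      exact Nat.Coprime.pow_left j
        ((Nat.coprime_primes q.2 p.2).mpr (fun h => hpq (Subtype.ext h.symm)))
    have hcentral : ∀ z ∈ N, (orderOf z).Coprime (q : ℕ) → ∀ n ∈ N, n * z = z * n := by
      intro z hz hzq
      have h1 : ∀ p : Nat.Primes, Cfsg.pCore (p : ℕ) G ≤ Subgroup.centralizer ({z} : Set G) := by
        intro p
        have h2 : z ∈ Subgroup.centralizer ((Cfsg.pCore (p : ℕ) G : Subgroup G) : Set G) := by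
          by_cases hpz : (orderOf z).Coprime (p : ℕ)
          · exact hkey p z (hNC hz) hpz
          · have hpq : p ≠ q := by
              rintro rfl
              exact hpz hzq
            exact hNcent p hpq hz
        intro u hu
        rw [Subgroup.mem_centralizer_iff]
        intro w hw
        rw [Set.mem_singleton_iff] at hw
        rw [hw]
        exact ((Subgroup.mem_centralizer_iff.mp h2) u hu).symm
      have h3 : F ≤ Subgroup.centralizer ({z} : Set G) := by rw [hFsup]; exact iSup_le h1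
      have hzCF : z ∈ Subgroup.centralizer (F : Set G) := by
        rw [Subgroup.mem_centralizer_iff]
        intro u hu
        have := (Subgroup.mem_centralizer_iff.mp (h3 hu)) z (Set.mem_singleton z)
        exact this.symm
      have hzF : z ∈ F := hCF hzCF
      obtain ⟨E, hEdef⟩ : ∃ E : Subgroup G, E = Subgroup.centralizer (N : Set G) := ⟨_, rfl⟩
      have hEn : E.Normal := by rw [hEdef]; infer_instance
      have hFE : F ≤ Cfsg.pCore (q : ℕ) G ⊔ E := by
        rw [hFsup]
        apply iSup_le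
        intro p
        by_cases hpq : p = q
        · rw [hpq]; exact le_sup_left
        · refine le_trans ?_ le_sup_right
          rw [hEdef]
          exact Subgroup.le_centralizer_iff.mp (hNcent p hpq)
      have hzE : z ∈ E := by
        have hz' : z ∈ Cfsg.pCore (q : ℕ) G ⊔ E := hFE hzF
        have hmap : ((QuotientGroup.mk' E) z) ∈
            (Cfsg.pCore (q : ℕ) G).map (QuotientGroup.mk' E) := by
          have h0 : (Cfsg.pCore (q : ℕ) G ⊔ E).map (QuotientGroup.mk' E) =
              (Cfsg.pCore (q : ℕ) G).map (QuotientGroup.mk' E) := by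
            rw [Subgroup.map_sup, QuotientGroup.map_mk'_self, sup_bot_eq]
          rw [← h0]; exact Subgroup.mem_map_of_mem _ hz'
        have hqg : IsPGroup (q : ℕ) ((Cfsg.pCore (q : ℕ) G).map (QuotientGroup.mk' E)) :=
          (Cfsg.Agent.S0010.pCore_isPGroup (G := G) (q : ℕ)).map _
        obtain ⟨k, hk⟩ := (IsPGroup.iff_orderOf.mp hqg) ⟨_, hmap⟩
        rw [Subgroup.orderOf_mk] at hk
        have hd : orderOf ((QuotientGroup.mk' E) z) ∣ orderOf z := orderOf_map_dvd _ z
        have hcop : ((q : ℕ) ^ k).Coprime (q : ℕ) := by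
          rw [← hk]; exact Nat.Coprime.coprime_dvd_left hd hzq
        have hk0 : k = 0 := by
          by_contra hne
          have h4 : (q : ℕ) ∣ Nat.gcd ((q : ℕ) ^ k) (q : ℕ) :=
            Nat.dvd_gcd (dvd_pow_self _ hne) dvd_rfl
          rw [Nat.Coprime.gcd_eq_one hcop] at h4
          exact q.2.one_lt.ne' (Nat.dvd_one.mp h4)
        rw [hk0, pow_zero] at hk
        have h5 := orderOf_eq_one_iff.mp hk
        exact (QuotientGroup.eq_one_iff z).mp h5
      intro n hn
      rw [hEdef] at hzE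
      exact (Subgroup.mem_centralizer_iff.mp hzE) n hn
    have hNnil : Group.IsNilpotent ↥N := by
      have hqc : IsPGroup (q : ℕ) (↥N ⧸ Subgroup.center ↥N) := by
        intro x
        obtain ⟨n, rfl⟩ := QuotientGroup.mk_surjective x
        obtain ⟨a, ha⟩ := Cfsg.Agent.Helper13.orderOf_pow_coprime (p := (q : ℕ)) (n : G)
        refine ⟨a, ?_⟩
        rw [← QuotientGroup.mk_pow]
        apply (QuotientGroup.eq_one_iff _).mpr
        rw [Subgroup.mem_center_iff]
        intro m
        apply Subtype.ext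
        have h6 := hcentral ((n : G) ^ (q : ℕ) ^ a) (pow_mem n.2 _) ha (m : G) m.2
        simpa using h6
      have hnq : Group.IsNilpotent (↥N ⧸ Subgroup.center ↥N) := hqc.isNilpotent
      exact Group.of_quotient_center_nilpotent hnq
    rw [hFdef]
    exact (le_sSup (show N ∈ {N : Subgroup G | N.Normal ∧ Group.IsNilpotent N} from
      ⟨hNn, hNnil⟩)) hyN
  have hall : ∀ (n : ℕ) (y : G), y ∈ C' → orderOf y = n → y ∈ F := by
    intro n
    induction n using Nat.strong_induction_on with
    | _ n ih =>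
    intro y hy hn
    by_cases h1 : n = 1
    · rw [h1] at hn; rw [orderOf_eq_one_iff.mp hn]; exact one_mem F
    have hnpos : 0 < n := by rw [← hn]; exact orderOf_pos y
    obtain ⟨q, hqp, hqn⟩ := Nat.exists_prime_and_dvd h1
    obtain ⟨a, m, hm, hnm⟩ := Nat.exists_eq_pow_mul_and_not_dvd hnpos.ne' q hqp.ne_one
    have ha : a ≠ 0 := by
      rintro rfl
      rw [pow_zero, one_mul] at hnm
      rw [hnm] at hqn; exact hm hqn
    have hmpos : 0 < m := by
      rcases Nat.eq_zero_or_pos m with h | h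
      · rw [h, mul_zero] at hnm; omega
      · exact h
    have ho1 : orderOf (y ^ q ^ a) = m := by
      rw [orderOf_pow_of_dvd (pow_ne_zero a hqp.ne_zero)
        (by rw [hn, hnm]; exact dvd_mul_right _ _), hn, hnm]
      exact Nat.mul_div_cancel_left m (pow_pos hqp.pos a)
    have ho2 : orderOf (y ^ m) = q ^ a := by
      rw [orderOf_pow_of_dvd hmpos.ne' (by rw [hn, hnm]; exact dvd_mul_left _ _), hn, hnm]
      exact Nat.mul_div_cancel (q ^ a) hmpos
    have hmlt : m < n := by
      rw [hnm]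
      have h2 : 2 ≤ q ^ a := le_trans hqp.two_le (Nat.le_self_pow ha q)
      nlinarith
    have hy1 : y ^ q ^ a ∈ F := ih m hmlt _ (pow_mem hy _) ho1
    have hy2 : y ^ m ∈ F := hq ⟨q, hqp⟩ _ (pow_mem hy _) ⟨a, ho2⟩
    have hcop : Nat.Coprime (q ^ a) m :=
      Nat.Coprime.pow_left a ((Nat.Prime.coprime_iff_not_dvd hqp).mpr hm)
    have hb := Nat.gcd_eq_gcd_ab (q ^ a) m
    rw [Nat.Coprime.gcd_eq_one hcop] at hb
    have hyeq : y = (y ^ q ^ a) ^ (Nat.gcdA (q ^ a) m) * (y ^ m) ^ (Nat.gcdB (q ^ a) m) := by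
      rw [← zpow_natCast y (q ^ a), ← zpow_natCast y m, ← zpow_mul, ← zpow_mul, ← zpow_add, ← hb]
      simp
    rw [hyeq]
    exact mul_mem (zpow_mem hy1 _) (zpow_mem hy2 _)
  exact hall _ g ((hC'mem g).mpr hg) rfl

end Cfsg.Agent.S3785
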