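import Cfsg.Statements.S3791
import Mathlib
import Cfsg.Agent.Helper21.PChain

set_option autoImplicit false
set_option linter.style.haveILetI false
open Cfsg

namespace Cfsg.Agent.S3791

/-- The Hall–Higman bound on derived length: let G be a finite solvable group, let p₁, …, p_r be distinct primes that include every prime dividing the order of G, and suppose that for each i the Sylow p_i-subgroups of G have derived length at most d_i and G has p_i-length at most l_i. Then G has derived length at most Σ d_i l_i. -/
theorem result {G : Type*} [Group G] [Finite G] (hG : Group.IsSolvable G) (r : ℕ) (q : Fin r → ℕ) (hq : ∀ i, (q i).Prime) (hinj : Function.Injective q) (hcover : ∀ s : ℕ, s.Prime → s ∣ Nat.card G → ∃ i, q i = s) (d l : Fin r → ℕ) (hd : ∀ i, ∀ P : Subgroup G, (haveI := Fact.mk (hq i); ∃ S : Sylow (q i) G, (S : Subgroup G) = P) → derivedSeries ↥P (d i) = ⊥) (hl : ∀ i, Cfsg.PLengthLE (q i) (l i) G) : derivedSeries G (Finset.univ.sum fun i => d i * l i) = ⊥ := by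
  classical
  have key := Cfsg.Agent.Helper21.dl_bound r q hq d (Nat.card G + ∑ i, l i) G l le_rfl hcover
    ?_ ?_
  · exact key
  · intro i S hS
    haveI := Fact.mk (hq i)
    obtain ⟨Q, hQ⟩ := hS.exists_le_sylow
    have h1 := hd i (Q : Subgroup G) ⟨Q, rfl⟩
    have h2 : Cfsg.Agent.Helper21.dsub (Q : Subgroup G) (d i) = ⊥ := by
      rw [Cfsg.Agent.Helper21.dsub_eq_map, h1, Subgroup.map_bot]
    exact le_bot_iff.mp (h2 ▸ Cfsg.Agent.Helper21.dsub_mono hQ _)
  · intro i
    haveI := Fact.mk (hq i)
    exact Cfsg.Agent.Helper21.pchain_of_plength (q i) (l i) (hl i)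

end Cfsg.Agent.S3791
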