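import Cfsg.Statements.S3800
import Mathlib

set_option autoImplicit false
open Cfsg

namespace Cfsg.Agent.S3800

open scoped Pointwise

theorem mem_cj {G : Type*} [Group G] (H : Subgroup G) (g y : G) :
    y ∈ H.map (MulAut.conj g).toMonoidHom ↔ g⁻¹ * y * g ∈ H := by
  constructor
  · rintro ⟨h, hh, rfl⟩
    simpa [MulAut.conj_apply, mul_assoc] using hh
  · intro hy
    refine ⟨g⁻¹ * y * g, hy, ?_⟩
    simp [MulAut.conj_apply, mul_assoc]

theorem mem_sylow_smul {G : Type*} [Group G] {p : ℕ} (g x : G) (P : Sylow p G) :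
    x ∈ ((g • P : Sylow p G) : Subgroup G) ↔ g⁻¹ * x * g ∈ (P : Subgroup G) := by
  rw [Sylow.coe_subgroup_smul, Subgroup.mem_pointwise_smul_iff_inv_smul_mem]
  simp [MulAut.smul_def]

/-- A `p`-element of a subgroup of order prime to `p` is trivial. -/
theorem eq_one_of_coprime {G : Type*} [Group G] [Finite G] {p : ℕ} (N : Subgroup G)
    (hN : (Nat.card N).Coprime p) (x : G) (hx : x ∈ N) (j : ℕ) (hj : x ^ p ^ j = 1) : x = 1 := by
  have h1 : orderOf x ∣ Nat.card N := by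
    have := orderOf_dvd_natCard (⟨x, hx⟩ : ↥N)
    rwa [Subgroup.orderOf_mk] at this
  have h2 : orderOf x ∣ p ^ j := orderOf_dvd_of_pow_eq_one hj
  have h3 := Nat.dvd_gcd h1 h2
  rw [Nat.Coprime.pow_right j hN] at h3
  exact orderOf_eq_one_iff.mp (Nat.dvd_one.mp h3)

/-- Two `p`-subgroups with the same image modulo a normal `p'`-subgroup `N` are `N`-conjugate. -/
theorem conj_of_sup_eq {G : Type*} [Group G] [Finite G] {p : ℕ} [Fact p.Prime] (N : Subgroup G)
    [hNn : N.Normal] (hN : (Nat.card N).Coprime p) (P P₂ : Subgroup G) (hP : IsPGroup p P)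
    (hP₂ : IsPGroup p P₂) (hsup : P₂ ≤ P ⊔ N) (hsup' : P ≤ P₂ ⊔ N) :
    ∃ n ∈ N, ∀ x, x ∈ P₂ ↔ n⁻¹ * x * n ∈ P := by
  obtain ⟨K, hKdef⟩ : ∃ K : Subgroup G, K = P ⊔ N := ⟨_, rfl⟩
  have hPK : P ≤ K := by rw [hKdef]; exact le_sup_left
  have hNK : N ≤ K := by rw [hKdef]; exact le_sup_right
  have hP₂K : P₂ ≤ K := by rw [hKdef]; exact hsup
  have hK2 : K ≤ P₂ ⊔ N := by rw [hKdef]; exact sup_le hsup' le_sup_right
  obtain ⟨S₁, h₁⟩ := (hP.comap_subtype (K := K)).exists_le_sylow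
  obtain ⟨S₂, h₂⟩ := (hP₂.comap_subtype (K := K)).exists_le_sylow
  obtain ⟨k, hk⟩ := MulAction.exists_smul_eq ↥K S₁ S₂
  -- general claim
  have claim : ∀ (S : Sylow p ↥K) (R : Subgroup G), R ≤ K → K ≤ R ⊔ N →
      R.comap K.subtype ≤ (S : Subgroup ↥K) → ∀ s : ↥K, s ∈ (S : Subgroup ↥K) → (s : G) ∈ R := by
    intro S R hRK hKR hRS s hs
    have hs' : (s : G) ∈ ((R ⊔ N : Subgroup G) : Set G) := hKR s.2
    rw [Subgroup.mul_normal] at hs'
    obtain ⟨y, hy, n, hn, hyn⟩ := Set.mem_mul.mp hs'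
    have hy' : (⟨y, hRK hy⟩ : ↥K) ∈ (S : Subgroup ↥K) := hRS (Subgroup.mem_comap.mpr hy)
    have hmem : (⟨y, hRK hy⟩ : ↥K)⁻¹ * s ∈ (S : Subgroup ↥K) :=
      (S : Subgroup ↥K).mul_mem ((S : Subgroup ↥K).inv_mem hy') hs
    obtain ⟨j, hj⟩ := S.isPGroup' ⟨_, hmem⟩
    have hj' : (y⁻¹ * (s : G)) ^ p ^ j = 1 := by
      have := congrArg (fun x : ↥(S : Subgroup ↥K) => ((x : ↥K) : G)) hj
      simpa using this
    have hn' : y⁻¹ * (s : G) = n := by rw [← hyn]; group
    rw [hn'] at hj'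
    have hn1 := eq_one_of_coprime N hN n hn j hj'
    rw [hn1, mul_one] at hyn
    rw [← hyn]
    exact hy
  have c1 := claim S₁ P hPK (by rw [hKdef]) h₁
  have c2 := claim S₂ P₂ hP₂K hK2 h₂
  have hkK : (k : G) ∈ ((N ⊔ P : Subgroup G) : Set G) := by
    rw [sup_comm, ← hKdef]; exact k.2
  rw [Subgroup.normal_mul] at hkK
  obtain ⟨n, hn, y, hy, hny⟩ := Set.mem_mul.mp hkK
  refine ⟨n, hn, ?_⟩
  intro x
  constructor
  · intro hx
    have hx' : (⟨x, hP₂K hx⟩ : ↥K) ∈ (S₂ : Subgroup ↥K) := h₂ (Subgroup.mem_comap.mpr hx)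
    rw [← hk, mem_sylow_smul] at hx'
    have h3 := c1 _ hx'
    have h4 : ((k⁻¹ * ⟨x, hP₂K hx⟩ * k : ↥K) : G) = (k : G)⁻¹ * x * (k : G) := by simp
    rw [h4, ← hny] at h3
    have h5 := P.mul_mem (P.mul_mem hy h3) (P.inv_mem hy)
    have e : y * ((n * y)⁻¹ * x * (n * y)) * y⁻¹ = n⁻¹ * x * n := by group
    rwa [e] at h5
  · intro hx
    have h3 : y⁻¹ * (n⁻¹ * x * n) * y ∈ P := P.mul_mem (P.mul_mem (P.inv_mem hy) hx) hy
    have h3' : (⟨y⁻¹ * (n⁻¹ * x * n) * y, hPK h3⟩ : ↥K) ∈ (S₁ : Subgroup ↥K) :=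
      h₁ (Subgroup.mem_comap.mpr h3)
    have h4 : k * ⟨y⁻¹ * (n⁻¹ * x * n) * y, hPK h3⟩ * k⁻¹ ∈ ((k • S₁ : Sylow p ↥K) : Subgroup ↥K) := by
      rw [mem_sylow_smul]
      have e : k⁻¹ * (k * ⟨y⁻¹ * (n⁻¹ * x * n) * y, hPK h3⟩ * k⁻¹) * k
          = (⟨y⁻¹ * (n⁻¹ * x * n) * y, hPK h3⟩ : ↥K) := by group
      rw [e]
      exact h3'
    rw [hk] at h4
    have h5 := c2 _ h4
    have h6 : ((k * ⟨y⁻¹ * (n⁻¹ * x * n) * y, hPK h3⟩ * k⁻¹ : ↥K) : G)
        = (k : G) * (y⁻¹ * (n⁻¹ * x * n) * y) * (k : G)⁻¹ := by simp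
    rw [h6, ← hny] at h5
    have e : n * y * (y⁻¹ * (n⁻¹ * x * n) * y) * (n * y)⁻¹ = x := by group
    rwa [e] at h5

/-- Let G be a finite group, N a normal subgroup of G whose order is prime to p, and P a p-subgroup of G. Then in G/N the normalizer of the image of P is the image of N_G(P), and the centralizer of the image of P is the image of C_G(P). -/
theorem result {G : Type*} [Group G] [Finite G] {p : ℕ} [Fact p.Prime] (N : Subgroup G) [N.Normal] (hN : (Nat.card N).Coprime p) (P : Subgroup G) (hP : IsPGroup p P) : Subgroup.normalizer ((P.map (QuotientGroup.mk' N)) : Set (G ⧸ N)) = (Subgroup.normalizer (P : Set G)).map (QuotientGroup.mk' N) ∧ Subgroup.centralizer ((P.map (QuotientGroup.mk' N)) : Set (G ⧸ N)) = (Subgroup.centralizer (P : Set G)).map (QuotientGroup.mk' N) := by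
  have hnorm : Subgroup.normalizer ((P.map (QuotientGroup.mk' N)) : Set (G ⧸ N))
      ≤ (Subgroup.normalizer (P : Set G)).map (QuotientGroup.mk' N) := by
    intro gb hgb
    obtain ⟨g, rfl⟩ := QuotientGroup.mk'_surjective N gb
    rw [Subgroup.mem_normalizer_iff] at hgb
    have hP₂ : IsPGroup p ↥(P.map (MulAut.conj g).toMonoidHom) := hP.map _
    have hsup : P.map (MulAut.conj g).toMonoidHom ≤ P ⊔ N := by
      rintro x ⟨y, hy, rfl⟩
      have h1 := (hgb ((QuotientGroup.mk' N) y)).mp ⟨y, hy, rfl⟩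
      obtain ⟨y', hy', hyy'⟩ := h1
      have h2 : y'⁻¹ * (g * y * g⁻¹) ∈ N := by
        rw [← QuotientGroup.eq_one_iff]
        have : ((y'⁻¹ * (g * y * g⁻¹) : G) : G ⧸ N)
            = ((QuotientGroup.mk' N) y')⁻¹ * ((QuotientGroup.mk' N) g * (QuotientGroup.mk' N) y
              * ((QuotientGroup.mk' N) g)⁻¹) := by simp
        rw [this, hyy', inv_mul_cancel]
      have e : (MulAut.conj g).toMonoidHom y = y' * (y'⁻¹ * (g * y * g⁻¹)) := by
        simp [MulAut.conj_apply]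
      rw [e]
      exact Subgroup.mul_mem _ (Subgroup.mem_sup_left hy') (Subgroup.mem_sup_right h2)
    have hsup' : P ≤ P.map (MulAut.conj g).toMonoidHom ⊔ N := by
      intro y hy
      have h1 := (hgb (((QuotientGroup.mk' N) g)⁻¹ * (QuotientGroup.mk' N) y
        * (QuotientGroup.mk' N) g)).mpr (by
          have : (QuotientGroup.mk' N) g * (((QuotientGroup.mk' N) g)⁻¹ * (QuotientGroup.mk' N) y
            * (QuotientGroup.mk' N) g) * ((QuotientGroup.mk' N) g)⁻¹ = (QuotientGroup.mk' N) y := by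
            group
          rw [this]
          exact ⟨y, hy, rfl⟩)
      obtain ⟨y', hy', hyy'⟩ := h1
      have h2 : (g * y' * g⁻¹)⁻¹ * y ∈ N := by
        rw [← QuotientGroup.eq_one_iff]
        have : (((g * y' * g⁻¹)⁻¹ * y : G) : G ⧸ N)
            = ((QuotientGroup.mk' N) g * (QuotientGroup.mk' N) y'
              * ((QuotientGroup.mk' N) g)⁻¹)⁻¹ * (QuotientGroup.mk' N) y := by simp
        rw [this, hyy']
        group
      have e : y = (g * y' * g⁻¹) * ((g * y' * g⁻¹)⁻¹ * y) := by group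
      rw [e]
      refine Subgroup.mul_mem _ (Subgroup.mem_sup_left ?_) (Subgroup.mem_sup_right h2)
      exact ⟨y', hy', by simp [MulAut.conj_apply]⟩
    obtain ⟨n, hn, hconj⟩ := conj_of_sup_eq N hN P (P.map (MulAut.conj g).toMonoidHom) hP hP₂ hsup hsup'
    refine ⟨n⁻¹ * g, ?_, ?_⟩
    · show n⁻¹ * g ∈ Subgroup.normalizer (P : Set G)
      rw [Subgroup.mem_normalizer_iff]
      intro h
      have h1 := hconj (g * h * g⁻¹)
      rw [mem_cj] at h1
      have e1 : g⁻¹ * (g * h * g⁻¹) * g = h := by group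
      have e2 : n⁻¹ * g * h * (n⁻¹ * g)⁻¹ = n⁻¹ * (g * h * g⁻¹) * n := by group
      rw [e1] at h1
      rw [e2]
      exact h1
    · have : (QuotientGroup.mk' N) n = 1 := (QuotientGroup.eq_one_iff n).mpr hn
      rw [map_mul, map_inv, this, inv_one, one_mul]
  constructor
  · exact le_antisymm hnorm (Subgroup.le_normalizer_map _)
  · apply le_antisymm
    · intro cb hcb
      have hcb' := hnorm (Subgroup.centralizer_le_normalizer _ hcb)
      obtain ⟨c, hc, rfl⟩ := hcb'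
      have hc : c ∈ Subgroup.normalizer (P : Set G) := hc
      refine ⟨c, ?_, rfl⟩
      show c ∈ Subgroup.centralizer (P : Set G)
      rw [Subgroup.mem_centralizer_iff]
      intro y hy
      rw [Subgroup.mem_centralizer_iff] at hcb
      have h1 : c * y * c⁻¹ * y⁻¹ ∈ P :=
        P.mul_mem (((Subgroup.mem_normalizer_iff.mp hc) y).mp hy) (P.inv_mem hy)
      have h2 : c * y * c⁻¹ * y⁻¹ ∈ N := by
        rw [← QuotientGroup.eq_one_iff]
        have h3 := hcb ((QuotientGroup.mk' N) y) ⟨y, hy, rfl⟩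
        have : ((c * y * c⁻¹ * y⁻¹ : G) : G ⧸ N)
            = (QuotientGroup.mk' N) c * (QuotientGroup.mk' N) y * ((QuotientGroup.mk' N) c)⁻¹
              * ((QuotientGroup.mk' N) y)⁻¹ := by simp
        rw [this, ← h3]
        group
      obtain ⟨j, hj⟩ := hP ⟨_, h1⟩
      have hj' : (c * y * c⁻¹ * y⁻¹) ^ p ^ j = 1 := by
        have := congrArg (fun x : ↥P => (x : G)) hj
        simpa using this
      have h4 := eq_one_of_coprime N hN _ h2 j hj'
      have h5 : c * y = y * c := by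
        have : c * y = (c * y * c⁻¹ * y⁻¹) * (y * c) := by group
        rw [this, h4, one_mul]
      exact h5.symm
    · rintro cb ⟨c, hc, rfl⟩
      have hc : c ∈ Subgroup.centralizer (P : Set G) := hc
      rw [Subgroup.mem_centralizer_iff] at hc ⊢
      rintro yb ⟨y, hy, rfl⟩
      rw [← map_mul, ← map_mul, hc y hy]

end Cfsg.Agent.S3800
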