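import Cfsg.Statements.S3979
import Mathlib
-- import your own Cfsg.Agent.* helpers here

set_option autoImplicit false
open Cfsg

namespace Cfsg.Agent.S3979

/-- A finite cyclic group has trivial Schur multiplier: every finite stem extension of it is an isomorphism, said through `HasCyclicSchurMultiplier G 1`. -/
theorem result {G : Type*} [Group G] [Finite G] [IsCyclic G] : Cfsg.HasCyclicSchurMultiplier G 1 := by
  refine ⟨⟨G, inferInstance, inferInstance, MonoidHom.id G, ⟨Function.surjective_id, ?_, ?_⟩, ?_⟩, ?_⟩
  · rw [MonoidHom.ker_id]; exact bot_le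
  · rw [MonoidHom.ker_id]; exact bot_le
  · have hsub : Subsingleton (MonoidHom.id G).ker := by
      rw [MonoidHom.ker_id]; infer_instance
    haveI : Unique (MonoidHom.id G).ker := ⟨⟨1⟩, fun a => Subsingleton.elim _ _⟩
    exact ⟨MulEquiv.ofUnique⟩
  · intro Γ _ _ σ hσ
    obtain ⟨_, hcen, hcomm⟩ := hσ
    have hab : ∀ a b : Γ, a * b = b * a := commutative_of_cyclic_center_quotient σ hcen
    have hc : commutator Γ = ⊥ := by
      rw [commutator_def, Subgroup.commutator_eq_bot_iff_le_centralizer]
      intro a _
      rw [Subgroup.mem_centralizer_iff]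
      intro b _
      exact hab b a
    have hker : σ.ker = ⊥ := by
      rw [eq_bot_iff, ← hc]; exact hcomm
    refine ⟨1, ?_⟩
    intro x
    refine ⟨1, ?_⟩
    apply Subtype.ext
    have hx : (x : Γ) ∈ (⊥ : Subgroup Γ) := by rw [← hker]; exact x.2
    rw [Subgroup.mem_bot] at hx
    simp [hx]

end Cfsg.Agent.S3979
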