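import Cfsg.Statements.S3950
import Cfsg.Agent.S3979
import Mathlib

set_option autoImplicit false
open Cfsg

namespace Cfsg.Agent.S3950

universe u

open scoped commutatorElement

/-- A central extension of `G` by `ZMod p` built from a bilinear cocycle `(x, y) ↦ a x * b y`. -/
structure Heis {G : Type u} [CommGroup G] {p : ℕ} (a b : G →* Multiplicative (ZMod p)) : Type u where
  c : ZMod p
  g : G

namespace Heis

variable {G : Type u} [CommGroup G] {p : ℕ} (a b : G →* Multiplicative (ZMod p))

theorem ext' {a b : G →* Multiplicative (ZMod p)} (x y : Heis a b) (h1 : x.c = y.c) (h2 : x.g = y.g) : x = y := by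
  cases x; cases y; simp_all

/-- additive form of a character -/
def fa (a : G →* Multiplicative (ZMod p)) (x : G) : ZMod p := Multiplicative.toAdd (a x)

theorem fa_mul (x y : G) : fa a (x * y) = fa a x + fa a y := by
  simp [fa]

theorem fa_one : fa a 1 = 0 := by
  simp [fa]

theorem fa_inv (x : G) : fa a x⁻¹ = - fa a x := by
  simp [fa]

instance : Mul (Heis a b) := ⟨fun x y => ⟨x.c + y.c + fa a x.g * fa b y.g, x.g * y.g⟩⟩
instance : One (Heis a b) := ⟨⟨0, 1⟩⟩
instance : Inv (Heis a b) := ⟨fun x => ⟨-x.c + fa a x.g * fa b x.g, x.g⁻¹⟩⟩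

theorem mul_c (x y : Heis a b) : (x * y).c = x.c + y.c + fa a x.g * fa b y.g := rfl
theorem mul_g (x y : Heis a b) : (x * y).g = x.g * y.g := rfl
theorem one_c : (1 : Heis a b).c = 0 := rfl
theorem one_g : (1 : Heis a b).g = 1 := rfl
theorem inv_c (x : Heis a b) : (x⁻¹).c = -x.c + fa a x.g * fa b x.g := rfl
theorem inv_g (x : Heis a b) : (x⁻¹).g = x.g⁻¹ := rfl

instance : Group (Heis a b) :=
  Group.ofLeftAxioms
    (by
      intro x y z
      apply ext'
      · simp only [mul_c, mul_g, fa_mul]; ring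
      · simp only [mul_g, mul_assoc])
    (by
      intro x
      apply ext'
      · simp only [mul_c, one_c, one_g, fa_one]; ring
      · simp only [mul_g, one_g, one_mul])
    (by
      intro x
      apply ext'
      · simp only [mul_c, inv_c, inv_g, one_c, fa_inv]; ring
      · simp only [mul_g, inv_g, one_g, inv_mul_cancel])

/-- the projection to `G` -/
def proj : Heis a b →* G where
  toFun x := x.g
  map_one' := rfl
  map_mul' _ _ := rfl

theorem proj_apply (x : Heis a b) : proj a b x = x.g := rfl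

theorem proj_surj : Function.Surjective (proj a b) := fun g => ⟨⟨0, g⟩, rfl⟩

theorem finite_heis [NeZero p] [Finite G] : Finite (Heis a b) := by
  apply Finite.of_injective (fun x : Heis a b => (x.c, x.g))
  intro x y h
  simp only [Prod.mk.injEq] at h
  exact ext' x y h.1 h.2

theorem ker_le_center : (proj a b).ker ≤ Subgroup.center (Heis a b) := by
  intro x hx
  rw [MonoidHom.mem_ker, proj_apply] at hx
  rw [Subgroup.mem_center_iff]
  intro y
  apply ext'
  · simp only [mul_c, hx, fa_one]; ring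
  · simp only [mul_g, hx, mul_one, one_mul]

theorem pow_central (k : ℕ) : (⟨1, 1⟩ : Heis a b) ^ k = ⟨(k : ZMod p), 1⟩ := by
  induction k with
  | zero =>
    apply ext'
    · simp [one_c]
    · simp [one_g]
  | succ k ih =>
    rw [pow_succ, ih]
    apply ext'
    · simp only [mul_c, fa_one]; push_cast; ring
    · simp only [mul_g, mul_one]

theorem comm_elt (g g' : G) (h1 : fa a g = 1) (h2 : fa b g = 0) (h3 : fa a g' = 0) (h4 : fa b g' = 1) :
    ⁅(⟨0, g⟩ : Heis a b), (⟨0, g'⟩ : Heis a b)⁆ = ⟨1, 1⟩ := by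
  rw [commutatorElement_def]
  apply ext'
  · simp only [mul_c, mul_g, inv_c, inv_g, fa_mul, fa_inv, h1, h2, h3, h4]; ring
  · simp only [mul_g, inv_g]
    rw [mul_comm g g', mul_inv_cancel_right, mul_inv_cancel]

theorem ker_le_commutator [NeZero p] (g g' : G) (h1 : fa a g = 1) (h2 : fa b g = 0) (h3 : fa a g' = 0) (h4 : fa b g' = 1) :
    (proj a b).ker ≤ commutator (Heis a b) := by
  intro x hx
  rw [MonoidHom.mem_ker, proj_apply] at hx
  have hz : (⟨1, 1⟩ : Heis a b) ∈ commutator (Heis a b) := by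
    rw [← comm_elt a b g g' h1 h2 h3 h4]
    exact Subgroup.commutator_mem_commutator (Subgroup.mem_top _) (Subgroup.mem_top _)
  have hx' : x = (⟨1, 1⟩ : Heis a b) ^ (x.c.val) := by
    rw [pow_central]
    apply ext'
    · simp
    · exact hx
  rw [hx']
  exact Subgroup.pow_mem _ hz _

end Heis

theorem exists_pair {G : Type u} [CommGroup G] [Finite G] (h : ¬ IsCyclic G) :
    ∃ (p : ℕ) (_ : Fact p.Prime) (a b : G →* Multiplicative (ZMod p)) (g g' : G),
      Heis.fa a g = 1 ∧ Heis.fa b g = 0 ∧ Heis.fa a g' = 0 ∧ Heis.fa b g' = 1 := by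
  classical
  obtain ⟨ι, _, n, hn, ⟨e⟩⟩ := CommGroup.equiv_prod_multiplicative_zmod_of_finite G
  by_cases hcop : ∀ i j : ι, i ≠ j → Nat.Coprime (n i) (n j)
  · exfalso
    apply h
    rw [IsCyclic.iff_exponent_eq_card, Monoid.exponent_eq_of_mulEquiv e, Nat.card_congr e.toEquiv,
      Monoid.exponent_pi, Nat.card_pi]
    have h1 : ∀ i : ι, Monoid.exponent (Multiplicative (ZMod (n i))) = n i := by
      intro i
      rw [Monoid.exponent_multiplicative, ZMod.exponent]
    have h2 : ∀ i : ι, Nat.card (Multiplicative (ZMod (n i))) = n i := by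
      intro i
      rw [Nat.card_congr Multiplicative.toAdd, Nat.card_zmod]
    simp only [h1, h2]
    apply Finset.lcm_eq_prod
    intro i _ j _ hij
    exact hcop i j hij
  · push Not at hcop
    obtain ⟨i, j, hij, hnc⟩ := hcop
    obtain ⟨p, hp, hpi, hpj⟩ := Nat.Prime.not_coprime_iff_dvd.mp hnc
    have : Fact p.Prime := ⟨hp⟩
    let ci : Multiplicative (ZMod (n i)) →* Multiplicative (ZMod p) :=
      AddMonoidHom.toMultiplicative (ZMod.castHom hpi (ZMod p)).toAddMonoidHom
    let cj : Multiplicative (ZMod (n j)) →* Multiplicative (ZMod p) :=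
      AddMonoidHom.toMultiplicative (ZMod.castHom hpj (ZMod p)).toAddMonoidHom
    let a : G →* Multiplicative (ZMod p) := (ci.comp (Pi.evalMonoidHom _ i)).comp e.toMonoidHom
    let b : G →* Multiplicative (ZMod p) := (cj.comp (Pi.evalMonoidHom _ j)).comp e.toMonoidHom
    refine ⟨p, ⟨hp⟩, a, b, e.symm (Pi.mulSingle i (Multiplicative.ofAdd 1)),
      e.symm (Pi.mulSingle j (Multiplicative.ofAdd 1)), ?_, ?_, ?_, ?_⟩
    · simp [Heis.fa, a, ci, ZMod.cast_one hpi]
    · simp [Heis.fa, b, cj, Pi.mulSingle_eq_of_ne hij.symm]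
    · simp [Heis.fa, a, ci, Pi.mulSingle_eq_of_ne hij]
    · simp [Heis.fa, b, cj, ZMod.cast_one hpj]

/-- A finite abelian group has trivial Schur multiplier if and only if it is cyclic. -/
theorem result {G : Type*} [CommGroup G] [Finite G] : Cfsg.HasCyclicSchurMultiplier G 1 ↔ IsCyclic G := by
  constructor
  · intro hS
    by_contra hnc
    obtain ⟨p, hp, a, b, g, g', h1, h2, h3, h4⟩ := exists_pair hnc
    have : NeZero p := ⟨hp.out.ne_zero⟩
    have : Finite (Heis a b) := Heis.finite_heis a b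
    obtain ⟨π, hπ⟩ := hS.2 (Heis a b) (Heis.proj a b)
      ⟨Heis.proj_surj a b, Heis.ker_le_center a b, Heis.ker_le_commutator a b g g' h1 h2 h3 h4⟩
    have hz : (⟨1, 1⟩ : Heis a b) ∈ (Heis.proj a b).ker := by
      rw [MonoidHom.mem_ker]; rfl
    obtain ⟨w, hw⟩ := hπ ⟨_, hz⟩
    have hw1 : w = 1 := Subsingleton.elim _ _
    rw [hw1, map_one] at hw
    have hc := congrArg (fun x : (Heis.proj a b).ker => (x : Heis a b).c) hw
    simp only [Subgroup.coe_one, Heis.one_c] at hc
    have : Nontrivial (ZMod p) := ZMod.nontrivial_iff.mpr hp.out.one_lt.ne'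
    exact zero_ne_one hc
  · intro hc
    exact Cfsg.Agent.S3979.result

end Cfsg.Agent.S3950
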