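import Cfsg.Statements.S3951
import Cfsg.Agent.S3950
import Cfsg.Agent.Helper22.StemDihedral
import Mathlib

set_option autoImplicit false
open Cfsg

namespace Cfsg.Agent.S3951

open Cfsg.Agent.Helper22 Cfsg.Agent.S3950

theorem closure_gens (m n : ℕ) [NeZero m] [NeZero n] :
    Subgroup.closure ({Multiplicative.ofAdd ((1 : ZMod m), (0 : ZMod n)),
      Multiplicative.ofAdd ((0 : ZMod m), (1 : ZMod n))} : Set (Multiplicative (ZMod m × ZMod n))) = ⊤ := by
  rw [eq_top_iff]
  intro x _
  have hx : x = Multiplicative.ofAdd ((1 : ZMod m), (0 : ZMod n)) ^ (Multiplicative.toAdd x).1.val *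
      Multiplicative.ofAdd ((0 : ZMod m), (1 : ZMod n)) ^ (Multiplicative.toAdd x).2.val := by
    rw [← ofAdd_nsmul, ← ofAdd_nsmul, ← ofAdd_add]
    apply Multiplicative.toAdd.injective
    simp only [toAdd_ofAdd]
    ext
    · simp
    · simp
  rw [hx]
  exact mul_mem (pow_mem (Subgroup.subset_closure (by simp)) _)
    (pow_mem (Subgroup.subset_closure (by simp)) _)

/-- For positive integers `m` and `n` with `n` dividing `m`, the Schur multiplier of the abelian group `ZMod m × ZMod n` (written multiplicatively) is cyclic of order `n`. In particular the elementary abelian group of order `p ^ 2` has multiplier of order `p`. -/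
theorem result (m n : ℕ) [NeZero m] [NeZero n] (hnm : n ∣ m) : Cfsg.HasCyclicSchurMultiplier (Multiplicative (ZMod m × ZMod n)) n := by
  constructor
  · let a : Multiplicative (ZMod m × ZMod n) →* Multiplicative (ZMod n) :=
      AddMonoidHom.toMultiplicative
        ((ZMod.castHom hnm (ZMod n)).toAddMonoidHom.comp (AddMonoidHom.fst (ZMod m) (ZMod n)))
    let b : Multiplicative (ZMod m × ZMod n) →* Multiplicative (ZMod n) :=
      AddMonoidHom.toMultiplicative (AddMonoidHom.snd (ZMod m) (ZMod n))
    have : Finite (Heis a b) := Heis.finite_heis a b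
    refine ⟨Heis a b, inferInstance, inferInstance, Heis.proj a b, ⟨Heis.proj_surj a b,
      Heis.ker_le_center a b, Heis.ker_le_commutator a b (Multiplicative.ofAdd (1, 0))
        (Multiplicative.ofAdd (0, 1)) ?_ ?_ ?_ ?_⟩, ?_⟩
    · simp [Heis.fa, a, ZMod.cast_one hnm]
    · simp [Heis.fa, b]
    · simp [Heis.fa, a]
    · simp [Heis.fa, b]
    · refine ⟨MulEquiv.symm
        { toFun := fun z => ⟨⟨Multiplicative.toAdd z, 1⟩, MonoidHom.mem_ker.mpr rfl⟩
          invFun := fun k => Multiplicative.ofAdd k.1.c
          left_inv := fun z => rfl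
          right_inv := ?_
          map_mul' := ?_ }⟩
      · intro k
        apply Subtype.ext
        exact Heis.ext' _ _ rfl (MonoidHom.mem_ker.mp k.2).symm
      · intro z z'
        apply Subtype.ext
        apply Heis.ext'
        · simp [Heis.mul_c, Heis.fa_one]
        · simp [Heis.mul_g]
  · intro Γ _ _ σ hσ
    obtain ⟨hs, hc, hd⟩ := hσ
    obtain ⟨α, hα⟩ := hs (Multiplicative.ofAdd (1, 0))
    obtain ⟨β, hβ⟩ := hs (Multiplicative.ofAdd (0, 1))
    have hcK : α * β * α⁻¹ * β⁻¹ ∈ σ.ker := by
      rw [MonoidHom.mem_ker, map_mul, map_mul, map_mul, map_inv, map_inv, mul_inv_cancel_comm,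
        mul_inv_cancel]
    set c := α * β * α⁻¹ * β⁻¹ with hcdef
    clear_value c
    have hcc : ∀ x : Γ, x * c = c * x := fun x => Subgroup.mem_center_iff.mp (hc hcK) x
    have hgen : Subgroup.closure {α, β} ⊔ σ.ker = ⊤ := by
      apply closure_sup_ker_eq_top
      rw [Set.image_pair, hα, hβ]
      exact closure_gens m n
    have hNn : (Subgroup.zpowers c).Normal := by
      constructor
      intro x hx g
      have hxc : x ∈ Subgroup.center Γ := by
        have : Subgroup.zpowers c ≤ Subgroup.center Γ := by
          rw [Subgroup.zpowers_le]; exact hc hcK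
        exact this hx
      have := Subgroup.mem_center_iff.mp hxc g
      rw [this, mul_inv_cancel_right]
      exact hx
    have hcomm : commutator Γ ≤ Subgroup.zpowers c := by
      apply commutator_le_of_pairwise (Subgroup.zpowers c) ({α, β} ∪ (σ.ker : Set Γ))
      · rw [Subgroup.closure_union, Subgroup.closure_eq, hgen]
      · have hker : ∀ x ∈ σ.ker, ∀ y : Γ, x * y * x⁻¹ * y⁻¹ ∈ Subgroup.zpowers c ∧
            y * x * y⁻¹ * x⁻¹ ∈ Subgroup.zpowers c := by
          intro x hx y
          have h1 := Subgroup.mem_center_iff.mp (hc hx) y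
          have e1 : x * y * x⁻¹ * y⁻¹ = 1 := by
            rw [← h1]; group
          have e2 : y * x * y⁻¹ * x⁻¹ = 1 := by
            rw [h1]; group
          rw [e1, e2]
          exact ⟨one_mem _, one_mem _⟩
        intro x hx y hy
        rcases hx with (hx | hx) | hx
        · rcases hy with (hy | hy) | hy
          · rw [hx, hy]
            have : α * α * α⁻¹ * α⁻¹ = 1 := by group
            rw [this]; exact one_mem _
          · rw [hx, hy, ← hcdef]; exact Subgroup.mem_zpowers c
          · exact (hker y hy x).2
        · rcases hy with (hy | hy) | hy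
          · rw [hx, hy]
            have : β * α * β⁻¹ * α⁻¹ = c⁻¹ := by rw [hcdef]; group
            rw [this]; exact inv_mem (Subgroup.mem_zpowers c)
          · rw [hx, hy]
            have : β * β * β⁻¹ * β⁻¹ = 1 := by group
            rw [this]; exact one_mem _
          · exact (hker y hy x).2
        · exact (hker x hx y).1
    have hK : σ.ker ≤ Subgroup.zpowers c := hd.trans hcomm
    have hβn : β ^ n ∈ σ.ker := by
      rw [MonoidHom.mem_ker, map_pow, hβ, ← ofAdd_nsmul]
      have : n • ((0 : ZMod m), (1 : ZMod n)) = 0 := by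
        ext
        · simp
        · simp
      rw [this]; rfl
    have hcn : c ^ n = 1 := by
      have e1 : α * β * α⁻¹ = c * β := by rw [hcdef]; group
      have e2 : α * β ^ n * α⁻¹ = (α * β * α⁻¹) ^ n := by
        simpa using (map_pow (MulAut.conj α) β n)
      have e3 : α * β ^ n * α⁻¹ = β ^ n := by
        have := Subgroup.mem_center_iff.mp (hc hβn) α
        rw [this, mul_inv_cancel_right]
      have hcm : Commute c β := (hcc β).symm
      rw [e1, hcm.mul_pow] at e2
      rw [e3] at e2
      exact (mul_eq_right.mp e2.symm)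
    exact exists_surj_zmod σ.ker c hcK n hcn hK

end Cfsg.Agent.S3951
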