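import Mathlib
import Cfsg.Statements.S3957
import Cfsg.Agent.Helper22.SchurConstr

set_option autoImplicit false
open Cfsg

universe u v

namespace Cfsg.Agent.S3957

open Cfsg.Agent.Helper22 in
/-- Let `Q` be a finite group with Schur multiplier `A` and let `τ : Δ →* Q` be a finite stem extension, `Δ` in the universe of `Q`. Then there is a finite stem extension `σ : Γ →* Q` with kernel isomorphic to `A` (a Schur covering group) and a surjective homomorphism `β : Γ →* Δ` with `τ ∘ β = σ`. -/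
theorem result {Q : Type u} [Group Q] [Finite Q] {A : Type v} [CommGroup A] (hA : Cfsg.HasSchurMultiplier Q A) {Δ : Type u} [Group Δ] [Finite Δ] (τ : Δ →* Q) (hτ : Cfsg.IsStemExtension τ) : ∃ (Γ : Type u) (_ : Group Γ) (_ : Finite Γ) (σ : Γ →* Q), Cfsg.IsStemExtension σ ∧ Nonempty (σ.ker ≃* A) ∧ ∃ β : Γ →* Δ, Function.Surjective β ∧ τ.comp β = σ := by
  classical
  haveI := finite_of_hasSchurMultiplier hA
  obtain ⟨Γ₀, hG₀, hF₀, σ₀, hσ₀, ⟨e₀⟩⟩ := hA.1
  have hcard₀ : Nat.card σ₀.ker = Nat.card A := Nat.card_congr e₀.toEquiv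
  let Pr : ℕ → Prop := fun n => ∃ (Γ : Type u) (_ : Group Γ) (_ : Finite Γ) (β : Γ →* Δ),
    Function.Surjective β ∧ Cfsg.IsStemExtension (τ.comp β) ∧ Nat.card Γ = n
  have hbound : ∀ n, Pr n → n ≤ Nat.card A * Nat.card Q := by
    rintro n ⟨Γ, _, _, β, hβ, hstem, rfl⟩
    rw [card_eq_card_ker_mul (τ.comp β) hstem.1]
    exact Nat.mul_le_mul_right _ (card_ker_le_of_hasSchurMultiplier hA (τ.comp β) hstem)
  have hPΔ : Pr (Nat.card Δ) :=
    ⟨Δ, inferInstance, inferInstance, MonoidHom.id Δ, Function.surjective_id, hτ, rfl⟩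
  have hspec := Nat.findGreatest_spec (hbound _ hPΔ) hPΔ
  have hmax : ∀ n, Pr n → n ≤ Nat.findGreatest Pr (Nat.card A * Nat.card Q) := fun n hn =>
    Nat.le_findGreatest (hbound n hn) hn
  obtain ⟨Γ₁, hG₁, hF₁, β₁, hβ₁, hstem₁, hcard₁⟩ := hspec
  have hge : Nat.card A ≤ Nat.card (τ.comp β₁).ker := by
    by_contra hlt
    push Not at hlt
    obtain ⟨σ₁, hσ₁def⟩ : ∃ σ₁ : Γ₁ →* Q, σ₁ = τ.comp β₁ := ⟨_, rfl⟩
    rw [← hσ₁def] at hstem₁ hlt
    have hp₂ := fiberSnd_surjective σ₀ σ₁ hσ₀.1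
    have hp₁ := fiberFst_surjective σ₀ σ₁ hstem₁.1
    have hc := fiber_ker_central σ₀ σ₁ hσ₀.2.1 hstem₁.2.1
    by_cases hbot : (fiberSnd σ₀ σ₁).ker ⊓ commutator (fiberProd σ₀ σ₁) = ⊥
    · obtain ⟨π, hπ⟩ := exists_surjective_ker_of_inf_eq_bot (fiberSnd σ₀ σ₁) (fiberFst σ₀ σ₁)
        hp₂ hp₁ σ₁ σ₀ (fun y => (fiber_comm_apply σ₀ σ₁ y).symm) hstem₁.2.2 hσ₀.2.2 hbot
      have := Nat.card_le_card_of_surjective π hπ
      omega
    · have hqc : (σ₁.comp (fiberSnd σ₀ σ₁)).ker ≤ Subgroup.center (fiberProd σ₀ σ₁) := by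
        intro y hy
        apply hc
        rw [MonoidHom.mem_ker, MonoidHom.comp_apply] at hy ⊢
        rw [fiber_comm_apply]; exact hy
      obtain ⟨S, _, _, s, hs, hstemS, hninj⟩ :=
        exists_bigger_stem (fiberSnd σ₀ σ₁) hp₂ σ₁ hstem₁ hqc hbot
      have hPS : Pr (Nat.card S) := by
        refine ⟨S, inferInstance, inferInstance, β₁.comp s, hβ₁.comp hs, ?_, rfl⟩
        rw [← MonoidHom.comp_assoc, ← hσ₁def]
        exact hstemS
      have h1 := hmax _ hPS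
      have h2 : Nat.card Γ₁ < Nat.card S := by
        by_contra hle
        push Not at hle
        exact hninj (Function.Surjective.bijective_of_nat_card_le hs hle).1
      omega
  obtain ⟨π, hπ⟩ := hA.2 Γ₁ (τ.comp β₁) hstem₁
  have hbij : Function.Bijective π := Function.Surjective.bijective_of_nat_card_le hπ hge
  exact ⟨Γ₁, hG₁, hF₁, τ.comp β₁, hstem₁, ⟨(MulEquiv.ofBijective π hbij).symm⟩, β₁, hβ₁, rfl⟩

end Cfsg.Agent.S3957
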