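import Mathlib
import Cfsg.Statements.S3958
import Cfsg.Agent.Helper22.SchurConstr

set_option autoImplicit false
open Cfsg

universe u v

namespace Cfsg.Agent.S3958

open Cfsg.Agent.Helper22 in
/-- Let `σ : Γ →* Q` be a finite stem extension of the finite group `Q` with `Γ` of trivial Schur multiplier. Then `σ` is a Schur covering group of `Q`: for every finite stem extension `τ : Δ →* Q` with `Δ` in the same universe as `Q`, the kernel of `τ` is a homomorphic image of the kernel of `σ`. -/
theorem result {Q : Type u} [Group Q] [Finite Q] {Γ : Type v} [Group Γ] [Finite Γ] (σ : Γ →* Q) (hσ : Cfsg.IsStemExtension σ) (hΓ : Cfsg.HasCyclicSchurMultiplier Γ 1) (Δ : Type u) [Group Δ] [Finite Δ] (τ : Δ →* Q) (hτ : Cfsg.IsStemExtension τ) : ∃ π : σ.ker →* τ.ker, Function.Surjective π := by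
  have hp₁ := fiberFst_surjective σ τ hτ.1
  have hp₂ := fiberSnd_surjective σ τ hσ.1
  have hc := fiber_ker_central σ τ hσ.2.1 hτ.2.1
  have hid : Cfsg.IsStemExtension (MonoidHom.id Γ) :=
    ⟨Function.surjective_id, by rw [MonoidHom.ker_id]; exact bot_le,
      by rw [MonoidHom.ker_id]; exact bot_le⟩
  have hcard : Nat.card (Multiplicative (ZMod 1)) ≤ Nat.card (MonoidHom.id Γ).ker := by
    have h1 : Nat.card (Multiplicative (ZMod 1)) = 1 := by
      rw [Nat.card_eq_one_iff_unique]
      exact ⟨⟨fun a b => Multiplicative.toAdd.injective (Subsingleton.elim _ _)⟩, ⟨1⟩⟩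
    rw [h1]; exact Nat.card_pos
  have hbot := ker_inf_commutator_eq_bot_of_cover hΓ (MonoidHom.id Γ) hid hcard
    (fiberFst σ τ) hp₁ (by
      intro y hy
      apply hc
      rw [MonoidHom.mem_ker, MonoidHom.comp_apply] at hy ⊢
      rw [show fiberFst σ τ y = 1 from hy, map_one])
  exact exists_surjective_ker_of_inf_eq_bot (fiberFst σ τ) (fiberSnd σ τ) hp₁ hp₂ σ τ
    (fiber_comm_apply σ τ) hσ.2.2 hτ.2.2 hbot

end Cfsg.Agent.S3958
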