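import Mathlib
import Cfsg.Statements.S3960
import Cfsg.Agent.Helper22.SchurBasic

set_option autoImplicit false
open Cfsg

universe u

namespace Cfsg.Agent.S3960

open Cfsg.Agent.Helper22 in
/-- A finite perfect group `Q` has a universal central extension: a finite perfect group `G` in the universe of `Q` and a surjective homomorphism `π : G →* Q` with central kernel such that for every group `X` in that universe and every surjective homomorphism `ξ : X →* Q` with central kernel there is exactly one homomorphism `η : G →* X` with `ξ ∘ η = π`. -/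
theorem result {Q : Type u} [Group Q] [Finite Q] (hQ : Group.IsPerfect Q) : ∃ (G : Type u) (_ : Group G) (_ : Finite G) (π : G →* Q), Group.IsPerfect G ∧ Function.Surjective π ∧ π.ker ≤ Subgroup.center G ∧ ∀ (X : Type u) [Group X] (ξ : X →* Q), Function.Surjective ξ → ξ.ker ≤ Subgroup.center X → ∃! η : G →* X, ξ.comp η = π := by
  classical
  haveI := hQ
  obtain ⟨N, hN⟩ : ∃ N, N = Nat.card Q := ⟨_, rfl⟩
  have hNpos : 0 < N := by rw [hN]; exact Nat.card_pos
  let P : ℕ → Prop := fun n => ∃ (G : Type u) (_ : Group G) (_ : Finite G) (π : G →* Q),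
    Group.IsPerfect G ∧ Function.Surjective π ∧ π.ker ≤ Subgroup.center G ∧ Nat.card G = n
  have hbound : ∀ n, P n → n ≤ N ^ (N * N ^ 2 + 1) := by
    rintro n ⟨G, _, _, π, hperf, hπ, hker, rfl⟩
    have hidx : (Subgroup.center G).index ∣ N := by
      have h1 := Subgroup.index_dvd_of_le hker
      rw [Subgroup.index_ker, MonoidHom.range_eq_top.mpr hπ, Subgroup.card_top] at h1
      rw [hN]; exact h1
    have hidxpos : 0 < (Subgroup.center G).index :=
      Nat.pos_of_ne_zero Subgroup.index_ne_zero_of_finite
    have hidxle : (Subgroup.center G).index ≤ N := Nat.le_of_dvd hNpos hidx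
    have hc := card_commutatorSet_le G
    have hdvd := Subgroup.card_commutator_dvd_index_center_pow G
    rw [hperf.commutator_eq_top, Subgroup.card_top] at hdvd
    have h1 : Nat.card G ≤ (Subgroup.center G).index ^
        ((Subgroup.center G).index * Nat.card (commutatorSet G) + 1) :=
      Nat.le_of_dvd (pow_pos hidxpos _) hdvd
    have h2 : (Subgroup.center G).index * Nat.card (commutatorSet G) + 1 ≤ N * N ^ 2 + 1 := by
      have h3 : Nat.card (commutatorSet G) ≤ N ^ 2 := hc.trans (Nat.pow_le_pow_left hidxle 2)
      have := Nat.mul_le_mul hidxle h3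
      omega
    calc Nat.card G ≤ (Subgroup.center G).index ^
          ((Subgroup.center G).index * Nat.card (commutatorSet G) + 1) := h1
      _ ≤ (Subgroup.center G).index ^ (N * N ^ 2 + 1) := Nat.pow_le_pow_right hidxpos h2
      _ ≤ N ^ (N * N ^ 2 + 1) := Nat.pow_le_pow_left hidxle _
  have hPQ : P N := ⟨Q, inferInstance, inferInstance, MonoidHom.id Q, inferInstance,
    Function.surjective_id, by rw [MonoidHom.ker_id]; exact bot_le, hN.symm⟩
  have hspec : P (Nat.findGreatest P (N ^ (N * N ^ 2 + 1))) :=
    Nat.findGreatest_spec (hbound N hPQ) hPQ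
  have hmax : ∀ n, P n → n ≤ Nat.findGreatest P (N ^ (N * N ^ 2 + 1)) := fun n hn =>
    Nat.le_findGreatest (hbound n hn) hn
  obtain ⟨G, hGgrp, hGfin, π, hperf, hπ, hker, hcard⟩ := hspec
  refine ⟨G, hGgrp, hGfin, π, hperf, hπ, hker, ?_⟩
  intro X _ ξ hξ hξc
  have hstem : ∀ (E : Type u) [Group E] [Finite E] (p : E →* G), Function.Surjective p →
      p.ker ≤ Subgroup.center E → Group.IsPerfect E → Function.Injective p := by
    intro E _ _ p hp hpc hE
    have hcent : (π.comp p).ker ≤ Subgroup.center E := by
      intro x hx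
      apply central_of_comm_central
      intro y
      apply hpc
      rw [MonoidHom.mem_ker, map_mul, map_mul, map_mul, map_inv, map_inv]
      have hx' : p x ∈ π.ker := hx
      have := Subgroup.mem_center_iff.mp (hker hx') (p y)
      rw [← this]; group
    have hPE : P (Nat.card E) :=
      ⟨E, inferInstance, inferInstance, π.comp p, hE, hπ.comp hp, hcent, rfl⟩
    have hle : Nat.card E ≤ Nat.card G := by rw [hcard]; exact hmax _ hPE
    exact (Function.Surjective.bijective_of_nat_card_le hp hle).1
  obtain ⟨η, hη⟩ := exists_lift_of_perfect_cover hstem π X ξ hξ hξc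
  refine ⟨η, hη, ?_⟩
  intro η' hη'
  apply hom_eq_of_perfect_of_central
  intro g
  apply hξc
  rw [MonoidHom.mem_ker, map_mul, map_inv]
  have h1 := congrArg (fun f => f g) hη
  have h2 := congrArg (fun f => f g) hη'
  simp only [MonoidHom.comp_apply] at h1 h2
  rw [h1, h2, mul_inv_cancel]

end Cfsg.Agent.S3960
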