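import Mathlib
import Cfsg.Statements.S3961
import Cfsg.Agent.Helper22.SchurBasic

set_option autoImplicit false
open Cfsg

universe u v

namespace Cfsg.Agent.S3961

open Cfsg.Agent.Helper22 in
/-- Let `π : G →* Q` be a surjective homomorphism with central kernel from a finite perfect group `G` (a perfect cover of `Q`). Then `π` is universal, in the sense that every surjective homomorphism `ξ : X →* Q` with central kernel from a group `X` in the universe of `G` admits a homomorphism `η : G →* X` with `ξ ∘ η = π`, if and only if `G` has trivial Schur multiplier. -/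
theorem result {G : Type u} {Q : Type v} [Group G] [Group Q] [Finite G] (hG : Group.IsPerfect G) (π : G →* Q) (hπ : Function.Surjective π) (hker : π.ker ≤ Subgroup.center G) : (∀ (X : Type u) [Group X] (ξ : X →* Q), Function.Surjective ξ → ξ.ker ≤ Subgroup.center X → ∃ η : G →* X, ξ.comp η = π) ↔ Cfsg.HasCyclicSchurMultiplier G 1 := by
  haveI := hG
  constructor
  · intro huniv
    apply hasCyclicSchurMultiplier_one_of
    intro Γ _ _ σ hσ
    obtain ⟨hs, hc, hd⟩ := hσ
    haveI : Group.IsPerfect Γ := by
      rw [Group.isPerfect_def]
      have h1 : (commutator Γ).map σ = ⊤ := by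
        rw [commutator_def, Subgroup.map_commutator, Subgroup.map_top_of_surjective σ hs,
          ← commutator_def, Group.IsPerfect.commutator_eq_top]
      have h2 : (commutator Γ) ⊔ σ.ker = ⊤ := by
        rw [← Subgroup.comap_map_eq, h1, Subgroup.comap_top]
      rw [← h2]; exact (sup_eq_left.mpr hd).symm
    have hcent : (π.comp σ).ker ≤ Subgroup.center Γ := by
      intro x hx
      apply central_of_comm_central
      intro y
      apply hc
      rw [MonoidHom.mem_ker, map_mul, map_mul, map_mul, map_inv, map_inv]
      have hx' : σ x ∈ π.ker := hx
      have := Subgroup.mem_center_iff.mp (hker hx') (σ y)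
      rw [← this]; group
    obtain ⟨η, hη⟩ := huniv Γ (π.comp σ) (hπ.comp hs) hcent
    have hση : σ.comp η = MonoidHom.id G := by
      apply hom_eq_of_perfect_of_central
      intro g
      apply hker
      rw [MonoidHom.mem_ker, map_mul, map_inv]
      have := congrArg (fun f => f g) hη
      simp only [MonoidHom.comp_apply] at this
      simp [this]
    have hid : MonoidHom.id Γ = η.comp σ := by
      apply hom_eq_of_perfect_of_central
      intro x
      apply hc
      rw [MonoidHom.mem_ker, map_mul, map_inv]
      have := congrArg (fun f => f (σ x)) hση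
      simp only [MonoidHom.comp_apply, MonoidHom.id_apply] at this ⊢
      rw [this, mul_inv_cancel]
    rw [Subgroup.eq_bot_iff_forall]
    intro k hk
    have := congrArg (fun f => f k) hid
    simp only [MonoidHom.comp_apply, MonoidHom.id_apply] at this
    rw [this, MonoidHom.mem_ker.mp hk, map_one]
  · intro hM X _ ξ hξ hξc
    apply exists_lift_of_perfect_cover _ π X ξ hξ hξc
    intro E _ _ p hp hpc hperf
    have hstem : Cfsg.IsStemExtension p :=
      ⟨hp, hpc, by rw [hperf.commutator_eq_top]; exact le_top⟩
    have := ker_eq_bot_of_trivial_multiplier hM E p hstem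
    exact (MonoidHom.ker_eq_bot_iff p).mp this

end Cfsg.Agent.S3961
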