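import Cfsg.Statements.S3962

set_option autoImplicit false
open Cfsg

namespace Cfsg.Agent.S3962

/-- Let `G` be a perfect group and `π : G →* Q` a surjective homomorphism whose kernel is central. Then `π` maps the centre of `G` onto the centre of `Q`. Taking `π` to be the map to `G ⧸ Z(G)` shows that the central quotient of a perfect group has trivial centre. -/
theorem result {G Q : Type*} [Group G] [Group Q] (hG : Group.IsPerfect G) (π : G →* Q) (hπ : Function.Surjective π) (hker : π.ker ≤ Subgroup.center G) : (Subgroup.center G).map π = Subgroup.center Q := by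
  apply le_antisymm
  · rintro _ ⟨z, hz, rfl⟩
    rw [Subgroup.mem_center_iff]
    intro q
    obtain ⟨g, rfl⟩ := hπ q
    rw [← map_mul, ← map_mul]
    congr 1
    exact (Subgroup.mem_center_iff.mp hz g)
  · intro q hq
    obtain ⟨g, rfl⟩ := hπ q
    refine ⟨g, ?_, rfl⟩
    -- the commutator map x ↦ g * x * g⁻¹ * x⁻¹ lands in the kernel, hence in the centre
    have hc : ∀ x : G, g * x * g⁻¹ * x⁻¹ ∈ Subgroup.center G := by
      intro x
      apply hker
      rw [MonoidHom.mem_ker]
      have := Subgroup.mem_center_iff.mp hq (π x)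
      simp only [map_mul, map_inv]
      rw [← this]
      group
    -- define the hom into the centre
    obtain ⟨f, hf⟩ : ∃ f : G →* Subgroup.center G, ∀ x, (f x : G) = g * x * g⁻¹ * x⁻¹ := by
      refine ⟨{ toFun := fun x => ⟨g * x * g⁻¹ * x⁻¹, hc x⟩, map_one' := ?_, map_mul' := ?_ }, fun x => rfl⟩
      · apply Subtype.ext
        simp
      · intro x y
        apply Subtype.ext
        simp only [Subgroup.coe_mul]
        have h1 := Subgroup.mem_center_iff.mp (hc y) x
        calc g * (x * y) * g⁻¹ * (x * y)⁻¹
            = g * x * g⁻¹ * (x⁻¹ * (x * (g * y * g⁻¹ * y⁻¹))) * x⁻¹ := by group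
          _ = g * x * g⁻¹ * (x⁻¹ * ((g * y * g⁻¹ * y⁻¹) * x)) * x⁻¹ := by rw [h1]
          _ = g * x * g⁻¹ * x⁻¹ * (g * y * g⁻¹ * y⁻¹) := by group
    have hcomm : commutator G ≤ f.ker := by
      open scoped IsMulCommutative in exact Abelianization.commutator_subset_ker f
    have hf1 : ∀ x : G, f x = 1 := by
      intro x
      have : x ∈ commutator G := by
        rw [hG.commutator_eq_top]; trivial
      exact MonoidHom.mem_ker.mp (hcomm this)
    show g ∈ Subgroup.center G
    rw [Subgroup.mem_center_iff]
    intro x
    have h2 : g * x * g⁻¹ * x⁻¹ = 1 := by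
      rw [← hf x, hf1 x]; rfl
    have h3 : g * x = x * g := by
      have : g * x * g⁻¹ * x⁻¹ * (x * g) = x * g := by rw [h2, one_mul]
      rw [← this]; group
    exact h3.symm
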