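import Cfsg.Statements.S3963
import Cfsg.Agent.Helper22.DihedralStem
import Mathlib

set_option autoImplicit false
open Cfsg

namespace Cfsg.Agent.S3963

open Cfsg.Agent.Helper22

/-- For every `n ≥ 1` the dicyclic (generalized quaternion) group of order `4 n` has trivial Schur multiplier. -/
theorem result (n : ℕ) [NeZero n] : Cfsg.HasCyclicSchurMultiplier (QuaternionGroup n) 1 := by
  apply hasCyclicSchurMultiplier_one_of
  intro Γ _ _ σ hσ
  obtain ⟨hs, hc, hd⟩ := hσ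
  obtain ⟨α, ξ, hα, hξ, hgen, hinv⟩ := quaternion_stem_setup σ hs
  apply stem_dihedral_trivial' σ.ker hc hd α ξ hgen hinv n
  · have hk : (ξ ^ 2)⁻¹ * α ^ n ∈ σ.ker := by
      rw [MonoidHom.mem_ker, map_mul, map_inv, map_pow, map_pow, hα, hξ, QuaternionGroup.a_one_pow,
        QuaternionGroup.xa_sq]
      exact inv_mul_cancel _
    have hcen := Subgroup.mem_center_iff.mp (hc hk) ξ
    have e : α ^ n = ξ ^ 2 * ((ξ ^ 2)⁻¹ * α ^ n) := by group
    rw [e]
    calc ξ * (ξ ^ 2 * ((ξ ^ 2)⁻¹ * α ^ n)) = ξ ^ 2 * (ξ * ((ξ ^ 2)⁻¹ * α ^ n)) := by group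
      _ = ξ ^ 2 * (((ξ ^ 2)⁻¹ * α ^ n) * ξ) := by rw [hcen]
      _ = ξ ^ 2 * ((ξ ^ 2)⁻¹ * α ^ n) * ξ := by group
  · intro j hj
    rw [MonoidHom.mem_ker, map_pow, map_mul, map_mul, map_mul, map_inv, map_inv, hα, hξ,
      quaternion_inv_xa, quaternion_inv_a, QuaternionGroup.xa_mul_a, QuaternionGroup.xa_mul_xa,
      QuaternionGroup.a_mul_a, quaternion_a_pow, QuaternionGroup.one_def] at hj
    have h0 : (j : ZMod (2 * n)) * ((n : ZMod (2 * n)) + ((n : ZMod (2 * n)) + 0) - (0 + 1) + -1) = 0 := by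
      injection hj
    have h1 : ((2 * j : ℕ) : ZMod (2 * n)) = 0 := by
      push_cast
      linear_combination -h0 + (j : ZMod (2 * n)) * quaternion_two_n n
    rw [ZMod.natCast_eq_zero_iff] at h1
    exact Nat.dvd_of_mul_dvd_mul_left (by norm_num) h1

end Cfsg.Agent.S3963
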