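import Cfsg.Statements.S3964
import Cfsg.Agent.Helper22.DihedralStem
import Mathlib

set_option autoImplicit false
open Cfsg

namespace Cfsg.Agent.S3964

open Cfsg.Agent.Helper22

/-- For odd `n` the dihedral group of order `2 n` has trivial Schur multiplier. -/
theorem result (n : ℕ) (hn : Odd n) : Cfsg.HasCyclicSchurMultiplier (DihedralGroup n) 1 := by
  have hn0 : n ≠ 0 := by
    rintro rfl
    simp at hn
  have : NeZero n := ⟨hn0⟩
  apply hasCyclicSchurMultiplier_one_of
  intro Γ _ _ σ hσ
  obtain ⟨hs, hc, hd⟩ := hσ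
  obtain ⟨α, ξ, hα, hξ, hgen, hinv⟩ := dihedral_stem_setup σ hs
  apply stem_dihedral_trivial' σ.ker hc hd α ξ hgen hinv n
  · have hk : α ^ n ∈ σ.ker := by
      rw [MonoidHom.mem_ker, map_pow, hα, DihedralGroup.r_one_pow_n]
    exact Subgroup.mem_center_iff.mp (hc hk) ξ
  · intro j hj
    rw [MonoidHom.mem_ker, map_pow, map_mul, map_mul, map_mul, map_inv, map_inv, hα, hξ,
      DihedralGroup.inv_sr, DihedralGroup.inv_r, DihedralGroup.sr_mul_r, DihedralGroup.sr_mul_sr,
      DihedralGroup.r_mul_r, DihedralGroup.r_pow, DihedralGroup.one_def] at hj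
    have h0 : ((0 : ZMod n) - (0 + 1) + -1) * (j : ZMod n) = 0 := by
      injection hj
    have h1 : ((2 * j : ℕ) : ZMod n) = 0 := by
      push_cast
      linear_combination -h0
    rw [ZMod.natCast_eq_zero_iff] at h1
    have hcop : Nat.Coprime n 2 := Nat.coprime_two_right.mpr hn
    exact hcop.dvd_of_dvd_mul_left h1

end Cfsg.Agent.S3964
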