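import Cfsg.Statements.S3966
import Mathlib
-- import your own Cfsg.Agent.* helpers here

set_option autoImplicit false
open Cfsg

namespace Cfsg.Agent.S3966

open scoped commutatorElement

/-- the reduction map `ZMod (2 * n) → ZMod n` -/
def red (n : ℕ) : ZMod (2 * n) →+* ZMod n := ZMod.castHom (Dvd.intro_left 2 rfl) (ZMod n)

theorem red_n (n : ℕ) : red n (n : ZMod (2 * n)) = 0 := by
  rw [map_natCast]; exact ZMod.natCast_self n

/-- the underlying map of the covering `QuaternionGroup n → DihedralGroup n` -/
def covFun (n : ℕ) : QuaternionGroup n → DihedralGroup n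
  | QuaternionGroup.a i => DihedralGroup.r (red n i)
  | QuaternionGroup.xa i => DihedralGroup.sr (red n i)

/-- the covering homomorphism -/
def cov (n : ℕ) : QuaternionGroup n →* DihedralGroup n :=
  MonoidHom.mk' (covFun n) (by
    rintro (i | i) (j | j)
    · simp [covFun]
    · simp [covFun]
    · simp [covFun]
    · simp [covFun, red_n])

theorem cov_a (n : ℕ) (i : ZMod (2 * n)) : cov n (QuaternionGroup.a i) = DihedralGroup.r (red n i) := rfl

theorem cov_xa (n : ℕ) (i : ZMod (2 * n)) : cov n (QuaternionGroup.xa i) = DihedralGroup.sr (red n i) := rfl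

theorem cov_surj (n : ℕ) [NeZero n] : Function.Surjective (cov n) := by
  have hs : Function.Surjective (red n) := ZMod.castHom_surjective _
  rintro (i | i)
  · obtain ⟨k, rfl⟩ := hs i
    exact ⟨QuaternionGroup.a k, rfl⟩
  · obtain ⟨k, rfl⟩ := hs i
    exact ⟨QuaternionGroup.xa k, rfl⟩

theorem mem_ker (n : ℕ) [NeZero n] (x : QuaternionGroup n) (hx : x ∈ (cov n).ker) :
    x = 1 ∨ x = QuaternionGroup.a (n : ZMod (2 * n)) := by
  rw [MonoidHom.mem_ker] at hx
  rcases x with i | i
  · rw [cov_a, DihedralGroup.one_def] at hx
    have h0 : red n i = 0 := by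
      injection hx
    have hi : i = ((i.val : ℕ) : ZMod (2 * n)) := (ZMod.natCast_zmod_val i).symm
    rw [hi, map_natCast, ZMod.natCast_eq_zero_iff] at h0
    have hlt : i.val < 2 * n := ZMod.val_lt i
    obtain ⟨c, hc⟩ := h0
    have hn : 0 < n := Nat.pos_of_ne_zero (NeZero.ne n)
    have hc2 : c < 2 := by
      by_contra hcon
      rw [not_lt] at hcon
      have : 2 * n ≤ n * c := by
        calc 2 * n = n * 2 := by ring
          _ ≤ n * c := Nat.mul_le_mul_left n hcon
      omega
    interval_cases c
    · left
      rw [hi, hc, Nat.mul_zero, Nat.cast_zero, QuaternionGroup.a_zero]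
    · right
      rw [hi, hc, Nat.mul_one]
  · rw [cov_xa, DihedralGroup.one_def] at hx
    cases hx

/-- For even `n ≥ 2` the dicyclic group of order `4 n` is a stem extension of the dihedral group of order `2 n` with kernel of order `2`: there is a surjective homomorphism `QuaternionGroup n →* DihedralGroup n` whose kernel is central, lies in the commutator subgroup and has two elements. Together with the order of the multiplier this exhibits the dicyclic group as a Schur covering group of the dihedral group. -/
theorem result (n : ℕ) [NeZero n] (hn : Even n) : ∃ σ : QuaternionGroup n →* DihedralGroup n, Cfsg.IsStemExtension σ ∧ Nat.card σ.ker = 2 := by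
  refine ⟨cov n, ⟨cov_surj n, ?_, ?_⟩, ?_⟩
  · intro x hx
    rw [Subgroup.mem_center_iff]
    rcases mem_ker n x hx with rfl | rfl
    · intro g; simp
    · rintro (j | j)
      · simp [add_comm]
      · simp only [QuaternionGroup.xa_mul_a, QuaternionGroup.a_mul_xa]
        congr 1
        have h2 : ((n : ZMod (2 * n)) + (n : ZMod (2 * n))) = 0 := by
          rw [← two_mul]
          have := ZMod.natCast_self (2 * n)
          push_cast at this
          exact this
        linear_combination h2
  · intro x hx
    rcases mem_ker n x hx with rfl | rfl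
    · exact Subgroup.one_mem _
    · obtain ⟨m, hm⟩ := hn
      have h1 : (QuaternionGroup.a 2 : QuaternionGroup n) ∈ commutator (QuaternionGroup n) := by
        have hc : ⁅(QuaternionGroup.a 1 : QuaternionGroup n), (QuaternionGroup.xa 0 : QuaternionGroup n)⁆ ∈ commutator (QuaternionGroup n) :=
          Subgroup.commutator_mem_commutator (Subgroup.mem_top _) (Subgroup.mem_top _)
        have he : ⁅(QuaternionGroup.a 1 : QuaternionGroup n), (QuaternionGroup.xa 0 : QuaternionGroup n)⁆ = QuaternionGroup.a 2 := by
          rw [commutatorElement_def]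
          have hinv1 : (QuaternionGroup.a 1 : QuaternionGroup n)⁻¹ = QuaternionGroup.a (-1) := rfl
          have hinv2 : (QuaternionGroup.xa 0 : QuaternionGroup n)⁻¹ = QuaternionGroup.xa (n + 0) := rfl
          rw [hinv1, hinv2]
          simp only [QuaternionGroup.a_mul_xa, QuaternionGroup.xa_mul_a, QuaternionGroup.xa_mul_xa]
          congr 1
          have h2 : ((n : ZMod (2 * n)) + (n : ZMod (2 * n))) = 0 := by
            rw [← two_mul]
            have := ZMod.natCast_self (2 * n)
            push_cast at this
            exact this
          linear_combination h2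
        rw [← he]; exact hc
      have h2 : (QuaternionGroup.a (n : ZMod (2 * n)) : QuaternionGroup n) = (QuaternionGroup.a 2) ^ m := by
        have e2 : (QuaternionGroup.a 2 : QuaternionGroup n) = (QuaternionGroup.a 1) ^ 2 := by
          rw [QuaternionGroup.a_one_pow]; norm_num
        rw [e2, ← pow_mul, QuaternionGroup.a_one_pow]
        congr 2
        omega
      rw [h2]
      exact Subgroup.pow_mem _ h1 m
  · have h1 : Nat.card (QuaternionGroup n) = Nat.card (QuaternionGroup n ⧸ (cov n).ker) * Nat.card (cov n).ker :=
      Subgroup.card_eq_card_quotient_mul_card_subgroup _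
    have h2 : Nat.card (QuaternionGroup n ⧸ (cov n).ker) = Nat.card (DihedralGroup n) :=
      Nat.card_congr (QuotientGroup.quotientKerEquivOfSurjective (cov n) (cov_surj n)).toEquiv
    rw [h2, DihedralGroup.nat_card, Nat.card_eq_fintype_card, QuaternionGroup.card] at h1
    have hn0 : 0 < n := Nat.pos_of_ne_zero (NeZero.ne n)
    have : 2 * n * 2 = 2 * n * Nat.card (cov n).ker := by
      rw [← h1]; ring
    exact (Nat.eq_of_mul_eq_mul_left (by omega) this).symm

end Cfsg.Agent.S3966
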