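import Cfsg.Statements.S3965
import Cfsg.Agent.Helper22.DihedralStem
import Cfsg.Agent.S3966
import Mathlib

set_option autoImplicit false
open Cfsg

namespace Cfsg.Agent.S3965

open Cfsg.Agent.Helper22

/-- For even `n ≥ 2` the dihedral group of order `2 n` has Schur multiplier cyclic of order `2`. -/
theorem result (n : ℕ) [NeZero n] (hn : Even n) : Cfsg.HasCyclicSchurMultiplier (DihedralGroup n) 2 := by
  constructor
  · obtain ⟨σ, hσ, hcard⟩ := Cfsg.Agent.S3966.result n hn
    refine ⟨QuaternionGroup n, inferInstance, inferInstance, σ, hσ, ?_⟩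
    have : Fact (Nat.Prime 2) := ⟨Nat.prime_two⟩
    have hcyc : IsCyclic σ.ker := isCyclic_of_prime_card hcard
    have e := zmodCyclicMulEquiv hcyc
    rw [hcard] at e
    exact ⟨e.symm⟩
  · intro Γ _ _ σ hσ
    obtain ⟨hs, hc, hd⟩ := hσ
    obtain ⟨α, ξ, hα, hξ, hgen, hinv⟩ := dihedral_stem_setup σ hs
    have hcore := stem_dihedral_core σ.ker hc hd α ξ hgen hinv
    have hcard := stem_dihedral_card_le_two σ.ker hc hd α ξ hgen hinv
    by_cases hbot : σ.ker = ⊥
    · apply exists_surj_zmod σ.ker 1 (one_mem _) 2 (one_pow 2)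
      rw [hbot]; exact bot_le
    · obtain ⟨⟨k, hk⟩, hk1⟩ := (Subgroup.ne_bot_iff_exists_ne_one).mp hbot
      have hk1' : k ≠ 1 := fun h => hk1 (Subtype.ext h)
      apply exists_surj_zmod σ.ker k hk 2 (by rw [pow_two]; exact (hcore k hk).2)
      intro x hx
      by_contra hx'
      have hx1 : x ≠ 1 := fun h => hx' (h ▸ one_mem _)
      have hxk : x ≠ k := fun h => hx' (h ▸ Subgroup.mem_zpowers k)
      have h3 : ({1, k, x} : Set Γ).ncard = 3 :=
        Set.ncard_eq_three.mpr ⟨1, k, x, hk1'.symm, hx1.symm, hxk.symm, rfl⟩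
      have hsub : ({1, k, x} : Set Γ) ⊆ (σ.ker : Set Γ) := by
        rintro y (rfl | rfl | rfl)
        · exact one_mem _
        · exact hk
        · exact hx
      have hle := Set.ncard_le_ncard hsub (Set.toFinite _)
      rw [h3] at hle
      have : (σ.ker : Set Γ).ncard = Nat.card σ.ker := (Nat.card_coe_set_eq _).symm
      omega

end Cfsg.Agent.S3965
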