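import Mathlib
import Cfsg.Statements.S3971
import Cfsg.Agent.Helper22.CyclicIdx2
import Cfsg.Agent.Helper22.TI
import Cfsg.Agent.Helper21.Frobenius

set_option autoImplicit false
open Cfsg

namespace Cfsg.Agent.S3971

open Cfsg.Agent.Helper22 in
/-- Let `G` be a finite group of order `2 ^ a * n` with `n` odd and not divisible by `3`, and suppose `G` has an element of order `2 ^ (a - 1)` (so a Sylow `2`-subgroup has a cyclic subgroup of index at most `2`). Then `G` has a normal subgroup of order `n`. -/
theorem result {G : Type*} [Group G] [Finite G] (a n : ℕ) (hG : Nat.card G = 2 ^ a * n) (hn : Odd n) (h3 : ¬ 3 ∣ n) (hx : ∃ x : G, orderOf x = 2 ^ (a - 1)) : ∃ N : Subgroup G, N.Normal ∧ Nat.card N = n := by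
  haveI : Fact (Nat.Prime 2) := ⟨Nat.prime_two⟩
  obtain ⟨x, hx⟩ := hx
  have hn2 : ¬ 2 ∣ n := by
    rcases hn with ⟨k, rfl⟩
    omega
  have hn0 : n ≠ 0 := by
    rintro rfl
    exact hn2 (dvd_zero 2)
  have h3G : ¬ 3 ∣ Nat.card G := by
    rw [hG]
    intro h
    rcases (Nat.Prime.dvd_mul Nat.prime_three).mp h with h | h
    · have := (Nat.prime_dvd_prime_iff_eq Nat.prime_three Nat.prime_two).mp
        (Nat.prime_three.dvd_of_dvd_pow h)
      omega
    · exact h3 h
  have hfac : (2 ^ a * n).factorization 2 = a := by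
    rw [Nat.factorization_mul (pow_ne_zero a two_ne_zero) hn0, Finsupp.add_apply,
      Nat.factorization_pow, Finsupp.smul_apply, Nat.prime_two.factorization_self,
      Nat.factorization_eq_zero_of_not_dvd hn2]
    simp
  have hSylCard : ∀ P : Sylow 2 G, Nat.card P = 2 ^ a := by
    intro P
    rw [P.card_eq_multiplicity, hG, hfac]
  have hfrob : Cfsg.Agent.Helper21.FrobHyp 2 G := by
    intro Q hQ g hg hcop
    rw [Subgroup.mem_centralizer_iff]
    intro h hh
    have hcop6 : (orderOf g).Coprime 6 := by
      have h3' : (orderOf g).Coprime 3 := by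
        rw [Nat.coprime_comm]
        apply (Nat.Prime.coprime_iff_not_dvd Nat.prime_three).mpr
        intro h
        exact h3G (h.trans (orderOf_dvd_natCard g))
      exact Nat.Coprime.mul_right hcop h3'
    have hc : ∃ c ∈ Q, Nat.card Q ≤ 2 * orderOf c := by
      obtain ⟨P, hQP⟩ := hQ.exists_le_sylow
      have hzp : IsPGroup 2 (Subgroup.zpowers x) :=
        IsPGroup.of_card (n := a - 1) (by rw [Nat.card_zpowers, hx])
      obtain ⟨P', hxP'⟩ := hzp.exists_le_sylow
      obtain ⟨k, hk⟩ := MulAction.exists_smul_eq G P' P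
      obtain ⟨x', hx'⟩ : ∃ x', x' = k * x * k⁻¹ := ⟨_, rfl⟩
      have hx'P : x' ∈ (P : Subgroup G) := by
        rw [← hk, sylow_smul_mem_iff, hx']
        have : x ∈ (P' : Subgroup G) := hxP' (Subgroup.mem_zpowers x)
        have e : k⁻¹ * (k * x * k⁻¹) * k = x := by group
        rw [e]; exact this
      have hx'o : orderOf x' = 2 ^ (a - 1) := by
        rw [hx', ← hx]
        exact (MulAut.conj k).orderOf_eq x
      obtain ⟨C, hC⟩ : ∃ C : Subgroup G, C = Subgroup.zpowers x' := ⟨_, rfl⟩
      have hCP : C ≤ P := by rw [hC, Subgroup.zpowers_le]; exact hx'P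
      have hCcard : Nat.card C = 2 ^ (a - 1) := by rw [hC, Nat.card_zpowers, hx'o]
      have hne : C.relIndex P ≠ 0 := by
        have h1 := Subgroup.relIndex_mul_relIndex ⊥ C P bot_le hCP
        rw [Subgroup.relIndex_bot_left, Subgroup.relIndex_bot_left] at h1
        intro h0
        rw [h0, mul_zero] at h1
        have : 0 < Nat.card (P : Subgroup G) := Nat.card_pos
        omega
      have hrel : C.relIndex P ≤ 2 := by
        have h1 := Subgroup.relIndex_mul_relIndex ⊥ C P bot_le hCP
        rw [Subgroup.relIndex_bot_left, Subgroup.relIndex_bot_left, hCcard, hSylCard P] at h1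
        rcases Nat.eq_zero_or_pos a with rfl | ha
        · rw [Nat.zero_sub, pow_zero, one_mul] at h1
          omega
        · have e : 2 ^ a = 2 ^ (a - 1) * 2 := by
            rw [← pow_succ]; congr 1; omega
          rw [e] at h1
          have := Nat.eq_of_mul_eq_mul_left (by positivity) h1
          omega
      have hrelQ : C.relIndex Q ≤ 2 := by
        exact (Subgroup.relIndex_le_of_le_right hQP hne).trans hrel
      haveI : IsCyclic C := by rw [hC]; infer_instance
      haveI : IsCyclic (C ⊓ Q : Subgroup G) := Subgroup.isCyclic_of_le (inf_le_left : C ⊓ Q ≤ C)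
      obtain ⟨c, hcgen⟩ := IsCyclic.exists_generator (α := (C ⊓ Q : Subgroup G))
      have hco : orderOf (c : G) = Nat.card (C ⊓ Q : Subgroup G) := by
        rw [Subgroup.orderOf_coe]
        exact orderOf_eq_card_of_forall_mem_zpowers hcgen
      refine ⟨c, c.2.2, ?_⟩
      have h1 := Subgroup.relIndex_mul_relIndex ⊥ (C ⊓ Q) Q bot_le inf_le_right
      rw [Subgroup.relIndex_bot_left, Subgroup.relIndex_bot_left, Subgroup.inf_relIndex_right]
        at h1
      rw [hco, ← h1]
      have := Nat.mul_le_mul_left (Nat.card (C ⊓ Q : Subgroup G)) hrelQ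
      omega
    have := centralizes_of_cyclic_index_two (Nat.card Q) Q rfl hQ hc g hg hcop6 h hh
    exact this.symm
  obtain ⟨P, N, hN, hNP⟩ := Cfsg.Agent.Helper21.frob_hasNormalPComplement hfrob
  refine ⟨N, hN, ?_⟩
  have h1 := hNP.card_mul_card
  rw [hSylCard P, hG, mul_comm] at h1
  exact Nat.eq_of_mul_eq_mul_left (by positivity) h1

end Cfsg.Agent.S3971
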