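import Cfsg.Statements.S3976
import Cfsg.Agent.Helper22.SubgroupCount
import Mathlib

set_option autoImplicit false
open Cfsg

namespace Cfsg.Agent.S3976

/-- subgroups of a given order, with the conjugation action -/
def SubOrd (G : Type*) [Group G] (k : ℕ) : Type _ := {H : Subgroup G // Nat.card H = k}

instance {G : Type*} [Group G] (k : ℕ) : MulAction G (SubOrd G k) where
  smul g H := ⟨H.1.map (MulAut.conj g).toMonoidHom,
    (Nat.card_congr (H.1.equivMapOfInjective (MulAut.conj g).toMonoidHom
      (MulAut.conj g).injective).toEquiv).symm.trans H.2⟩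
  one_smul H := by
    apply Subtype.ext
    show H.1.map (MulAut.conj (1 : G)).toMonoidHom = H.1
    rw [map_one]
    exact Subgroup.map_id H.1
  mul_smul g h H := by
    apply Subtype.ext
    show H.1.map (MulAut.conj (g * h)).toMonoidHom =
      (H.1.map (MulAut.conj h).toMonoidHom).map (MulAut.conj g).toMonoidHom
    rw [Subgroup.map_map, map_mul]
    rfl

/-- constructor -/
def SubOrd.mk' {G : Type*} [Group G] {k : ℕ} (H : Subgroup G) (h : Nat.card H = k) : SubOrd G k := ⟨H, h⟩

theorem smul_val {G : Type*} [Group G] (k : ℕ) (g : G) (H : SubOrd G k) :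
    (g • H).1 = H.1.map (MulAut.conj g).toMonoidHom := rfl

/-- Let `p` be a prime and `G` a group of order `p ^ m`. For every `s ≤ m` the number of normal subgroups of `G` of order `p ^ s` is congruent to `1` modulo `p`. -/
theorem result {G : Type*} [Group G] [Finite G] (p m s : ℕ) (hp : p.Prime) (hG : Nat.card G = p ^ m) (hs : s ≤ m) : Nat.card {H : Subgroup G // H.Normal ∧ Nat.card H = p ^ s} ≡ 1 [MOD p] := by
  haveI : Fact p.Prime := ⟨hp⟩
  have hPG : IsPGroup p G := IsPGroup.of_card hG
  have hdiv : p ^ s ∣ Nat.card G := by rw [hG]; exact pow_dvd_pow p hs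
  have h1 := Cfsg.Agent.Helper22.card_subgroups_modEq_one p s hp hdiv
  haveI : Finite (SubOrd G (p ^ s)) := by unfold SubOrd; infer_instance
  have h2 := hPG.card_modEq_card_fixedPoints (SubOrd G (p ^ s))
  have e : {H : Subgroup G // H.Normal ∧ Nat.card H = p ^ s} ≃ MulAction.fixedPoints G (SubOrd G (p ^ s)) :=
    { toFun := fun H => ⟨SubOrd.mk' H.1 H.2.2, by
        intro g
        apply Subtype.ext
        show (g • (SubOrd.mk' H.1 H.2.2 : SubOrd G (p ^ s))).1 = H.1
        rw [smul_val]
        haveI := H.2.1
        exact Subgroup.Normal.map_conj_eq H.1 g⟩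
      invFun := fun H => ⟨H.1.1, by
        refine ⟨?_, H.1.2⟩
        rw [Subgroup.normal_iff_map_conj_eq]
        intro g
        have := congrArg Subtype.val (H.2 g)
        rw [smul_val] at this
        exact this⟩
      left_inv := fun H => rfl
      right_inv := fun H => rfl }
  rw [Nat.card_congr e]
  exact h2.symm.trans h1

end Cfsg.Agent.S3976
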