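import Mathlib
import Cfsg.Statements.S3978
import Cfsg.Agent.Helper22.SchurLift

set_option autoImplicit false
open Cfsg

namespace Cfsg.Agent.S3978

open Cfsg.Agent.Helper22 in
/-- A finite group `Q` has trivial Schur multiplier if and only if, for every `n`, every homomorphism from `Q` to the projective general linear group (the quotient of `GL n ℂ` by its centre) lifts to a homomorphism into `GL n ℂ`. -/
theorem result {Q : Type*} [Group Q] [Finite Q] : Cfsg.HasCyclicSchurMultiplier Q 1 ↔ ∀ (n : ℕ) (γ : Q →* (GL (Fin n) ℂ ⧸ Subgroup.center (GL (Fin n) ℂ))), ∃ ρ : Q →* GL (Fin n) ℂ, (QuotientGroup.mk' (Subgroup.center (GL (Fin n) ℂ))).comp ρ = γ := by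
  constructor
  · intro hQ n γ
    have hid : Cfsg.IsStemExtension (MonoidHom.id Q) :=
      ⟨Function.surjective_id, by rw [MonoidHom.ker_id]; exact bot_le,
        by rw [MonoidHom.ker_id]; exact bot_le⟩
    have hcard : Nat.card (Multiplicative (ZMod 1)) ≤ Nat.card (MonoidHom.id Q).ker := by
      have h1 : Nat.card (Multiplicative (ZMod 1)) = 1 := by
        rw [Nat.card_eq_one_iff_unique]
        exact ⟨⟨fun a b => Multiplicative.toAdd.injective (Subsingleton.elim _ _)⟩, ⟨1⟩⟩
      rw [h1]; exact Nat.card_pos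
    obtain ⟨ρ, hρ⟩ := exists_gl_lift_of_cover hQ (MonoidHom.id Q) hid hcard n γ
    exact ⟨ρ, by rw [hρ, MonoidHom.comp_id]⟩
  · intro hlift
    apply hasCyclicSchurMultiplier_one_of
    intro Γ _ _ σ hσ
    have hlift' : ∀ (n : ℕ) (γ : Q →* (GL (Fin n) ℂ ⧸ Subgroup.center (GL (Fin n) ℂ))),
        ∃ ρ : Q →* GL (Fin n) ℂ,
          (QuotientGroup.mk' (Subgroup.center (GL (Fin n) ℂ))).comp ρ =
            γ.comp (MonoidHom.id Q) := by
      intro n γ
      obtain ⟨ρ, hρ⟩ := hlift n γ
      exact ⟨ρ, by rw [hρ, MonoidHom.comp_id]⟩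
    have hbot := ker_inf_commutator_eq_bot_of_lifts (MonoidHom.id Q) Function.surjective_id
      hlift' σ hσ.1 (by
        intro y hy
        apply hσ.2.1
        exact hy)
    rw [← hbot]
    exact (inf_eq_left.mpr hσ.2.2).symm

end Cfsg.Agent.S3978
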