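import Mathlib
import Cfsg.Statements.S3995
import Cfsg.Agent.Helper22.OrdCount

set_option autoImplicit false
open Cfsg

namespace Cfsg.Agent.S3995

open Cfsg.Agent.Helper22

theorem dvd_sub_of_le {p n k r : ℕ} (h1 : p ∣ n + 1) (h2 : p ∣ k * n + r) (hkr : k ≤ r) :
    p ∣ r - k := by
  have h3 : p ∣ k * (n + 1) := Dvd.dvd.mul_left h1 k
  have h4 : k * n + r = k * (n + 1) + (r - k) := by
    rw [mul_add, mul_one, add_assoc, Nat.add_sub_cancel' hkr]
  rw [h4] at h2
  exact (Nat.dvd_add_right h3).mp h2

theorem dvd_sub_of_ge {p n k r : ℕ} (h1 : p ∣ n + 1) (h2 : p ∣ k * n + r) (hrk : r ≤ k) :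
    p ∣ k - r := by
  have h3 : p ∣ k * (n + 1) := Dvd.dvd.mul_left h1 k
  have h4 : k * (n + 1) = (k * n + r) + (k - r) := by
    rw [mul_add, mul_one, add_assoc, Nat.add_sub_cancel' hrk]
  rw [h4] at h3
  exact (Nat.dvd_add_right h2).mp h3

/-- Let G be a finite group such that the numbers of elements of each order that occurs in G (the numbers #{g : o(g) = m}, m ranging over the element orders of G) take exactly two values, 1 and some n ≠ 1. Then either G is a p-group of exponent p and order at least 3 for some prime p, or G is the quaternion group of order 8, or G is cyclic of order 4, or G ≅ Z₂ × P for a p-group P of exponent p with p an odd prime. -/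
theorem result {G : Type*} [Group G] [Finite G] (n : ℕ) (hn : n ≠ 1) (h : ((fun m : ℕ => Nat.card {g : G // orderOf g = m}) '' Set.range (orderOf : G → ℕ)) = {1, n}) :
    (∃ p : ℕ, p.Prime ∧ IsPGroup p G ∧ 3 ≤ Nat.card G ∧ Monoid.exponent G = p) ∨
      Nonempty (G ≃* QuaternionGroup 2) ∨ (IsCyclic G ∧ Nat.card G = 4) ∨
      (∃ (p : ℕ) (P : Type) (_ : Group P) (_ : Finite P), p.Prime ∧ p ≠ 2 ∧ IsPGroup p P ∧ Monoid.exponent P = p ∧
        Nonempty (G ≃* Multiplicative (ZMod 2) × P)) := by
  classical
  set F : ℕ → ℕ := fun m => Nat.card {g : G // orderOf g = m} with hF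
  have hF1 : F 1 = 1 := card_orderOf_eq_one
  have hFne : ∀ d, F d ≠ 0 ↔ ∃ g : G, orderOf g = d := fun d => card_orderOf_ne_zero_iff d
  have hval : ∀ d, F d = 0 ∨ F d = 1 ∨ F d = n := by
    intro d
    by_cases hd : ∃ g : G, orderOf g = d
    · right
      have : F d ∈ ({1, n} : Set ℕ) := by
        rw [← h]; obtain ⟨g, hg⟩ := hd; exact ⟨d, ⟨g, hg⟩, rfl⟩
      simpa using this
    · left; by_contra h0; exact hd ((hFne d).mp h0)
  obtain ⟨d₀, ⟨g₀, hg₀⟩, hd₀⟩ : ∃ d₀, d₀ ∈ Set.range (orderOf : G → ℕ) ∧ F d₀ = n := by
    have : n ∈ ({1, n} : Set ℕ) := by simp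
    rw [← h] at this
    obtain ⟨d, hd, hd'⟩ := this
    exact ⟨d, hd, hd'⟩
  have hn0 : n ≠ 0 := by
    rw [← hd₀]; exact (hFne d₀).mpr ⟨g₀, hg₀⟩
  have h3 : ∀ d, 3 ≤ d → F d = 0 ∨ F d = n := by
    intro d hd
    rcases hval d with h | h | h
    · left; exact h
    · exfalso; rcases le_two_of_card_orderOf_eq_one d h with h | h <;> omega
    · right; exact h
  have he : ∀ d, 3 ≤ d → Even (F d) := fun d hd => card_orderOf_even d hd
  have hfrob : ∀ k, k ∣ Nat.card G → k ∣ ∑ d ∈ k.divisors, F d :=
    fun k hk => dvd_sum_card_orderOf k hk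
  have hNpos : 0 < Nat.card G := Nat.card_pos
  have hodd : ∀ p : ℕ, p.Prime → p ≠ 2 → p ∣ Nat.card G → F p = n ∧ p ∣ n + 1 ∧ Even n := by
    intro p hp hp2 hpN
    haveI : Fact p.Prime := ⟨hp⟩
    have hp3 : 3 ≤ p := by have := hp.two_le; omega
    have h1 : F p ≠ 0 := (hFne p).mpr (exists_prime_orderOf_dvd_card' p hpN)
    have h2 : F p = n := by
      rcases h3 p hp3 with h | h
      · exact absurd h h1
      · exact h
    have h4 := hfrob p hpN
    rw [Nat.Prime.sum_divisors hp, hF1, h2] at h4
    refine ⟨h2, h4, ?_⟩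
    rw [← h2]; exact he p hp3
  have hsq0 : ∀ p : ℕ, p.Prime → p ≠ 2 → p ∣ Nat.card G → F (p ^ 2) = 0 := by
    intro p hp hp2 hpN
    obtain ⟨hFp, hpn, -⟩ := hodd p hp hp2 hpN
    by_contra h0
    have hp3 : 3 ≤ p := by have := hp.two_le; omega
    have h9 : 3 ≤ p ^ 2 := by nlinarith
    have h1 : F (p ^ 2) = n := by
      rcases h3 _ h9 with h | h
      · exact absurd h h0
      · exact h
    obtain ⟨g, hg⟩ := (hFne _).mp h0
    have h2 : p ^ 2 ∣ Nat.card G := hg ▸ orderOf_dvd_natCard g
    have h4 := hfrob _ h2
    rw [Nat.sum_divisors_prime_pow hp, Finset.sum_range_succ, Finset.sum_range_succ,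
      Finset.sum_range_one, pow_zero, pow_one, hF1, hFp, h1] at h4
    have h5 : p ∣ 2 * n + 1 := by
      have : 2 * n + 1 = 1 + n + n := by ring
      rw [this]; exact Dvd.dvd.trans (dvd_pow_self p (by norm_num)) h4
    have h6 := dvd_sub_of_ge hpn h5 (by norm_num)
    exact hp.one_lt.ne' (Nat.dvd_one.mp h6)
  have hB : ∀ p q : ℕ, p.Prime → q.Prime → p ≠ 2 → q ≠ 2 → p ≠ q → p ∣ Nat.card G →
      q ∣ Nat.card G → False := by
    intro p q hp hq hp2 hq2 hpq hpN hqN
    obtain ⟨hFp, hpn, -⟩ := hodd p hp hp2 hpN
    obtain ⟨hFq, hqn, -⟩ := hodd q hq hq2 hqN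
    have hcop : Nat.Coprime p q := (Nat.coprime_primes hp hq).mpr hpq
    have h1 := hfrob (p * q) (hcop.mul_dvd_of_dvd_of_dvd hpN hqN)
    have hs : ∑ d ∈ (p * q).divisors, F d = F (p * q) + F p + F q + F 1 := by
      rw [sum_divisors_coprime_mul hcop, Nat.Prime.sum_divisors hp, Nat.Prime.sum_divisors hq,
        Nat.Prime.sum_divisors hq]
      simp only [mul_one, one_mul]; ring
    rw [hs, hFp, hFq, hF1] at h1
    have h2 : p ∣ F (p * q) + n + n + 1 := Dvd.dvd.trans (Dvd.intro _ rfl) h1
    have h9 : 3 ≤ p * q := by have := hp.two_le; have := hq.two_le; nlinarith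
    rcases h3 _ h9 with h | h
    · rw [h] at h2
      have h5 : p ∣ 2 * n + 1 := by
        have : 2 * n + 1 = 0 + n + n + 1 := by ring
        rw [this]; exact h2
      have h6 := dvd_sub_of_ge hpn h5 (by norm_num)
      exact hp.one_lt.ne' (Nat.dvd_one.mp h6)
    · rw [h] at h2
      have h5 : p ∣ 3 * n + 1 := by
        have : 3 * n + 1 = n + n + n + 1 := by ring
        rw [this]; exact h2
      have h6 := dvd_sub_of_ge hpn h5 (by norm_num)
      exact hp2 ((Nat.prime_dvd_prime_iff_eq hp Nat.prime_two).mp h6)
  by_cases hex : ∃ p : ℕ, p.Prime ∧ p ≠ 2 ∧ p ∣ Nat.card G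
  · obtain ⟨p, hp, hp2, hpN⟩ := hex
    haveI : Fact p.Prime := ⟨hp⟩
    obtain ⟨hFp, hpn, hneven⟩ := hodd p hp hp2 hpN
    have hFp2 := hsq0 p hp hp2 hpN
    have hp3 : 3 ≤ p := by have := hp.two_le; omega
    have hprimes : ∀ q : ℕ, q.Prime → q ∣ Nat.card G → q = 2 ∨ q = p := by
      intro q hq hqN
      by_cases hq2 : q = 2
      · left; exact hq2
      · right; by_contra hqp; exact hB p q hp hq hp2 hq2 (Ne.symm hqp) hpN hqN
    by_cases h2N : 2 ∣ Nat.card G
    · right; right; right
      have hF2 : F 2 = 1 := by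
        have h1 := hfrob 2 h2N
        rw [Nat.Prime.sum_divisors Nat.prime_two, hF1] at h1
        rcases hval 2 with h | h | h
        · rw [h] at h1; omega
        · exact h
        · exfalso; rw [h] at h1
          obtain ⟨c, hc⟩ := hneven
          omega
      have hcop2 : Nat.Coprime 2 p := (Nat.coprime_primes Nat.prime_two hp).mpr (Ne.symm hp2)
      have h4N : ¬ 4 ∣ Nat.card G := by
        intro h4
        have hd4 : (4 : ℕ).divisors = {1, 2, 4} := by decide
        have h1 := hfrob 4 h4
        rw [hd4, Finset.sum_insert (by decide), Finset.sum_insert (by decide),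
          Finset.sum_singleton, hF1, hF2] at h1
        have hF4 : F 4 = n := by
          rcases h3 4 (by norm_num) with h | h
          · rw [h] at h1; omega
          · exact h
        have h2p := hfrob (2 * p) (hcop2.mul_dvd_of_dvd_of_dvd h2N hpN)
        have hs2 : ∑ d ∈ (2 * p).divisors, F d = F (2 * p) + F 2 + F p + F 1 := by
          rw [sum_divisors_coprime_mul hcop2, Nat.Prime.sum_divisors Nat.prime_two,
            Nat.Prime.sum_divisors hp, Nat.Prime.sum_divisors hp]
          simp only [mul_one, one_mul]; ring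
        rw [hs2, hF2, hFp, hF1] at h2p
        have hF2p : F (2 * p) = n := by
          rcases h3 (2 * p) (by omega) with h | h
          · exfalso
            rw [h] at h2p
            have h5 : p ∣ 1 * n + 2 := by
              have : 1 * n + 2 = 0 + 1 + n + 1 := by ring
              rw [this]; exact Dvd.dvd.trans (Dvd.intro_left _ rfl) h2p
            have h6 := dvd_sub_of_le hpn h5 (by norm_num)
            exact hp.one_lt.ne' (Nat.dvd_one.mp h6)
          · exact h
        have hcop4 : Nat.Coprime 4 p := by
          have : (4 : ℕ) = 2 ^ 2 := by norm_num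
          rw [this]; exact Nat.Coprime.pow_left 2 hcop2
        have h4p := hfrob (4 * p) (hcop4.mul_dvd_of_dvd_of_dvd h4 hpN)
        have hs4 : ∑ d ∈ (4 * p).divisors, F d =
            F (4 * p) + F 4 + F (2 * p) + F 2 + F p + F 1 := by
          rw [sum_divisors_coprime_mul hcop4, hd4, Finset.sum_insert (by decide),
            Finset.sum_insert (by decide), Finset.sum_singleton, Nat.Prime.sum_divisors hp,
            Nat.Prime.sum_divisors hp, Nat.Prime.sum_divisors hp]
          simp only [mul_one, one_mul]; ring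
        rw [hs4, hF4, hF2p, hF2, hFp, hF1] at h4p
        have h5 : p ∣ F (4 * p) + n + n + 1 + n + 1 := Dvd.dvd.trans (Dvd.intro_left _ rfl) h4p
        rcases h3 (4 * p) (by omega) with h | h
        · rw [h] at h5
          have h6 : p ∣ 3 * n + 2 := by
            have : 3 * n + 2 = 0 + n + n + 1 + n + 1 := by ring
            rw [this]; exact h5
          have h7 := dvd_sub_of_ge hpn h6 (by norm_num)
          exact hp.one_lt.ne' (Nat.dvd_one.mp h7)
        · rw [h] at h5
          have h6 : p ∣ 4 * n + 2 := by
            have : 4 * n + 2 = n + n + n + 1 + n + 1 := by ring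
            rw [this]; exact h5
          have h7 := dvd_sub_of_ge hpn h6 (by norm_num)
          exact hp2 ((Nat.prime_dvd_prime_iff_eq hp Nat.prime_two).mp h7)
      obtain P : Sylow p G := default
      have hPcard : ∃ k : ℕ, Nat.card (P : Subgroup G) = p ^ k := IsPGroup.iff_card.mp P.2
      have hidx : (P : Subgroup G).index = 2 := by
        have hnd : ¬ p ∣ (P : Subgroup G).index := P.not_dvd_index
        have hdvd : (P : Subgroup G).index ∣ Nat.card G := Subgroup.index_dvd_card _
        have hpow : (P : Subgroup G).index =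
            2 ^ ((P : Subgroup G).index.primeFactorsList.length) := by
          apply Nat.eq_prime_pow_of_unique_prime_dvd (Subgroup.index_ne_zero_of_finite)
          intro d hd hdi
          rcases hprimes d hd (Dvd.dvd.trans hdi hdvd) with h | h
          · exact h
          · exact absurd (h ▸ hdi) hnd
        generalize (P : Subgroup G).index.primeFactorsList.length = j at hpow
        match j, hpow with
        | 0, hpow =>
          exfalso
          obtain ⟨k, hk⟩ := hPcard
          have h1 : Nat.card G = p ^ k := by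
            rw [← Subgroup.card_mul_index (P : Subgroup G), hpow, hk, pow_zero, mul_one]
          rw [h1] at h2N
          exact hp2 ((Nat.prime_dvd_prime_iff_eq Nat.prime_two hp).mp
            (Nat.Prime.dvd_of_dvd_pow Nat.prime_two h2N)).symm
        | 1, hpow => rw [hpow, pow_one]
        | j + 2, hpow =>
          exfalso; apply h4N
          refine Dvd.dvd.trans ?_ hdvd
          rw [hpow, pow_add]
          exact Dvd.intro_left _ rfl
      haveI hPn : (P : Subgroup G).Normal := Subgroup.normal_of_index_eq_two hidx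
      obtain ⟨z, hz⟩ := (hFne 2).mp (by rw [hF2]; norm_num)
      have hzu : ∀ g : G, orderOf g = 2 → g = z := by
        intro g hg
        have hsub : Subsingleton {g : G // orderOf g = 2} :=
          (Nat.card_eq_one_iff_unique.mp hF2).1
        exact congrArg Subtype.val
          (Subsingleton.elim (⟨g, hg⟩ : {g : G // orderOf g = 2}) ⟨z, hz⟩)
      have hzc : ∀ g : G, g * z = z * g := by
        intro g
        have h1 : g * z * g⁻¹ = z := by
          apply hzu
          exact (orderOf_injective (MulAut.conj g).toMonoidHom (MulEquiv.injective _) z).trans hz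
        calc g * z = g * z * g⁻¹ * g := by group
          _ = z * g := by rw [h1]
      have hzP : z ∉ (P : Subgroup G) := by
        intro hzP
        obtain ⟨k, hk⟩ := hPcard
        have h1 : orderOf z ∣ Nat.card (P : Subgroup G) := Subgroup.orderOf_dvd_natCard _ hzP
        rw [hz, hk] at h1
        exact hp2 ((Nat.prime_dvd_prime_iff_eq Nat.prime_two hp).mp
          (Nat.Prime.dvd_of_dvd_pow Nat.prime_two h1)).symm
      obtain ⟨P₀, iG, iF, ⟨eM⟩⟩ := exists_type0_copy ↥(P : Subgroup G)
      have hPp : IsPGroup p P₀ := P.2.of_equiv eM.symm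
      have hexpP : Monoid.exponent ↥(P : Subgroup G) = p := by
        have h1 : Monoid.exponent ↥(P : Subgroup G) ∣ p := by
          apply Monoid.exponent_dvd_of_forall_pow_eq_one
          intro x
          have hx : ∃ k : ℕ, orderOf (x : G) = p ^ k := by
            obtain ⟨k, hk⟩ := (IsPGroup.iff_orderOf.mp P.2) x
            exact ⟨k, by rw [← hk, Subgroup.orderOf_coe]⟩
          have := pow_prime_eq_one_of_no_sq p hFp2 (x : G) hx
          exact Subtype.ext (by simpa using this)
        rcases (Nat.dvd_prime hp).mp h1 with h | h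
        · exfalso
          rw [Monoid.exp_eq_one_iff] at h
          have h5 : Nat.card (P : Subgroup G) ≤ 1 := Finite.card_le_one_iff_subsingleton.mpr h
          have h6 : Nat.card (P : Subgroup G) = 1 := by
            have : 0 < Nat.card (P : Subgroup G) := Nat.card_pos
            omega
          have h7 : Nat.card G = 2 := by
            rw [← Subgroup.card_mul_index (P : Subgroup G), h6, hidx]
          rw [h7] at hpN
          exact hp2 ((Nat.prime_dvd_prime_iff_eq hp Nat.prime_two).mp hpN)
        · exact h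
      refine ⟨p, P₀, iG, iF, hp, hp2, hPp, ?_,
        equiv_zmod2_prod z hz hzc (P : Subgroup G) hidx hzP eM⟩
      rw [Monoid.exponent_eq_of_mulEquiv eM]; exact hexpP
    · left
      have hpow : Nat.card G = p ^ (Nat.card G).primeFactorsList.length := by
        apply Nat.eq_prime_pow_of_unique_prime_dvd hNpos.ne'
        intro d hd hdN
        rcases hprimes d hd hdN with h | h
        · exact absurd (h ▸ hdN) h2N
        · exact h
      have hPG : IsPGroup p G := IsPGroup.of_card hpow
      refine ⟨p, hp, hPG, ?_, ?_⟩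
      · have := Nat.le_of_dvd hNpos hpN; omega
      · have h1 : Monoid.exponent G ∣ p := by
          apply Monoid.exponent_dvd_of_forall_pow_eq_one
          intro g
          exact pow_prime_eq_one_of_no_sq p hFp2 g ((IsPGroup.iff_orderOf.mp hPG) g)
        rcases (Nat.dvd_prime hp).mp h1 with h | h
        · exfalso
          rw [Monoid.exp_eq_one_iff] at h
          have : Nat.card G ≤ 1 := Finite.card_le_one_iff_subsingleton.mpr h
          have := Nat.le_of_dvd hNpos hpN; omega
        · exact h
  · push_neg at hex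
    have hpow : Nat.card G = 2 ^ (Nat.card G).primeFactorsList.length := by
      apply Nat.eq_prime_pow_of_unique_prime_dvd hNpos.ne'
      intro d hd hdN
      by_contra h2; exact hex d hd h2 hdN
    haveI : Fact (Nat.Prime 2) := ⟨Nat.prime_two⟩
    have hPG : IsPGroup 2 G := IsPGroup.of_card hpow
    have hd₀1 : d₀ ≠ 1 := by rintro rfl; rw [hF1] at hd₀; exact hn hd₀.symm
    have h2N : 2 ∣ Nat.card G := by
      obtain ⟨k, hk⟩ := (IsPGroup.iff_orderOf.mp hPG) g₀
      have hk0 : k ≠ 0 := by rintro rfl; rw [pow_zero, hg₀] at hk; exact hd₀1 hk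
      have : 2 ∣ orderOf g₀ := by rw [hk]; exact dvd_pow_self 2 hk0
      exact Dvd.dvd.trans this (orderOf_dvd_natCard g₀)
    have hF2odd : 2 ∣ F 2 + 1 := by
      have h1 := hfrob 2 h2N
      rwa [Nat.Prime.sum_divisors Nat.prime_two, hF1] at h1
    by_cases hF2 : F 2 = 1
    · right
      have hd₀2 : d₀ ≠ 2 := by rintro rfl; rw [hF2] at hd₀; exact hn hd₀.symm
      have h4N : 4 ∣ Nat.card G := by
        obtain ⟨k, hk⟩ := (IsPGroup.iff_orderOf.mp hPG) g₀
        have hk2 : 2 ≤ k := by
          by_contra hlt
          have : k = 0 ∨ k = 1 := by omega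
          rcases this with rfl | rfl
          · rw [pow_zero, hg₀] at hk; exact hd₀1 hk
          · rw [pow_one, hg₀] at hk; exact hd₀2 hk
        have : 4 ∣ orderOf g₀ := by
          rw [hk]; exact (show (4 : ℕ) = 2 ^ 2 by norm_num) ▸ pow_dvd_pow 2 hk2
        exact Dvd.dvd.trans this (orderOf_dvd_natCard g₀)
      have hd4 : (4 : ℕ).divisors = {1, 2, 4} := by decide
      have h1 := hfrob 4 h4N
      rw [hd4, Finset.sum_insert (by decide), Finset.sum_insert (by decide),
        Finset.sum_singleton, hF1, hF2] at h1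
      have hF4 : F 4 = n := by
        rcases h3 4 (by norm_num) with h | h
        · rw [h] at h1; omega
        · exact h
      rw [hF4] at h1
      have hF8 : F 8 = 0 := by
        by_contra h0
        have h8 : F 8 = n := by
          rcases h3 8 (by norm_num) with h | h
          · exact absurd h h0
          · exact h
        obtain ⟨g, hg⟩ := (hFne 8).mp h0
        have h8N : 8 ∣ Nat.card G := hg ▸ orderOf_dvd_natCard g
        have hd8 : (8 : ℕ).divisors = {1, 2, 4, 8} := by decide
        have h2 := hfrob 8 h8N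
        rw [hd8, Finset.sum_insert (by decide), Finset.sum_insert (by decide),
          Finset.sum_insert (by decide), Finset.sum_singleton, hF1, hF2, hF4, h8] at h2
        omega
      have hall4 : ∀ g : G, g ^ 4 = 1 := by
        intro g
        obtain ⟨k, hk⟩ := (IsPGroup.iff_orderOf.mp hPG) g
        by_cases hk2 : k ≤ 2
        · apply orderOf_dvd_iff_pow_eq_one.mp
          rw [hk]; exact (show (4 : ℕ) = 2 ^ 2 by norm_num) ▸ pow_dvd_pow 2 hk2
        · exfalso
          have : 8 ∣ orderOf g := by
            rw [hk]; exact (show (8 : ℕ) = 2 ^ 3 by norm_num) ▸ pow_dvd_pow 2 (by omega)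
          exact (hFne 8).mpr (exists_orderOf_eq_of_dvd g 8 this) hF8
      obtain ⟨a, ha⟩ := (hFne 4).mp (by rw [hF4]; exact hn0)
      have hinv : ∀ g h : G, orderOf g = 2 → orderOf h = 2 → g = h := by
        intro g h hg hh
        have hsub : Subsingleton {g : G // orderOf g = 2} :=
          (Nat.card_eq_one_iff_unique.mp hF2).1
        exact congrArg Subtype.val
          (Subsingleton.elim (⟨g, hg⟩ : {g : G // orderOf g = 2}) ⟨h, hh⟩)
      rcases c4_or_q8 hinv hall4 a ha with h | h
      · right; left; exact h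
      · left; exact h
    · left
      have hF2n : F 2 = n := by
        rcases hval 2 with h | h | h
        · rw [h] at hF2odd; omega
        · exact absurd h hF2
        · exact h
      have hF4 : F (2 ^ 2) = 0 := by
        rcases h3 (2 ^ 2) (by norm_num) with h | h
        · exact h
        · exfalso
          have h1 := he (2 ^ 2) (by norm_num)
          rw [h, ← hF2n] at h1
          obtain ⟨c, hc⟩ := h1
          rw [hc] at hF2odd; omega
      have hall2 : ∀ g : G, g ^ 2 = 1 :=
        fun g => pow_prime_eq_one_of_no_sq 2 hF4 g ((IsPGroup.iff_orderOf.mp hPG) g)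
      refine ⟨2, Nat.prime_two, hPG, ?_, ?_⟩
      · have h1 : Nat.card {g : G // g ^ 2 = 1} ≤ Nat.card G := Finite.card_subtype_le _
        rw [card_pow_eq_one_eq_sum 2 (by norm_num), Nat.Prime.sum_divisors Nat.prime_two] at h1
        have h2 : F 2 + F 1 ≤ Nat.card G := h1
        rw [hF2n, hF1] at h2
        omega
      · have h1 : Monoid.exponent G ∣ 2 := Monoid.exponent_dvd_of_forall_pow_eq_one hall2
        rcases (Nat.dvd_prime Nat.prime_two).mp h1 with h | h
        · exfalso
          rw [Monoid.exp_eq_one_iff] at h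
          have : Nat.card G ≤ 1 := Finite.card_le_one_iff_subsingleton.mpr h
          have := Nat.le_of_dvd hNpos h2N; omega
        · exact h

end Cfsg.Agent.S3995
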