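import Mathlib
import Cfsg.Statements.S3997

set_option autoImplicit false
open Cfsg

namespace Cfsg.Agent.S3997

/-- an order-preserving bijection from equal order types -/
theorem exists_equiv {G H : Type*} [Group G] [Finite G] [Group H] [Finite H]
    (hT : (∀ m : ℕ, Nat.card {g : G // orderOf g = m} = Nat.card {h : H // orderOf h = m})) :
    ∃ φ : G ≃ H, ∀ g, orderOf (φ g) = orderOf g := by
  have h1 : ∀ m : ℕ, Nonempty ({g : G // orderOf g = m} ≃ {h : H // orderOf h = m}) :=
    fun m => Finite.card_eq.mp (hT m)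
  choose e _ using fun m => (⟨(h1 m).some, trivial⟩ : ∃ _ : ({g : G // orderOf g = m} ≃ {h : H // orderOf h = m}), True)
  refine ⟨(Equiv.sigmaFiberEquiv (orderOf : G → ℕ)).symm.trans
    ((Equiv.sigmaCongrRight e).trans (Equiv.sigmaFiberEquiv (orderOf : H → ℕ))), ?_⟩
  intro g
  simp only [Equiv.trans_apply, Equiv.sigmaFiberEquiv, Equiv.coe_fn_symm_mk, Equiv.sigmaCongrRight_apply, Equiv.coe_fn_mk]
  exact (e (orderOf g) ⟨g, rfl⟩).2

/-- Let G and H be finite groups with the same order type: for every m they have the same number of elements of order m. If G is nilpotent then so is H. -/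
theorem result {G H : Type*} [Group G] [Finite G] [Group H] [Finite H] (hT : (∀ m : ℕ, Nat.card {g : G // orderOf g = m} = Nat.card {h : H // orderOf h = m})) (hG : Group.IsNilpotent G) :
    Group.IsNilpotent H := by
  classical
  obtain ⟨φ, hφ⟩ := exists_equiv hT
  have hcard : Nat.card G = Nat.card H := Nat.card_congr φ
  have hGn := (Group.isNilpotent_of_finite_tfae (G := G)).out 0 3 rfl rfl |>.mp hG
  refine (Group.isNilpotent_of_finite_tfae (G := H)).out 0 3 rfl rfl |>.mpr ?_
  intro p hp Q
  -- the set of p-elements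
  let P : Sylow p G := default
  have hPn : (P : Subgroup G).Normal := hGn p hp P
  haveI : Unique (Sylow p G) := Sylow.unique_of_normal P hPn
  have hSG : ∀ g : G, (∃ k, orderOf g = p ^ k) → g ∈ (P : Subgroup G) := by
    intro g ⟨k, hk⟩
    have hpg : IsPGroup p (Subgroup.zpowers g) := by
      apply IsPGroup.of_card (n := k)
      rw [Nat.card_zpowers, hk]
    obtain ⟨Q', hQ'⟩ := hpg.exists_le_sylow
    have : Q' = P := Subsingleton.elim _ _
    rw [this] at hQ'
    exact hQ' (Subgroup.mem_zpowers g)
  have hcardP : Nat.card (P : Subgroup G) = p ^ (Nat.card G).factorization p := P.card_eq_multiplicity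
  have hSH : ∀ Q' : Sylow p H, ((Q' : Subgroup H) : Set H) = φ '' ((P : Subgroup G) : Set G) := by
    intro Q'
    have hsub : ((Q' : Subgroup H) : Set H) ⊆ φ '' ((P : Subgroup G) : Set G) := by
      intro h hh
      refine ⟨φ.symm h, ?_, by simp⟩
      apply hSG
      have : orderOf (φ.symm h) = orderOf h := by
        rw [← hφ (φ.symm h)]; simp
      rw [this]
      obtain ⟨k, hk⟩ := (IsPGroup.iff_orderOf.mp Q'.isPGroup') ⟨h, hh⟩
      exact ⟨k, by rw [← hk]; simp⟩
    apply Set.eq_of_subset_of_ncard_le hsub _ (Set.toFinite _)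
    rw [Set.ncard_image_of_injective _ φ.injective]
    have h1 : ((Q' : Subgroup H) : Set H).ncard = Nat.card (Q' : Subgroup H) := by
      rw [← Nat.card_coe_set_eq]; rfl
    have h2 : ((P : Subgroup G) : Set G).ncard = Nat.card (P : Subgroup G) := by
      rw [← Nat.card_coe_set_eq]; rfl
    rw [h1, h2, hcardP, Q'.card_eq_multiplicity, hcard]
  haveI : Subsingleton (Sylow p H) := by
    constructor
    intro Q1 Q2
    apply Sylow.ext
    apply SetLike.coe_injective
    rw [hSH Q1, hSH Q2]
  exact Sylow.normal_of_subsingleton Q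

end Cfsg.Agent.S3997
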