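import Mathlib
import Cfsg.Statements.S4002
import Cfsg.Agent.Helper22.ThreePrimes

set_option autoImplicit false
open Cfsg

namespace Cfsg.Agent.S4002

/-- If the set of element orders of a finite group G is {1, 2, …, n} with n ≥ 7, then G is not solvable. -/
theorem result {G : Type*} [Group G] [Finite G] (n : ℕ) (hn : 7 ≤ n) (h : Set.range (orderOf : G → ℕ) = {k : ℕ | 1 ≤ k ∧ k ≤ n}) : ¬ Group.IsSolvable G := by
  intro hsolv
  obtain ⟨S, hS, hcard, hle, hprod⟩ := Cfsg.Agent.Helper22.exists_three_primes n hn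
  have hdvd : ∀ a ∈ S, a ∣ Nat.card G := by
    intro a ha
    have h1 : a ∈ Set.range (orderOf : G → ℕ) := by
      rw [h]
      exact ⟨(hS a ha).one_lt.le, hle a ha⟩
    obtain ⟨g, rfl⟩ := h1
    exact orderOf_dvd_natCard g
  obtain ⟨a, ha, b, hb, hab, g, hg⟩ := Cfsg.Agent.Helper22.three_primes hsolv S hS hcard hdvd
  have h1 : orderOf g ∈ {k : ℕ | 1 ≤ k ∧ k ≤ n} := by
    rw [← h]
    exact ⟨g, rfl⟩
  have h2 := hprod a ha b hb hab
  rw [hg] at h1
  exact absurd h1.2 (by omega)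

end Cfsg.Agent.S4002
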