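import Mathlib
import Cfsg.Statements.S4005
import Cfsg.Agent.Helper22.Orders123

set_option autoImplicit false
open Cfsg

namespace Cfsg.Agent.S4005

open Cfsg.Agent.Helper22 in
/-- A finite group whose set of element orders is exactly {1, 2, 3} has either a normal elementary abelian 3-subgroup of index 2 or a normal elementary abelian 2-subgroup of index 3. -/
theorem result {G : Type*} [Group G] [Finite G] (h : Set.range (orderOf : G → ℕ) = {k : ℕ | 1 ≤ k ∧ k ≤ 3}) :
    (∃ N : Subgroup G, N.Normal ∧ Cfsg.IsElementaryAbelian 3 N ∧ N.index = 2) ∨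
      (∃ N : Subgroup G, N.Normal ∧ Cfsg.IsElementaryAbelian 2 N ∧ N.index = 3) := by
  haveI : Fact (Nat.Prime 2) := ⟨Nat.prime_two⟩
  haveI : Fact (Nat.Prime 3) := ⟨Nat.prime_three⟩
  have hΦ : ∀ g : G, orderOf g = 1 ∨ orderOf g = 2 ∨ orderOf g = 3 := by
    intro g
    have hg : orderOf g ∈ Set.range (orderOf : G → ℕ) := ⟨g, rfl⟩
    rw [h] at hg
    obtain ⟨h1, h2⟩ := hg
    omega
  obtain ⟨g₂, hg₂⟩ : ∃ g : G, orderOf g = 2 := by
    have : (2 : ℕ) ∈ Set.range (orderOf : G → ℕ) := by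
      rw [h]; exact ⟨by norm_num, by norm_num⟩
    exact this
  obtain ⟨g₃, hg₃⟩ : ∃ g : G, orderOf g = 3 := by
    have : (3 : ℕ) ∈ Set.range (orderOf : G → ℕ) := by
      rw [h]; exact ⟨by norm_num, by norm_num⟩
    exact this
  have h2G : 2 ∣ Nat.card G := hg₂ ▸ orderOf_dvd_natCard g₂
  have h3G : 3 ∣ Nat.card G := hg₃ ▸ orderOf_dvd_natCard g₃
  rcases orders_123_structure (Nat.card G) G rfl hΦ with ⟨a, ha⟩ | ⟨b, hb⟩ | ⟨b, hb1, hb⟩ |
    ⟨a, ha1, ha, P, hP, hPcard⟩
  · exfalso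
    rw [ha] at h3G
    have := (Nat.prime_dvd_prime_iff_eq Nat.prime_three Nat.prime_two).mp
      (Nat.prime_three.dvd_of_dvd_pow h3G)
    omega
  · exfalso
    rw [hb] at h2G
    have := (Nat.prime_dvd_prime_iff_eq Nat.prime_two Nat.prime_three).mp
      (Nat.prime_two.dvd_of_dvd_pow h2G)
    omega
  · left
    obtain ⟨K, hK⟩ := Sylow.exists_subgroup_card_pow_prime (G := G) 3
      (show 3 ^ b ∣ Nat.card G from hb ▸ Dvd.intro_left _ rfl)
    have hidx : K.index = 2 := by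
      have h1 := Subgroup.card_mul_index K
      rw [hK, hb] at h1
      have h3pos : 0 < 3 ^ b := by positivity
      have : 3 ^ b * K.index = 3 ^ b * 2 := by rw [h1, mul_comm]
      exact Nat.eq_of_mul_eq_mul_left h3pos this
    haveI hKn : K.Normal := Subgroup.normal_of_index_eq_two hidx
    refine ⟨K, hKn, ⟨⟨⟨?_⟩⟩, ?_⟩, hidx⟩
    · rintro ⟨x, hx⟩ ⟨y, hy⟩
      exact Subtype.ext (comm_of_index_two hΦ K hidx x hx y hy)
    · intro x hx
      rcases sq_or_cube hΦ x with h2 | h3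
      · have h1 : orderOf (⟨x, hx⟩ : K) ∣ 2 := by
          rw [Subgroup.orderOf_mk]; exact orderOf_dvd_of_pow_eq_one h2
        have h2' : orderOf (⟨x, hx⟩ : K) ∣ 3 ^ b := hK ▸ orderOf_dvd_natCard _
        have h3 : orderOf (⟨x, hx⟩ : K) ∣ Nat.gcd 2 (3 ^ b) := Nat.dvd_gcd h1 h2'
        have h4 : Nat.gcd 2 (3 ^ b) = 1 := Nat.Coprime.pow_right b (by norm_num)
        rw [h4, Nat.dvd_one, Subgroup.orderOf_mk, orderOf_eq_one_iff] at h3
        rw [h3, one_pow]
      · exact h3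
  · right
    have hPn : P.Normal := by
      constructor
      intro n hn g
      rw [hP] at hn ⊢
      rw [conj_pow, hn, mul_one, mul_inv_cancel]
    have hidx : P.index = 3 := by
      have h1 := Subgroup.card_mul_index P
      rw [hPcard, ha] at h1
      have h2pos : 0 < 2 ^ a := by positivity
      have : 2 ^ a * P.index = 2 ^ a * 3 := by rw [h1, mul_comm]
      exact Nat.eq_of_mul_eq_mul_left h2pos this
    refine ⟨P, hPn, ⟨⟨⟨?_⟩⟩, ?_⟩, hidx⟩
    · rintro ⟨x, hx⟩ ⟨y, hy⟩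
      apply Subtype.ext
      show x * y = y * x
      have hx2 := (hP x).mp hx
      have hy2 := (hP y).mp hy
      have hxy2 := (hP (x * y)).mp (P.mul_mem hx hy)
      have hxi : x⁻¹ = x := by rw [inv_eq_iff_mul_eq_one, ← pow_two]; exact hx2
      have hyi : y⁻¹ = y := by rw [inv_eq_iff_mul_eq_one, ← pow_two]; exact hy2
      have hxyi : (x * y)⁻¹ = x * y := by rw [inv_eq_iff_mul_eq_one, ← pow_two]; exact hxy2
      rw [mul_inv_rev, hxi, hyi] at hxyi
      exact hxyi.symm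
    · intro x hx
      exact (hP x).mp hx

end Cfsg.Agent.S4005
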