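import Cfsg.Statements.S4200
import Cfsg.Agent.Helper23.Comm

set_option autoImplicit false
open Cfsg

namespace Cfsg.Agent.S4200

theorem result {X : Type*} [Group X] [Finite X] (Y : Subgroup X) : Nat.card (ConjClasses Y) ≤ Y.index * Nat.card (ConjClasses X) ∧ Nat.card (ConjClasses X) ≤ Y.index * Nat.card (ConjClasses Y) ∧ (¬ Y.Normal → Nat.card (ConjClasses X) < Y.index * Nat.card (ConjClasses Y)) :=
  Cfsg.Agent.Helper23.conjClasses_index Y

end Cfsg.Agent.S4200
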