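import Cfsg.Statements.S4201
import Cfsg.Agent.Helper23.Comm

set_option autoImplicit false
open Cfsg

namespace Cfsg.Agent.S4201

theorem result {X : Type*} [Group X] [Finite X] (N : Subgroup X) [N.Normal] : Nat.card (ConjClasses X) ≤ Nat.card (ConjClasses N) * Nat.card (ConjClasses (X ⧸ N)) :=
  Cfsg.Agent.Helper23.conjClasses_le_quotient N

end Cfsg.Agent.S4201
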