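import Cfsg.Statements.S4204
import Mathlib

set_option autoImplicit false
open Cfsg

namespace Cfsg.Agent.S4204

theorem commutator_le_iff_map {G : Type*} [Group G] {N A C : Subgroup G} [N.Normal] :
    ⁅A, C⁆ ≤ N ↔ A.map (QuotientGroup.mk' N) ≤
      Subgroup.centralizer (C.map (QuotientGroup.mk' N) : Set (G ⧸ N)) := by
  rw [← Subgroup.commutator_eq_bot_iff_le_centralizer, ← Subgroup.map_commutator,
    Subgroup.map_eq_bot_iff, QuotientGroup.ker_mk']

theorem iSup_commutator_le {G : Type*} [Group G] {ι : Sort*} {N C : Subgroup G} [N.Normal]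
    (A : ι → Subgroup G) (h : ∀ i, ⁅A i, C⁆ ≤ N) : ⁅⨆ i, A i, C⁆ ≤ N := by
  rw [commutator_le_iff_map, Subgroup.map_iSup]
  exact iSup_le fun i => commutator_le_iff_map.mp (h i)

theorem commutator_sup_le {G : Type*} [Group G] {N A C D : Subgroup G} [N.Normal]
    (h1 : ⁅A, C⁆ ≤ N) (h2 : ⁅A, D⁆ ≤ N) : ⁅A, C ⊔ D⁆ ≤ N := by
  rw [Subgroup.commutator_comm] at h1 h2 ⊢
  rw [commutator_le_iff_map, Subgroup.map_sup]
  exact sup_le (commutator_le_iff_map.mp h1) (commutator_le_iff_map.mp h2)

/-- `M S 0 = ⊤`, `M S (i+1) = γ_{i+1}(S)`. -/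
def M {G : Type*} [Group G] (S : Subgroup G) : ℕ → Subgroup G
  | 0 => ⊤
  | i + 1 => S.lowerCentralSeries i

instance M_normal {G : Type*} [Group G] (S : Subgroup G) [S.Normal] (i : ℕ) : (M S i).Normal := by
  cases i with
  | zero => exact Subgroup.normal_top
  | succ i => exact Subgroup.lowerCentralSeries_normal S i

theorem comm_M_le {G : Type*} [Group G] (S : Subgroup G) [S.Normal] (i : ℕ) :
    ⁅M S i, S⁆ ≤ M S (i + 1) := by
  cases i with
  | zero => exact Subgroup.commutator_le_right ⊤ S
  | succ i => exact le_of_eq rfl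

/-- the join of the `γ_i(H) ⊓ γ_j(K)` with `i + j = n + 1`. -/
def T {G : Type*} [Group G] (H K : Subgroup G) (n : ℕ) : Subgroup G :=
  ⨆ i : Fin (n + 2), M H i ⊓ M K (n + 1 - i)

instance T_normal {G : Type*} [Group G] (H K : Subgroup G) [H.Normal] [K.Normal] (n : ℕ) :
    (T H K n).Normal := by
  unfold T
  infer_instance

theorem lcs_le_T {G : Type*} [Group G] (H K : Subgroup G) [H.Normal] [K.Normal] (n : ℕ) :
    (H ⊔ K).lowerCentralSeries n ≤ T H K n := by
  induction n with
  | zero =>
    simp only [Subgroup.lowerCentralSeries_zero]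
    apply sup_le
    · refine le_trans ?_ (le_iSup (fun i : Fin 2 => M H i ⊓ M K (0 + 1 - i)) ⟨1, by omega⟩)
      simp [M]
    · refine le_trans ?_ (le_iSup (fun i : Fin 2 => M H i ⊓ M K (0 + 1 - i)) ⟨0, by omega⟩)
      simp [M]
  | succ n ih =>
    rw [Subgroup.lowerCentralSeries_succ]
    refine le_trans (Subgroup.commutator_mono ih le_rfl) ?_
    apply iSup_commutator_le
    intro i
    have hi := i.isLt
    apply commutator_sup_le
    · have h1 : ⁅M H i ⊓ M K (n + 1 - i), H⁆ ≤ M H (i + 1) ⊓ M K (n + 1 - i) :=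
        le_inf (le_trans (Subgroup.commutator_mono inf_le_left le_rfl) (comm_M_le H i))
          (le_trans (Subgroup.commutator_mono inf_le_right le_rfl)
            (Subgroup.commutator_le_left _ _))
      refine le_trans h1 ?_
      have h2 := le_iSup (fun j : Fin (n + 1 + 2) => M H j ⊓ M K (n + 1 + 1 - j))
        ⟨i + 1, by omega⟩
      have e : n + 1 + 1 - (i.val + 1) = n + 1 - i.val := by omega
      simp only [e] at h2
      exact h2
    · have h1 : ⁅M H i ⊓ M K (n + 1 - i), K⁆ ≤ M H i ⊓ M K (n + 1 - i + 1) :=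
        le_inf (le_trans (Subgroup.commutator_mono inf_le_left le_rfl)
            (Subgroup.commutator_le_left _ _))
          (le_trans (Subgroup.commutator_mono inf_le_right le_rfl) (comm_M_le K _))
      refine le_trans h1 ?_
      have h2 := le_iSup (fun j : Fin (n + 1 + 2) => M H j ⊓ M K (n + 1 + 1 - j))
        ⟨i, by omega⟩
      have e : n + 1 + 1 - i.val = n + 1 - i.val + 1 := by omega
      simp only [e] at h2
      exact h2

/-- If `H` and `K` are normal subgroups of a finite group with `H` nilpotent of class at most `c` and `K` nilpotent of class at most `d` (the terms with index `c`, respectively `d`, of their lower central series are trivial, indices starting at `0`), then `HK` is nilpotent of class at most `c + d`. -/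
theorem result {G : Type*} [Group G] [Finite G] (H K : Subgroup G) [H.Normal] [K.Normal] (c d : ℕ) (hH : H.lowerCentralSeries c = ⊥) (hK : K.lowerCentralSeries d = ⊥) : (H ⊔ K).lowerCentralSeries (c + d) = ⊥ := by
  rw [eq_bot_iff]
  refine le_trans (lcs_le_T H K (c + d)) ?_
  apply iSup_le
  intro i
  have hi := i.isLt
  by_cases hic : i.val ≤ c
  · have h1 : M K (c + d + 1 - i.val) ≤ K.lowerCentralSeries d := by
      obtain ⟨j, hj⟩ : ∃ j, c + d + 1 - i.val = j + 1 := ⟨c + d - i.val, by omega⟩
      rw [hj]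
      exact K.lowerCentralSeries_antitone (by omega)
    exact le_trans inf_le_right (hK ▸ h1)
  · have h1 : M H i.val ≤ H.lowerCentralSeries c := by
      obtain ⟨j, hj⟩ : ∃ j, i.val = j + 1 := ⟨i.val - 1, by omega⟩
      rw [hj]
      exact H.lowerCentralSeries_antitone (by omega)
    exact le_trans inf_le_left (hH ▸ h1)

end Cfsg.Agent.S4204
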