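import Cfsg.Statements.S4205

set_option autoImplicit false
open Cfsg
open scoped commutatorElement

namespace Cfsg.Agent.S4205

theorem aux {G : Type*} [Group G] (H : Subgroup G) (i : ℕ) :
    Subgroup.upperCentralSeries G i ≤ (fun K : Subgroup G => Subgroup.normalizer (K : Set G))^[i] H := by
  induction i with
  | zero => simp [Subgroup.upperCentralSeries_zero]
  | succ i ih =>
    rw [Function.iterate_succ_apply']
    set K := (fun K : Subgroup G => Subgroup.normalizer (K : Set G))^[i] H with hK
    have key : ∀ z ∈ Subgroup.upperCentralSeries G (i + 1), ∀ h ∈ K, z * h * z⁻¹ ∈ K := by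
      intro z hz h hh
      have h1 : ⁅z, h⁆ ∈ Subgroup.upperCentralSeries G i := Subgroup.mem_upperCentralSeries_succ_iff.mp hz h
      have h2 : z * h * z⁻¹ = ⁅z, h⁆ * h := by
        rw [commutatorElement_def]; group
      rw [h2]
      exact K.mul_mem (ih h1) hh
    intro z hz
    rw [Subgroup.mem_normalizer_iff]
    intro h
    constructor
    · exact key z hz h
    · intro hh
      have := key z⁻¹ (Subgroup.inv_mem _ hz) _ hh
      simpa [mul_assoc] using this

/-- In a finite group whose upper central series reaches the whole group at step `c` (nilpotent of class at most `c`), starting from any subgroup and taking normalizers `c` times reaches the whole group. -/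
theorem result {G : Type*} [Group G] [Finite G] (c : ℕ) (hG : Subgroup.upperCentralSeries G c = ⊤) (H : Subgroup G) : (fun K : Subgroup G => Subgroup.normalizer (K : Set G))^[c] H = ⊤ := by
  have := aux H c
  rw [hG] at this
  exact top_le_iff.mp this

end Cfsg.Agent.S4205
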