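import Mathlib
import Cfsg.Statements.S4211
import Cfsg.Agent.Helper23.Quat

set_option autoImplicit false
open Cfsg

namespace Cfsg.Agent.S4211

section class2
variable {G : Type*} [Group G]

theorem pow_mul_class2 (w y d : G) (h : y * w = w * y * d) (hy : Commute d y) (k : ℕ) :
    y ^ k * w = w * y ^ k * d ^ k := by
  induction k with
  | zero => simp
  | succ k ih =>
    have h1 : Commute (d ^ k) y := hy.pow_left k
    calc y ^ (k + 1) * w = y ^ k * (y * w) := by rw [pow_succ, mul_assoc]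
      _ = (y ^ k * w) * y * d := by rw [h]; group
      _ = w * y ^ k * (d ^ k * y) * d := by rw [ih]; group
      _ = w * y ^ k * (y * d ^ k) * d := by rw [h1.eq]
      _ = w * y ^ (k + 1) * d ^ (k + 1) := by rw [pow_succ, pow_succ]; group

theorem mul_pow_class2 (w y d : G) (h : y * w = w * y * d) (hw : Commute d w) (hy : Commute d y)
    (k : ℕ) : (w * y) ^ k = w ^ k * y ^ k * d ^ (k.choose 2) := by
  induction k with
  | zero => simp
  | succ k ih =>
    have h1 : Commute (d ^ (k.choose 2)) w := hw.pow_left _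
    have h2 : Commute (d ^ (k.choose 2)) y := hy.pow_left _
    have h3 : Commute (d ^ k) y := hy.pow_left _
    have h4 := pow_mul_class2 w y d h hy k
    have hc : (k + 1).choose 2 = k + k.choose 2 := by
      rw [Nat.choose_succ_succ, Nat.choose_one_right]
    calc (w * y) ^ (k + 1) = w ^ k * y ^ k * (d ^ (k.choose 2) * w) * y := by
          rw [pow_succ, ih]; group
      _ = w ^ k * (y ^ k * w) * (d ^ (k.choose 2) * y) := by rw [h1.eq]; group
      _ = w ^ k * (w * y ^ k * d ^ k) * (y * d ^ (k.choose 2)) := by rw [h4, h2.eq]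
      _ = w ^ k * w * y ^ k * (d ^ k * y) * d ^ (k.choose 2) := by group
      _ = w ^ k * w * y ^ k * (y * d ^ k) * d ^ (k.choose 2) := by rw [h3.eq]
      _ = w ^ (k + 1) * y ^ (k + 1) * d ^ ((k + 1).choose 2) := by
          rw [hc, pow_succ, pow_succ, pow_add]; group

end class2

theorem cyc_root {G : Type*} [Group G] [Finite G] {p m : ℕ} (hp : p.Prime) (hm : 1 ≤ m) (x g : G)
    (hx : orderOf x = p ^ m) (hg : g ∈ Subgroup.zpowers x) (hgp : g ^ p = 1) :
    ∃ t : ℕ, g = x ^ (p ^ (m - 1) * t) := by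
  rw [← mem_powers_iff_mem_zpowers] at hg
  obtain ⟨i, rfl⟩ := (Submonoid.mem_powers_iff _ _).mp hg
  rw [← pow_mul] at hgp
  have h1 : p ^ m ∣ i * p := by rw [← hx]; exact orderOf_dvd_of_pow_eq_one hgp
  have h2 : p ^ (m - 1) ∣ i := by
    obtain ⟨m', rfl⟩ : ∃ m', m = m' + 1 := ⟨m - 1, by omega⟩
    rw [pow_succ] at h1
    simpa using Nat.dvd_of_mul_dvd_mul_right hp.pos h1
  obtain ⟨t, rfl⟩ := h2
  exact ⟨t, rfl⟩

theorem dvd_choose_two {p n : ℕ} (hp : p.Prime) (hn : 1 ≤ n)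
    (h : ¬ p ∣ (p ^ (n - 1)).choose 2) : p = 2 ∧ n = 2 := by
  obtain ⟨n', rfl⟩ : ∃ n', n = n' + 1 := ⟨n - 1, by omega⟩
  simp only [Nat.add_sub_cancel] at h
  rcases Nat.eq_zero_or_pos n' with rfl | hn'
  · exfalso; apply h; simp
  · have h1 : p ∣ p ^ n' := dvd_pow_self p (by omega)
    have h2 : (p ^ n').choose 2 * 2 = p ^ n' * (p ^ n' - 1) := by
      rw [Nat.choose_two_right]
      exact Nat.div_mul_cancel (Nat.even_mul_pred_self _).two_dvd
    by_cases hp2 : p = 2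
    · subst hp2
      refine ⟨rfl, ?_⟩
      by_contra hne
      apply h
      obtain ⟨n'', rfl⟩ : ∃ n'', n' = n'' + 2 := ⟨n' - 2, by omega⟩
      have h3 : (2 ^ (n'' + 2)).choose 2 = 2 * (2 ^ n'' * (2 ^ (n'' + 2) - 1)) := by
        have : (2 ^ (n'' + 2)).choose 2 * 2 = (2 * (2 ^ n'' * (2 ^ (n'' + 2) - 1))) * 2 := by
          rw [h2]
          generalize 2 ^ (n'' + 2) - 1 = X
          rw [pow_add]; ring
        exact Nat.eq_of_mul_eq_mul_right (by norm_num) this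
      rw [h3]; exact dvd_mul_right _ _
    · exfalso; apply h
      have h3 : p ∣ (p ^ n').choose 2 * 2 := by rw [h2]; exact Dvd.dvd.mul_right h1 _
      exact (Nat.Coprime.dvd_mul_right (by
        rw [Nat.coprime_primes hp Nat.prime_two]; exact hp2)).mp h3

theorem core {G : Type*} [Group G] [Finite G] (hn : ∀ H : Subgroup G, H.Normal) (K : Subgroup G)
    (x y : G) (hxK : x ∈ K) (hyK : y ∈ K) (hxy : x * y ≠ y * x)
    (hmin : ∀ x' ∈ K, ∀ y' ∈ K, x' * y' ≠ y' * x' →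
      orderOf x + orderOf y ≤ orderOf x' + orderOf y')
    (hle : orderOf y ≤ orderOf x) :
    orderOf x = 4 ∧ y * y = x ^ 2 ∧ y * x * y⁻¹ = x⁻¹ := by
  obtain ⟨c, hc⟩ : ∃ c : G, c = x⁻¹ * y⁻¹ * x * y := ⟨_, rfl⟩
  have hxyc : x * y = y * x * c := by rw [hc]; group
  have hcx : c ∈ Subgroup.zpowers x := by
    have h1 : y⁻¹ * x * y⁻¹⁻¹ ∈ Subgroup.zpowers x :=
      (hn _).conj_mem x (Subgroup.mem_zpowers x) y⁻¹
    have h2 : c = x⁻¹ * (y⁻¹ * x * y⁻¹⁻¹) := by rw [hc]; group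
    rw [h2]; exact Subgroup.mul_mem _ (Subgroup.inv_mem _ (Subgroup.mem_zpowers x)) h1
  have hcy : c ∈ Subgroup.zpowers y := by
    have h1 : x⁻¹ * y⁻¹ * x⁻¹⁻¹ ∈ Subgroup.zpowers y :=
      (hn _).conj_mem y⁻¹ (Subgroup.inv_mem _ (Subgroup.mem_zpowers y)) x⁻¹
    have h2 : c = (x⁻¹ * y⁻¹ * x⁻¹⁻¹) * y := by rw [hc]; group
    rw [h2]; exact Subgroup.mul_mem _ h1 (Subgroup.mem_zpowers y)
  have hccx : Commute c x := by
    obtain ⟨k, hk⟩ := Subgroup.mem_zpowers_iff.mp hcx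
    rw [← hk]; exact (Commute.refl x).zpow_left k
  have hccy : Commute c y := by
    obtain ⟨k, hk⟩ := Subgroup.mem_zpowers_iff.mp hcy
    rw [← hk]; exact (Commute.refl y).zpow_left k
  have hc1 : c ≠ 1 := by
    intro h; apply hxy; rw [hxyc, h, mul_one]
  have hA : ∀ k : ℕ, x ^ k * y = y * x ^ k * c ^ k := fun k => pow_mul_class2 y x c hxyc hccx k
  have hyxc : y * x = x * y * c⁻¹ := by rw [hxyc]; group
  have hB : ∀ k : ℕ, y ^ k * x = x * y ^ k * c⁻¹ ^ k :=
    fun k => pow_mul_class2 x y c⁻¹ hyxc hccy.inv_left k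
  have hx1 : orderOf x ≠ 1 := by
    intro h; rw [orderOf_eq_one_iff] at h; apply hxy; rw [h]; simp
  have hy1 : orderOf y ≠ 1 := by
    intro h; rw [orderOf_eq_one_iff] at h; apply hxy; rw [h]; simp
  have hx0 : orderOf x ≠ 0 := (orderOf_pos x).ne'
  have hy0 : orderOf y ≠ 0 := (orderOf_pos y).ne'
  have hqx : ∀ q : ℕ, q.Prime → q ∣ orderOf x → c ^ q = 1 := by
    intro q hq hdvd
    by_contra hcq
    have hnc : x ^ q * y ≠ y * x ^ q := by
      intro h; apply hcq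
      have := hA q
      rw [h] at this
      have h' : y * x ^ q * c ^ q = y * x ^ q * 1 := by rw [mul_one, ← this]
      exact mul_left_cancel h'
    have h1 := hmin (x ^ q) (K.pow_mem hxK q) y hyK hnc
    have h2 : orderOf (x ^ q) = orderOf x / q := orderOf_pow_of_dvd hq.ne_zero hdvd
    have h3 : orderOf x / q < orderOf x := Nat.div_lt_self (orderOf_pos x) hq.one_lt
    omega
  have hqy : ∀ q : ℕ, q.Prime → q ∣ orderOf y → c ^ q = 1 := by
    intro q hq hdvd
    by_contra hcq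
    have hnc : x * y ^ q ≠ y ^ q * x := by
      intro h; apply hcq
      have := hB q
      rw [← h] at this
      have h' : x * y ^ q * c⁻¹ ^ q = x * y ^ q * 1 := by rw [mul_one, ← this]
      have h'' := mul_left_cancel h'
      rwa [inv_pow, inv_eq_one] at h''
    have h1 := hmin x hxK (y ^ q) (K.pow_mem hyK q) hnc
    have h2 : orderOf (y ^ q) = orderOf y / q := orderOf_pow_of_dvd hq.ne_zero hdvd
    have h3 : orderOf y / q < orderOf y := Nat.div_lt_self (orderOf_pos y) hq.one_lt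
    omega
  obtain ⟨p, hp_def⟩ : ∃ p : ℕ, p = orderOf c := ⟨_, rfl⟩
  have hqc : ∀ q : ℕ, q.Prime → c ^ q = 1 → q = p := by
    intro q hq h
    have h1 := orderOf_dvd_of_pow_eq_one h
    rcases (Nat.dvd_prime hq).mp h1 with h2 | h2
    · exact absurd (orderOf_eq_one_iff.mp h2) hc1
    · rw [hp_def]; exact h2.symm
  have hp : p.Prime := by
    obtain ⟨q, hq, hdvd⟩ := Nat.exists_prime_and_dvd hx1
    rw [← hqc q hq (hqx q hq hdvd)]; exact hq
  have hcp : c ^ p = 1 := by rw [hp_def]; exact pow_orderOf_eq_one c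
  obtain ⟨m, hm⟩ : ∃ m, orderOf x = p ^ m :=
    ⟨_, Nat.eq_prime_pow_of_unique_prime_dvd hx0 (fun {d} hd hdvd => hqc d hd (hqx d hd hdvd))⟩
  obtain ⟨n, hn'⟩ : ∃ n, orderOf y = p ^ n :=
    ⟨_, Nat.eq_prime_pow_of_unique_prime_dvd hy0 (fun {d} hd hdvd => hqc d hd (hqy d hd hdvd))⟩
  have hm1 : 1 ≤ m := by
    rcases Nat.eq_zero_or_pos m with rfl | h
    · rw [pow_zero] at hm; exact absurd hm hx1
    · exact h
  have hn1 : 1 ≤ n := by
    rcases Nat.eq_zero_or_pos n with rfl | h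
    · rw [pow_zero] at hn'; exact absurd hn' hy1
    · exact h
  have hnm : n ≤ m := by
    rw [hm, hn'] at hle
    exact (Nat.pow_le_pow_iff_right hp.one_lt).mp hle
  obtain ⟨v, hv⟩ : ∃ v : G, v = y ^ (p ^ (n - 1)) := ⟨_, rfl⟩
  have hov : orderOf v = p := by
    rw [hv, orderOf_pow_of_dvd (pow_ne_zero _ hp.ne_zero)
      (by rw [hn']; exact pow_dvd_pow p (by omega)), hn', Nat.pow_div (by omega) hp.pos]
    have : n - (n - 1) = 1 := by omega
    rw [this, pow_one]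
  obtain ⟨t₁, ht₁⟩ := cyc_root hp hn1 y c hn' hcy hcp
  have hcv : Subgroup.zpowers c ≤ Subgroup.zpowers v := by
    rw [Subgroup.zpowers_le, ht₁, pow_mul, ← hv]
    exact Subgroup.pow_mem _ (Subgroup.mem_zpowers v) t₁
  have hvc : Subgroup.zpowers v = Subgroup.zpowers c := by
    symm
    apply Subgroup.eq_of_le_of_card_ge hcv
    rw [Nat.card_zpowers, Nat.card_zpowers, hov, hp_def]
  have hvinv : v⁻¹ ∈ Subgroup.zpowers x := by
    have : v⁻¹ ∈ Subgroup.zpowers c := by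
      rw [← hvc]; exact Subgroup.inv_mem _ (Subgroup.mem_zpowers v)
    exact (Subgroup.zpowers_le.mpr hcx) this
  have hvp : v⁻¹ ^ p = 1 := by
    rw [inv_pow, inv_eq_one]
    have := pow_orderOf_eq_one v
    rwa [hov] at this
  obtain ⟨t, ht⟩ := cyc_root hp hm1 x v⁻¹ hm hvinv hvp
  obtain ⟨l, hl⟩ : ∃ l : ℕ, l = p ^ (m - n) * t := ⟨_, rfl⟩
  have hwv : (x ^ l) ^ (p ^ (n - 1)) = v⁻¹ := by
    rw [ht, ← pow_mul, hl]
    congr 1
    have : p ^ (m - 1) = p ^ (m - n) * p ^ (n - 1) := by rw [← pow_add]; congr 1; omega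
    rw [this]; ring
  have hwy : y * x ^ l = x ^ l * y * (c ^ l)⁻¹ := by
    rw [hA l]; group
  have hdw : Commute (c ^ l)⁻¹ (x ^ l) := ((hccx.pow_left l).pow_right l).inv_left
  have hdy : Commute (c ^ l)⁻¹ y := (hccy.pow_left l).inv_left
  have hz := mul_pow_class2 (x ^ l) y (c ^ l)⁻¹ hwy hdw hdy (p ^ (n - 1))
  have hz' : (x ^ l * y) ^ (p ^ (n - 1)) = (c ^ (l * (p ^ (n - 1)).choose 2))⁻¹ := by
    rw [hz, hwv, ← hv, inv_mul_cancel, one_mul, inv_pow, pow_mul]
  have hndvd : ¬ p ∣ l * (p ^ (n - 1)).choose 2 := by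
    intro hdvd
    obtain ⟨s, hs⟩ := hdvd
    rw [hs, pow_mul, hcp, one_pow, inv_one] at hz'
    have hznc : x * (x ^ l * y) ≠ (x ^ l * y) * x := by
      intro h; apply hxy
      have h1 : x * (x ^ l * y) = x ^ l * (x * y) := by
        rw [← mul_assoc, ← mul_assoc, (Commute.pow_right (Commute.refl x) l).eq]
      rw [h1, mul_assoc] at h
      exact mul_left_cancel h
    have h1 := hmin x hxK (x ^ l * y) (K.mul_mem (K.pow_mem hxK l) hyK) hznc
    have h2 : orderOf (x ^ l * y) ∣ p ^ (n - 1) := orderOf_dvd_of_pow_eq_one hz'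
    have h3 := Nat.le_of_dvd (pow_pos hp.pos _) h2
    have h4 : p ^ (n - 1) < p ^ n := Nat.pow_lt_pow_right hp.one_lt (by omega)
    rw [hn'] at h1
    omega
  have hmn : m = n := by
    by_contra hne
    apply hndvd
    have : p ∣ p ^ (m - n) := dvd_pow_self p (by omega)
    rw [hl]
    exact Dvd.dvd.mul_right (Dvd.dvd.mul_right this t) _
  have hC : ¬ p ∣ (p ^ (n - 1)).choose 2 := fun h => hndvd (Dvd.dvd.mul_left h l)
  obtain ⟨hp2, hn2⟩ := dvd_choose_two hp hn1 hC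
  have hox : orderOf x = 4 := by rw [hm, hmn, hp2, hn2]; norm_num
  have hoy : orderOf y = 4 := by rw [hn', hp2, hn2]; norm_num
  have hx4 : x ^ 4 = 1 := by rw [← hox]; exact pow_orderOf_eq_one x
  have hy4 : y ^ 4 = 1 := by rw [← hoy]; exact pow_orderOf_eq_one y
  have key : ∀ (u : G) (t : ℕ), u ^ 4 = 1 → c = u ^ (2 * t) → c = u ^ 2 := by
    intro u t hu hct
    rcases Nat.even_or_odd t with ⟨s, rfl⟩ | ⟨s, rfl⟩
    · exfalso; apply hc1
      rw [hct, show 2 * (s + s) = 4 * s by ring, pow_mul, hu, one_pow]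
    · rw [hct, show 2 * (2 * s + 1) = 4 * s + 2 by ring, pow_add, pow_mul, hu, one_pow, one_mul]
  obtain ⟨t₂, ht₂⟩ := cyc_root hp hm1 x c hm hcx hcp
  have hcx2 : c = x ^ 2 := by
    apply key x t₂ hx4
    rw [ht₂, hmn, hp2, hn2]; norm_num
  have hcy2 : c = y ^ 2 := by
    apply key y t₁ hy4
    rw [ht₁, hp2, hn2]; norm_num
  refine ⟨hox, ?_, ?_⟩
  · rw [← pow_two, ← hcy2, hcx2]
  · have h1 : y⁻¹ * x * y = x⁻¹ := by
      have : y⁻¹ * x * y = x * c := by rw [hc]; group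
      rw [this, hcx2, eq_inv_iff_mul_eq_one]
      calc x * x ^ 2 * x = x ^ 4 := by group
        _ = 1 := hx4
    calc y * x * y⁻¹ = (y * x⁻¹ * y⁻¹)⁻¹ := by group
      _ = (y * (y⁻¹ * x * y) * y⁻¹)⁻¹ := by rw [h1]
      _ = x⁻¹ := by group

theorem step1 {G : Type*} [Group G] [Finite G] (hn : ∀ H : Subgroup G, H.Normal) (K : Subgroup G)
    (hK : ∃ a ∈ K, ∃ b ∈ K, a * b ≠ b * a) :
    ∃ x ∈ K, ∃ y ∈ K, orderOf x = 4 ∧ y * y = x ^ 2 ∧ y * x * y⁻¹ = x⁻¹ := by
  classical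
  let P : ℕ → Prop := fun N => ∃ a ∈ K, ∃ b ∈ K, a * b ≠ b * a ∧ orderOf a + orderOf b = N
  have hP : ∃ N, P N := by
    obtain ⟨a, ha, b, hb, hab⟩ := hK
    exact ⟨_, a, ha, b, hb, hab, rfl⟩
  obtain ⟨a, ha, b, hb, hab, hN⟩ := Nat.find_spec hP
  have hmin : ∀ x' ∈ K, ∀ y' ∈ K, x' * y' ≠ y' * x' →
      orderOf a + orderOf b ≤ orderOf x' + orderOf y' := by
    intro x' hx' y' hy' hne
    rw [hN]
    exact Nat.find_min' hP ⟨x', hx', y', hy', hne, rfl⟩
  rcases le_total (orderOf b) (orderOf a) with hle | hle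
  · exact ⟨a, ha, b, hb, core hn K a b ha hb hab hmin hle⟩
  · refine ⟨b, hb, a, ha, core hn K b a hb ha (fun h => hab h.symm) ?_ hle⟩
    intro x' hx' y' hy' hne
    have := hmin x' hx' y' hy' hne
    omega

theorem conj_cases {G : Type*} [Group G] [Finite G] (hn : ∀ H : Subgroup G, H.Normal) (x : G)
    (h4 : x ^ 4 = 1) (h2 : x ^ 2 ≠ 1) (g : G) : g * x * g⁻¹ = x ∨ g * x * g⁻¹ = x⁻¹ := by
  have h1 : g * x * g⁻¹ ∈ Subgroup.zpowers x := (hn _).conj_mem x (Subgroup.mem_zpowers x) g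
  rw [← mem_powers_iff_mem_zpowers] at h1
  obtain ⟨k, hk⟩ := (Submonoid.mem_powers_iff _ _).mp h1
  have hk' : x ^ (k % 4) = g * x * g⁻¹ := by
    rw [← hk]
    conv_rhs => rw [← Nat.div_add_mod k 4]
    rw [pow_add, pow_mul, h4, one_pow, one_mul]
  have hlt : k % 4 < 4 := Nat.mod_lt _ (by norm_num)
  have hsq : (g * x * g⁻¹) ^ 2 = g * x ^ 2 * g⁻¹ := conj_pow
  have hx1 : x ≠ 1 := by rintro rfl; simp at h2
  obtain ⟨r, hr⟩ : ∃ r, r = k % 4 := ⟨_, rfl⟩
  rw [← hr] at hk' hlt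
  interval_cases r
  · exfalso; apply hx1
    rw [pow_zero] at hk'
    have : x = g⁻¹ * (g * x * g⁻¹) * g := by group
    rw [this, ← hk']; group
  · left; rw [← hk', pow_one]
  · exfalso; apply h2
    have h5 : g * x ^ 2 * g⁻¹ = 1 := by rw [← hsq, ← hk', ← pow_mul]; exact h4
    have : x ^ 2 = g⁻¹ * (g * x ^ 2 * g⁻¹) * g := by group
    rw [this, h5]; group
  · right; rw [← hk', eq_inv_iff_mul_eq_one]
    calc x ^ 3 * x = x ^ 4 := by group
      _ = 1 := h4

/-- odd-order elements of a subgroup with commuting elements -/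
def oddPart {G : Type*} [Group G] (C : Subgroup G) (hC : ∀ a ∈ C, ∀ b ∈ C, a * b = b * a) :
    Subgroup G where
  carrier := {g | g ∈ C ∧ Odd (orderOf g)}
  mul_mem' := by
    rintro a b ⟨ha, ha'⟩ ⟨hb, hb'⟩
    refine ⟨C.mul_mem ha hb, ?_⟩
    have h := (show Commute a b from hC a ha b hb).orderOf_mul_dvd_lcm
    exact Odd.of_dvd_nat (Odd.of_dvd_nat (ha'.mul hb') (Nat.lcm_dvd_mul _ _)) h
  one_mem' := ⟨C.one_mem, by simp⟩
  inv_mem' := by
    rintro a ⟨ha, ha'⟩
    exact ⟨C.inv_mem ha, by rwa [orderOf_inv]⟩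

theorem mem_oddPart {G : Type*} [Group G] (C : Subgroup G)
    (hC : ∀ a ∈ C, ∀ b ∈ C, a * b = b * a) (g : G) :
    g ∈ oddPart C hC ↔ g ∈ C ∧ Odd (orderOf g) := Iff.rfl

theorem eq_one_of_sq_of_odd {G : Type*} [Group G] (a : G) (ha2 : a ^ 2 = 1)
    (h2 : Odd (orderOf a)) : a = 1 := by
  have h1 : orderOf a ∣ 2 := orderOf_dvd_of_pow_eq_one ha2
  rcases (Nat.dvd_prime Nat.prime_two).mp h1 with h | h
  · exact orderOf_eq_one_iff.mp h
  · rw [h] at h2; exact absurd h2 (by decide)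

/-- A finite non-abelian group in which every subgroup is normal is the internal direct product of a subgroup isomorphic to the quaternion group of order `8`, an elementary abelian `2`-subgroup and an abelian subgroup of odd order. -/
theorem result {G : Type*} [Group G] [Finite G] (hna : ¬ IsMulCommutative G) (hn : ∀ H : Subgroup G, H.Normal) : ∃ Q E A : Subgroup G, Nonempty (Q ≃* QuaternionGroup 2) ∧ Cfsg.IsElementaryAbelian 2 E ∧ IsMulCommutative A ∧ Odd (Nat.card A) ∧ E ⊓ A = ⊥ ∧ Q ⊓ (E ⊔ A) = ⊥ ∧ Q ⊔ (E ⊔ A) = ⊤ := by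
  classical
  have hnc : ∃ a ∈ (⊤ : Subgroup G), ∃ b ∈ (⊤ : Subgroup G), a * b ≠ b * a := by
    by_contra h
    push Not at h
    exact hna ⟨⟨fun a b => h a (Subgroup.mem_top a) b (Subgroup.mem_top b)⟩⟩
  obtain ⟨x, -, y, -, hox, hyy, hyx⟩ := step1 hn ⊤ hnc
  have hx4 : x ^ 4 = 1 := by rw [← hox]; exact pow_orderOf_eq_one x
  have hx2 : x ^ 2 ≠ 1 := by
    intro h
    have := orderOf_dvd_of_pow_eq_one h
    rw [hox] at this; omega
  have hy2 : y ^ 2 = x ^ 2 := by rw [pow_two, hyy]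
  have hy4 : y ^ 4 = 1 := by
    calc y ^ 4 = (y ^ 2) ^ 2 := by rw [← pow_mul]
      _ = (x ^ 2) ^ 2 := by rw [hy2]
      _ = 1 := by rw [← pow_mul]; exact hx4
  have hy2' : y ^ 2 ≠ 1 := by rw [hy2]; exact hx2
  have hxy : x * y * x⁻¹ = y⁻¹ := by
    have e1 : y * x = x⁻¹ * y := by
      calc y * x = (y * x * y⁻¹) * y := by group
        _ = x⁻¹ * y := by rw [hyx]
    calc x * y * x⁻¹ = x * (y * x) * x⁻¹ * x⁻¹ := by group
      _ = x * (x⁻¹ * y) * x⁻¹ * x⁻¹ := by rw [e1]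
      _ = y * (x ^ 2)⁻¹ := by group
      _ = y * (y ^ 2)⁻¹ := by rw [hy2]
      _ = y⁻¹ := by group
  obtain ⟨F, hFinj, hFrange, hF1, hF2⟩ := Cfsg.Agent.Helper23.quat_hom x y hox hyy hyx
  obtain ⟨Q, hQ⟩ : ∃ Q : Subgroup G, Q = Subgroup.closure {x, y} := ⟨_, rfl⟩
  have hxQ : x ∈ Q := by rw [hQ]; exact Subgroup.subset_closure (by simp)
  have hyQ : y ∈ Q := by rw [hQ]; exact Subgroup.subset_closure (by simp)
  obtain ⟨C, hCdef⟩ : ∃ C : Subgroup G, C = Subgroup.centralizer ({x, y} : Set G) := ⟨_, rfl⟩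
  have memC : ∀ g : G, g ∈ C ↔ g * x * g⁻¹ = x ∧ g * y * g⁻¹ = y := by
    intro g
    rw [hCdef, Subgroup.mem_centralizer_iff]
    constructor
    · intro h
      have h1 := h x (by simp)
      have h2 := h y (by simp)
      exact ⟨by rw [← h1]; group, by rw [← h2]; group⟩
    · rintro ⟨h1, h2⟩ z hz
      simp only [Set.mem_insert_iff, Set.mem_singleton_iff] at hz
      rcases hz with hz | hz
      · rw [hz]
        calc x * g = (g * x * g⁻¹) * g := by rw [h1]
          _ = g * x := by group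
      · rw [hz]
        calc y * g = (g * y * g⁻¹) * g := by rw [h2]
          _ = g * y := by group
  have hQC : ∀ g : G, ∃ q ∈ Q, q * g ∈ C := by
    intro g
    rcases conj_cases hn x hx4 hx2 g with h1 | h1 <;>
      rcases conj_cases hn y hy4 hy2' g with h2 | h2
    · exact ⟨1, Q.one_mem, by rw [one_mul, memC]; exact ⟨h1, h2⟩⟩
    · refine ⟨x, hxQ, (memC _).mpr ⟨?_, ?_⟩⟩
      · calc x * g * x * (x * g)⁻¹ = x * (g * x * g⁻¹) * x⁻¹ := by group
          _ = x := by rw [h1]; group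
      · calc x * g * y * (x * g)⁻¹ = x * (g * y * g⁻¹) * x⁻¹ := by group
          _ = (x * y * x⁻¹)⁻¹ := by rw [h2]; group
          _ = y := by rw [hxy, inv_inv]
    · refine ⟨y, hyQ, (memC _).mpr ⟨?_, ?_⟩⟩
      · calc y * g * x * (y * g)⁻¹ = y * (g * x * g⁻¹) * y⁻¹ := by group
          _ = (y * x * y⁻¹)⁻¹ := by rw [h1]; group
          _ = x := by rw [hyx, inv_inv]
      · calc y * g * y * (y * g)⁻¹ = y * (g * y * g⁻¹) * y⁻¹ := by group
          _ = y := by rw [h2]; group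
    · refine ⟨x * y, Q.mul_mem hxQ hyQ, (memC _).mpr ⟨?_, ?_⟩⟩
      · calc x * y * g * x * (x * y * g)⁻¹ = x * (y * (g * x * g⁻¹) * y⁻¹) * x⁻¹ := by group
          _ = x * (y * x * y⁻¹)⁻¹ * x⁻¹ := by rw [h1]; group
          _ = x := by rw [hyx, inv_inv]; group
      · calc x * y * g * y * (x * y * g)⁻¹ = x * (y * (g * y * g⁻¹) * y⁻¹) * x⁻¹ := by group
          _ = (x * y * x⁻¹)⁻¹ := by rw [h2]; group
          _ = y := by rw [hxy, inv_inv]
  have hno4 : ∀ g ∈ C, orderOf g ≠ 4 := by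
    intro g hg ho
    obtain ⟨hgx, hgy⟩ := (memC g).mp hg
    have hg4 : g ^ 4 = 1 := by rw [← ho]; exact pow_orderOf_eq_one g
    have hg2 : g ^ 2 ≠ 1 := by
      intro h
      have := orderOf_dvd_of_pow_eq_one h
      rw [ho] at this; omega
    have hcgy : Commute g y := by
      show g * y = y * g
      calc g * y = (g * y * g⁻¹) * g := by group
        _ = y * g := by rw [hgy]
    have hcgx : Commute g x := by
      show g * x = x * g
      calc g * x = (g * x * g⁻¹) * g := by group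
        _ = x * g := by rw [hgx]
    have h1 : x * (g * y) * x⁻¹ ∈ Subgroup.zpowers (g * y) :=
      (hn _).conj_mem _ (Subgroup.mem_zpowers _) x
    have h2 : x * (g * y) * x⁻¹ = g * y⁻¹ := by
      calc x * (g * y) * x⁻¹ = (x * g) * y * x⁻¹ := by group
        _ = (g * x) * y * x⁻¹ := by rw [hcgx.eq]
        _ = g * (x * y * x⁻¹) := by group
        _ = g * y⁻¹ := by rw [hxy]
    rw [h2, ← mem_powers_iff_mem_zpowers] at h1
    obtain ⟨k, hk⟩ := (Submonoid.mem_powers_iff _ _).mp h1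
    rw [hcgy.mul_pow] at hk
    have hgk : g ^ k = g ^ (k % 4) := by
      conv_lhs => rw [← Nat.div_add_mod k 4]
      rw [pow_add, pow_mul, hg4, one_pow, one_mul]
    have hyk : y ^ k = y ^ (k % 4) := by
      conv_lhs => rw [← Nat.div_add_mod k 4]
      rw [pow_add, pow_mul, hy4, one_pow, one_mul]
    rw [hgk, hyk] at hk
    have hlt : k % 4 < 4 := Nat.mod_lt _ (by norm_num)
    have hgney : g ≠ y := by
      intro hgy'
      apply hx2
      rw [hgy', hyx] at hgx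
      calc x ^ 2 = x * x := pow_two x
        _ = x⁻¹ * x := by rw [hgx]
        _ = 1 := inv_mul_cancel x
    obtain ⟨r, hr⟩ : ∃ r, r = k % 4 := ⟨_, rfl⟩
    rw [← hr] at hk hlt
    interval_cases r
    · apply hgney
      simp only [pow_zero, one_mul] at hk
      calc g = g * y⁻¹ * y := by group
        _ = y := by rw [← hk, one_mul]
    · apply hy2'
      simp only [pow_one] at hk
      have h3 : y = y⁻¹ := mul_left_cancel hk
      calc y ^ 2 = y * y := pow_two y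
        _ = y * y⁻¹ := by rw [← h3]
        _ = 1 := mul_inv_cancel y
    · apply hgney
      calc g = g⁻¹ * (g ^ 2 * y ^ 2) * (y ^ 2)⁻¹ := by group
        _ = g⁻¹ * (g * y⁻¹) * (y ^ 2)⁻¹ := by rw [hk]
        _ = (y ^ 4)⁻¹ * y := by group
        _ = y := by rw [hy4, inv_one, one_mul]
    · apply hg2
      calc g ^ 2 = g⁻¹ * (g ^ 3 * y ^ 3) * (y ^ 3)⁻¹ := by group
        _ = g⁻¹ * (g * y⁻¹) * (y ^ 3)⁻¹ := by rw [hk]
        _ = (y ^ 4)⁻¹ := by group
        _ = 1 := by rw [hy4, inv_one]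
  have hCab : ∀ a ∈ C, ∀ b ∈ C, a * b = b * a := by
    intro a ha b hb
    by_contra hne
    obtain ⟨x', hx', y', hy', hox', -, -⟩ := step1 hn C ⟨a, ha, b, hb, hne⟩
    exact hno4 x' hx' hox'
  have hS : ({H : Subgroup G | H ≤ C ∧ (∀ h ∈ H, h ^ 2 = 1) ∧ x ^ 2 ∉ H}).Nonempty := by
    refine ⟨⊥, bot_le, ?_, ?_⟩
    · intro h hh; rw [Subgroup.mem_bot] at hh; rw [hh, one_pow]
    · rw [Subgroup.mem_bot]; exact hx2
  obtain ⟨E, ⟨hEC, hE2, hcE⟩, hEmax⟩ := (Set.toFinite _).exists_maximal hS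
  have hT : ∀ t ∈ C, t ^ 2 = 1 → ∃ e ∈ E, t = e ∨ t = e * x ^ 2 := by
    intro t ht ht2
    by_cases htE : t ∈ E
    · exact ⟨t, htE, Or.inl rfl⟩
    · have hsup_le : E ⊔ Subgroup.zpowers t ≤ C := sup_le hEC (Subgroup.zpowers_le.mpr ht)
      have hmem : ∀ z ∈ E ⊔ Subgroup.zpowers t, ∃ e ∈ E, z = e ∨ z = e * t := by
        intro z hz
        haveI := hn (Subgroup.zpowers t)
        rw [← SetLike.mem_coe, Subgroup.mul_normal] at hz
        obtain ⟨e, he, u, hu, rfl⟩ := Set.mem_mul.mp hz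
        rw [SetLike.mem_coe, ← mem_powers_iff_mem_zpowers] at hu
        obtain ⟨k, rfl⟩ := (Submonoid.mem_powers_iff _ _).mp hu
        refine ⟨e, he, ?_⟩
        rcases Nat.even_or_odd k with ⟨s, rfl⟩ | ⟨s, rfl⟩
        · left; rw [← two_mul, pow_mul, ht2, one_pow, mul_one]
        · right; rw [pow_succ, pow_mul, ht2, one_pow, one_mul]
      have hsq : ∀ z ∈ E ⊔ Subgroup.zpowers t, z ^ 2 = 1 := by
        intro z hz
        obtain ⟨e, he, hz' | hz'⟩ := hmem z hz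
        · rw [hz']; exact hE2 e he
        · rw [hz', (show Commute e t from hCab e (hEC he) t ht).mul_pow, hE2 e he, ht2, one_mul]
      have hcin : x ^ 2 ∈ E ⊔ Subgroup.zpowers t := by
        by_contra hnot
        have := hEmax (show E ⊔ Subgroup.zpowers t ∈
          {H : Subgroup G | H ≤ C ∧ (∀ h ∈ H, h ^ 2 = 1) ∧ x ^ 2 ∉ H} from
            ⟨hsup_le, hsq, hnot⟩) le_sup_left
        exact htE (this (Subgroup.mem_sup_right (Subgroup.mem_zpowers t)))
      obtain ⟨e, he, h | h⟩ := hmem _ hcin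
      · exact absurd (by rw [h]; exact he) hcE
      · refine ⟨e⁻¹, E.inv_mem he, Or.inr ?_⟩
        rw [h]; group
  have hcC : x ^ 2 ∈ C := by
    rw [memC]
    refine ⟨by group, ?_⟩
    rw [← hy2]; group
  refine ⟨Q, E, oddPart C hCab, ?_, ?_, ?_, ?_, ?_, ?_, ?_⟩
  · rw [hQ]; exact Cfsg.Agent.Helper23.quat_closure x y hox hyy hyx
  · exact ⟨⟨⟨fun a b => Subtype.ext (hCab a (hEC a.2) b (hEC b.2))⟩⟩, hE2⟩
  · exact ⟨⟨fun a b => Subtype.ext (hCab a a.2.1 b b.2.1)⟩⟩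
  · rw [← Nat.not_even_iff_odd]
    intro heven
    haveI : Fact (Nat.Prime 2) := ⟨Nat.prime_two⟩
    obtain ⟨a, ha⟩ := exists_prime_orderOf_dvd_card' 2 heven.two_dvd
    have h1 : Odd (orderOf (a : G)) := a.2.2
    rw [Subgroup.orderOf_coe, ha] at h1
    exact absurd h1 (by decide)
  · rw [eq_bot_iff]
    intro g hg
    obtain ⟨hgE, hgA⟩ := Subgroup.mem_inf.mp hg
    rw [Subgroup.mem_bot]
    exact eq_one_of_sq_of_odd g (hE2 g hgE) hgA.2
  · rw [eq_bot_iff]
    intro q hq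
    obtain ⟨hqQ, hqEA⟩ := Subgroup.mem_inf.mp hq
    rw [Subgroup.mem_bot]
    haveI := hn (oddPart C hCab)
    rw [← SetLike.mem_coe, Subgroup.mul_normal] at hqEA
    obtain ⟨e, he, a, ha, rfl⟩ := Set.mem_mul.mp hqEA
    have hqC : e * a ∈ C := C.mul_mem (hEC he) ha.1
    rw [hQ, ← hFrange] at hqQ
    obtain ⟨q', hq'⟩ := hqQ
    obtain ⟨hc1, hc2⟩ := (memC _).mp hqC
    have hq1 : q' * QuaternionGroup.a 1 = QuaternionGroup.a 1 * q' := by
      apply hFinj
      rw [map_mul, map_mul, hF1, hq']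
      calc e * a * x = (e * a * x * (e * a)⁻¹) * (e * a) := by group
        _ = x * (e * a) := by rw [hc1]
    have hq2 : q' * QuaternionGroup.xa 0 = QuaternionGroup.xa 0 * q' := by
      apply hFinj
      rw [map_mul, map_mul, hF2, hq']
      calc e * a * y = (e * a * y * (e * a)⁻¹) * (e * a) := by group
        _ = y * (e * a) := by rw [hc2]
    rcases Cfsg.Agent.Helper23.quat_center_cases q' hq1 hq2 with h | h
    · rw [← hq', h, map_one]
    · exfalso
      have hea : e * a = x ^ 2 := by rw [← hq', h, map_mul, hF1, pow_two]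
      have hcomm : Commute e a := hCab e (hEC he) a ha.1
      have ha2 : a ^ 2 = 1 := by
        have : (e * a) ^ 2 = 1 := by rw [hea, ← pow_mul]; exact hx4
        rw [hcomm.mul_pow, hE2 e he, one_mul] at this
        exact this
      have ha1 : a = 1 := eq_one_of_sq_of_odd a ha2 ha.2
      rw [ha1, mul_one] at hea
      exact hcE (by rw [← hea]; exact he)
  · rw [eq_top_iff]
    intro g _
    obtain ⟨q, hq, hqg⟩ := hQC g
    have hg : g = q⁻¹ * (q * g) := by group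
    rw [hg]
    apply Subgroup.mul_mem _ (Subgroup.mem_sup_left (Q.inv_mem hq))
    obtain ⟨h, hh⟩ : ∃ h, h = q * g := ⟨_, rfl⟩
    rw [← hh] at hqg ⊢
    obtain ⟨k, m, hm, hkm⟩ := Nat.exists_eq_two_pow_mul_odd (orderOf_pos h).ne'
    have hk : k ≤ 1 := by
      by_contra hk
      push Not at hk
      apply hno4 (h ^ (2 ^ (k - 2) * m)) (C.pow_mem hqg _)
      rw [orderOf_pow_of_dvd, hkm]
      · have : 2 ^ k * m = 4 * (2 ^ (k - 2) * m) := by
          obtain ⟨k', rfl⟩ : ∃ k', k = k' + 2 := ⟨k - 2, by omega⟩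
          simp only [Nat.add_sub_cancel]; ring
        rw [this]
        exact Nat.mul_div_cancel _ (Nat.mul_pos (by positivity) hm.pos)
      · exact mul_ne_zero (by positivity) hm.pos.ne'
      · rw [hkm]; exact Nat.mul_dvd_mul (pow_dvd_pow 2 (by omega)) dvd_rfl
    have h2m : h ^ (2 * m) = 1 := by
      apply orderOf_dvd_iff_pow_eq_one.mp
      rw [hkm]
      refine Nat.mul_dvd_mul ?_ dvd_rfl
      interval_cases k
      · norm_num
      · norm_num
    have hT1 : h ^ m ∈ Q ⊔ (E ⊔ oddPart C hCab) := by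
      obtain ⟨e, he, h' | h'⟩ := hT (h ^ m) (C.pow_mem hqg m)
        (by rw [← pow_mul, mul_comm]; exact h2m)
      · rw [h']; exact Subgroup.mem_sup_right (Subgroup.mem_sup_left he)
      · rw [h']
        exact Subgroup.mul_mem _ (Subgroup.mem_sup_right (Subgroup.mem_sup_left he))
          (Subgroup.mem_sup_left (Q.pow_mem hxQ 2))
    have hA1 : (h ^ (m - 1))⁻¹ ∈ Q ⊔ (E ⊔ oddPart C hCab) := by
      apply Subgroup.mem_sup_right
      apply Subgroup.mem_sup_right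
      apply Subgroup.inv_mem
      refine ⟨C.pow_mem hqg _, ?_⟩
      apply Odd.of_dvd_nat hm
      apply orderOf_dvd_of_pow_eq_one
      obtain ⟨s, hs⟩ := hm
      rw [← pow_mul, hs]
      have : (2 * s + 1 - 1) * (2 * s + 1) = (2 * (2 * s + 1)) * s := by
        simp only [Nat.add_sub_cancel]; ring
      rw [this, pow_mul, ← hs, h2m, one_pow]
    have : h = h ^ m * (h ^ (m - 1))⁻¹ := by
      obtain ⟨s, hs⟩ := hm
      rw [hs]; simp only [Nat.add_sub_cancel]
      rw [pow_succ]; group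
    rw [this]
    exact Subgroup.mul_mem _ hT1 hA1

end Cfsg.Agent.S4211
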