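import Mathlib
import Cfsg.Statements.S4216

set_option autoImplicit false
open Cfsg

namespace Cfsg.Agent.S4216

open scoped Pointwise IsMulCommutative commutatorElement

set_option maxHeartbeats 1600000 in
/-- The transfer computation behind Grün's first theorem, for an abstract `D`. -/
theorem key {G : Type*} [Group G] [Finite G] {p : ℕ} [Fact p.Prime] (P : Sylow p G)
    (D : Subgroup G) (hDP : D ≤ P)
    (hcomm : ⁅(P : Subgroup G), (P : Subgroup G)⁆ ≤ D)
    (hN : ∀ u ∈ (P : Subgroup G), ∀ x ∈ Subgroup.normalizer ((P : Subgroup G) : Set G),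
      u⁻¹ * (x⁻¹ * u * x) ∈ D)
    (hconj : ∀ (x : G), ∀ t ∈ ⁅(P : Subgroup G), (P : Subgroup G)⁆,
      x⁻¹ * t * x ∈ (P : Subgroup G) → x⁻¹ * t * x ∈ D) :
    ∀ (n : ℕ) (u : G), u ∈ (P : Subgroup G) → u ∈ commutator G → orderOf u = n → u ∈ D := by
  intro n
  induction n using Nat.strong_induction_on with
  | _ n ih =>
  intro u huP huG hn
  by_cases hu1 : u = 1
  · rw [hu1]; exact D.one_mem
  have hp : p.Prime := Fact.out
  obtain ⟨e, he⟩ : ∃ e, orderOf u = p ^ e := by
    obtain ⟨e, he⟩ := (IsPGroup.iff_orderOf.mp P.2) ⟨u, huP⟩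
    exact ⟨e, by rw [← he, Subgroup.orderOf_mk]⟩
  have he1 : 1 ≤ e := by
    rcases Nat.eq_zero_or_pos e with h | h
    · rw [h, pow_zero, orderOf_eq_one_iff] at he; exact absurd he hu1
    · exact h
  have ih' : ∀ v : G, v ∈ (P : Subgroup G) → v ∈ commutator G → orderOf v < orderOf u → v ∈ D :=
    fun v hvP hvG hlt => ih (orderOf v) (hn ▸ hlt) v hvP hvG rfl
  have hsmall : ∀ (x : G) (r : ℕ), p ∣ r → x⁻¹ * u ^ r * x ∈ (P : Subgroup G) →
      x⁻¹ * u ^ r * x ∈ D := by
    intro x r hr hmem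
    apply ih' _ hmem
    · have h1 : u ^ r ∈ commutator G := Subgroup.pow_mem _ huG r
      have h2 := (inferInstance : (commutator G).Normal).conj_mem _ h1 x⁻¹
      simpa using h2
    · have h1 : orderOf (x⁻¹ * u ^ r * x) = orderOf (u ^ r) := by
        have := orderOf_injective (MulAut.conj x⁻¹).toMonoidHom (MulAut.conj x⁻¹).injective (u ^ r)
        simpa using this
      rw [h1]
      obtain ⟨r', rfl⟩ := hr
      rw [pow_mul]
      calc orderOf ((u ^ p) ^ r') ≤ orderOf (u ^ p) :=
            Nat.le_of_dvd (orderOf_pos _) (orderOf_pow_dvd r')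
        _ = orderOf u / p :=
            orderOf_pow_of_dvd hp.ne_zero (by rw [he]; exact dvd_pow_self p (by omega))
        _ < orderOf u := Nat.div_lt_self (orderOf_pos u) hp.one_lt
  -- the abelian quotient `P / D`
  obtain ⟨DP, hDPdef⟩ : ∃ DP : Subgroup (P : Subgroup G), DP = D.subgroupOf P := ⟨_, rfl⟩
  have hmemDP : ∀ y : (P : Subgroup G), y ∈ DP ↔ (y : G) ∈ D := fun y => by
    rw [hDPdef, Subgroup.mem_subgroupOf]
  haveI hDPn : DP.Normal := ⟨fun n hn g => by
    rw [hmemDP] at hn ⊢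
    have h1 : ((g * n * g⁻¹ : (P : Subgroup G)) : G) = ⁅(g : G), (n : G)⁆ * n := by
      simp [commutatorElement_def]
    rw [h1]
    exact D.mul_mem (hcomm (Subgroup.commutator_mem_commutator g.2 n.2)) hn⟩
  haveI hcommQ : IsMulCommutative ((P : Subgroup G) ⧸ DP) := by
    apply Subgroup.Normal.quotient_commutative_iff_commutator_le.mpr
    intro y hy
    rw [hmemDP]
    apply hcomm
    rw [← Subgroup.map_subtype_commutator]
    exact Subgroup.mem_map_of_mem _ hy
  obtain ⟨ϕ, hϕdef⟩ : ∃ ϕ : (P : Subgroup G) →* (P : Subgroup G) ⧸ DP, ϕ = QuotientGroup.mk' DP :=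
    ⟨_, rfl⟩
  have hϕ : ∀ (a b : (P : Subgroup G)), (a : G)⁻¹ * b ∈ D → ϕ a = ϕ b := by
    intro a b hab
    rw [hϕdef]
    show (a : (P : Subgroup G) ⧸ DP) = b
    rw [QuotientGroup.eq, hmemDP]
    exact hab
  have hϕ1 : ∀ a : (P : Subgroup G), (a : G) ∈ D → ϕ a = 1 := fun a ha => by
    rw [hϕdef]; exact (QuotientGroup.eq_one_iff a).mpr ((hmemDP a).mpr ha)
  have hT1 : MonoidHom.transfer ϕ u = 1 :=
    MonoidHom.mem_ker.mp (Abelianization.commutator_subset_ker (MonoidHom.transfer ϕ) huG)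
  classical
  let _ : Fintype (G ⧸ (P : Subgroup G)) := Fintype.ofFinite _
  let _ : Fintype (Quotient (MulAction.orbitRel (Subgroup.zpowers u) (G ⧸ (P : Subgroup G)))) :=
    Fintype.ofFinite _
  let _ : Fintype (Quotient (MulAction.orbitRel (P : Subgroup G) (G ⧸ (P : Subgroup G)))) :=
    Fintype.ofFinite _
  have hform := MonoidHom.transfer_eq_prod_quotient_orbitRel_zpowers_quot ϕ u
  have hfixmem : ∀ (g : G) (c : G ⧸ (P : Subgroup G)), g • c = c →
      c.out⁻¹ * g * c.out ∈ (P : Subgroup G) := by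
    intro g c hc
    have h1 : ((g * c.out : G) : G ⧸ (P : Subgroup G)) = (c.out : G ⧸ (P : Subgroup G)) := by
      have : ((g * c.out : G) : G ⧸ (P : Subgroup G)) =
          g • ((c.out : G) : G ⧸ (P : Subgroup G)) := rfl
      rw [this, QuotientGroup.out_eq', hc]
    have h2 := QuotientGroup.eq.mp h1.symm
    simpa [mul_assoc] using h2
  obtain ⟨f, hf⟩ : ∃ f : G ⧸ (P : Subgroup G) → (P : Subgroup G) ⧸ DP, f = fun c =>
      if h : u • c = c then ϕ ⟨c.out⁻¹ * u * c.out, hfixmem u c h⟩ else 1 := ⟨_, rfl⟩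
  have hf_pos : ∀ (c : G ⧸ (P : Subgroup G)) (h : u • c = c),
      f c = ϕ ⟨c.out⁻¹ * u * c.out, hfixmem u c h⟩ := fun c h => by rw [hf]; exact dif_pos h
  have hf_neg : ∀ (c : G ⧸ (P : Subgroup G)), ¬ u • c = c → f c = 1 := fun c h => by
    rw [hf]; exact dif_neg h
  -- Step A
  have hA : ∀ q : Quotient (MulAction.orbitRel (Subgroup.zpowers u) (G ⧸ (P : Subgroup G))),
      ϕ ⟨q.out.out⁻¹ * u ^ Function.minimalPeriod (u • ·) q.out * q.out.out,
        QuotientGroup.out_conj_pow_minimalPeriod_mem (P : Subgroup G) u q.out⟩ = f q.out := by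
    intro q
    by_cases hc : u • q.out = q.out
    · have hper : Function.minimalPeriod (u • ·) q.out = 1 :=
        Function.minimalPeriod_eq_one_iff_isFixedPt.mpr hc
      rw [hf_pos _ hc]
      congr 1
      apply Subtype.ext
      simp [hper]
    · rw [hf_neg _ hc]
      apply hϕ1
      apply hsmall _ _ _ (QuotientGroup.out_conj_pow_minimalPeriod_mem (P : Subgroup G) u q.out)
      have hdvd : Function.minimalPeriod (u • ·) q.out ∣ p ^ e := by
        rw [← he]; exact MulAction.period_dvd_orderOf u q.out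
      obtain ⟨j, hj, hj2⟩ := (Nat.dvd_prime_pow hp).mp hdvd
      rcases Nat.eq_zero_or_pos j with h0 | h0
      · exfalso; apply hc
        rw [h0, pow_zero] at hj2
        exact Function.minimalPeriod_eq_one_iff_isFixedPt.mp hj2
      · rw [hj2]; exact dvd_pow_self p (by omega)
  -- Step B
  have hB : (∏ q : Quotient (MulAction.orbitRel (Subgroup.zpowers u) (G ⧸ (P : Subgroup G))),
      f q.out) = ∏ c : G ⧸ (P : Subgroup G), f c := by
    apply Fintype.prod_of_injective (fun q => q.out) Quotient.out_injective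
    · intro c hc
      by_contra hne
      apply hc
      have hfix : u • c = c := by
        by_contra h; exact hne (hf_neg c h)
      refine ⟨Quotient.mk'' c, ?_⟩
      have h1 : (Quotient.mk'' c :
          Quotient (MulAction.orbitRel (Subgroup.zpowers u) (G ⧸ (P : Subgroup G)))).out ∈
          MulAction.orbit (Subgroup.zpowers u) c :=
        MulAction.orbitRel_apply.mp (Quotient.mk_out (s := MulAction.orbitRel (Subgroup.zpowers u) (G ⧸ (P : Subgroup G))) c)
      obtain ⟨z, hz⟩ := h1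
      have hz2 : (z : G) • c = c := by
        have h2 : (z : G) ∈ MulAction.stabilizer G c :=
          (Subgroup.zpowers_le.mpr (MulAction.mem_stabilizer_iff.mpr hfix)) z.2
        exact MulAction.mem_stabilizer_iff.mp h2
      show (Quotient.mk'' c :
          Quotient (MulAction.orbitRel (Subgroup.zpowers u) (G ⧸ (P : Subgroup G)))).out = c
      rw [← hz]
      exact hz2
    · intro q; rfl
  -- P-orbits
  obtain ⟨π, hπ⟩ : ∃ π : G ⧸ (P : Subgroup G) →
      Quotient (MulAction.orbitRel (P : Subgroup G) (G ⧸ (P : Subgroup G))), π = Quotient.mk'' :=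
    ⟨_, rfl⟩
  have hπeq : ∀ c c' : G ⧸ (P : Subgroup G), π c = π c' → ∃ a : (P : Subgroup G), a • c' = c := by
    intro c c' h
    rw [hπ] at h
    exact MulAction.orbitRel_apply.mp (Quotient.exact h)
  have hπout : ∀ O, π (Quotient.out O) = O := fun O => by rw [hπ]; exact Quotient.out_eq O
  have hC : ∏ c : G ⧸ (P : Subgroup G), f c =
      ∏ O, ∏ c ∈ Finset.univ.filter (fun c => π c = O), f c :=
    (Finset.prod_fiberwise _ _ _).symm
  -- C1 : equal values on `u`-fixed points of one `P`-orbit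
  have hC1 : ∀ c c' : G ⧸ (P : Subgroup G), u • c = c → u • c' = c' →
      (∃ a : (P : Subgroup G), a • c = c') → f c' = f c := by
    rintro c c' hc hc' ⟨a, ha⟩
    rw [hf_pos c hc, hf_pos c' hc']
    apply hϕ
    show (c'.out⁻¹ * u * c'.out)⁻¹ * (c.out⁻¹ * u * c.out) ∈ D
    obtain ⟨x, hx⟩ : ∃ x : G, x = c.out := ⟨_, rfl⟩
    obtain ⟨x', hx'⟩ : ∃ x' : G, x' = c'.out := ⟨_, rfl⟩
    rw [← hx, ← hx']
    have hw : x⁻¹ * u * x ∈ (P : Subgroup G) := hx ▸ hfixmem u c hc
    have hw' : x'⁻¹ * u * x' ∈ (P : Subgroup G) := hx' ▸ hfixmem u c' hc'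
    -- b := (a x)⁻¹ x' ∈ P
    have hb : ((a : G) * x)⁻¹ * x' ∈ (P : Subgroup G) := by
      rw [← QuotientGroup.eq]
      have h1 : (((a : G) * x : G) : G ⧸ (P : Subgroup G)) = a • ((x : G) : G ⧸ (P : Subgroup G)) :=
        rfl
      rw [h1, hx, hx', QuotientGroup.out_eq', QuotientGroup.out_eq', ha]
    obtain ⟨b, hbdef⟩ : ∃ b : G, b = ((a : G) * x)⁻¹ * x' := ⟨_, rfl⟩
    rw [← hbdef] at hb
    have hx'eq : x' = (a : G) * x * b := by rw [hbdef]; group
    -- y := x⁻¹ a⁻¹ u a x ∈ P
    have hy : x⁻¹ * ((a : G)⁻¹ * u * a) * x ∈ (P : Subgroup G) := by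
      have h1 : x⁻¹ * ((a : G)⁻¹ * u * a) * x = b * (x'⁻¹ * u * x') * b⁻¹ := by
        rw [hx'eq]; group
      rw [h1]
      exact Subgroup.mul_mem _ (Subgroup.mul_mem _ hb hw') (Subgroup.inv_mem _ hb)
    -- t := u⁻¹ a⁻¹ u a
    have ht : ⁅u⁻¹, (a : G)⁻¹⁆ ∈ ⁅(P : Subgroup G), (P : Subgroup G)⁆ :=
      Subgroup.commutator_mem_commutator (Subgroup.inv_mem _ huP) (Subgroup.inv_mem _ a.2)
    have ht2 : x⁻¹ * ⁅u⁻¹, (a : G)⁻¹⁆ * x ∈ D := by
      apply hconj x _ ht
      have h1 : x⁻¹ * ⁅u⁻¹, (a : G)⁻¹⁆ * x = (x⁻¹ * u * x)⁻¹ * (x⁻¹ * ((a : G)⁻¹ * u * a) * x) := by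
        rw [commutatorElement_def]; group
      rw [h1]
      exact Subgroup.mul_mem _ (Subgroup.inv_mem _ hw) hy
    have h3 : ⁅(x⁻¹ * ((a : G)⁻¹ * u * a) * x)⁻¹, b⁻¹⁆ ∈ D :=
      hcomm (Subgroup.commutator_mem_commutator (Subgroup.inv_mem _ hy) (Subgroup.inv_mem _ hb))
    have h4 : (x'⁻¹ * u * x')⁻¹ * (x⁻¹ * u * x) =
        (x⁻¹ * ⁅u⁻¹, (a : G)⁻¹⁆ * x * ⁅(x⁻¹ * ((a : G)⁻¹ * u * a) * x)⁻¹, b⁻¹⁆)⁻¹ := by
      rw [hx'eq, commutatorElement_def, commutatorElement_def]; group
    rw [h4]
    exact D.inv_mem (D.mul_mem ht2 h3)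
  -- C3 : p-th powers
  have hC3 : ∀ c : G ⧸ (P : Subgroup G), u • c = c → f c ^ p = 1 := by
    intro c hc
    rw [hf_pos c hc, ← map_pow]
    apply hϕ1
    have h1 : ((⟨c.out⁻¹ * u * c.out, hfixmem u c hc⟩ : (P : Subgroup G)) ^ p : (P : Subgroup G)).1
        = c.out⁻¹ * u ^ p * c.out := by
      have h := conj_pow (a := c.out⁻¹) (b := u) (i := p)
      rw [inv_inv] at h
      exact h
    rw [h1]
    apply hsmall _ _ (dvd_refl p)
    rw [← h1]
    exact Subtype.property _
  -- value on the fixed orbits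
  have hfixedval : ∀ O : Quotient (MulAction.orbitRel (P : Subgroup G) (G ⧸ (P : Subgroup G))),
      (∀ a : (P : Subgroup G), a • O.out = O.out) →
      ∏ c ∈ Finset.univ.filter (fun c => π c = O), f c = ϕ ⟨u, huP⟩ := by
    intro O hO
    have hfil : Finset.univ.filter (fun c => π c = O) = {O.out} := by
      ext c
      simp only [Finset.mem_filter, Finset.mem_univ, true_and, Finset.mem_singleton]
      constructor
      · intro h
        obtain ⟨a, ha⟩ := hπeq c O.out (by rw [h, hπout])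
        rw [← ha, hO a]
      · intro h; rw [h, hπout]
    rw [hfil, Finset.prod_singleton]
    have hu : u • O.out = O.out := hO ⟨u, huP⟩
    rw [hf_pos _ hu]
    symm
    apply hϕ
    show u⁻¹ * (O.out.out⁻¹ * u * O.out.out) ∈ D
    apply hN u huP
    have h1 : (O.out.out)⁻¹ ∈ Subgroup.normalizer ((P : Subgroup G) : Set G) := by
      apply Subgroup.mem_normalizer_fintype
      intro a ha
      have := hfixmem a O.out (hO ⟨a, ha⟩)
      rw [inv_inv]
      exact this
    simpa using Subgroup.inv_mem _ h1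
  -- value on the other orbits
  have hnonfixedval : ∀ O : Quotient (MulAction.orbitRel (P : Subgroup G) (G ⧸ (P : Subgroup G))),
      ¬ (∀ a : (P : Subgroup G), a • O.out = O.out) →
      ∏ c ∈ Finset.univ.filter (fun c => π c = O), f c = 1 := by
    intro O hO
    obtain ⟨S, hS⟩ : ∃ S : Finset (G ⧸ (P : Subgroup G)),
        S = Finset.univ.filter (fun c => π c = O ∧ u • c = c) := ⟨_, rfl⟩
    have hSmem : ∀ c, c ∈ S ↔ (π c = O ∧ u • c = c) := fun c => by
      rw [hS, Finset.mem_filter]; simp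
    have hsub : S ⊆ Finset.univ.filter (fun c => π c = O) := by
      intro c hc
      rw [hS, Finset.mem_filter] at hc
      exact Finset.mem_filter.mpr ⟨Finset.mem_univ _, hc.2.1⟩
    rw [← Finset.prod_subset hsub (fun c hc hcS => by
      apply hf_neg
      intro hfix
      apply hcS
      rw [hS, Finset.mem_filter]
      exact ⟨Finset.mem_univ _, (Finset.mem_filter.mp hc).2, hfix⟩)]
    rcases S.eq_empty_or_nonempty with hemp | ⟨c₁, hc₁⟩
    · rw [hemp, Finset.prod_empty]
    have hc₁' := hc₁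
    rw [hS, Finset.mem_filter] at hc₁'
    have hall : ∀ c ∈ S, f c = f c₁ := by
      intro c hc
      rw [hS, Finset.mem_filter] at hc
      apply hC1 c₁ c hc₁'.2.2 hc.2.2
      obtain ⟨a, ha⟩ := hπeq c c₁ (by rw [hc.2.1, hc₁'.2.1])
      exact ⟨a, ha⟩
    rw [Finset.prod_congr rfl hall, Finset.prod_const]
    -- p ∣ S.card
    have hdvd : p ∣ S.card := by
      obtain ⟨Z, hZ⟩ : ∃ Z : Subgroup (P : Subgroup G),
          Z = Subgroup.zpowers (⟨u, huP⟩ : (P : Subgroup G)) := ⟨_, rfl⟩
      have hZp : IsPGroup p Z := P.2.to_subgroup Z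
      have h1 := hZp.card_modEq_card_fixedPoints (MulAction.orbit (P : Subgroup G) O.out)
      obtain ⟨j, hj⟩ := P.2.card_orbit (O.out)
      have hj0 : j ≠ 0 := by
        intro h0
        rw [h0, pow_zero] at hj
        apply hO
        intro a
        have hsub := (Nat.card_eq_one_iff_unique.mp hj).1
        have h2 := @Subsingleton.elim _ hsub
          (⟨a • O.out, MulAction.mem_orbit _ a⟩ : MulAction.orbit (P : Subgroup G) O.out)
          ⟨O.out, MulAction.mem_orbit_self _⟩
        exact congrArg Subtype.val h2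
      have h3 : p ∣ Nat.card (MulAction.orbit (P : Subgroup G) O.out) := by
        rw [hj]; exact dvd_pow_self p hj0
      have h4 : Nat.card (MulAction.fixedPoints Z (MulAction.orbit (P : Subgroup G) O.out)) =
          S.card := by
        rw [← Nat.card_eq_finsetCard]
        refine Nat.card_congr
          { toFun := fun y => ⟨y.1.1, ?_⟩
            invFun := fun c => ⟨⟨c.1, ?_⟩, ?_⟩
            left_inv := fun y => rfl
            right_inv := fun c => rfl }
        · rw [hS, Finset.mem_filter]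
          refine ⟨Finset.mem_univ _, ?_, ?_⟩
          · obtain ⟨a, ha⟩ := y.1.2
            rw [hπ]
            have : (Quotient.mk'' y.1.1 : Quotient (MulAction.orbitRel (P : Subgroup G)
                (G ⧸ (P : Subgroup G)))) = Quotient.mk'' O.out :=
              Quotient.sound (MulAction.orbitRel_apply.mpr ⟨a, ha⟩)
            rw [this]
            exact Quotient.out_eq O
          · have h5 := y.2 ⟨⟨u, huP⟩, by rw [hZ]; exact Subgroup.mem_zpowers _⟩
            exact congrArg Subtype.val h5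
        · have hc := (hSmem c.1).mp c.2
          obtain ⟨a, ha⟩ := hπeq c.1 O.out (by rw [hc.1, hπout])
          exact ⟨a, ha⟩
        · intro z
          have hc := (hSmem c.1).mp c.2
          apply Subtype.ext
          show ((z : (P : Subgroup G)) : G) • c.1 = c.1
          have h6 : (⟨u, huP⟩ : (P : Subgroup G)) ∈ MulAction.stabilizer (P : Subgroup G) c.1 :=
            MulAction.mem_stabilizer_iff.mpr hc.2
          have hZle : Z ≤ MulAction.stabilizer (P : Subgroup G) c.1 := by
            rw [hZ]; exact Subgroup.zpowers_le.mpr h6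
          have h7 : (z : (P : Subgroup G)) ∈ MulAction.stabilizer (P : Subgroup G) c.1 :=
            hZle z.2
          exact MulAction.mem_stabilizer_iff.mp h7
      rw [← h4]
      exact (Nat.modEq_zero_iff_dvd.mp ((h1.symm.trans (Nat.modEq_zero_iff_dvd.mpr h3))))
    obtain ⟨k, hk⟩ := hdvd
    rw [hk, pow_mul, hC3 c₁ hc₁'.2.2, one_pow]
  -- assemble
  have htotal : MonoidHom.transfer ϕ u = ϕ ⟨u, huP⟩ ^
      (Finset.univ.filter (fun O : Quotient (MulAction.orbitRel (P : Subgroup G)
        (G ⧸ (P : Subgroup G))) => ∀ a : (P : Subgroup G), a • O.out = O.out)).card := by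
    rw [hform, Finset.prod_congr rfl (fun q _ => hA q), hB, hC]
    rw [Finset.prod_congr rfl (fun O _ => show
      ∏ c ∈ Finset.univ.filter (fun c => π c = O), f c =
        if (∀ a : (P : Subgroup G), a • O.out = O.out) then ϕ ⟨u, huP⟩ else 1 from by
          split_ifs with h
          · exact hfixedval O h
          · exact hnonfixedval O h)]
    rw [Finset.prod_ite, Finset.prod_const, Finset.prod_const_one, mul_one]
  -- the exponent is prime to p
  have hk : ¬ p ∣ (Finset.univ.filter (fun O : Quotient (MulAction.orbitRel (P : Subgroup G)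
        (G ⧸ (P : Subgroup G))) => ∀ a : (P : Subgroup G), a • O.out = O.out)).card := by
    have h1 := P.2.card_modEq_card_fixedPoints (G ⧸ (P : Subgroup G))
    have h2 : Nat.card (MulAction.fixedPoints (P : Subgroup G) (G ⧸ (P : Subgroup G))) =
        (Finset.univ.filter (fun O : Quotient (MulAction.orbitRel (P : Subgroup G)
        (G ⧸ (P : Subgroup G))) => ∀ a : (P : Subgroup G), a • O.out = O.out)).card := by
      rw [← Nat.card_eq_finsetCard]
      refine Nat.card_congr
        { toFun := fun c => ⟨π c.1, ?_⟩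
          invFun := fun O => ⟨O.1.out, ?_⟩
          left_inv := fun c => ?_
          right_inv := fun O => ?_ }
      · rw [Finset.mem_filter]
        refine ⟨Finset.mem_univ _, fun a => ?_⟩
        obtain ⟨b, hb⟩ := hπeq (π c.1).out c.1 (hπout _)
        have h3 : (π c.1).out = c.1 := by rw [← hb]; exact c.2 b
        rw [h3]; exact c.2 a
      · have := O.2
        rw [Finset.mem_filter] at this
        exact this.2
      · apply Subtype.ext
        obtain ⟨b, hb⟩ := hπeq (π c.1).out c.1 (hπout _)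
        show (π c.1).out = c.1
        rw [← hb]; exact c.2 b
      · apply Subtype.ext
        exact hπout _
    rw [← h2]
    intro hdvd
    have h3 : p ∣ Nat.card (G ⧸ (P : Subgroup G)) :=
      Nat.modEq_zero_iff_dvd.mp (h1.trans (Nat.modEq_zero_iff_dvd.mpr hdvd))
    exact P.not_dvd_index h3
  -- conclude
  rw [hT1] at htotal
  have hQp : IsPGroup p ((P : Subgroup G) ⧸ DP) := P.2.to_quotient DP
  have h5 : ϕ ⟨u, huP⟩ = 1 := by
    apply (hQp.powEquiv' hk).injective
    show ϕ ⟨u, huP⟩ ^ _ = 1 ^ _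
    rw [one_pow]; exact htotal.symm
  rw [hϕdef] at h5
  exact (hmemDP ⟨u, huP⟩).mp ((QuotientGroup.eq_one_iff _).mp h5)

/-- Grün's first Theorem: if `P` is a Sylow `p`-subgroup of the finite group `G`, then `P ∩ G'` is the subgroup generated by `P ∩ N_G(P)'` together with the subgroups `P ∩ z P' z⁻¹` for all `z ∈ G`, where `'` denotes the derived subgroup and `N_G(P)` the normalizer of `P`. -/
theorem result {G : Type*} [Group G] [Finite G] {p : ℕ} [Fact p.Prime] (P : Sylow p G) : (P : Subgroup G) ⊓ commutator G = ((P : Subgroup G) ⊓ ⁅Subgroup.normalizer ((P : Subgroup G) : Set G), Subgroup.normalizer ((P : Subgroup G) : Set G)⁆) ⊔ ⨆ z : G, (P : Subgroup G) ⊓ (⁅(P : Subgroup G), (P : Subgroup G)⁆).map (MulAut.conj z).toMonoidHom := by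
  obtain ⟨D, hD⟩ : ∃ D : Subgroup G, D = ((P : Subgroup G) ⊓ ⁅Subgroup.normalizer ((P : Subgroup G) : Set G), Subgroup.normalizer ((P : Subgroup G) : Set G)⁆) ⊔ ⨆ z : G, (P : Subgroup G) ⊓ (⁅(P : Subgroup G), (P : Subgroup G)⁆).map (MulAut.conj z).toMonoidHom := ⟨_, rfl⟩
  rw [← hD]
  have hPP : ⁅(P : Subgroup G), (P : Subgroup G)⁆ ≤ (P : Subgroup G) :=
    Subgroup.commutator_le.mpr (fun a ha b hb =>
      Subgroup.mul_mem _ (Subgroup.mul_mem _ (Subgroup.mul_mem _ ha hb) (Subgroup.inv_mem _ ha))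
        (Subgroup.inv_mem _ hb))
  have hterm : ∀ z : G, (P : Subgroup G) ⊓ (⁅(P : Subgroup G), (P : Subgroup G)⁆).map (MulAut.conj z).toMonoidHom ≤ D := by
    intro z
    rw [hD]
    exact le_sup_of_le_right (le_iSup (fun z : G => (P : Subgroup G) ⊓ (⁅(P : Subgroup G), (P : Subgroup G)⁆).map (MulAut.conj z).toMonoidHom) z)
  apply le_antisymm
  · intro u hu
    refine key P D ?_ ?_ ?_ ?_ _ u hu.1 hu.2 rfl
    · rw [hD]
      exact sup_le inf_le_left (iSup_le fun z => inf_le_left)
    · intro t ht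
      exact hterm 1 ⟨hPP ht, ⟨t, ht, by simp⟩⟩
    · intro u hu x hx
      rw [hD]
      apply Subgroup.mem_sup_left
      have hxinv : x⁻¹ ∈ Subgroup.normalizer ((P : Subgroup G) : Set G) := Subgroup.inv_mem _ hx
      have h1 : x⁻¹ * u * x ∈ (P : Subgroup G) := by
        have := (Subgroup.mem_normalizer_iff.mp hxinv u).mp hu
        simpa using this
      refine ⟨Subgroup.mul_mem _ (Subgroup.inv_mem _ hu) h1, ?_⟩
      have h2 : u⁻¹ * (x⁻¹ * u * x) = ⁅u⁻¹, x⁻¹⁆ := by
        rw [commutatorElement_def]; group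
      rw [h2]
      exact Subgroup.commutator_mem_commutator
        (Subgroup.inv_mem _ (Subgroup.le_normalizer hu)) hxinv
    · intro x t ht hmem
      exact hterm x⁻¹ ⟨hmem, ⟨t, ht, by simp [MulAut.conj_apply]⟩⟩
  · rw [hD]
    apply sup_le
    · exact inf_le_inf_left _ (Subgroup.commutator_mono le_top le_top)
    · apply iSup_le
      intro z
      apply inf_le_inf_left
      rintro _ ⟨t, ht, rfl⟩
      have h1 : t ∈ commutator G := (Subgroup.commutator_mono le_top le_top) ht
      have h2 := (inferInstance : (commutator G).Normal).conj_mem _ h1 z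
      simpa [MulAut.conj_apply] using h2

end Cfsg.Agent.S4216
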