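import Mathlib
import Cfsg.Statements.S4217

set_option autoImplicit false
open Cfsg

namespace Cfsg.Agent.S4217

open scoped IsMulCommutative

section
variable {G : Type*} [Group G] (A : Subgroup G) [hn : A.Normal]

/-- conjugation action of `G` on the normal subgroup `A` -/
def cj (g : G) : A →* A where
  toFun a := ⟨g * a * g⁻¹, hn.conj_mem a a.2 g⟩
  map_one' := by ext; simp
  map_mul' a b := by ext; simp [mul_assoc]

lemma cj_coe (g : G) (a : A) : ((cj A g a : A) : G) = g * a * g⁻¹ := rfl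

lemma cj_cj (g h : G) (a : A) : cj A g (cj A h a) = cj A (g * h) a := by
  apply Subtype.ext; simp [cj_coe, mul_assoc]

lemma cj_self [hA : IsMulCommutative A] (a b : A) : cj A (a : G) b = b := by
  apply Subtype.ext
  have h1 : a * b = b * a := mul_comm' a b
  have h2 : (a : G) * b = b * a := congrArg Subtype.val h1
  rw [cj_coe, h2, mul_inv_cancel_right]

/-- 1-cocycles `G → A` -/
def IsCoc (δ : G → A) : Prop := ∀ g g', δ (g * g') = δ g * cj A g (δ g')

/-- the exponents `n` such that some cocycle restricts to `a ↦ a ^ n` on `A` -/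
def E [hA : IsMulCommutative A] : AddSubgroup ℤ where
  carrier := {n | ∃ δ : G → A, IsCoc A δ ∧ ∀ a : A, δ a = a ^ n}
  zero_mem' := ⟨fun _ => 1, fun g g' => by simp, fun a => by simp⟩
  add_mem' := by
    rintro n m ⟨δ₁, h1, h1'⟩ ⟨δ₂, h2, h2'⟩
    refine ⟨fun g => δ₁ g * δ₂ g, fun g g' => ?_, fun a => ?_⟩
    · show δ₁ (g * g') * δ₂ (g * g') = δ₁ g * δ₂ g * cj A g (δ₁ g' * δ₂ g')
      rw [h1, h2, map_mul]
      exact mul_mul_mul_comm _ _ _ _
    · show δ₁ a * δ₂ a = a ^ (n + m)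
      rw [h1', h2', zpow_add]
  neg_mem' := by
    rintro n ⟨δ, h1, h1'⟩
    refine ⟨fun g => (δ g)⁻¹, fun g g' => ?_, fun a => ?_⟩
    · show (δ (g * g'))⁻¹ = (δ g)⁻¹ * cj A g (δ g')⁻¹
      rw [h1, mul_inv, map_inv]
    · show (δ a)⁻¹ = a ^ (-n)
      rw [h1', zpow_neg]

lemma exists_compl_of_one_mem [hA : IsMulCommutative A] (h : (1 : ℤ) ∈ E A) :
    ∃ K : Subgroup G, K.IsComplement' A := by
  obtain ⟨δ, hδ, hδA⟩ := h
  have hδA' : ∀ a : A, δ a = a := fun a => by rw [hδA, zpow_one]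
  have h1 : δ 1 = 1 := by
    have := hδA' 1
    simpa using this
  let K : Subgroup G :=
    { carrier := {g | δ g = 1}
      one_mem' := h1
      mul_mem' := by
        intro a b ha hb
        show δ (a * b) = 1
        rw [hδ, show δ a = 1 from ha, show δ b = 1 from hb]; simp
      inv_mem' := by
        intro a ha
        show δ a⁻¹ = 1
        have h2 := hδ a⁻¹ a
        rw [inv_mul_cancel, h1, show δ a = 1 from ha, map_one, mul_one] at h2
        exact h2.symm }
  refine ⟨K, (Subgroup.isComplement'_of_disjoint_and_mul_eq_univ ?_ ?_).symm⟩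
  · rw [Subgroup.disjoint_def]
    intro x hxA hxK
    have h2 : δ x = 1 := hxK
    have h3 := hδA' ⟨x, hxA⟩
    rw [h2] at h3
    have := congrArg Subtype.val h3
    simpa using this.symm
  · rw [Set.eq_univ_iff_forall]
    intro g
    refine ⟨(δ g : G), (δ g).2, ((δ g : G))⁻¹ * g, ?_, by simp⟩
    show δ (((δ g : G))⁻¹ * g) = 1
    have h4 : ((δ g : G))⁻¹ = (((δ g)⁻¹ : A) : G) := rfl
    rw [h4, hδ, hδA', cj_self]
    simp

lemma index_mem [Finite G] [hA : IsMulCommutative A] (K H : Subgroup G) (hKA : K ⊓ A = ⊥)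
    (hsup : K ⊔ A = H) : (H.index : ℤ) ∈ E A := by
  classical
  let _ : Fintype (G ⧸ H) := Fintype.ofFinite _
  have hAH : A ≤ H := hsup ▸ le_sup_right
  -- the projection onto `A`
  have huniq : ∀ (a a' : A) (k k' : G), k ∈ K → k' ∈ K → (a : G) * k = a' * k' → a = a' := by
    intro a a' k k' hk hk' h
    have h1 : (a' : G)⁻¹ * a = k' * k⁻¹ := by
      rw [inv_mul_eq_iff_eq_mul, ← mul_assoc, ← h, mul_inv_cancel_right]
    have h2 : (a' : G)⁻¹ * a ∈ K ⊓ A :=
      ⟨h1 ▸ K.mul_mem hk' (K.inv_mem hk), A.mul_mem (A.inv_mem a'.2) a.2⟩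
    rw [hKA, Subgroup.mem_bot, inv_mul_eq_one] at h2
    exact (Subtype.ext h2).symm
  obtain ⟨ρ, hρ⟩ : ∃ ρ : G → A, ∀ (a : A) (k : G), k ∈ K → ρ (a * k) = a := by
    refine ⟨fun x => if h : ∃ a : A, ∃ k ∈ K, x = a * k then h.choose else 1, ?_⟩
    intro a k hk
    have h : ∃ a' : A, ∃ k' ∈ K, (a : G) * k = a' * k' := ⟨a, k, hk, rfl⟩
    show (if h : ∃ a' : A, ∃ k' ∈ K, (a : G) * k = a' * k' then h.choose else 1) = a
    rw [dif_pos h]
    obtain ⟨k', hk', h2⟩ := h.choose_spec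
    exact (huniq _ _ _ _ hk hk' h2).symm
  have hdec : ∀ x ∈ H, ∃ a : A, ∃ k ∈ K, x = a * k := by
    intro x hx
    rw [← hsup, ← SetLike.mem_coe, Subgroup.mul_normal] at hx
    obtain ⟨k, hk, a, ha, rfl⟩ := hx
    exact ⟨cj A k ⟨a, ha⟩, k, hk, by simp [cj_coe]⟩
  have hρA : ∀ a : A, ρ a = a := fun a => by simpa using hρ a 1 K.one_mem
  have hρmul : ∀ x ∈ H, ∀ y ∈ H, ρ (x * y) = ρ x * cj A x (ρ y) := by
    intro x hx y hy
    obtain ⟨a, k, hk, rfl⟩ := hdec x hx
    obtain ⟨a', k', hk', rfl⟩ := hdec y hy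
    have h1 : (a : G) * k * (a' * k') = ((a * cj A k a' : A) : G) * (k * k') := by
      simp [cj_coe, mul_assoc]
    rw [h1, hρ _ _ (K.mul_mem hk hk'), hρ _ _ hk, hρ _ _ hk', ← cj_cj, cj_self]
  -- membership of the "transition elements" in `H`
  have hmem : ∀ (g : G) (c : G ⧸ H), (c.out)⁻¹ * g * (g⁻¹ • c).out ∈ H := by
    intro g c
    rw [mul_assoc, ← QuotientGroup.eq]
    have h1 : ((g * (g⁻¹ • c).out : G) : G ⧸ H) = g • ((g⁻¹ • c).out : G ⧸ H) := rfl
    rw [h1, QuotientGroup.out_eq', QuotientGroup.out_eq', smul_inv_smul]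
  let δ : G → A := fun g => ∏ c : G ⧸ H, cj A c.out (ρ ((c.out)⁻¹ * g * (g⁻¹ • c).out))
  refine ⟨δ, ?_, ?_⟩
  · intro g g'
    show (∏ c : G ⧸ H, cj A c.out (ρ ((c.out)⁻¹ * (g * g') * ((g * g')⁻¹ • c).out))) =
      (∏ c : G ⧸ H, cj A c.out (ρ ((c.out)⁻¹ * g * (g⁻¹ • c).out))) *
        cj A g (∏ c : G ⧸ H, cj A c.out (ρ ((c.out)⁻¹ * g' * (g'⁻¹ • c).out)))
    rw [map_prod, ← Equiv.prod_comp (MulAction.toPerm (g⁻¹ : G))
      (fun c : G ⧸ H => cj A g (cj A c.out (ρ ((c.out)⁻¹ * g' * (g'⁻¹ • c).out)))),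
      ← Finset.prod_mul_distrib]
    refine Finset.prod_congr rfl fun c _ => ?_
    simp only [MulAction.toPerm_apply]
    have h1 : (c.out)⁻¹ * (g * g') * ((g * g')⁻¹ • c).out =
        ((c.out)⁻¹ * g * (g⁻¹ • c).out) *
          (((g⁻¹ • c).out)⁻¹ * g' * (g'⁻¹ • (g⁻¹ • c)).out) := by
      rw [mul_inv_rev, mul_smul]; group
    have h2 : c.out * ((c.out)⁻¹ * g * (g⁻¹ • c).out) = g * (g⁻¹ • c).out := by group
    rw [h1, hρmul _ (hmem g c) _ (hmem g' _), map_mul, cj_cj, cj_cj, h2]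
  · intro a
    show (∏ c : G ⧸ H, cj A c.out (ρ ((c.out)⁻¹ * (a : G) * (((a : G))⁻¹ • c).out))) = a ^ (H.index : ℤ)
    have hfix : ∀ c : G ⧸ H, ((a : G))⁻¹ • c = c := by
      intro c
      induction c using QuotientGroup.induction_on with
      | H x =>
        show ((((a : G))⁻¹ * x : G) : G ⧸ H) = (x : G ⧸ H)
        rw [QuotientGroup.eq]
        have : (((a : G))⁻¹ * x)⁻¹ * x = x⁻¹ * a * x⁻¹⁻¹ := by group
        rw [this]
        exact hAH (hn.conj_mem _ a.2 _)
    have hterm : ∀ c : G ⧸ H, cj A c.out (ρ ((c.out)⁻¹ * (a : G) * (((a : G))⁻¹ • c).out)) = a := by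
      intro c
      rw [hfix c]
      have h1 : (c.out)⁻¹ * (a : G) * c.out = ((cj A (c.out)⁻¹ a : A) : G) := by
        simp [cj_coe]
      rw [h1, hρA, cj_cj, mul_inv_cancel]
      apply Subtype.ext; simp [cj_coe]
    rw [Finset.prod_congr rfl fun c _ => hterm c, Finset.prod_const, Finset.card_univ,
      zpow_natCast, Subgroup.index, Nat.card_eq_fintype_card]

end

/-- Let `A` be an abelian normal subgroup of the finite group `G`. Then `A` has a complement in `G` if and only if, for every prime `p` dividing the index of `A`, there are a Sylow `p`-subgroup `S` of `G/A` and a subgroup `K` of `G` with `K ∩ A = 1` and `KA` equal to the preimage of `S` (that is, `A` has a complement in the preimage of a Sylow `p`-subgroup of `G/A`). -/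
theorem result {G : Type*} [Group G] [Finite G] (A : Subgroup G) [A.Normal] (hA : IsMulCommutative A) : (∃ K : Subgroup G, K.IsComplement' A) ↔ ∀ p : ℕ, p.Prime → p ∣ A.index → ∃ (S : Sylow p (G ⧸ A)) (K : Subgroup G), K ⊓ A = ⊥ ∧ K ⊔ A = (S : Subgroup (G ⧸ A)).comap (QuotientGroup.mk' A) := by
  constructor
  · rintro ⟨K, hK⟩ p hp _
    haveI : Fact p.Prime := ⟨hp⟩
    obtain ⟨S⟩ : Nonempty (Sylow p (G ⧸ A)) := inferInstance
    have hAH : A ≤ (S : Subgroup (G ⧸ A)).comap (QuotientGroup.mk' A) := by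
      intro a ha
      rw [Subgroup.mem_comap]
      have : (QuotientGroup.mk' A) a = 1 := (QuotientGroup.eq_one_iff a).mpr ha
      rw [this]; exact Subgroup.one_mem _
    refine ⟨S, K ⊓ (S : Subgroup (G ⧸ A)).comap (QuotientGroup.mk' A), ?_, ?_⟩
    · have := hK.disjoint.eq_bot
      rw [eq_bot_iff] at this ⊢
      exact le_trans (inf_le_inf_right _ inf_le_left) this
    · apply le_antisymm (sup_le inf_le_right hAH)
      intro x hx
      have hx' : x ∈ K ⊔ A := by rw [hK.sup_eq_top]; trivial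
      rw [← SetLike.mem_coe, Subgroup.mul_normal] at hx'
      obtain ⟨k, hk, a, ha, rfl⟩ := hx'
      have hk' : k ∈ (S : Subgroup (G ⧸ A)).comap (QuotientGroup.mk' A) := by
        have := Subgroup.mul_mem _ hx (Subgroup.inv_mem _ (hAH ha))
        simpa using this
      exact Subgroup.mul_mem _ (Subgroup.mem_sup_left ⟨hk, hk'⟩) (Subgroup.mem_sup_right ha)
  · intro h
    apply exists_compl_of_one_mem
    -- the order of `A` lies in `E`
    have hcard : (Nat.card A : ℤ) ∈ E A :=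
      ⟨fun _ => 1, fun g g' => by simp, fun a => by rw [zpow_natCast, pow_card_eq_one']⟩
    have hq : ∀ q : ℕ, q.Prime → ∃ n ∈ E A, ¬ (q : ℤ) ∣ n := by
      intro q hq
      haveI : Fact q.Prime := ⟨hq⟩
      by_cases hqA : q ∣ A.index
      · obtain ⟨S, K, hKA, hsup⟩ := h q hq hqA
        refine ⟨_, index_mem A K _ hKA hsup, ?_⟩
        rw [Subgroup.index_comap_of_surjective _ (QuotientGroup.mk'_surjective A), Int.natCast_dvd_natCast]
        exact S.not_dvd_index
      · refine ⟨_, index_mem A ⊥ A (bot_inf_eq A) (bot_sup_eq A), ?_⟩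
        rwa [Int.natCast_dvd_natCast]
    obtain ⟨d, hd⟩ := Int.subgroup_cyclic (E A)
    have hdE : d ∈ E A := by rw [hd]; exact AddSubgroup.subset_closure rfl
    have hdvd : ∀ n ∈ E A, d ∣ n := by
      intro n hn
      rw [hd, AddSubgroup.mem_closure_singleton] at hn
      obtain ⟨k, rfl⟩ := hn
      exact ⟨k, by rw [smul_eq_mul, mul_comm]⟩
    by_cases h1 : d.natAbs = 1
    · rcases Int.natAbs_eq d with h2 | h2
      · rw [h1] at h2; rw [← show d = 1 from by simpa using h2]; exact hdE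
      · rw [h1] at h2
        have : (1 : ℤ) = -d := by rw [h2]; simp
        rw [this]; exact (E A).neg_mem hdE
    · exfalso
      obtain ⟨q, hqp, hqd⟩ := Nat.exists_prime_and_dvd h1
      obtain ⟨n, hn, hqn⟩ := hq q hqp
      apply hqn
      exact dvd_trans (Int.natCast_dvd.mpr hqd) (hdvd n hn)

end Cfsg.Agent.S4217
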