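import Cfsg.Statements.S4219

set_option autoImplicit false
open Cfsg
open scoped Pointwise

namespace Cfsg.Agent.S4219

/-- two subgroups of `K` of full `p`-power order are conjugate in `K`. -/
theorem sylow_conj {G : Type*} [Group G] [Finite G] {p : ℕ} [Fact p.Prime] (K Q Q' : Subgroup G)
    (hQ : Q ≤ K) (hQ' : Q' ≤ K)
    (hc : Nat.card Q = p ^ (Nat.card K).factorization p)
    (hc' : Nat.card Q' = p ^ (Nat.card K).factorization p) :
    ∃ h ∈ K, ∀ y, y ∈ Q' ↔ h⁻¹ * y * h ∈ Q := by
  have e : Nat.card (Q.subgroupOf K) = p ^ (Nat.card K).factorization p := by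
    rw [← hc]; exact Nat.card_congr (Subgroup.subgroupOfEquivOfLe hQ).toEquiv
  have e' : Nat.card (Q'.subgroupOf K) = p ^ (Nat.card K).factorization p := by
    rw [← hc']; exact Nat.card_congr (Subgroup.subgroupOfEquivOfLe hQ').toEquiv
  obtain ⟨h, hh⟩ := MulAction.exists_smul_eq K (Sylow.ofCard (Q.subgroupOf K) e) (Sylow.ofCard (Q'.subgroupOf K) e')
  have hh2 : ∀ y : K, y ∈ Q'.subgroupOf K ↔ h⁻¹ * y * h ∈ Q.subgroupOf K := by
    intro y
    have h1 : y ∈ ((Sylow.ofCard (Q'.subgroupOf K) e' : Sylow p K) : Subgroup K) ↔ y ∈ Q'.subgroupOf K := Iff.rfl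
    rw [← h1, ← hh, Sylow.coe_subgroup_smul, Subgroup.mem_pointwise_smul_iff_inv_smul_mem]
    simp [MulAut.smul_def, mul_assoc]
  refine ⟨h, h.2, ?_⟩
  intro y
  constructor
  · intro hy
    have := (hh2 ⟨y, hQ' hy⟩).mp (by rw [Subgroup.mem_subgroupOf]; exact hy)
    rw [Subgroup.mem_subgroupOf] at this
    simpa using this
  · intro hy
    have hyK : y ∈ K := by
      have h1 : (h : G)⁻¹ * y * (h : G) ∈ K := hQ hy
      have h2 := K.mul_mem (K.mul_mem h.2 h1) (K.inv_mem h.2)
      have e3 : (h : G) * ((h : G)⁻¹ * y * h) * (h : G)⁻¹ = y := by group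
      rwa [e3] at h2
    have := (hh2 ⟨y, hyK⟩).mpr (by rw [Subgroup.mem_subgroupOf]; simpa using hy)
    rw [Subgroup.mem_subgroupOf] at this
    exact this

theorem result {G : Type*} [Group G] [Finite G] {α : Type*} [Fintype α] [MulAction G α] {t : ℕ} (hG : MulAction.IsMultiplyPretransitive G α t) (x : Fin t ↪ α) {p : ℕ} [Fact p.Prime] (P : Sylow p (MulAction.stabilizer G x)) (a b : Fin t ↪ α) (ha : ∀ i, a i ∈ MulAction.fixedPoints ((P : Subgroup (MulAction.stabilizer G x)).map (MulAction.stabilizer G x).subtype) α) (hb : ∀ i, b i ∈ MulAction.fixedPoints ((P : Subgroup (MulAction.stabilizer G x)).map (MulAction.stabilizer G x).subtype) α) : ∃ g ∈ Subgroup.normalizer ((((P : Subgroup (MulAction.stabilizer G x)).map (MulAction.stabilizer G x).subtype) : Subgroup G) : Set G), g • a = b := by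
  classical
  have htr : MulAction.IsPretransitive G (Fin t ↪ α) := hG
  set Q : Subgroup G := (P : Subgroup (MulAction.stabilizer G x)).map (MulAction.stabilizer G x).subtype with hQ
  have hQcard : Nat.card Q = p ^ (Nat.card (MulAction.stabilizer G x)).factorization p := by
    rw [hQ, Subgroup.card_map_of_injective (Subgroup.subtype_injective _)]
    exact P.card_eq_multiplicity
  -- stabilizers of embeddings all have the same order
  have hcard : ∀ c : Fin t ↪ α, Nat.card (MulAction.stabilizer G c) = Nat.card (MulAction.stabilizer G x) := by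
    intro c
    obtain ⟨g, hg⟩ := MulAction.exists_smul_eq G x c
    rw [← hg, MulAction.stabilizer_smul_eq_stabilizer_map_conj]
    exact Subgroup.card_map_of_injective (MulAut.conj g).injective
  -- Q fixes the tuples a and b
  have hQle : ∀ c : Fin t ↪ α, (∀ i, c i ∈ MulAction.fixedPoints Q α) → Q ≤ MulAction.stabilizer G c := by
    intro c hc q hq
    rw [MulAction.mem_stabilizer_iff]
    ext i
    rw [Function.Embedding.smul_apply]
    exact hc i ⟨q, hq⟩
  obtain ⟨g₁, hg₁⟩ := MulAction.exists_smul_eq G a b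
  set Q₁ : Subgroup G := Q.map (MulAut.conj g₁).toMonoidHom with hQ₁
  have hQ₁le : Q₁ ≤ MulAction.stabilizer G b := by
    rw [← hg₁, MulAction.stabilizer_smul_eq_stabilizer_map_conj]
    exact Subgroup.map_mono (hQle a ha)
  have hQ₁card : Nat.card Q₁ = p ^ (Nat.card (MulAction.stabilizer G b)).factorization p := by
    rw [hQ₁, Subgroup.card_map_of_injective (MulAut.conj g₁).injective, hcard b, hQcard]
  have hQcard' : Nat.card Q = p ^ (Nat.card (MulAction.stabilizer G b)).factorization p := by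
    rw [hcard b, hQcard]
  obtain ⟨h, hh, hconj⟩ := sylow_conj (MulAction.stabilizer G b) Q₁ Q hQ₁le (hQle b hb) hQ₁card hQcard'
  have key : ∀ y, y ∈ Q ↔ (h * g₁)⁻¹ * y * (h * g₁) ∈ Q := by
    intro y
    rw [hconj y, hQ₁, Subgroup.mem_map_equiv]
    have e : (MulAut.conj g₁).symm (h⁻¹ * y * h) = (h * g₁)⁻¹ * y * (h * g₁) := by
      simp [MulAut.conj_symm_apply, mul_assoc]
    rw [e]
  refine ⟨h * g₁, ?_, ?_⟩
  · rw [Subgroup.mem_normalizer_iff]
    intro y
    have := key (h * g₁ * y * (h * g₁)⁻¹)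
    have e : (h * g₁)⁻¹ * (h * g₁ * y * (h * g₁)⁻¹) * (h * g₁) = y := by group
    rw [e] at this
    exact this.symm
  · rw [mul_smul, hg₁]
    exact MulAction.mem_stabilizer_iff.mp hh

end Cfsg.Agent.S4219
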