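import Cfsg.Statements.S4223
import Mathlib

set_option autoImplicit false
open Cfsg

namespace Cfsg.Agent.S4223

universe u v w

/-- Normal endomorphism. -/
def NEndo {A : Type u} [Group A] (f : A →* A) : Prop :=
  ∀ a x, f (a * x * a⁻¹) = a * f x * a⁻¹

/-- Directly indecomposable. -/
def Indec (A : Type u) [Group A] : Prop :=
  ∀ H K : Subgroup A, H.Normal → K.Normal → H ⊓ K = ⊥ → H ⊔ K = ⊤ → H = ⊥ ∨ K = ⊥

theorem exists_idem {α : Type u} [Finite α] (f : α → α) :
    ∃ k, 0 < k ∧ ∀ x, f^[k] (f^[k] x) = f^[k] x := by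
  classical
  obtain ⟨i, j, hij, heq⟩ := Finite.exists_ne_map_eq_of_infinite (fun k : ℕ => f^[k])
  wlog hlt : i < j generalizing i j
  · exact this j i (Ne.symm hij) heq.symm (lt_of_le_of_ne (not_lt.mp hlt) (Ne.symm hij))
  obtain ⟨d, rfl⟩ : ∃ d, j = i + d := ⟨j - i, by omega⟩
  have hd : 0 < d := by omega
  have heq' : f^[i] = f^[i + d] := heq
  have h1 : ∀ t, i ≤ t → f^[t + d] = f^[t] := by
    intro t ht
    obtain ⟨s, rfl⟩ : ∃ s, t = s + i := ⟨t - i, by omega⟩
    rw [add_assoc, Function.iterate_add f s (i + d), ← heq', ← Function.iterate_add]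
  have h2 : ∀ c t, i ≤ t → f^[t + c * d] = f^[t] := by
    intro c
    induction c with
    | zero => intro t _; simp
    | succ c ih =>
      intro t ht
      have : t + (c + 1) * d = (t + c * d) + d := by ring
      rw [this, h1 _ (le_trans ht (Nat.le_add_right _ _)), ih t ht]
  have hk : i ≤ i * d + d := le_trans (Nat.le_mul_of_pos_right i hd) (Nat.le_add_right _ _)
  refine ⟨i * d + d, by omega, fun x => ?_⟩
  have h4 := h2 (i + 1) (i * d + d) hk
  have h3 : i * d + d + (i + 1) * d = (i * d + d) + (i * d + d) := by ring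
  rw [h3, Function.iterate_add] at h4
  exact congrFun h4 x

theorem nendo_iterate {A : Type u} [Group A] {f : A →* A} (hf : NEndo f) (k : ℕ) :
    ∀ a x, (f : A → A)^[k] (a * x * a⁻¹) = a * (f : A → A)^[k] x * a⁻¹ := by
  induction k with
  | zero => intro a x; rfl
  | succ k ih =>
    intro a x
    rw [Function.iterate_succ_apply, Function.iterate_succ_apply, hf a x, ih]

/-- the `k`-th iterate as a hom -/
def iterHom {A : Type u} [Group A] (f : A →* A) (k : ℕ) : A →* A where
  toFun := (f : A → A)^[k]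
  map_one' := iterate_map_one f k
  map_mul' := iterate_map_mul f k

theorem fitting {A : Type u} [Group A] [Finite A] (hA : Indec A) {f : A →* A} (hf : NEndo f) :
    Function.Bijective f ∨ ∃ k, ∀ x, (f : A → A)^[k] x = 1 := by
  obtain ⟨k, hk, hidem⟩ := exists_idem (f : A → A)
  obtain ⟨ε, hε⟩ : ∃ ε : A →* A, ε = iterHom f k := ⟨_, rfl⟩
  have hε' : ∀ x, ε x = (f : A → A)^[k] x := fun x => by rw [hε]; rfl
  have hεn : ∀ a x, ε (a * x * a⁻¹) = a * ε x * a⁻¹ := by
    intro a x; rw [hε', hε', nendo_iterate hf k]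
  have hεi : ∀ x, ε (ε x) = ε x := by
    intro x; rw [hε', hε', hidem]
  have hRn : ε.range.Normal := by
    constructor
    rintro y ⟨x, rfl⟩ a
    exact ⟨a * x * a⁻¹, hεn a x⟩
  have hinf : ε.ker ⊓ ε.range = ⊥ := by
    rw [eq_bot_iff]
    intro y hy
    obtain ⟨hy1, hy2⟩ := Subgroup.mem_inf.mp hy
    obtain ⟨x, rfl⟩ := MonoidHom.mem_range.mp hy2
    rw [Subgroup.mem_bot]
    have h1 : ε (ε x) = 1 := MonoidHom.mem_ker.mp hy1
    rw [hεi] at h1
    exact h1
  have hsup : ε.ker ⊔ ε.range = ⊤ := by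
    rw [eq_top_iff]
    intro g _
    have h1 : g * (ε g)⁻¹ ∈ ε.ker := by
      rw [MonoidHom.mem_ker, map_mul, map_inv, hεi, mul_inv_cancel]
    have h2 : ε g ∈ ε.range := ⟨g, rfl⟩
    have h3 : g = (g * (ε g)⁻¹) * ε g := by group
    rw [h3]
    exact Subgroup.mul_mem_sup h1 h2
  rcases hA _ _ (MonoidHom.normal_ker ε) hRn hinf hsup with h | h
  · left
    have hinj : Function.Injective ε := (MonoidHom.ker_eq_bot_iff ε).mp h
    have hinj' : Function.Injective (f : A → A) := by
      obtain ⟨k', rfl⟩ : ∃ k', k = k' + 1 := ⟨k - 1, by omega⟩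
      have h5 : Function.Injective ((f : A → A)^[k'] ∘ f) := by
        rw [← Function.iterate_succ]
        intro a b hab
        apply hinj
        rw [hε', hε']; exact hab
      exact Function.Injective.of_comp h5
    exact ⟨hinj', Finite.injective_iff_surjective.mp hinj'⟩
  · right
    refine ⟨k, fun x => ?_⟩
    have h5 : ε x ∈ ε.range := ⟨x, rfl⟩
    rw [h, Subgroup.mem_bot, hε'] at h5
    exact h5

theorem sum_lemma {A : Type u} [Group A] [Finite A] [Nontrivial A] (hA : Indec A)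
    {α β γ : A →* A} (hα : NEndo α) (hβ : NEndo β) (hγ : Function.Bijective γ)
    (hsum : ∀ x, γ x = α x * β x) : Function.Bijective α ∨ Function.Bijective β := by
  have hγn : NEndo γ := by
    intro a x
    rw [hsum (a * x * a⁻¹), hα, hβ, hsum x]; group
  obtain ⟨δ, hδ0⟩ : ∃ δ : A ≃* A, ∀ x, δ x = γ x := ⟨MulEquiv.ofBijective γ hγ, fun x => rfl⟩
  have hδn : ∀ a y, δ.symm (a * y * a⁻¹) = a * δ.symm y * a⁻¹ := by
    intro a y
    apply δ.injective
    rw [δ.apply_symm_apply, hδ0, hγn, ← hδ0, δ.apply_symm_apply]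
  have hcomp : ∀ φ : A →* A, NEndo φ → NEndo (δ.symm.toMonoidHom.comp φ) := by
    intro φ hφ a x
    show δ.symm (φ (a * x * a⁻¹)) = a * δ.symm (φ x) * a⁻¹
    rw [hφ, hδn]
  have hs : ∀ x, (δ.symm.toMonoidHom.comp α) x * (δ.symm.toMonoidHom.comp β) x = x := by
    intro x
    show δ.symm (α x) * δ.symm (β x) = x
    rw [← map_mul, ← hsum, ← hδ0, δ.symm_apply_apply]
  have key : ∀ (φ : A →* A), Function.Bijective (δ.symm.toMonoidHom.comp φ) → Function.Bijective φ := by
    intro φ h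
    have h1 : (φ : A → A) = δ ∘ (δ.symm.toMonoidHom.comp φ) := by
      funext x
      show φ x = δ (δ.symm (φ x))
      rw [δ.apply_symm_apply]
    rw [h1]; exact δ.bijective.comp h
  rcases fitting hA (hcomp α hα) with h | ⟨k, hk⟩
  · exact Or.inl (key α h)
  rcases fitting hA (hcomp β hβ) with h | ⟨l, hl⟩
  · exact Or.inr (key β h)
  exfalso
  obtain ⟨α', hα'⟩ : ∃ α' : A →* A, α' = δ.symm.toMonoidHom.comp α := ⟨_, rfl⟩
  obtain ⟨β', hβ'⟩ : ∃ β' : A →* A, β' = δ.symm.toMonoidHom.comp β := ⟨_, rfl⟩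
  rw [← hα'] at hk
  rw [← hβ'] at hl
  rw [← hα', ← hβ'] at hs
  have hni : ¬ Function.Injective α' := by
    intro hinj
    obtain ⟨x, hx⟩ := exists_ne (1 : A)
    have h1 : Function.Injective ((α' : A → A)^[k]) := hinj.iterate k
    exact hx (h1 (by rw [hk x, hk 1]))
  have hex : ∃ x, x ≠ 1 ∧ α' x = 1 := by
    by_contra hcon
    push Not at hcon
    apply hni
    rw [injective_iff_map_eq_one]
    intro x hx
    by_contra hx1
    exact hcon x hx1 hx
  obtain ⟨x, hx1, hx⟩ := hex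
  have hβx : β' x = x := by
    have h2 := hs x
    rw [hx, one_mul] at h2
    exact h2
  have h3 : (β' : A → A)^[l] x = x := Function.iterate_fixed hβx l
  rw [hl x] at h3
  exact hx1 h3.symm

section Exchange

variable {A : Type u} {C : Type w} {κ : Type} [DecidableEq κ] {B : κ → Type v}
  [Group A] [Group C] [∀ j, Group (B j)]

/-- restriction to a set of coordinates -/
def rho (B : κ → Type v) [∀ j, Group (B j)] (S : Finset κ) : (∀ j, B j) →* (∀ j, B j) where
  toFun g := fun j => if j ∈ S then g j else 1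
  map_one' := by funext j; simp
  map_mul' := by intro g h; funext j; by_cases hj : j ∈ S <;> simp [hj]

theorem rho_apply (S : Finset κ) (g : ∀ j, B j) (j : κ) :
    rho B S g j = if j ∈ S then g j else 1 := rfl

theorem rho_conj (S : Finset κ) (g x : ∀ j, B j) :
    rho B S (g * x * g⁻¹) = g * rho B S x * g⁻¹ := by
  funext j
  by_cases hj : j ∈ S <;> simp [rho_apply, hj]

theorem exchange [Fintype κ] [Finite A] [Finite C] [∀ j, Finite (B j)] [Nontrivial A] (hA : Indec A)
    (hB : ∀ j, Indec (B j)) (e : A × C ≃* (∀ j, B j)) :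
    ∃ j, Nonempty (A ≃* B j) ∧ Nonempty (C ≃* (∀ j' : {j' // j' ≠ j}, B j')) := by
  classical
  obtain ⟨ιA, hιA⟩ : ∃ ιA : A →* (∀ j, B j), ∀ a, ιA a = e (a, 1) :=
    ⟨e.toMonoidHom.comp (MonoidHom.inl A C), fun a => rfl⟩
  obtain ⟨πA, hπA⟩ : ∃ πA : (∀ j, B j) →* A, ∀ g, πA g = (e.symm g).1 :=
    ⟨(MonoidHom.fst A C).comp e.symm.toMonoidHom, fun a => rfl⟩
  have hπι : ∀ a, πA (ιA a) = a := by
    intro a
    rw [hπA, hιA, e.symm_apply_apply]
  have hconj : ∀ (g : ∀ j, B j) (a : A), g * ιA a * g⁻¹ = ιA (πA g * a * (πA g)⁻¹) := by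
    intro g a
    apply e.symm.injective
    rw [hιA, hιA, hπA, e.symm_apply_apply, map_mul, map_mul, map_inv, e.symm_apply_apply]
    ext
    · simp
    · simp
  obtain ⟨ψ, hψ⟩ : ∃ ψ : Finset κ → (A →* A), ∀ S a, ψ S a = πA (rho B S (ιA a)) :=
    ⟨fun S => πA.comp ((rho B S).comp ιA), fun S a => rfl⟩
  have hψn : ∀ S, NEndo (ψ S) := by
    intro S a x
    have h1 : ιA (a * x * a⁻¹) = ιA a * ιA x * (ιA a)⁻¹ := by rw [map_mul, map_mul, map_inv]
    rw [hψ, hψ, h1, rho_conj, map_mul, map_mul, map_inv, hπι]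
  have hψins : ∀ (S : Finset κ) (j : κ), j ∉ S → ∀ a, ψ (insert j S) a = ψ S a * ψ {j} a := by
    intro S j hj a
    rw [hψ, hψ, hψ, ← map_mul]
    congr 1
    funext j'
    by_cases h1 : j' = j
    · subst h1; simp [rho_apply, hj]
    · by_cases h2 : j' ∈ S <;> simp [rho_apply, h1, h2]
  have hψempty : ∀ a, ψ ∅ a = 1 := by
    intro a
    have h1 : rho B ∅ (ιA a) = 1 := by funext j; simp [rho_apply]
    rw [hψ, h1, map_one]
  have hψuniv : ∀ a, ψ Finset.univ a = a := by
    intro a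
    have h1 : rho B Finset.univ (ιA a) = ιA a := by funext j; simp [rho_apply]
    rw [hψ, h1, hπι]
  have hind : ∀ S : Finset κ, Function.Bijective (ψ S) → ∃ j, Function.Bijective (ψ {j}) := by
    intro S
    induction S using Finset.induction_on with
    | empty =>
      intro h
      exfalso
      obtain ⟨x, hx⟩ := exists_ne (1 : A)
      exact hx (h.1 (by rw [hψempty, hψempty]))
    | insert j S hj ih =>
      intro h
      rcases sum_lemma hA (hψn S) (hψn {j}) h (hψins S j hj) with h1 | h1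
      · exact ih h1
      · exact ⟨j, h1⟩
  obtain ⟨j, hj⟩ := hind Finset.univ
    ⟨fun a b hab => by rwa [hψuniv, hψuniv] at hab, fun a => ⟨a, hψuniv a⟩⟩
  refine ⟨j, ?_⟩
  obtain ⟨v, hv⟩ : ∃ v : A →* B j, ∀ a, v a = ιA a j :=
    ⟨(Pi.evalMonoidHom B j).comp ιA, fun a => rfl⟩
  obtain ⟨u, hu⟩ : ∃ u : B j →* A, ∀ b, u b = πA (Pi.mulSingle j b) :=
    ⟨πA.comp (MonoidHom.mulSingle B j), fun b => rfl⟩
  have huv : ∀ a, u (v a) = ψ {j} a := by
    intro a
    rw [hu, hv, hψ]
    congr 1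
    funext j'
    by_cases h1 : j' = j
    · subst h1; simp [rho_apply]
    · simp [rho_apply, h1, Pi.mulSingle_eq_of_ne h1]
  have hvinj : Function.Injective v := by
    intro a b hab
    apply hj.1
    rw [← huv, ← huv, hab]
  have husurj : Function.Surjective u := by
    intro a
    obtain ⟨a', ha'⟩ := hj.2 a
    exact ⟨v a', by rw [huv, ha']⟩
  have hRn : v.range.Normal := by
    constructor
    rintro y ⟨a, rfl⟩ b
    refine ⟨πA (Pi.mulSingle j b) * a * (πA (Pi.mulSingle j b))⁻¹, ?_⟩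
    rw [hv, hv, ← hconj]
    simp
  have hinf : u.ker ⊓ v.range = ⊥ := by
    rw [eq_bot_iff]
    intro y hy
    obtain ⟨hy1, hy2⟩ := Subgroup.mem_inf.mp hy
    obtain ⟨a, rfl⟩ := MonoidHom.mem_range.mp hy2
    rw [Subgroup.mem_bot]
    have h1 : u (v a) = 1 := MonoidHom.mem_ker.mp hy1
    rw [huv] at h1
    have h2 : ψ {j} 1 = 1 := map_one _
    have h3 : a = 1 := hj.1 (h1.trans h2.symm)
    rw [h3, map_one]
  have hsup : u.ker ⊔ v.range = ⊤ := by
    rw [eq_top_iff]
    intro b _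
    obtain ⟨a, ha⟩ := hj.2 (u b)
    have h1 : b * (v a)⁻¹ ∈ u.ker := by
      rw [MonoidHom.mem_ker, map_mul, map_inv, huv, ha, mul_inv_cancel]
    have h2 : v a ∈ v.range := ⟨a, rfl⟩
    have h3 : b = (b * (v a)⁻¹) * v a := by group
    rw [h3]
    exact Subgroup.mul_mem_sup h1 h2
  have hker : u.ker = ⊥ := by
    rcases hB j _ _ (MonoidHom.normal_ker u) hRn hinf hsup with h | h
    · exact h
    · exfalso
      obtain ⟨x, hx⟩ := exists_ne (1 : A)
      have h1 : v x ∈ v.range := ⟨x, rfl⟩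
      rw [h, Subgroup.mem_bot] at h1
      exact hx (hvinj (h1.trans (map_one v).symm))
  have huinj : Function.Injective u := (MonoidHom.ker_eq_bot_iff u).mp hker
  have hubij : Function.Bijective u := ⟨huinj, husurj⟩
  refine ⟨⟨(MulEquiv.ofBijective u hubij).symm⟩, ?_⟩
  -- complement
  obtain ⟨w, hw⟩ : ∃ w : C →* (∀ j' : {j' // j' ≠ j}, B j'), ∀ c j', w c j' = e (1, c) j'.1 := by
    refine ⟨{ toFun := fun c j' => e (1, c) j'.1, map_one' := ?_, map_mul' := ?_ }, fun c j' => rfl⟩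
    · funext j'
      have h1 : ((1 : A), (1 : C)) = 1 := rfl
      show e (1, 1) j'.1 = 1
      rw [h1, map_one]; rfl
    · intro c c'
      funext j'
      show e (1, c * c') j'.1 = e (1, c) j'.1 * e (1, c') j'.1
      have h1 : ((1 : A), c * c') = (1, c) * (1, c') := by simp
      rw [h1, map_mul]; rfl
  have hwinj : Function.Injective w := by
    rw [injective_iff_map_eq_one]
    intro c hc
    have h1 : ∀ j' : κ, j' ≠ j → e (1, c) j' = 1 := by
      intro j' hj'
      have h0 := congrFun hc ⟨j', hj'⟩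
      rw [hw] at h0
      exact h0
    have h2 : e (1, c) = Pi.mulSingle j (e (1, c) j) := by
      funext j'
      by_cases h : j' = j
      · subst h; simp
      · rw [Pi.mulSingle_eq_of_ne h, h1 j' h]
    have h3 : πA (e (1, c)) = 1 := by
      rw [hπA, e.symm_apply_apply]
    have h4 : u (e (1, c) j) = 1 := by
      rw [hu, ← h2, h3]
    have h5 : e (1, c) j = 1 := huinj (h4.trans (map_one u).symm)
    have h6 : e (1, c) = 1 := by
      rw [h2, h5, Pi.mulSingle_one]
    have h7 : ((1 : A), c) = 1 := e.injective (h6.trans (map_one e).symm)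
    exact (Prod.ext_iff.mp h7).2
  -- cardinalities
  have hc1 : Nat.card A * Nat.card C
      = Nat.card (B j) * Nat.card (∀ j' : {j' // j' ≠ j}, B j') := by
    rw [← Nat.card_prod, ← Nat.card_prod]
    exact Nat.card_congr (e.toEquiv.trans (Equiv.piSplitAt j B))
  have hc2 : Nat.card A = Nat.card (B j) :=
    Nat.card_congr (MulEquiv.ofBijective u hubij).symm.toEquiv
  have hc3 : Nat.card C = Nat.card (∀ j' : {j' // j' ≠ j}, B j') := by
    rw [hc2] at hc1
    exact Nat.eq_of_mul_eq_mul_left Nat.card_pos hc1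
  have hwbij : Function.Bijective w := hwinj.bijective_of_nat_card_le hc3.ge
  exact ⟨MulEquiv.ofBijective w hwbij⟩

end Exchange

theorem main_aux (N : ℕ) : ∀ (ι : Type) [Fintype ι] [DecidableEq ι] (κ : Type) [Fintype κ]
    [DecidableEq κ] (A : ι → Type u) (B : κ → Type v) [∀ i, Group (A i)] [∀ j, Group (B j)]
    [∀ i, Finite (A i)] [∀ j, Finite (B j)],
    Fintype.card ι = N → (∀ i, Nontrivial (A i) ∧ Indec (A i)) →
    (∀ j, Nontrivial (B j) ∧ Indec (B j)) →
    ((∀ i, A i) ≃* (∀ j, B j)) → ∃ σ : ι ≃ κ, ∀ i, Nonempty (A i ≃* B (σ i)) := by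
  induction N with
  | zero =>
    intro ι _ _ κ _ _ A B _ _ _ _ hcard hA hB e
    haveI : IsEmpty ι := Fintype.card_eq_zero_iff.mp hcard
    haveI hκ : IsEmpty κ := by
      constructor
      intro j
      obtain ⟨hnt, -⟩ := hB j
      obtain ⟨b, hb⟩ := exists_ne (1 : B j)
      have h1 : e.symm (Pi.mulSingle j b) = e.symm 1 := Subsingleton.elim _ _
      have h2 : Pi.mulSingle j b = (1 : ∀ j, B j) := e.symm.injective h1
      have h3 := congrFun h2 j
      rw [Pi.mulSingle_eq_same] at h3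
      exact hb h3
    exact ⟨Equiv.equivOfIsEmpty ι κ, fun i => isEmptyElim i⟩
  | succ N ih =>
    intro ι _ _ κ _ _ A B _ _ _ _ hcard hA hB e
    have hne : Nonempty ι := by
      rw [← Fintype.card_pos_iff]; omega
    obtain ⟨i₀⟩ := hne
    obtain ⟨sp⟩ : Nonempty ((∀ i, A i) ≃* A i₀ × (∀ i : {i // i ≠ i₀}, A i)) :=
      ⟨{ Equiv.piSplitAt i₀ A with map_mul' := fun _ _ => rfl }⟩
    haveI := (hA i₀).1
    obtain ⟨j₀, ⟨f₀⟩, ⟨e'⟩⟩ := exchange (hA i₀).2 (fun j => (hB j).2) (sp.symm.trans e)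
    have hcard' : Fintype.card {i // i ≠ i₀} = N := by
      have h1 := Fintype.card_congr (Equiv.optionSubtypeNe i₀)
      rw [Fintype.card_option] at h1
      omega
    obtain ⟨σ', hσ'⟩ := ih {i // i ≠ i₀} {j // j ≠ j₀} (fun i => A i.1) (fun j => B j.1) hcard'
      (fun i => hA i.1) (fun j => hB j.1) e'
    refine ⟨(Equiv.optionSubtypeNe i₀).symm.trans
      ((Equiv.optionCongr σ').trans (Equiv.optionSubtypeNe j₀)), fun i => ?_⟩
    by_cases h : i = i₀
    · have h1 : ((Equiv.optionSubtypeNe i₀).symm.trans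
          ((Equiv.optionCongr σ').trans (Equiv.optionSubtypeNe j₀))) i = j₀ := by
        show Equiv.optionSubtypeNe j₀
          (Equiv.optionCongr σ' ((Equiv.optionSubtypeNe i₀).symm i)) = j₀
        rw [h, Equiv.optionSubtypeNe_symm_self]
        simp
      rw [h1, h]; exact ⟨f₀⟩
    · have h1 : ((Equiv.optionSubtypeNe i₀).symm.trans
          ((Equiv.optionCongr σ').trans (Equiv.optionSubtypeNe j₀))) i = (σ' ⟨i, h⟩).1 := by
        show Equiv.optionSubtypeNe j₀
          (Equiv.optionCongr σ' ((Equiv.optionSubtypeNe i₀).symm i)) = _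
        rw [Equiv.optionSubtypeNe_symm_of_ne h]
        simp
      rw [h1]; exact hσ' ⟨i, h⟩

/-- If a finite group is isomorphic both to a direct product of `m` directly indecomposable nontrivial groups and to a direct product of `n` such groups (a group is directly indecomposable when it is not the internal direct product of two nontrivial normal subgroups), then `m = n` and the factors are isomorphic in pairs after a suitable matching. -/
theorem result {m n : ℕ} {A : Fin m → Type*} {B : Fin n → Type*} [∀ i, Group (A i)] [∀ j, Group (B j)] [∀ i, Finite (A i)] [∀ j, Finite (B j)] (hA : ∀ i, Nontrivial (A i) ∧ ∀ H K : Subgroup (A i), H.Normal → K.Normal → H ⊓ K = ⊥ → H ⊔ K = ⊤ → H = ⊥ ∨ K = ⊥) (hB : ∀ j, Nontrivial (B j) ∧ ∀ H K : Subgroup (B j), H.Normal → K.Normal → H ⊓ K = ⊥ → H ⊔ K = ⊤ → H = ⊥ ∨ K = ⊥) (e : ((i : Fin m) → A i) ≃* ((j : Fin n) → B j)) : ∃ σ : Fin m ≃ Fin n, ∀ i, Nonempty (A i ≃* B (σ i)) := by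
  classical
  exact main_aux m (Fin m) (Fin n) A B (Fintype.card_fin m) hA hB e

end Cfsg.Agent.S4223
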