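import Cfsg.Statements.S4275
import Mathlib

set_option autoImplicit false
open Cfsg

namespace Cfsg.Agent.S4275

/-- Let G be a transitive group of permutations of a finite set Ω, let o ∈ Ω, and let α be an automorphism of G. Then α is induced by conjugation by a permutation of Ω normalizing G if and only if the image under α of the stabilizer of o fixes some point of Ω. -/
theorem result {Ω : Type*} [Fintype Ω] (G : Subgroup (Equiv.Perm Ω)) (htr : MulAction.IsPretransitive G Ω) (o : Ω) (α : G ≃* G) : (∃ σ : Equiv.Perm Ω, σ ∈ Subgroup.normalizer (G : Set (Equiv.Perm Ω)) ∧ ∀ g : G, ((α g : G) : Equiv.Perm Ω) = σ * (g : Equiv.Perm Ω) * σ⁻¹) ↔ ∃ ω : Ω, ∀ g ∈ (MulAction.stabilizer G o).map α.toMonoidHom, g • ω = ω := by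
  classical
  constructor
  · rintro ⟨σ, -, hσ⟩
    refine ⟨σ o, ?_⟩
    rintro g' ⟨g, hg, rfl⟩
    have hg' : (g : Equiv.Perm Ω) o = o := hg
    show ((α g : G) : Equiv.Perm Ω) (σ o) = σ o
    rw [hσ g]
    simp [hg']
  · rintro ⟨ω, hω⟩
    have hex : ∀ x : Ω, ∃ g : G, g • o = x := fun x => MulAction.exists_smul_eq G o x
    choose γ hγ using hex
    let τ : Ω → Ω := fun x => α (γ x) • ω
    have key : ∀ g : G, τ (g • o) = α g • ω := by
      intro g
      have h1 : (g⁻¹ * γ (g • o)) ∈ MulAction.stabilizer G o := by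
        rw [MulAction.mem_stabilizer_iff, mul_smul, hγ, inv_smul_smul]
      have h2 := hω (α (g⁻¹ * γ (g • o))) ⟨_, h1, rfl⟩
      rw [map_mul, map_inv, mul_smul, inv_smul_eq_iff] at h2
      exact h2
    have hequiv : ∀ (g : G) (x : Ω), τ (g • x) = α g • τ x := by
      intro g x
      have hx := hγ x
      calc τ (g • x) = τ ((g * γ x) • o) := by rw [mul_smul, hx]
        _ = α (g * γ x) • ω := key _
        _ = α g • τ x := by rw [map_mul, mul_smul]
    have hsurj : Function.Surjective τ := by
      intro z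
      obtain ⟨k, hk⟩ := MulAction.exists_smul_eq G ω z
      obtain ⟨g, rfl⟩ := α.surjective k
      exact ⟨g • o, by rw [key, hk]⟩
    have hbij : Function.Bijective τ := ⟨Finite.injective_iff_surjective.mpr hsurj, hsurj⟩
    let σ : Equiv.Perm Ω := Equiv.ofBijective τ hbij
    have hσ : ∀ g : G, ((α g : G) : Equiv.Perm Ω) = σ * (g : Equiv.Perm Ω) * σ⁻¹ := by
      intro g
      rw [eq_mul_inv_iff_mul_eq]
      ext x
      simp only [Equiv.Perm.mul_apply]
      exact (hequiv g x).symm
    refine ⟨σ, ?_, hσ⟩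
    rw [Subgroup.mem_normalizer_iff]
    intro h
    constructor
    · intro hh
      have h1 := hσ ⟨h, hh⟩
      rw [← h1]
      exact (α ⟨h, hh⟩).2
    · intro hh
      obtain ⟨k, hk⟩ := α.surjective ⟨_, hh⟩
      have h1 := hσ k
      rw [hk] at h1
      have h2 : h = (k : Equiv.Perm Ω) := mul_left_cancel (mul_right_cancel h1)
      rw [h2]
      exact k.2

end Cfsg.Agent.S4275
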