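import Cfsg.Statements.S4283
-- import your own Cfsg.Agent.* helpers here

import Mathlib
import Cfsg.Agent.Helper2.FrobGroup2

set_option autoImplicit false
open Cfsg

namespace Cfsg.Agent.S4283

open scoped Pointwise

/-- Let G be a finite group with centre Z and let K, H be abelian subgroups of G containing Z such that G/Z is a Frobenius group with complement H/Z and kernel K/Z. Then the conjugacy class sizes of G are exactly 1, [G : K] and [G : H], and these two indices are coprime. (This is the converse half of the characterization of finite groups whose conjugacy class sizes are exactly 1, m and n with m and n coprime.) -/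
theorem result {G : Type*} [Group G] [Finite G] (K H : Subgroup G) (hZK : Subgroup.center G ≤ K) (hZH : Subgroup.center G ≤ H) (hK : IsMulCommutative K) (hH : IsMulCommutative H) (hFrob : Cfsg.IsFrobeniusComplement (H.map (QuotientGroup.mk' (Subgroup.center G)))) (hker : Cfsg.frobeniusKernel (H.map (QuotientGroup.mk' (Subgroup.center G))) = (K.map (QuotientGroup.mk' (Subgroup.center G)) : Set (G ⧸ Subgroup.center G))) : Set.range (fun x : G => (Subgroup.centralizer ({x} : Set G)).index) = ({1, K.index, H.index} : Set ℕ) ∧ K.index.Coprime H.index := by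
  obtain ⟨π, hπ⟩ : ∃ π, π = QuotientGroup.mk' (Subgroup.center G) := ⟨_, rfl⟩
  rw [← hπ] at hFrob hker
  have hπsurj : Function.Surjective π := by rw [hπ]; exact QuotientGroup.mk'_surjective _
  have hπker : π.ker = Subgroup.center G := by rw [hπ]; exact QuotientGroup.ker_mk' _
  have hπ1 : ∀ g : G, π g = 1 ↔ g ∈ Subgroup.center G := by
    intro g
    have h := MonoidHom.mem_ker (f := π) (x := g)
    rw [hπker] at h
    exact h.symm
  obtain ⟨N, hNset, hNn, hNc⟩ := Cfsg.Agent.S0035.result _ hFrob
  have hNK : N = K.map π := SetLike.coe_injective (hNset.trans hker)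
  rw [hNK] at hNn hNc
  have hmemH : ∀ g : G, π g ∈ H.map π ↔ g ∈ H := by
    intro g
    constructor
    · rintro ⟨h, hh, heq⟩
      have h1 : h⁻¹ * g ∈ Subgroup.center G := by
        rw [← hπ1, map_mul, map_inv, heq, inv_mul_cancel]
      have : g = h * (h⁻¹ * g) := by group
      rw [this]; exact H.mul_mem hh (hZH h1)
    · intro hg; exact Subgroup.mem_map_of_mem _ hg
  have hmemK : ∀ g : G, π g ∈ K.map π ↔ g ∈ K := by
    intro g
    constructor
    · rintro ⟨h, hh, heq⟩
      have h1 : h⁻¹ * g ∈ Subgroup.center G := by
        rw [← hπ1, map_mul, map_inv, heq, inv_mul_cancel]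
      have : g = h * (h⁻¹ * g) := by group
      rw [this]; exact K.mul_mem hh (hZK h1)
    · intro hg; exact Subgroup.mem_map_of_mem _ hg
  have hKc : ∀ a ∈ K, ∀ b ∈ K, a * b = b * a := fun a ha b hb =>
    congrArg Subtype.val (hK.is_comm.comm ⟨a, ha⟩ ⟨b, hb⟩)
  have hHc : ∀ a ∈ H, ∀ b ∈ H, a * b = b * a := fun a ha b hb =>
    congrArg Subtype.val (hH.is_comm.comm ⟨a, ha⟩ ⟨b, hb⟩)
  have cH : ∀ y ∈ H, y ∉ Subgroup.center G → Subgroup.centralizer ({y} : Set G) = H := by
    intro y hy hyZ
    apply le_antisymm
    · intro g hg
      rw [Subgroup.mem_centralizer_iff] at hg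
      have h1 := hg y (Set.mem_singleton y)
      rw [← hmemH]
      apply Cfsg.Agent.Helper2.frobC_centralizer hFrob (Subgroup.mem_map_of_mem π hy)
        (by rw [Ne, hπ1]; exact hyZ)
      rw [← map_mul, ← map_mul, h1]
    · intro g hg
      rw [Subgroup.mem_centralizer_iff]
      intro z hz
      rw [Set.mem_singleton_iff] at hz
      rw [hz]; exact hHc y hy g hg
  have cK : ∀ x ∈ K, x ∉ Subgroup.center G → Subgroup.centralizer ({x} : Set G) = K := by
    intro x hx hxZ
    apply le_antisymm
    · intro g hg
      by_contra hgK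
      rw [Subgroup.mem_centralizer_iff] at hg
      have h1 := hg x (Set.mem_singleton x)
      have h2 : π g ∉ Cfsg.frobeniusKernel (H.map π) := by
        rw [hker]; intro h; exact hgK ((hmemK g).mp h)
      obtain ⟨hg1, t, ht⟩ := Cfsg.Agent.Helper2.not_mem_frobeniusKernel h2
      rw [Cfsg.Agent.Helper2.frobC_mem_conj_smul] at ht
      have h3 : t⁻¹ * π x * t ∈ H.map π := by
        apply Cfsg.Agent.Helper2.frobC_centralizer hFrob ht
        · intro h; apply hg1
          calc π g = t * (t⁻¹ * π g * t) * t⁻¹ := by group
            _ = 1 := by rw [h]; group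
        · have : π x * π g = π g * π x := by rw [← map_mul, ← map_mul, h1]
          calc t⁻¹ * π x * t * (t⁻¹ * π g * t) = t⁻¹ * (π x * π g) * t := by group
            _ = t⁻¹ * (π g * π x) * t := by rw [this]
            _ = t⁻¹ * π g * t * (t⁻¹ * π x * t) := by group
      have h4 : t⁻¹ * π x * t ∈ K.map π := by
        have := hNn.conj_mem (π x) (Subgroup.mem_map_of_mem π hx) t⁻¹
        simpa using this
      have h5 : t⁻¹ * π x * t = 1 := Subgroup.disjoint_def.mp hNc.disjoint h4 h3
      apply hxZ
      rw [← hπ1]
      calc π x = t * (t⁻¹ * π x * t) * t⁻¹ := by group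
        _ = 1 := by rw [h5]; group
    · intro g hg
      rw [Subgroup.mem_centralizer_iff]
      intro z hz
      rw [Set.mem_singleton_iff] at hz
      rw [hz]; exact hKc x hx g hg
  have cZ : ∀ x ∈ Subgroup.center G, (Subgroup.centralizer ({x} : Set G)).index = 1 := by
    intro x hxZ
    have : Subgroup.centralizer ({x} : Set G) = ⊤ := by
      rw [eq_top_iff]; intro g _
      rw [Subgroup.mem_centralizer_iff]; intro z hz
      rw [Set.mem_singleton_iff] at hz; rw [hz]
      exact (Subgroup.mem_center_iff.mp hxZ g).symm
    rw [this, Subgroup.index_top]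
  constructor
  · ext m
    simp only [Set.mem_range, Set.mem_insert_iff, Set.mem_singleton_iff]
    constructor
    · rintro ⟨x, rfl⟩
      by_cases hxZ : x ∈ Subgroup.center G
      · left; exact cZ x hxZ
      · by_cases hxK : x ∈ K
        · right; left; rw [cK x hxK hxZ]
        · right; right
          have h2 : π x ∉ Cfsg.frobeniusKernel (H.map π) := by
            rw [hker]; intro h; exact hxK ((hmemK x).mp h)
          obtain ⟨hx1, t, ht⟩ := Cfsg.Agent.Helper2.not_mem_frobeniusKernel h2
          rw [Cfsg.Agent.Helper2.frobC_mem_conj_smul] at ht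
          obtain ⟨s, rfl⟩ := hπsurj t
          have hy : s⁻¹ * x * s ∈ H := by
            rw [← hmemH]; simpa using ht
          have hyZ : s⁻¹ * x * s ∉ Subgroup.center G := by
            intro h; apply hxZ
            have := (inferInstance : (Subgroup.center G).Normal).conj_mem _ h s
            have e : s * (s⁻¹ * x * s) * s⁻¹ = x := by group
            rwa [e] at this
          have h3 := cH _ hy hyZ
          have h4 : (Subgroup.centralizer ({x} : Set G)).comap (MulAut.conj s).toMonoidHom =
              Subgroup.centralizer ({s⁻¹ * x * s} : Set G) := by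
            ext g
            simp only [Subgroup.mem_comap, Subgroup.mem_centralizer_iff, Set.mem_singleton_iff,
              forall_eq, MulEquiv.coe_toMonoidHom, MulAut.conj_apply]
            constructor
            · intro h
              calc s⁻¹ * x * s * g = s⁻¹ * (x * (s * g * s⁻¹)) * s := by group
                _ = s⁻¹ * (s * g * s⁻¹ * x) * s := by rw [h]
                _ = g * (s⁻¹ * x * s) := by group
            · intro h
              calc x * (s * g * s⁻¹) = s * (s⁻¹ * x * s * g) * s⁻¹ := by group
                _ = s * (g * (s⁻¹ * x * s)) * s⁻¹ := by rw [h]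
                _ = s * g * s⁻¹ * x := by group
          have h5 := Subgroup.index_comap_of_surjective (Subgroup.centralizer ({x} : Set G))
            (f := (MulAut.conj s).toMonoidHom) (MulAut.conj s).surjective
          rw [← h5, h4, h3]
    · rintro (rfl | rfl | rfl)
      · exact ⟨1, cZ 1 (Subgroup.one_mem _)⟩
      · have hKbot : K.map π ≠ ⊥ := by
          intro h
          rw [h] at hNc
          have := hNc.sup_eq_top
          rw [bot_sup_eq] at this
          exact hFrob.2.1 this
        obtain ⟨⟨k', hk'⟩, hk1⟩ := (Subgroup.ne_bot_iff_exists_ne_one).mp hKbot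
        obtain ⟨k, hk, rfl⟩ := hk'
        refine ⟨k, ?_⟩
        rw [cK k hk (by rw [← hπ1]; intro h; exact hk1 (Subtype.ext h))]
      · obtain ⟨⟨k', hk'⟩, hk1⟩ := (Subgroup.ne_bot_iff_exists_ne_one).mp hFrob.1
        obtain ⟨k, hk, rfl⟩ := hk'
        refine ⟨k, ?_⟩
        rw [cH k hk (by rw [← hπ1]; intro h; exact hk1 (Subtype.ext h))]
  · have h1 : (K.map π).index = K.index :=
      Subgroup.index_map_eq K hπsurj (by rw [hπker]; exact hZK)
    have h2 : (H.map π).index = H.index :=
      Subgroup.index_map_eq H hπsurj (by rw [hπker]; exact hZH)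
    have h3 := Cfsg.Agent.Helper2.frob_coprime hFrob (K.map π) hNc
    rw [← h1, ← h2, hNc.index_eq_card, hNc.symm.index_eq_card]
    exact h3.symm

end Cfsg.Agent.S4283
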