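import Mathlib
import Cfsg.Statements.S4293
import Cfsg.Agent.Helper23.Frob

set_option autoImplicit false
open Cfsg

namespace Cfsg.Agent.S4293

section
variable {D : Type*} [DivisionRing D] (H : Subgroup Dˣ)

/-- the integer span of `H` in `D` -/
def spanR : Submodule ℤ D := Submodule.span ℤ (Set.range (fun h : H => ((h : Dˣ) : D)))

theorem mul_mem_spanR (h : H) (x : D) (hx : x ∈ spanR H) : ((h : Dˣ) : D) * x ∈ spanR H := by
  unfold spanR at hx ⊢
  induction hx using Submodule.span_induction with
  | mem x hx =>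
    obtain ⟨k, rfl⟩ := hx
    apply Submodule.subset_span
    exact ⟨h * k, by simp⟩
  | zero => simp
  | add x y _ _ hx hy => rw [mul_add]; exact Submodule.add_mem _ hx hy
  | smul a x _ hx => rw [mul_smul_comm]; exact Submodule.smul_mem _ a hx

theorem one_mem_spanR : (1 : D) ∈ spanR H := by
  apply Submodule.subset_span
  exact ⟨1, by simp⟩

variable (p : ℕ)

/-- `p R` as a submodule of `R` -/
def pR : Submodule ℤ (spanR H) :=
  LinearMap.range ((p : ℤ) • (LinearMap.id : spanR H →ₗ[ℤ] spanR H))

theorem mem_pR (x : spanR H) : x ∈ pR H p ↔ ∃ y : spanR H, (p : ℤ) • y = x := by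
  simp [pR, LinearMap.mem_range]

/-- left multiplication by `h` on `R` -/
def gmap (h : H) : spanR H →ₗ[ℤ] spanR H :=
  (LinearMap.mulLeft ℤ ((h : Dˣ) : D)).restrict (fun x hx => mul_mem_spanR H h x hx)

theorem gmap_apply (h : H) (x : spanR H) :
    ((gmap H h x : spanR H) : D) = ((h : Dˣ) : D) * (x : D) := rfl

theorem gmap_one : gmap H 1 = LinearMap.id := by
  ext x
  rw [gmap_apply]
  simp

theorem gmap_mul (h k : H) : gmap H (h * k) = (gmap H h).comp (gmap H k) := by
  ext x
  rw [gmap_apply, LinearMap.comp_apply, gmap_apply, gmap_apply]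
  simp [mul_assoc]

theorem gmap_pR (h : H) : pR H p ≤ (pR H p).comap (gmap H h) := by
  intro x hx
  rw [mem_pR] at hx
  obtain ⟨y, rfl⟩ := hx
  rw [Submodule.mem_comap, map_smul, mem_pR]
  exact ⟨_, rfl⟩

/-- the action on `R / p R` -/
def rho : H →* Module.End ℤ (spanR H ⧸ pR H p) where
  toFun h := (pR H p).mapQ (pR H p) (gmap H h) (gmap_pR H p h)
  map_one' := by
    apply Submodule.linearMap_qext
    ext x
    simp [gmap_one]
  map_mul' := fun h k => by
    apply Submodule.linearMap_qext
    ext x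
    simp [gmap_mul]

theorem rho_mk (h : H) (x : spanR H) :
    rho H p h (Submodule.Quotient.mk x) = Submodule.Quotient.mk (gmap H h x) := by
  simp [rho]

theorem geom_zero (h : H) (hh : h ≠ 1) :
    ∑ i ∈ Finset.range (orderOf h), (((h : Dˣ) : D)) ^ i = 0 := by
  have h1 := mul_geom_sum (((h : Dˣ) : D)) (orderOf h)
  have h2 : (((h : Dˣ) : D)) ^ (orderOf h) = 1 := by
    rw [← Units.val_pow_eq_pow_val, ← Subgroup.coe_pow, pow_orderOf_eq_one]
    simp
  rw [h2, sub_self] at h1
  rcases mul_eq_zero.1 h1 with h5 | h5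
  · exfalso
    apply hh
    have h6 : ((h : Dˣ) : D) = 1 := sub_eq_zero.1 h5
    apply Subtype.ext
    apply Units.ext
    simpa using h6
  · exact h5

theorem fpf (hp : ∀ h : H, Nat.Coprime p (orderOf h)) (h : H) (hh : h ≠ 1)
    (v : spanR H ⧸ pR H p) (hv : rho H p h v = v) : v = 0 := by
  obtain ⟨r, rfl⟩ := Submodule.Quotient.mk_surjective _ v
  rw [rho_mk, Submodule.Quotient.eq] at hv
  have h1 : ∀ i : ℕ, gmap H (h ^ i) r - r ∈ pR H p := by
    intro i
    induction i with
    | zero => simp [gmap_one]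
    | succ i ih =>
      have h2 : gmap H (h ^ (i + 1)) r - r = gmap H h (gmap H (h ^ i) r - r) + (gmap H h r - r) := by
        rw [pow_succ', gmap_mul, LinearMap.comp_apply, map_sub]
        abel
      rw [h2]
      exact Submodule.add_mem _ (gmap_pR H p h ih) hv
  have h3 : ∑ i ∈ Finset.range (orderOf h), (gmap H (h ^ i) r - r) ∈ pR H p :=
    Submodule.sum_mem _ (fun i _ => h1 i)
  have h4 : ∑ i ∈ Finset.range (orderOf h), (gmap H (h ^ i) r - r)
      = - ((orderOf h : ℤ) • r) := by
    rw [Finset.sum_sub_distrib]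
    have h5 : ∑ i ∈ Finset.range (orderOf h), gmap H (h ^ i) r = 0 := by
      apply Subtype.ext
      rw [Submodule.coe_sum]
      simp only [gmap_apply]
      have h6 := geom_zero H h hh
      have h7 : ∑ i ∈ Finset.range (orderOf h), (((h ^ i : H) : Dˣ) : D) * (r : D)
          = (∑ i ∈ Finset.range (orderOf h), (((h : Dˣ) : D)) ^ i) * (r : D) := by
        rw [Finset.sum_mul]
        apply Finset.sum_congr rfl
        intro i _
        simp
      rw [h7, h6, zero_mul]
      rfl
    rw [h5]
    simp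
  rw [h4] at h3
  have h8 : (orderOf h : ℤ) • r ∈ pR H p := by
    have := Submodule.neg_mem _ h3
    simpa using this
  have h9 : (p : ℤ) • r ∈ pR H p := (mem_pR H p _).2 ⟨r, rfl⟩
  have hc : IsCoprime (p : ℤ) (orderOf h : ℤ) := Nat.isCoprime_iff_coprime.2 (hp h)
  obtain ⟨a, b, hab⟩ := hc
  have h10 : r = a • ((p : ℤ) • r) + b • ((orderOf h : ℤ) • r) := by
    rw [smul_smul, smul_smul, ← add_smul, hab, one_smul]
  rw [Submodule.Quotient.mk_eq_zero, h10]
  exact Submodule.add_mem _ (Submodule.smul_mem _ _ h9) (Submodule.smul_mem _ _ h8)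

instance finR [Finite H] : Module.Finite ℤ (spanR H) :=
  Module.Finite.span_of_finite ℤ (Set.finite_range _)

end

theorem main_of_prime {D : Type*} [DivisionRing D] (H : Subgroup Dˣ) [Finite H] (hH : H ≠ ⊥)
    (p : ℕ) (hp : p.Prime) (hc : ∀ h : H, Nat.Coprime p (orderOf h))
    (h3 : ∀ r : ℤ, (r : D) = 0 → (p : ℤ) ∣ r) :
    ∃ (L : Type) (_ : Group L) (_ : Finite L) (C : Subgroup L),
      Cfsg.IsFrobeniusComplement C ∧ Nonempty (H ≃* C) := by
  letI : DistribMulAction H (spanR H ⧸ pR H p) := DistribMulAction.compHom _ (rho H p)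
  haveI : Finite (spanR H ⧸ pR H p) := by
    apply Module.finite_of_fg_torsion
    intro x
    have hp0 : (p : ℤ) ∈ nonZeroDivisors ℤ :=
      mem_nonZeroDivisors_of_ne_zero (by exact_mod_cast hp.ne_zero)
    refine ⟨⟨(p : ℤ), hp0⟩, ?_⟩
    obtain ⟨r, rfl⟩ := Submodule.Quotient.mk_surjective _ x
    show (p : ℤ) • (Submodule.Quotient.mk r : spanR H ⧸ pR H p) = 0
    rw [← Submodule.Quotient.mk_smul (pR H p), Submodule.Quotient.mk_eq_zero, mem_pR]
    exact ⟨r, rfl⟩
  haveI : Nontrivial (spanR H ⧸ pR H p) := by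
    rw [Submodule.Quotient.nontrivial_iff]
    intro htop
    obtain ⟨r, hr1, hr2⟩ := Submodule.exists_sub_one_mem_and_smul_eq_zero_of_fg_of_le_smul
      (Ideal.span {(p : ℤ)}) (⊤ : Submodule ℤ (spanR H)) Module.Finite.fg_top (by
        intro x _
        have hx : x ∈ pR H p := by rw [htop]; trivial
        rw [mem_pR] at hx
        obtain ⟨y, rfl⟩ := hx
        exact Submodule.smul_mem_smul (Ideal.mem_span_singleton_self _) trivial)
    have h4 := hr2 ⟨1, one_mem_spanR H⟩ trivial
    have h5 : (r : D) = 0 := by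
      have := congrArg Subtype.val h4
      simpa using this
    have h6 := h3 r h5
    rw [Ideal.mem_span_singleton] at hr1
    have h7 : (p : ℤ) ∣ 1 := by
      have := dvd_sub h6 hr1
      simpa using this
    have h8 : p ∣ 1 := by exact_mod_cast h7
    exact hp.one_lt.ne' (Nat.dvd_one.1 h8)
  haveI : Nontrivial H := (Subgroup.nontrivial_iff_ne_bot H).2 hH
  exact Helper23.exists_frobenius_of_distrib (H := H) (V := spanR H ⧸ pR H p)
    (fun h hh v hv => fpf H p hc h hh v hv)

/-- A nontrivial finite subgroup of the multiplicative group of a division ring occurs as a Frobenius complement of some finite Frobenius group. -/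
theorem result {D : Type*} [DivisionRing D] (H : Subgroup Dˣ) [Finite H] (hH : H ≠ ⊥) :
    ∃ (L : Type) (_ : Group L) (_ : Finite L) (C : Subgroup L), Cfsg.IsFrobeniusComplement C ∧ Nonempty (H ≃* C) := by
  obtain ⟨q, hq⟩ := CharP.exists D
  rcases CharP.char_is_prime_or_zero D q with hqp | hq0
  · haveI := hq
    haveI : Fact q.Prime := ⟨hqp⟩
    apply main_of_prime H hH q hqp
    · intro h
      rw [Nat.Prime.coprime_iff_not_dvd hqp]
      intro hdvd
      have h1 : orderOf (h ^ (orderOf h / q)) = q :=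
        orderOf_pow_orderOf_div (orderOf_pos h).ne' hdvd
      generalize h ^ (orderOf h / q) = g at h1
      have h2 : ((g : Dˣ) : D) ^ q = 1 := by
        rw [← Units.val_pow_eq_pow_val, ← Subgroup.coe_pow, ← h1, pow_orderOf_eq_one]
        simp
      have h3 : (((g : Dˣ) : D) - 1) ^ q = 0 := by
        rw [sub_pow_char_of_commute q (Commute.one_right _), h2, one_pow, sub_self]
      have h4 : ((g : Dˣ) : D) = 1 := sub_eq_zero.1 ((pow_eq_zero_iff hqp.ne_zero).1 h3)
      have h5 : g = 1 := by
        apply Subtype.ext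
        apply Units.ext
        simpa using h4
      rw [h5, orderOf_one] at h1
      exact hqp.ne_one h1.symm
    · intro r hr
      exact (CharP.intCast_eq_zero_iff D q r).1 hr
  · subst hq0
    haveI := hq
    haveI : CharZero D := CharP.charP_to_charZero D
    obtain ⟨p, hp1, hp2⟩ := Nat.exists_infinite_primes (Nat.card H + 1)
    apply main_of_prime H hH p hp2
    · intro h
      rw [Nat.Prime.coprime_iff_not_dvd hp2]
      intro hdvd
      have h1 : orderOf h ≤ Nat.card H := Nat.le_of_dvd Nat.card_pos (orderOf_dvd_natCard h)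
      have h2 := Nat.le_of_dvd (orderOf_pos h) hdvd
      omega
    · intro r hr
      have h0 : r = 0 := by exact_mod_cast hr
      rw [h0]
      exact dvd_zero _

end Cfsg.Agent.S4293
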