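import Mathlib
import Cfsg.Statements.S4296
import Cfsg.Agent.S0035
import Cfsg.Agent.S0040
import Cfsg.Agent.Helper2.FrobGroup
import Cfsg.Agent.Helper23.QuatAct

set_option autoImplicit false
open Cfsg

namespace Cfsg.Agent.S4296

/-- a quaternion pair inside a generalized quaternion group -/
theorem quat_pair (m' : ℕ) (hm : 0 < m') : ∃ I J : QuaternionGroup (2 * m'),
    I ^ 2 ≠ 1 ∧ I ^ 4 = 1 ∧ J * J = I ^ 2 ∧ J * I * J⁻¹ = I⁻¹ := by
  refine ⟨QuaternionGroup.a (m' : ZMod (2 * (2 * m'))), QuaternionGroup.xa 0, ?_, ?_, ?_, ?_⟩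
  · rw [pow_two, QuaternionGroup.a_mul_a, QuaternionGroup.one_def]
    intro h
    have h1 : (m' : ZMod (2 * (2 * m'))) + m' = 0 := by
      injection h
    have h2 : ((2 * m' : ℕ) : ZMod (2 * (2 * m'))) = 0 := by
      rw [← h1]; push_cast; ring
    rw [ZMod.natCast_eq_zero_iff] at h2
    have := Nat.le_of_dvd (by omega) h2
    omega
  · have h0 : ((2 * (2 * m') : ℕ) : ZMod (2 * (2 * m'))) = 0 := ZMod.natCast_self _
    have : (4 : ℕ) = 2 * 2 := rfl
    have h2 : (QuaternionGroup.a (m' : ZMod (2 * (2 * m')))) ^ 2 =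
        QuaternionGroup.a ((m' : ZMod (2 * (2 * m'))) + (m' : ZMod (2 * (2 * m')))) := by
      rw [pow_two, QuaternionGroup.a_mul_a]
    rw [this, pow_mul, h2, pow_two, QuaternionGroup.a_mul_a, QuaternionGroup.one_def]
    congr 1
    rw [← h0]; push_cast; ring
  · rw [QuaternionGroup.xa_mul_xa, pow_two, QuaternionGroup.a_mul_a]
    congr 1
    push_cast; ring
  · have hinv : (QuaternionGroup.a (m' : ZMod (2 * (2 * m'))))⁻¹ =
        QuaternionGroup.a (-(m' : ZMod (2 * (2 * m')))) := by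
      apply inv_eq_of_mul_eq_one_right
      rw [QuaternionGroup.a_mul_a, QuaternionGroup.one_def, add_neg_cancel]
    rw [mul_inv_eq_iff_eq_mul, hinv, QuaternionGroup.xa_mul_a, QuaternionGroup.a_mul_xa]
    congr 1
    ring

/-- an involution of a Frobenius complement inverts the kernel -/
theorem invol_inverts {L : Type*} [Group L] [Finite L] (H N : Subgroup L)
    (hF : IsFrobeniusComplement H) (hNset : (N : Set L) = frobeniusKernel H) [hNn : N.Normal]
    (z : L) (hzH : z ∈ H) (hz1 : z ≠ 1) (hz2 : z * z = 1) : ∀ w ∈ N, z * w * z⁻¹ = w⁻¹ := by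
  have hzinv : z⁻¹ = z := inv_eq_of_mul_eq_one_left hz2
  have hmem : ∀ x : N, (x : L)⁻¹ * (z * x * z⁻¹) ∈ N := fun x =>
    N.mul_mem (N.inv_mem x.2) (hNn.conj_mem x x.2 z)
  have hinj : Function.Injective (fun x : N => (⟨(x : L)⁻¹ * (z * x * z⁻¹), hmem x⟩ : N)) := by
    intro x y hxy
    have h1 : (x : L)⁻¹ * (z * x * z⁻¹) = (y : L)⁻¹ * (z * y * z⁻¹) := congrArg Subtype.val hxy
    have h2 : ((y : L) * (x : L)⁻¹) * z = z * ((y : L) * (x : L)⁻¹) := by
      calc ((y : L) * (x : L)⁻¹) * z = y * ((x : L)⁻¹ * (z * x * z⁻¹)) * z * (x : L)⁻¹ := by group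
        _ = y * ((y : L)⁻¹ * (z * y * z⁻¹)) * z * (x : L)⁻¹ := by rw [h1]
        _ = z * ((y : L) * (x : L)⁻¹) := by group
    have h3 := Cfsg.Agent.Helper2.frobC_centralizer hF hzH hz1 h2
    have h4 := Cfsg.Agent.Helper2.frobKer_disjoint N hNset (N.mul_mem y.2 (N.inv_mem x.2)) h3
    apply Subtype.ext
    exact (mul_inv_eq_one.mp h4).symm
  have hsurj := Finite.injective_iff_surjective.mp hinj
  intro w hw
  obtain ⟨x, hx⟩ := hsurj ⟨w, hw⟩
  have hx' : (x : L)⁻¹ * (z * x * z⁻¹) = w := congrArg Subtype.val hx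
  rw [← hx']
  calc z * ((x : L)⁻¹ * (z * x * z⁻¹)) * z⁻¹ = z * (x : L)⁻¹ * z * x * (z⁻¹ * z⁻¹) := by group
    _ = z * (x : L)⁻¹ * z * x := by rw [hzinv, hz2, mul_one]
    _ = z * (x : L)⁻¹ * z⁻¹ * x := by rw [hzinv]
    _ = ((x : L)⁻¹ * (z * x * z⁻¹))⁻¹ := by group

/-- Let H be a Frobenius complement in a finite group, and suppose some Sylow subgroup of H is not cyclic. Then the number of elements of the Frobenius kernel (the identity together with the elements lying in no conjugate of H) is an odd perfect square. -/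
theorem result {L : Type*} [Group L] [Finite L] (H : Subgroup L) (hF : Cfsg.IsFrobeniusComplement H)
    (hZ : ∃ (p : ℕ) (_ : Fact p.Prime) (P : Sylow p H), ¬ IsCyclic P) :
    Odd (Nat.card (Cfsg.frobeniusKernel H)) ∧ IsSquare (Nat.card (Cfsg.frobeniusKernel H)) := by
  obtain ⟨p, hp, P, hP⟩ := hZ
  haveI := hp
  obtain ⟨N, hNset, hNn, hNc⟩ := Cfsg.Agent.S0035.result H hF
  haveI := hNn
  have hNbot : N ≠ ⊥ := by
    rintro rfl
    exact hF.2.1 (Subgroup.isComplement'_bot_left.mp hNc)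
  have hfpf : ∀ h ∈ H, h ≠ 1 → N ⊓ Subgroup.centralizer {h} = ⊥ := by
    intro h hh h1
    rw [eq_bot_iff]
    intro x hx
    obtain ⟨hxN, hxC⟩ := Subgroup.mem_inf.mp hx
    rw [Subgroup.mem_bot]
    have hcomm : x * h = h * x := (Subgroup.mem_centralizer_iff.mp hxC h rfl).symm
    exact Cfsg.Agent.Helper2.frobKer_disjoint N hNset hxN
      (Cfsg.Agent.Helper2.frobC_centralizer hF hh h1 hcomm)
  rcases Cfsg.Agent.S0040.result N H hNc hNbot hfpf p P with hcyc | ⟨k, ⟨e⟩⟩
  · exact absurd hcyc hP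
  have hk : 1 ≤ k := by
    rcases Nat.eq_zero_or_pos k with rfl | h
    · exfalso; apply hP
      haveI : IsCyclic (QuaternionGroup (2 ^ 0)) := QuaternionGroup.quaternionGroup_one_isCyclic
      exact isCyclic_of_surjective e.symm e.symm.surjective
    · exact h
  obtain ⟨m', hm'⟩ : ∃ m', 2 ^ k = 2 * m' := ⟨2 ^ (k - 1), by rw [← pow_succ']; congr 1; omega⟩
  have hm'pos : 0 < m' := by
    rcases Nat.eq_zero_or_pos m' with rfl | h
    · simp at hm'
    · exact h
  have e' : (P : Subgroup H) ≃* QuaternionGroup (2 * m') := hm' ▸ e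
  obtain ⟨I₀, J₀, hI2, hI4, hJJ, hJI⟩ := quat_pair m' hm'pos
  obtain ⟨ψ, hψ⟩ : ∃ ψ : QuaternionGroup (2 * m') →* L,
      ψ = H.subtype.comp ((P : Subgroup H).subtype.comp e'.symm.toMonoidHom) := ⟨_, rfl⟩
  have hψinj : Function.Injective ψ := by
    rw [hψ]
    exact (Subgroup.subtype_injective H).comp
      ((Subgroup.subtype_injective _).comp e'.symm.injective)
  have hψH : ∀ q, ψ q ∈ H := by
    intro q; rw [hψ]; exact (((P : Subgroup H).subtype (e'.symm q)) : H).2
  obtain ⟨I, hI⟩ : ∃ I : L, I = ψ I₀ := ⟨_, rfl⟩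
  obtain ⟨J, hJ⟩ : ∃ J : L, J = ψ J₀ := ⟨_, rfl⟩
  have hI2' : I * I ≠ 1 := by
    rw [hI, ← map_mul, ← pow_two]
    intro h
    exact hI2 (hψinj (by rw [h, map_one]))
  have hI4' : (I * I) * (I * I) = 1 := by
    rw [hI, ← map_mul, ← map_mul, ← pow_two, ← pow_two, ← pow_mul, hI4, map_one]
  have hJJ' : J * J = I * I := by
    rw [hI, hJ, ← map_mul, ← map_mul, hJJ, pow_two]
  have hJI' : J * I * J⁻¹ = I⁻¹ := by
    rw [hI, hJ, ← map_inv, ← map_mul, ← map_mul, hJI, map_inv]
  have hIJI : I * J * I = J := by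
    calc I * J * I = I * (J * I * J⁻¹) * J := by group
      _ = J := by rw [hJI']; group
  have hzH : I * I ∈ H := H.mul_mem (hI ▸ hψH I₀) (hI ▸ hψH I₀)
  have hinv := invol_inverts H N hF hNset (I * I) hzH hI2' hI4'
  have hcomm : ∀ x ∈ N, ∀ y ∈ N, x * y = y * x := by
    intro x hx y hy
    have h1 := hinv (x * y) (N.mul_mem hx hy)
    have h2 : I * I * (x * y) * (I * I)⁻¹ = (I * I * x * (I * I)⁻¹) * (I * I * y * (I * I)⁻¹) := by
      group
    rw [h2, hinv x hx, hinv y hy] at h1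
    have h3 : (x⁻¹ * y⁻¹)⁻¹ = ((x * y)⁻¹)⁻¹ := by rw [h1]
    rw [inv_inv, mul_inv_rev, inv_inv, inv_inv] at h3
    exact h3.symm
  have hoddN : Odd (Nat.card N) := by
    rw [← Nat.not_even_iff_odd]
    intro heven
    haveI : Fact (Nat.Prime 2) := ⟨Nat.prime_two⟩
    obtain ⟨t, ht⟩ := exists_prime_orderOf_dvd_card' 2 heven.two_dvd
    have ht1 : (t : L) ≠ 1 := by
      intro h
      have : t = 1 := Subtype.ext h
      rw [this, orderOf_one] at ht
      omega
    have ht2 : (t : L) * (t : L) = 1 := by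
      have := pow_orderOf_eq_one t
      rw [ht, pow_two] at this
      exact congrArg Subtype.val this
    have ht3 : (t : L)⁻¹ = t := inv_eq_of_mul_eq_one_left ht2
    have h1 := hinv t t.2
    rw [ht3] at h1
    have h2 : (t : L) * (I * I) = (I * I) * t := by
      calc (t : L) * (I * I) = (I * I * t * (I * I)⁻¹) * (I * I) := by rw [h1]
        _ = (I * I) * t := by group
    exact ht1 (Cfsg.Agent.Helper2.frobKer_disjoint N hNset t.2
      (Cfsg.Agent.Helper2.frobC_centralizer hF hzH hI2' h2))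
  have hcardeq : Nat.card (Cfsg.frobeniusKernel H) = Nat.card N := by
    rw [← hNset]; rfl
  rw [hcardeq]
  refine ⟨hoddN, ?_⟩
  let cg : CommGroup N :=
    { (inferInstance : Group N) with mul_comm := fun x y => Subtype.ext (hcomm x x.2 y y.2) }
  have hα : ∀ x : N, (MulAut.conjNormal I : MulAut N) ((MulAut.conjNormal I : MulAut N) x) = x⁻¹ := by
    intro x
    apply Subtype.ext
    rw [MulAut.conjNormal_apply, MulAut.conjNormal_apply, Subgroup.coe_inv, ← hinv x x.2]
    group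
  have hβ : ∀ x : N, (MulAut.conjNormal J : MulAut N) ((MulAut.conjNormal J : MulAut N) x) = x⁻¹ := by
    intro x
    apply Subtype.ext
    rw [MulAut.conjNormal_apply, MulAut.conjNormal_apply, Subgroup.coe_inv, ← hinv x x.2, ← hJJ']
    group
  have hαβ : ∀ x : N, (MulAut.conjNormal I : MulAut N) ((MulAut.conjNormal J : MulAut N)
      ((MulAut.conjNormal I : MulAut N) x)) = (MulAut.conjNormal J : MulAut N) x := by
    intro x
    apply Subtype.ext
    rw [MulAut.conjNormal_apply, MulAut.conjNormal_apply, MulAut.conjNormal_apply,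
      MulAut.conjNormal_apply]
    calc I * (J * (I * (x : L) * I⁻¹) * J⁻¹) * I⁻¹ = (I * J * I) * x * (I * J * I)⁻¹ := by group
      _ = J * x * J⁻¹ := by rw [hIJI]
  exact Cfsg.Agent.Helper23.isSquare_card_quat (Nat.card N) (Additive N) rfl hoddN
    (MonoidHom.toAdditive (MulAut.conjNormal I : MulAut N).toMonoidHom)
    (MonoidHom.toAdditive (MulAut.conjNormal J : MulAut N).toMonoidHom)
    (fun v => hα v) (fun v => hβ v) (fun v => hαβ v)

end Cfsg.Agent.S4296
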