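import Mathlib
import Cfsg.Statements.S4295
import Cfsg.Agent.S0035
import Cfsg.Agent.S4296
import Cfsg.Agent.Helper23.Quat

set_option autoImplicit false
open Cfsg

namespace Cfsg.Agent.S4295

/-- a "quaternionic" module of order `s²` for every odd `s` -/
theorem exists_module (s : ℕ) (hs : Odd s) :
    ∃ (V : Type) (_ : AddCommGroup V) (_ : Finite V) (a b : V →+ V), Nat.card V = s * s ∧
      (∀ v, a (a v) = -v) ∧ (∀ v, b (b v) = -v) ∧ (∀ v, a (b (a v)) = b v) := by
  induction s using Nat.strong_induction_on with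
  | _ s ih =>
    by_cases h1 : s = 1
    · subst h1
      refine ⟨PUnit, inferInstance, inferInstance, 0, 0, by simp, fun v => rfl, fun v => rfl,
        fun v => rfl⟩
    · have hr : s.minFac.Prime := Nat.minFac_prime h1
      obtain ⟨t, ht⟩ := Nat.minFac_dvd s
      obtain ⟨r, hrdef⟩ : ∃ r, r = s.minFac := ⟨_, rfl⟩
      rw [← hrdef] at hr ht
      haveI : Fact r.Prime := ⟨hr⟩
      have hspos : 0 < s := hs.pos
      have htlt : t < s := by
        have h0 : 0 < t := by
          rcases Nat.eq_zero_or_pos t with h | h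
          · subst h; simp at ht; omega
          · exact h
        have := hr.two_le
        nlinarith
      have htodd : Odd t := by
        rw [ht] at hs
        exact (Nat.odd_mul.mp hs).2
      obtain ⟨W, iW1, iW2, aW, bW, hWc, hWa, hWb, hWab⟩ := ih t htlt htodd
      obtain ⟨x, y, hxy⟩ := ZMod.sq_add_sq r (-1 : ZMod r)
      let a₀ : ZMod r × ZMod r →+ ZMod r × ZMod r :=
        AddMonoidHom.mk' (fun p => (-p.2, p.1)) (by intro p q; ext <;> simp <;> ring)
      let b₀ : ZMod r × ZMod r →+ ZMod r × ZMod r :=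
        AddMonoidHom.mk' (fun p => (x * p.1 + y * p.2, y * p.1 - x * p.2))
          (by intro p q; ext <;> simp <;> ring)
      refine ⟨(ZMod r × ZMod r) × W, inferInstance, inferInstance, a₀.prodMap aW, b₀.prodMap bW,
        ?_, ?_, ?_, ?_⟩
      · rw [Nat.card_prod, Nat.card_prod, hWc, Nat.card_zmod, ht]; ring
      · rintro ⟨⟨u, v⟩, w⟩
        show ((-u, -v), aW (aW w)) = _
        rw [hWa]; rfl
      · rintro ⟨⟨u, v⟩, w⟩
        show ((x * (x * u + y * v) + y * (y * u - x * v),
          y * (x * u + y * v) - x * (y * u - x * v)), bW (bW w)) = _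
        rw [hWb]
        have e1 : x * (x * u + y * v) + y * (y * u - x * v) = -u := by
          linear_combination u * hxy
        have e2 : y * (x * u + y * v) - x * (y * u - x * v) = -v := by
          linear_combination v * hxy
        rw [e1, e2]; rfl
      · rintro ⟨⟨u, v⟩, w⟩
        show ((-(y * -v - x * u), x * -v + y * u), aW (bW (aW w))) =
          ((x * u + y * v, y * u - x * v), bW w)
        rw [hWab]
        have e1 : -(y * -v - x * u) = x * u + y * v := by ring
        have e2 : x * -v + y * u = y * u - x * v := by ring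
        rw [e1, e2]

theorem eq_one_of_inv_eq {K : Type*} [Group K] [Finite K] (hodd : Odd (Nat.card K)) (k : K)
    (h : k⁻¹ = k) : k = 1 := by
  have h2 : k ^ 2 = 1 := by
    rw [pow_two]; nth_rewrite 1 [← h]; exact inv_mul_cancel k
  have hd1 : orderOf k ∣ 2 := orderOf_dvd_of_pow_eq_one h2
  have hd2 : orderOf k ∣ Nat.card K := orderOf_dvd_natCard k
  have hd : orderOf k ∣ Nat.gcd 2 (Nat.card K) := Nat.dvd_gcd hd1 hd2
  have hg : Nat.gcd 2 (Nat.card K) = 1 := Nat.coprime_two_left.mpr hodd
  rw [hg] at hd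
  exact orderOf_eq_one_iff.mp (Nat.dvd_one.mp hd)

theorem construct (V : Type) [AddCommGroup V] [Finite V] (a b : V →+ V) (hodd : Odd (Nat.card V))
    (hnt : 1 < Nat.card V)
    (ha : ∀ v, a (a v) = -v) (hb : ∀ v, b (b v) = -v) (hab : ∀ v, a (b (a v)) = b v) :
    ∃ (L : Type) (_ : Group L) (_ : Finite L) (H : Subgroup L), Cfsg.IsFrobeniusComplement H ∧
        Nonempty (H ≃* QuaternionGroup 2) ∧ Nat.card (Cfsg.frobeniusKernel H) = Nat.card V := by
  let ea : V ≃+ V :=
    { toFun := a, invFun := fun v => -(a v),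
      left_inv := fun v => by show -(a (a v)) = v; rw [ha, neg_neg]
      right_inv := fun v => by show a (-(a v)) = v; rw [map_neg, ha, neg_neg]
      map_add' := a.map_add }
  let eb : V ≃+ V :=
    { toFun := b, invFun := fun v => -(b v),
      left_inv := fun v => by show -(b (b v)) = v; rw [hb, neg_neg]
      right_inv := fun v => by show b (-(b v)) = v; rw [map_neg, hb, neg_neg]
      map_add' := b.map_add }
  obtain ⟨α, hα⟩ : ∃ α : MulAut (Multiplicative V),
      ∀ k, α k = Multiplicative.ofAdd (a (Multiplicative.toAdd k)) :=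
    ⟨AddEquiv.toMultiplicative ea, fun k => rfl⟩
  obtain ⟨β, hβ⟩ : ∃ β : MulAut (Multiplicative V),
      ∀ k, β k = Multiplicative.ofAdd (b (Multiplicative.toAdd k)) :=
    ⟨AddEquiv.toMultiplicative eb, fun k => rfl⟩
  have hoddK : Odd (Nat.card (Multiplicative V)) := hodd
  have hα2 : ∀ k, (α ^ 2) k = k⁻¹ := by
    intro k
    rw [pow_two, MulAut.mul_apply, hα, hα]
    show Multiplicative.ofAdd (a (a (Multiplicative.toAdd k))) = k⁻¹
    rw [ha]; rfl
  have hne : ∃ k : Multiplicative V, k ≠ 1 := by
    by_contra hcon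
    push_neg at hcon
    haveI : Subsingleton (Multiplicative V) := ⟨fun x y => by rw [hcon x, hcon y]⟩
    have h1 : Nat.card (Multiplicative V) ≤ 1 := Finite.card_le_one_iff_subsingleton.mpr inferInstance
    have h2 : 1 < Nat.card (Multiplicative V) := hnt
    omega
  have hord : orderOf α = 4 := by
    haveI : Fact (Nat.Prime 2) := ⟨Nat.prime_two⟩
    refine orderOf_eq_prime_pow (p := 2) (n := 1) ?_ ?_
    · intro h
      obtain ⟨k, hk⟩ := hne
      apply hk
      apply eq_one_of_inv_eq hoddK
      have h' : α ^ 2 = 1 := h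
      rw [← hα2, h']; rfl
    · show α ^ 4 = 1
      ext k
      rw [show 4 = 2 + 2 from rfl, pow_add, MulAut.mul_apply, hα2, hα2, inv_inv]; rfl
  have hbb : β * β = α ^ 2 := by
    ext k
    rw [hα2, MulAut.mul_apply, hβ, hβ]
    show Multiplicative.ofAdd (b (b (Multiplicative.toAdd k))) = k⁻¹
    rw [hb]; rfl
  have hbab : β * α * β⁻¹ = α⁻¹ := by
    rw [mul_inv_eq_iff_eq_mul, eq_inv_mul_iff_mul_eq]
    ext k
    rw [MulAut.mul_apply, MulAut.mul_apply, hα, hβ, hα, hβ]
    show Multiplicative.ofAdd (a (b (a (Multiplicative.toAdd k)))) =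
      Multiplicative.ofAdd (b (Multiplicative.toAdd k))
    rw [hab]
  obtain ⟨φ, hFinj, -, hFa, hFb⟩ := Helper23.quat_hom α β hord hbb hbab
  have hFa2 : ∀ k, φ (QuaternionGroup.a 2) k = k⁻¹ := by
    intro k
    have h2 : (QuaternionGroup.a 2 : QuaternionGroup 2) = QuaternionGroup.a 1 ^ 2 := by decide
    rw [h2, map_pow, hFa]; exact hα2 k
  have hfpf : ∀ q : QuaternionGroup 2, q ≠ 1 → ∀ k, φ q k = k → k = 1 := by
    intro q hq k hk
    apply eq_one_of_inv_eq hoddK
    have hcase : ∀ q : QuaternionGroup 2, q ≠ 1 →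
        q = QuaternionGroup.a 2 ∨ q ^ 2 = QuaternionGroup.a 2 := by
      decide
    rcases hcase q hq with h | h
    · rw [← hFa2, ← h]; exact hk
    · rw [← hFa2, ← h, map_pow, pow_two, MulAut.mul_apply, hk, hk]
  -- the semidirect product
  obtain ⟨H, hHdef⟩ : ∃ H : Subgroup (Multiplicative V ⋊[φ] QuaternionGroup 2),
      H = (SemidirectProduct.inr : QuaternionGroup 2 →* Multiplicative V ⋊[φ] QuaternionGroup 2).range :=
    ⟨_, rfl⟩
  haveI : Finite (Multiplicative V ⋊[φ] QuaternionGroup 2) :=
    Finite.of_equiv _ SemidirectProduct.equivProd.symm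
  have hmem : ∀ g : Multiplicative V ⋊[φ] QuaternionGroup 2, g ∈ H ↔ g.left = 1 := by
    intro g
    rw [hHdef]
    constructor
    · rintro ⟨q, rfl⟩; rfl
    · intro h
      refine ⟨g.right, ?_⟩
      ext
      · rw [h]; rfl
      · rfl
  have hFrob : Cfsg.IsFrobeniusComplement H := by
    refine ⟨?_, ?_, ?_⟩
    · intro hbot
      have h1 : (SemidirectProduct.inr (QuaternionGroup.a 1) :
          Multiplicative V ⋊[φ] QuaternionGroup 2) ∈ H := by rw [hHdef]; exact ⟨_, rfl⟩
      rw [hbot, Subgroup.mem_bot] at h1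
      have h2 := SemidirectProduct.inr_injective (h1.trans (map_one _).symm)
      revert h2; decide
    · intro htop
      obtain ⟨k, hk⟩ := hne
      have h1 : (SemidirectProduct.inl k : Multiplicative V ⋊[φ] QuaternionGroup 2) ∈ H := by
        rw [htop]; trivial
      exact hk ((hmem _).mp h1)
    · intro g hg
      rw [eq_bot_iff]
      rintro x ⟨hx1, hx2⟩
      rw [Subgroup.mem_bot]
      obtain ⟨y, hy, hyx⟩ := (Subgroup.mem_smul_pointwise_iff_exists _ _ _).mp hx2
      have hyl : y.left = 1 := (hmem y).mp hy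
      have hxl : x.left = 1 := (hmem x).mp hx1
      have hgl : g.left ≠ 1 := fun h => hg ((hmem g).mpr h)
      have hx : x = g * y * g⁻¹ := hyx.symm
      have hcomp : x.left = g.left * φ (g.right * y.right * g.right⁻¹) g.left⁻¹ := by
        rw [hx, SemidirectProduct.mul_left, SemidirectProduct.mul_left,
          SemidirectProduct.mul_right, SemidirectProduct.inv_left, hyl, map_one, mul_one,
          ← MulAut.mul_apply, ← map_mul]
      rw [hxl] at hcomp
      have hfix : φ (g.right * y.right * g.right⁻¹) g.left⁻¹ = g.left⁻¹ :=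
        eq_inv_of_mul_eq_one_right hcomp.symm
      have hc : g.right * y.right * g.right⁻¹ = 1 := by
        by_contra hc
        exact hgl (inv_eq_one.mp (hfpf _ hc _ hfix))
      have hyr : y.right = 1 := by
        have h3 : y.right = g.right⁻¹ * (g.right * y.right * g.right⁻¹) * g.right := by group
        rw [h3, hc]; group
      have hy1 : y = 1 := by
        ext
        · exact hyl
        · exact hyr
      rw [hx, hy1]; group
  have eH : H ≃* QuaternionGroup 2 := by
    rw [hHdef]
    exact (MonoidHom.ofInjective SemidirectProduct.inr_injective).symm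
  refine ⟨Multiplicative V ⋊[φ] QuaternionGroup 2, inferInstance, inferInstance, H, hFrob,
    ⟨eH⟩, ?_⟩
  obtain ⟨N, hNset, hNn, hNc⟩ := Cfsg.Agent.S0035.result H hFrob
  have h1 := hNc.card_mul_card
  have hH8 : Nat.card H = 8 := by
    rw [Nat.card_congr eH.toEquiv, Nat.card_eq_fintype_card, QuaternionGroup.card]
  have hL : Nat.card (Multiplicative V ⋊[φ] QuaternionGroup 2) = Nat.card V * 8 := by
    rw [SemidirectProduct.card, Nat.card_eq_fintype_card (α := QuaternionGroup 2),
      QuaternionGroup.card]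
    rfl
  have hN : Nat.card N = Nat.card V := by
    rw [hH8, hL] at h1
    omega
  rw [← hNset]; exact hN

theorem result (m : ℕ) :
    (∃ (L : Type) (_ : Group L) (_ : Finite L) (H : Subgroup L), Cfsg.IsFrobeniusComplement H ∧
        Nonempty (H ≃* QuaternionGroup 2) ∧ Nat.card (Cfsg.frobeniusKernel H) = m) ↔
    (Odd m ∧ IsSquare m ∧ 1 < m) := by
  constructor
  · rintro ⟨L, iG, iF, H, hF, ⟨e⟩, hm⟩
    have hcardH : Nat.card H = 2 ^ 3 := by
      rw [Nat.card_congr e.toEquiv, Nat.card_eq_fintype_card, QuaternionGroup.card]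
      rfl
    haveI : Fact (Nat.Prime 2) := ⟨Nat.prime_two⟩
    have hZ : ∃ (p : ℕ) (_ : Fact p.Prime) (P : Sylow p H), ¬ IsCyclic P := by
      refine ⟨2, inferInstance, default, ?_⟩
      intro hcyc
      have hPc : Nat.card (default : Sylow 2 H) = Nat.card H := by
        rw [Sylow.card_eq_multiplicity, hcardH, Nat.Prime.factorization_pow Nat.prime_two,
          Finsupp.single_eq_same]
      have htop : ((default : Sylow 2 H) : Subgroup H) = ⊤ := Subgroup.eq_top_of_card_eq _ hPc
      have hcomm : ∀ x y : H, x * y = y * x := by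
        intro x y
        have hx : x ∈ ((default : Sylow 2 H) : Subgroup H) := by rw [htop]; trivial
        have hy : y ∈ ((default : Sylow 2 H) : Subgroup H) := by rw [htop]; trivial
        have h3 := (IsCyclic.isMulCommutative (α := ↥(default : Sylow 2 H))).is_comm.comm
          ⟨x, hx⟩ ⟨y, hy⟩
        exact congrArg Subtype.val h3
      have h4 := hcomm (e.symm (QuaternionGroup.a 1)) (e.symm (QuaternionGroup.xa 0))
      have h2 := congrArg e h4
      rw [map_mul, map_mul, e.apply_symm_apply, e.apply_symm_apply] at h2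
      revert h2; decide
    obtain ⟨hodd, hsq⟩ := Cfsg.Agent.S4296.result H hF hZ
    rw [hm] at hodd hsq
    refine ⟨hodd, hsq, ?_⟩
    obtain ⟨N, hNset, hNn, hNc⟩ := Cfsg.Agent.S0035.result H hF
    have hNbot : N ≠ ⊥ := by
      rintro rfl
      exact hF.2.1 (Subgroup.isComplement'_bot_left.mp hNc)
    have h5 : 1 < Nat.card N := (Subgroup.one_lt_card_iff_ne_bot N).mpr hNbot
    rw [← hm, ← hNset]; exact h5
  · rintro ⟨hodd, ⟨s, rfl⟩, h1⟩
    have hs : Odd s := (Nat.odd_mul.mp hodd).1
    obtain ⟨V, iV1, iV2, a, b, hc, ha, hb, hab⟩ := exists_module s hs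
    have h6 := construct V a b (hc ▸ hodd) (hc ▸ h1) ha hb hab
    rw [hc] at h6; exact h6

end Cfsg.Agent.S4295
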