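import Cfsg.Statements.S4299
import Cfsg.Agent.Helper23.Frob
import Mathlib

set_option autoImplicit false
open Cfsg

namespace Cfsg.Agent.S4299

theorem exists_orderOf_eq {G : Type*} [Group G] [Finite G] [IsCyclic G] (n : ℕ)
    (hn : n ∣ Nat.card G) : ∃ g : G, orderOf g = n := by
  obtain ⟨g, hg⟩ := IsCyclic.exists_ofOrder_eq_natCard (α := G)
  obtain ⟨k, hk⟩ := hn
  have hpos : 0 < Nat.card G := Nat.card_pos
  have hk0 : 0 < k := by
    rcases Nat.eq_zero_or_pos k with h | h
    · rw [h, mul_zero] at hk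
      omega
    · exact h
  refine ⟨g ^ k, ?_⟩
  rw [orderOf_pow, hg, hk, Nat.gcd_eq_right (Dvd.intro_left n rfl), Nat.mul_div_cancel _ hk0]

/-- Every nontrivial finite cyclic group is a Frobenius complement. -/
theorem result {C : Type*} [Group C] [Finite C] [IsCyclic C] [Nontrivial C] :
    ∃ (L : Type) (_ : Group L) (_ : Finite L) (H : Subgroup L), Cfsg.IsFrobeniusComplement H ∧ Nonempty (C ≃* H) := by
  classical
  have hn2 : 2 ≤ Nat.card C := Finite.one_lt_card (α := C)
  obtain ⟨p, hp, hpn, hpmod⟩ := Nat.exists_prime_gt_modEq_one (Nat.card C)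
    (by omega : Nat.card C ≠ 0)
  haveI : Fact p.Prime := ⟨hp⟩
  have hdvd : Nat.card C ∣ Nat.card (ZMod p)ˣ := by
    have h0 : Nat.card (ZMod p)ˣ = p - 1 := by
      rw [Nat.card_eq_fintype_card, ZMod.card_units]
    rw [h0]
    exact (Nat.modEq_iff_dvd' hp.one_lt.le).mp hpmod.symm
  obtain ⟨ω, hω⟩ := exists_orderOf_eq (G := (ZMod p)ˣ) (Nat.card C) hdvd
  have hHcard : Nat.card (Subgroup.zpowers ω) = Nat.card C := by rw [Nat.card_zpowers, hω]
  haveI : Nontrivial (Subgroup.zpowers ω) := by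
    rw [← Finite.one_lt_card_iff_nontrivial]
    omega
  letI : DistribMulAction (Subgroup.zpowers ω) (ZMod p) :=
    DistribMulAction.compHom (ZMod p) (Subgroup.zpowers ω).subtype
  have hfpf : ∀ h : Subgroup.zpowers ω, h ≠ 1 → ∀ v : ZMod p, h • v = v → v = 0 := by
    intro h hh v hv
    have h1 : ((h : (ZMod p)ˣ) : ZMod p) * v = v := hv
    have h2 : (((h : (ZMod p)ˣ) : ZMod p) - 1) * v = 0 := by
      rw [sub_mul, h1, one_mul, sub_self]
    rcases mul_eq_zero.mp h2 with h3 | h3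
    · exfalso
      apply hh
      apply Subtype.ext
      apply Units.ext
      simpa [sub_eq_zero] using h3
    · exact h3
  obtain ⟨L, hL1, hL2, K, hK, ⟨e⟩⟩ :=
    Cfsg.Agent.Helper23.exists_frobenius_of_distrib (H := Subgroup.zpowers ω) (V := ZMod p) hfpf
  refine ⟨L, hL1, hL2, K, hK, ⟨?_⟩⟩
  have e0 : C ≃* Subgroup.zpowers ω := mulEquivOfCyclicCardEq (by rw [hHcard])
  exact e0.trans e

end Cfsg.Agent.S4299
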