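import Cfsg.Statements.S4297
import Cfsg.Agent.Helper23.Frob
import Cfsg.Agent.S4299
import Mathlib

set_option autoImplicit false
open Cfsg

namespace Cfsg.Agent.S4297

open QuaternionGroup

/-- the character `i ↦ u ^ i` of `ZMod (2n)`. -/
def chi {n p : ℕ} (u : (ZMod p)ˣ) (i : ZMod (2 * n)) : (ZMod p)ˣ := u ^ i.val

theorem chi_add {n p : ℕ} [NeZero n] (u : (ZMod p)ˣ) (hu : orderOf u = 2 * n)
    (i j : ZMod (2 * n)) : chi u (i + j) = chi u i * chi u j := by
  unfold chi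
  rw [ZMod.val_add, ← pow_add]
  have h := pow_mod_orderOf u (i.val + j.val)
  rw [hu] at h
  exact h

theorem chi_zero {n p : ℕ} [NeZero n] (u : (ZMod p)ˣ) : chi u (0 : ZMod (2 * n)) = 1 := by
  simp [chi]

theorem chi_neg {n p : ℕ} [NeZero n] (u : (ZMod p)ˣ) (hu : orderOf u = 2 * n)
    (i : ZMod (2 * n)) : chi u (-i) = (chi u i)⁻¹ := by
  rw [eq_inv_iff_mul_eq_one, ← chi_add u hu, neg_add_cancel, chi_zero]

theorem chi_sub {n p : ℕ} [NeZero n] (u : (ZMod p)ˣ) (hu : orderOf u = 2 * n)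
    (i j : ZMod (2 * n)) : chi u (i - j) = chi u i * (chi u j)⁻¹ := by
  rw [sub_eq_add_neg, chi_add u hu, chi_neg u hu]

theorem chi_eq_one {n p : ℕ} [NeZero n] (u : (ZMod p)ˣ) (hu : orderOf u = 2 * n)
    (i : ZMod (2 * n)) (h : chi u i = 1) : i = 0 := by
  unfold chi at h
  have h1 : orderOf u ∣ i.val := orderOf_dvd_of_pow_eq_one h
  rw [hu] at h1
  have h2 : i.val < 2 * n := ZMod.val_lt i
  have h3 : i.val = 0 := Nat.eq_zero_of_dvd_of_lt h1 h2
  exact (ZMod.val_eq_zero i).mp h3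

theorem chi_n {n p : ℕ} [NeZero n] [Fact p.Prime] (u : (ZMod p)ˣ) (hu : orderOf u = 2 * n) :
    ((chi u (n : ZMod (2 * n)) : (ZMod p)ˣ) : ZMod p) = -1 := by
  have hn : 0 < n := Nat.pos_of_ne_zero (NeZero.ne n)
  have h1 : ((n : ZMod (2 * n))).val = n := by
    rw [ZMod.val_natCast]
    exact Nat.mod_eq_of_lt (by omega)
  unfold chi
  rw [h1]
  have h2 : ((u ^ n : (ZMod p)ˣ) : ZMod p) ^ 2 = 1 := by
    rw [← Units.val_pow_eq_pow_val, ← pow_mul, mul_comm, ← hu, pow_orderOf_eq_one]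
    rfl
  have h3 : (((u ^ n : (ZMod p)ˣ) : ZMod p) - 1) * (((u ^ n : (ZMod p)ˣ) : ZMod p) + 1) = 0 := by
    have h4 : (((u ^ n : (ZMod p)ˣ) : ZMod p) - 1) * (((u ^ n : (ZMod p)ˣ) : ZMod p) + 1) =
        ((u ^ n : (ZMod p)ˣ) : ZMod p) ^ 2 - 1 := by ring
    rw [h4, h2, sub_self]
  rcases mul_eq_zero.mp h3 with h5 | h5
  · exfalso
    have h6 : u ^ n = 1 := Units.ext (by simpa [sub_eq_zero] using h5)
    have h7 : orderOf u ∣ n := orderOf_dvd_of_pow_eq_one h6
    rw [hu] at h7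
    have := Nat.le_of_dvd hn h7
    omega
  · exact eq_neg_of_add_eq_zero_left h5

theorem chi_n_inv {n p : ℕ} [NeZero n] [Fact p.Prime] (u : (ZMod p)ˣ) (hu : orderOf u = 2 * n) :
    (((chi u (n : ZMod (2 * n)))⁻¹ : (ZMod p)ˣ) : ZMod p) = -1 := by
  rw [Units.val_inv_eq_inv_val, chi_n u hu]
  norm_num

theorem chi_mul_inv {n p : ℕ} (u : (ZMod p)ˣ) (i : ZMod (2 * n)) :
    ((chi u i : (ZMod p)ˣ) : ZMod p) * (((chi u i)⁻¹ : (ZMod p)ˣ) : ZMod p) = 1 := by
  rw [← Units.val_mul, mul_inv_cancel]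
  rfl

/-- the action of the quaternion group on pairs. -/
def qsmul {n p : ℕ} (u : (ZMod p)ˣ) : QuaternionGroup n → ZMod p × ZMod p → ZMod p × ZMod p
  | a i, v => (((chi u i : (ZMod p)ˣ) : ZMod p) * v.1, (((chi u i)⁻¹ : (ZMod p)ˣ) : ZMod p) * v.2)
  | xa j, v => ((((chi u j)⁻¹ : (ZMod p)ˣ) : ZMod p) * v.2,
      -(((chi u j : (ZMod p)ˣ) : ZMod p) * v.1))

/-- the fixed-point-free action of the quaternion group on `𝔽_p²`. -/
@[reducible] def qAction {n p : ℕ} [NeZero n] [Fact p.Prime] (u : (ZMod p)ˣ)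
    (hu : orderOf u = 2 * n) : DistribMulAction (QuaternionGroup n) (ZMod p × ZMod p) where
  smul := qsmul u
  one_smul := by
    intro v
    show qsmul u (1 : QuaternionGroup n) v = v
    rw [one_def]
    simp [qsmul, chi_zero]
  mul_smul := by
    intro g h v
    show qsmul u (g * h) v = qsmul u g (qsmul u h v)
    have hcn := chi_n u hu
    have hcni := chi_n_inv u hu
    rcases g with i | i <;> rcases h with j | j
    · simp only [a_mul_a, qsmul, chi_add u hu, mul_inv, Units.val_mul]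
      ext <;> simp only <;> ring
    · simp only [a_mul_xa, qsmul, chi_sub u hu, mul_inv, inv_inv, Units.val_mul]
      ext <;> simp only <;> ring
    · simp only [xa_mul_a, qsmul, chi_add u hu, mul_inv, Units.val_mul]
      ext <;> simp only <;> ring
    · simp only [xa_mul_xa, qsmul, chi_add u hu, chi_sub u hu, mul_inv, inv_inv, Units.val_mul,
        hcn, hcni]
      ext <;> simp only <;> ring
  smul_zero := by
    intro g
    show qsmul u g 0 = 0
    rcases g with i | i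
    · simp only [qsmul, Prod.fst_zero, Prod.snd_zero, mul_zero]
      rfl
    · simp only [qsmul, Prod.fst_zero, Prod.snd_zero, mul_zero, neg_zero]
      rfl
  smul_add := by
    intro g v w
    show qsmul u g (v + w) = qsmul u g v + qsmul u g w
    rcases g with i | i
    · simp only [qsmul, Prod.fst_add, Prod.snd_add]
      ext <;> simp only [Prod.fst_add, Prod.snd_add] <;> ring
    · simp only [qsmul, Prod.fst_add, Prod.snd_add]
      ext <;> simp only [Prod.fst_add, Prod.snd_add] <;> ring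

/-- Generalised quaternion groups are Frobenius complements. -/
theorem result (n : ℕ) (hn : 2 ≤ n) :
    ∃ (L : Type) (_ : Group L) (_ : Finite L) (H : Subgroup L), Cfsg.IsFrobeniusComplement H ∧ Nonempty (H ≃* QuaternionGroup n) := by
  classical
  haveI : NeZero n := ⟨by omega⟩
  obtain ⟨p, hp, hp2, hpmod⟩ := Nat.exists_prime_gt_modEq_one 2 (by omega : 2 * n ≠ 0)
  haveI : Fact p.Prime := ⟨hp⟩
  have hdvd : 2 * n ∣ Nat.card (ZMod p)ˣ := by
    have h0 : Nat.card (ZMod p)ˣ = p - 1 := by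
      rw [Nat.card_eq_fintype_card, ZMod.card_units]
    rw [h0]
    exact (Nat.modEq_iff_dvd' hp.one_lt.le).mp hpmod.symm
  obtain ⟨u, hu⟩ := Cfsg.Agent.S4299.exists_orderOf_eq (G := (ZMod p)ˣ) (2 * n) hdvd
  letI := qAction u hu
  have h2ne : (2 : ZMod p) ≠ 0 := by
    intro h
    have h1 : ((2 : ℕ) : ZMod p) = 0 := by exact_mod_cast h
    rw [ZMod.natCast_eq_zero_iff] at h1
    have := Nat.le_of_dvd (by norm_num) h1
    omega
  have hfpf : ∀ g : QuaternionGroup n, g ≠ 1 → ∀ v : ZMod p × ZMod p, g • v = v → v = 0 := by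
    intro g hg v hv
    have hv' : qsmul u g v = v := hv
    rcases g with i | j
    · have hi : i ≠ 0 := by
        rintro rfl
        exact hg rfl
      have hc : ((chi u i : (ZMod p)ˣ) : ZMod p) ≠ 1 := by
        intro h
        exact hi (chi_eq_one u hu i (Units.ext h))
      have h1 : ((chi u i : (ZMod p)ˣ) : ZMod p) * v.1 = v.1 := congrArg Prod.fst hv'
      have h2 : (((chi u i)⁻¹ : (ZMod p)ˣ) : ZMod p) * v.2 = v.2 := congrArg Prod.snd hv'
      have h3 : (((chi u i : (ZMod p)ˣ) : ZMod p) - 1) * v.1 = 0 := by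
        rw [sub_mul, h1, one_mul, sub_self]
      have h4 : (((chi u i : (ZMod p)ˣ) : ZMod p) - 1) * v.2 = 0 := by
        have h5 := chi_mul_inv u i
        have h6 : ((chi u i : (ZMod p)ˣ) : ZMod p) * v.2 = v.2 := by
          calc ((chi u i : (ZMod p)ˣ) : ZMod p) * v.2
              = ((chi u i : (ZMod p)ˣ) : ZMod p) * ((((chi u i)⁻¹ : (ZMod p)ˣ) : ZMod p) * v.2) := by
                rw [h2]
            _ = v.2 := by rw [← mul_assoc, h5, one_mul]
        rw [sub_mul, h6, one_mul, sub_self]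
      have h7 : v.1 = 0 := (mul_eq_zero.mp h3).resolve_left (sub_ne_zero.mpr hc)
      have h8 : v.2 = 0 := (mul_eq_zero.mp h4).resolve_left (sub_ne_zero.mpr hc)
      exact Prod.ext h7 h8
    · have h1 : (((chi u j)⁻¹ : (ZMod p)ˣ) : ZMod p) * v.2 = v.1 := congrArg Prod.fst hv'
      have h2 : -(((chi u j : (ZMod p)ˣ) : ZMod p) * v.1) = v.2 := congrArg Prod.snd hv'
      have h5 := chi_mul_inv u j
      have h3 : 2 * v.1 = 0 := by
        have h4 : v.1 = -v.1 := by
          calc v.1 = (((chi u j)⁻¹ : (ZMod p)ˣ) : ZMod p) * v.2 := h1.symm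
            _ = (((chi u j)⁻¹ : (ZMod p)ˣ) : ZMod p) *
                (-(((chi u j : (ZMod p)ˣ) : ZMod p) * v.1)) := by rw [h2]
            _ = -((((chi u j : (ZMod p)ˣ) : ZMod p) * (((chi u j)⁻¹ : (ZMod p)ˣ) : ZMod p)) * v.1) := by
                ring
            _ = -v.1 := by rw [h5, one_mul]
        linear_combination h4
      have h7 : v.1 = 0 := (mul_eq_zero.mp h3).resolve_left h2ne
      have h8 : v.2 = 0 := by rw [← h2, h7, mul_zero, neg_zero]
      exact Prod.ext h7 h8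
  obtain ⟨L, hL1, hL2, K, hK, ⟨e⟩⟩ :=
    Cfsg.Agent.Helper23.exists_frobenius_of_distrib (H := QuaternionGroup n)
      (V := ZMod p × ZMod p) hfpf
  exact ⟨L, hL1, hL2, K, hK, ⟨e.symm⟩⟩

end Cfsg.Agent.S4297
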