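import Mathlib
import Cfsg.Statements.S4298
import Cfsg.Agent.Helper23.Frob

set_option autoImplicit false
open Cfsg

namespace Cfsg.Agent.S4298

/-- an explicit embedding of `SL(2,3)` into `SL(2,5)`, as a table on matrix entries -/
def tbl : Fin 3 → Fin 3 → Fin 3 → Fin 3 → Fin 5 × Fin 5 × Fin 5 × Fin 5
  | 0, 1, 2, 0 => (0, 4, 1, 0)
  | 0, 1, 2, 1 => (2, 4, 3, 4)
  | 0, 1, 2, 2 => (3, 2, 1, 1)
  | 0, 2, 1, 0 => (0, 1, 4, 0)
  | 0, 2, 1, 1 => (2, 3, 4, 4)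
  | 0, 2, 1, 2 => (3, 1, 2, 1)
  | 1, 0, 0, 1 => (1, 0, 0, 1)
  | 1, 0, 1, 1 => (1, 2, 1, 3)
  | 1, 0, 2, 1 => (3, 3, 4, 1)
  | 1, 1, 0, 1 => (1, 1, 2, 3)
  | 1, 1, 1, 2 => (0, 2, 2, 0)
  | 1, 1, 2, 0 => (4, 2, 1, 2)
  | 1, 2, 0, 1 => (3, 4, 3, 1)
  | 1, 2, 1, 0 => (4, 1, 2, 2)
  | 1, 2, 2, 2 => (3, 0, 0, 2)
  | 2, 0, 0, 2 => (4, 0, 0, 4)
  | 2, 0, 1, 2 => (2, 2, 1, 4)
  | 2, 0, 2, 2 => (4, 3, 4, 2)
  | 2, 1, 0, 2 => (2, 1, 2, 4)
  | 2, 1, 1, 1 => (2, 0, 0, 3)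
  | 2, 1, 2, 0 => (1, 4, 3, 3)
  | 2, 2, 0, 2 => (4, 4, 3, 2)
  | 2, 2, 1, 0 => (1, 3, 4, 3)
  | 2, 2, 2, 1 => (0, 3, 3, 0)
  | _, _, _, _ => (0, 0, 0, 0)

/-- product of 2x2 matrices over `Fin 5`, as tuples -/
def tmul (A B : Fin 5 × Fin 5 × Fin 5 × Fin 5) : Fin 5 × Fin 5 × Fin 5 × Fin 5 :=
  (A.1 * B.1 + A.2.1 * B.2.2.1, A.1 * B.2.1 + A.2.1 * B.2.2.2,
    A.2.2.1 * B.1 + A.2.2.2 * B.2.2.1, A.2.2.1 * B.2.1 + A.2.2.2 * B.2.2.2)

set_option maxRecDepth 1000000 in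
theorem tbl_mul : ∀ a b c d e f g h : Fin 3, a * d - b * c = 1 → e * h - f * g = 1 →
    tbl (a * e + b * g) (a * f + b * h) (c * e + d * g) (c * f + d * h)
      = tmul (tbl a b c d) (tbl e f g h) := by
  decide

set_option maxRecDepth 1000000 in
theorem tbl_fpf : ∀ a b c d : Fin 3, a * d - b * c = 1 → ¬ (a = 1 ∧ b = 0 ∧ c = 0 ∧ d = 1) →
    ∀ x y : Fin 5, (tbl a b c d).1 * x + (tbl a b c d).2.1 * y = x →
      (tbl a b c d).2.2.1 * x + (tbl a b c d).2.2.2 * y = y → x = 0 ∧ y = 0 := by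
  decide

/-- the table, with entries read in `ZMod` -/
def tblZ (a b c d : ZMod 3) : ZMod 5 × ZMod 5 × ZMod 5 × ZMod 5 := tbl a b c d

/-- product of 2x2 matrices over `ZMod 5`, as tuples -/
def tmulZ (A B : ZMod 5 × ZMod 5 × ZMod 5 × ZMod 5) : ZMod 5 × ZMod 5 × ZMod 5 × ZMod 5 :=
  (A.1 * B.1 + A.2.1 * B.2.2.1, A.1 * B.2.1 + A.2.1 * B.2.2.2,
    A.2.2.1 * B.1 + A.2.2.2 * B.2.2.1, A.2.2.1 * B.2.1 + A.2.2.2 * B.2.2.2)

theorem tblZ_mul : ∀ a b c d e f g h : ZMod 3, a * d - b * c = 1 → e * h - f * g = 1 →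
    tblZ (a * e + b * g) (a * f + b * h) (c * e + d * g) (c * f + d * h)
      = tmulZ (tblZ a b c d) (tblZ e f g h) := tbl_mul

theorem tblZ_fpf : ∀ a b c d : ZMod 3, a * d - b * c = 1 → ¬ (a = 1 ∧ b = 0 ∧ c = 0 ∧ d = 1) →
    ∀ x y : ZMod 5, (tblZ a b c d).1 * x + (tblZ a b c d).2.1 * y = x →
      (tblZ a b c d).2.2.1 * x + (tblZ a b c d).2.2.2 * y = y → x = 0 ∧ y = 0 := tbl_fpf

theorem tblZ_one : tblZ 1 0 0 1 = (1, 0, 0, 1) := rfl

/-- the table applied to a matrix -/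
def tblA (A : Matrix.SpecialLinearGroup (Fin 2) (ZMod 3)) : ZMod 5 × ZMod 5 × ZMod 5 × ZMod 5 :=
  tblZ (A.1 0 0) (A.1 0 1) (A.1 1 0) (A.1 1 1)

theorem det_eq (A : Matrix.SpecialLinearGroup (Fin 2) (ZMod 3)) :
    A.1 0 0 * A.1 1 1 - A.1 0 1 * A.1 1 0 = 1 := by
  have h := A.2
  rw [Matrix.det_fin_two] at h
  exact h

theorem tblA_one : tblA 1 = (1, 0, 0, 1) := by
  unfold tblA
  simp only [Matrix.SpecialLinearGroup.coe_one]
  simp [tblZ_one]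

theorem tblA_mul (A B : Matrix.SpecialLinearGroup (Fin 2) (ZMod 3)) :
    tblA (A * B) = tmulZ (tblA A) (tblA B) := by
  unfold tblA
  simp only [Matrix.SpecialLinearGroup.coe_mul, Matrix.mul_apply, Fin.sum_univ_two]
  exact tblZ_mul _ _ _ _ _ _ _ _ (det_eq A) (det_eq B)

/-- the action on `ZMod 5 × ZMod 5` -/
def act (A : Matrix.SpecialLinearGroup (Fin 2) (ZMod 3)) (v : ZMod 5 × ZMod 5) :
    ZMod 5 × ZMod 5 :=
  ((tblA A).1 * v.1 + (tblA A).2.1 * v.2, (tblA A).2.2.1 * v.1 + (tblA A).2.2.2 * v.2)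

/-- the action as a `DistribMulAction` -/
@[reducible] def actInst : DistribMulAction (Matrix.SpecialLinearGroup (Fin 2) (ZMod 3)) (ZMod 5 × ZMod 5) where
  smul := act
  one_smul v := by
    show act 1 v = v
    simp [act, tblA_one]
  mul_smul A B v := by
    show act (A * B) v = act A (act B v)
    simp only [act, tblA_mul, tmulZ]
    ext <;> ring
  smul_zero A := by
    show act A 0 = 0
    simp [act]
  smul_add A v w := by
    show act A (v + w) = act A v + act A w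
    simp only [act]
    ext <;> simp <;> ring

/-- The group SL(2,3) of order 24 (the binary tetrahedral group) occurs as a Frobenius complement of some finite Frobenius group. -/
theorem result :
    ∃ (L : Type) (_ : Group L) (_ : Finite L) (H : Subgroup L), Cfsg.IsFrobeniusComplement H ∧ Nonempty (H ≃* Matrix.SpecialLinearGroup (Fin 2) (ZMod 3)) := by
  letI := actInst
  haveI : Nontrivial (Matrix.SpecialLinearGroup (Fin 2) (ZMod 3)) := by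
    refine ⟨⟨1, -1, ?_⟩⟩
    intro h
    have h1 := congrArg (fun A : Matrix.SpecialLinearGroup (Fin 2) (ZMod 3) => A.1 0 0) h
    simp at h1
    revert h1
    decide
  haveI : Nontrivial (ZMod 5 × ZMod 5) := ⟨⟨(0, 0), (1, 0), by decide⟩⟩
  obtain ⟨L, iG, iF, K, hK, ⟨e⟩⟩ := Helper23.exists_frobenius_of_distrib
    (H := Matrix.SpecialLinearGroup (Fin 2) (ZMod 3)) (V := ZMod 5 × ZMod 5) (by
      intro A hA v hv
      have hv' : act A v = v := hv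
      have h1 := congrArg Prod.fst hv'
      have h2 := congrArg Prod.snd hv'
      simp only [act] at h1 h2
      have h3 := tblZ_fpf (A.1 0 0) (A.1 0 1) (A.1 1 0) (A.1 1 1) (det_eq A) (by
        rintro ⟨e1, e2, e3, e4⟩
        apply hA
        ext i j
        fin_cases i <;> fin_cases j <;> simp [e1, e2, e3, e4]) v.1 v.2 h1 h2
      ext
      · exact h3.1
      · exact h3.2)
  exact ⟨L, iG, iF, K, hK, ⟨e.symm⟩⟩

end Cfsg.Agent.S4298
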