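import Cfsg.Statements.S4300

set_option autoImplicit false
open Cfsg

namespace Cfsg.Agent.S4300

theorem result {G : Type*} [Group G] {X : Type*} [MulAction G X] [FaithfulSMul G X]
    (hprim : MulAction.IsPreprimitive G X) (x : X) (hsimple : IsSimpleGroup (MulAction.stabilizer G x)) :
    IsSimpleGroup G ∨ ∃ N : Subgroup G, N.Normal ∧ N ≠ ⊥ ∧ N ≠ ⊤ ∧
      MulAction.IsPretransitive N X ∧ ∀ y : X, MulAction.stabilizer N y = ⊥ := by
  classical
  by_cases hs : IsSimpleGroup G
  · left; exact hs
  right
  have hntS : Nontrivial (MulAction.stabilizer G x) := hsimple.toNontrivial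
  have hntG : Nontrivial G := by
    obtain ⟨a, b, hab⟩ := hntS
    exact ⟨⟨a, b, fun h => hab (Subtype.ext h)⟩⟩
  -- G is not simple, so there is a proper nontrivial normal subgroup
  have hex : ∃ N : Subgroup G, N.Normal ∧ N ≠ ⊥ ∧ N ≠ ⊤ := by
    by_contra hcon
    apply hs
    refine IsSimpleGroup.mk ?_
    intro H hH
    by_contra h2
    apply hcon
    refine ⟨H, hH, ?_, ?_⟩
    · intro h; exact h2 (Or.inl h)
    · intro h; exact h2 (Or.inr h)
  obtain ⟨N, hNn, hN1, hN2⟩ := hex
  -- N acts nontrivially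
  have hfix : MulAction.fixedPoints N X ≠ Set.univ := by
    intro hfix
    apply hN1
    rw [eq_bot_iff]
    intro n hn
    rw [Subgroup.mem_bot]
    apply FaithfulSMul.eq_of_smul_eq_smul (α := X)
    intro y
    have hy : y ∈ MulAction.fixedPoints N X := by rw [hfix]; trivial
    rw [one_smul]
    exact hy ⟨n, hn⟩
  have htr : MulAction.IsPretransitive N X :=
    MulAction.IsQuasiPreprimitive.isPretransitive_of_normal hfix
  have htrG : MulAction.IsPretransitive G X := hprim.toIsPretransitive
  refine ⟨N, hNn, hN1, hN2, htr, ?_⟩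
  -- N ∩ S is normal in the simple group S
  have hnorm : (N.subgroupOf (MulAction.stabilizer G x)).Normal := Subgroup.normal_subgroupOf
  have hdisj : Disjoint N (MulAction.stabilizer G x) := by
    rcases hnorm.eq_bot_or_eq_top with h | h
    · exact Subgroup.subgroupOf_eq_bot.mp h
    · exfalso
      apply hN2
      rw [Subgroup.subgroupOf_eq_top] at h
      rw [eq_top_iff]
      intro g _
      obtain ⟨n, hn⟩ := MulAction.exists_smul_eq N x (g • x)
      have h1 : (n : G)⁻¹ * g ∈ MulAction.stabilizer G x := by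
        rw [MulAction.mem_stabilizer_iff, mul_smul, inv_smul_eq_iff]
        exact hn.symm
      have h2 := N.mul_mem n.2 (h h1)
      simpa using h2
  intro y
  rw [eq_bot_iff]
  intro n hn
  rw [MulAction.mem_stabilizer_iff] at hn
  rw [Subgroup.mem_bot]
  obtain ⟨g, hg⟩ := MulAction.exists_smul_eq G x y
  have h1 : g⁻¹ * (n : G) * g ∈ N := by
    have := hNn.conj_mem (n : G) n.2 g⁻¹
    simpa using this
  have h2 : g⁻¹ * (n : G) * g ∈ MulAction.stabilizer G x := by
    rw [MulAction.mem_stabilizer_iff, mul_smul, mul_smul, hg, inv_smul_eq_iff, hg]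
    exact hn
  have h3 := Subgroup.disjoint_def.mp hdisj h1 h2
  apply Subtype.ext
  simp only [Subgroup.coe_one]
  calc (n : G) = g * (g⁻¹ * (n : G) * g) * g⁻¹ := by group
    _ = 1 := by rw [h3]; group

end Cfsg.Agent.S4300
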