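import Cfsg.Statements.S4301
import Mathlib

set_option autoImplicit false
open Cfsg

namespace Cfsg.Agent.S4301

/-- One-point extension of a multiply transitive group. Let X be a set and G a group of permutations of Option X (the set X with one extra point ∗ = none) all of whose elements fix ∗, such that G is k-transitive on the points of X for some k ≥ 2, X having at least k points. Suppose a permutation h of Option X and an element g of G satisfy: h interchanges ∗ with a point x of X and fixes a point y of X; g interchanges x and y; (g h)³ and h² lie in G; and for every f in G fixing x, the product h f h lies in G and fixes x. Then an element of the group generated by G and h fixes ∗ exactly when it lies in G, and that group acts (k+1)-transitively on Option X. -/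
theorem result {X : Type*} (G : Subgroup (Equiv.Perm (Option X))) (hfix : ∀ f ∈ G, f none = none)
    (k : ℕ) (hk : 2 ≤ k) (hkX : Nonempty (Fin k ↪ X))
    (htrans : ∀ a b : Fin k ↪ X, ∃ f ∈ G, ∀ i, f (some (a i)) = some (b i))
    (h g : Equiv.Perm (Option X)) (hg : g ∈ G) (x y : X)
    (h1 : h none = some x) (h2 : h (some x) = none) (h3 : h (some y) = some y)
    (h4 : g (some x) = some y) (h5 : g (some y) = some x)
    (h6 : (g * h) ^ 3 ∈ G) (h7 : h ^ 2 ∈ G)
    (h8 : ∀ f ∈ G, f (some x) = some x → h * f * h ∈ G ∧ (h * f * h) (some x) = some x) :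
    (∀ f ∈ Subgroup.closure ((G : Set (Equiv.Perm (Option X))) ∪ {h}), f none = none ↔ f ∈ G) ∧
      MulAction.IsMultiplyPretransitive (Subgroup.closure ((G : Set (Equiv.Perm (Option X))) ∪ {h})) (Option X) (k + 1) := by
  classical
  obtain ⟨e⟩ := hkX
  have hxy : x ≠ y := by
    rintro rfl
    rw [h2] at h3
    exact Option.some_ne_none x h3.symm
  have hsome : ∀ f ∈ G, ∀ t : X, ∃ t' : X, f (some t) = some t' := by
    intro f hf t
    cases hft : f (some t) with
    | none =>
      exfalso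
      have := f.injective (hft.trans (hfix f hf).symm)
      exact Option.some_ne_none t this
    | some t' => exact ⟨t', rfl⟩
  have hemb1 : ∀ x₁ : X, ∃ a : Fin k ↪ X, a ⟨0, by omega⟩ = x₁ := by
    intro x₁
    refine ⟨e.trans (Equiv.swap (e ⟨0, by omega⟩) x₁).toEmbedding, ?_⟩
    simp
  have hemb2 : ∀ x₁ x₂ : X, x₁ ≠ x₂ →
      ∃ a : Fin k ↪ X, a ⟨0, by omega⟩ = x₁ ∧ a ⟨1, by omega⟩ = x₂ := by
    intro x₁ x₂ hne
    obtain ⟨a₁, ha₁⟩ := hemb1 x₁
    refine ⟨a₁.trans (Equiv.swap (a₁ ⟨1, by omega⟩) x₂).toEmbedding, ?_, ?_⟩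
    · show Equiv.swap (a₁ ⟨1, by omega⟩) x₂ (a₁ ⟨0, by omega⟩) = x₁
      rw [ha₁]
      apply Equiv.swap_apply_of_ne_of_ne
      · rw [← ha₁]
        intro hh
        have := a₁.injective hh
        simp at this
      · exact hne
    · show Equiv.swap (a₁ ⟨1, by omega⟩) x₂ (a₁ ⟨1, by omega⟩) = x₂
      exact Equiv.swap_apply_left _ _
  have htr1 : ∀ x₁ x₂ : X, ∃ f ∈ G, f (some x₁) = some x₂ := by
    intro x₁ x₂
    obtain ⟨a, ha⟩ := hemb1 x₁
    obtain ⟨b, hb⟩ := hemb1 x₂
    obtain ⟨f, hf, hfa⟩ := htrans a b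
    refine ⟨f, hf, ?_⟩
    have := hfa ⟨0, by omega⟩
    rwa [ha, hb] at this
  have htr2 : ∀ x₁ x₂ y₁ y₂ : X, x₁ ≠ x₂ → y₁ ≠ y₂ →
      ∃ f ∈ G, f (some x₁) = some y₁ ∧ f (some x₂) = some y₂ := by
    intro x₁ x₂ y₁ y₂ hx hy
    obtain ⟨a, ha0, ha1⟩ := hemb2 x₁ x₂ hx
    obtain ⟨b, hb0, hb1⟩ := hemb2 y₁ y₂ hy
    obtain ⟨f, hf, hfa⟩ := htrans a b
    refine ⟨f, hf, ?_, ?_⟩
    · have := hfa ⟨0, by omega⟩
      rwa [ha0, hb0] at this
    · have := hfa ⟨1, by omega⟩
      rwa [ha1, hb1] at this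
  have h7' : h * h ∈ G := by rw [← pow_two]; exact h7
  have h6' : g * h * (g * h) * (g * h) ∈ G := by
    have : (g * h) ^ 3 = g * h * (g * h) * (g * h) := by rw [pow_succ, pow_succ, pow_one]
    rw [← this]; exact h6
  have hinvG : (h * h)⁻¹ ∈ G := G.inv_mem h7'
  have hghg : ∃ a ∈ G, ∃ b ∈ G, h * g * h = a * h * b := by
    refine ⟨g⁻¹ * (g * h * (g * h) * (g * h)) * (h * h)⁻¹,
      G.mul_mem (G.mul_mem (G.inv_mem hg) h6') hinvG, g⁻¹, G.inv_mem hg, ?_⟩
    group
  have hgh' : ∃ a ∈ G, ∃ b ∈ G, h⁻¹ * g * h⁻¹ = a * h * b := by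
    obtain ⟨a, ha, b, hb, hab⟩ := hghg
    refine ⟨(h * h)⁻¹ * a, G.mul_mem hinvG ha, b * (h * h)⁻¹, G.mul_mem hb hinvG, ?_⟩
    have : h⁻¹ * g * h⁻¹ = (h * h)⁻¹ * (h * g * h) * (h * h)⁻¹ := by group
    rw [this, hab]; group
  have hKL : ∀ c ∈ G, h * c * h ∈ G ∨ ∃ a ∈ G, ∃ b ∈ G, h * c * h = a * h * b := by
    intro c hc
    obtain ⟨x', hx'⟩ := hsome c hc x
    by_cases hxx : x' = x
    · left
      rw [hxx] at hx'
      exact (h8 c hc hx').1
    · right
      obtain ⟨d₁, hd₁, hd₁x, hd₁y⟩ := htr2 x y x x' hxy (Ne.symm hxx)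
      have hd₂ : (d₁ * g)⁻¹ * c ∈ G := G.mul_mem (G.inv_mem (G.mul_mem hd₁ hg)) hc
      have hd₂x : ((d₁ * g)⁻¹ * c) (some x) = some x := by
        show (d₁ * g)⁻¹ (c (some x)) = some x
        rw [hx', Equiv.Perm.inv_eq_iff_eq]
        show some x' = d₁ (g (some x))
        rw [h4, hd₁y]
      obtain ⟨a, ha, b, hb, hab⟩ := hgh'
      refine ⟨(h * d₁ * h) * a, G.mul_mem (h8 d₁ hd₁ hd₁x).1 ha,
        b * (h * ((d₁ * g)⁻¹ * c) * h), G.mul_mem hb (h8 _ hd₂ hd₂x).1, ?_⟩
      have : h * c * h =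
          (h * d₁ * h) * (h⁻¹ * g * h⁻¹) * (h * ((d₁ * g)⁻¹ * c) * h) := by group
      rw [this, hab]; group
  have hKD : ∀ f ∈ Subgroup.closure ((G : Set (Equiv.Perm (Option X))) ∪ {h}),
      f ∈ G ∨ ∃ a ∈ G, ∃ b ∈ G, f = a * h * b := by
    intro f hf
    induction hf using Subgroup.closure_induction with
    | mem f hf =>
      rcases hf with hf | hf
      · exact Or.inl hf
      · rw [Set.mem_singleton_iff] at hf
        exact Or.inr ⟨1, G.one_mem, 1, G.one_mem, by rw [hf]; group⟩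
    | one => exact Or.inl G.one_mem
    | mul f₁ f₂ _ _ ih₁ ih₂ =>
      rcases ih₁ with h₁ | ⟨a, ha, b, hb, rfl⟩
      · rcases ih₂ with h₂ | ⟨a', ha', b', hb', rfl⟩
        · exact Or.inl (G.mul_mem h₁ h₂)
        · exact Or.inr ⟨f₁ * a', G.mul_mem h₁ ha', b', hb', by group⟩
      · rcases ih₂ with h₂ | ⟨a', ha', b', hb', rfl⟩
        · exact Or.inr ⟨a, ha, b * f₂, G.mul_mem hb h₂, by group⟩
        · have e1 : a * h * b * (a' * h * b') = a * (h * (b * a') * h) * b' := by group
          rcases hKL (b * a') (G.mul_mem hb ha') with h₃ | ⟨a'', ha'', b'', hb'', h₃⟩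
          · left
            rw [e1]
            exact G.mul_mem (G.mul_mem ha h₃) hb'
          · right
            refine ⟨a * a'', G.mul_mem ha ha'', b'' * b', G.mul_mem hb'' hb', ?_⟩
            rw [e1, h₃]; group
    | inv f _ ih =>
      rcases ih with h₁ | ⟨a, ha, b, hb, rfl⟩
      · exact Or.inl (G.inv_mem h₁)
      · right
        refine ⟨b⁻¹, G.inv_mem hb, (h * h)⁻¹ * a⁻¹, G.mul_mem hinvG (G.inv_mem ha), ?_⟩
        group
  constructor
  · intro f hf
    constructor
    · intro hfn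
      rcases hKD f hf with h₁ | ⟨a, ha, b, hb, rfl⟩
      · exact h₁
      · exfalso
        have : (a * h * b) none = a (some x) := by
          show a (h (b none)) = a (some x)
          rw [hfix b hb, h1]
        rw [this] at hfn
        obtain ⟨t', ht'⟩ := hsome a ha x
        rw [ht'] at hfn
        exact Option.some_ne_none t' hfn
    · exact hfix f
  · rw [MulAction.isMultiplyPretransitive_iff]
    have hT1 : ∀ a : Fin (k + 1) ↪ Option X,
        ∃ f ∈ Subgroup.closure ((G : Set (Equiv.Perm (Option X))) ∪ {h}), f (a 0) = none := by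
      intro a
      cases ha : a 0 with
      | none => exact ⟨1, Subgroup.one_mem _, rfl⟩
      | some x₁ =>
        obtain ⟨c, hc, hcx⟩ := htr1 x₁ x
        refine ⟨h * c, Subgroup.mul_mem _ (Subgroup.subset_closure (Or.inr rfl))
          (Subgroup.subset_closure (Or.inl hc)), ?_⟩
        show h (c (some x₁)) = none
        rw [hcx, h2]
    have hT2 : ∀ a b : Fin (k + 1) ↪ Option X, a 0 = none → b 0 = none →
        ∃ f ∈ G, ∀ i, f (a i) = b i := by
      intro a b ha hb
      have hex : ∀ c : Fin (k + 1) ↪ Option X, c 0 = none →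
          ∃ c' : Fin k ↪ X, ∀ i : Fin k, c i.succ = some (c' i) := by
        intro c hc
        have h1 : ∀ i : Fin k, ∃ t : X, c i.succ = some t := by
          intro i
          cases hci : c i.succ with
          | none =>
            exfalso
            have := c.injective (hci.trans hc.symm)
            exact Fin.succ_ne_zero i this
          | some t => exact ⟨t, rfl⟩
        choose c' hc' using h1
        refine ⟨⟨c', ?_⟩, hc'⟩
        intro i j hij
        have : c i.succ = c j.succ := by rw [hc', hc', hij]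
        exact Fin.succ_injective _ (c.injective this)
      obtain ⟨a', ha'⟩ := hex a ha
      obtain ⟨b', hb'⟩ := hex b hb
      obtain ⟨f, hf, hfab⟩ := htrans a' b'
      refine ⟨f, hf, ?_⟩
      intro i
      refine Fin.cases ?_ (fun j => ?_) i
      · rw [ha, hb]; exact hfix f hf
      · rw [ha', hb']; exact hfab j
    intro a b
    obtain ⟨fa, hfa, hfa0⟩ := hT1 a
    obtain ⟨fb, hfb, hfb0⟩ := hT1 b
    obtain ⟨f, hf, hfab⟩ := hT2 (a.trans fa.toEmbedding) (b.trans fb.toEmbedding) hfa0 hfb0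
    refine ⟨⟨fb⁻¹ * f * fa, Subgroup.mul_mem _ (Subgroup.mul_mem _ (Subgroup.inv_mem _ hfb)
      (Subgroup.subset_closure (Or.inl hf))) hfa⟩, ?_⟩
    ext i : 1
    have := hfab i
    show fb⁻¹ (f (fa (a i))) = b i
    rw [Equiv.Perm.inv_eq_iff_eq]
    exact this

end Cfsg.Agent.S4301
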