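import Cfsg.Statements.S4421

set_option autoImplicit false
open Cfsg

namespace Cfsg.Agent.S4421

theorem cmap_mul {G : Type*} [Group G] (K : Subgroup G) (a b : G) :
    K.map (MulAut.conj (a * b)).toMonoidHom
      = (K.map (MulAut.conj b).toMonoidHom).map (MulAut.conj a).toMonoidHom := by
  rw [Subgroup.map_map]
  congr 1
  ext x
  simp [mul_assoc]

theorem cmap_one {G : Type*} [Group G] (K : Subgroup G) :
    K.map (MulAut.conj (1 : G)).toMonoidHom = K := by
  ext x
  simp

theorem mem_norm_iff {G : Type*} [Group G] (K : Subgroup G) (g : G) :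
    g ∈ Subgroup.normalizer (K : Set G) ↔ K.map (MulAut.conj g).toMonoidHom = K :=
  Subgroup.mem_normalizer_iff_map_conj_eq

theorem cmap_self {G : Type*} [Group G] (K : Subgroup G) (s : G) (hs : s ∈ K) :
    K.map (MulAut.conj s).toMonoidHom = K :=
  (mem_norm_iff K s).1 (Subgroup.le_normalizer hs)

/-- A factorization of a normalizer from two-step control of fusion. Let `G` be a finite group and `A ≤ S ≤ H` subgroups of `G` such that: (i) `S` controls the `G`-fusion of `A` in the sense that every `G`-conjugate of `A` lying in `S` is an `S`-conjugate of `A`; (ii) `H` controls the `G`-fusion of `S` in the same sense; (iii) every conjugate of `S` by an element of the normalizer of `A` lies in `H`. Then `N_G(A) = N_H(A) · (N_G(S) ∩ N_G(A))`: every element of the normalizer of `A` is a product of an element of `H` normalizing `A` and an element normalizing both `S` and `A`. -/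
theorem result {G : Type*} [Group G] [Finite G] (A S H : Subgroup G)
    (hAS : A ≤ S) (hSH : S ≤ H)
    (h1 : ∀ g : G, A.map (MulAut.conj g).toMonoidHom ≤ S → ∃ s ∈ S, A.map (MulAut.conj g).toMonoidHom = A.map (MulAut.conj s).toMonoidHom)
    (h2 : ∀ g : G, S.map (MulAut.conj g).toMonoidHom ≤ H → ∃ y ∈ H, S.map (MulAut.conj g).toMonoidHom = S.map (MulAut.conj y).toMonoidHom)
    (h3 : ∀ x ∈ Subgroup.normalizer (A : Set G), S.map (MulAut.conj x).toMonoidHom ≤ H) :
    ∀ x ∈ Subgroup.normalizer (A : Set G), ∃ y ∈ H ⊓ Subgroup.normalizer (A : Set G),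
      ∃ z ∈ Subgroup.normalizer (S : Set G) ⊓ Subgroup.normalizer (A : Set G), x = y * z := by
  intro x hx
  have hxA : A.map (MulAut.conj x).toMonoidHom = A := (mem_norm_iff A x).1 hx
  obtain ⟨y, hyH, hy⟩ := h2 x (h3 x hx)
  have hyx : S.map (MulAut.conj (y⁻¹ * x)).toMonoidHom = S := by
    rw [cmap_mul, hy, ← cmap_mul, inv_mul_cancel, cmap_one]
  have hAy : A.map (MulAut.conj y⁻¹).toMonoidHom ≤ S := by
    have h : A.map (MulAut.conj (y⁻¹ * x)).toMonoidHom ≤ S.map (MulAut.conj (y⁻¹ * x)).toMonoidHom :=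
      Subgroup.map_mono hAS
    rw [hyx, cmap_mul, hxA] at h
    exact h
  obtain ⟨s, hsS, hs⟩ := h1 y⁻¹ hAy
  have hys : A.map (MulAut.conj (y * s)).toMonoidHom = A := by
    rw [cmap_mul, ← hs, ← cmap_mul, mul_inv_cancel, cmap_one]
  refine ⟨y * s, Subgroup.mem_inf.2 ⟨H.mul_mem hyH (hSH hsS), (mem_norm_iff A _).2 hys⟩, (y * s)⁻¹ * x,
    Subgroup.mem_inf.2 ⟨?_, ?_⟩, ?_⟩
  · rw [mem_norm_iff]
    have : (y * s)⁻¹ * x = s⁻¹ * (y⁻¹ * x) := by group
    rw [this, cmap_mul, hyx]
    exact cmap_self S s⁻¹ (S.inv_mem hsS)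
  · exact Subgroup.mul_mem _ (Subgroup.inv_mem _ ((mem_norm_iff A _).2 hys)) hx
  · group

end Cfsg.Agent.S4421
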