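import Cfsg.Statements.S4422

set_option autoImplicit false
open Cfsg

namespace Cfsg.Agent.S4422

theorem dvd_pow_sub_one_iff (q p d : ℕ) [Fact p.Prime] (hq : 1 ≤ q) :
    p ∣ q ^ d - 1 ↔ (q : ZMod p) ^ d = 1 := by
  have h1 : 1 ≤ q ^ d := Nat.one_le_pow _ _ hq
  rw [← ZMod.natCast_eq_zero_iff, Nat.cast_sub h1, sub_eq_zero]
  simp

theorem prime_case (q e p : ℕ) (hq : 2 ≤ q) (he : 1 ≤ e) (hp : p.Prime) (hm : p ∣ q ^ e - 1)
    (hcop : ∀ i : ℕ, 1 ≤ i → i < e → ¬ p ∣ q ^ i - 1) : p % e = 1 % e := by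
  haveI := Fact.mk hp
  have hq1 : 1 ≤ q := by omega
  have hqe : (q : ZMod p) ^ e = 1 := (dvd_pow_sub_one_iff q p e hq1).1 hm
  have hd : orderOf (q : ZMod p) ∣ e := orderOf_dvd_of_pow_eq_one hqe
  have hd0 : orderOf (q : ZMod p) ≠ 0 := by
    intro h0
    rw [h0] at hd
    have := Nat.eq_zero_of_zero_dvd hd
    omega
  have hde : orderOf (q : ZMod p) = e := by
    by_contra hne
    have hle : orderOf (q : ZMod p) ≤ e := Nat.le_of_dvd (by omega) hd
    have hlt : orderOf (q : ZMod p) < e := lt_of_le_of_ne hle hne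
    exact hcop _ (by omega) hlt ((dvd_pow_sub_one_iff q p _ hq1).2 (pow_orderOf_eq_one _))
  have hq0 : (q : ZMod p) ≠ 0 := by
    intro h0
    rw [h0, zero_pow (by omega)] at hqe
    exact zero_ne_one hqe
  have hp1 : e ∣ p - 1 := by
    rw [← hde]
    exact orderOf_dvd_of_pow_eq_one (ZMod.pow_card_sub_one_eq_one hq0)
  have hp_pos : 1 ≤ p := hp.one_lt.le
  exact ((Nat.modEq_iff_dvd' hp_pos).2 hp1).symm

theorem main (q e : ℕ) (hq : 2 ≤ q) (he : 1 ≤ e) (m : ℕ) :
    m ∣ q ^ e - 1 → (∀ i : ℕ, 1 ≤ i → i < e → Nat.Coprime m (q ^ i - 1)) → m % e = 1 % e := by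
  induction m using Nat.recOnMul with
  | zero =>
    intro h _
    have h0 := Nat.eq_zero_of_zero_dvd h
    have : 2 ^ e ≤ q ^ e := Nat.pow_le_pow_left hq e
    have : 2 ≤ 2 ^ e := by
      calc 2 = 2 ^ 1 := by norm_num
        _ ≤ 2 ^ e := Nat.pow_le_pow_right (by norm_num) he
    omega
  | one => intro _ _; rfl
  | prime p hp =>
    intro h hc
    exact prime_case q e p hq he hp h (fun i hi hie => (Nat.Prime.coprime_iff_not_dvd hp).1 (hc i hi hie))
  | mul a b iha ihb =>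
    intro h hc
    have ha := iha (Dvd.dvd.trans (Dvd.intro b rfl) h) (fun i hi hie => Nat.Coprime.coprime_dvd_left (Dvd.intro b rfl) (hc i hi hie))
    have hb := ihb (Dvd.dvd.trans (Dvd.intro_left a rfl) h) (fun i hi hie => Nat.Coprime.coprime_dvd_left (Dvd.intro_left a rfl) (hc i hi hie))
    have := Nat.ModEq.mul ha hb
    simpa [Nat.ModEq] using this

/-- Primitive divisors of `q^e - 1` are congruent to 1 modulo `e`. Let `q ≥ 2` and `e ≥ 1` be natural numbers and let `m` be a divisor of `q^e - 1` that is coprime to `q^i - 1` for every `1 ≤ i < e` (so `m` divides the primitive part of `q^e - 1`, the largest such divisor). Then `m ≡ 1 (mod e)`. -/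
theorem result (q e m : ℕ) (hq : 2 ≤ q) (he : 1 ≤ e)
    (hm : m ∣ q ^ e - 1) (hcop : ∀ i : ℕ, 1 ≤ i → i < e → Nat.Coprime m (q ^ i - 1)) :
    m % e = 1 % e := by
  exact main q e hq he m hm hcop

end Cfsg.Agent.S4422
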