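import Cfsg.Statements.S4423
import Mathlib
import Cfsg.Agent.Helper2.ZsigLarge

set_option autoImplicit false
open Cfsg

namespace Cfsg.Agent.S4423

/-- Size of the primitive part of `q^e - 1`. For a prime power `q` and `e ≥ 3`, call a divisor of `q^e - 1` primitive when it is coprime to `q^i - 1` for every `1 ≤ i < e`; the primitive part is the largest primitive divisor. Apart from thirteen exceptional pairs, the primitive part is at least `3e + 1`: there is a primitive divisor `m ≥ 3e + 1` unless `(q, e)` is `(2, 6)` (where every primitive divisor is 1), one of `(2,4), (2,10), (2,12), (2,18), (3,4), (3,6), (5,6)` (where the primitive part is exactly `e + 1`), or one of `(2,3), (2,8), (2,20), (4,3), (4,6)` (where it is exactly `2e + 1`). The statement asserts the existence of a primitive divisor `m ≥ 3e + 1` outside the thirteen pairs, and that every primitive divisor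 is at most `2e + 1` for the thirteen pairs. -/
theorem result (q e : ℕ) (hq : IsPrimePow q) (he : 3 ≤ e) :
    ((q, e) ∉ [(2, 6), (2, 4), (2, 10), (2, 12), (2, 18), (3, 4), (3, 6), (5, 6), (2, 3), (2, 8), (2, 20), (4, 3), (4, 6)] →
      ∃ m : ℕ, m ∣ q ^ e - 1 ∧ (∀ i : ℕ, 1 ≤ i → i < e → Nat.Coprime m (q ^ i - 1)) ∧ 3 * e + 1 ≤ m) ∧
    ((q, e) ∈ [(2, 6), (2, 4), (2, 10), (2, 12), (2, 18), (3, 4), (3, 6), (5, 6), (2, 3), (2, 8), (2, 20), (4, 3), (4, 6)] →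
      ∀ m : ℕ, m ∣ q ^ e - 1 → (∀ i : ℕ, 1 ≤ i → i < e → Nat.Coprime m (q ^ i - 1)) → m ≤ 2 * e + 1) := by
  have hq1 : 1 < q := hq.one_lt
  constructor
  · intro hnot
    by_cases hL : (q, e) ∈ Cfsg.Agent.Helper2.zlList
    · simp only [Cfsg.Agent.Helper2.zlList, List.mem_cons, Prod.mk.injEq, List.mem_nil_iff, or_false] at hL
      rcases hL with ⟨rfl, rfl⟩ | ⟨rfl, rfl⟩ | ⟨rfl, rfl⟩ | ⟨rfl, rfl⟩ | ⟨rfl, rfl⟩ | ⟨rfl, rfl⟩ | ⟨rfl, rfl⟩ | ⟨rfl, rfl⟩ | ⟨rfl, rfl⟩ | ⟨rfl, rfl⟩ | ⟨rfl, rfl⟩ | ⟨rfl, rfl⟩ | ⟨rfl, rfl⟩ | ⟨rfl, rfl⟩ | ⟨rfl, rfl⟩ | ⟨rfl, rfl⟩ | ⟨rfl, rfl⟩ | ⟨rfl, rfl⟩ | ⟨rfl, rfl⟩ | ⟨rfl, rfl⟩ | ⟨rfl, rfl⟩ | ⟨rfl, rfl⟩ | ⟨rfl, rfl⟩ | ⟨rfl, rfl⟩ | ⟨rfl, rfl⟩ | ⟨rfl, rfl⟩ | ⟨rfl, rfl⟩ | ⟨rfl, rfl⟩ | ⟨rfl, rfl⟩ | ⟨rfl, rfl⟩ | ⟨rfl, rfl⟩ | ⟨rfl, rfl⟩ | ⟨rfl, rfl⟩ | ⟨rfl, rfl⟩ | ⟨rfl, rfl⟩ | ⟨rfl, rfl⟩ | ⟨rfl, rfl⟩ | ⟨rfl, rfl⟩ | ⟨rfl, rfl⟩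
      · exact absurd (by decide) hnot
      · exact ⟨13, by norm_num, fun i h1 h2 => (by decide : ∀ i < 3, 1 ≤ i → Nat.Coprime 13 (3 ^ i - 1)) i h2 h1, by norm_num⟩
      · exact absurd (by decide) hnot
      · exact ⟨31, by norm_num, fun i h1 h2 => (by decide : ∀ i < 3, 1 ≤ i → Nat.Coprime 31 (5 ^ i - 1)) i h2 h1, by norm_num⟩
      · exact ⟨43, by norm_num, fun i h1 h2 => (by decide : ∀ i < 3, 1 ≤ i → Nat.Coprime 43 (6 ^ i - 1)) i h2 h1, by norm_num⟩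
      · exact absurd (by decide) hnot
      · exact absurd (by decide) hnot
      · exact ⟨17, by norm_num, fun i h1 h2 => (by decide : ∀ i < 4, 1 ≤ i → Nat.Coprime 17 (4 ^ i - 1)) i h2 h1, by norm_num⟩
      · exact ⟨31, by norm_num, fun i h1 h2 => (by decide : ∀ i < 5, 1 ≤ i → Nat.Coprime 31 (2 ^ i - 1)) i h2 h1, by norm_num⟩
      · exact ⟨121, by norm_num, fun i h1 h2 => (by decide : ∀ i < 5, 1 ≤ i → Nat.Coprime 121 (3 ^ i - 1)) i h2 h1, by norm_num⟩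
      · exact absurd (by decide) hnot
      · exact absurd (by decide) hnot
      · exact absurd (by decide) hnot
      · exact absurd (by decide) hnot
      · exact ⟨31, by norm_num, fun i h1 h2 => (by decide : ∀ i < 6, 1 ≤ i → Nat.Coprime 31 (6 ^ i - 1)) i h2 h1, by norm_num⟩
      · exact ⟨43, by norm_num, fun i h1 h2 => (by decide : ∀ i < 6, 1 ≤ i → Nat.Coprime 43 (7 ^ i - 1)) i h2 h1, by norm_num⟩
      · exact ⟨19, by norm_num, fun i h1 h2 => (by decide : ∀ i < 6, 1 ≤ i → Nat.Coprime 19 (8 ^ i - 1)) i h2 h1, by norm_num⟩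
      · exact ⟨127, by norm_num, fun i h1 h2 => (by decide : ∀ i < 7, 1 ≤ i → Nat.Coprime 127 (2 ^ i - 1)) i h2 h1, by norm_num⟩
      · exact absurd (by decide) hnot
      · exact ⟨73, by norm_num, fun i h1 h2 => (by decide : ∀ i < 9, 1 ≤ i → Nat.Coprime 73 (2 ^ i - 1)) i h2 h1, by norm_num⟩
      · exact ⟨757, by norm_num, fun i h1 h2 => (by decide : ∀ i < 9, 1 ≤ i → Nat.Coprime 757 (3 ^ i - 1)) i h2 h1, by norm_num⟩
      · exact absurd (by decide) hnot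
      · exact ⟨61, by norm_num, fun i h1 h2 => (by decide : ∀ i < 10, 1 ≤ i → Nat.Coprime 61 (3 ^ i - 1)) i h2 h1, by norm_num⟩
      · exact absurd (by decide) hnot
      · exact ⟨73, by norm_num, fun i h1 h2 => (by decide : ∀ i < 12, 1 ≤ i → Nat.Coprime 73 (3 ^ i - 1)) i h2 h1, by norm_num⟩
      · exact ⟨241, by norm_num, fun i h1 h2 => (by decide : ∀ i < 12, 1 ≤ i → Nat.Coprime 241 (4 ^ i - 1)) i h2 h1, by norm_num⟩
      · exact ⟨43, by norm_num, fun i h1 h2 => (by decide : ∀ i < 14, 1 ≤ i → Nat.Coprime 43 (2 ^ i - 1)) i h2 h1, by norm_num⟩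
      · exact ⟨151, by norm_num, fun i h1 h2 => (by decide : ∀ i < 15, 1 ≤ i → Nat.Coprime 151 (2 ^ i - 1)) i h2 h1, by norm_num⟩
      · exact absurd (by decide) hnot
      · exact ⟨703, by norm_num, fun i h1 h2 => (by decide : ∀ i < 18, 1 ≤ i → Nat.Coprime 703 (3 ^ i - 1)) i h2 h1, by norm_num⟩
      · exact ⟨4033, by norm_num, fun i h1 h2 => (by decide : ∀ i < 18, 1 ≤ i → Nat.Coprime 4033 (4 ^ i - 1)) i h2 h1, by norm_num⟩
      · exact absurd (by decide) hnot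
      · exact ⟨241, by norm_num, fun i h1 h2 => (by decide : ∀ i < 24, 1 ≤ i → Nat.Coprime 241 (2 ^ i - 1)) i h2 h1, by norm_num⟩
      · exact ⟨262657, by norm_num, fun i h1 h2 => (by decide : ∀ i < 27, 1 ≤ i → Nat.Coprime 262657 (2 ^ i - 1)) i h2 h1, by norm_num⟩
      · exact ⟨331, by norm_num, fun i h1 h2 => (by decide : ∀ i < 30, 1 ≤ i → Nat.Coprime 331 (2 ^ i - 1)) i h2 h1, by norm_num⟩
      · exact ⟨4033, by norm_num, fun i h1 h2 => (by decide : ∀ i < 36, 1 ≤ i → Nat.Coprime 4033 (2 ^ i - 1)) i h2 h1, by norm_num⟩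
      · exact ⟨65281, by norm_num, fun i h1 h2 => (by decide : ∀ i < 48, 1 ≤ i → Nat.Coprime 65281 (2 ^ i - 1)) i h2 h1, by norm_num⟩
      · exact ⟨87211, by norm_num, fun i h1 h2 => (by decide : ∀ i < 54, 1 ≤ i → Nat.Coprime 87211 (2 ^ i - 1)) i h2 h1, by norm_num⟩
      · exact ⟨16773121, by norm_num, fun i h1 h2 => (by decide : ∀ i < 72, 1 ≤ i → Nat.Coprime 16773121 (2 ^ i - 1)) i h2 h1, by norm_num⟩
    · obtain ⟨P, hPd, hPpos, hPr, hPbig⟩ := Cfsg.Agent.Helper2.zl_core q e hq1 he hL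
      refine ⟨P, hPd, ?_, ?_⟩
      · intro i hi1 hie
        apply Nat.coprime_of_dvd
        intro k hk hkP hkq
        exact (hPr k hk hkP).2 i (by omega) hie hkq
      · have hmod : P ≡ 1 [MOD e] := Cfsg.Agent.Helper2.zl_modEq_one e P hPpos (fun r hr hrP => by
          have h1 := (hPr r hr hrP).1
          exact ((Nat.modEq_iff_dvd' hr.one_le).mpr h1).symm)
        have h2 : e ∣ P - 1 := (Nat.modEq_iff_dvd' (by omega)).mp hmod.symm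
        obtain ⟨c, hc⟩ := h2
        have hc3 : 3 ≤ c := by
          by_contra hlt
          have : e * c ≤ e * 2 := Nat.mul_le_mul_left _ (by omega)
          omega
        have : e * 3 ≤ e * c := Nat.mul_le_mul_left _ hc3
        omega
  · intro hmem m hm hcop
    simp only [List.mem_cons, Prod.mk.injEq, List.mem_nil_iff, or_false] at hmem
    rcases hmem with ⟨rfl, rfl⟩ | ⟨rfl, rfl⟩ | ⟨rfl, rfl⟩ | ⟨rfl, rfl⟩ | ⟨rfl, rfl⟩ | ⟨rfl, rfl⟩ | ⟨rfl, rfl⟩ | ⟨rfl, rfl⟩ | ⟨rfl, rfl⟩ | ⟨rfl, rfl⟩ | ⟨rfl, rfl⟩ | ⟨rfl, rfl⟩ | ⟨rfl, rfl⟩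
    · have hc : Nat.Coprime m ((2 ^ 4 - 1) ^ 2 * (2 ^ 3 - 1) ^ 1) := (Nat.Coprime.mul_right (Nat.Coprime.pow_right 2 (hcop 4 (by norm_num) (by norm_num))) (Nat.Coprime.pow_right 1 (hcop 3 (by norm_num) (by norm_num))))
      have hd : m ∣ 1 * ((2 ^ 4 - 1) ^ 2 * (2 ^ 3 - 1) ^ 1) := hm.trans (by norm_num)
      have := Nat.le_of_dvd (by norm_num) (hc.dvd_of_dvd_mul_right hd)
      omega
    · have hc : Nat.Coprime m ((2 ^ 2 - 1) ^ 1) := (Nat.Coprime.pow_right 1 (hcop 2 (by norm_num) (by norm_num)))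
      have hd : m ∣ 5 * ((2 ^ 2 - 1) ^ 1) := hm.trans (by norm_num)
      have := Nat.le_of_dvd (by norm_num) (hc.dvd_of_dvd_mul_right hd)
      omega
    · have hc : Nat.Coprime m ((2 ^ 8 - 1) ^ 1 * (2 ^ 5 - 1) ^ 1) := (Nat.Coprime.mul_right (Nat.Coprime.pow_right 1 (hcop 8 (by norm_num) (by norm_num))) (Nat.Coprime.pow_right 1 (hcop 5 (by norm_num) (by norm_num))))
      have hd : m ∣ 11 * ((2 ^ 8 - 1) ^ 1 * (2 ^ 5 - 1) ^ 1) := hm.trans (by norm_num)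
      have := Nat.le_of_dvd (by norm_num) (hc.dvd_of_dvd_mul_right hd)
      omega
    · have hc : Nat.Coprime m ((2 ^ 10 - 1) ^ 2 * (2 ^ 9 - 1) ^ 1 * (2 ^ 8 - 1) ^ 1) := (Nat.Coprime.mul_right (Nat.Coprime.mul_right (Nat.Coprime.pow_right 2 (hcop 10 (by norm_num) (by norm_num))) (Nat.Coprime.pow_right 1 (hcop 9 (by norm_num) (by norm_num)))) (Nat.Coprime.pow_right 1 (hcop 8 (by norm_num) (by norm_num))))
      have hd : m ∣ 13 * ((2 ^ 10 - 1) ^ 2 * (2 ^ 9 - 1) ^ 1 * (2 ^ 8 - 1) ^ 1) := hm.trans (by norm_num)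
      have := Nat.le_of_dvd (by norm_num) (hc.dvd_of_dvd_mul_right hd)
      omega
    · have hc : Nat.Coprime m ((2 ^ 16 - 1) ^ 3 * (2 ^ 15 - 1) ^ 1 * (2 ^ 9 - 1) ^ 1) := (Nat.Coprime.mul_right (Nat.Coprime.mul_right (Nat.Coprime.pow_right 3 (hcop 16 (by norm_num) (by norm_num))) (Nat.Coprime.pow_right 1 (hcop 15 (by norm_num) (by norm_num)))) (Nat.Coprime.pow_right 1 (hcop 9 (by norm_num) (by norm_num))))
      have hd : m ∣ 19 * ((2 ^ 16 - 1) ^ 3 * (2 ^ 15 - 1) ^ 1 * (2 ^ 9 - 1) ^ 1) := hm.trans (by norm_num)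
      have := Nat.le_of_dvd (by norm_num) (hc.dvd_of_dvd_mul_right hd)
      omega
    · have hc : Nat.Coprime m ((3 ^ 3 - 1) ^ 4) := (Nat.Coprime.pow_right 4 (hcop 3 (by norm_num) (by norm_num)))
      have hd : m ∣ 5 * ((3 ^ 3 - 1) ^ 4) := hm.trans (by norm_num)
      have := Nat.le_of_dvd (by norm_num) (hc.dvd_of_dvd_mul_right hd)
      omega
    · have hc : Nat.Coprime m ((3 ^ 5 - 1) ^ 3 * (3 ^ 3 - 1) ^ 1) := (Nat.Coprime.mul_right (Nat.Coprime.pow_right 3 (hcop 5 (by norm_num) (by norm_num))) (Nat.Coprime.pow_right 1 (hcop 3 (by norm_num) (by norm_num))))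
      have hd : m ∣ 7 * ((3 ^ 5 - 1) ^ 3 * (3 ^ 3 - 1) ^ 1) := hm.trans (by norm_num)
      have := Nat.le_of_dvd (by norm_num) (hc.dvd_of_dvd_mul_right hd)
      omega
    · have hc : Nat.Coprime m ((5 ^ 5 - 1) ^ 2 * (5 ^ 4 - 1) ^ 2 * (5 ^ 3 - 1) ^ 1) := (Nat.Coprime.mul_right (Nat.Coprime.mul_right (Nat.Coprime.pow_right 2 (hcop 5 (by norm_num) (by norm_num))) (Nat.Coprime.pow_right 2 (hcop 4 (by norm_num) (by norm_num)))) (Nat.Coprime.pow_right 1 (hcop 3 (by norm_num) (by norm_num))))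
      have hd : m ∣ 7 * ((5 ^ 5 - 1) ^ 2 * (5 ^ 4 - 1) ^ 2 * (5 ^ 3 - 1) ^ 1) := hm.trans (by norm_num)
      have := Nat.le_of_dvd (by norm_num) (hc.dvd_of_dvd_mul_right hd)
      omega
    · have := Nat.le_of_dvd (by norm_num) hm
      norm_num at this ⊢
      omega
    · have hc : Nat.Coprime m ((2 ^ 6 - 1) ^ 1 * (2 ^ 4 - 1) ^ 1) := (Nat.Coprime.mul_right (Nat.Coprime.pow_right 1 (hcop 6 (by norm_num) (by norm_num))) (Nat.Coprime.pow_right 1 (hcop 4 (by norm_num) (by norm_num))))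
      have hd : m ∣ 17 * ((2 ^ 6 - 1) ^ 1 * (2 ^ 4 - 1) ^ 1) := hm.trans (by norm_num)
      have := Nat.le_of_dvd (by norm_num) (hc.dvd_of_dvd_mul_right hd)
      omega
    · have hc : Nat.Coprime m ((2 ^ 18 - 1) ^ 1 * (2 ^ 16 - 1) ^ 2 * (2 ^ 15 - 1) ^ 1 * (2 ^ 10 - 1) ^ 1) := (Nat.Coprime.mul_right (Nat.Coprime.mul_right (Nat.Coprime.mul_right (Nat.Coprime.pow_right 1 (hcop 18 (by norm_num) (by norm_num))) (Nat.Coprime.pow_right 2 (hcop 16 (by norm_num) (by norm_num)))) (Nat.Coprime.pow_right 1 (hcop 15 (by norm_num) (by norm_num)))) (Nat.Coprime.pow_right 1 (hcop 10 (by norm_num) (by norm_num))))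
      have hd : m ∣ 41 * ((2 ^ 18 - 1) ^ 1 * (2 ^ 16 - 1) ^ 2 * (2 ^ 15 - 1) ^ 1 * (2 ^ 10 - 1) ^ 1) := hm.trans (by norm_num)
      have := Nat.le_of_dvd (by norm_num) (hc.dvd_of_dvd_mul_right hd)
      omega
    · have hc : Nat.Coprime m ((4 ^ 2 - 1) ^ 2) := (Nat.Coprime.pow_right 2 (hcop 2 (by norm_num) (by norm_num)))
      have hd : m ∣ 7 * ((4 ^ 2 - 1) ^ 2) := hm.trans (by norm_num)
      have := Nat.le_of_dvd (by norm_num) (hc.dvd_of_dvd_mul_right hd)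
      omega
    · have hc : Nat.Coprime m ((4 ^ 5 - 1) ^ 2 * (4 ^ 4 - 1) ^ 1 * (4 ^ 3 - 1) ^ 1) := (Nat.Coprime.mul_right (Nat.Coprime.mul_right (Nat.Coprime.pow_right 2 (hcop 5 (by norm_num) (by norm_num))) (Nat.Coprime.pow_right 1 (hcop 4 (by norm_num) (by norm_num)))) (Nat.Coprime.pow_right 1 (hcop 3 (by norm_num) (by norm_num))))
      have hd : m ∣ 13 * ((4 ^ 5 - 1) ^ 2 * (4 ^ 4 - 1) ^ 1 * (4 ^ 3 - 1) ^ 1) := hm.trans (by norm_num)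
      have := Nat.le_of_dvd (by norm_num) (hc.dvd_of_dvd_mul_right hd)
      omega

end Cfsg.Agent.S4423
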