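import Cfsg.Statements.S4424
import Cfsg.Agent.Helper25.BlockBrauer

set_option autoImplicit false
open Cfsg

namespace Cfsg.Agent.S4424

open Cfsg.Agent.Helper25

/-- Let χ be an irreducible character of the finite group G lying in the p-block B (relative to a maximal ideal M of the algebraic integers containing p), and let p^a be the p-part of the order of G. Then the class function that equals p^a · χ on the p-regular elements and vanishes on the p-singular elements is an integer combination of the irreducible characters in B: there are integers a_ψ, zero for ψ outside B, with that function equal to Σ a_ψ ψ. -/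
theorem result {G : Type*} [Group G] [Finite G] (p : ℕ) [Fact p.Prime] (M : Ideal Cfsg.AlgInt) (hM : Cfsg.IsPModular p M) (B : Set (Cfsg.IrrCharacter G)) (hB : Cfsg.IsPBlock M B) (χ : Cfsg.IrrCharacter G) (hχ : χ ∈ B) : ∃ a : Cfsg.IrrCharacter G → ℤ, (∀ ψ, ψ ∉ B → a ψ = 0) ∧ (fun x : G => if p ∣ orderOf x then (0 : ℂ) else ((p ^ (Nat.card G).factorization p : ℕ) : ℂ) * (χ : G → ℂ) x) = fun x => ∑ᶠ ψ : Cfsg.IrrCharacter G, (a ψ : ℂ) * (ψ : G → ℂ) x := by
  classical
  have := Fintype.ofFinite G
  have hp : p.Prime := Fact.out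
  choose k hk using fun ψ : Cfsg.IrrCharacter G => gram_int hp χ ψ
  refine ⟨k, ?_, ?_⟩
  · intro ψ hψ
    have h0 := gram_eq_zero_of_lr hM B (fun g => blockCoeff_lr hM hB g) hχ hψ
    have h1 := hk ψ
    rw [h0, mul_zero] at h1
    exact_mod_cast h1.symm
  · funext x
    rw [finsum_eq_sum_of_fintype]
    have h1 := classFun_apply_eq_sum_irr (pRegularPart p (χ : G → ℂ))
      (pRegularPart_conj (irr_conj χ)) x
    have h2 : ∑ ψ : Cfsg.IrrCharacter G, ((k ψ : ℤ) : ℂ) * (ψ : G → ℂ) x =
        ((p ^ (Nat.card G).factorization p : ℕ) : ℂ) * pRegularPart p (χ : G → ℂ) x := by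
      rw [h1, Finset.mul_sum]
      apply Finset.sum_congr rfl
      intro ψ _
      rw [← hk ψ]
      unfold gram
      ring
    rw [h2]
    by_cases h : p ∣ orderOf x
    · rw [if_pos h, pRegularPart_of_sing h, mul_zero]
    · rw [if_neg h, pRegularPart_of_reg h]

end Cfsg.Agent.S4424
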