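import Cfsg.Statements.S4425
import Cfsg.Agent.Helper24.BlockDeg2
import Cfsg.Agent.S0165

set_option autoImplicit false
open Cfsg

namespace Cfsg.Agent.S4425

open Cfsg.Agent.Helper25 Cfsg.Agent.Helper24

/-- Let χ be an irreducible character of the finite group G, p a prime, p^a the p-part of the order of G and p^b the p-part of the degree χ(1). Let χ̃ be the class function equal to p^a · χ on p-regular elements and zero on p-singular elements. Then p^(−b) · χ̃ is a generalized character of G, while p^(−(b+1)) · χ̃ is not. -/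
theorem result {G : Type*} [Group G] [Finite G] (p : ℕ) [Fact p.Prime] (χ : Cfsg.IrrCharacter G) : Cfsg.IsGeneralizedCharacter G (fun x : G => if p ∣ orderOf x then (0 : ℂ) else ((p ^ ((Nat.card G).factorization p - (Cfsg.charDegree (χ : G → ℂ)).factorization p) : ℕ) : ℂ) * (χ : G → ℂ) x) ∧ ¬ Cfsg.IsGeneralizedCharacter G (fun x : G => if p ∣ orderOf x then (0 : ℂ) else ((p ^ (Nat.card G).factorization p : ℕ) : ℂ) / ((p ^ ((Cfsg.charDegree (χ : G → ℂ)).factorization p + 1) : ℕ) : ℂ) * (χ : G → ℂ) x) := by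
  classical
  have := Fintype.ofFinite G
  have hp : p.Prime := Fact.out
  obtain ⟨M, hM⟩ := Cfsg.Agent.S0165.exists_modular p hp
  set a := (Nat.card G).factorization p with ha
  set d := Cfsg.charDegree (χ : G → ℂ) with hd
  have hd0 : d ≠ 0 := (irr_degree_pos χ).ne'
  set b := d.factorization p with hb
  set t := d / p ^ b with ht
  have hdt : p ^ b * t = d := Nat.ordProj_mul_ordCompl_eq_self d p
  have hpt : ¬ p ∣ t := Nat.not_dvd_ordCompl hp hd0
  have hba : b ≤ a := by
    have h1 : p ^ b ∣ Nat.card G := (Nat.ordProj_dvd d p).trans (irr_degree_dvd_card χ)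
    exact (hp.pow_dvd_iff_le_factorization Nat.card_pos.ne').mp h1
  have hp0 : (p : ℂ) ≠ 0 := by exact_mod_cast hp.ne_zero
  have ht0 : (t : ℂ) ≠ 0 := by
    intro h0
    have : t = 0 := by exact_mod_cast h0
    rw [this, mul_zero] at hdt
    exact hd0 hdt.symm
  have hdc : (d : ℂ) = (p : ℂ) ^ b * (t : ℂ) := by exact_mod_cast hdt.symm
  constructor
  · rw [Helper2.isGeneralizedCharacter_iff]
    constructor
    · intro g h
      show (if p ∣ orderOf (h * g * h⁻¹) then (0 : ℂ) else _) = _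
      rw [orderOf_conj_eq, irr_conj]
    · intro ψ
      obtain ⟨k, hk⟩ := gram_int hp χ ψ
      have h1 := lr_gram_div hM ψ χ
      rw [gram_symm hp χ ψ, hk, irr_one_eq_degree, ← hd] at h1
      obtain ⟨k', rfl⟩ := pow_dvd_of_lr_div hM k d hd0 h1
      refine ⟨k', ?_⟩
      rw [classInner_eq_bil _ (irr_isCharacter ψ)]
      have h3 : bil (fun x : G => if p ∣ orderOf x then (0:ℂ) else
          ((p ^ (a - b) : ℕ) : ℂ) * (χ : G → ℂ) x) (ψ : G → ℂ) =
          ((p ^ (a - b) : ℕ) : ℂ) * gram p (χ : G → ℂ) (ψ : G → ℂ) := by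
        have h30 : ∀ x : G, (if p ∣ orderOf x then (0:ℂ) else
            ((p ^ (a - b) : ℕ) : ℂ) * (χ : G → ℂ) x) * (ψ : G → ℂ) x⁻¹ =
            ((p ^ (a - b) : ℕ) : ℂ) * (pRegularPart p (χ : G → ℂ) x * (ψ : G → ℂ) x⁻¹) := by
          intro x
          by_cases h : p ∣ orderOf x
          · rw [if_pos h, pRegularPart_of_sing h]; ring
          · rw [if_neg h, pRegularPart_of_reg h]; ring
        rw [gram_eq]
        unfold bil
        rw [Finset.sum_congr rfl (fun x _ => h30 x), ← Finset.mul_sum]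
        ring
      rw [h3]
      have h4 : ((p ^ a : ℕ) : ℂ) = (p : ℂ) ^ b * ((p ^ (a - b) : ℕ) : ℂ) := by
        push_cast
        rw [← pow_add]; congr 1; omega
      rw [h4] at hk
      push_cast at hk ⊢
      have hpb : (p : ℂ) ^ b ≠ 0 := pow_ne_zero _ hp0
      apply mul_left_cancel₀ hpb
      rw [← hk]; ring
  · intro hgen
    obtain ⟨α, β, hα, hβ, hαβ⟩ := hgen
    obtain ⟨P⟩ : Nonempty (Sylow p G) := inferInstance
    have hcard : Nat.card (P : Subgroup G) = p ^ a := Sylow.card_eq_multiplicity P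
    obtain ⟨m₁, hm₁⟩ := char_sum_subgroup hα (P : Subgroup G)
    obtain ⟨m₂, hm₂⟩ := char_sum_subgroup hβ (P : Subgroup G)
    set θ₂ : G → ℂ := fun x => if p ∣ orderOf x then (0 : ℂ) else
      ((p ^ a : ℕ) : ℂ) / ((p ^ (b + 1) : ℕ) : ℂ) * (χ : G → ℂ) x with hθ₂
    have h1 : ∑ u : (P : Subgroup G), θ₂ (u : G) = θ₂ 1 := by
      rw [Finset.sum_eq_single (1 : (P : Subgroup G))]
      · rfl
      · intro u _ hu
        have h2 := dvd_orderOf_of_mem_pGroup hp P.isPGroup' u hu
        simp only [hθ₂, if_pos h2]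
      · intro h'; exact absurd (Finset.mem_univ _) h'
    have h2 : ∑ u : (P : Subgroup G), θ₂ (u : G) = (p : ℂ) ^ a * ((m₁ : ℂ) - m₂) := by
      have h3 : ∀ u : (P : Subgroup G), θ₂ (u : G) = α u - β u := fun u => congrFun hαβ u
      rw [Finset.sum_congr rfl (fun u _ => h3 u), Finset.sum_sub_distrib, hm₁, hm₂, hcard]
      push_cast; ring
    have h3 : θ₂ 1 = (p : ℂ) ^ a * ((t : ℂ) / p) := by
      simp only [hθ₂, if_neg (not_dvd_orderOf_one hp)]
      rw [irr_one_eq_degree, ← hd, hdc]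
      push_cast
      rw [pow_succ]; field_simp
    rw [h1, h3] at h2
    have hpa : (p : ℂ) ^ a ≠ 0 := pow_ne_zero _ hp0
    have h4 : (t : ℂ) / p = (m₁ : ℂ) - m₂ := mul_left_cancel₀ hpa h2
    have h5 : (t : ℂ) = p * ((m₁ : ℂ) - m₂) := by rw [← h4]; field_simp
    have h6 : (t : ℤ) = p * ((m₁ : ℤ) - m₂) := by exact_mod_cast h5
    apply hpt
    have h7 : (p : ℤ) ∣ (t : ℤ) := ⟨_, h6⟩
    exact_mod_cast h7

end Cfsg.Agent.S4425
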