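import Cfsg.Statements.S4426
import Cfsg.Agent.Helper24.BlockDeg2

set_option autoImplicit false
open Cfsg

namespace Cfsg.Agent.S4426

open Cfsg.Agent.Helper25 Cfsg.Agent.Helper24

/-- Let χ be an irreducible character in the p-block B of the finite group G (relative to a maximal ideal M of the algebraic integers containing p), let p^a be the p-part of the order of G, and let χ̃ be the class function equal to p^a · χ on p-regular elements and zero elsewhere. For ξ ∈ B the inner product [χ̃, ξ] is an integer. The following are equivalent: (a) χ has height zero in B; (b) for some ξ ∈ B the integer [χ̃, ξ] is nonzero and the exact power of p dividing it equals the exact power of p dividing ξ(1); (c) the same holds for every ξ ∈ B. -/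
theorem result {G : Type*} [Group G] [Fintype G] (p : ℕ) [Fact p.Prime] (M : Ideal Cfsg.AlgInt) (hM : Cfsg.IsPModular p M) (B : Set (Cfsg.IrrCharacter G)) (hB : Cfsg.IsPBlock M B) (χ : Cfsg.IrrCharacter G) (hχ : χ ∈ B) : (Cfsg.blockHeight p B (χ : G → ℂ) = 0 ↔ ∃ ξ ∈ B, ∃ n : ℤ, Cfsg.classInner (fun x : G => if p ∣ orderOf x then (0 : ℂ) else ((p ^ (Nat.card G).factorization p : ℕ) : ℂ) * (χ : G → ℂ) x) (ξ : G → ℂ) = (n : ℂ) ∧ n ≠ 0 ∧ padicValInt p n = (Cfsg.charDegree (ξ : G → ℂ)).factorization p) ∧ (Cfsg.blockHeight p B (χ : G → ℂ) = 0 ↔ ∀ ξ ∈ B, ∃ n : ℤ, Cfsg.classInner (fun x : G => if p ∣ orderOf x then (0 : ℂ) else ((p ^ (Nat.card G).factorization p : ℕ) : ℂ) * (χ : G → ℂ) x) (ξ : G → ℂ) = (n : ℂ) ∧ n ≠ 0 ∧ padicValInt p n = (Cfsg.charDegree (ξ : G → ℂ)).factorization p) := by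
  classical
  have hp : p.Prime := Fact.out
  set a := (Nat.card G).factorization p with ha
  set χt : G → ℂ := fun x : G => if p ∣ orderOf x then (0 : ℂ) else
    ((p ^ a : ℕ) : ℂ) * (χ : G → ℂ) x with hχt
  have hinner : ∀ ξ : Cfsg.IrrCharacter G, Cfsg.classInner χt (ξ : G → ℂ) =
      ((p ^ a : ℕ) : ℂ) * gram p (χ : G → ℂ) (ξ : G → ℂ) := by
    intro ξ
    rw [classInner_eq_bil _ (irr_isCharacter ξ)]
    have h30 : ∀ x : G, χt x * (ξ : G → ℂ) x⁻¹ =
        ((p ^ a : ℕ) : ℂ) * (pRegularPart p (χ : G → ℂ) x * (ξ : G → ℂ) x⁻¹) := by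
      intro x
      simp only [hχt]
      by_cases h : p ∣ orderOf x
      · rw [if_pos h, pRegularPart_of_sing h]; ring
      · rw [if_neg h, pRegularPart_of_reg h]; ring
    rw [gram_eq]
    unfold bil
    rw [Finset.sum_congr rfl (fun x _ => h30 x), ← Finset.mul_sum]
    ring
  choose k hk using fun ξ : Cfsg.IrrCharacter G => gram_int hp χ ξ
  set S := (fun ψ : Cfsg.IrrCharacter G => (Cfsg.charDegree (ψ : G → ℂ)).factorization p) '' B
    with hS
  have hSne : S.Nonempty := ⟨_, χ, hχ, rfl⟩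
  set b := (Cfsg.charDegree (χ : G → ℂ)).factorization p with hb
  have hht : Cfsg.blockHeight p B (χ : G → ℂ) = b - sInf S := rfl
  have hle : ∀ ψ ∈ B, sInf S ≤ (Cfsg.charDegree (ψ : G → ℂ)).factorization p :=
    fun ψ hψ => Nat.sInf_le ⟨ψ, hψ, rfl⟩
  have hdeg0 : ∀ ψ : Cfsg.IrrCharacter G, Cfsg.charDegree (ψ : G → ℂ) ≠ 0 :=
    fun ψ => (irr_degree_pos ψ).ne'
  -- K1
  have K1 : Cfsg.blockHeight p B (χ : G → ℂ) = 0 → ∀ ξ ∈ B, k ξ ≠ 0 ∧
      padicValInt p (k ξ) = (Cfsg.charDegree (ξ : G → ℂ)).factorization p := by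
    intro h0 ξ hξ
    have hmin : ∀ ψ ∈ B, b ≤ (Cfsg.charDegree (ψ : G → ℂ)).factorization p := by
      intro ψ hψ
      have := hle ψ hψ
      rw [hht] at h0
      omega
    have h1 := gram_div_not_li_of_min hM hB hχ hmin
    have h2 := li_gram_div_sub hM χ ξ χ (sameBlock_of_mem hM hB hξ hχ)
    have h3 := lr_gram_div hM χ ξ
    rw [hk ξ, irr_one_eq_degree] at h3
    rw [hk ξ, irr_one_eq_degree ξ] at h2
    have h4 : ¬ Cfsg.MemLocalIdeal M ((k ξ : ℂ) / (Cfsg.charDegree (ξ : G → ℂ) : ℂ)) := by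
      intro h5
      apply h1
      have h6 := li_sub hM h5 h2
      rwa [sub_sub_cancel] at h6
    have h5 := pow_dvd_of_lr_div hM (k ξ) _ (hdeg0 ξ) h3
    have h6 : k ξ ≠ 0 := by
      intro h7
      apply h4
      rw [h7, Int.cast_zero, zero_div]
      exact li_zero hM
    have h7 : ¬ (p : ℤ) ^ ((Cfsg.charDegree (ξ : G → ℂ)).factorization p + 1) ∣ k ξ := by
      intro h8
      exact h4 (li_div_of_pow_dvd hM (k ξ) _ (hdeg0 ξ) _ (Nat.lt_succ_self _) h8)
    refine ⟨h6, ?_⟩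
    have h8 := (padicValInt_dvd_iff (p := p) _ (k ξ)).mp h5
    have h9 := (padicValInt_dvd_iff (p := p) ((Cfsg.charDegree (ξ : G → ℂ)).factorization p + 1)
      (k ξ)).not.mp h7
    push Not at h9
    rcases h8 with h8 | h8
    · exact absurd h8 h6
    · omega
  -- K2
  have K2 : ∀ ξ ∈ B, k ξ ≠ 0 →
      padicValInt p (k ξ) = (Cfsg.charDegree (ξ : G → ℂ)).factorization p →
      Cfsg.blockHeight p B (χ : G → ℂ) = 0 := by
    intro ξ hξ hk0 hval
    rw [hht]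
    by_contra hne
    have hlt : sInf S < b := by omega
    obtain ⟨χ₀, hχ₀, hχ₀h⟩ := Nat.sInf_mem hSne
    have hχ₀h' : (Cfsg.charDegree (χ₀ : G → ℂ)).factorization p = sInf S := hχ₀h
    have h2 := li_gram_div_sub hM χ ξ χ₀ (sameBlock_of_mem hM hB hξ hχ₀)
    rw [hk ξ, hk χ₀, irr_one_eq_degree ξ, irr_one_eq_degree χ₀] at h2
    have h3 := lr_gram_div hM χ₀ χ
    rw [gram_symm hp χ χ₀, hk χ₀, irr_one_eq_degree] at h3
    have h4 := pow_dvd_of_lr_div hM (k χ₀) _ (hdeg0 χ) h3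
    have h5 := li_div_of_pow_dvd hM (k χ₀) _ (hdeg0 χ₀) b (by rw [hχ₀h']; exact hlt) h4
    have h6 : Cfsg.MemLocalIdeal M ((k ξ : ℂ) / (Cfsg.charDegree (ξ : G → ℂ) : ℂ)) := by
      have h7 := li_add hM h2 h5
      rwa [sub_add_cancel] at h7
    have h7 := pow_succ_dvd_of_li_div hM (k ξ) _ (hdeg0 ξ) h6
    have h8 := (padicValInt_dvd_iff (p := p) _ (k ξ)).mp h7
    rcases h8 with h8 | h8
    · exact hk0 h8
    · omega
  refine ⟨⟨fun h0 => ?_, ?_⟩, ⟨fun h0 ξ hξ => ?_, fun hall => ?_⟩⟩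
  · obtain ⟨h1, h2⟩ := K1 h0 χ hχ
    exact ⟨χ, hχ, k χ, by rw [hinner, hk], h1, h2⟩
  · rintro ⟨ξ, hξ, n, hn, hn0, hnval⟩
    have h1 : n = k ξ := by
      rw [hinner, hk] at hn
      exact_mod_cast hn.symm
    rw [h1] at hn0 hnval
    exact K2 ξ hξ hn0 hnval
  · obtain ⟨h1, h2⟩ := K1 h0 ξ hξ
    exact ⟨k ξ, by rw [hinner, hk], h1, h2⟩
  · obtain ⟨n, hn, hn0, hnval⟩ := hall χ hχ
    have h1 : n = k χ := by
      rw [hinner, hk] at hn
      exact_mod_cast hn.symm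
    rw [h1] at hn0 hnval
    exact K2 χ hχ hn0 hnval

end Cfsg.Agent.S4426
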