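import Cfsg.Statements.S4430
import Cfsg.Agent.Helper24.IndBlk
import Cfsg.Agent.Helper2.Ind

set_option autoImplicit false
open Cfsg

namespace Cfsg.Agent.S4430

open Cfsg.Agent.Helper25 Cfsg.Agent.Helper24
open scoped ComplexConjugate

theorem blockPart_ind_one {G : Type*} [Group G] [Fintype G] (H : Subgroup G) [Fintype H]
    (ξ : IrrCharacter H) (B : Set (IrrCharacter G)) :
    blockPart B (indFun H (ξ : H → ℂ)) 1 =
      indFun H (ξ : H → ℂ) 1 *
        ∑ h : H, blockCoeff B (h : G) * ((ξ : H → ℂ) h / (ξ : H → ℂ) 1) := by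
  classical
  rw [blockPart_apply, Cfsg.Agent.Helper7.indFun_one]
  have h1 : ∀ χ : IrrCharacter G, classInner (indFun H (ξ : H → ℂ)) (χ : G → ℂ) =
      (Nat.card H : ℂ)⁻¹ * ∑ h : H, (ξ : H → ℂ) h * conj ((χ : G → ℂ) h) := by
    intro χ
    rw [Cfsg.Agent.Helper2.frobenius_reciprocity H _ _ (fun g h => irr_conj χ g h)]
    rfl
  have h2 : ∀ h : H, blockCoeff B (h : G) = (Nat.card G : ℂ)⁻¹ *
      ∑ χ ∈ (Set.toFinite B).toFinset, (χ : G → ℂ) 1 * conj ((χ : G → ℂ) h) := by
    intro h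
    rw [blockCoeff_eq_sum]
    congr 1
    apply Finset.sum_congr rfl
    intro χ _
    rw [irr_inv]
  have hG : (Nat.card G : ℂ) ≠ 0 := card_ne_zero
  have hξ1 := irr_one_ne_zero ξ
  simp only [h1, h2, Finset.mul_sum, Finset.sum_mul]
  rw [Finset.sum_comm]
  apply Finset.sum_congr rfl
  intro h _
  apply Finset.sum_congr rfl
  intro χ _
  field_simp

theorem blockPart_ind_nat {G : Type*} [Group G] [Fintype G] (H : Subgroup G) [Fintype H]
    (ξ : IrrCharacter H) (B : Set (IrrCharacter G)) :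
    ∃ n : ℕ, blockPart B (indFun H (ξ : H → ℂ)) 1 = (n : ℂ) := by
  classical
  have hindc : IsCharacter G (indFun H (ξ : H → ℂ)) :=
    Cfsg.Agent.Helper2.isCharacter_indFun H (irr_isCharacter ξ)
  choose m hm using fun χ : IrrCharacter G =>
    Cfsg.Agent.Helper2.classInner_char_nat hindc (irr_isCharacter χ)
  refine ⟨∑ χ ∈ (Set.toFinite B).toFinset, m χ * charDegree (χ : G → ℂ), ?_⟩
  rw [blockPart_apply]
  push_cast
  apply Finset.sum_congr rfl
  intro χ _
  rw [hm χ, irr_one_eq_degree]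

/-- Let H be a subgroup of the finite group G, b a block of H whose induced block B₀ in G is defined (relative to a maximal ideal M of the algebraic integers containing p), and ξ ∈ b. For a block B of G let n_B be the value at 1 of the B-part of the induced character ξ^G (a natural number: the sum over χ ∈ B of the multiplicity of χ in ξ^G times χ(1)). Then for B = B₀ the exact power of p dividing n_B equals the exact power of p dividing ξ^G(1), while for every other block B either n_B = 0 or n_B is divisible by a strictly higher power of p than ξ^G(1). -/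
theorem result {G : Type*} [Group G] [Fintype G] (p : ℕ) [Fact p.Prime] (M : Ideal Cfsg.AlgInt) (hM : Cfsg.IsPModular p M) (H : Subgroup G) [Fintype H] (b : Set (Cfsg.IrrCharacter H)) (B₀ : Set (Cfsg.IrrCharacter G)) (hind : Cfsg.IsInducedBlock M H b B₀) (ξ : Cfsg.IrrCharacter H) (hξ : ξ ∈ b) : (∃ n : ℕ, Cfsg.blockPart B₀ (Cfsg.indFun H (ξ : H → ℂ)) 1 = (n : ℂ) ∧ n ≠ 0 ∧ n.factorization p = (Cfsg.charDegree (Cfsg.indFun H (ξ : H → ℂ))).factorization p) ∧ ∀ B : Set (Cfsg.IrrCharacter G), Cfsg.IsPBlock M B → B ≠ B₀ → ∃ n : ℕ, Cfsg.blockPart B (Cfsg.indFun H (ξ : H → ℂ)) 1 = (n : ℂ) ∧ (n = 0 ∨ (Cfsg.charDegree (Cfsg.indFun H (ξ : H → ℂ))).factorization p < n.factorization p) := by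
  classical
  have hp : p.Prime := Fact.out
  have hindc : Cfsg.IsCharacter G (Cfsg.indFun H (ξ : H → ℂ)) :=
    Cfsg.Agent.Helper2.isCharacter_indFun H (irr_isCharacter ξ)
  set D := Cfsg.charDegree (Cfsg.indFun H (ξ : H → ℂ)) with hD
  have hD1 : Cfsg.indFun H (ξ : H → ℂ) 1 = (D : ℂ) := char_one_eq_degree hindc
  have hD0 : D ≠ 0 := by
    intro h0
    rw [h0, Nat.cast_zero, Cfsg.Agent.Helper7.indFun_one] at hD1
    have h1 : (Nat.card H : ℂ) ≠ 0 := card_ne_zero
    have h2 : (Nat.card G : ℂ) ≠ 0 := card_ne_zero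
    have h3 := irr_one_ne_zero ξ
    exact (mul_ne_zero (inv_ne_zero h1) (mul_ne_zero h2 h3)) hD1
  have hDc : (D : ℂ) ≠ 0 := by exact_mod_cast hD0
  have hB₀ : Cfsg.IsPBlock M B₀ := hind.2.1
  obtain ⟨χ₀, hχ₀⟩ : ∃ χ₀, χ₀ ∈ B₀ := by
    obtain ⟨χ₁, h⟩ := hB₀
    exact ⟨χ₁, h ▸ self_mem_blockOf hM χ₁⟩
  constructor
  · obtain ⟨n, hn⟩ := blockPart_ind_nat H ξ B₀
    have hz := Cfsg.Agent.Helper7.li_one_sub_omega_res hM H hind ξ hξ
    set z := ∑ h : H, Cfsg.blockCoeff B₀ (h : G) * ((ξ : H → ℂ) h / (ξ : H → ℂ) 1) with hzdef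
    have hnz : (n : ℂ) / (D : ℂ) = z := by
      rw [← hn, blockPart_ind_one, hD1, mul_div_cancel_left₀ _ hDc]
    have hzlr : Cfsg.MemLocalRing M z := by
      have h1 : z = 1 - (1 - z) := by ring
      rw [h1]
      exact lr_sub hM (lr_one hM) (li_lr hz)
    have hznli : ¬ Cfsg.MemLocalIdeal M z := by
      intro h
      have h1 := li_add hM hz h
      rw [sub_add_cancel] at h1
      exact not_li_one hM h1
    have hn0 : n ≠ 0 := by
      rintro rfl
      apply hznli
      rw [← hnz, Nat.cast_zero, zero_div]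
      exact li_zero hM
    refine ⟨n, hn, hn0, ?_⟩
    have h1 := pow_dvd_of_lr_div hM (n : ℤ) D hD0 (by rw [Int.cast_natCast, hnz]; exact hzlr)
    have h2 : ¬ (p : ℤ) ^ (D.factorization p + 1) ∣ (n : ℤ) := by
      intro h3
      apply hznli
      rw [← hnz]
      have h4 := li_div_of_pow_dvd hM (n : ℤ) D hD0 _ (Nat.lt_succ_self _) h3
      rwa [Int.cast_natCast] at h4
    have h1' : p ^ D.factorization p ∣ n := by exact_mod_cast h1
    have h2' : ¬ p ^ (D.factorization p + 1) ∣ n := by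
      intro h
      apply h2
      exact_mod_cast h
    have h6 := (hp.pow_dvd_iff_le_factorization hn0).mp h1'
    have h7 := (hp.pow_dvd_iff_le_factorization hn0).not.mp h2'
    omega
  · intro B hB hne
    obtain ⟨n, hn⟩ := blockPart_ind_nat H ξ B
    refine ⟨n, hn, ?_⟩
    have hχ₀B : χ₀ ∉ B := by
      intro hmem
      apply hne
      rw [eq_blockOf_of_mem hM hB hmem, eq_blockOf_of_mem hM hB₀ hχ₀]
    have h1 := li_sum_sub_of_induced hM H hind ξ hξ χ₀ hχ₀ (Cfsg.blockCoeff B)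
      (blockCoeff_conj B) (blockCoeff_lr hM hB)
    have h2 : ∑ g : G, Cfsg.blockCoeff B g * ((χ₀ : G → ℂ) g / (χ₀ : G → ℂ) 1) = 0 := by
      have h3 := sum_blockCoeff_mul B χ₀
      rw [if_neg hχ₀B] at h3
      have h4 : ∑ g : G, Cfsg.blockCoeff B g * ((χ₀ : G → ℂ) g / (χ₀ : G → ℂ) 1) =
          (∑ g : G, Cfsg.blockCoeff B g * (χ₀ : G → ℂ) g) / (χ₀ : G → ℂ) 1 := by
        rw [Finset.sum_div]
        apply Finset.sum_congr rfl
        intro g _
        ring
      rw [h4, h3, zero_div]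
    rw [h2, sub_zero] at h1
    have hnz : (n : ℂ) / (D : ℂ) =
        ∑ h : H, Cfsg.blockCoeff B (h : G) * ((ξ : H → ℂ) h / (ξ : H → ℂ) 1) := by
      rw [← hn, blockPart_ind_one, hD1, mul_div_cancel_left₀ _ hDc]
    by_cases hn0 : n = 0
    · exact Or.inl hn0
    · right
      have h3 := pow_succ_dvd_of_li_div hM (n : ℤ) D hD0
        (by rw [Int.cast_natCast, hnz]; exact h1)
      have h3' : p ^ (D.factorization p + 1) ∣ n := by exact_mod_cast h3
      have h4 := (hp.pow_dvd_iff_le_factorization hn0).mp h3'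
      omega

end Cfsg.Agent.S4430
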