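import Cfsg.Statements.S4431
import Cfsg.Agent.Helper24.IndBlk

set_option autoImplicit false
open Cfsg

namespace Cfsg.Agent.S4431

open Cfsg.Agent.Helper25 Cfsg.Agent.Helper24
open scoped ComplexConjugate

/-- Let H be a subgroup of the finite group G and b a block of H whose induced block B₀ in G is defined (relative to a maximal ideal M of the algebraic integers containing p). Let χ be an irreducible character of G, ψ ∈ b, and let η be the class function on H equal to p^a · χ on the p-regular elements of H and zero elsewhere, p^a being the p-part of the order of H. Then (a) if χ ∉ B₀, the number [η, ψ]/ψ(1) lies in the local ideal at M; (b) if χ ∈ B₀ has height zero, it does not. -/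
theorem result {G : Type*} [Group G] [Fintype G] (p : ℕ) [Fact p.Prime] (M : Ideal Cfsg.AlgInt) (hM : Cfsg.IsPModular p M) (H : Subgroup G) [Fintype H] (b : Set (Cfsg.IrrCharacter H)) (B₀ : Set (Cfsg.IrrCharacter G)) (hind : Cfsg.IsInducedBlock M H b B₀) (χ : Cfsg.IrrCharacter G) (ψ : Cfsg.IrrCharacter H) (hψ : ψ ∈ b) : (χ ∉ B₀ → Cfsg.MemLocalIdeal M (Cfsg.classInner (fun h : H => if p ∣ orderOf h then (0 : ℂ) else ((p ^ (Nat.card H).factorization p : ℕ) : ℂ) * (χ : G → ℂ) h) (ψ : H → ℂ) / (ψ : H → ℂ) 1)) ∧ (χ ∈ B₀ → Cfsg.blockHeight p B₀ (χ : G → ℂ) = 0 → ¬ Cfsg.MemLocalIdeal M (Cfsg.classInner (fun h : H => if p ∣ orderOf h then (0 : ℂ) else ((p ^ (Nat.card H).factorization p : ℕ) : ℂ) * (χ : G → ℂ) h) (ψ : H → ℂ) / (ψ : H → ℂ) 1)) := by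
  classical
  have hp : p.Prime := Fact.out
  have hB₀ : Cfsg.IsPBlock M B₀ := hind.2.1
  set aH := (Nat.card H).factorization p with haH
  set a : G → ℂ := fun g => Cfsg.pRegularPart p (χ : G → ℂ) g⁻¹ with ha
  have ha_cls : ∀ g x : G, a (x * g * x⁻¹) = a g := by
    intro g x
    simp only [ha]
    have h1 : (x * g * x⁻¹)⁻¹ = x * g⁻¹ * x⁻¹ := by group
    rw [h1, pRegularPart_conj (irr_conj χ)]
  have ha_lr : ∀ g, Cfsg.MemLocalRing M (a g) := fun g => lr_pRegularPart hM χ g⁻¹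
  have hmH : ¬ p ∣ Nat.card H / p ^ aH := Nat.not_dvd_ordCompl hp Nat.card_pos.ne'
  have hmH0 : ((Nat.card H / p ^ aH : ℕ) : ℂ) ≠ 0 := by
    intro h0
    have h1 : Nat.card H / p ^ aH = 0 := by exact_mod_cast h0
    rw [h1] at hmH
    exact hmH (dvd_zero p)
  have hmG : ¬ p ∣ Nat.card G / p ^ (Nat.card G).factorization p :=
    Nat.not_dvd_ordCompl hp Nat.card_pos.ne'
  have hX : Cfsg.classInner (fun h : H => if p ∣ orderOf h then (0 : ℂ) else
      ((p ^ aH : ℕ) : ℂ) * (χ : G → ℂ) h) (ψ : H → ℂ) / (ψ : H → ℂ) 1 =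
      ((Nat.card H / p ^ aH : ℕ) : ℂ)⁻¹ *
        ∑ h : H, a (h : G) * ((ψ : H → ℂ) h / (ψ : H → ℂ) 1) := by
    unfold Cfsg.classInner
    rw [← pow_mul_card_inv (G := H) hp]
    have h1 : ∀ h : H, (if p ∣ orderOf h then (0:ℂ) else ((p ^ aH : ℕ) : ℂ) * (χ : G → ℂ) h) *
        (starRingEnd ℂ) ((ψ : H → ℂ) h) =
        ((p ^ aH : ℕ) : ℂ) * (Cfsg.pRegularPart p (χ : G → ℂ) (h : G) * (ψ : H → ℂ) h⁻¹) := by
      intro h
      rw [irr_inv ψ h]
      by_cases hs : p ∣ orderOf h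
      · rw [if_pos hs, pRegularPart_of_sing (by rwa [Subgroup.orderOf_coe])]; ring
      · rw [if_neg hs, pRegularPart_of_reg (by rwa [Subgroup.orderOf_coe])]; ring
    rw [Finset.sum_congr rfl (fun h _ => h1 h), ← Finset.mul_sum]
    have h2 : ∑ h : H, Cfsg.pRegularPart p (χ : G → ℂ) (h : G) * (ψ : H → ℂ) h⁻¹ =
        ∑ h : H, a (h : G) * (ψ : H → ℂ) h := by
      rw [← Equiv.sum_comp (Equiv.inv H)]
      apply Finset.sum_congr rfl
      intro h _
      simp [ha]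
    have h3 : ∑ h : H, a (h : G) * ((ψ : H → ℂ) h / (ψ : H → ℂ) 1) =
        (∑ h : H, a (h : G) * (ψ : H → ℂ) h) / (ψ : H → ℂ) 1 := by
      rw [Finset.sum_div]
      apply Finset.sum_congr rfl
      intro h _
      ring
    rw [h2, h3]
    ring
  have hY : ∀ χ₀ : Cfsg.IrrCharacter G, ∑ g : G, a g * ((χ₀ : G → ℂ) g / (χ₀ : G → ℂ) 1) =
      (Nat.card G : ℂ) * gram p (χ : G → ℂ) (χ₀ : G → ℂ) / (χ₀ : G → ℂ) 1 := by
    intro χ₀
    rw [gram_eq, ← mul_assoc, mul_inv_cancel₀ card_ne_zero, one_mul, Finset.sum_div,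
      ← Equiv.sum_comp (Equiv.inv G)]
    apply Finset.sum_congr rfl
    intro g _
    simp [ha]
    ring
  constructor
  · intro hχ
    obtain ⟨χ₀, hχ₀⟩ : ∃ χ₀, χ₀ ∈ B₀ := by
      obtain ⟨χ₁, h⟩ := hB₀
      exact ⟨χ₁, h ▸ self_mem_blockOf hM χ₁⟩
    have h0 : gram p (χ : G → ℂ) (χ₀ : G → ℂ) = 0 := by
      rw [gram_symm hp χ₀ χ]
      exact gram_eq_zero_of_lr hM B₀ (fun g => blockCoeff_lr hM hB₀ g) hχ₀ hχ
    have h1 := li_sum_sub_of_induced hM H hind ψ hψ χ₀ hχ₀ a ha_cls ha_lr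
    rw [hY, h0, mul_zero, zero_div, sub_zero] at h1
    rw [hX]
    exact lr_mul_li hM (lr_natCast_inv hM hmH) h1
  · intro hχ h0 hli
    have hmin : ∀ ψ' ∈ B₀, (Cfsg.charDegree (χ : G → ℂ)).factorization p ≤
        (Cfsg.charDegree (ψ' : G → ℂ)).factorization p := by
      intro ψ' hψ'
      have h1 : sInf ((fun ψ : Cfsg.IrrCharacter G =>
          (Cfsg.charDegree (ψ : G → ℂ)).factorization p) '' B₀) ≤
          (Cfsg.charDegree (ψ' : G → ℂ)).factorization p := Nat.sInf_le ⟨ψ', hψ', rfl⟩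
      have h2 : (Cfsg.charDegree (χ : G → ℂ)).factorization p -
          sInf ((fun ψ : Cfsg.IrrCharacter G =>
          (Cfsg.charDegree (ψ : G → ℂ)).factorization p) '' B₀) = 0 := h0
      omega
    have hc := gram_div_not_li_of_min hM hB₀ hχ hmin
    have hE := li_sum_sub_of_induced hM H hind ψ hψ χ hχ a ha_cls ha_lr
    rw [hY] at hE
    rw [hX] at hli
    have h1 : Cfsg.MemLocalIdeal M
        (∑ h : H, a (h : G) * ((ψ : H → ℂ) h / (ψ : H → ℂ) 1)) := by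
      have h2 : ∑ h : H, a (h : G) * ((ψ : H → ℂ) h / (ψ : H → ℂ) 1) =
          ((Nat.card H / p ^ aH : ℕ) : ℂ) * (((Nat.card H / p ^ aH : ℕ) : ℂ)⁻¹ *
            ∑ h : H, a (h : G) * ((ψ : H → ℂ) h / (ψ : H → ℂ) 1)) := by
        rw [← mul_assoc, mul_inv_cancel₀ hmH0, one_mul]
      rw [h2]
      exact lr_mul_li hM (lr_natCast hM _) hli
    have h2 : Cfsg.MemLocalIdeal M ((Nat.card G : ℂ) * gram p (χ : G → ℂ) (χ : G → ℂ) /
        (χ : G → ℂ) 1) := by
      have h3 := li_sub hM h1 hE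
      rwa [sub_sub_cancel] at h3
    apply hc
    have h3 : ((p ^ (Nat.card G).factorization p : ℕ) : ℂ) * gram p (χ : G → ℂ) (χ : G → ℂ) /
        (χ : G → ℂ) 1 = ((Nat.card G / p ^ (Nat.card G).factorization p : ℕ) : ℂ)⁻¹ *
        ((Nat.card G : ℂ) * gram p (χ : G → ℂ) (χ : G → ℂ) / (χ : G → ℂ) 1) := by
      rw [← pow_mul_card_inv hp]
      have hG : (Nat.card G : ℂ) ≠ 0 := card_ne_zero
      field_simp
    rw [h3]
    exact lr_mul_li hM (lr_natCast_inv hM hmG) h2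

end Cfsg.Agent.S4431
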