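import Cfsg.Statements.S4433
import Cfsg.Agent.Helper24.BlockQ
import Cfsg.Agent.Helper7.IndBlock
import Cfsg.Agent.Helper25.BlockIdem
import Cfsg.Agent.Helper25.CharKer

set_option autoImplicit false
open Cfsg

namespace Cfsg.Agent.S4433

open Cfsg.Agent.Helper25 Cfsg.Agent.Helper24 Cfsg.Agent.Helper7

/-- Let N be a normal subgroup of the finite group G and write Ḡ = G/N; fix a maximal ideal M of the algebraic integers containing p. Let B̄ be a block of Ḡ contained in the block B of G, in the sense that the inflation of every member of B̄ lies in B, and let D̄ be a defect group of B̄. Then B has a defect group P whose image in Ḡ contains D̄. -/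
theorem result {G : Type*} [Group G] [Finite G] (p : ℕ) [Fact p.Prime] (M : Ideal Cfsg.AlgInt) (hM : Cfsg.IsPModular p M) (N : Subgroup G) [N.Normal] (Bbar : Set (Cfsg.IrrCharacter (G ⧸ N))) (hBbar : Cfsg.IsPBlock M Bbar) (B : Set (Cfsg.IrrCharacter G)) (hB : Cfsg.IsPBlock M B) (hsub : ∀ χ ∈ Bbar, ∀ ψ : Cfsg.IrrCharacter G, (ψ : G → ℂ) = (χ : G ⧸ N → ℂ) ∘ QuotientGroup.mk → ψ ∈ B) (Dbar : Subgroup (G ⧸ N)) (hDbar : Cfsg.IsDefectGroup p M Bbar Dbar) : ∃ P : Subgroup G, Cfsg.IsDefectGroup p M B P ∧ Dbar ≤ P.map (QuotientGroup.mk' N) := by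
  classical
  have hp := hM.1
  obtain ⟨χb, hχb⟩ : ∃ χb, χb ∈ Bbar := by
    obtain ⟨χ', h'⟩ := hBbar
    exact ⟨χ', by rw [h']; exact self_mem_blockOf hM χ'⟩
  have hχ : irrComp χb (QuotientGroup.mk' N) (QuotientGroup.mk'_surjective N) ∈ B :=
    hsub χb hχb _ rfl
  obtain ⟨g, hg⟩ := exists_isDefectClass hM hB
  obtain ⟨t, ht⟩ := index_centralizer_quot N g
  have hcc := centralChar_inflate N (χb : G ⧸ N → ℂ) g t ht
  have h1 := hg.2.2 _ hχ
  have hfun : ((irrComp χb (QuotientGroup.mk' N) (QuotientGroup.mk'_surjective N) :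
      Cfsg.IrrCharacter G) : G → ℂ)
      = (χb : G ⧸ N → ℂ) ∘ (QuotientGroup.mk : G → G ⧸ N) := rfl
  rw [hfun, hcc] at h1
  have htp : ¬ p ∣ t := by
    intro hpt
    apply h1
    exact li_mul_lr hM ((li_natCast_iff hM t).mpr hpt) (lr_centralChar hM χb _)
  have hccb : ¬ Cfsg.MemLocalIdeal M (Cfsg.centralChar (χb : G ⧸ N → ℂ) (QuotientGroup.mk g)) := by
    intro h
    apply h1
    exact lr_mul_li hM (lr_natCast hM t) h
  have hrel := bq_relIndex N g t ht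
  obtain ⟨S⟩ : Nonempty (Sylow p (Subgroup.centralizer ({g} : Set G))) := inferInstance
  obtain ⟨Q', hQ'⟩ := bq_sylow_map p N g (by rw [hrel]; exact htp) S
  obtain ⟨g₀, hg₀, Q₀, hD⟩ := hDbar
  have hDp : IsPGroup p Dbar := by
    rw [hD]
    exact Q₀.isPGroup'.map _
  have hDle : Dbar ≤ Subgroup.centralizer ({g₀} : Set (G ⧸ N)) := by
    rw [hD]
    exact Subgroup.map_subtype_le _
  obtain ⟨xb, Qb, hxQ⟩ := minmax_b hM hBbar g₀ hg₀.2.1 Dbar hDp hDle (QuotientGroup.mk g)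
    (centralChar_not_li_of_mem hM hBbar _ ⟨χb, hχb, hccb⟩)
  obtain ⟨c, hc, hcy⟩ := sylow_map_conj p
    (Subgroup.centralizer ({(QuotientGroup.mk g : G ⧸ N)} : Set (G ⧸ N))) Q' Qb
  obtain ⟨z, hz⟩ := QuotientGroup.mk_surjective (c⁻¹ * xb)
  refine ⟨((S : Subgroup (Subgroup.centralizer ({g} : Set G))).map
    (Subgroup.centralizer ({g} : Set G)).subtype).map (MulAut.conj z⁻¹).toMonoidHom,
    isDefectGroup_conj ⟨g, hg, S, rfl⟩ z⁻¹, ?_⟩
  intro d hd
  have h2 : xb * d * xb⁻¹ ∈ (Qb : Subgroup (Subgroup.centralizer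
      ({(QuotientGroup.mk g : G ⧸ N)} : Set (G ⧸ N)))).map
      (Subgroup.centralizer ({(QuotientGroup.mk g : G ⧸ N)} : Set (G ⧸ N))).subtype :=
    hxQ (Subgroup.mem_map.mpr ⟨d, hd, rfl⟩)
  have h3 := (hcy _).mp h2
  rw [hQ'] at h3
  obtain ⟨s, hs, hse⟩ := Subgroup.mem_map.mp h3
  rw [Subgroup.mem_map]
  refine ⟨z⁻¹ * s * z, Subgroup.mem_map.mpr ⟨s, hs, by simp⟩, ?_⟩
  have hz' : (QuotientGroup.mk' N) z = c⁻¹ * xb := hz
  rw [map_mul, map_mul, map_inv, hse, hz']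
  group

end Cfsg.Agent.S4433
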