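import Cfsg.Statements.S4434
import Cfsg.Agent.Helper24.BlockQ
import Cfsg.Agent.Helper7.IndBlock
import Cfsg.Agent.Helper7.Defect
import Cfsg.Agent.Helper25.BlockIdem
import Cfsg.Agent.Helper25.CharKer
import Cfsg.Agent.Helper25.BlockNilp
import Cfsg.Agent.Helper25.BlockPairs9
import Cfsg.Agent.Helper2.Fong

set_option autoImplicit false
open Cfsg

namespace Cfsg.Agent.S4434

open Cfsg.Agent.Helper25 Cfsg.Agent.Helper24 Cfsg.Agent.Helper7

open Classical in
theorem s4434_pushforward {G : Type*} [Group G] [Fintype G] (N : Subgroup G) [N.Normal]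
    [Fintype (G ⧸ N)] (B : Set (Cfsg.IrrCharacter G)) :
    (fun q : G ⧸ N => ∑ x : G,
        if (QuotientGroup.mk x : G ⧸ N) = q then Cfsg.blockCoeff B x else 0)
      = Cfsg.blockCoeff {χb : Cfsg.IrrCharacter (G ⧸ N) |
          irrComp χb (QuotientGroup.mk' N) (QuotientGroup.mk'_surjective N) ∈ B} := by
  apply eq_blockCoeff_of_omega
  · intro q y
    obtain ⟨y', rfl⟩ := QuotientGroup.mk_surjective y
    show ∑ x : G, (if (QuotientGroup.mk x : G ⧸ N)
          = QuotientGroup.mk y' * q * (QuotientGroup.mk y')⁻¹ then Cfsg.blockCoeff B x else 0)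
        = ∑ x : G, if (QuotientGroup.mk x : G ⧸ N) = q then Cfsg.blockCoeff B x else 0
    rw [← Equiv.sum_comp (MulAut.conj y').toEquiv]
    apply Finset.sum_congr rfl
    intro x _
    have e1 : (MulAut.conj y').toEquiv x = y' * x * y'⁻¹ := rfl
    rw [e1, blockCoeff_conj]
    have e2 : ((QuotientGroup.mk (y' * x * y'⁻¹) : G ⧸ N)
        = QuotientGroup.mk y' * q * (QuotientGroup.mk y')⁻¹) ↔ (QuotientGroup.mk x : G ⧸ N) = q := by
      rw [QuotientGroup.mk_mul, QuotientGroup.mk_mul, QuotientGroup.mk_inv]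
      constructor
      · intro h
        have h' := congrArg (fun z => (QuotientGroup.mk y' : G ⧸ N)⁻¹ * z * QuotientGroup.mk y') h
        simpa [mul_assoc] using h'
      · intro h
        rw [h]
    simp only [e2]
  · intro χb
    have h1 := omega_blockCoeff B
      (irrComp χb (QuotientGroup.mk' N) (QuotientGroup.mk'_surjective N))
    have h2 : (χb ∈ {χb : Cfsg.IrrCharacter (G ⧸ N) |
        irrComp χb (QuotientGroup.mk' N) (QuotientGroup.mk'_surjective N) ∈ B})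
        ↔ irrComp χb (QuotientGroup.mk' N) (QuotientGroup.mk'_surjective N) ∈ B := Iff.rfl
    simp only [h2]
    rw [← h1]
    unfold omega
    have h3 : ((irrComp χb (QuotientGroup.mk' N) (QuotientGroup.mk'_surjective N) :
        Cfsg.IrrCharacter G) : G → ℂ) 1 = (χb : G ⧸ N → ℂ) 1 := by
      rw [irrComp_apply, map_one]
    rw [h3]
    congr 1
    simp only [Finset.sum_mul, ite_mul, zero_mul]
    rw [Finset.sum_comm]
    apply Finset.sum_congr rfl
    intro x _
    rw [Finset.sum_ite_eq, if_pos (Finset.mem_univ _)]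
    rfl

theorem s4434_conj_map {G : Type*} [Group G] (N : Subgroup G) [N.Normal] (P : Subgroup G)
    (x : G) :
    (P.map (MulAut.conj x).toMonoidHom).map (QuotientGroup.mk' N)
      = (P.map (QuotientGroup.mk' N)).map
          (MulAut.conj ((QuotientGroup.mk' N) x)).toMonoidHom := by
  rw [Subgroup.map_map, Subgroup.map_map]
  congr 1

theorem s4434_singular {G : Type*} [Group G] [Finite G] (p : ℕ) (hp : p.Prime) [Fact p.Prime]
    (N : Subgroup G)
    (hN : IsPGroup p N) (g : G) (hgreg : ¬ p ∣ orderOf g)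
    (hgC : g ∈ Subgroup.centralizer (N : Set G)) (n : G) (hn : n ∈ N) (hn1 : n ≠ 1) :
    p ∣ orderOf (g * n) := by
  obtain ⟨k, hk⟩ := (IsPGroup.iff_orderOf.mp hN) ⟨n, hn⟩
  rw [Subgroup.orderOf_mk] at hk
  have hk0 : k ≠ 0 := by
    intro h0
    rw [h0, pow_zero, orderOf_eq_one_iff] at hk
    exact hn1 hk
  have hcomm : Commute g n := (Subgroup.mem_centralizer_iff.mp hgC n hn).symm
  have hcop : (orderOf g).Coprime (orderOf n) := by
    rw [hk]
    exact Nat.Coprime.pow_right k ((Nat.Prime.coprime_iff_not_dvd hp).mpr hgreg).symm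
  rw [hcomm.orderOf_mul_eq_mul_orderOf_of_coprime hcop, hk]
  exact Dvd.dvd.mul_left (dvd_pow_self p hk0) _

/-- Let N be a normal p-subgroup of the finite group G and write Ḡ = G/N; fix a maximal ideal M of the algebraic integers containing p. Then every block B of G contains a block B̄ of Ḡ (the inflation of every member of B̄ lies in B) whose defect groups are exactly the images in Ḡ of the defect groups of B. -/
theorem result {G : Type*} [Group G] [Finite G] (p : ℕ) [Fact p.Prime] (M : Ideal Cfsg.AlgInt) (hM : Cfsg.IsPModular p M) (N : Subgroup G) [N.Normal] (hN : IsPGroup p N) (B : Set (Cfsg.IrrCharacter G)) (hB : Cfsg.IsPBlock M B) : ∃ Bbar : Set (Cfsg.IrrCharacter (G ⧸ N)), Cfsg.IsPBlock M Bbar ∧ (∀ χ ∈ Bbar, ∀ ψ : Cfsg.IrrCharacter G, (ψ : G → ℂ) = (χ : G ⧸ N → ℂ) ∘ QuotientGroup.mk → ψ ∈ B) ∧ ∀ Dbar : Subgroup (G ⧸ N), Cfsg.IsDefectGroup p M Bbar Dbar ↔ ∃ P : Subgroup G, Cfsg.IsDefectGroup p M B P ∧ Dbar = P.map (QuotientGroup.mk'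 N) := by
  classical
  have hp := hM.1
  haveI : Fact p.Prime := ⟨hp⟩
  haveI := Fintype.ofFinite G
  haveI := Fintype.ofFinite (G ⧸ N)
  obtain ⟨g, hg⟩ := exists_isDefectClass hM hB
  have hgreg := isDefectClass_regular hM hB hg
  have hgC : g ∈ Subgroup.centralizer (N : Set G) := by
    by_contra h
    apply hg.2.1
    rw [blockCoeff_eq_zero_of_not_mem_centralizer hM N hN hB h]
    exact li_zero hM
  obtain ⟨U, hU⟩ : ∃ U : Set (Cfsg.IrrCharacter (G ⧸ N)), U = {χb : Cfsg.IrrCharacter (G ⧸ N) |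
      irrComp χb (QuotientGroup.mk' N) (QuotientGroup.mk'_surjective N) ∈ B} := ⟨_, rfl⟩
  have hpush := congrFun (s4434_pushforward N B) (QuotientGroup.mk g)
  rw [← hU] at hpush
  have hfib : ∑ x : G, (if (QuotientGroup.mk x : G ⧸ N) = QuotientGroup.mk g
      then Cfsg.blockCoeff B x else 0) = Cfsg.blockCoeff B g := by
    rw [Finset.sum_eq_single g]
    · rw [if_pos rfl]
    · intro x _ hxg
      by_cases hx : (QuotientGroup.mk x : G ⧸ N) = QuotientGroup.mk g
      · rw [if_pos hx]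
        have hn : g⁻¹ * x ∈ N := QuotientGroup.eq.mp hx.symm
        have hn1 : g⁻¹ * x ≠ 1 := by
          intro h
          apply hxg
          have := congrArg (fun z => g * z) h
          simpa using this
        have hsing := s4434_singular p hp N hN g hgreg hgC (g⁻¹ * x) hn hn1
        rw [mul_inv_cancel_left] at hsing
        exact blockCoeff_eq_zero_of_singular hM hB x hsing
      · rw [if_neg hx]
    · intro h
      exact absurd (Finset.mem_univ _) h
  have hUg : ¬ Cfsg.MemLocalIdeal M (Cfsg.blockCoeff U (QuotientGroup.mk g)) := by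
    rw [← hpush]
    show ¬ Cfsg.MemLocalIdeal M (∑ x : G, (if (QuotientGroup.mk x : G ⧸ N) = QuotientGroup.mk g
      then Cfsg.blockCoeff B x else 0))
    rw [hfib]
    exact hg.2.1
  have hinfl : ∀ χb ψb : Cfsg.IrrCharacter (G ⧸ N),
      irrComp χb (QuotientGroup.mk' N) (QuotientGroup.mk'_surjective N) ∈ B →
      Cfsg.SameBlock M (χb : G ⧸ N → ℂ) (ψb : G ⧸ N → ℂ) →
      irrComp ψb (QuotientGroup.mk' N) (QuotientGroup.mk'_surjective N) ∈ B := by
    intro χb ψb h1 h2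
    rw [eq_blockOf_of_mem hM hB h1]
    exact sameBlock_inflate hM N _ _ h2
  have hUcl : ∀ χ ∈ U, ∀ ψ : Cfsg.IrrCharacter (G ⧸ N),
      Cfsg.SameBlock M (χ : G ⧸ N → ℂ) (ψ : G ⧸ N → ℂ) → ψ ∈ U := by
    intro χ hχ ψ h
    rw [hU] at hχ ⊢
    exact hinfl χ ψ hχ h
  obtain ⟨χ₁, hχ₁U, hχ₁⟩ := Cfsg.Agent.Helper2.exists_block_not_li hM U hUcl _ hUg
  rw [hU] at hχ₁U
  have hBb : Cfsg.IsPBlock M (Cfsg.blockOf M (χ₁ : G ⧸ N → ℂ)) := isPBlock_blockOf χ₁
  have hsubB : ∀ χ ∈ Cfsg.blockOf M (χ₁ : G ⧸ N → ℂ),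
      irrComp χ (QuotientGroup.mk' N) (QuotientGroup.mk'_surjective N) ∈ B :=
    fun χ hχ => hinfl χ₁ χ hχ₁U hχ
  obtain ⟨t, ht⟩ := index_centralizer_quot N g
  have hcc : ∀ χ ∈ Cfsg.blockOf M (χ₁ : G ⧸ N → ℂ),
      ¬ Cfsg.MemLocalIdeal M (Cfsg.centralChar (χ : G ⧸ N → ℂ) (QuotientGroup.mk g)) := by
    intro χ hχ h
    have h1 := hg.2.2 _ (hsubB χ hχ)
    have hfun : ((irrComp χ (QuotientGroup.mk' N) (QuotientGroup.mk'_surjective N) :
        Cfsg.IrrCharacter G) : G → ℂ)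
        = (χ : G ⧸ N → ℂ) ∘ (QuotientGroup.mk : G → G ⧸ N) := rfl
    rw [hfun, centralChar_inflate N (χ : G ⧸ N → ℂ) g t ht] at h1
    exact h1 (lr_mul_li hM (lr_natCast hM t) h)
  have htp : ¬ p ∣ t := by
    intro hpt
    have h1 := hg.2.2 _ hχ₁U
    have hfun : ((irrComp χ₁ (QuotientGroup.mk' N) (QuotientGroup.mk'_surjective N) :
        Cfsg.IrrCharacter G) : G → ℂ)
        = (χ₁ : G ⧸ N → ℂ) ∘ (QuotientGroup.mk : G → G ⧸ N) := rfl
    rw [hfun, centralChar_inflate N (χ₁ : G ⧸ N → ℂ) g t ht] at h1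
    exact h1 (li_mul_lr hM ((li_natCast_iff hM t).mpr hpt) (lr_centralChar hM χ₁ _))
  have hdc : Cfsg.IsDefectClass M (Cfsg.blockOf M (χ₁ : G ⧸ N → ℂ)) (QuotientGroup.mk g) :=
    ⟨blockCoeff_lr hM hBb _, hχ₁, hcc⟩
  obtain ⟨S⟩ : Nonempty (Sylow p (Subgroup.centralizer ({g} : Set G))) := inferInstance
  obtain ⟨Q', hQ'⟩ := bq_sylow_map p N g (by rw [bq_relIndex N g t ht]; exact htp) S
  obtain ⟨P₀, hP₀⟩ : ∃ P₀, P₀ = (S : Subgroup (Subgroup.centralizer ({g} : Set G))).map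
      (Subgroup.centralizer ({g} : Set G)).subtype := ⟨_, rfl⟩
  rw [← hP₀] at hQ'
  have hP₀B : Cfsg.IsDefectGroup p M B P₀ := ⟨g, hg, S, hP₀⟩
  have hP₀b : Cfsg.IsDefectGroup p M (Cfsg.blockOf M (χ₁ : G ⧸ N → ℂ))
      (P₀.map (QuotientGroup.mk' N)) := ⟨QuotientGroup.mk g, hdc, Q', hQ'.symm⟩
  refine ⟨Cfsg.blockOf M (χ₁ : G ⧸ N → ℂ), hBb, ?_, ?_⟩
  · intro χ hχ ψ hψ
    have : ψ = irrComp χ (QuotientGroup.mk' N) (QuotientGroup.mk'_surjective N) :=
      Subtype.ext hψ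
    rw [this]
    exact hsubB χ hχ
  · intro Dbar
    constructor
    · intro hD
      obtain ⟨xb, hxb⟩ := exists_conj_of_isDefectGroup hM hBb hD hP₀b
      obtain ⟨x, rfl⟩ := QuotientGroup.mk_surjective xb
      refine ⟨P₀.map (MulAut.conj x).toMonoidHom, isDefectGroup_conj hP₀B x, ?_⟩
      rw [s4434_conj_map, ← hxb]
      rfl
    · rintro ⟨P, hP, rfl⟩
      obtain ⟨x, hx⟩ := exists_conj_of_isDefectGroup hM hB hP hP₀B
      rw [← hx, s4434_conj_map]
      exact isDefectGroup_conj hP₀b _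

end Cfsg.Agent.S4434
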