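import Cfsg.Statements.S4435
import Cfsg.Agent.Helper24.FR

set_option autoImplicit false
open Cfsg

namespace Cfsg.Agent.S4435

open Cfsg.Agent.Helper25 Cfsg.Agent.Helper24 Cfsg.Agent.Helper7 Cfsg.Agent.Helper2

/-- Let N be a normal subgroup of the finite group G, b a block of N (relative to a maximal ideal M of the algebraic integers containing p), and T the stabilizer of b in G (the elements g such that conjugating any member of b by g gives a member of b); N ≤ T. Say that a block of T (or of G) covers b when some member has a constituent in b on restriction to N. Then: (i) every block B′ of T covering b induces a block B of G, B covers b, every ψ ∈ B′ induces to an irreducible character of G, and B consists exactly of the characters induced from members of B′; (ii) distinct blocks of T covering b induce distinct blocks of G;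 (iii) every block of G covering b is induced by some block of T covering b. -/
theorem result {G : Type*} [Group G] [Fintype G] (p : ℕ) [Fact p.Prime] (M : Ideal Cfsg.AlgInt) (hM : Cfsg.IsPModular p M) (N : Subgroup G) [hN : N.Normal] [Fintype N] (b : Set (Cfsg.IrrCharacter N)) (hb : Cfsg.IsPBlock M b) (T : Subgroup G) [Fintype T] (hT : ∀ g : G, g ∈ T ↔ ∀ θ ∈ b, ∀ θ' : Cfsg.IrrCharacter N, (∀ n : N, (θ' : N → ℂ) n = (θ : N → ℂ) ⟨g * n * g⁻¹, hN.conj_mem n n.2 g⟩) → θ' ∈ b) (hNT : N ≤ T) : (∀ B' : Set (Cfsg.IrrCharacter T), Cfsg.IsPBlock M B' → (∃ ψ ∈ B', ∃ θ ∈ b, Cfsg.classInner (fun n : N => (ψ : T → ℂ) ⟨(n : G), hNT n.2⟩) (θ : N → ℂ) ≠ 0) → ∃ B : Set (Cfsg.IrrCharacter G), Cfsg.IsInducedBlock M T B' B ∧ (∃ χ ∈ B, ∃ θ ∈ b, Cfsg.classInner (fun n : N => (χ : G → ℂ) n) (θ : N → ℂ) ≠ 0) ∧ (∀ ψ ∈ B', Cfsg.IsIrrCharacter G (Cfsg.indFun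 T (ψ : T → ℂ))) ∧ ∀ χ : Cfsg.IrrCharacter G, χ ∈ B ↔ ∃ ψ ∈ B', (χ : G → ℂ) = Cfsg.indFun T (ψ : T → ℂ)) ∧ (∀ B'₁ B'₂ : Set (Cfsg.IrrCharacter T), Cfsg.IsPBlock M B'₁ → Cfsg.IsPBlock M B'₂ → (∃ ψ ∈ B'₁, ∃ θ ∈ b, Cfsg.classInner (fun n : N => (ψ : T → ℂ) ⟨(n : G), hNT n.2⟩) (θ : N → ℂ) ≠ 0) → (∃ ψ ∈ B'₂, ∃ θ ∈ b, Cfsg.classInner (fun n : N => (ψ : T → ℂ) ⟨(n : G), hNT n.2⟩) (θ : N → ℂ) ≠ 0) → ∀ B : Set (Cfsg.IrrCharacter G), Cfsg.IsInducedBlock M T B'₁ B → Cfsg.IsInducedBlock M T B'₂ B → B'₁ = B'₂) ∧ (∀ B : Set (Cfsg.IrrCharacter G), Cfsg.IsPBlock M B → (∃ χ ∈ B, ∃ θ ∈ b, Cfsg.classInner (fun n : N => (χ : G → ℂ) n) (θ : N → ℂ) ≠ 0) → ∃ B' : Set (Cfsg.IrrCharacter T), Cfsg.IsPBlock M B' ∧ (∃ ψ ∈ B', ∃ θ ∈ b, Cfsg.classInner (fun n : N => (ψ : T → ℂ) ⟨(n : G), hNT n.2⟩) (θ : N → ℂ) ≠ 0) ∧ Cfsg.IsInducedBlock M T B' B) := by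
  have hT' := fr_hT N b T hT
  refine ⟨?_, ?_, ?_⟩
  · intro B' hB' hcov
    obtain ⟨B, h1, h2, h3, h4, -⟩ := fr_main hM N hb T hT' hNT hB' hcov
    exact ⟨B, h1, h2, h3, h4⟩
  · intro B'₁ B'₂ hB'₁ hB'₂ hc₁ hc₂ B hi₁ hi₂
    obtain ⟨B₁, i₁, -, irr₁, mem₁, -⟩ := fr_main hM N hb T hT' hNT hB'₁ hc₁
    obtain ⟨B₂, i₂, -, irr₂, mem₂, -⟩ := fr_main hM N hb T hT' hNT hB'₂ hc₂
    have e₁ : B = B₁ := isInducedBlock_unique hM T hi₁ i₁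
    have e₂ : B = B₂ := isInducedBlock_unique hM T hi₂ i₂
    obtain ⟨ψ₁, hψ₁, hcov₁⟩ := hc₁
    obtain ⟨ψ₀, hψ₀, hcov₀⟩ := hc₂
    have hχ₁ : (⟨Cfsg.indFun T (ψ₁ : T → ℂ), irr₁ ψ₁ hψ₁⟩ : Cfsg.IrrCharacter G) ∈ B₁ :=
      (mem₁ _).mpr ⟨ψ₁, hψ₁, rfl⟩
    rw [← e₁, e₂] at hχ₁
    obtain ⟨ψ₂, hψ₂, h⟩ := (mem₂ _).mp hχ₁
    have a₁ := (fr_covT_iff N T hNT b ψ₁).mpr hcov₁
    have a₀ := (fr_covT_iff N T hNT b ψ₀).mpr hcov₀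
    have a₂ := fr_cov_block_T hM N hb T hT' hNT hB'₂ hψ₀ a₀ ψ₂ hψ₂
    have heq : ψ₁ = ψ₂ := fr_ind_inj hM N hb T hT' hNT ψ₁ ψ₂ a₁ a₂ h
    rw [eq_blockOf_of_mem hM hB'₁ hψ₁, eq_blockOf_of_mem hM hB'₂ hψ₂, heq]
  · intro B hB hcov
    obtain ⟨χ, hχ, hc⟩ := hcov
    obtain ⟨ψ, hψ, hind⟩ := fr_ind_surj hM N hb T hT' hNT χ ((fr_covG_iff N b χ).mpr hc)
    refine ⟨Cfsg.blockOf M (ψ : T → ℂ), isPBlock_blockOf ψ,
      ⟨ψ, self_mem_blockOf hM ψ, (fr_covT_iff N T hNT b ψ).mp hψ⟩, ?_⟩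
    have h1 := isInducedBlock_of_irr_ind hM T ψ (by rw [hind]; exact χ.2)
    rw [hind] at h1
    rw [eq_blockOf_of_mem hM hB hχ]
    exact h1

end Cfsg.Agent.S4435
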