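import Cfsg.Statements.S4436
import Cfsg.Agent.Helper24.FR
import Cfsg.Agent.Helper7.Defect
import Cfsg.Agent.S0917

set_option autoImplicit false
open Cfsg

namespace Cfsg.Agent.S4436

open Cfsg.Agent.Helper25 Cfsg.Agent.Helper24 Cfsg.Agent.Helper7 Cfsg.Agent.Helper2

theorem s4436_deg {G : Type*} [Group G] [Fintype G] (T : Subgroup G) [Fintype T]
    (ψ : Cfsg.IrrCharacter T) (χ : Cfsg.IrrCharacter G)
    (h : (χ : G → ℂ) = Cfsg.indFun T (ψ : T → ℂ)) :
    Nat.card T * Cfsg.charDegree (χ : G → ℂ) = Nat.card G * Cfsg.charDegree (ψ : T → ℂ) := by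
  have h1 := congrFun h 1
  rw [indFun_one, irr_one_eq_degree, irr_one_eq_degree] at h1
  have hT0 : (Nat.card T : ℂ) ≠ 0 := natCard_ne_zero_complex T
  have h2 : (Nat.card T : ℂ) * (Cfsg.charDegree (χ : G → ℂ) : ℂ)
      = (Nat.card G : ℂ) * (Cfsg.charDegree (ψ : T → ℂ) : ℂ) := by
    rw [h1]
    field_simp
  exact_mod_cast h2

theorem s4436_val {G : Type*} [Group G] [Fintype G] (p : ℕ) (T : Subgroup G) [Fintype T]
    (ψ : Cfsg.IrrCharacter T) (χ : Cfsg.IrrCharacter G)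
    (h : (χ : G → ℂ) = Cfsg.indFun T (ψ : T → ℂ)) :
    (Cfsg.charDegree (χ : G → ℂ)).factorization p + (Nat.card T).factorization p
      = (Cfsg.charDegree (ψ : T → ℂ)).factorization p + (Nat.card G).factorization p := by
  have h1 := s4436_deg T ψ χ h
  have h2 : (Nat.card T * Cfsg.charDegree (χ : G → ℂ)).factorization p
      = (Nat.card G * Cfsg.charDegree (ψ : T → ℂ)).factorization p := by rw [h1]
  rw [Nat.factorization_mul Nat.card_pos.ne' (irr_degree_pos χ).ne',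
    Nat.factorization_mul Nat.card_pos.ne' (irr_degree_pos ψ).ne'] at h2
  simp only [Finsupp.coe_add, Pi.add_apply] at h2
  omega

/-- Let N be a normal subgroup of the finite group G, b a block of N (relative to a maximal ideal M of the algebraic integers containing p), T the stabilizer of b in G, N ≤ T, and B′ a block of T covering b (some member of B′ has a constituent in b on restriction to N) that induces the block B of G. Then every defect group of B′ is a defect group of B, and for every ψ ∈ B′ the induced character ψ^G is an irreducible character of G lying in B with the same height as ψ. -/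
theorem result {G : Type*} [Group G] [Fintype G] (p : ℕ) [Fact p.Prime] (M : Ideal Cfsg.AlgInt) (hM : Cfsg.IsPModular p M) (N : Subgroup G) [hN : N.Normal] [Fintype N] (b : Set (Cfsg.IrrCharacter N)) (hb : Cfsg.IsPBlock M b) (T : Subgroup G) [Fintype T] (hT : ∀ g : G, g ∈ T ↔ ∀ θ ∈ b, ∀ θ' : Cfsg.IrrCharacter N, (∀ n : N, (θ' : N → ℂ) n = (θ : N → ℂ) ⟨g * n * g⁻¹, hN.conj_mem n n.2 g⟩) → θ' ∈ b) (hNT : N ≤ T) (B' : Set (Cfsg.IrrCharacter T)) (hB' : Cfsg.IsPBlock M B') (hcov : (∃ ψ ∈ B', ∃ θ ∈ b, Cfsg.classInner (fun n : N => (ψ : T → ℂ) ⟨(n : G), hNT n.2⟩) (θ : N → ℂ) ≠ 0)) (B : Set (Cfsg.IrrCharacter G)) (hind : Cfsg.IsInducedBlock M T B' B) : (∀ D : Subgroup T, Cfsg.IsDefectGroup p M B' D → Cfsg.IsDefectGroup p M B (D.map T.subtype)) ∧ ∀ ψ ∈ B', ∃ χ ∈ B, (χ : G → ℂ) = Cfsg.indFun T (ψ : T → ℂ) ∧ Cfsg.blockHeight p B (χ : G → ℂ) = Cfsg.blockHeight p B' (ψ : T → ℂ) := by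
  classical
  have hT' := fr_hT N b T hT
  obtain ⟨B₀, i₀, -, irr, mem, -⟩ := fr_main hM N hb T hT' hNT hB' hcov
  have e : B₀ = B := isInducedBlock_unique hM T i₀ hind
  rw [e] at mem
  have hB : Cfsg.IsPBlock M B := hind.2.1
  obtain ⟨c, hc⟩ : ∃ c, c = (Nat.card G).factorization p - (Nat.card T).factorization p :=
    ⟨_, rfl⟩
  have hle : (Nat.card T).factorization p ≤ (Nat.card G).factorization p :=
    (Nat.factorization_le_iff_dvd Nat.card_pos.ne' Nat.card_pos.ne').mpr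
      (Subgroup.card_subgroup_dvd_card T) p
  have hval : ∀ ψ ∈ B', ∀ χ : Cfsg.IrrCharacter G,
      (χ : G → ℂ) = Cfsg.indFun T (ψ : T → ℂ) →
      (Cfsg.charDegree (χ : G → ℂ)).factorization p
        = (Cfsg.charDegree (ψ : T → ℂ)).factorization p + c := by
    intro ψ _ χ h
    have := s4436_val p T ψ χ h
    omega
  obtain ⟨VB, hVB⟩ : ∃ VB, VB = (fun χ : Cfsg.IrrCharacter G =>
      (Cfsg.charDegree (χ : G → ℂ)).factorization p) '' B := ⟨_, rfl⟩
  obtain ⟨VB', hVB'⟩ : ∃ VB', VB' = (fun ψ : Cfsg.IrrCharacter T =>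
      (Cfsg.charDegree (ψ : T → ℂ)).factorization p) '' B' := ⟨_, rfl⟩
  have hne' : VB'.Nonempty := by
    obtain ⟨ψ, hψ, -⟩ := hcov
    rw [hVB']
    exact ⟨_, ψ, hψ, rfl⟩
  have hne : VB.Nonempty := by
    obtain ⟨ψ, hψ, -⟩ := hcov
    rw [hVB]
    exact ⟨_, ⟨Cfsg.indFun T (ψ : T → ℂ), irr ψ hψ⟩, (mem _).mpr ⟨ψ, hψ, rfl⟩, rfl⟩
  have hinf : sInf VB = sInf VB' + c := by
    apply le_antisymm
    · have h1 := Nat.sInf_mem hne'
      rw [hVB'] at h1
      obtain ⟨ψ, hψ, hψe⟩ := h1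
      rw [← hVB'] at hψe
      apply Nat.sInf_le
      rw [hVB]
      refine ⟨⟨Cfsg.indFun T (ψ : T → ℂ), irr ψ hψ⟩, (mem _).mpr ⟨ψ, hψ, rfl⟩, ?_⟩
      have h2 := hval ψ hψ ⟨Cfsg.indFun T (ψ : T → ℂ), irr ψ hψ⟩ rfl
      rw [← hψe]
      exact h2
    · have h1 := Nat.sInf_mem hne
      rw [hVB] at h1
      obtain ⟨χ, hχ, hχe⟩ := h1
      rw [← hVB] at hχe
      obtain ⟨ψ, hψ, h⟩ := (mem χ).mp hχ
      have h2 := hval ψ hψ χ h
      have h3 : sInf VB' ≤ (Cfsg.charDegree (ψ : T → ℂ)).factorization p := by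
        apply Nat.sInf_le
        rw [hVB']
        exact ⟨ψ, hψ, rfl⟩
      simp only at hχe
      omega
  refine ⟨?_, ?_⟩
  · intro D hD
    obtain ⟨E, hE, hDE⟩ := Cfsg.Agent.S0917.result p M hM T B' hB' B hB hind D hD
    have h1 := card_defectGroup hM hB hE
    have h2 := card_defectGroup hM hB' hD
    have h3 : Cfsg.blockDefect p B = Cfsg.blockDefect p B' := by
      unfold Cfsg.blockDefect
      rw [← hVB, ← hVB', hinf]
      omega
    have h4 : Nat.card (D.map T.subtype) = Nat.card D :=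
      Subgroup.card_map_of_injective T.subtype_injective
    have h5 : D.map T.subtype = E :=
      Subgroup.eq_of_le_of_card_ge hDE (by rw [h4, h1, h2, h3])
    rw [h5]
    exact hE
  · intro ψ hψ
    refine ⟨⟨Cfsg.indFun T (ψ : T → ℂ), irr ψ hψ⟩, (mem _).mpr ⟨ψ, hψ, rfl⟩, rfl, ?_⟩
    have h2 := hval ψ hψ ⟨Cfsg.indFun T (ψ : T → ℂ), irr ψ hψ⟩ rfl
    unfold Cfsg.blockHeight
    rw [← hVB, ← hVB', hinf]
    simp only at h2 ⊢
    omega

end Cfsg.Agent.S4436
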