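import Cfsg.Statements.S4437
import Mathlib
import Cfsg.Agent.Helper2.ExtFirstMain
import Cfsg.Agent.Helper2.BlockNormP
import Cfsg.Agent.S4717
import Cfsg.Agent.S0970
import Cfsg.Agent.S0912

set_option autoImplicit false
open Cfsg

namespace Cfsg.Agent.S4437

open Cfsg Cfsg.Agent.Helper25 Cfsg.Agent.Helper7 Cfsg.Agent.Helper2

universe u

/-- A `p`-subgroup of `T` lies in the normal subgroup `L` of `T` when `p ∤ |T : L|`. -/
theorem le_of_pgroup_of_not_dvd {G : Type u} [Group G] [Finite G] {p : ℕ} [Fact p.Prime]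
    (L T R : Subgroup G) (hLT : L ≤ T) (hn : T ≤ Subgroup.normalizer (L : Set G))
    (hR : IsPGroup p R) (hRT : R ≤ T) (hnd : ¬ p ∣ L.relIndex T) : R ≤ L := by
  intro u hu
  haveI : (L.subgroupOf T).Normal := (Subgroup.normal_subgroupOf_iff_le_normalizer hLT).mpr hn
  have h1 : (⟨u, hRT hu⟩ : T) ^ (L.subgroupOf T).index ∈ L.subgroupOf T :=
    Subgroup.pow_index_mem _ _
  have h2 : u ^ (L.relIndex T) ∈ L := Subgroup.mem_subgroupOf.mp h1
  obtain ⟨j, hj⟩ := hR ⟨u, hu⟩
  have h3 : u ^ (p ^ j) = 1 := congrArg (Subtype.val : R → G) hj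
  have hcop : Nat.Coprime (L.relIndex T) (p ^ j) :=
    Nat.Coprime.pow_right j ((Nat.Prime.coprime_iff_not_dvd Fact.out).mpr hnd).symm
  have h4 := Nat.gcd_eq_gcd_ab (L.relIndex T) (p ^ j)
  rw [hcop.gcd_eq_one] at h4
  have h5 : (u ^ (L.relIndex T)) ^ (Nat.gcdA (L.relIndex T) (p ^ j)) = u := by
    have e : u ^ (((L.relIndex T : ℕ) : ℤ) * Nat.gcdA (L.relIndex T) (p ^ j)
        + ((p ^ j : ℕ) : ℤ) * Nat.gcdB (L.relIndex T) (p ^ j)) = u := by
      rw [← h4]; simp
    rw [zpow_add, zpow_mul, zpow_mul, zpow_natCast, zpow_natCast, h3, one_zpow, mul_one] at e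
    exact e
  rw [← h5]
  exact Subgroup.zpow_mem _ h2 _

/-- Transport of the stabilizer condition. -/
theorem conj_mem_transport {G : Type u} [Group G] (L X : Subgroup G) (hLX : L ≤ X)
    [hn : (L.subgroupOf X).Normal] (b : Set (IrrCharacter L)) (x : X)
    (hstab : ∀ θ ∈ b, ∀ θ' : IrrCharacter L,
      (∀ h h' : L, (h' : G) = (x : G)⁻¹ * h * ((x : G)⁻¹)⁻¹ → (θ' : L → ℂ) h' = (θ : L → ℂ) h)
        → θ' ∈ b)
    (ξ : IrrCharacter (L.subgroupOf X))
    (hξ : ξ ∈ transportSet (Subgroup.subgroupOfEquivOfLe hLX) b) :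
    conjIrrEquiv (L.subgroupOf X) x ξ ∈ transportSet (Subgroup.subgroupOfEquivOfLe hLX) b := by
  rw [mem_transportSet] at hξ ⊢
  apply hstab _ hξ
  intro h h' hh'
  show (ξ : ↥(L.subgroupOf X) → ℂ) ⟨x * (((Subgroup.subgroupOfEquivOfLe hLX).symm h' :
      ↥(L.subgroupOf X)) : X) * x⁻¹, hn.conj_mem _ ((Subgroup.subgroupOfEquivOfLe hLX).symm h').2 x⟩
    = (ξ : ↥(L.subgroupOf X) → ℂ) ((Subgroup.subgroupOfEquivOfLe hLX).symm h)
  refine congrArg (ξ : ↥(L.subgroupOf X) → ℂ) ?_
  apply Subtype.ext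
  apply Subtype.ext
  show (x : G) * (h' : G) * (x : G)⁻¹ = (h : G)
  rw [hh']
  group

theorem sum_eq_card_mul_sum_quot {N : Type u} [Group N] [Fintype N] (T : Subgroup N)
    [Fintype (N ⧸ T)] (φ : N → ℂ) (hφ : ∀ (x : N) (t : N), t ∈ T → φ (x * t) = φ x) :
    ∃ φb : N ⧸ T → ℂ, (∀ x : N, φb (QuotientGroup.mk x) = φ x) ∧
      ∑ x : N, φ x = (Nat.card T : ℂ) * ∑ ω : N ⧸ T, φb ω := by
  classical
  have hresp : ∀ a b : N, (QuotientGroup.leftRel T) a b → φ a = φ b := by
    intro a b hab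
    have h1 : a⁻¹ * b ∈ T := QuotientGroup.leftRel_apply.mp hab
    have h2 := hφ a (a⁻¹ * b) h1
    rw [mul_inv_cancel_left] at h2
    exact h2.symm
  refine ⟨Quotient.lift φ hresp, fun x => rfl, ?_⟩
  rw [← Finset.sum_fiberwise Finset.univ (fun x : N => (QuotientGroup.mk x : N ⧸ T)) φ,
    Finset.mul_sum]
  apply Finset.sum_congr rfl
  intro ω _
  induction ω using QuotientGroup.induction_on with
  | H q =>
    have h1 : ∀ x ∈ Finset.univ.filter (fun x : N => (QuotientGroup.mk x : N ⧸ T) = QuotientGroup.mk q),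
        φ x = φ q := by
      intro x hx
      have h2 := (Finset.mem_filter.mp hx).2
      have h3 : q⁻¹ * x ∈ T := QuotientGroup.eq.mp h2.symm
      have h4 := hφ q (q⁻¹ * x) h3
      rw [mul_inv_cancel_left] at h4
      exact h4
    rw [Finset.sum_congr rfl h1, Finset.sum_const, nsmul_eq_mul]
    congr 1
    have h5 : Finset.univ.filter (fun x : N => (QuotientGroup.mk x : N ⧸ T) = QuotientGroup.mk q)
        = Finset.univ.image (fun t : T => q * (t : N)) := by
      ext x
      simp only [Finset.mem_filter, Finset.mem_univ, true_and, Finset.mem_image]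
      constructor
      · intro h2
        have h3 : q⁻¹ * x ∈ T := QuotientGroup.eq.mp h2.symm
        exact ⟨⟨q⁻¹ * x, h3⟩, by simp⟩
      · rintro ⟨t, rfl⟩
        apply Eq.symm
        rw [QuotientGroup.eq]
        simp
    rw [h5, Finset.card_image_of_injective _ (fun a b hab => Subtype.ext (mul_left_cancel hab)),
      Finset.card_univ, Nat.card_eq_fintype_card]

theorem beta_conj {G : Type u} [Group G] [Finite G] (H T : Subgroup G) (hHT : H ≤ T)
    (hTH : T ≤ Subgroup.normalizer (H : Set G)) (b : Set (IrrCharacter H))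
    (hstab : ∀ t : G, t ∈ T → ∀ θ ∈ b, ∀ θ' : IrrCharacter H,
      (∀ h h' : H, (h' : G) = t⁻¹ * h * (t⁻¹)⁻¹ → (θ' : H → ℂ) h' = (θ : H → ℂ) h) → θ' ∈ b)
    (t : G) (ht : t ∈ T) (g : G) :
    extendByZero H (blockCoeff b) (t * g * t⁻¹) = extendByZero H (blockCoeff b) g := by
  classical
  haveI hHn : (H.subgroupOf T).Normal := (Subgroup.normal_subgroupOf_iff_le_normalizer hHT).mpr hTH
  by_cases hg : g ∈ T
  · have hstT : ∀ (x : T) (ξ : IrrCharacter (H.subgroupOf T)),
        ξ ∈ transportSet (Subgroup.subgroupOfEquivOfLe hHT) b →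
        conjIrrEquiv (H.subgroupOf T) x ξ ∈ transportSet (Subgroup.subgroupOfEquivOfLe hHT) b :=
      fun x ξ hξ => conj_mem_transport H T hHT b x (hstab x x.2) ξ hξ
    have h1 := extend_blockCoeff_classFun (H.subgroupOf T)
      (transportSet (Subgroup.subgroupOfEquivOfLe hHT) b) hstT ⟨g, hg⟩ ⟨t, ht⟩
    rw [extendByZero_transport, extendByZero_transport] at h1
    exact h1
  · have h1 : g ∉ H := fun h => hg (hHT h)
    have h2 : t * g * t⁻¹ ∉ H := by
      intro h
      apply hg
      have h3 := T.mul_mem (T.mul_mem (T.inv_mem ht) (hHT h)) ht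
      have e : t⁻¹ * (t * g * t⁻¹) * t = g := by group
      rwa [e] at h3
    rw [extendByZero_apply_not_mem _ _ _ h1, extendByZero_apply_not_mem _ _ _ h2]

theorem defect_T {G : Type u} [Group G] [Fintype G] {p : ℕ} [Fact p.Prime] {M : Ideal AlgInt}
    (hM : IsPModular p M) (P H T : Subgroup G) (hP : IsPGroup p P) (hPH : P ≤ H)
    (hCH : Subgroup.centralizer (P : Set G) ≤ H) (hHT : H ≤ T)
    (hTN : T ≤ Subgroup.normalizer (P : Set G)) (hTH : T ≤ Subgroup.normalizer (H : Set G))
    (b : Set (IrrCharacter H)) (hb : IsPBlock M b)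
    (hstab : ∀ t : G, t ∈ T → ∀ θ ∈ b, ∀ θ' : IrrCharacter H,
      (∀ h h' : H, (h' : G) = t⁻¹ * h * (t⁻¹)⁻¹ → (θ' : H → ℂ) h' = (θ : H → ℂ) h) → θ' ∈ b)
    (B : Set (IrrCharacter G)) (hind : IsInducedBlock M H b B) :
    ∃ BT : Set (IrrCharacter T), IsInducedBlock M T BT B ∧
      blockDefect p BT = blockDefect p b + (H.relIndex T).factorization p := by
  classical
  haveI : Fintype T := Fintype.ofFinite T
  haveI : Fintype (H.subgroupOf T) := Fintype.ofFinite _
  haveI hHn : (H.subgroupOf T).Normal := (Subgroup.normal_subgroupOf_iff_le_normalizer hHT).mpr hTH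
  haveI hPn : (P.subgroupOf T).Normal :=
    (Subgroup.normal_subgroupOf_iff_le_normalizer (hPH.trans hHT)).mpr hTN
  have hbT : IsPBlock M (transportSet (Subgroup.subgroupOfEquivOfLe hHT) b) :=
    isPBlock_transportSet _ hb
  have hCle : Subgroup.centralizer ((P.subgroupOf T : Subgroup T) : Set T) ≤ H.subgroupOf T := by
    intro h hh
    rw [Subgroup.mem_subgroupOf]
    apply hCH
    rw [Subgroup.mem_centralizer_iff]
    intro y hy
    have h1 := (Subgroup.mem_centralizer_iff.mp hh) ⟨y, hHT (hPH hy)⟩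
      (Subgroup.mem_subgroupOf.mpr hy)
    exact congrArg Subtype.val h1
  have hstT : ∀ (x : T) (ξ : IrrCharacter (H.subgroupOf T)),
      ξ ∈ transportSet (Subgroup.subgroupOfEquivOfLe hHT) b →
      conjIrrEquiv (H.subgroupOf T) x ξ ∈ transportSet (Subgroup.subgroupOfEquivOfLe hHT) b :=
    fun x ξ hξ => conj_mem_transport H T hHT b x (hstab x x.2) ξ hξ
  obtain ⟨⟨BT, hBT⟩, huniq⟩ := Cfsg.Agent.S0971.induced_of_cover p M hM (P.subgroupOf T)
    hP.comap_subtype (H.subgroupOf T) hCle _ hbT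
  obtain ⟨θ₀, hθ₀⟩ : ∃ θ₀, θ₀ ∈ transportSet (Subgroup.subgroupOfEquivOfLe hHT) b := by
    obtain ⟨ξ₀, h0⟩ := hbT
    exact ⟨ξ₀, h0 ▸ self_mem_blockOf hM ξ₀⟩
  obtain ⟨χ₀, hχ₀, hχθ⟩ := exists_cover_of_induced hM (P.subgroupOf T) hP.comap_subtype
    (H.subgroupOf T) hCle _ BT hBT θ₀ hθ₀
  obtain ⟨DT, hDT⟩ := exists_isDefectGroup hM hBT.2.1
  have hF := (Cfsg.Agent.S0970.result p M hM (H.subgroupOf T) _ hbT
    (fun g θ hθ θ' h => by
      have h1 := hstT g θ hθ
      have h2 : θ' = conjIrrEquiv (H.subgroupOf T) g θ := by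
        apply Subtype.ext
        funext n
        exact h n
      rw [h2]; exact h1)
    BT hBT.2.1 ⟨χ₀, hχ₀, θ₀, hθ₀, hχθ⟩
    (fun B' hB' hc => le_of_eq (by rw [isInducedBlock_unique hM _ (huniq B' hB' hc) hBT]))
    DT hDT).2.2
  obtain ⟨B'', hB''⟩ := inducedBlockDefined_of_brauer hM P T hP (hPH.trans hHT)
    (hCH.trans hHT) hTN hBT.2.1
  have htr := isInducedBlock_trans hM H T hHT b hb BT B'' hBT hB''
  have heq : B'' = B := isInducedBlock_unique hM _ htr hind
  rw [heq] at hB''
  refine ⟨BT, hB'', ?_⟩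
  rw [hF, Cfsg.Agent.S4717.blockDefect_transport]
  rfl

theorem defect_N {G : Type u} [Group G] [Fintype G] {p : ℕ} [Fact p.Prime] {M : Ideal AlgInt}
    (hM : IsPModular p M) (P T : Subgroup G) (hP : IsPGroup p P)
    (hLT : (P ⊔ Subgroup.centralizer (P : Set G)) ≤ T) (hTN : T ≤ Subgroup.normalizer (P : Set G))
    (b : Set (IrrCharacter ↥(P ⊔ Subgroup.centralizer (P : Set G)))) (hb : IsPBlock M b)
    (hbP : IsDefectGroup p M b (P.subgroupOf (P ⊔ Subgroup.centralizer (P : Set G))))
    (hstab : ∀ t : G, t ∈ T → ∀ θ ∈ b, ∀ θ' : IrrCharacter ↥(P ⊔ Subgroup.centralizer (P : Set G)),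
      (∀ h h' : ↥(P ⊔ Subgroup.centralizer (P : Set G)), (h' : G) = t⁻¹ * h * (t⁻¹)⁻¹ →
        (θ' : ↥(P ⊔ Subgroup.centralizer (P : Set G)) → ℂ) h' = (θ : ↥(P ⊔ Subgroup.centralizer (P : Set G)) → ℂ) h) → θ' ∈ b)
    (hstab' : ∀ t : G, t ∈ Subgroup.normalizer (P : Set G) →
      (∀ θ ∈ b, ∀ θ' : IrrCharacter ↥(P ⊔ Subgroup.centralizer (P : Set G)),
      (∀ h h' : ↥(P ⊔ Subgroup.centralizer (P : Set G)), (h' : G) = t⁻¹ * h * (t⁻¹)⁻¹ →
        (θ' : ↥(P ⊔ Subgroup.centralizer (P : Set G)) → ℂ) h' = (θ : ↥(P ⊔ Subgroup.centralizer (P : Set G)) → ℂ) h) → θ' ∈ b) → t ∈ T)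
    (B : Set (IrrCharacter G)) (hind : IsInducedBlock M (P ⊔ Subgroup.centralizer (P : Set G)) b B)
    (hnd : ¬ p ∣ (P ⊔ Subgroup.centralizer (P : Set G)).relIndex T) : IsDefectGroup p M B P := by
  classical
  have hLN := sup_centralizer_le_normalizer P
  have hTL : T ≤ Subgroup.normalizer (((P ⊔ Subgroup.centralizer (P : Set G)) : Subgroup G) : Set G) :=
    hTN.trans (normalizer_le_normalizer_sup_centralizer P)
  haveI : Fintype (Subgroup.normalizer (P : Set G)) := Fintype.ofFinite _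
  haveI : Fintype ((P ⊔ Subgroup.centralizer (P : Set G)).subgroupOf (Subgroup.normalizer (P : Set G))) := Fintype.ofFinite _
  haveI hn : (P.subgroupOf (Subgroup.normalizer (P : Set G))).Normal := Subgroup.normal_in_normalizer
  haveI hLn := normal_sup_centralizer_subgroupOf P
  obtain ⟨B₁, h11, h12⟩ := exists_normalizer_block hM P hP b B hind
  have hcov : ∀ (χ : IrrCharacter (Subgroup.normalizer (P : Set G))) (ξ : IrrCharacter ((P ⊔ Subgroup.centralizer (P : Set G)).subgroupOf (Subgroup.normalizer (P : Set G)))),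
      ξ ∈ transportSet (Subgroup.subgroupOfEquivOfLe hLN) b →
      classInner (fun n : (P ⊔ Subgroup.centralizer (P : Set G)).subgroupOf (Subgroup.normalizer (P : Set G)) => (χ : (Subgroup.normalizer (P : Set G)) → ℂ) n) (ξ : (P ⊔ Subgroup.centralizer (P : Set G)).subgroupOf (Subgroup.normalizer (P : Set G)) → ℂ) ≠ 0 →
      χ ∈ B₁ := by
    intro χ ξ hξ hχξ
    have h2 := (Cfsg.Agent.S0971.induced_of_cover p M hM (P.subgroupOf (Subgroup.normalizer (P : Set G))) hP.comap_subtype _
      (centralizer_subgroupOf_le P) _ h11.1).2 (blockOf M (χ : (Subgroup.normalizer (P : Set G)) → ℂ)) (isPBlock_blockOf χ)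
      ⟨χ, self_mem_blockOf hM χ, ξ, hξ, hχξ⟩
    have heq := isInducedBlock_unique hM _ h2 h11
    exact heq ▸ self_mem_blockOf hM χ
  have hTN' : ∀ x : (Subgroup.normalizer (P : Set G)), x ∈ T.subgroupOf (Subgroup.normalizer (P : Set G)) ↔
      ∀ ξ ∈ transportSet (Subgroup.subgroupOfEquivOfLe hLN) b,
        conjIrrEquiv ((P ⊔ Subgroup.centralizer (P : Set G)).subgroupOf (Subgroup.normalizer (P : Set G))) x ξ ∈ transportSet (Subgroup.subgroupOfEquivOfLe hLN) b := by
    intro x
    constructor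
    · intro hx ξ hξ
      exact conj_mem_transport _ _ hLN b x (hstab x (Subgroup.mem_subgroupOf.mp hx)) ξ hξ
    · intro hall
      rw [Subgroup.mem_subgroupOf]
      apply hstab' x x.2
      intro θ hθ θ' h
      have h1 := hall (irrEquiv (Subgroup.subgroupOfEquivOfLe hLN) θ)
        ((irrEquiv_mem_transportSet _ b θ).mpr hθ)
      rw [mem_transportSet] at h1
      have h2 : θ' = irrEquiv (Subgroup.subgroupOfEquivOfLe hLN).symm
          (conjIrrEquiv ((P ⊔ Subgroup.centralizer (P : Set G)).subgroupOf (Subgroup.normalizer (P : Set G))) x (irrEquiv (Subgroup.subgroupOfEquivOfLe hLN) θ)) := by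
        apply Subtype.ext
        funext h'
        have hmem : (x : G) * (h' : G) * (x : G)⁻¹ ∈ (P ⊔ Subgroup.centralizer (P : Set G)) :=
          Subgroup.mem_subgroupOf.mp
            (hLn.conj_mem _ ((Subgroup.subgroupOfEquivOfLe hLN).symm h').2 x)
        have h3 := h ⟨(x : G) * (h' : G) * (x : G)⁻¹, hmem⟩ h'
          (by
            show (h' : G) = (x : G)⁻¹ * ((x : G) * (h' : G) * (x : G)⁻¹) * ((x : G)⁻¹)⁻¹
            group)
        rw [h3]
        rfl
      rw [h2]; exact h1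
  obtain ⟨D₁, hD₁⟩ := exists_isDefectGroup hM h12.1
  have hD₁p := isPGroup_of_isDefectGroup hD₁
  have hle : P.subgroupOf (Subgroup.normalizer (P : Set G)) ≤ D₁ :=
    (Cfsg.Agent.Helper28.le_pCore hn hP.comap_subtype).trans
      (Cfsg.Agent.S0912.result p M hM B₁ h12.1 D₁ hD₁)
  have hcard : Nat.card D₁ ≤ Nat.card (P.subgroupOf (Subgroup.normalizer (P : Set G))) := by
    obtain ⟨k, hk, S, hS⟩ := id hD₁
    have hDk : ∀ q : D₁, ((q : (Subgroup.normalizer (P : Set G))) : G) * (k : G) = (k : G) * ((q : (Subgroup.normalizer (P : Set G))) : G) := by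
      intro q
      have hDle : D₁ ≤ Subgroup.centralizer ({k} : Set (Subgroup.normalizer (P : Set G))) := by
        rw [hS]; exact Subgroup.map_subtype_le _
      have h1 : (q : (Subgroup.normalizer (P : Set G))) ∈ Subgroup.centralizer ({k} : Set (Subgroup.normalizer (P : Set G))) := hDle q.2
      have h2 := (Subgroup.mem_centralizer_iff.mp h1) k rfl
      exact (congrArg Subtype.val h2).symm
    obtain ⟨β, hβ⟩ : ∃ β : G → ℂ, β = extendByZero (P ⊔ Subgroup.centralizer (P : Set G)) (blockCoeff b) := ⟨_, rfl⟩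
    have hβconj : ∀ t ∈ T, ∀ g : G, β (t * g * t⁻¹) = β g := by
      intro t ht g
      rw [hβ]
      exact beta_conj _ T hLT hTL b hstab t ht g
    have hβlr : ∀ g, MemLocalRing M (β g) := by
      intro g
      rw [hβ]
      by_cases hg : g ∈ (P ⊔ Subgroup.centralizer (P : Set G))
      · have h0 := extendByZero_apply_mem (P ⊔ Subgroup.centralizer (P : Set G)) (blockCoeff b) ⟨g, hg⟩
        rw [show extendByZero (P ⊔ Subgroup.centralizer (P : Set G)) (blockCoeff b) g = blockCoeff b ⟨g, hg⟩ from h0]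
        exact blockCoeff_lr hM hb _
      · rw [extendByZero_apply_not_mem _ _ _ hg]
        exact lr_zero hM
    obtain ⟨φ, hφ⟩ : ∃ φ : (Subgroup.normalizer (P : Set G)) → ℂ, φ = fun x : (Subgroup.normalizer (P : Set G)) => β ((x : G)⁻¹ * (k : G) * (x : G)) := ⟨_, rfl⟩
    have havg := blockCoeff_eq_avg_of_normal hM _ _ h11.1 B₁ h12.1 hcov (T.subgroupOf (Subgroup.normalizer (P : Set G))) hTN' k
    have hsumφ : ∑ x : (Subgroup.normalizer (P : Set G)), extendByZero ((P ⊔ Subgroup.centralizer (P : Set G)).subgroupOf (Subgroup.normalizer (P : Set G)))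
        (blockCoeff (transportSet (Subgroup.subgroupOfEquivOfLe hLN) b)) (x⁻¹ * k * x)
        = ∑ x, φ x := by
      apply Finset.sum_congr rfl
      intro x _
      rw [extendByZero_transport, hφ, hβ]
      rfl
    rw [hsumφ] at havg
    haveI : Fintype ((Subgroup.normalizer (P : Set G)) ⧸ T.subgroupOf (Subgroup.normalizer (P : Set G))) := Fintype.ofFinite _
    obtain ⟨φb, hφb, hsum⟩ := sum_eq_card_mul_sum_quot (T.subgroupOf (Subgroup.normalizer (P : Set G))) φ (by
      intro x t ht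
      rw [hφ]
      show β (((x * t : (Subgroup.normalizer (P : Set G))) : G)⁻¹ * (k : G) * ((x * t : (Subgroup.normalizer (P : Set G))) : G))
        = β ((x : G)⁻¹ * (k : G) * (x : G))
      have h1 := hβconj (t : G)⁻¹ (T.inv_mem (Subgroup.mem_subgroupOf.mp ht))
        ((x : G)⁻¹ * (k : G) * (x : G))
      rw [← h1]
      congr 1
      simp only [Subgroup.coe_mul]
      group)
    rw [hsum, ← mul_assoc, inv_mul_cancel₀ (Nat.cast_ne_zero.mpr Nat.card_pos.ne'), one_mul]
      at havg
    obtain ⟨ψ, hψ⟩ : ∃ ψ : ((Subgroup.normalizer (P : Set G)) ⧸ T.subgroupOf (Subgroup.normalizer (P : Set G))) → ℂ,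
        ψ = fun ω => if (∀ q : D₁, q • ω = ω) then 0 else φb ω := ⟨_, rfl⟩
    have hφbinv : ∀ (q : D₁) (ω : (Subgroup.normalizer (P : Set G)) ⧸ T.subgroupOf (Subgroup.normalizer (P : Set G))), φb (q • ω) = φb ω := by
      intro q ω
      induction ω using QuotientGroup.induction_on with
      | H x =>
        have e : q • (QuotientGroup.mk x : (Subgroup.normalizer (P : Set G)) ⧸ T.subgroupOf (Subgroup.normalizer (P : Set G)))
            = QuotientGroup.mk ((q : (Subgroup.normalizer (P : Set G))) * x) := rfl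
        rw [e, hφb, hφb, hφ]
        show β ((((q : (Subgroup.normalizer (P : Set G))) * x : (Subgroup.normalizer (P : Set G))) : G)⁻¹ * (k : G) * (((q : (Subgroup.normalizer (P : Set G))) * x : (Subgroup.normalizer (P : Set G))) : G))
          = β ((x : G)⁻¹ * (k : G) * (x : G))
        congr 1
        have h1 := hDk q
        have h2 : ((q : (Subgroup.normalizer (P : Set G))) : G)⁻¹ * (k : G) * ((q : (Subgroup.normalizer (P : Set G))) : G) = (k : G) := by
          rw [mul_assoc, ← h1, inv_mul_cancel_left]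
        simp only [Subgroup.coe_mul]
        calc (((q : (Subgroup.normalizer (P : Set G))) : G) * (x : G))⁻¹ * (k : G) * (((q : (Subgroup.normalizer (P : Set G))) : G) * (x : G))
            = (x : G)⁻¹ * (((q : (Subgroup.normalizer (P : Set G))) : G)⁻¹ * (k : G) * ((q : (Subgroup.normalizer (P : Set G))) : G)) * (x : G) := by group
          _ = _ := by rw [h2]
    have hfixiff : ∀ (q : D₁) (ω : (Subgroup.normalizer (P : Set G)) ⧸ T.subgroupOf (Subgroup.normalizer (P : Set G))),
        (∀ q' : D₁, q' • (q • ω) = q • ω) ↔ (∀ q' : D₁, q' • ω = ω) := by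
      intro q ω
      constructor
      · intro h q'
        have h1 := h (q * q' * q⁻¹)
        rw [← mul_smul, inv_mul_cancel_right, mul_smul] at h1
        exact smul_left_cancel q h1
      · intro h q'
        rw [h q, h q']
    have hli := li_sum_of_pgroup_action hM hD₁p ψ
      (by
        intro q ω
        rw [hψ]
        show (if (∀ q' : D₁, q' • (q • ω) = q • ω) then (0 : ℂ) else φb (q • ω))
          = if (∀ q' : D₁, q' • ω = ω) then 0 else φb ω
        rw [hφbinv]
        exact if_congr (hfixiff q ω) rfl rfl)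
      (by
        intro ω
        rw [hψ]
        show MemLocalRing M (if (∀ q' : D₁, q' • ω = ω) then (0 : ℂ) else φb ω)
        split_ifs
        · exact lr_zero hM
        · induction ω using QuotientGroup.induction_on with
          | H x => rw [hφb, hφ]; exact hβlr _)
      (by
        intro ω hω
        rw [hψ]
        show (if (∀ q' : D₁, q' • ω = ω) then (0 : ℂ) else φb ω) = 0
        rw [if_pos hω])
    obtain ⟨ω, hωfix, hωli⟩ : ∃ ω : (Subgroup.normalizer (P : Set G)) ⧸ T.subgroupOf (Subgroup.normalizer (P : Set G)),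
        (∀ q : D₁, q • ω = ω) ∧ ¬ MemLocalIdeal M (φb ω) := by
      by_contra hcon
      push Not at hcon
      apply hk.2.1
      rw [havg]
      have e : ∑ ω, φb ω = ∑ ω, ψ ω + ∑ ω, (φb ω - ψ ω) := by
        rw [← Finset.sum_add_distrib]
        apply Finset.sum_congr rfl
        intro ω _
        ring
      rw [e]
      apply li_add hM hli
      apply li_sum hM
      intro ω _
      rw [hψ]
      show MemLocalIdeal M (φb ω - if (∀ q' : D₁, q' • ω = ω) then (0 : ℂ) else φb ω)
      split_ifs with hf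
      · rw [sub_zero]; exact hcon ω hf
      · rw [sub_self]; exact li_zero hM
    induction ω using QuotientGroup.induction_on with
    | H x =>
      rw [hφb, hφ] at hωli
      have hωli' : ¬ MemLocalIdeal M (β ((x : G)⁻¹ * (k : G) * (x : G))) := hωli
      have hkL : (x : G)⁻¹ * (k : G) * (x : G) ∈ (P ⊔ Subgroup.centralizer (P : Set G)) := by
        by_contra hnot
        apply hωli'
        rw [hβ, extendByZero_apply_not_mem _ _ _ hnot]
        exact li_zero hM
      have hkL' : ¬ MemLocalIdeal M (blockCoeff b ⟨(x : G)⁻¹ * (k : G) * (x : G), hkL⟩) := by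
        have h0 := extendByZero_apply_mem (P ⊔ Subgroup.centralizer (P : Set G)) (blockCoeff b) ⟨_, hkL⟩
        rw [hβ] at hωli'
        rw [show extendByZero (P ⊔ Subgroup.centralizer (P : Set G)) (blockCoeff b) ((x : G)⁻¹ * (k : G) * (x : G))
          = blockCoeff b ⟨(x : G)⁻¹ * (k : G) * (x : G), hkL⟩ from h0] at hωli'
        exact hωli'
      obtain ⟨R, hR⟩ : ∃ R : Subgroup G, R = (D₁.map (Subgroup.normalizer (P : Set G)).subtype).map
          (MulAut.conj (x : G)⁻¹).toMonoidHom := ⟨_, rfl⟩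
      have hRmem : ∀ r ∈ R, ∃ q : D₁, r = (x : G)⁻¹ * ((q : (Subgroup.normalizer (P : Set G))) : G) * (x : G) := by
        intro r hr
        rw [hR] at hr
        obtain ⟨y, hy, rfl⟩ := Subgroup.mem_map.mp hr
        obtain ⟨q, hq, rfl⟩ := Subgroup.mem_map.mp hy
        refine ⟨⟨q, hq⟩, ?_⟩
        show (x : G)⁻¹ * (q : G) * ((x : G)⁻¹)⁻¹ = _
        rw [inv_inv]
      have hRp : IsPGroup p R := by rw [hR]; exact (hD₁p.map _).map _
      have hRT : R ≤ T := by
        intro r hr
        obtain ⟨q, rfl⟩ := hRmem r hr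
        have h2 : (QuotientGroup.mk ((q : (Subgroup.normalizer (P : Set G))) * x) : (Subgroup.normalizer (P : Set G)) ⧸ T.subgroupOf (Subgroup.normalizer (P : Set G)))
            = QuotientGroup.mk x := hωfix q
        have h3 := QuotientGroup.eq.mp h2
        have h4 := Subgroup.mem_subgroupOf.mp h3
        have h5 := T.inv_mem h4
        have e : ((((q : (Subgroup.normalizer (P : Set G))) * x)⁻¹ * x : (Subgroup.normalizer (P : Set G))) : G)⁻¹ = (x : G)⁻¹ * ((q : (Subgroup.normalizer (P : Set G))) : G) * (x : G) := by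
          simp only [Subgroup.coe_mul, InvMemClass.coe_inv]
          group
        rwa [e] at h5
      have hRL : R ≤ (P ⊔ Subgroup.centralizer (P : Set G)) := le_of_pgroup_of_not_dvd _ T R hLT hTL hRp hRT hnd
      have hRcent : R.subgroupOf (P ⊔ Subgroup.centralizer (P : Set G)) ≤ Subgroup.centralizer
          ({(⟨(x : G)⁻¹ * (k : G) * (x : G), hkL⟩ : ↥(P ⊔ Subgroup.centralizer (P : Set G)))} : Set ↥(P ⊔ Subgroup.centralizer (P : Set G))) := by
        intro r hr
        rw [Subgroup.mem_centralizer_iff]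
        intro h hh
        rw [Set.mem_singleton_iff.mp hh]
        obtain ⟨q, hq⟩ := hRmem (r : G) (Subgroup.mem_subgroupOf.mp hr)
        apply Subtype.ext
        show (x : G)⁻¹ * (k : G) * (x : G) * (r : G) = (r : G) * ((x : G)⁻¹ * (k : G) * (x : G))
        rw [hq]
        have h1 := hDk q
        calc (x : G)⁻¹ * (k : G) * (x : G) * ((x : G)⁻¹ * ((q : (Subgroup.normalizer (P : Set G))) : G) * (x : G))
            = (x : G)⁻¹ * ((k : G) * ((q : (Subgroup.normalizer (P : Set G))) : G)) * (x : G) := by group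
          _ = (x : G)⁻¹ * (((q : (Subgroup.normalizer (P : Set G))) : G) * (k : G)) * (x : G) := by rw [h1]
          _ = _ := by group
      obtain ⟨g₀, hg₀, S₀, hS₀⟩ := hbP
      obtain ⟨y, hy⟩ := minmax_a hM hb g₀ hg₀.2.2 S₀ _ hkL' (R.subgroupOf (P ⊔ Subgroup.centralizer (P : Set G)))
        hRp.comap_subtype hRcent
      have c1 := Subgroup.card_le_of_le hy
      rw [Subgroup.card_map_of_injective (MulAut.conj y).injective, ← hS₀] at c1
      have c2 : Nat.card (R.subgroupOf (P ⊔ Subgroup.centralizer (P : Set G))) = Nat.card R :=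
        Nat.card_congr (Subgroup.subgroupOfEquivOfLe hRL).toEquiv
      have c3 : Nat.card R = Nat.card D₁ := by
        rw [hR, Subgroup.card_map_of_injective (MulAut.conj (x : G)⁻¹).injective,
          Subgroup.card_map_of_injective (Subgroup.subtype_injective _)]
      have c4 : Nat.card (P.subgroupOf (P ⊔ Subgroup.centralizer (P : Set G))) = Nat.card P :=
        Nat.card_congr (Subgroup.subgroupOfEquivOfLe le_sup_left).toEquiv
      have c5 : Nat.card (P.subgroupOf (Subgroup.normalizer (P : Set G))) = Nat.card P :=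
        Nat.card_congr (Subgroup.subgroupOfEquivOfLe Subgroup.le_normalizer).toEquiv
      omega
  have heqD := Subgroup.eq_of_le_of_card_ge hle hcard
  rw [← heqD] at hD₁
  obtain ⟨B', hB', hB'P, hB'ind⟩ := first_main_defect hM P hP h12.1 hD₁
  have hBB := isInducedBlock_unique hM _ hB'ind h12
  rw [← hBB]; exact hB'P

/-- Let P be a p-subgroup of the finite group G, H = P·C_G(P), and b a block of H (relative to a maximal ideal M of the algebraic integers containing p) having P as a defect group; let B be the block of G induced by b. Let T be the stabilizer of b in N_G(P): the elements g of N_G(P) such that the g-conjugate of every member of b is again a member of b. Then B has defect group P if and only if p does not divide the index of H in T. -/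
theorem result {G : Type*} [Group G] [Fintype G] (p : ℕ) [Fact p.Prime] (M : Ideal Cfsg.AlgInt) (hM : Cfsg.IsPModular p M) (P : Subgroup G) (hP : IsPGroup p P) (H : Subgroup G) [Fintype H] (hH : H = P ⊔ Subgroup.centralizer (P : Set G)) (b : Set (Cfsg.IrrCharacter H)) (hb : Cfsg.IsPBlock M b) (hbP : Cfsg.IsDefectGroup p M b (P.subgroupOf H)) (B : Set (Cfsg.IrrCharacter G)) (hind : Cfsg.IsInducedBlock M H b B) (T : Subgroup G) (hT : ∀ g : G, g ∈ T ↔ (g ∈ Subgroup.normalizer (P : Set G) ∧ ∀ θ ∈ b, ∀ θ' : Cfsg.IrrCharacter H, (∀ h h' : H, (h' : G) = g * h * g⁻¹ → (θ' : H → ℂ) h' = (θ : H → ℂ) h) → θ' ∈ b)) : Cfsg.IsDefectGroup p M B P ↔ ¬ p ∣ H.relIndex T := by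
  classical
  subst hH
  have hp : p.Prime := Fact.out
  have hLN := sup_centralizer_le_normalizer P
  have hTN : T ≤ Subgroup.normalizer (P : Set G) := fun g hg => ((hT g).mp hg).1
  have hLT : (P ⊔ Subgroup.centralizer (P : Set G)) ≤ T := by
    intro g hg
    rw [hT]
    refine ⟨hLN hg, ?_⟩
    intro θ hθ θ' h
    have hθ' : θ' = θ := by
      apply Subtype.ext
      funext h'
      have hmem : g⁻¹ * (h' : G) * g ∈ (P ⊔ Subgroup.centralizer (P : Set G)) :=
        Subgroup.mul_mem _ (Subgroup.mul_mem _ (Subgroup.inv_mem _ hg) h'.2) hg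
      have h1 := h ⟨g⁻¹ * (h' : G) * g, hmem⟩ h'
        (by show (h' : G) = g * (g⁻¹ * (h' : G) * g) * g⁻¹; group)
      rw [h1]
      have h2 := irr_conj θ h' (⟨g, hg⟩⁻¹ : ↥(P ⊔ Subgroup.centralizer (P : Set G)))
      rw [← h2]
      refine congrArg (θ : ↥(P ⊔ Subgroup.centralizer (P : Set G)) → ℂ) ?_
      apply Subtype.ext
      show g⁻¹ * (h' : G) * g = (g⁻¹ : G) * (h' : G) * (g⁻¹)⁻¹
      rw [inv_inv]
    rw [hθ']; exact hθ
  have hTL : T ≤ Subgroup.normalizer (((P ⊔ Subgroup.centralizer (P : Set G)) : Subgroup G) : Set G) :=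
    hTN.trans (normalizer_le_normalizer_sup_centralizer P)
  have hstab : ∀ t : G, t ∈ T → ∀ θ ∈ b, ∀ θ' : IrrCharacter ↥(P ⊔ Subgroup.centralizer (P : Set G)),
      (∀ h h' : ↥(P ⊔ Subgroup.centralizer (P : Set G)), (h' : G) = t⁻¹ * h * (t⁻¹)⁻¹ →
        (θ' : ↥(P ⊔ Subgroup.centralizer (P : Set G)) → ℂ) h' = (θ : ↥(P ⊔ Subgroup.centralizer (P : Set G)) → ℂ) h) → θ' ∈ b :=
    fun t ht => ((hT t⁻¹).mp (T.inv_mem ht)).2
  have hstab' : ∀ t : G, t ∈ Subgroup.normalizer (P : Set G) →
      (∀ θ ∈ b, ∀ θ' : IrrCharacter ↥(P ⊔ Subgroup.centralizer (P : Set G)),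
      (∀ h h' : ↥(P ⊔ Subgroup.centralizer (P : Set G)), (h' : G) = t⁻¹ * h * (t⁻¹)⁻¹ →
        (θ' : ↥(P ⊔ Subgroup.centralizer (P : Set G)) → ℂ) h' = (θ : ↥(P ⊔ Subgroup.centralizer (P : Set G)) → ℂ) h) → θ' ∈ b) → t ∈ T := by
    intro t ht h
    have h1 : t⁻¹ ∈ T := (hT t⁻¹).mpr ⟨Subgroup.inv_mem _ ht, h⟩
    simpa using T.inv_mem h1
  constructor
  · intro hBP
    obtain ⟨BT, hBTind, hdef⟩ := defect_T hM P _ T hP le_sup_left le_sup_right hLT hTN hTL b hb
      hstab B hind
    have h1 := Cfsg.Agent.S4717.defect_le_of_induced hM T hBTind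
    have h2 := card_defectGroup hM hind.2.1 hBP
    have h3 := card_defectGroup hM hb hbP
    have h4 : Nat.card (P.subgroupOf (P ⊔ Subgroup.centralizer (P : Set G))) = Nat.card P :=
      Nat.card_congr (Subgroup.subgroupOfEquivOfLe le_sup_left).toEquiv
    rw [h4, h2] at h3
    have h5 := Nat.pow_right_injective hp.two_le h3
    have h6 : ((P ⊔ Subgroup.centralizer (P : Set G)).relIndex T).factorization p = 0 := by omega
    rcases (Nat.factorization_eq_zero_iff _ _).mp h6 with h | h | h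
    · exact absurd hp h
    · exact h
    · exact absurd h Subgroup.index_ne_zero_of_finite
  · intro hnd
    exact defect_N hM P T hP hLT hTN b hb hbP hstab hstab' B hind hnd

end Cfsg.Agent.S4437
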