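import Cfsg.Statements.S4444
import Cfsg.Agent.Helper26.Glauberman

set_option autoImplicit false
open Cfsg

namespace Cfsg.Agent.S4444

open Cfsg.Agent.Helper26

/-- The Glauberman correspondence for a p-group of operators. Inside a finite group Γ let S normalise G with the orders of G and S coprime, S a p-group, and let C = G ⊓ C(S) be the fixed points. Call an irreducible character χ of G S-invariant when χ(s g s⁻¹) = χ(g) for s ∈ S, g ∈ G. Then: (i) for every S-invariant χ there is exactly one irreducible character β of C whose multiplicity [χ_C, β] in the restriction of χ is not divisible by p; (ii) that multiplicity is ≡ 1 or ≡ −1 (mod p); (iii) distinct S-invariant χ give distinct β; (iv) every irreducible character of C arises in this way. So χ ↦ β is a bijection from the S-invariant irreducible characters of G onto the irreducible characters of C. -/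
theorem result {Γ : Type*} [Group Γ] [Fintype Γ] (G S : Subgroup Γ) [Fintype G] (hnorm : ∀ s ∈ S, ∀ g ∈ G, s * g * s⁻¹ ∈ G) (hcop : (Nat.card G).Coprime (Nat.card S)) (p : ℕ) (hp : p.Prime) (hS : IsPGroup p S) (C : Subgroup Γ) [Fintype C] (hC : C = G ⊓ Subgroup.centralizer (S : Set Γ)) (hCG : C ≤ G) : (∀ χ : Cfsg.IrrCharacter G, (∀ s ∈ S, ∀ g g' : G, (g' : Γ) = s * g * s⁻¹ → (χ : G → ℂ) g' = (χ : G → ℂ) g) → ∃! β : Cfsg.IrrCharacter C, ∃ m : ℕ, Cfsg.classInner (fun c : C => (χ : G → ℂ) ⟨c, hCG c.2⟩) (β : C → ℂ) = (m : ℂ) ∧ ¬ p ∣ m) ∧ (∀ χ : Cfsg.IrrCharacter G, (∀ s ∈ S, ∀ g g' : G, (g' : Γ) = s * g * s⁻¹ → (χ : G → ℂ) g' = (χ : G → ℂ) g) → ∀ β : Cfsg.IrrCharacter C, ∀ m : ℕ, Cfsg.classInner (fun c : C => (χ : G → ℂ) ⟨c, hCG c.2⟩) (β : C → ℂ) = (m : ℂ) → ¬ p ∣ m → ((m : ℤ) ≡ 1 [ZMOD p] ∨ (m : ℤ) ≡ -1 [ZMOD p])) ∧ (∀ χ χ' : Cfsg.IrrCharacter G, (∀ s ∈ S, ∀ g g' : G, (g' : Γ) = s * g * s⁻¹ → (χ : G → ℂ) g' = (χ : G →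 ℂ) g) → (∀ s ∈ S, ∀ g g' : G, (g' : Γ) = s * g * s⁻¹ → (χ' : G → ℂ) g' = (χ' : G → ℂ) g) → ∀ β : Cfsg.IrrCharacter C, ∀ m m' : ℕ, Cfsg.classInner (fun c : C => (χ : G → ℂ) ⟨c, hCG c.2⟩) (β : C → ℂ) = (m : ℂ) → ¬ p ∣ m → Cfsg.classInner (fun c : C => (χ' : G → ℂ) ⟨c, hCG c.2⟩) (β : C → ℂ) = (m' : ℂ) → ¬ p ∣ m' → χ = χ') ∧ (∀ β : Cfsg.IrrCharacter C, ∃ χ : Cfsg.IrrCharacter G, (∀ s ∈ S, ∀ g g' : G, (g' : Γ) = s * g * s⁻¹ → (χ : G → ℂ) g' = (χ : G → ℂ) g) ∧ ∃ m : ℕ, Cfsg.classInner (fun c : C => (χ : G → ℂ) ⟨c, hCG c.2⟩) (β : C → ℂ) = (m : ℂ) ∧ ¬ p ∣ m) := by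
  classical
  haveI : Fact p.Prime := ⟨hp⟩
  have conv1 : ∀ χ : Cfsg.IrrCharacter G, (∀ s ∈ S, ∀ g g' : G, (g' : Γ) = s * g * s⁻¹ →
      (χ : G → ℂ) g' = (χ : G → ℂ) g) →
      ∀ (s : S) (g : G), (χ : G → ℂ) (gb_conjHom G S hnorm s g) = (χ : G → ℂ) g :=
    fun χ h s g => h s.1 s.2 g _ (gb_conjHom_coe G S hnorm s g)
  have conv2 : ∀ χ : Cfsg.IrrCharacter G,
      (∀ (s : S) (g : G), (χ : G → ℂ) (gb_conjHom G S hnorm s g) = (χ : G → ℂ) g) →
      (∀ s ∈ S, ∀ g g' : G, (g' : Γ) = s * g * s⁻¹ → (χ : G → ℂ) g' = (χ : G → ℂ) g) := by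
    intro χ h s hs g g' hg'
    have : g' = gb_conjHom G S hnorm ⟨s, hs⟩ g := Subtype.ext (by rw [hg', gb_conjHom_coe])
    rw [this]; exact h ⟨s, hs⟩ g
  by_cases hS1 : Nat.card S = 1
  · have hSbot : ∀ s ∈ S, s = 1 := by
      intro s hs
      haveI := (Nat.card_eq_one_iff_unique.mp hS1).1
      exact congrArg Subtype.val (Subsingleton.elim (⟨s, hs⟩ : S) 1)
    have hGC : G ≤ C := by
      rw [hC]; intro g hg
      refine ⟨hg, ?_⟩
      show g ∈ Subgroup.centralizer (S : Set Γ)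
      rw [Subgroup.mem_centralizer_iff]
      intro s hs
      rw [hSbot s hs]; simp
    have hsurj : Function.Surjective (Subgroup.inclusion hCG) := by
      intro g; exact ⟨⟨g.1, hGC g.2⟩, Subtype.ext rfl⟩
    have hinj : Function.Injective (Subgroup.inclusion hCG) := Subgroup.inclusion_injective hCG
    have hres : ∀ χ : IrrCharacter G,
        IsIrrCharacter C (fun c : C => (χ : G → ℂ) ⟨c, hCG c.2⟩) :=
      fun χ => Helper2.isIrrCharacter_comp_of_surjective (Subgroup.inclusion hCG) hsurj χ.2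
    have hval : ∀ (χ : IrrCharacter G) (β : IrrCharacter C) (m : ℕ),
        classInner (fun c : C => (χ : G → ℂ) ⟨c, hCG c.2⟩) (β : C → ℂ) = (m : ℂ) → ¬ p ∣ m →
        m = 1 ∧ (⟨_, hres χ⟩ : IrrCharacter C) = β := by
      intro χ β m hm hpm
      have h := Helper2.classInner_irr_irr (⟨_, hres χ⟩ : IrrCharacter C) β
      rw [show ((⟨_, hres χ⟩ : IrrCharacter C) : C → ℂ) =
        fun c : C => (χ : G → ℂ) ⟨c, hCG c.2⟩ from rfl, hm] at h
      by_cases hβ : (⟨_, hres χ⟩ : IrrCharacter C) = β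
      · rw [if_pos hβ] at h
        exact ⟨by exact_mod_cast h, hβ⟩
      · rw [if_neg hβ] at h
        have h0 : m = 0 := by exact_mod_cast h
        exact absurd (h0 ▸ dvd_zero p) hpm
    have hone : ∀ χ : IrrCharacter G,
        classInner (fun c : C => (χ : G → ℂ) ⟨c, hCG c.2⟩)
          ((⟨_, hres χ⟩ : IrrCharacter C) : C → ℂ) = ((1 : ℕ) : ℂ) := by
      intro χ
      have h := Helper2.classInner_irr_irr (⟨_, hres χ⟩ : IrrCharacter C) ⟨_, hres χ⟩
      rw [if_pos rfl] at h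
      rw [Nat.cast_one]; exact h
    have hp1 : ¬ p ∣ 1 := fun h => hp.one_lt.ne' (Nat.dvd_one.mp h)
    refine ⟨?_, ?_, ?_, ?_⟩
    · intro χ _
      refine ⟨⟨_, hres χ⟩, ⟨1, hone χ, hp1⟩, ?_⟩
      rintro β' ⟨m', hm', hpm'⟩
      exact ((hval χ β' m' hm' hpm').2).symm
    · intro χ _ β m hm hpm
      left
      rw [(hval χ β m hm hpm).1]; rfl
    · intro χ χ' _ _ β m m' hm hpm hm' hpm'
      have h1 := (hval χ β m hm hpm).2
      have h2 := (hval χ' β m' hm' hpm').2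
      have h3 := congrArg Subtype.val (h1.trans h2.symm)
      apply Subtype.ext
      funext g
      obtain ⟨c, rfl⟩ := hsurj g
      exact congrFun h3 c
    · intro β
      let e : C ≃* G := MulEquiv.ofBijective (Subgroup.inclusion hCG) ⟨hinj, hsurj⟩
      have hirr : IsIrrCharacter G (fun g : G => (β : C → ℂ) (e.symm g)) :=
        Helper2.isIrrCharacter_comp_of_surjective (e.symm : G →* C) e.symm.surjective β.2
      refine ⟨⟨_, hirr⟩, ?_, 1, ?_, hp1⟩
      · intro s hs g g' hg'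
        have : g' = g := Subtype.ext (by rw [hg', hSbot s hs]; simp)
        rw [this]
      · have hfun : (fun c : C => ((⟨_, hirr⟩ : IrrCharacter G) : G → ℂ) ⟨c, hCG c.2⟩) =
            (β : C → ℂ) := by
          funext c
          show (β : C → ℂ) (e.symm (Subgroup.inclusion hCG c)) = (β : C → ℂ) c
          have hc : e.symm (Subgroup.inclusion hCG c) = c := e.symm_apply_apply c
          rw [hc]
        rw [hfun]
        have h := Helper2.classInner_irr_irr β β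
        rw [if_pos rfl] at h
        rw [Nat.cast_one]; exact h
  · have hpS : p ∣ Nat.card S := by
      obtain ⟨k, hk⟩ := IsPGroup.iff_card.mp hS
      rcases Nat.eq_zero_or_pos k with rfl | hk0
      · exact absurd (by simpa using hk) hS1
      · rw [hk]; exact dvd_pow_self p hk0.ne'
    have hpG : ¬ p ∣ Nat.card G := by
      intro h
      have h1 : p ∣ Nat.gcd (Nat.card G) (Nat.card S) := Nat.dvd_gcd h hpS
      rw [Nat.Coprime.gcd_eq_one hcop] at h1
      exact hp.one_lt.ne' (Nat.dvd_one.mp h1)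
    refine ⟨?_, ?_, ?_, ?_⟩
    · intro χ hχ
      exact gb_main_unique G S hnorm C hC hCG p hS hpG χ (conv1 χ hχ)
    · intro χ hχ β m hm hpm
      exact gb_main_pm G S hnorm C hC hCG p hS hpG χ (conv1 χ hχ) β m hm hpm
    · intro χ χ' hχ hχ' β m m' hm hpm hm' hpm'
      exact gb_main_inj G S hnorm C hC hCG p hS hpG χ χ' (conv1 χ hχ) (conv1 χ' hχ') β m m'
        hm hpm hm' hpm'
    · intro β
      obtain ⟨χ, hχ, m, hm, hpm⟩ := gb_main_surj G S hnorm C hC hCG p hS hpG β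
      exact ⟨χ, conv2 χ hχ, m, hm, hpm⟩

end Cfsg.Agent.S4444
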