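import Cfsg.Statements.S4447
import Mathlib
import Cfsg.Agent.Helper24.InvConst
import Cfsg.Agent.Helper25.CharMore

set_option autoImplicit false
open Cfsg

namespace Cfsg.Agent.S4447


open Cfsg.Agent.Helper24 Cfsg.Agent.Helper25

/-- Inside a finite group Γ let S normalise G and also normalise a normal subgroup N of G, with the order of S coprime to the index of N in G and S or G/N solvable. Then for every S-invariant irreducible character χ of G, the restriction of χ to N has an S-invariant irreducible constituent. -/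
theorem result {Γ : Type*} [Group Γ] [Fintype Γ] (G S N : Subgroup Γ) [Fintype G] [Fintype N] (hnorm : ∀ s ∈ S, ∀ g ∈ G, s * g * s⁻¹ ∈ G) (hNG : N ≤ G) [hNn : (N.subgroupOf G).Normal] (hNS : ∀ s ∈ S, ∀ n ∈ N, s * n * s⁻¹ ∈ N) (hcop : (N.relIndex G).Coprime (Nat.card S)) (hsolv : Group.IsSolvable S ∨ Group.IsSolvable (G ⧸ N.subgroupOf G)) (χ : Cfsg.IrrCharacter G) (hinv : (∀ s ∈ S, ∀ g g' : G, (g' : Γ) = s * g * s⁻¹ → (χ : G → ℂ) g' = (χ : G → ℂ) g)) : ∃ θ : Cfsg.IrrCharacter N, Cfsg.classInner (fun n : N => (χ : G → ℂ) ⟨n, hNG n.2⟩) (θ : N → ℂ) ≠ 0 ∧ (∀ s ∈ S, ∀ g g' : N, (g' : Γ) = s * g * s⁻¹ → (θ : N → ℂ) g' = (θ : N → ℂ) g) := by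
  classical
  have hSM : S ≤ Subgroup.normalizer (N : Set Γ) := fun s hs =>
    Subgroup.mem_normalizer_fintype (fun n hn => hNS s hs n hn)
  have hGM : G ≤ Subgroup.normalizer (N : Set Γ) := by
    intro g hg
    apply Subgroup.mem_normalizer_fintype
    intro n hn
    have := hNn.conj_mem ⟨n, hNG hn⟩ (Subgroup.mem_subgroupOf.mpr hn) ⟨g, hg⟩
    exact Subgroup.mem_subgroupOf.mp this
  letI := actIrr N
  let ρ : ↥(Subgroup.normalizer (N : Set Γ)) →* Equiv.Perm (IrrCharacter ↥N) :=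
    MulAction.toPermHom _ _
  let fS : ↥S →* Equiv.Perm (IrrCharacter ↥N) := ρ.comp (Subgroup.inclusion hSM)
  let fG : ↥G →* Equiv.Perm (IrrCharacter ↥N) := ρ.comp (Subgroup.inclusion hGM)
  have hker : N.subgroupOf G ≤ fG.ker := by
    intro g hg
    rw [MonoidHom.mem_ker]
    ext θ n
    have hgN : (g : Γ) ∈ N := Subgroup.mem_subgroupOf.mp hg
    change (θ : ↥N → ℂ) (cjE N (Subgroup.inclusion hGM g) n) = (θ : ↥N → ℂ) n
    have e : cjE N (Subgroup.inclusion hGM g) n =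
        (⟨(g : Γ), hgN⟩ : ↥N)⁻¹ * n * (⟨(g : Γ), hgN⟩ : ↥N)⁻¹⁻¹ := by
      apply Subtype.ext
      rw [cjE_coe]
      simp
    rw [e, irr_conj]
  let φ : (↥G ⧸ N.subgroupOf G) →* Equiv.Perm (IrrCharacter ↥N) :=
    QuotientGroup.lift (N.subgroupOf G) fG hker
  have hAK : fS.range ≤ Subgroup.normalizer (φ.range : Set (Equiv.Perm (IrrCharacter ↥N))) := by
    rintro _ ⟨s, rfl⟩
    apply Subgroup.mem_normalizer_fintype
    rintro _ ⟨q, rfl⟩
    obtain ⟨g, rfl⟩ := QuotientGroup.mk_surjective q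
    refine ⟨((⟨(s : Γ) * g * (s : Γ)⁻¹, hnorm s s.2 g g.2⟩ : ↥G) : ↥G ⧸ N.subgroupOf G), ?_⟩
    change ρ _ = ρ _ * ρ _ * (ρ _)⁻¹
    rw [← map_inv, ← map_mul, ← map_mul]
    congr 1
  have hcopAK : (Nat.card fS.range).Coprime (Nat.card φ.range) := by
    have h1 : Nat.card fS.range ∣ Nat.card S := Subgroup.card_range_dvd fS
    have h2 : Nat.card φ.range ∣ N.relIndex G := by
      have := Subgroup.card_range_dvd φ
      rwa [← Subgroup.index_eq_card] at this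
    exact Nat.Coprime.coprime_dvd_left h1 (Nat.Coprime.coprime_dvd_right h2 hcop.symm)
  have hsolvAK : Group.IsSolvable fS.range ∨ Group.IsSolvable φ.range := by
    rcases hsolv with h | h
    · left
      haveI := h
      exact Group.isSolvable_of_surjective fS.rangeRestrict_surjective
    · right
      haveI := h
      exact Group.isSolvable_of_surjective φ.rangeRestrict_surjective
  -- the restriction of χ
  obtain ⟨χN, hχN⟩ : ∃ χN : ↥N → ℂ, χN = fun n : ↥N => (χ : ↥G → ℂ) ⟨n, hNG n.2⟩ := ⟨_, rfl⟩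
  rw [← hχN]
  have hinvar : ∀ (x : ↥(Subgroup.normalizer (N : Set Γ))),
      (∀ n : ↥N, χN (cjE N x n) = χN n) → ∀ θ : IrrCharacter ↥N,
      Cfsg.classInner χN ((ρ x θ : IrrCharacter ↥N) : ↥N → ℂ) =
        Cfsg.classInner χN (θ : ↥N → ℂ) := by
    intro x hx θ
    have h := classInner_equiv' (cjE N x).toEquiv χN (θ : ↥N → ℂ)
    rw [← h]
    congr 1
    funext n
    exact (hx n).symm
  have hxS : ∀ s : ↥S, ∀ n : ↥N, χN (cjE N (Subgroup.inclusion hSM s) n) = χN n := by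
    intro s n
    rw [hχN]
    exact hinv (s : Γ)⁻¹ (S.inv_mem s.2) ⟨n, hNG n.2⟩ ⟨_, _⟩ (by rw [cjE_coe]; simp)
  have hxG : ∀ g : ↥G, ∀ n : ↥N, χN (cjE N (Subgroup.inclusion hGM g) n) = χN n := by
    intro g n
    rw [hχN]
    have e : (⟨((cjE N (Subgroup.inclusion hGM g) n : ↥N) : Γ),
        hNG (cjE N (Subgroup.inclusion hGM g) n).2⟩ : ↥G) = g⁻¹ * ⟨n, hNG n.2⟩ * g⁻¹⁻¹ := by
      apply Subtype.ext
      rw [cjE_coe]
      simp
    change (χ : ↥G → ℂ) ⟨((cjE N (Subgroup.inclusion hGM g) n : ↥N) : Γ), _⟩ = _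
    rw [e, irr_conj]
  have hχN_char : Cfsg.IsCharacter ↥N χN := by
    rw [hχN]
    exact Cfsg.Agent.Helper2.isCharacter_comp (Subgroup.inclusion hNG) (irr_isCharacter χ)
  have hχN1 : χN 1 ≠ 0 := by
    rw [hχN]
    change (χ : ↥G → ℂ) 1 ≠ 0
    rw [irr_one_eq_degree]
    exact Nat.cast_ne_zero.mpr (irr_degree_pos χ).ne'
  obtain ⟨θ₀, hθ₀⟩ := exists_constituent hχN_char hχN1
  -- Clifford transitivity
  have hcliff : ∀ θ₁ θ₂ : IrrCharacter ↥N, Cfsg.classInner χN (θ₁ : ↥N → ℂ) ≠ 0 →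
      Cfsg.classInner χN (θ₂ : ↥N → ℂ) ≠ 0 →
      ∃ g : ↥G, θ₂ = ρ (Subgroup.inclusion hGM g) θ₁ := by
    intro θ₁ θ₂ h1 h2
    let e₀ : ↥(N.subgroupOf G) ≃* ↥N := Subgroup.subgroupOfEquivOfLe hNG
    have he₀ : ∀ a : ↥(N.subgroupOf G), ((e₀ a : ↥N) : Γ) = ((a : ↥G) : Γ) := fun a => rfl
    have hres : (fun a : ↥(N.subgroupOf G) => χN (e₀ a)) =
        fun a : ↥(N.subgroupOf G) => (χ : ↥G → ℂ) a := by
      funext a
      rw [hχN]
      rfl
    have hirr : ∀ θ : IrrCharacter ↥N, Cfsg.IsIrrCharacter ↥(N.subgroupOf G)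
        (fun a => (θ : ↥N → ℂ) (e₀ a)) := fun θ =>
      Cfsg.Agent.Helper2.isIrrCharacter_comp_of_surjective e₀.toMonoidHom e₀.surjective θ.2
    have hc : ∀ θ : IrrCharacter ↥N,
        Cfsg.classInner (fun a : ↥(N.subgroupOf G) => (χ : ↥G → ℂ) a)
          (fun a => (θ : ↥N → ℂ) (e₀ a)) = Cfsg.classInner χN (θ : ↥N → ℂ) := by
      intro θ
      rw [← hres]
      exact classInner_equiv' e₀.toEquiv χN (θ : ↥N → ℂ)
    obtain ⟨g, hg⟩ := clifford_conj (N.subgroupOf G) (χ : ↥G → ℂ) χ.2 _ (hirr θ₁)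
      (by rw [hc]; exact h1) ⟨_, hirr θ₂⟩ (by rw [hc]; exact h2)
    refine ⟨g⁻¹, ?_⟩
    apply Subtype.ext
    funext n
    have h3 := congrFun hg (e₀.symm n)
    simp only [Cfsg.Agent.Helper2.conjChar_apply] at h3
    rw [e₀.apply_symm_apply] at h3
    rw [h3]
    change _ = (θ₁ : ↥N → ℂ) (cjE N (Subgroup.inclusion hGM g⁻¹) n)
    refine congrArg (θ₁ : ↥N → ℂ) ?_
    apply Subtype.ext
    rw [cjE_coe, he₀]
    have h4 : (((e₀.symm n : ↥(N.subgroupOf G)) : ↥G) : Γ) = (n : Γ) := by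
      rw [← he₀, e₀.apply_symm_apply]
    simp [h4]
  -- Glauberman's lemma
  have horb : ∀ a ∈ fS.range, ∃ k ∈ φ.range, a • θ₀ = k • θ₀ := by
    rintro _ ⟨s, rfl⟩
    have h1 : Cfsg.classInner χN ((ρ (Subgroup.inclusion hSM s) θ₀ : IrrCharacter ↥N) : ↥N → ℂ)
        ≠ 0 := by
      rw [hinvar _ (hxS s)]; exact hθ₀
    obtain ⟨g, hg⟩ := hcliff θ₀ _ hθ₀ h1
    exact ⟨φ (g : ↥G ⧸ N.subgroupOf G), ⟨_, rfl⟩, hg⟩
  obtain ⟨k, hk, hfix⟩ := Cfsg.Agent.Lead.glauberman_exists fS.range φ.range hAK hcopAK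
    hsolvAK θ₀ horb
  obtain ⟨q, rfl⟩ := hk
  obtain ⟨g, rfl⟩ := QuotientGroup.mk_surjective q
  refine ⟨ρ (Subgroup.inclusion hGM g) θ₀, ?_, ?_⟩
  · rw [hinvar _ (hxG g)]; exact hθ₀
  · intro s hs n n' hn'
    have h := hfix (fS ⟨s, hs⟩) ⟨_, rfl⟩
    have h2 := congrArg (fun θ : IrrCharacter ↥N => (θ : ↥N → ℂ) n') h
    change ((ρ (Subgroup.inclusion hGM g) θ₀ : IrrCharacter ↥N) : ↥N → ℂ)
      (cjE N (Subgroup.inclusion hSM ⟨s, hs⟩) n') =
      ((ρ (Subgroup.inclusion hGM g) θ₀ : IrrCharacter ↥N) : ↥N → ℂ) n' at h2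
    rw [← h2]
    refine congrArg _ ?_
    apply Subtype.ext
    rw [cjE_coe, hn']
    simp [mul_assoc]

end Cfsg.Agent.S4447
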