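import Cfsg.Statements.S4454
import Mathlib
import Cfsg.Agent.Helper24.FullyRam
import Cfsg.Agent.Helper2.Ind
import Cfsg.Agent.S0886

set_option autoImplicit false
open Cfsg

namespace Cfsg.Agent.S4454


open scoped ComplexConjugate

theorem comm_mem {Γ : Type*} [Group Γ] (G : Subgroup Γ) [hG : G.Normal] (hcyc : IsCyclic (Γ ⧸ G))
    (a b : Γ) : a⁻¹ * (b * a * b⁻¹) ∈ G := by
  have hQ : ∀ u v : Γ ⧸ G, u * v = v * u := fun u v =>
    (IsCyclic.isMulCommutative (α := Γ ⧸ G)).is_comm.comm u v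
  rw [← QuotientGroup.eq_one_iff]
  simp only [QuotientGroup.mk_mul, QuotientGroup.mk_inv]
  rw [hQ (b : Γ ⧸ G) (a : Γ ⧸ G)]
  group

/-- Let N ≤ G be normal subgroups of the finite group Γ with Γ/G cyclic and Γ/N a Frobenius group with kernel G/N: G ≠ Γ, N ≠ G, and no element of Γ outside G fixes a non-identity coset of N in G under conjugation. Let ϑ be an irreducible character of N invariant under conjugation by Γ and suppose ϑ is fully ramified in G: the character of G induced from ϑ equals e·χ for an irreducible character χ of G and a natural number e. Then the index of G in Γ divides e − 1 or e + 1. -/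
theorem result {Γ : Type*} [Group Γ] [Fintype Γ] (G N : Subgroup Γ) [hG : G.Normal] [hN : N.Normal] [Fintype G] [Fintype N] (hNG : N ≤ G) (hGlt : G ≠ ⊤) (hNlt : N ≠ G) (hcyc : IsCyclic (Γ ⧸ G)) (hfrob : ∀ x : Γ, x ∉ G → ∀ g : Γ, g ∈ G → x * g * x⁻¹ * g⁻¹ ∈ N → g ∈ N) (θ : Cfsg.IrrCharacter N) (hinv : ∀ (x : Γ) (n : N), (θ : N → ℂ) ⟨x * n * x⁻¹, hN.conj_mem n n.2 x⟩ = (θ : N → ℂ) n) (χ : Cfsg.IrrCharacter G) (e : ℕ) (hram : Cfsg.indFun (N.subgroupOf G) (fun n : N.subgroupOf G => (θ : N → ℂ) ⟨(n : G), n.2⟩) = fun g => (e : ℂ) * (χ : G → ℂ) g) : (G.index : ℤ) ∣ (e : ℤ) - 1 ∨ (G.index : ℤ) ∣ (e : ℤ) + 1 := by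
  classical
  have hΓ0 : (Nat.card Γ : ℂ) ≠ 0 := Nat.cast_ne_zero.mpr Nat.card_pos.ne'
  have hG0 : (Nat.card G : ℂ) ≠ 0 := Nat.cast_ne_zero.mpr Nat.card_pos.ne'
  have hN0 : (Nat.card N : ℂ) ≠ 0 := Nat.cast_ne_zero.mpr Nat.card_pos.ne'
  -- the extension by zero of θ to Γ
  obtain ⟨θ₀, hθ₀def⟩ : ∃ θ₀ : Γ → ℂ, θ₀ = Cfsg.extendByZero N (θ : N → ℂ) := ⟨_, rfl⟩
  have hθ₀in : ∀ (γ : Γ) (hγ : γ ∈ N), θ₀ γ = (θ : N → ℂ) ⟨γ, hγ⟩ := fun γ hγ => by
    rw [hθ₀def]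
    exact Cfsg.Agent.Helper2.extendByZero_of_mem N _ hγ
  have hθ₀out : ∀ γ : Γ, γ ∉ N → θ₀ γ = 0 := fun γ h => by
    rw [hθ₀def]
    exact Cfsg.Agent.Helper2.extendByZero_of_not_mem N _ h
  have hθ₀conj : ∀ x γ : Γ, θ₀ (x * γ * x⁻¹) = θ₀ γ := by
    intro x γ
    by_cases hγ : γ ∈ N
    · rw [hθ₀in γ hγ, hθ₀in _ (hN.conj_mem γ hγ x)]
      exact hinv x ⟨γ, hγ⟩
    · rw [hθ₀out γ hγ, hθ₀out]
      intro h
      apply hγ
      have h1 := hN.conj_mem _ h x⁻¹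
      have h2 : x⁻¹ * (x * γ * x⁻¹) * x⁻¹⁻¹ = γ := by group
      rw [h2] at h1
      exact h1
  have hθ₀1 : θ₀ 1 ≠ 0 := by
    rw [hθ₀in 1 N.one_mem]
    exact Cfsg.Agent.Helper25.irr_one_ne_zero θ
  -- norm of θ₀
  have hθ₀norm : ∑ γ : Γ, θ₀ γ * conj (θ₀ γ) = (Nat.card N : ℂ) := by
    rw [Cfsg.Agent.Helper24.fr_sum_subgroup N (fun γ => θ₀ γ * conj (θ₀ γ))
      (fun γ hγ => by rw [hθ₀out γ hγ, zero_mul])]
    have h := Cfsg.Agent.Helper25.irr_classInner θ θ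
    rw [if_pos rfl] at h
    unfold Cfsg.classInner at h
    have h' : (Nat.card N : ℂ) * ((Nat.card N : ℂ)⁻¹ *
        ∑ g : N, (θ : N → ℂ) g * conj ((θ : N → ℂ) g)) = (Nat.card N : ℂ) * 1 := by rw [h]
    rw [← mul_assoc, mul_inv_cancel₀ hN0, one_mul, mul_one] at h'
    rw [← h']
    apply Finset.sum_congr rfl
    intro n _
    rw [hθ₀in (n : Γ) n.2]
  -- the induced character
  have hNGcard : Nat.card (N.subgroupOf G) = Nat.card N :=
    Nat.card_congr (Subgroup.subgroupOfEquivOfLe hNG).toEquiv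
  have hform : ∀ g : G, (e : ℂ) * (χ : G → ℂ) g
      = (Nat.card N : ℂ)⁻¹ * (Nat.card G : ℂ) * θ₀ g := by
    intro g
    rw [← congrFun hram g, Cfsg.Agent.Helper2.indFun_apply, hNGcard]
    have h1 : ∀ x : G, Cfsg.extendByZero (N.subgroupOf G)
        (fun n : N.subgroupOf G => (θ : N → ℂ) ⟨(n : G), n.2⟩) (x⁻¹ * g * x) = θ₀ g := by
      intro x
      by_cases hg : (g : Γ) ∈ N
      · have hmem' : (x : Γ)⁻¹ * g * (x : Γ)⁻¹⁻¹ ∈ N := hN.conj_mem _ hg _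
        have hmem : x⁻¹ * g * x ∈ N.subgroupOf G := by
          rw [Subgroup.mem_subgroupOf]
          have h2 : ((x⁻¹ * g * x : G) : Γ) = (x : Γ)⁻¹ * g * (x : Γ)⁻¹⁻¹ := by
            rw [inv_inv]
            rfl
          rw [h2]
          exact hmem'
        rw [Cfsg.Agent.Helper2.extendByZero_of_mem _ _ hmem, ← hθ₀conj (x : Γ)⁻¹ g,
          hθ₀in _ hmem']
        refine congrArg (θ : N → ℂ) (Subtype.ext ?_)
        show ((x⁻¹ * g * x : G) : Γ) = (x : Γ)⁻¹ * g * (x : Γ)⁻¹⁻¹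
        rw [inv_inv]
        rfl
      · rw [hθ₀out _ hg, Cfsg.Agent.Helper2.extendByZero_of_not_mem]
        rw [Subgroup.mem_subgroupOf]
        intro h
        apply hg
        have h2 := hN.conj_mem _ h (x : Γ)
        have h3 : (x : Γ) * ((x⁻¹ * g * x : G) : Γ) * (x : Γ)⁻¹ = g := by
          show (x : Γ) * ((x : Γ)⁻¹ * g * x) * (x : Γ)⁻¹ = g
          group
        rw [h3] at h2
        exact h2
    rw [Finset.sum_congr rfl (fun x _ => h1 x), Finset.sum_const, Finset.card_univ, nsmul_eq_mul,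
      ← Nat.card_eq_fintype_card]
    ring
  have he0 : (e : ℂ) ≠ 0 := by
    intro h0
    have h1 := hform 1
    rw [h0, zero_mul, Subgroup.coe_one] at h1
    exact mul_ne_zero (mul_ne_zero (inv_ne_zero hN0) hG0) hθ₀1 h1.symm
  have he1 : 1 ≤ e := Nat.one_le_iff_ne_zero.mpr (fun h => he0 (by rw [h]; simp))
  -- |G| = e^2 |N|
  have hGsum : ∑ g : G, θ₀ g * conj (θ₀ g) = (Nat.card N : ℂ) := by
    rw [← hθ₀norm]
    exact (Cfsg.Agent.Helper24.fr_sum_subgroup G (fun γ => θ₀ γ * conj (θ₀ γ))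
      (fun γ hγ => by rw [hθ₀out γ (fun h => hγ (hNG h)), zero_mul])).symm
  have hχnorm : ∑ g : G, (χ : G → ℂ) g * conj ((χ : G → ℂ) g) = (Nat.card G : ℂ) := by
    have h := Cfsg.Agent.Helper25.irr_classInner χ χ
    rw [if_pos rfl] at h
    unfold Cfsg.classInner at h
    have h' : (Nat.card G : ℂ) * ((Nat.card G : ℂ)⁻¹ *
        ∑ g : G, (χ : G → ℂ) g * conj ((χ : G → ℂ) g)) = (Nat.card G : ℂ) * 1 := by rw [h]
    rw [← mul_assoc, mul_inv_cancel₀ hG0, one_mul, mul_one] at h'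
    exact h'
  have hGN : (Nat.card G : ℂ) = (e : ℂ) ^ 2 * (Nat.card N : ℂ) := by
    have h1 : ∀ g : G, ((e : ℂ) * (χ : G → ℂ) g) * conj ((e : ℂ) * (χ : G → ℂ) g)
        = ((Nat.card N : ℂ)⁻¹ * (Nat.card G : ℂ)) ^ 2 * (θ₀ g * conj (θ₀ g)) := by
      intro g
      rw [hform g, map_mul, map_mul, map_inv₀, Complex.conj_natCast, Complex.conj_natCast]
      ring
    have h2 : (e : ℂ) ^ 2 * ∑ g : G, (χ : G → ℂ) g * conj ((χ : G → ℂ) g)
        = ((Nat.card N : ℂ)⁻¹ * (Nat.card G : ℂ)) ^ 2 * ∑ g : G, θ₀ g * conj (θ₀ g) := by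
      rw [Finset.mul_sum, Finset.mul_sum]
      apply Finset.sum_congr rfl
      intro g _
      rw [← h1 g, map_mul, Complex.conj_natCast]
      ring
    rw [hχnorm, hGsum] at h2
    have h3 : (e : ℂ) ^ 2 * (Nat.card G : ℂ) * (Nat.card N : ℂ)
        = (Nat.card G : ℂ) * (Nat.card G : ℂ) := by
      rw [h2]
      field_simp
    have h4 : (Nat.card G : ℂ) * ((e : ℂ) ^ 2 * (Nat.card N : ℂ))
        = (Nat.card G : ℂ) * (Nat.card G : ℂ) := by
      rw [← h3]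
      ring
    exact (mul_left_cancel₀ hG0 h4).symm
  have hχθ : ∀ g : G, (χ : G → ℂ) g = (e : ℂ) * θ₀ g := by
    intro g
    have h1 := hform g
    rw [hGN] at h1
    have h2 : (e : ℂ) * (χ : G → ℂ) g = (e : ℂ) * ((e : ℂ) * θ₀ g) := by
      rw [h1]
      field_simp
    exact mul_left_cancel₀ he0 h2
  -- extension of χ to Γ
  have hinvχ : ∀ (x : Γ) (g : G),
      (χ : G → ℂ) ⟨x * g * x⁻¹, hG.conj_mem g g.2 x⟩ = (χ : G → ℂ) g := by
    intro x g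
    rw [hχθ, hχθ]
    show (e : ℂ) * θ₀ (x * g * x⁻¹) = (e : ℂ) * θ₀ g
    rw [hθ₀conj]
  obtain ⟨χh, hχh_irr, hχh⟩ := Cfsg.Agent.S0886.result G hcyc (χ : G → ℂ) χ.2 hinvχ
  obtain ⟨χH, hχH⟩ : ∃ χH : Cfsg.IrrCharacter Γ, (χH : Γ → ℂ) = χh := ⟨⟨χh, hχh_irr⟩, rfl⟩
  have hχhG : ∀ γ : Γ, γ ∈ G → χh γ = (e : ℂ) * θ₀ γ := by
    intro γ hγ
    have h1 := hχh ⟨γ, hγ⟩
    rw [hχθ] at h1
    exact h1
  -- the generator
  obtain ⟨q, hq⟩ := hcyc.exists_generator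
  obtain ⟨x, rfl⟩ := QuotientGroup.mk_surjective q
  have hxgen : ∀ γ : Γ, ∃ i : ℤ, (x ^ i)⁻¹ * γ ∈ G := by
    intro γ
    obtain ⟨i, hi⟩ := Subgroup.mem_zpowers_iff.mp (hq (γ : Γ ⧸ G))
    refine ⟨i, ?_⟩
    rw [← QuotientGroup.eq, QuotientGroup.mk_zpow]
    exact hi
  have hxG : x ∉ G := by
    intro hx
    apply hGlt
    rw [eq_top_iff]
    intro γ _
    obtain ⟨i, hi⟩ := hxgen γ
    have h1 : x ^ i ∈ G := G.zpow_mem hx i
    have h2 := G.mul_mem h1 hi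
    rw [mul_inv_cancel_left] at h2
    exact h2
  obtain ⟨C, hCdef⟩ : ∃ C : Subgroup Γ, C = N ⊔ Subgroup.zpowers x := ⟨_, rfl⟩
  have hNC : N ≤ C := hCdef ▸ le_sup_left
  have hxC : x ∈ C := hCdef ▸ (le_sup_right : Subgroup.zpowers x ≤ N ⊔ Subgroup.zpowers x)
    (Subgroup.mem_zpowers x)
  have hCmem : ∀ c : Γ, c ∈ C → ∃ n ∈ N, ∃ i : ℤ, c = n * x ^ i := by
    intro c hc
    rw [hCdef, ← SetLike.mem_coe, Subgroup.normal_mul, Set.mem_mul] at hc
    obtain ⟨n, hn, z, hz, rfl⟩ := hc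
    obtain ⟨i, rfl⟩ := Subgroup.mem_zpowers_iff.mp hz
    exact ⟨n, hn, i, rfl⟩
  have hCG : C ⊓ G = N := by
    apply le_antisymm
    · intro c hc
      obtain ⟨hcC, hcG⟩ := Subgroup.mem_inf.mp hc
      obtain ⟨n, hn, i, rfl⟩ := hCmem c hcC
      have h1 : x ^ i ∈ G := by
        have h2 := G.mul_mem (G.inv_mem (hNG hn)) hcG
        rw [inv_mul_cancel_left] at h2
        exact h2
      have h3 : x ^ i ∈ N := by
        apply hfrob x hxG (x ^ i) h1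
        have h4 : x * x ^ i * x⁻¹ * (x ^ i)⁻¹ = 1 := by
          have h5 : x * x ^ i = x ^ i * x := by
            rw [← zpow_one_add, ← zpow_add_one, add_comm]
          rw [h5]
          group
        rw [h4]
        exact N.one_mem
      exact N.mul_mem hn h3
    · exact le_inf hNC hNG
  have hCsup : G ⊔ C = ⊤ := by
    rw [eq_top_iff]
    intro γ _
    obtain ⟨i, hi⟩ := hxgen γ
    have h1 : γ = x ^ i * ((x ^ i)⁻¹ * γ) := by group
    rw [h1]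
    exact Subgroup.mul_mem _ (Subgroup.mem_sup_right (C.zpow_mem hxC i)) (Subgroup.mem_sup_left hi)
  have hrel : N.relIndex C = G.index := by
    rw [← hCG, Subgroup.inf_relIndex_left, ← Subgroup.relIndex_sup_right C G, sup_comm, hCsup,
      Subgroup.relIndex_top_right]
  have hCnotG : ∀ c : Γ, c ∈ C → c ∉ N → c ∉ G := by
    intro c hc hcN hcG
    apply hcN
    rw [← hCG]
    exact Subgroup.mem_inf.mpr ⟨hc, hcG⟩
  letI : Fintype C := Fintype.ofFinite _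
  letI : Fintype (N.subgroupOf C) := Fintype.ofFinite _
  have hKcard : Nat.card (N.subgroupOf C) = Nat.card N :=
    Nat.card_congr (Subgroup.subgroupOfEquivOfLe hNC).toEquiv
  have hidx : (N.subgroupOf C).index = G.index := hrel
  have hCcard : (Nat.card C : ℂ) = (G.index : ℂ) * (Nat.card N : ℂ) := by
    have h1 := Subgroup.index_mul_card (N.subgroupOf C)
    rw [hidx, hKcard] at h1
    exact_mod_cast h1.symm
  have hΓcard : (Nat.card Γ : ℂ) = (G.index : ℂ) * ((e : ℂ) ^ 2 * (Nat.card N : ℂ)) := by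
    rw [← hGN]
    exact_mod_cast (Subgroup.index_mul_card G).symm
  have hidx0 : (G.index : ℂ) ≠ 0 := by
    intro h0
    rw [h0, zero_mul] at hCcard
    exact (Nat.cast_ne_zero.mpr Nat.card_pos.ne' : (Nat.card C : ℂ) ≠ 0) hCcard
  -- the quotient C / N is cyclic
  have hcycC : IsCyclic (C ⧸ N.subgroupOf C) := by
    apply Cfsg.Agent.Helper7.isCyclic_quotient_of_gen (N.subgroupOf C) (⟨x, hxC⟩ : C)
    intro c
    obtain ⟨n, hn, i, hi⟩ := hCmem (c : Γ) c.2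
    refine ⟨i, ?_⟩
    rw [Subgroup.mem_subgroupOf]
    have h1 : (((⟨x, hxC⟩ : C) ^ i)⁻¹ * c : C) = ((x ^ i)⁻¹ * n * (x ^ i)⁻¹⁻¹ : Γ) := by
      rw [inv_inv]
      show (x ^ i)⁻¹ * (c : Γ) = (x ^ i)⁻¹ * n * x ^ i
      rw [hi]
      group
    rw [h1]
    exact hN.conj_mem n hn _
  have habQ : ∀ a b : C ⧸ N.subgroupOf C, a * b = b * a := fun a b =>
    (IsCyclic.isMulCommutative (α := C ⧸ N.subgroupOf C)).is_comm.comm a b
  -- extension of θ to C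
  have hϑ : Cfsg.IsIrrCharacter (N.subgroupOf C)
      (fun k : N.subgroupOf C => (θ : N → ℂ) ⟨((k : C) : Γ), k.2⟩) :=
    Cfsg.Agent.Helper2.isIrrCharacter_comp_of_surjective
      (Subgroup.subgroupOfEquivOfLe hNC).toMonoidHom (Subgroup.subgroupOfEquivOfLe hNC).surjective θ.2
  have hinvϑ : ∀ (c : C) (k : N.subgroupOf C),
      (fun k : N.subgroupOf C => (θ : N → ℂ) ⟨((k : C) : Γ), k.2⟩)
        ⟨c * k * c⁻¹, (inferInstance : (N.subgroupOf C).Normal).conj_mem k k.2 c⟩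
      = (fun k : N.subgroupOf C => (θ : N → ℂ) ⟨((k : C) : Γ), k.2⟩) k := by
    intro c k
    exact hinv (c : Γ) ⟨((k : C) : Γ), k.2⟩
  obtain ⟨θh, hθh_irr, hθh⟩ := Cfsg.Agent.S0886.result (N.subgroupOf C) hcycC _ hϑ hinvϑ
  obtain ⟨θH, hθH⟩ : ∃ θH : Cfsg.IrrCharacter C, (θH : C → ℂ) = θh := ⟨⟨θh, hθh_irr⟩, rfl⟩
  have hθhN : ∀ c : C, (c : Γ) ∈ N → θh c = θ₀ c := by
    intro c hc
    have h1 := hθh ⟨c, hc⟩
    rw [hθ₀in _ hc]
    exact h1
  have hχh1 : χh 1 = (e : ℂ) * θ₀ 1 := hχhG 1 G.one_mem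
  have hθh1 : θh 1 = θ₀ 1 := hθhN 1 N.one_mem
  -- the key identity
  have hkey : ∀ c : C, (c : Γ) ∉ N → χh c * conj (χh c) = θh c * conj (θh c) := by
    intro c hcN
    have hcG : (c : Γ) ∉ G := hCnotG c c.2 hcN
    have hA := Cfsg.Agent.Helper25.irr_sum_conj_mul χH (c : Γ)⁻¹ (c : Γ)
    have hB := Cfsg.Agent.Helper25.irr_sum_conj_mul θH c⁻¹ c
    rw [hχH] at hA
    rw [hθH] at hB
    rw [Cfsg.Agent.Helper24.fr_sum_subgroup C (fun y => χh ((c : Γ)⁻¹ * (y * c * y⁻¹)))] at hA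
    · have h1 : ∀ y : C, χh ((c : Γ)⁻¹ * ((y : Γ) * c * (y : Γ)⁻¹))
          = (e : ℂ) * θh (c⁻¹ * (y * c * y⁻¹)) := by
        intro y
        have h2 : (c : Γ)⁻¹ * ((y : Γ) * c * (y : Γ)⁻¹) ∈ N := by
          rw [← hCG]
          exact Subgroup.mem_inf.mpr ⟨(c⁻¹ * (y * c * y⁻¹) : C).2, comm_mem G hcyc _ _⟩
        rw [hχhG _ (hNG h2), hθhN (c⁻¹ * (y * c * y⁻¹)) h2]
        rfl
      have hiχ : χh (c : Γ)⁻¹ = conj (χh c) := by
        have := Cfsg.Agent.Helper25.char_inv (Cfsg.Agent.Helper25.irr_isCharacter χH) (c : Γ)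
        rw [hχH] at this
        exact this
      have hiθ : θh c⁻¹ = conj (θh c) := by
        have := Cfsg.Agent.Helper25.char_inv (Cfsg.Agent.Helper25.irr_isCharacter θH) c
        rw [hθH] at this
        exact this
      rw [Finset.sum_congr rfl (fun y _ => h1 y), ← Finset.mul_sum, hB, hχh1, hθh1, hΓcard,
        hCcard, hiχ, hiθ] at hA
      have h3 : (G.index : ℂ) * (Nat.card N : ℂ) * (e : ℂ) * (θh c * conj (θh c))
          = (G.index : ℂ) * (Nat.card N : ℂ) * (e : ℂ) * (χh c * conj (χh c)) := by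
        have h4 : (e : ℂ) * ((G.index : ℂ) * (Nat.card N : ℂ) * conj (θh c) * θh c / θ₀ 1) * θ₀ 1
            = (G.index : ℂ) * ((e : ℂ) ^ 2 * (Nat.card N : ℂ)) * conj (χh c) * χh c
              / ((e : ℂ) * θ₀ 1) * θ₀ 1 := by rw [hA]
        have h5 : (e : ℂ) * ((G.index : ℂ) * (Nat.card N : ℂ) * conj (θh c) * θh c / θ₀ 1) * θ₀ 1
            = (G.index : ℂ) * (Nat.card N : ℂ) * (e : ℂ) * (θh c * conj (θh c)) := by
          field_simp
        have h6 : (G.index : ℂ) * ((e : ℂ) ^ 2 * (Nat.card N : ℂ)) * conj (χh c) * χh c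
              / ((e : ℂ) * θ₀ 1) * θ₀ 1
            = (G.index : ℂ) * (Nat.card N : ℂ) * (e : ℂ) * (χh c * conj (χh c)) := by
          field_simp
        rw [← h5, ← h6, h4]
      exact (mul_left_cancel₀ (mul_ne_zero (mul_ne_zero hidx0 hN0) he0) h3).symm
    · -- terms outside C vanish
      intro y hy
      show χh ((c : Γ)⁻¹ * (y * c * y⁻¹)) = 0
      have hvG : (c : Γ)⁻¹ * (y * c * y⁻¹) ∈ G := comm_mem G hcyc _ _
      rw [hχhG _ hvG, hθ₀out, mul_zero]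
      intro hvN
      apply hy
      obtain ⟨g, hg, c₁, hc₁, rfl⟩ := Cfsg.Agent.Helper26.gx_decomp G C hCsup y
      have hc₂C : c₁ * c * c₁⁻¹ ∈ C := C.mul_mem (C.mul_mem hc₁ c.2) (C.inv_mem hc₁)
      have hc₂G : (c₁ * c * c₁⁻¹)⁻¹ ∉ G := by
        intro h
        apply hcG
        have h1 := hG.conj_mem _ (G.inv_mem h) c₁⁻¹
        have h2 : c₁⁻¹ * (c₁ * c * c₁⁻¹)⁻¹⁻¹ * c₁⁻¹⁻¹ = c := by group
        rw [h2] at h1
        exact h1
      have h3 : (c : Γ)⁻¹ * (c₁ * c * c₁⁻¹) ∈ N := by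
        rw [← hCG]
        exact Subgroup.mem_inf.mpr ⟨C.mul_mem (C.inv_mem c.2) hc₂C, comm_mem G hcyc _ _⟩
      have h4 : (c₁ * c * c₁⁻¹)⁻¹ * g * (c₁ * c * c₁⁻¹)⁻¹⁻¹ * g⁻¹ ∈ N := by
        have h5 : (c₁ * c * c₁⁻¹)⁻¹ * g * (c₁ * c * c₁⁻¹)⁻¹⁻¹ * g⁻¹
            = ((c : Γ)⁻¹ * (c₁ * c * c₁⁻¹))⁻¹ * ((c : Γ)⁻¹ * (g * c₁ * c * (g * c₁)⁻¹)) := by
          group
        rw [h5]
        exact N.mul_mem (N.inv_mem h3) hvN
      have h6 : g ∈ N := hfrob _ hc₂G g hg h4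
      exact C.mul_mem (hNC h6) hc₁
  -- apply the Gallagher–Parseval lemma
  have hψ₀ : Cfsg.IsCharacter C (fun c : C => χh c) := by
    have := Cfsg.Agent.Helper2.isCharacter_restrict C (Cfsg.Agent.Helper25.irr_isCharacter χH)
    rw [hχH] at this
    exact this
  have hirrK : Cfsg.IsIrrCharacter (N.subgroupOf C) (fun k : N.subgroupOf C => (θH : C → ℂ) k) := by
    rw [hθH]
    have h1 : (fun k : N.subgroupOf C => θh k)
        = (fun k : N.subgroupOf C => (θ : N → ℂ) ⟨((k : C) : Γ), k.2⟩) := funext hθh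
    rw [h1]
    exact hϑ
  have heK : ∀ k : N.subgroupOf C, (fun c : C => χh c) k = (e : ℂ) * (θH : C → ℂ) k := by
    intro k
    rw [hθH, hθhN (k : C) k.2]
    exact hχhG _ (hNG k.2)
  have hnorm : ∑ c : C, (fun c : C => χh c) c * conj ((fun c : C => χh c) c)
      = (Nat.card (N.subgroupOf C) : ℂ) * ((e : ℂ) ^ 2 + (G.index : ℂ) - 1) := by
    have h1 : ∀ c : C, χh c * conj (χh c)
        = θh c * conj (θh c) + ((e : ℂ) ^ 2 - 1) * (θ₀ c * conj (θ₀ c)) := by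
      intro c
      by_cases hc : (c : Γ) ∈ N
      · rw [hχhG _ (hNG hc), hθhN c hc, map_mul, Complex.conj_natCast]
        ring
      · rw [hkey c hc, hθ₀out _ hc, zero_mul, mul_zero, add_zero]
    have h2 : ∑ c : C, θh c * conj (θh c) = (Nat.card C : ℂ) := by
      have h := Cfsg.Agent.Helper25.irr_classInner θH θH
      rw [if_pos rfl, hθH] at h
      unfold Cfsg.classInner at h
      have hC0 : (Nat.card C : ℂ) ≠ 0 := Nat.cast_ne_zero.mpr Nat.card_pos.ne'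
      have h' : (Nat.card C : ℂ) * ((Nat.card C : ℂ)⁻¹ *
          ∑ g : C, θh g * conj (θh g)) = (Nat.card C : ℂ) * 1 := by rw [h]
      rw [← mul_assoc, mul_inv_cancel₀ hC0, one_mul, mul_one] at h'
      exact h'
    have h3 : ∑ c : C, θ₀ c * conj (θ₀ c) = (Nat.card N : ℂ) := by
      rw [← hθ₀norm]
      exact (Cfsg.Agent.Helper24.fr_sum_subgroup C (fun γ => θ₀ γ * conj (θ₀ γ))
        (fun γ hγ => by rw [hθ₀out γ (fun h => hγ (hNC h)), zero_mul])).symm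
    show ∑ c : C, χh c * conj (χh c) = _
    rw [Finset.sum_congr rfl (fun c _ => h1 c), Finset.sum_add_distrib, ← Finset.mul_sum, h2, h3,
      hCcard, hKcard]
    ring
  have hmain := Cfsg.Agent.Helper24.fr_gallagher (N.subgroupOf C) habQ θH hirrK
    (fun c : C => χh c) hψ₀ e heK G.index hidx hnorm
  rcases hmain with h1 | h1
  · right
    exact_mod_cast h1
  · left
    have h2 : ((e - 1 : ℕ) : ℤ) = (e : ℤ) - 1 := by
      rw [Nat.cast_sub he1]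
      simp
    rw [← h2]
    exact_mod_cast h1

end Cfsg.Agent.S4454
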