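import Cfsg.Statements.S4462
import Cfsg.Agent.Helper24.BG
import Cfsg.Agent.Helper24.Ito
import Cfsg.Agent.Helper10.FStar
import Cfsg.Agent.S0008

set_option autoImplicit false
open Cfsg

namespace Cfsg.Agent.S4462


universe u

/-- `A / B` is nilpotent, expressed in the ambient group -/
def gNil {G : Type u} [Group G] (A B : Subgroup G) : Prop := ∃ k, A.lowerCentralSeries k ≤ B

theorem gNil_self {G : Type u} [Group G] (A : Subgroup G) : gNil A A := ⟨0, le_rfl⟩

theorem gNil_of_nilpotent {G : Type u} [Group G] (A B : Subgroup G) (h : Group.IsNilpotent A) :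
    gNil A B := by
  obtain ⟨k, hk⟩ := (Subgroup.isNilpotent_iff_lowerCentralSeries A).mp h
  exact ⟨k, hk ▸ bot_le⟩

theorem gNil_comap {G H : Type u} [Group G] [Group H] (f : G →* H) (A B : Subgroup H)
    (h : gNil A B) : gNil (A.comap f) (B.comap f) := by
  obtain ⟨k, hk⟩ := h
  refine ⟨k, ?_⟩
  rw [← Subgroup.map_le_iff_le_comap, Subgroup.map_lowerCentralSeries]
  exact (Subgroup.lowerCentralSeries_mono k (Subgroup.map_comap_le f A)).trans hk

theorem gNil_quot {G : Type u} [Group G] (A B : Subgroup G) (h : (B.subgroupOf A).Normal)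
    (hn : gNil A B) : Group.IsNilpotent (↥A ⧸ B.subgroupOf A) := by
  obtain ⟨k, hk⟩ := hn
  rw [Subgroup.nilpotent_iff_lowerCentralSeries]
  refine ⟨k, ?_⟩
  have h1 : ((⊤ : Subgroup ↥A).lowerCentralSeries k) ≤ B.subgroupOf A := by
    intro x hx
    rw [Subgroup.mem_subgroupOf]
    apply hk
    rw [← Subgroup.top_subtype_lowerCentralSeries]
    exact Subgroup.mem_map_of_mem _ hx
  rw [← Subgroup.map_top_of_surjective (QuotientGroup.mk' (B.subgroupOf A))
    (QuotientGroup.mk'_surjective _), ← Subgroup.map_lowerCentralSeries, Subgroup.map_eq_bot_iff,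
    QuotientGroup.ker_mk']
  exact h1

theorem garrison_aux : ∀ (m : ℕ) (G : Type u) [Group G] [Finite G], Nat.card G = m →
    Group.IsSolvable G → ∀ n : ℕ,
    Nat.card {d : ℕ // ∃ χ : IrrCharacter G, charDegree (χ : G → ℂ) = d} ≤ n →
    ∃ N : ℕ → Subgroup G, N 0 = ⊥ ∧ (∀ i, n ≤ i → N i = ⊤) ∧ Monotone N ∧
      (∀ i, (N i).Normal) ∧ ∀ i, gNil (N (i + 1)) (N i) := by
  intro m
  induction m using Nat.strong_induction_on with
  | _ m ih =>
  intro G _ _ hm hsolv n hn
  classical
  haveI := Fintype.ofFinite G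
  haveI hFn : (fittingSubgroup G).Normal := Cfsg.Agent.Helper10.fitting_normal G
  have hFnil : Group.IsNilpotent (fittingSubgroup G) := Cfsg.Agent.S0008.result
  haveI hfin : Finite {d : ℕ // ∃ χ : IrrCharacter G, charDegree (χ : G → ℂ) = d} :=
    Finite.of_surjective (fun χ : IrrCharacter G => (⟨charDegree (χ : G → ℂ), χ, rfl⟩ :
      {d : ℕ // ∃ χ : IrrCharacter G, charDegree (χ : G → ℂ) = d}))
      (by rintro ⟨d, χ, rfl⟩; exact ⟨χ, rfl⟩)
  have hn1 : 1 ≤ n := by
    haveI : Nonempty {d : ℕ // ∃ χ : IrrCharacter G, charDegree (χ : G → ℂ) = d} :=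
      ⟨⟨_, Cfsg.Agent.Helper25.trivChar G, rfl⟩⟩
    exact le_trans Nat.card_pos hn
  by_cases hF : fittingSubgroup G = ⊤
  · refine ⟨fun i => if i = 0 then ⊥ else ⊤, if_pos rfl, ?_, ?_, ?_, ?_⟩
    · intro i hi
      beta_reduce
      rw [if_neg (by omega)]
    · intro i j hij
      by_cases hi : i = 0
      · simp only [hi, if_true]; exact bot_le
      · have hj : j ≠ 0 := by omega
        simp only [hi, hj, if_false]; exact le_rfl
    · intro i
      by_cases hi : i = 0
      · simp only [hi, if_true]; infer_instance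
      · simp only [hi, if_false]; infer_instance
    · intro i
      by_cases hi : i = 0
      · simp only [hi, if_true, zero_add, one_ne_zero, if_false]
        apply gNil_of_nilpotent
        rw [← hF]
        exact hFnil
      · have hi1 : i + 1 ≠ 0 := by omega
        simp only [hi, hi1, if_false]
        exact gNil_self _
  · -- G is nontrivial, F ≠ ⊥
    haveI hnt : Nontrivial G := by
      by_contra hnt
      rw [not_nontrivial_iff_subsingleton] at hnt
      exact hF (Subsingleton.elim _ _)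
    have hFbot : fittingSubgroup G ≠ ⊥ := by
      obtain ⟨r, V, hr, hVn, hV1, hVp, -⟩ := Cfsg.Agent.Helper24.exists_normal_abelian_pgroup hsolv
      haveI : Fact r.Prime := ⟨hr⟩
      intro hbot
      apply hV1
      have h1 : V ≤ fittingSubgroup G := le_sSup ⟨hVn, hVp.isNilpotent⟩
      rw [hbot] at h1
      exact le_bot_iff.mp h1
    have hcard : Nat.card (G ⧸ fittingSubgroup G) < m := by
      have h1 : Nat.card G = Nat.card (G ⧸ fittingSubgroup G) * Nat.card (fittingSubgroup G) :=
        Subgroup.card_eq_card_quotient_mul_card_subgroup _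
      have h2 : 1 < Nat.card (fittingSubgroup G) := by
        have h5 : Nat.card (fittingSubgroup G) ≠ 1 := fun h => hFbot (Subgroup.card_eq_one.mp h)
        have h6 : 0 < Nat.card (fittingSubgroup G) := Nat.card_pos
        omega
      have h3 : 0 < Nat.card (G ⧸ fittingSubgroup G) := Nat.card_pos
      rw [← hm, h1]
      nlinarith
    have hsurj := QuotientGroup.mk'_surjective (fittingSubgroup G)
    -- a character of G/F of maximal degree
    haveI : Nonempty (IrrCharacter (G ⧸ fittingSubgroup G)) :=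
      ⟨Cfsg.Agent.Helper25.trivChar _⟩
    obtain ⟨χ₀, hχ₀⟩ := Finite.exists_max
      (fun χ : IrrCharacter (G ⧸ fittingSubgroup G) =>
        charDegree (χ : G ⧸ fittingSubgroup G → ℂ))
    obtain ⟨χ, hχdef⟩ : ∃ χ : IrrCharacter G,
        χ = Cfsg.Agent.Helper25.irrComp χ₀ (QuotientGroup.mk' (fittingSubgroup G)) hsurj :=
      ⟨_, rfl⟩
    have hχdeg : charDegree (χ : G → ℂ) = charDegree (χ₀ : G ⧸ fittingSubgroup G → ℂ) := by
      rw [hχdef]
      exact Cfsg.Agent.Helper25.charDegree_irrComp _ _ _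
    have hFK : fittingSubgroup G ≤ Cfsg.Agent.Helper25.irrKer χ := by
      rw [hχdef, Cfsg.Agent.Helper25.irrKer_irrComp]
      intro x hx
      rw [Subgroup.mem_comap]
      have : QuotientGroup.mk' (fittingSubgroup G) x = 1 := (QuotientGroup.eq_one_iff x).mpr hx
      rw [this]
      exact Subgroup.one_mem _
    have hbg : ¬ Cfsg.Agent.Helper25.irrKer χ ≤ Cfsg.fittingSubgroup G ∨
        (Cfsg.Agent.Helper25.irrKer χ = Cfsg.fittingSubgroup G ∧
          Group.IsSolvable (G ⧸ Cfsg.Agent.Helper25.irrKer χ) ∧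
          Cfsg.Agent.Helper25.irrKer χ ≠ ⊤) := by
      by_cases hle : Cfsg.Agent.Helper25.irrKer χ ≤ Cfsg.fittingSubgroup G
      · right
        have heq : Cfsg.Agent.Helper25.irrKer χ = Cfsg.fittingSubgroup G := le_antisymm hle hFK
        exact ⟨heq, inferInstance, by rw [heq]; exact hF⟩
      · exact Or.inl hle
    obtain ⟨ψ, hψ, -⟩ := Cfsg.Agent.Helper24.bg_main χ (Cfsg.Agent.Helper25.irrKer χ)
      (fun g => Cfsg.Agent.Helper25.mem_irrKer χ g) hbg
    -- degree sets
    have hsub : {d : ℕ | ∃ θ : IrrCharacter (G ⧸ fittingSubgroup G),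
          charDegree (θ : G ⧸ fittingSubgroup G → ℂ) = d} ⊂
        {d : ℕ | ∃ θ : IrrCharacter G, charDegree (θ : G → ℂ) = d} := by
      constructor
      · rintro d ⟨θ, rfl⟩
        exact ⟨Cfsg.Agent.Helper25.irrComp θ (QuotientGroup.mk' (fittingSubgroup G)) hsurj,
          Cfsg.Agent.Helper25.charDegree_irrComp _ _ _⟩
      · intro hcon
        obtain ⟨θ, hθ⟩ := hcon ⟨ψ, rfl⟩
        have h1 := hχ₀ θ
        rw [hθ] at h1
        omega
    have hfinS : {d : ℕ | ∃ θ : IrrCharacter G, charDegree (θ : G → ℂ) = d}.Finite :=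
      Set.toFinite _
    have hlt := Set.ncard_lt_ncard hsub hfinS
    rw [← Nat.card_coe_set_eq, ← Nat.card_coe_set_eq] at hlt
    have hn' : Nat.card {d : ℕ // ∃ θ : IrrCharacter (G ⧸ fittingSubgroup G),
        charDegree (θ : G ⧸ fittingSubgroup G → ℂ) = d} ≤ n - 1 := by
      have h1 : Nat.card {d : ℕ // ∃ θ : IrrCharacter (G ⧸ fittingSubgroup G),
          charDegree (θ : G ⧸ fittingSubgroup G → ℂ) = d} <
          Nat.card {d : ℕ // ∃ χ : IrrCharacter G, charDegree (χ : G → ℂ) = d} := hlt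
      omega
    obtain ⟨Nb, hNb0, hNbtop, hNbmono, hNbn, hNbnil⟩ :=
      ih _ hcard (G ⧸ fittingSubgroup G) rfl inferInstance (n - 1) hn'
    refine ⟨fun i => if i = 0 then ⊥ else
      (Nb (i - 1)).comap (QuotientGroup.mk' (fittingSubgroup G)), if_pos rfl, ?_, ?_, ?_, ?_⟩
    · intro i hi
      beta_reduce
      rw [if_neg (by omega), hNbtop (i - 1) (by omega), Subgroup.comap_top]
    · apply monotone_nat_of_le_succ
      intro i
      by_cases hi : i = 0
      · simp only [hi, if_true]; exact bot_le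
      · have hi1 : i + 1 ≠ 0 := by omega
        simp only [hi, hi1, if_false]
        exact Subgroup.comap_mono (hNbmono (by omega))
    · intro i
      by_cases hi : i = 0
      · simp only [hi, if_true]; infer_instance
      · simp only [hi, if_false]
        haveI := hNbn (i - 1)
        infer_instance
    · intro i
      by_cases hi : i = 0
      · simp only [hi, if_true, zero_add, one_ne_zero, if_false, Nat.sub_self]
        rw [hNb0, MonoidHom.comap_bot, QuotientGroup.ker_mk']
        exact gNil_of_nilpotent _ _ hFnil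
      · have hi1 : i + 1 ≠ 0 := by omega
        simp only [hi, hi1, if_false]
        have h1 := gNil_comap (QuotientGroup.mk' (fittingSubgroup G)) _ _ (hNbnil (i - 1))
        have e : i - 1 + 1 = i + 1 - 1 := by omega
        rw [e] at h1
        exact h1

/-- Let G be a finite solvable group with exactly n distinct irreducible character degrees. Then G has normal subgroups 1 = N₀ ≤ N₁ ≤ ⋯ ≤ Nₙ = G with every quotient N_{i+1}/N_i nilpotent (the nilpotent length of G is at most n). -/
theorem result {G : Type*} [Group G] [Finite G] (hsolv : Group.IsSolvable G) (n : ℕ) (hcd : Nat.card {d : ℕ // ∃ χ : Cfsg.IrrCharacter G, Cfsg.charDegree (χ : G → ℂ) = d} = n) : ∃ N : Fin (n + 1) → Subgroup G, N 0 = ⊥ ∧ N (Fin.last n) = ⊤ ∧ Monotone N ∧ (∀ i, (N i).Normal) ∧ ∀ i : Fin n, ∀ h : (N i.castSucc).subgroupOf (N i.succ) |>.Normal, Group.IsNilpotent (↥(N i.succ) ⧸ (N i.castSucc).subgroupOf (N i.succ)) := by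
  obtain ⟨N, hN0, hNtop, hNmono, hNn, hNnil⟩ :=
    garrison_aux _ G rfl hsolv n (le_of_eq hcd)
  refine ⟨fun i => N (i : ℕ), ?_, ?_, ?_, ?_, ?_⟩
  · show N ((0 : Fin (n + 1)) : ℕ) = ⊥
    rw [Fin.val_zero]
    exact hN0
  · show N ((Fin.last n : Fin (n + 1)) : ℕ) = ⊤
    rw [Fin.val_last]
    exact hNtop n le_rfl
  · intro i j hij
    exact hNmono (Fin.le_def.mp hij)
  · intro i
    exact hNn _
  · intro i h
    apply gNil_quot _ _ h
    show gNil (N ((i.succ : Fin (n + 1)) : ℕ)) (N ((i.castSucc : Fin (n + 1)) : ℕ))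
    rw [Fin.val_succ, Fin.val_castSucc]
    exact hNnil _

end Cfsg.Agent.S4462
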