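import Cfsg.Statements.S4474
import Cfsg.Agent.Helper24.FSReal

set_option autoImplicit false
open Cfsg

namespace Cfsg.Agent.S4474

open Cfsg.Agent.Helper24 Cfsg.Agent.Helper7

/-- Let χ be an irreducible character of the finite group G. Then the Frobenius–Schur indicator of χ (the average over s ∈ G of χ(s²)) equals 1 if and only if χ is afforded by a real representation: there is a representation of G on a real coordinate space whose trace function, viewed in ℂ, is χ. -/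
theorem result {G : Type*} [Group G] [Fintype G] (χ : Cfsg.IrrCharacter G) : ((Nat.card G : ℂ)⁻¹ * ∑ s : G, (χ : G → ℂ) (s * s)) = 1 ↔ ∃ (n : ℕ) (ρ : Representation ℝ G (Fin n → ℝ)), ∀ g : G, ((LinearMap.trace ℝ (Fin n → ℝ) (ρ g) : ℝ) : ℂ) = (χ : G → ℂ) g := by
  obtain ⟨χ, n, ρ, hρ, rfl⟩ := χ
  have hG : (Nat.card G : ℂ) ≠ 0 := Cfsg.Agent.Helper25.card_ne_zero
  show ((Nat.card G : ℂ)⁻¹ * ∑ s : G, ρ.character (s * s)) = 1 ↔
    ∃ (m : ℕ) (ρ₀ : Representation ℝ G (Fin m → ℝ)), ∀ g : G,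
      ((LinearMap.trace ℝ (Fin m → ℝ) (ρ₀ g) : ℝ) : ℂ) = ρ.character g
  constructor
  · intro h
    have hind : fsInd (ρ.character) = 1 := h
    have hreal : ∀ g : G, (ρ.character g).im = 0 :=
      fsInd_real (⟨ρ.character, n, ρ, hρ, rfl⟩ : Cfsg.IrrCharacter G)
        (by show fsInd (ρ.character) ≠ 0; rw [hind]; exact one_ne_zero)
    obtain ⟨S, hS0, hSinv⟩ := fs_exists_form ρ hρ hreal
    obtain ⟨ε, hε2, hST, hsum⟩ := fs_form_sign ρ hρ S hSinv hS0
    have hε : ε = 1 := by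
      rw [hsum] at h
      rw [← h]
      field_simp
    rw [hε, one_smul] at hST
    obtain ⟨K, hK1, hK2⟩ := fs_real_structure ρ hρ S hSinv hS0 hST
    obtain ⟨ρ', hρ'⟩ := fs_real_rep ρ K hK1 hK2
    exact ⟨n, ρ', hρ'⟩
  · rintro ⟨m, ρ₀, h⟩
    rw [fs_of_real_rep ρ hρ ρ₀ h]
    exact inv_mul_cancel₀ hG

end Cfsg.Agent.S4474
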