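import Cfsg.Statements.S4475
import Mathlib
import Cfsg.Agent.Helper24.FS

set_option autoImplicit false
open Cfsg

namespace Cfsg.Agent.S4475

/-- Let ρ be an irreducible representation of the finite group G on the coordinate space Fin n → ℂ whose character χ is real-valued, and let ν be the Frobenius–Schur indicator of χ (the average of χ(s²)). Writing X(g) for the matrix of ρ(g), there is a nonzero matrix M with X(g)ᵀ M X(g) = M for all g ∈ G; and every such M (zero or not) satisfies Mᵀ = ν·M. -/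
theorem result {G : Type*} [Group G] [Fintype G] (n : ℕ) (ρ : Representation ℂ G (Fin n → ℂ)) (hirr : ρ.IsIrreducible) (hreal : ∀ g : G, (ρ.character g).im = 0) : (∃ M : Matrix (Fin n) (Fin n) ℂ, M ≠ 0 ∧ ∀ g : G, (LinearMap.toMatrix' (ρ g)).transpose * M * LinearMap.toMatrix' (ρ g) = M) ∧ ∀ M : Matrix (Fin n) (Fin n) ℂ, (∀ g : G, (LinearMap.toMatrix' (ρ g)).transpose * M * LinearMap.toMatrix' (ρ g) = M) → M.transpose = ((Nat.card G : ℂ)⁻¹ * ∑ s : G, ρ.character (s * s)) • M := by
  have hX : ∀ g : G, LinearMap.toMatrix' (ρ g) = Cfsg.Agent.Helper7.repMat ρ g := fun g => rfl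
  simp only [hX]
  constructor
  · obtain ⟨S, hS0, hSinv⟩ := Cfsg.Agent.Helper24.fs_exists_form ρ hirr hreal
    exact ⟨S, hS0, hSinv⟩
  · intro M hM
    by_cases hM0 : M = 0
    · subst hM0; simp
    · obtain ⟨ε, hε2, hMT, hsum⟩ := Cfsg.Agent.Helper24.fs_form_sign ρ hirr M hM hM0
      rw [hMT, hsum]
      congr 1
      have hG : (Nat.card G : ℂ) ≠ 0 := Cfsg.Agent.Helper25.card_ne_zero
      field_simp

end Cfsg.Agent.S4475
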