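import Cfsg.Statements.S4476
import Mathlib
import Cfsg.Agent.Helper24.FS
import Cfsg.Agent.Helper1.CharClass
import Cfsg.Agent.Helper25.CharMore

set_option autoImplicit false
open Cfsg

universe u

namespace Cfsg.Agent.S4476


open Cfsg.Agent.Helper24 Cfsg.Agent.Helper25

theorem sum_card_centralizer {G : Type u} [Group G] [Fintype G] :
    ∑ x : G, Nat.card (Subgroup.centralizer ({x} : Set G))
      = Nat.card (ConjClasses G) * Nat.card G := by
  classical
  rw [← card_comm_eq_card_conjClasses_mul_card,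
    Nat.card_congr (Equiv.subtypeProdEquivSigmaSubtype Commute), Nat.card_sigma]
  apply Finset.sum_congr rfl
  intro x _
  apply Nat.card_congr
  exact Equiv.subtypeEquivRight (fun b => by
    rw [Subgroup.mem_centralizer_singleton_iff]
    exact ⟨fun h => h.symm, fun h => h.symm⟩)

theorem card_sq_eq_one {G : Type u} [Group G] [Fintype G] :
    Nat.card {s : G // s * s = 1} = Nat.card {x : G // orderOf x = 2} + 1 := by
  classical
  rw [Nat.card_eq_fintype_card, Nat.card_eq_fintype_card, Fintype.card_subtype,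
    Fintype.card_subtype]
  have h1 : (Finset.univ.filter (fun s : G => s * s = 1))
      = insert 1 (Finset.univ.filter (fun s : G => orderOf s = 2)) := by
    ext s
    simp only [Finset.mem_filter, Finset.mem_univ, true_and, Finset.mem_insert]
    constructor
    · intro hs
      have hd : orderOf s ∣ 2 := orderOf_dvd_of_pow_eq_one (by rw [pow_two]; exact hs)
      rcases (Nat.dvd_prime Nat.prime_two).mp hd with h | h
      · left; exact orderOf_eq_one_iff.mp h
      · right; exact h
    · rintro (rfl | hs)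
      · simp
      · rw [← pow_two, ← hs]; exact pow_orderOf_eq_one s
  rw [h1, Finset.card_insert_of_notMem]
  simp

theorem main {G : Type u} [Group G] [Fintype G] (heven : Even (Nat.card G)) (t : ℕ)
    (ht : Nat.card {x : G // orderOf x = 2} = t) :
    (∃ x : G, x ≠ 1 ∧ ((Subgroup.centralizer ({x} : Set G)).index : ℝ)
        ≤ (((Nat.card G : ℝ) - 1) / t) ^ 2) ∧
    ∃ χ : Cfsg.IrrCharacter G, (χ : G → ℂ) ≠ (fun _ => 1) ∧
      (∀ g : G, ((χ : G → ℂ) g).im = 0) ∧
      (Cfsg.charDegree (χ : G → ℂ) : ℝ) ≤ ((Nat.card G : ℝ) - 1) / t := by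
  classical
  have : Fact (Nat.Prime 2) := ⟨Nat.prime_two⟩
  obtain ⟨x0, hx0⟩ := exists_prime_orderOf_dvd_card' 2 heven.two_dvd
  have ht1 : 1 ≤ t := by
    rw [← ht]
    exact Nat.card_pos_iff.mpr ⟨⟨⟨x0, hx0⟩⟩, inferInstance⟩
  have hN2 : 2 ≤ Nat.card G := Nat.le_of_dvd Nat.card_pos heven.two_dvd
  have htr : (1 : ℝ) ≤ (t : ℝ) := by exact_mod_cast ht1
  have hNr : (2 : ℝ) ≤ (Nat.card G : ℝ) := by exact_mod_cast hN2
  set α : ℝ := ((Nat.card G : ℝ) - 1) / t with hα
  have hαt : α * t = (Nat.card G : ℝ) - 1 := by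
    rw [hα]; field_simp
  have hα0 : 0 < α := by rw [hα]; apply div_pos <;> linarith
  -- degrees and indicators
  set d : Cfsg.IrrCharacter G → ℝ := fun χ => (Cfsg.charDegree (χ : G → ℂ) : ℝ) with hd
  set ν : Cfsg.IrrCharacter G → ℝ := fun χ => (fsInd (χ : G → ℂ)).re with hν
  have hd1 : ∀ χ : Cfsg.IrrCharacter G, 1 ≤ d χ := by
    intro χ
    have := irr_degree_pos χ
    simp only [hd]
    exact_mod_cast this
  have hνle : ∀ χ : Cfsg.IrrCharacter G, ν χ ≤ 1 := by
    intro χ
    simp only [hν]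
    rcases fsInd_cases χ with ⟨h, -⟩ | ⟨h | h, -⟩ <;> rw [h] <;> simp
  have hνreal : ∀ χ : Cfsg.IrrCharacter G, (¬ ∀ g : G, ((χ : G → ℂ) g).im = 0) → ν χ = 0 := by
    intro χ hχ
    simp only [hν]
    rcases fsInd_cases χ with h | ⟨-, h⟩
    · rw [h.1]; simp
    · exact absurd h hχ
  have H1 : ∑ χ : Cfsg.IrrCharacter G, ν χ * d χ = (t : ℝ) + 1 := by
    have h := fs_count (G := G)
    rw [card_sq_eq_one, ht] at h
    have h' := congrArg Complex.re h
    rw [Complex.re_sum] at h'
    have e : ∀ χ : Cfsg.IrrCharacter G,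
        (fsInd (χ : G → ℂ) * (χ : G → ℂ) 1).re = ν χ * d χ := by
      intro χ
      rw [irr_one_eq_degree, Complex.mul_re]
      simp [hν, hd]
    rw [Finset.sum_congr rfl (fun χ _ => e χ)] at h'
    rw [h']
    push_cast
    simp
  have H2 : ∑ χ : Cfsg.IrrCharacter G, d χ ^ 2 = (Nat.card G : ℝ) := by
    have h := sum_irr_degree_sq (G := G)
    have e : ∀ χ : Cfsg.IrrCharacter G,
        (χ : G → ℂ) 1 * (χ : G → ℂ) 1 = ((d χ ^ 2 : ℝ) : ℂ) := by
      intro χ
      rw [irr_one_eq_degree]
      simp only [hd]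
      push_cast
      ring
    rw [Finset.sum_congr rfl (fun χ _ => e χ), ← Complex.ofReal_sum] at h
    have h2 : ((Nat.card G : ℝ) : ℂ) = (Nat.card G : ℂ) := by push_cast; rfl
    rw [← h2] at h
    exact Complex.ofReal_injective h
  -- the trivial character
  have htriv_d : d (trivChar G) = 1 := by
    have h := irr_one_eq_degree (trivChar G)
    rw [trivChar_apply] at h
    simp only [hd]
    have : ((Cfsg.charDegree ((trivChar G : Cfsg.IrrCharacter G) : G → ℂ) : ℕ) : ℂ) = ((1 : ℕ) : ℂ) := by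
      rw [← h]; simp
    exact_mod_cast this
  have htriv_ν : ν (trivChar G) = 1 := by
    simp only [hν, fsInd, trivChar_apply, Finset.sum_const, Finset.card_univ, nsmul_eq_mul, mul_one,
      Nat.card_eq_fintype_card]
    have hG : (Fintype.card G : ℂ) ≠ 0 := by
      have := card_ne_zero (G := G)
      rwa [Nat.card_eq_fintype_card] at this
    rw [inv_mul_cancel₀ hG]
    simp
  set Z : Finset (Cfsg.IrrCharacter G) := Finset.univ.erase (trivChar G) with hZ
  have H1' : ∑ χ ∈ Z, ν χ * d χ = (t : ℝ) := by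
    have := Finset.add_sum_erase Finset.univ (fun χ => ν χ * d χ) (Finset.mem_univ (trivChar G))
    rw [H1, htriv_d, htriv_ν] at this
    linarith
  have H2' : ∑ χ ∈ Z, d χ ^ 2 = (Nat.card G : ℝ) - 1 := by
    have := Finset.add_sum_erase Finset.univ (fun χ => d χ ^ 2) (Finset.mem_univ (trivChar G))
    rw [H2, htriv_d] at this
    linarith
  have hne_triv : ∀ χ : Cfsg.IrrCharacter G, χ ∈ Z → (χ : G → ℂ) ≠ (fun _ => 1) := by
    intro χ hχ h
    apply (Finset.mem_erase.mp hχ).1
    exact Subtype.ext h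
  constructor
  · -- (a)
    by_contra ha
    push Not at ha
    -- Cauchy–Schwarz
    have hsum_le : (t : ℝ) ≤ ∑ χ ∈ Z, d χ := by
      rw [← H1']
      apply Finset.sum_le_sum
      intro χ _
      have := hνle χ
      have := hd1 χ
      nlinarith
    have hCS : (t : ℝ) ^ 2 ≤ (Z.card : ℝ) * ((Nat.card G : ℝ) - 1) := by
      have h1 := sq_sum_le_card_mul_sum_sq (s := Z) (f := d)
      rw [H2'] at h1
      have h2 : (t : ℝ) ^ 2 ≤ (∑ χ ∈ Z, d χ) ^ 2 := by
        apply pow_le_pow_left₀ (by positivity) hsum_le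
      linarith
    have hZcard : (Z.card : ℝ) = (Nat.card (ConjClasses G) : ℝ) - 1 := by
      rw [hZ, Finset.card_erase_of_mem (Finset.mem_univ _), Finset.card_univ,
        ← Cfsg.Agent.Helper1.card_irr, Nat.card_eq_fintype_card]
      have : 1 ≤ Fintype.card (Cfsg.IrrCharacter G) :=
        Fintype.card_pos_iff.mpr ⟨trivChar G⟩
      push_cast [Nat.cast_sub this]
      ring
    -- class equation
    have hcl : ∑ x : G, (Nat.card (Subgroup.centralizer ({x} : Set G)) : ℝ)
        = (Nat.card (ConjClasses G) : ℝ) * (Nat.card G : ℝ) := by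
      have := sum_card_centralizer (G := G)
      exact_mod_cast this
    have hc1 : (Nat.card (Subgroup.centralizer ({(1 : G)} : Set G)) : ℝ) = (Nat.card G : ℝ) := by
      have h3 : Subgroup.centralizer ({(1 : G)} : Set G) = ⊤ := by
        ext x
        simp [Subgroup.mem_centralizer_iff]
      rw [h3, Subgroup.card_top]
    have hcl' : ∑ x ∈ (Finset.univ : Finset G).erase 1,
        (Nat.card (Subgroup.centralizer ({x} : Set G)) : ℝ)
        = ((Nat.card (ConjClasses G) : ℝ) - 1) * (Nat.card G : ℝ) := by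
      have := Finset.add_sum_erase Finset.univ
        (fun x : G => (Nat.card (Subgroup.centralizer ({x} : Set G)) : ℝ)) (Finset.mem_univ 1)
      rw [hcl, hc1] at this
      linarith
    have hne : ((Finset.univ : Finset G).erase 1).Nonempty := by
      refine ⟨x0, Finset.mem_erase.mpr ⟨?_, Finset.mem_univ _⟩⟩
      rintro rfl
      simp at hx0
    have hlt : ∑ x ∈ (Finset.univ : Finset G).erase 1,
        α ^ 2 * (Nat.card (Subgroup.centralizer ({x} : Set G)) : ℝ)
        < ∑ x ∈ (Finset.univ : Finset G).erase 1, (Nat.card G : ℝ) := by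
      apply Finset.sum_lt_sum_of_nonempty hne
      intro x hx
      have hx1 : x ≠ 1 := (Finset.mem_erase.mp hx).1
      have h1 := ha x hx1
      have h2 : (Nat.card (Subgroup.centralizer ({x} : Set G)) : ℝ)
          * ((Subgroup.centralizer ({x} : Set G)).index : ℝ) = (Nat.card G : ℝ) := by
        have := Subgroup.card_mul_index (Subgroup.centralizer ({x} : Set G))
        exact_mod_cast this
      have h3 : (0 : ℝ) < (Nat.card (Subgroup.centralizer ({x} : Set G)) : ℝ) := by
        exact_mod_cast Nat.card_pos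
      rw [← h2, mul_comm]
      exact mul_lt_mul_of_pos_left h1 h3
    rw [← Finset.mul_sum, hcl', Finset.sum_const, Finset.card_erase_of_mem (Finset.mem_univ _),
      Finset.card_univ, nsmul_eq_mul, ← Nat.card_eq_fintype_card] at hlt
    have hN1 : ((Nat.card G - 1 : ℕ) : ℝ) = (Nat.card G : ℝ) - 1 := by
      rw [Nat.cast_sub (by omega)]; simp
    rw [hN1] at hlt
    rw [hZcard] at hCS
    set Nr : ℝ := (Nat.card G : ℝ) with hNr'
    set kr : ℝ := (Nat.card (ConjClasses G) : ℝ) with hkr
    have hNpos : 0 < Nr := by linarith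
    have hN1pos : 0 < Nr - 1 := by linarith
    have h1 : α ^ 2 * (kr - 1) < Nr - 1 := by
      have : α ^ 2 * (kr - 1) * Nr < (Nr - 1) * Nr := by linarith
      exact lt_of_mul_lt_mul_right this hNpos.le
    have h2 : (Nr - 1) ^ 2 * (kr - 1) < (Nr - 1) * (t : ℝ) ^ 2 := by
      have ht0 : (0 : ℝ) < (t : ℝ) ^ 2 := by positivity
      have e : α ^ 2 * (t : ℝ) ^ 2 = (Nr - 1) ^ 2 := by rw [← mul_pow, hαt]
      have := mul_lt_mul_of_pos_right h1 ht0
      nlinarith
    have h3 := mul_le_mul_of_nonneg_left hCS hN1pos.le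
    nlinarith
  · -- (b)
    by_contra hb
    push Not at hb
    set r : Cfsg.IrrCharacter G → ℝ :=
      fun χ => if (∀ g : G, ((χ : G → ℂ) g).im = 0) then d χ else 0 with hr
    have hνr : ∀ χ : Cfsg.IrrCharacter G, ν χ * d χ ≤ r χ := by
      intro χ
      simp only [hr]
      split_ifs with h
      · have := hνle χ
        have := hd1 χ
        nlinarith
      · rw [hνreal χ h, zero_mul]
    have hr0 : ∀ χ : Cfsg.IrrCharacter G, 0 ≤ r χ := by
      intro χ
      simp only [hr]
      split_ifs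
      · have := hd1 χ; linarith
      · exact le_refl _
    have htle : (t : ℝ) ≤ ∑ χ ∈ Z, r χ := by
      rw [← H1']
      exact Finset.sum_le_sum (fun χ _ => hνr χ)
    have hle : ∀ χ ∈ Z, α * r χ ≤ d χ ^ 2 := by
      intro χ hχ
      simp only [hr]
      split_ifs with h
      · have h1 := hb χ (hne_triv χ hχ) h
        have h2 := hd1 χ
        simp only [hd] at h2 ⊢
        nlinarith
      · rw [mul_zero]; positivity
    have hex : ∃ χ ∈ Z, α * r χ < d χ ^ 2 := by
      by_contra hno
      push Not at hno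
      have hz : ∀ χ ∈ Z, r χ ≤ 0 := by
        intro χ hχ
        by_contra hpos
        push Not at hpos
        have hreal : ∀ g : G, ((χ : G → ℂ) g).im = 0 := by
          by_contra hnr
          simp only [hr, if_neg hnr] at hpos
          exact lt_irrefl _ hpos
        have h1 := hb χ (hne_triv χ hχ) hreal
        have h2 := hd1 χ
        have h3 := hno χ hχ
        simp only [hr, if_pos hreal, hd] at h3 h2
        nlinarith
      have : ∑ χ ∈ Z, r χ ≤ 0 := Finset.sum_nonpos hz
      linarith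
    have hlt := Finset.sum_lt_sum hle hex
    rw [← Finset.mul_sum, H2'] at hlt
    have : α * (t : ℝ) ≤ α * ∑ χ ∈ Z, r χ := mul_le_mul_of_nonneg_left htle hα0.le
    linarith

/-- Let G be a finite group of even order g with exactly t involutions, and put α = (g − 1)/t (a rational number). Then (a) some non-identity element x of G has at most α² conjugates; and (b) some non-principal real-valued irreducible character of G has degree at most α. -/
theorem result {G : Type*} [Group G] [Fintype G] (heven : Even (Nat.card G)) (t : ℕ) (ht : Nat.card {x : G // orderOf x = 2} = t) : (∃ x : G, x ≠ 1 ∧ ((Subgroup.centralizer ({x} : Set G)).index : ℚ) ≤ (((Nat.card G : ℚ) - 1) / t) ^ 2) ∧ ∃ χ : Cfsg.IrrCharacter G, (χ : G → ℂ) ≠ (fun _ => 1) ∧ (∀ g : G, ((χ : G → ℂ) g).im = 0) ∧ (Cfsg.charDegree (χ : G → ℂ) : ℚ) ≤ ((Nat.card G : ℚ) - 1) / t := by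
  obtain ⟨⟨x, hx1, hx⟩, ⟨χ, hχ1, hχ2, hχ3⟩⟩ := main heven t ht
  refine ⟨⟨x, hx1, ?_⟩, ⟨χ, hχ1, hχ2, ?_⟩⟩
  · have h : (((Subgroup.centralizer ({x} : Set G)).index : ℚ) : ℝ)
        ≤ (((((Nat.card G : ℚ) - 1) / t) ^ 2 : ℚ) : ℝ) := by
      push_cast
      exact hx
    exact_mod_cast h
  · have h : ((Cfsg.charDegree (χ : G → ℂ) : ℚ) : ℝ) ≤ ((((Nat.card G : ℚ) - 1) / t : ℚ) : ℝ) := by
      push_cast
      exact hχ3
    exact_mod_cast h

end Cfsg.Agent.S4476
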