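import Cfsg.Statements.S4478
import Cfsg.Agent.Helper24.FS
import Cfsg.Agent.Helper7.Defect
import Cfsg.Agent.Helper9.Klein2
import Cfsg.Agent.Helper25.CharArith
import Cfsg.Agent.Helper2.CharExtra

set_option autoImplicit false
open Cfsg

namespace Cfsg.Agent.S4478

open Cfsg.Agent.Helper25 Cfsg.Agent.Helper24 Cfsg.Agent.Helper7

/-- every prime lies in some maximal ideal of the algebraic integers -/
theorem s4478_exists_mod (p : ℕ) (hp : p.Prime) :
    ∃ M : Ideal Cfsg.AlgInt, Cfsg.IsPModular p M := by
  have hne : Ideal.span {(p : Cfsg.AlgInt)} ≠ ⊤ := by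
    intro h
    rw [Ideal.span_singleton_eq_top] at h
    obtain ⟨u, hu⟩ := h.exists_right_inv
    have h1 : (p : ℂ) * (u : ℂ) = 1 := by
      have := congrArg (Subtype.val : Cfsg.AlgInt → ℂ) hu
      simpa using this
    have hp0 : (p : ℂ) ≠ 0 := Nat.cast_ne_zero.mpr hp.ne_zero
    have hu_int : IsIntegral ℤ (u : ℂ) := u.2
    have hu_eq : (u : ℂ) = algebraMap ℚ ℂ ((p : ℚ)⁻¹) := by
      have : (u : ℂ) = (p : ℂ)⁻¹ := by
        field_simp
        linear_combination h1
      rw [this]
      simp
    rw [hu_eq] at hu_int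
    have h2 : IsIntegral ℤ ((p : ℚ)⁻¹) :=
      (isIntegral_algebraMap_iff (algebraMap ℚ ℂ).injective).mp hu_int
    obtain ⟨k, hk⟩ := IsIntegrallyClosed.isIntegral_iff.mp h2
    have hk' : (k : ℚ) * (p : ℚ) = 1 := by
      have hpq : (p : ℚ) ≠ 0 := Nat.cast_ne_zero.mpr hp.ne_zero
      have : (k : ℚ) = (p : ℚ)⁻¹ := by simpa using hk
      rw [this]
      field_simp
    have hk'' : k * (p : ℤ) = 1 := by exact_mod_cast hk'
    have hdvd : (p : ℤ) ∣ 1 := ⟨k, by linarith⟩
    have : p ∣ 1 := by exact_mod_cast hdvd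
    exact hp.one_lt.ne' (Nat.dvd_one.mp this)
  obtain ⟨M, hM, hle⟩ := Ideal.exists_le_maximal _ hne
  exact ⟨M, hp, hM, hle (Ideal.mem_span_singleton_self _)⟩

/-- an irreducible character whose degree is divisible by the full `p`-part of the group order
vanishes on `p`-singular elements -/
theorem s4478_vanish {G : Type*} [Group G] [Finite G] (χ : Cfsg.IrrCharacter G) (p : ℕ)
    (hp : p.Prime)
    (hd : p ^ (Nat.card G).factorization p ∣ Cfsg.charDegree (χ : G → ℂ)) (y : G)
    (hy : p ∣ orderOf y) : (χ : G → ℂ) y = 0 := by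
  obtain ⟨M, hM⟩ := s4478_exists_mod p hp
  apply irr_vanish_of_defect_zero hM χ _ y hy
  exact (hp.pow_dvd_iff_le_factorization (irr_degree_pos χ).ne').mp hd

/-- squaring permutes the elements of odd order -/
theorem s4478_sum_sq {G : Type*} [Group G] [Fintype G] [DecidableEq G] (f : G → ℂ) :
    ∑ g ∈ Finset.univ.filter (fun g : G => ¬ 2 ∣ orderOf g), f (g * g)
      = ∑ g ∈ Finset.univ.filter (fun g : G => ¬ 2 ∣ orderOf g), f g := by
  have hsq : ∀ g : G, ¬ 2 ∣ orderOf g → orderOf (g * g) = orderOf g := by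
    intro g hg
    rw [← pow_two]
    apply Nat.Coprime.orderOf_pow
    exact ((Nat.Prime.coprime_iff_not_dvd Nat.prime_two).mpr hg).symm
  have hpow : ∀ g : G, ¬ 2 ∣ orderOf g → g ^ (2 * ((orderOf g + 1) / 2)) = g := by
    intro g hg
    have h1 : 2 * ((orderOf g + 1) / 2) = orderOf g + 1 := by omega
    rw [h1, pow_succ, pow_orderOf_eq_one, one_mul]
  apply Finset.sum_nbij' (fun g => g * g) (fun h => h ^ ((orderOf h + 1) / 2))
  · intro g hg
    rw [Finset.mem_filter] at hg ⊢
    refine ⟨Finset.mem_univ _, ?_⟩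
    rw [hsq g hg.2]
    exact hg.2
  · intro h hh
    rw [Finset.mem_filter] at hh ⊢
    refine ⟨Finset.mem_univ _, ?_⟩
    intro h2
    exact hh.2 (h2.trans (orderOf_pow_dvd _))
  · intro g hg
    rw [Finset.mem_filter] at hg
    show (g * g) ^ ((orderOf (g * g) + 1) / 2) = g
    rw [hsq g hg.2, ← pow_two, ← pow_mul]
    exact hpow g hg.2
  · intro h hh
    rw [Finset.mem_filter] at hh
    show h ^ ((orderOf h + 1) / 2) * h ^ ((orderOf h + 1) / 2) = h
    rw [← pow_add, ← two_mul]
    exact hpow h hh.2
  · intro g _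
    rfl

/-- if `g` has even order and `g² ≠ 1` then either `4 ∣ o(g)` or some odd prime `p` divides
`o(g²)` and `G` has an element of order `2p` -/
theorem s4478_even_sq {G : Type*} [Group G] [Finite G] (g : G) (hg : 2 ∣ orderOf g)
    (hne : g * g ≠ 1) :
    2 ∣ orderOf (g * g) ∨ ∃ p : ℕ, p.Prime ∧ p ≠ 2 ∧ p ∣ orderOf (g * g) ∧
      ∃ y : G, orderOf y = 2 * p := by
  obtain ⟨m, hm⟩ := hg
  have hpos : 0 < orderOf g := orderOf_pos g
  have hm0 : m ≠ 0 := by
    rintro rfl
    omega
  have hord : orderOf (g * g) = m := by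
    rw [← pow_two, orderOf_pow_of_dvd (by norm_num) ⟨m, hm⟩, hm]
    exact Nat.mul_div_cancel_left m (by norm_num)
  by_cases h2 : 2 ∣ m
  · left
    rw [hord]
    exact h2
  · right
    have hm1 : m ≠ 1 := by
      intro h1
      apply hne
      rw [← orderOf_eq_one_iff, hord, h1]
    obtain ⟨k, hk⟩ : m.minFac ∣ m := Nat.minFac_dvd m
    have hpr : m.minFac.Prime := Nat.minFac_prime hm1
    have hk0 : k ≠ 0 := by
      rintro rfl
      rw [mul_zero] at hk
      exact hm0 hk
    refine ⟨m.minFac, hpr, ?_, ?_, g ^ k, ?_⟩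
    · intro h
      exact h2 (h ▸ Nat.minFac_dvd m)
    · rw [hord]
      exact Nat.minFac_dvd m
    · have hkd : k ∣ orderOf g := by
        rw [hm]
        exact Dvd.dvd.mul_left ⟨m.minFac, by rw [mul_comm]; exact hk⟩ 2
      rw [orderOf_pow_of_dvd hk0 hkd, hm]
      have : 2 * m = (2 * m.minFac) * k := by rw [mul_assoc, ← hk]
      rw [this]
      exact Nat.mul_div_cancel _ (Nat.pos_of_ne_zero hk0)

/-- a nonidentity element of odd order commuting with an involution `s`: some prime `p ≠ 2`
divides its order and `G` has an element of order `2p` -/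
theorem s4478_cent {G : Type*} [Group G] [Finite G] (s c : G) (hs : orderOf s = 2)
    (hc : c * s = s * c) (hc1 : c ≠ 1) (hodd : ¬ 2 ∣ orderOf c) :
    ∃ p : ℕ, p.Prime ∧ p ≠ 2 ∧ p ∣ orderOf c ∧ ∃ y : G, orderOf y = 2 * p := by
  have hpos : 0 < orderOf c := orderOf_pos c
  have hn1 : orderOf c ≠ 1 := by
    intro h
    exact hc1 (orderOf_eq_one_iff.mp h)
  have hpr : (orderOf c).minFac.Prime := Nat.minFac_prime hn1
  have hdvd : (orderOf c).minFac ∣ orderOf c := Nat.minFac_dvd _
  have hp2 : (orderOf c).minFac ≠ 2 := by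
    intro h
    exact hodd (h ▸ hdvd)
  refine ⟨(orderOf c).minFac, hpr, hp2, hdvd, s * c ^ (orderOf c / (orderOf c).minFac), ?_⟩
  have ho : orderOf (c ^ (orderOf c / (orderOf c).minFac)) = (orderOf c).minFac :=
    orderOf_pow_orderOf_div hpos.ne' hdvd
  have hcomm : Commute s (c ^ (orderOf c / (orderOf c).minFac)) :=
    Commute.pow_right hc.symm _
  rw [hcomm.orderOf_mul_eq_mul_orderOf_of_coprime, hs, ho]
  rw [hs, ho]
  exact (Nat.coprime_primes Nat.prime_two hpr).mpr (Ne.symm hp2)

/-- Let G be a finite group of even order and χ an irreducible character of G whose degree x is divisible by the full power of 2 dividing the order of G and, for every odd prime p such that G has an element of order 2p, by the full power of p dividing the order of G. Then all involutions of G are conjugate, the centralizer of every involution has order exactly x with x coprime to its index, and the Frobenius–Schur indicator of χ equals 1. -/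
theorem result {G : Type*} [Group G] [Fintype G] (heven : Even (Nat.card G)) (χ : Cfsg.IrrCharacter G) (h2 : 2 ^ (Nat.card G).factorization 2 ∣ Cfsg.charDegree (χ : G → ℂ)) (hp : ∀ p : ℕ, p.Prime → p ≠ 2 → (∃ g : G, orderOf g = 2 * p) → p ^ (Nat.card G).factorization p ∣ Cfsg.charDegree (χ : G → ℂ)) : (∀ s t : G, orderOf s = 2 → orderOf t = 2 → IsConj s t) ∧ (∀ s : G, orderOf s = 2 → Nat.card (Subgroup.centralizer ({s} : Set G)) = Cfsg.charDegree (χ : G → ℂ) ∧ (Nat.card (Subgroup.centralizer ({s} : Set G))).Coprime (Subgroup.centralizer ({s} : Set G)).index) ∧ (Nat.card G : ℂ)⁻¹ * ∑ g : G, (χ : G → ℂ) (g * g) = 1 := by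
  classical
  obtain ⟨x, hx⟩ : ∃ x, x = Cfsg.charDegree (χ : G → ℂ) := ⟨_, rfl⟩
  have hxpos : 0 < x := hx ▸ irr_degree_pos χ
  have hχ1 : (χ : G → ℂ) 1 = (x : ℂ) := by rw [hx]; exact irr_one_eq_degree χ
  have hGpos : 0 < Nat.card G := Nat.card_pos
  have h2G : 2 ∣ Nat.card G := even_iff_two_dvd.mp heven
  have hf2 : 0 < (Nat.card G).factorization 2 :=
    Nat.prime_two.factorization_pos_of_dvd hGpos.ne' h2G
  have hxeven : 2 ∣ x := by
    rw [hx]
    exact dvd_trans (dvd_pow_self 2 hf2.ne') h2
  have hV2 : ∀ y : G, 2 ∣ orderOf y → (χ : G → ℂ) y = 0 :=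
    fun y hy => s4478_vanish χ 2 Nat.prime_two h2 y hy
  have hVp : ∀ p : ℕ, p.Prime → p ≠ 2 → (∃ g : G, orderOf g = 2 * p) →
      ∀ y : G, p ∣ orderOf y → (χ : G → ℂ) y = 0 :=
    fun p hpp hp2 hex y hy => s4478_vanish χ p hpp (hp p hpp hp2 hex) y hy
  -- values on centralizers of involutions
  have hK2 : ∀ s c : G, orderOf s = 2 → c * s = s * c → c ≠ 1 → (χ : G → ℂ) c = 0 := by
    intro s c hs hc hc1
    by_cases h2c : 2 ∣ orderOf c
    · exact hV2 c h2c
    · obtain ⟨p, hpp, hp2, hpc, hex⟩ := s4478_cent s c hs hc hc1 h2c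
      exact hVp p hpp hp2 hex c hpc
  have hK3 : ∀ s : G, orderOf s = 2 →
      Nat.card (Subgroup.centralizer ({s} : Set G)) ∣ x := by
    intro s hs
    obtain ⟨m, hm⟩ := irr_sum_subgroup χ (Subgroup.centralizer ({s} : Set G))
    have h1 : ∑ u : Subgroup.centralizer ({s} : Set G), (χ : G → ℂ) (u : G) = (χ : G → ℂ) 1 := by
      rw [Finset.sum_eq_single (1 : Subgroup.centralizer ({s} : Set G))]
      · rfl
      · intro u _ hu
        apply hK2 s (u : G) hs
        · exact Subgroup.mem_centralizer_iff.mp u.2 s rfl |>.symm ▸ rfl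
        · intro h
          exact hu (Subtype.ext h)
      · intro h'
        exact absurd (Finset.mem_univ _) h'
    rw [h1, hχ1] at hm
    refine ⟨m, ?_⟩
    exact_mod_cast hm
  -- the Frobenius–Schur sum
  obtain ⟨t, ht⟩ : ∃ t, t = (Finset.univ.filter (fun g : G => orderOf g = 2)).card := ⟨_, rfl⟩
  have hsum0 : ∑ g : G, (χ : G → ℂ) g = 0 := by
    have hne : χ ≠ trivChar G := by
      intro h
      have h1 : (χ : G → ℂ) 1 = 1 := by rw [h]; rfl
      rw [hχ1] at h1
      have : x = 1 := by exact_mod_cast h1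
      omega
    have h1 := Cfsg.Agent.Helper2.classInner_irr_irr χ (trivChar G)
    rw [if_neg hne] at h1
    unfold Cfsg.classInner at h1
    have hG : (Nat.card G : ℂ)⁻¹ ≠ 0 := inv_ne_zero (Nat.cast_ne_zero.mpr hGpos.ne')
    have h2 := (mul_eq_zero.mp h1).resolve_left hG
    rw [← h2]
    apply Finset.sum_congr rfl
    intro g _
    rw [trivChar_apply, map_one, mul_one]
  have hsumodd : ∑ g ∈ Finset.univ.filter (fun g : G => ¬ 2 ∣ orderOf g), (χ : G → ℂ) g = 0 := by
    have h1 := Finset.sum_filter_add_sum_filter_not Finset.univ (fun g : G => 2 ∣ orderOf g)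
      (fun g => (χ : G → ℂ) g)
    rw [hsum0] at h1
    have h2 : ∑ g ∈ Finset.univ.filter (fun g : G => 2 ∣ orderOf g), (χ : G → ℂ) g = 0 := by
      apply Finset.sum_eq_zero
      intro g hg
      exact hV2 g (Finset.mem_filter.mp hg).2
    rw [h2, zero_add] at h1
    exact h1
  have hFS : ∑ g : G, (χ : G → ℂ) (g * g) = (t : ℂ) * (x : ℂ) := by
    rw [← Finset.sum_filter_add_sum_filter_not Finset.univ (fun g : G => 2 ∣ orderOf g)
      (fun g => (χ : G → ℂ) (g * g)), s4478_sum_sq (fun g => (χ : G → ℂ) g), hsumodd, add_zero]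
    have h1 : ∀ g ∈ Finset.univ.filter (fun g : G => 2 ∣ orderOf g),
        (χ : G → ℂ) (g * g) = if orderOf g = 2 then (x : ℂ) else 0 := by
      intro g hg
      have hg2 := (Finset.mem_filter.mp hg).2
      by_cases ho : orderOf g = 2
      · rw [if_pos ho]
        have : g * g = 1 := by
          rw [← pow_two, ← ho, pow_orderOf_eq_one]
        rw [this, hχ1]
      · rw [if_neg ho]
        have hne : g * g ≠ 1 := by
          intro h
          apply ho
          have h3 : orderOf g ∣ 2 := by
            apply orderOf_dvd_of_pow_eq_one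
            rw [pow_two]
            exact h
          have h4 : orderOf g ≤ 2 := Nat.le_of_dvd (by norm_num) h3
          have h5 := Nat.le_of_dvd (orderOf_pos g) hg2
          omega
        rcases s4478_even_sq g hg2 hne with h | ⟨p, hpp, hp2, hpd, hex⟩
        · exact hV2 _ h
        · exact hVp p hpp hp2 hex _ hpd
    rw [Finset.sum_congr rfl h1, Finset.sum_ite, Finset.sum_const_zero, add_zero,
      Finset.sum_const, nsmul_eq_mul, Finset.filter_filter]
    congr 2
    rw [ht]
    congr 1
    ext g
    simp only [Finset.mem_filter, Finset.mem_univ, true_and]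
    constructor
    · intro h
      exact h.2
    · intro h
      exact ⟨by rw [h], h⟩
  -- existence of an involution
  haveI : Fact (Nat.Prime 2) := ⟨Nat.prime_two⟩
  obtain ⟨s₀, hs₀⟩ := exists_prime_orderOf_dvd_card' 2 h2G
  have htpos : 0 < t := by
    rw [ht]
    exact Finset.card_pos.mpr ⟨s₀, Finset.mem_filter.mpr ⟨Finset.mem_univ _, hs₀⟩⟩
  have hfs : fsInd (χ : G → ℂ) = (Nat.card G : ℂ)⁻¹ * ((t : ℂ) * (x : ℂ)) := by
    unfold fsInd
    rw [hFS]
  have hGne : (Nat.card G : ℂ) ≠ 0 := Nat.cast_ne_zero.mpr hGpos.ne'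
  have htx : t * x = Nat.card G ∧ fsInd (χ : G → ℂ) = 1 := by
    rcases fsInd_cases χ with h | h
    · exfalso
      rw [hfs] at h
      have h1 := (mul_eq_zero.mp h.1).resolve_left (inv_ne_zero hGne)
      have h2 : t * x = 0 := by exact_mod_cast h1
      rcases Nat.mul_eq_zero.mp h2 with h3 | h3 <;> omega
    · rcases h.1 with h1 | h1
      · refine ⟨?_, h1⟩
        rw [hfs] at h1
        have h2 : (t : ℂ) * (x : ℂ) = (Nat.card G : ℂ) := by
          field_simp at h1
          linear_combination h1
        exact_mod_cast h2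
      · exfalso
        rw [hfs] at h1
        have h2 : (t : ℂ) * (x : ℂ) + (Nat.card G : ℂ) = 0 := by
          field_simp at h1
          linear_combination h1
        have h3 : t * x + Nat.card G = 0 := by exact_mod_cast h2
        omega
  obtain ⟨htx, hfs1⟩ := htx
  -- each involution
  have hmain : ∀ s : G, orderOf s = 2 →
      Nat.card (Subgroup.centralizer ({s} : Set G)) = x ∧
      Finset.univ.filter (fun g : G => IsConj s g) = Finset.univ.filter (fun g : G => orderOf g = 2) := by
    intro s hs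
    have hcl := Cfsg.Agent.Helper9.card_conj_mul_centralizer_h9 s
    have hsub : Finset.univ.filter (fun g : G => IsConj s g)
        ⊆ Finset.univ.filter (fun g : G => orderOf g = 2) := by
      intro g hg
      rw [Finset.mem_filter] at hg ⊢
      refine ⟨Finset.mem_univ _, ?_⟩
      obtain ⟨c, hc⟩ := isConj_iff.mp hg.2
      rw [← hc, orderOf_conj_eq, hs] -- conj order
    have hclcard : Nat.card {y : G // IsConj s y}
        = (Finset.univ.filter (fun g : G => IsConj s g)).card := by
      rw [Nat.card_eq_fintype_card, Fintype.card_subtype]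
    rw [hclcard] at hcl
    have hle1 : (Finset.univ.filter (fun g : G => IsConj s g)).card ≤ t := by
      rw [ht]
      exact Finset.card_le_card hsub
    obtain ⟨m, hm⟩ := hK3 s hs
    have hCpos : 0 < Nat.card (Subgroup.centralizer ({s} : Set G)) := Nat.card_pos
    have hle2 : Nat.card (Subgroup.centralizer ({s} : Set G)) ≤ x := Nat.le_of_dvd hxpos ⟨m, hm⟩
    have hC : Nat.card (Subgroup.centralizer ({s} : Set G)) = x := by
      by_contra hne
      have hlt : Nat.card (Subgroup.centralizer ({s} : Set G)) < x := lt_of_le_of_ne hle2 hne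
      have h1 : (Finset.univ.filter (fun g : G => IsConj s g)).card *
          Nat.card (Subgroup.centralizer ({s} : Set G)) < t * x := by
        calc (Finset.univ.filter (fun g : G => IsConj s g)).card *
            Nat.card (Subgroup.centralizer ({s} : Set G))
            ≤ t * Nat.card (Subgroup.centralizer ({s} : Set G)) := Nat.mul_le_mul_right _ hle1
          _ < t * x := Nat.mul_lt_mul_of_pos_left hlt htpos
      omega
    refine ⟨hC, ?_⟩
    apply Finset.eq_of_subset_of_card_le hsub
    rw [hC] at hcl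
    rw [← ht]
    have h1 : (Finset.univ.filter (fun g : G => IsConj s g)).card * x = t * x := by
      rw [hcl, htx]
    exact le_of_eq (Nat.eq_of_mul_eq_mul_right hxpos h1).symm
  refine ⟨?_, ?_, hfs1⟩
  · intro s u hs hu
    have h1 := (hmain s hs).2
    have h2 : u ∈ Finset.univ.filter (fun g : G => orderOf g = 2) :=
      Finset.mem_filter.mpr ⟨Finset.mem_univ _, hu⟩
    rw [← h1] at h2
    exact (Finset.mem_filter.mp h2).2
  · intro s hs
    have hC := (hmain s hs).1
    rw [← hx]
    refine ⟨hC, ?_⟩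
    rw [hC]
    have hidx : x * (Subgroup.centralizer ({s} : Set G)).index = Nat.card G := by
      rw [← hC]
      exact Subgroup.card_mul_index _
    apply Nat.coprime_of_dvd
    intro p hpp hpx hpi
    have hipos : (Subgroup.centralizer ({s} : Set G)).index ≠ 0 := by
      intro h0
      rw [h0, mul_zero] at hidx
      omega
    have hfac : (Nat.card G).factorization p = x.factorization p +
        ((Subgroup.centralizer ({s} : Set G)).index).factorization p := by
      rw [← hidx, Nat.factorization_mul hxpos.ne' hipos]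
      rfl
    have h1 : 0 < ((Subgroup.centralizer ({s} : Set G)).index).factorization p :=
      hpp.factorization_pos_of_dvd hipos hpi
    have hfull : p ^ (Nat.card G).factorization p ∣ x := by
      by_cases hp2 : p = 2
      · subst hp2
        rw [hx]
        exact h2
      · rw [hx]
        apply hp p hpp hp2
        haveI : Fact p.Prime := ⟨hpp⟩
        have hpC : p ∣ Nat.card (Subgroup.centralizer ({s} : Set G)) := by
          rw [hC]
          exact hpx
        obtain ⟨c, hc⟩ := exists_prime_orderOf_dvd_card' p hpC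
        refine ⟨s * (c : G), ?_⟩
        have hcomm : Commute s (c : G) :=
          (Subgroup.mem_centralizer_iff.mp c.2 s rfl)
        rw [hcomm.orderOf_mul_eq_mul_orderOf_of_coprime, hs, Subgroup.orderOf_coe, hc]
        rw [hs, Subgroup.orderOf_coe, hc]
        exact (Nat.coprime_primes Nat.prime_two hpp).mpr (Ne.symm hp2)
    have h3 := (hpp.pow_dvd_iff_le_factorization hxpos.ne').mp hfull
    omega

end Cfsg.Agent.S4478
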