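import Cfsg.Statements.S4708
import Mathlib
import Cfsg.Agent.Helper7.ThirdMain
import Cfsg.Agent.Helper2.ChiefFactor
import Cfsg.Agent.Helper2.IndExtra
import Cfsg.Agent.Helper2.IndNormal

set_option autoImplicit false
open Cfsg

namespace Cfsg.Agent.S4708

open Cfsg.Agent.Helper25 Cfsg.Agent.Helper7 Cfsg.Agent.Helper2
open scoped ComplexConjugate

universe u

theorem regInd_real {X : Type u} [Group X] {p : ℕ} (x : X) :
    conj (regInd p X x) = regInd p X x := by
  by_cases h : p ∣ orderOf x
  · rw [regInd_sing h, map_zero]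
  · rw [regInd_reg h, map_one]

/-- A character lies in the principal block iff its sum over the `p`-regular elements is
nonzero. -/
theorem mem_principal_iff_sum {X : Type u} [Group X] [Fintype X] {p : ℕ} [Fact p.Prime]
    {M : Ideal AlgInt} (hM : IsPModular p M) (θ : IrrCharacter X) :
    θ ∈ principalBlock M X ↔ ∑ x : X, regInd p X x * (θ : X → ℂ) x ≠ 0 := by
  constructor
  · intro h hs
    apply not_li_omega_regInd hM h
    unfold omega
    rw [hs, zero_div]
    exact li_zero hM
  · intro hs
    by_contra h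
    have h0 := omega_regInd_of_not_mem hM h
    unfold omega at h0
    rcases div_eq_zero_iff.mp h0 with h1 | h1
    · exact hs h1
    · exact irr_one_ne_zero θ h1

theorem res_sum_ne_zero {G : Type u} [Group G] [Fintype G] {p : ℕ} [Fact p.Prime]
    {M : Ideal AlgInt} (hM : IsPModular p M) (H : Subgroup G) [hH : H.Normal] [Fintype H]
    (χ : IrrCharacter G) (hχ : χ ∈ principalBlock M G) :
    ∑ h : H, regInd p H h * (χ : G → ℂ) h ≠ 0 := by
  classical
  obtain ⟨f, hf⟩ : ∃ f : G → ℂ, f = extendByZero H (regInd p H) := ⟨_, rfl⟩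
  have hfconj : ∀ g x : G, f (x * g * x⁻¹) = f g := by
    intro g x
    by_cases hg : g ∈ H
    · have hg' : x * g * x⁻¹ ∈ H := hH.conj_mem g hg x
      rw [hf, extendByZero_of_mem H _ hg', extendByZero_of_mem H _ hg, ← regInd_coe,
        ← regInd_coe]
      exact regInd_conj g x
    · have hg' : x * g * x⁻¹ ∉ H := by
        intro h
        apply hg
        have := hH.conj_mem _ h x⁻¹
        simpa [mul_assoc] using this
      rw [hf, extendByZero_of_not_mem H _ hg', extendByZero_of_not_mem H _ hg]
  have hflr : ∀ g, MemLocalRing M (f g) := by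
    intro g
    by_cases hg : g ∈ H
    · rw [hf, extendByZero_of_mem H _ hg]; exact regInd_lr hM _
    · rw [hf, extendByZero_of_not_mem H _ hg]; exact lr_zero hM
  have hs : SameBlock M (χ : G → ℂ) ((trivChar G : IrrCharacter G) : G → ℂ) :=
    sameBlock_symm hχ
  have h1 := omega_congr hM f hfconj hflr hs
  have h2 : omega f (trivChar G) = (Nat.card {y : H // ¬ p ∣ orderOf y} : ℂ) := by
    unfold omega
    rw [← sum_regInd]
    simp only [trivChar_apply, mul_one, div_one]
    rw [hf]
    exact sum_extendByZero H _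
  rw [h2] at h1
  have h3 : omega f χ = (∑ h : H, regInd p H h * (χ : G → ℂ) h) / (χ : G → ℂ) 1 := by
    unfold omega
    rw [hf, sum_extendByZero_mul]
  intro h0
  rw [h3, h0, zero_div, zero_sub] at h1
  have h4 := li_neg h1
  rw [neg_neg] at h4
  exact card_pRegular_not_dvd p H ((li_natCast_iff hM _).mp h4)

theorem sum_conjChar {G : Type u} [Group G] {p : ℕ} (H : Subgroup G) [hH : H.Normal]
    [Fintype H] (θ : H → ℂ) (k : G) :
    ∑ h : H, regInd p H h * conjChar H θ k h = ∑ h : H, regInd p H h * θ h := by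
  refine Fintype.sum_equiv (MulAut.conjNormal k : H ≃* H).toEquiv _ _ (fun h => ?_)
  simp only [conjChar_apply]
  have e : (⟨k * (h : G) * k⁻¹, hH.conj_mem h h.2 k⟩ : H) =
      (MulAut.conjNormal k : H ≃* H).toEquiv h := by
    apply Subtype.ext
    simp [MulAut.conjNormal_apply]
  rw [← e]
  congr 1
  rw [← regInd_coe, ← regInd_coe]
  exact (regInd_conj (h : G) k).symm

/-- Every member of the principal block of `H` lies under a member of the principal block
of `G`. -/
theorem exists_over {G : Type u} [Group G] [Fintype G] {p : ℕ} [Fact p.Prime]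
    {M : Ideal AlgInt} (hM : IsPModular p M) (H : Subgroup G) [Fintype H]
    (θ : IrrCharacter H) (hθ : θ ∈ principalBlock M H) :
    ∃ χ : IrrCharacter G, χ ∈ principalBlock M G ∧
      classInner (fun h : H => (χ : G → ℂ) h) (θ : H → ℂ) ≠ 0 := by
  classical
  by_contra hcon
  push Not at hcon
  have hs := (mem_principal_iff_sum hM θ).mp hθ
  apply hs
  have hcl : IsClassFunction G (regInd p G) := fun g h => regInd_conj g h
  have hexp := classFun_eq_sum_classInner hcl
  have h1 : ∑ h : H, regInd p H h * conj ((θ : H → ℂ) h) = 0 := by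
    have h2 : ∀ h : H, regInd p H h = ∑ χ : IrrCharacter G,
        classInner (regInd p G) (χ : G → ℂ) * (χ : G → ℂ) h := by
      intro h
      rw [← regInd_coe]
      have := congrFun hexp (h : G)
      rw [Finset.sum_apply] at this
      exact this
    simp only [h2, Finset.sum_mul]
    rw [Finset.sum_comm]
    refine Finset.sum_eq_zero fun χ _ => ?_
    by_cases hχ : χ ∈ principalBlock M G
    · have h3 := hcon χ hχ
      unfold classInner at h3
      have h4 : ∑ h : H, (χ : G → ℂ) h * conj ((θ : H → ℂ) h) = 0 := by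
        rcases mul_eq_zero.mp h3 with h5 | h5
        · exact absurd h5 (inv_ne_zero card_ne_zero)
        · exact h5
      calc ∑ h : H, classInner (regInd p G) (χ : G → ℂ) * (χ : G → ℂ) h * conj ((θ : H → ℂ) h)
          = classInner (regInd p G) (χ : G → ℂ) *
              ∑ h : H, (χ : G → ℂ) h * conj ((θ : H → ℂ) h) := by
            rw [Finset.mul_sum]; exact Finset.sum_congr rfl fun h _ => by ring
        _ = 0 := by rw [h4, mul_zero]
    · have hc : classInner (regInd p G) (χ : G → ℂ) = 0 := by
        have h0 := omega_regInd_of_not_mem hM hχ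
        unfold omega at h0
        have h5 : ∑ g : G, regInd p G g * (χ : G → ℂ) g = 0 := by
          rcases div_eq_zero_iff.mp h0 with h6 | h6
          · exact h6
          · exact absurd h6 (irr_one_ne_zero χ)
        unfold classInner
        have h7 : ∑ g : G, regInd p G g * conj ((χ : G → ℂ) g)
            = conj (∑ g : G, regInd p G g * (χ : G → ℂ) g) := by
          rw [map_sum]
          refine Finset.sum_congr rfl fun g _ => ?_
          rw [map_mul, regInd_real]
        rw [h7, h5, map_zero, mul_zero]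
      refine Finset.sum_eq_zero fun h _ => ?_
      rw [hc, zero_mul, zero_mul]
  have h8 : ∑ h : H, regInd p H h * (θ : H → ℂ) h
      = conj (∑ h : H, regInd p H h * conj ((θ : H → ℂ) h)) := by
    rw [map_sum]
    refine Finset.sum_congr rfl fun h _ => ?_
    rw [map_mul, Complex.conj_conj, regInd_real]
  rw [h8, h1, map_zero]

/-- A constituent of the restriction of a principal block character to a normal subgroup lies
in the principal block. -/
theorem mem_of_under {G : Type u} [Group G] [Fintype G] {p : ℕ} [Fact p.Prime]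
    {M : Ideal AlgInt} (hM : IsPModular p M) (H : Subgroup G) [hH : H.Normal] [Fintype H]
    (χ : IrrCharacter G) (hχ : χ ∈ principalBlock M G) (θ : IrrCharacter H)
    (hθ : classInner (fun h : H => (χ : G → ℂ) h) (θ : H → ℂ) ≠ 0) :
    θ ∈ principalBlock M H := by
  classical
  obtain ⟨a, -, ha⟩ := clifford_orbit H χ θ hθ
  have h1 := res_sum_ne_zero hM H χ hχ
  rw [mem_principal_iff_sum hM]
  intro h0
  apply h1
  have h2 : ∀ h : H, (χ : G → ℂ) h = (a : ℂ) * ∑ ξ ∈ Finset.univ.filter
      (fun ξ : IrrCharacter H => ∃ k : G, (ξ : H → ℂ) = conjChar H (θ : H → ℂ) k),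
      (ξ : H → ℂ) h := by
    intro h
    have := congrFun ha h
    rw [Pi.smul_apply, Finset.sum_apply, smul_eq_mul] at this
    exact this
  simp only [h2, Finset.mul_sum]
  rw [Finset.sum_comm]
  refine Finset.sum_eq_zero fun ξ hξ => ?_
  obtain ⟨k, hk⟩ := (Finset.mem_filter.mp hξ).2
  have h3 : ∑ h : H, regInd p H h * ((a : ℂ) * (ξ : H → ℂ) h)
      = (a : ℂ) * ∑ h : H, regInd p H h * (ξ : H → ℂ) h := by
    rw [Finset.mul_sum]; exact Finset.sum_congr rfl fun h _ => by ring
  rw [h3, hk, sum_conjChar, h0, mul_zero]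

/-- Let p be a prime, M a maximal ideal of the algebraic integers containing p, G a finite group and H a normal subgroup. Write λ(X) for the sum of the squares of the degrees of the irreducible characters in the principal p-block of a group X. Then λ(H) ≤ λ(G) ≤ [G : H]·λ(H). -/
theorem result {G : Type*} [Group G] [Finite G] (p : ℕ) [Fact p.Prime] (M : Ideal Cfsg.AlgInt) (hM : Cfsg.IsPModular p M) (H : Subgroup G) [H.Normal] : (∑ᶠ θ ∈ Cfsg.principalBlock M H, Cfsg.charDegree (θ : H → ℂ) ^ 2) ≤ (∑ᶠ χ ∈ Cfsg.principalBlock M G, Cfsg.charDegree (χ : G → ℂ) ^ 2) ∧ (∑ᶠ χ ∈ Cfsg.principalBlock M G, Cfsg.charDegree (χ : G → ℂ) ^ 2) ≤ H.index * ∑ᶠ θ ∈ Cfsg.principalBlock M H, Cfsg.charDegree (θ : H → ℂ) ^ 2 := by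
  classical
  haveI := Fintype.ofFinite G
  rw [finsum_mem_eq_finite_toFinset_sum _ (Set.toFinite _),
    finsum_mem_eq_finite_toFinset_sum _ (Set.toFinite _)]
  obtain ⟨BG, hBG⟩ : ∃ B : Finset (IrrCharacter G),
      B = (Set.toFinite (principalBlock M G)).toFinset := ⟨_, rfl⟩
  obtain ⟨BH, hBH⟩ : ∃ B : Finset (IrrCharacter H),
      B = (Set.toFinite (principalBlock M H)).toFinset := ⟨_, rfl⟩
  rw [← hBG, ← hBH]
  have hmemG : ∀ χ : IrrCharacter G, χ ∈ BG ↔ χ ∈ principalBlock M G := by
    intro χ; rw [hBG]; exact Set.Finite.mem_toFinset _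
  have hmemH : ∀ θ : IrrCharacter H, θ ∈ BH ↔ θ ∈ principalBlock M H := by
    intro θ; rw [hBH]; exact Set.Finite.mem_toFinset _
  have hm : ∀ (χ : IrrCharacter G) (θ : IrrCharacter H), ∃ m : ℕ,
      classInner (fun h : H => (χ : G → ℂ) h) (θ : H → ℂ) = (m : ℂ) := fun χ θ =>
    classInner_char_nat (isCharacter_restrict H (isCharacter_of_isIrrCharacter χ.2))
      (isCharacter_of_isIrrCharacter θ.2)
  choose m hm using hm
  have hdeg : ∀ χ : IrrCharacter G, charDegree (χ : G → ℂ)
      = ∑ θ : IrrCharacter H, m χ θ * charDegree (θ : H → ℂ) := by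
    intro χ
    have hcl : IsClassFunction H (fun h : H => (χ : G → ℂ) h) :=
      isClassFunction_of_isCharacter
        (isCharacter_restrict H (isCharacter_of_isIrrCharacter χ.2))
    have h1 := congrFun (classFun_eq_sum_classInner hcl) 1
    simp only [Finset.sum_apply, Pi.smul_apply, smul_eq_mul, hm, Subgroup.coe_one,
      irr_one_eq_degree] at h1
    exact_mod_cast h1
  have hfrob : ∀ θ : IrrCharacter H, ∑ χ : IrrCharacter G, m χ θ * charDegree (χ : G → ℂ)
      = H.index * charDegree (θ : H → ℂ) := by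
    intro θ
    have hcl := indFun_isClassFunction H (θ : H → ℂ)
    have h1 := congrFun (classFun_eq_sum_classInner hcl) 1
    simp only [Finset.sum_apply, Pi.smul_apply, smul_eq_mul] at h1
    rw [indFun_one_apply] at h1
    have h2 : ∀ χ : IrrCharacter G,
        classInner (indFun H (θ : H → ℂ)) (χ : G → ℂ) = (m χ θ : ℂ) := by
      intro χ
      rw [frobenius_reciprocity H _ _
        (isClassFunction_of_isCharacter (isCharacter_of_isIrrCharacter χ.2)),
        classInner_conj_symm, hm, Complex.conj_natCast]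
    simp only [h2, irr_one_eq_degree] at h1
    exact_mod_cast h1.symm
  have hzero : ∀ χ ∈ BG, ∀ θ : IrrCharacter H, θ ∉ BH → m χ θ = 0 := by
    intro χ hχ θ hθ
    by_contra hne
    apply hθ
    rw [hmemH]
    refine mem_of_under hM H χ ((hmemG χ).mp hχ) θ ?_
    rw [hm]
    exact_mod_cast hne
  have hI : ∑ χ ∈ BG, charDegree (χ : G → ℂ) ^ 2
      = ∑ θ ∈ BH, charDegree (θ : H → ℂ) * ∑ χ ∈ BG, m χ θ * charDegree (χ : G → ℂ) := by
    calc ∑ χ ∈ BG, charDegree (χ : G → ℂ) ^ 2
        = ∑ χ ∈ BG, charDegree (χ : G → ℂ) * ∑ θ ∈ BH, m χ θ * charDegree (θ : H → ℂ) := by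
          refine Finset.sum_congr rfl fun χ hχ => ?_
          rw [sq]
          congr 1
          rw [hdeg χ]
          symm
          apply Finset.sum_subset (Finset.subset_univ _)
          intro θ _ hθ
          rw [hzero χ hχ θ hθ, zero_mul]
      _ = ∑ θ ∈ BH, charDegree (θ : H → ℂ) * ∑ χ ∈ BG, m χ θ * charDegree (χ : G → ℂ) := by
          simp only [Finset.mul_sum]
          rw [Finset.sum_comm]
          exact Finset.sum_congr rfl fun θ _ => Finset.sum_congr rfl fun χ _ => by ring
  rw [hI]
  constructor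
  · refine Finset.sum_le_sum fun θ hθ => ?_
    rw [sq]
    apply Nat.mul_le_mul_left
    obtain ⟨χ₀, hχ₀, hne⟩ := exists_over hM H θ ((hmemH θ).mp hθ)
    have hχ₀' : χ₀ ∈ BG := (hmemG χ₀).mpr hχ₀
    have hm1 : 1 ≤ m χ₀ θ := by
      rw [hm] at hne
      have : m χ₀ θ ≠ 0 := by exact_mod_cast hne
      omega
    calc charDegree (θ : H → ℂ) ≤ m χ₀ θ * charDegree (θ : H → ℂ) :=
          Nat.le_mul_of_pos_left _ hm1
      _ ≤ charDegree (χ₀ : G → ℂ) := by
          rw [hdeg χ₀]
          exact Finset.single_le_sum (f := fun θ => m χ₀ θ * charDegree (θ : H → ℂ))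
            (fun _ _ => Nat.zero_le _) (Finset.mem_univ θ)
      _ ≤ m χ₀ θ * charDegree (χ₀ : G → ℂ) := Nat.le_mul_of_pos_left _ hm1
      _ ≤ ∑ χ ∈ BG, m χ θ * charDegree (χ : G → ℂ) :=
          Finset.single_le_sum (f := fun χ => m χ θ * charDegree (χ : G → ℂ))
            (fun _ _ => Nat.zero_le _) hχ₀'
  · rw [Finset.mul_sum]
    refine Finset.sum_le_sum fun θ hθ => ?_
    have e : H.index * charDegree (θ : H → ℂ) ^ 2
        = charDegree (θ : H → ℂ) * (H.index * charDegree (θ : H → ℂ)) := by ring
    rw [e]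
    apply Nat.mul_le_mul_left
    rw [← hfrob θ]
    exact Finset.sum_le_sum_of_subset (Finset.subset_univ _)

end Cfsg.Agent.S4708
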