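import Cfsg.Statements.S4735
import Mathlib
import Cfsg.Agent.S4708
import Cfsg.Agent.Helper11.GalConj
import Cfsg.Agent.Helper10.PComp
import Cfsg.Agent.Helper25.BlockFong
import Cfsg.Agent.Helper25.CharKer
import Cfsg.Agent.Helper25.CharOrth
import Cfsg.Agent.Helper25.CharMore

set_option autoImplicit false
open Cfsg

namespace Cfsg.Agent.S4735

open Cfsg.Agent.Helper25 Cfsg.Agent.Helper7 Cfsg.Agent.Helper2
open scoped ComplexConjugate

universe u

/-- A complex number that is integral over `ℤ` and fixed by every field automorphism of `ℂ`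
is a rational integer. -/
theorem int_of_fixed (z : ℂ) (hint : IsIntegral ℤ z) (hfix : ∀ τ : ℂ ≃+* ℂ, τ z = z) :
    ∃ k : ℤ, z = (k : ℂ) := by
  have hintQ : IsIntegral ℚ z := hint.tower_top
  have hzK : z ∈ algebraicClosure ℚ ℂ := mem_algebraicClosure_iff'.mpr hintQ
  have : IsAlgClosure ℚ (algebraicClosure ℚ ℂ) := algebraicClosure.isAlgClosure ℚ ℂ
  have : IsGalois ℚ (algebraicClosure ℚ ℂ) := IsAlgClosure.isGalois ℚ _
  have hr : (⟨z, hzK⟩ : algebraicClosure ℚ ℂ) ∈
      Set.range (algebraMap ℚ (algebraicClosure ℚ ℂ)) := by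
    rw [InfiniteGalois.mem_range_algebraMap_iff_fixed]
    intro σ
    obtain ⟨τ, hτ⟩ :=
      Cfsg.Agent.Helper11.exists_ringAut_extending (algebraicClosure ℚ ℂ) σ.toRingEquiv
    have h1 := hτ ⟨z, hzK⟩
    apply Subtype.ext
    have h2 : algebraMap (algebraicClosure ℚ ℂ) ℂ ⟨z, hzK⟩ = z := rfl
    rw [h2, hfix τ] at h1
    exact h1.symm
  obtain ⟨q, hq⟩ := hr
  have hzq : z = (q : ℂ) := by
    have := congrArg (fun y : algebraicClosure ℚ ℂ => (y : ℂ)) hq
    simp only at this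
    rw [← this]
    rfl
  have hqint : IsIntegral ℤ q := by
    rw [hzq] at hint
    have h3 : (q : ℂ) = algebraMap ℚ ℂ q := rfl
    rw [h3] at hint
    exact (isIntegral_algebraMap_iff (algebraMap ℚ ℂ).injective).mp hint
  obtain ⟨k, hk⟩ := IsIntegrallyClosed.isIntegral_iff.mp hqint
  refine ⟨k, ?_⟩
  rw [hzq, ← hk]
  simp

/-- Galois conjugates of irreducible characters are irreducible. -/
theorem gal_isIrr {G : Type u} [Group G] [Finite G] (τ : ℂ ≃+* ℂ) (χ : IrrCharacter G) :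
    IsIrrCharacter G (fun g => τ ((χ : G → ℂ) g)) := by
  classical
  haveI := Fintype.ofFinite G
  have hchar : IsCharacter G (fun g => τ ((χ : G → ℂ) g)) :=
    Cfsg.Agent.Helper11.isCharacter_comp_aut τ.toRingHom (irr_isCharacter χ)
  apply isIrrCharacter_of_classInner_self hchar
  have h1 := irr_classInner χ χ
  rw [if_pos rfl] at h1
  have h2 : ∀ g : G, conj (τ ((χ : G → ℂ) g)) = τ (conj ((χ : G → ℂ) g)) := by
    intro g
    have h := char_inv hchar g
    beta_reduce at h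
    rw [← irr_inv]
    exact h.symm
  unfold classInner at h1 ⊢
  have h3 : τ ((Nat.card G : ℂ)⁻¹ * ∑ g, (χ : G → ℂ) g * conj ((χ : G → ℂ) g)) = τ 1 := by
    rw [h1]
  rw [map_one, map_mul, map_inv₀, map_natCast, map_sum] at h3
  rw [← h3]
  congr 1
  apply Finset.sum_congr rfl
  intro g _
  rw [map_mul, h2]

noncomputable def galIrr {G : Type u} [Group G] [Finite G] (τ : ℂ ≃+* ℂ) (χ : IrrCharacter G) :
    IrrCharacter G :=
  ⟨fun g => τ ((χ : G → ℂ) g), gal_isIrr τ χ⟩

theorem galIrr_apply {G : Type u} [Group G] [Finite G] (τ : ℂ ≃+* ℂ) (χ : IrrCharacter G)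
    (g : G) : (galIrr τ χ : G → ℂ) g = τ ((χ : G → ℂ) g) := rfl

noncomputable def galEquiv {G : Type u} [Group G] [Finite G] (τ : ℂ ≃+* ℂ) :
    IrrCharacter G ≃ IrrCharacter G where
  toFun := galIrr τ
  invFun := galIrr τ.symm
  left_inv χ := Subtype.ext (funext fun g => τ.symm_apply_apply _)
  right_inv χ := Subtype.ext (funext fun g => τ.apply_symm_apply _)

theorem galIrr_mem {G : Type u} [Group G] [Fintype G] {p : ℕ} [Fact p.Prime]
    {M : Ideal AlgInt} (hM : IsPModular p M) (τ : ℂ ≃+* ℂ) (χ : IrrCharacter G) :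
    galIrr τ χ ∈ principalBlock M G ↔ χ ∈ principalBlock M G := by
  rw [Cfsg.Agent.S4708.mem_principal_iff_sum hM, Cfsg.Agent.S4708.mem_principal_iff_sum hM]
  have h : ∑ x : G, regInd p G x * (galIrr τ χ : G → ℂ) x
      = τ (∑ x : G, regInd p G x * (χ : G → ℂ) x) := by
    rw [map_sum]
    apply Finset.sum_congr rfl
    intro x _
    rw [map_mul, galIrr_apply]
    congr 1
    by_cases hx : p ∣ orderOf x
    · rw [regInd_sing hx, map_zero]
    · rw [regInd_reg hx, map_one]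
  rw [h]
  exact map_ne_zero τ

theorem lam_fixed {G : Type u} [Group G] [Fintype G] {p : ℕ} [Fact p.Prime]
    {M : Ideal AlgInt} (hM : IsPModular p M) (x : G) (τ : ℂ ≃+* ℂ) :
    τ (∑ χ ∈ (Set.toFinite (principalBlock M G)).toFinset,
        (χ : G → ℂ) x * (χ : G → ℂ) x⁻¹)
      = ∑ χ ∈ (Set.toFinite (principalBlock M G)).toFinset,
        (χ : G → ℂ) x * (χ : G → ℂ) x⁻¹ := by
  rw [map_sum]
  apply Finset.sum_equiv (galEquiv τ)
  · intro χ
    rw [Set.Finite.mem_toFinset, Set.Finite.mem_toFinset]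
    exact (galIrr_mem hM τ χ).symm
  · intro χ _
    rw [map_mul]
    rfl

theorem normSq_eq {G : Type u} [Group G] [Finite G] (χ : IrrCharacter G) (x : G) :
    ((Complex.normSq ((χ : G → ℂ) x) : ℝ) : ℂ) = (χ : G → ℂ) x * (χ : G → ℂ) x⁻¹ := by
  rw [irr_inv, Complex.mul_conj]

theorem part1 {G : Type u} [Group G] [Finite G] {p : ℕ} [Fact p.Prime]
    {M : Ideal AlgInt} (hM : IsPModular p M) (x : G) :
    ∃ n : ℕ, 0 < n ∧ ∑ᶠ χ ∈ principalBlock M G, Complex.normSq ((χ : G → ℂ) x) = n := by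
  classical
  haveI := Fintype.ofFinite G
  rw [finsum_mem_eq_finite_toFinset_sum _ (Set.toFinite _)]
  have hC : ((∑ χ ∈ (Set.toFinite (principalBlock M G)).toFinset,
      Complex.normSq ((χ : G → ℂ) x) : ℝ) : ℂ)
      = ∑ χ ∈ (Set.toFinite (principalBlock M G)).toFinset,
        (χ : G → ℂ) x * (χ : G → ℂ) x⁻¹ := by
    rw [Complex.ofReal_sum]
    exact Finset.sum_congr rfl (fun χ _ => normSq_eq χ x)
  have hint : IsIntegral ℤ (∑ χ ∈ (Set.toFinite (principalBlock M G)).toFinset,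
      (χ : G → ℂ) x * (χ : G → ℂ) x⁻¹) :=
    IsIntegral.sum _ (fun χ _ => (irr_isIntegral χ x).mul (irr_isIntegral χ x⁻¹))
  obtain ⟨k, hk⟩ := int_of_fixed _ hint (lam_fixed hM x)
  have hge : (1 : ℝ) ≤ ∑ χ ∈ (Set.toFinite (principalBlock M G)).toFinset,
      Complex.normSq ((χ : G → ℂ) x) := by
    have h1 : Complex.normSq ((trivChar G : G → ℂ) x) = 1 := by
      rw [trivChar_apply]
      simp
    rw [← h1]
    exact Finset.single_le_sum
      (f := fun χ : IrrCharacter G => Complex.normSq ((χ : G → ℂ) x))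
      (fun χ _ => Complex.normSq_nonneg _)
      ((Set.Finite.mem_toFinset _).mpr (trivChar_mem_principalBlock hM))
  have hk' : (∑ χ ∈ (Set.toFinite (principalBlock M G)).toFinset,
      Complex.normSq ((χ : G → ℂ) x) : ℝ) = (k : ℝ) := by
    apply Complex.ofReal_injective
    rw [hC, hk]
    simp
  rw [hk'] at hge ⊢
  have hk1 : 1 ≤ k := by exact_mod_cast hge
  refine ⟨k.toNat, by omega, ?_⟩
  have h5 : ((k.toNat : ℤ) : ℝ) = (k : ℝ) := by rw [Int.toNat_of_nonneg (by omega)]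
  rw [← h5]
  exact Int.cast_natCast _

theorem regInd_mk {G : Type u} [Group G] [Finite G] {p : ℕ} [Fact p.Prime] (N : Subgroup G)
    [N.Normal] (hN : ¬ p ∣ Nat.card N) (g : G) :
    regInd p (G ⧸ N) (QuotientGroup.mk g) = regInd p G g := by
  by_cases h : p ∣ orderOf g
  · rw [regInd_sing h]
    apply regInd_sing
    by_contra h'
    have h1 : g ^ orderOf (QuotientGroup.mk g : G ⧸ N) ∈ N := by
      rw [← QuotientGroup.eq_one_iff, QuotientGroup.mk_pow, pow_orderOf_eq_one]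
    have h2 : g ^ (orderOf (QuotientGroup.mk g : G ⧸ N) * Nat.card N) = 1 := by
      rw [pow_mul]
      exact orderOf_dvd_iff_pow_eq_one.mp (Subgroup.orderOf_dvd_natCard N h1)
    have h3 := orderOf_dvd_of_pow_eq_one h2
    rcases (Nat.Prime.dvd_mul (Fact.out : p.Prime)).mp (dvd_trans h h3) with h4 | h4
    · exact h' h4
    · exact hN h4
  · rw [regInd_reg h]
    apply regInd_reg
    intro h'
    exact h (dvd_trans h' (orderOf_map_dvd (QuotientGroup.mk' N) g))

theorem sum_mk {G : Type u} [Group G] [Fintype G] (N : Subgroup G) [N.Normal]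
    [Fintype (G ⧸ N)] (F : G ⧸ N → ℂ) :
    ∑ g : G, F (QuotientGroup.mk g) = (Nat.card N : ℂ) * ∑ q : G ⧸ N, F q := by
  classical
  haveI : Fintype N := Fintype.ofFinite N
  have h1 : ∀ g : G, (Subgroup.groupEquivQuotientProdSubgroup (s := N) g).1
      = (QuotientGroup.mk g : G ⧸ N) := fun g => rfl
  have h2 : ∑ g : G, F (QuotientGroup.mk g)
      = ∑ g : G, F (Subgroup.groupEquivQuotientProdSubgroup (s := N) g).1 :=
    Finset.sum_congr rfl (fun g _ => by rw [h1])
  rw [h2, Equiv.sum_comp (Subgroup.groupEquivQuotientProdSubgroup (s := N))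
    (fun y : (G ⧸ N) × N => F y.1), Fintype.sum_prod_type, Finset.mul_sum]
  apply Finset.sum_congr rfl
  intro q _
  show ∑ _y : N, F q = _
  rw [Finset.sum_const, Finset.card_univ, nsmul_eq_mul, Nat.card_eq_fintype_card]

theorem deflate_mem {G : Type u} [Group G] [Finite G] {p : ℕ} [Fact p.Prime]
    {M : Ideal AlgInt} (hM : IsPModular p M) (N : Subgroup G) [N.Normal]
    (hN : ¬ p ∣ Nat.card N) (ψ : IrrCharacter (G ⧸ N))
    (h : irrComp ψ (QuotientGroup.mk' N) (QuotientGroup.mk'_surjective N)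
      ∈ principalBlock M G) : ψ ∈ principalBlock M (G ⧸ N) := by
  classical
  haveI := Fintype.ofFinite G
  haveI := Fintype.ofFinite (G ⧸ N)
  rw [Cfsg.Agent.S4708.mem_principal_iff_sum hM] at h ⊢
  intro h0
  apply h
  have h1 : ∑ x : G, regInd p G x *
      (irrComp ψ (QuotientGroup.mk' N) (QuotientGroup.mk'_surjective N) : G → ℂ) x
      = ∑ x : G, (fun q : G ⧸ N => regInd p (G ⧸ N) q * (ψ : G ⧸ N → ℂ) q)
          (QuotientGroup.mk x) := by
    apply Finset.sum_congr rfl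
    intro x _
    rw [← regInd_mk N hN x]
    rfl
  rw [h1]
  refine (sum_mk N (fun q : G ⧸ N => regInd p (G ⧸ N) q * (ψ : G ⧸ N → ℂ) q)).trans ?_
  rw [h0, mul_zero]

theorem bijOn_infl {G : Type u} [Group G] [Finite G] {p : ℕ} [Fact p.Prime]
    {M : Ideal AlgInt} (hM : IsPModular p M) (N : Subgroup G) [N.Normal]
    (hN : ¬ p ∣ Nat.card N) :
    Set.BijOn (fun ψ : IrrCharacter (G ⧸ N) =>
        irrComp ψ (QuotientGroup.mk' N) (QuotientGroup.mk'_surjective N))
      (principalBlock M (G ⧸ N)) (principalBlock M G) := by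
  refine ⟨fun ψ hψ => irrComp_mem_principalBlock hM N ψ hψ, ?_, ?_⟩
  · intro ψ _ ψ' _ h
    apply Subtype.ext
    funext q
    obtain ⟨g, rfl⟩ := QuotientGroup.mk_surjective q
    exact congrFun (congrArg Subtype.val h) g
  · intro χ hχ
    obtain ⟨ψ, hψ⟩ := exists_deflate χ N (le_irrKer_of_mem_principalBlock hM N hN χ hχ)
    have heq : irrComp ψ (QuotientGroup.mk' N) (QuotientGroup.mk'_surjective N) = χ :=
      Subtype.ext (funext fun g => hψ g)
    exact ⟨ψ, deflate_mem hM N hN ψ (by rw [heq]; exact hχ), heq⟩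

theorem lam_le {X : Type u} [Group X] [Finite X] {p : ℕ} [Fact p.Prime]
    {M : Ideal AlgInt} (hM : IsPModular p M) (y : X) :
    ∑ᶠ ψ ∈ principalBlock M X, Complex.normSq ((ψ : X → ℂ) y)
      ≤ (Nat.card (Subgroup.centralizer ({y} : Set X)) : ℝ) := by
  classical
  haveI := Fintype.ofFinite X
  rw [finsum_mem_eq_finite_toFinset_sum _ (Set.toFinite _)]
  have h1 : ∑ ψ ∈ (Set.toFinite (principalBlock M X)).toFinset,
      Complex.normSq ((ψ : X → ℂ) y) ≤ ∑ ψ : IrrCharacter X, Complex.normSq ((ψ : X → ℂ) y) :=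
    Finset.sum_le_sum_of_subset_of_nonneg (Finset.subset_univ _)
      (fun ψ _ _ => Complex.normSq_nonneg _)
  have h2 : (∑ ψ : IrrCharacter X, Complex.normSq ((ψ : X → ℂ) y) : ℝ)
      = (Nat.card (Subgroup.centralizer ({y} : Set X)) : ℝ) := by
    apply Complex.ofReal_injective
    rw [Complex.ofReal_sum]
    have h3 := second_orthogonality y y
    rw [if_pos (IsConj.refl y)] at h3
    rw [Complex.ofReal_natCast, ← h3]
    exact Finset.sum_congr rfl (fun ψ _ => normSq_eq ψ y)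
  rw [← h2]
  exact h1

theorem deg_sum_iff {X : Type u} [Group X] [Finite X] {p : ℕ} [Fact p.Prime]
    {M : Ideal AlgInt} (hM : IsPModular p M) :
    (∑ᶠ ψ ∈ principalBlock M X, charDegree (ψ : X → ℂ) ^ 2) = Nat.card X ↔
      ∀ B : Set (IrrCharacter X), IsPBlock M B → B = principalBlock M X := by
  classical
  haveI := Fintype.ofFinite X
  rw [finsum_mem_eq_finite_toFinset_sum _ (Set.toFinite _), ← sum_irr_degree_sq_nat]
  constructor
  · intro h B hB
    have huniv : (Set.toFinite (principalBlock M X)).toFinset = Finset.univ := by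
      by_contra hne
      obtain ⟨ψ, hψ⟩ : ∃ ψ, ψ ∉ (Set.toFinite (principalBlock M X)).toFinset := by
        by_contra hall
        push Not at hall
        exact hne (Finset.eq_univ_iff_forall.mpr hall)
      have hlt : ∑ ψ ∈ (Set.toFinite (principalBlock M X)).toFinset,
          charDegree (ψ : X → ℂ) ^ 2 < ∑ ψ : IrrCharacter X, charDegree (ψ : X → ℂ) ^ 2 :=
        Finset.sum_lt_sum_of_subset (Finset.subset_univ _) (Finset.mem_univ ψ) hψ
          (pow_pos (irr_degree_pos ψ) 2) (fun j _ _ => Nat.zero_le _)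
      omega
    obtain ⟨ψ, rfl⟩ := hB
    have hψ : ψ ∈ principalBlock M X := by
      have h6 := Finset.mem_univ ψ
      rw [← huniv, Set.Finite.mem_toFinset] at h6
      exact h6
    exact (eq_blockOf_of_mem hM isPBlock_principalBlock hψ).symm
  · intro h
    have huniv : (Set.toFinite (principalBlock M X)).toFinset = Finset.univ := by
      apply Finset.eq_univ_iff_forall.mpr
      intro ψ
      rw [Set.Finite.mem_toFinset, ← h (blockOf M (ψ : X → ℂ)) ⟨ψ, rfl⟩]
      exact sameBlock_refl hM _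
    rw [huniv]

/-- Let p be a prime, M a maximal ideal of the algebraic integers containing p, G a finite group, H = O_p'(G) and Ḡ = G/H. For x ∈ G write λ(G, x) for the sum of |χ(x)|^2 over the irreducible characters χ in the principal p-block of G. Then λ(G, x) is a positive integer, λ(G, x) = λ(Ḡ, x̄) where x̄ is the image of x, and λ(G, x) ≤ #C_Ḡ(x̄). Moreover λ(G, 1) = [G : H] if and only if the principal block is the only p-block of Ḡ. -/
theorem result {G : Type*} [Group G] [Finite G] (p : ℕ) [Fact p.Prime] (M : Ideal Cfsg.AlgInt) (hM : Cfsg.IsPModular p M) (x : G) : (∃ n : ℕ, 0 < n ∧ ∑ᶠ χ ∈ Cfsg.principalBlock M G, Complex.normSq ((χ : G → ℂ) x) = n) ∧ ∑ᶠ χ ∈ Cfsg.principalBlock M G, Complex.normSq ((χ : G → ℂ) x) = ∑ᶠ ψ ∈ Cfsg.principalBlock M (G ⧸ Cfsg.pPrimeCore p G), Complex.normSq ((ψ : G ⧸ Cfsg.pPrimeCore p G → ℂ) (QuotientGroup.mk x)) ∧ ∑ᶠ χ ∈ Cfsg.principalBlock M G, Complex.normSq ((χ : G → ℂ) x) ≤ (Nat.card ↥(Subgroup.centralizer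 ({(QuotientGroup.mk x : G ⧸ Cfsg.pPrimeCore p G)} : Set (G ⧸ Cfsg.pPrimeCore p G))) : ℝ) ∧ ((∑ᶠ χ ∈ Cfsg.principalBlock M G, Cfsg.charDegree (χ : G → ℂ) ^ 2) = (Cfsg.pPrimeCore p G).index ↔ ∀ B : Set (Cfsg.IrrCharacter (G ⧸ Cfsg.pPrimeCore p G)), Cfsg.IsPBlock M B → B = Cfsg.principalBlock M (G ⧸ Cfsg.pPrimeCore p G)) := by
  classical
  haveI := Fintype.ofFinite G
  have hN : ¬ p ∣ Nat.card (Cfsg.pPrimeCore p G) := by
    have h1 := Cfsg.Agent.Helper10.pPrimeCore_coprime p G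
    intro h
    exact (Fact.out : p.Prime).one_lt.ne' (Nat.Coprime.eq_one_of_dvd h1.symm h)
  have hbij := bijOn_infl hM (Cfsg.pPrimeCore p G) hN
  have h2 : ∑ᶠ χ ∈ Cfsg.principalBlock M G, Complex.normSq ((χ : G → ℂ) x)
      = ∑ᶠ ψ ∈ Cfsg.principalBlock M (G ⧸ Cfsg.pPrimeCore p G),
        Complex.normSq ((ψ : G ⧸ Cfsg.pPrimeCore p G → ℂ) (QuotientGroup.mk x)) := by
    symm
    exact finsum_mem_eq_of_bijOn _ hbij (fun ψ _ => rfl)
  refine ⟨part1 hM x, h2, ?_, ?_⟩
  · rw [h2]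
    exact lam_le hM _
  · have h4 : (∑ᶠ χ ∈ Cfsg.principalBlock M G, Cfsg.charDegree (χ : G → ℂ) ^ 2)
        = ∑ᶠ ψ ∈ Cfsg.principalBlock M (G ⧸ Cfsg.pPrimeCore p G),
          Cfsg.charDegree (ψ : G ⧸ Cfsg.pPrimeCore p G → ℂ) ^ 2 := by
      symm
      exact finsum_mem_eq_of_bijOn _ hbij (fun ψ _ => by rw [charDegree_irrComp])
    rw [h4, Subgroup.index_eq_card]
    exact deg_sum_iff hM

end Cfsg.Agent.S4735
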