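import Cfsg.Statements.S4480
import Mathlib
import Cfsg.Agent.S4479
import Cfsg.Agent.S4735
import Cfsg.Agent.Helper24.FS
import Cfsg.Agent.Helper24.Klein4
import Cfsg.Agent.Helper24.Klein4Char
import Cfsg.Agent.Helper1.CharBasic

set_option autoImplicit false
open Cfsg

namespace Cfsg.Agent.S4480

open Cfsg.Agent.Helper25 Cfsg.Agent.Helper24 Cfsg.Agent.Helper7
open scoped ComplexConjugate Matrix

theorem odd_degree_of_invol {G : Type*} [Group G] [Finite G] (χ : IrrCharacter G) (J : G)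
    (hJJ : J * J = 1) (ε : ℤ) (hε : ε = 1 ∨ ε = -1) (hval : (χ : G → ℂ) J = ε) :
    Odd (charDegree (χ : G → ℂ)) := by
  classical
  have hdeg := irr_one_eq_degree χ
  obtain ⟨k, ρ, hk⟩ := irr_isCharacter χ
  have hf : (ρ J) ^ 2 = 1 := by rw [← map_pow, pow_two, hJJ, map_one]
  obtain ⟨b, μ, hμ, hb⟩ :=
    Cfsg.Agent.Helper1.exists_eigenbasis_of_pow_eq_one (ρ J) 2 (by norm_num) hf
  have hc : ρ.character J = ∑ i, μ i :=
    Cfsg.Agent.Helper1.trace_eq_sum_of_eigenbasis b (ρ J) μ hb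
  have hb1 : ∀ i, ρ 1 (b i) = (1 : ℂ) • b i := by
    intro i; rw [map_one, one_smul]; rfl
  have hc1 : ρ.character 1 = ∑ i : Fin (Module.finrank ℂ (Fin k → ℂ)), (1 : ℂ) :=
    Cfsg.Agent.Helper1.trace_eq_sum_of_eigenbasis b (ρ 1) (fun _ => (1 : ℂ)) hb1
  have h3 : ∀ i, (1 : ℂ) = μ i + 2 * (((if μ i = 1 then (0 : ℤ) else 1) : ℤ) : ℂ) := by
    intro i
    have h4 : (μ i - 1) * (μ i + 1) = 0 := by linear_combination hμ i
    rcases mul_eq_zero.mp h4 with h | h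
    · have h5 : μ i = 1 := sub_eq_zero.mp h
      rw [if_pos h5, h5]; norm_num
    · have h5 : μ i = -1 := eq_neg_of_add_eq_zero_left h
      have h6 : μ i ≠ 1 := by rw [h5]; norm_num
      rw [if_neg h6, h5]; norm_num
  have h7 : ((charDegree (χ : G → ℂ) : ℤ) : ℂ)
      = ((ε + 2 * ∑ i, (if μ i = 1 then (0 : ℤ) else 1) : ℤ) : ℂ) := by
    push_cast
    rw [← hval, ← hdeg, ← hk, hc, hc1, Finset.mul_sum, ← Finset.sum_add_distrib]
    apply Finset.sum_congr rfl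
    intro i _
    have := h3 i
    push_cast at this
    exact this
  have h8 : (charDegree (χ : G → ℂ) : ℤ) = ε + 2 * ∑ i, (if μ i = 1 then (0 : ℤ) else 1) := by
    exact_mod_cast h7
  rw [Nat.odd_iff]
  rcases hε with h | h <;> omega

theorem fsInd_ne_neg_one_of_odd {G : Type*} [Group G] [Fintype G] (χ : IrrCharacter G)
    (hodd : Odd (charDegree (χ : G → ℂ))) : fsInd (χ : G → ℂ) ≠ -1 := by
  classical
  intro hneg
  have hreal : ∀ g : G, ((χ : G → ℂ) g).im = 0 := fsInd_real χ (by rw [hneg]; norm_num)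
  have hdeg := irr_one_eq_degree χ
  obtain ⟨χf, n, ρ, hρ, rfl⟩ := χ
  have hreal' : ∀ g : G, (ρ.character g).im = 0 := hreal
  have hdeg' : ρ.character 1 = (charDegree (ρ.character) : ℂ) := hdeg
  have hneg' : fsInd (ρ.character) = -1 := hneg
  have hodd' : Odd (charDegree (ρ.character)) := hodd
  obtain ⟨S, hS0, hSinv⟩ := fs_exists_form ρ hρ hreal'
  obtain ⟨ε, hε2, hST, hsum⟩ := fs_form_sign ρ hρ S hSinv hS0
  have hG : (Nat.card G : ℂ) ≠ 0 := Cfsg.Agent.Helper25.card_ne_zero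
  have hε : ε = -1 := by
    have h1 : fsInd (ρ.character) = ε := by
      unfold fsInd
      rw [hsum]
      field_simp
    rw [← h1]; exact hneg'
  have hdet : S.det ≠ 0 := (repMat_form ρ hρ S hSinv).resolve_left hS0
  have h1 : S.det = (-1 : ℂ) ^ n * S.det := by
    conv_lhs => rw [← Matrix.det_transpose, hST, hε, Matrix.det_smul, Fintype.card_fin]
  have h2 : (-1 : ℂ) ^ n = 1 := by
    have h3 : (1 : ℂ) * S.det = (-1 : ℂ) ^ n * S.det := by rw [one_mul]; exact h1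
    exact (mul_right_cancel₀ hdet h3).symm
  have heven : Even n := (neg_one_pow_eq_one_iff_even (by norm_num)).mp h2
  have h3 : ρ.character 1 = (n : ℂ) := by
    show LinearMap.trace ℂ (Fin n → ℂ) (ρ 1) = _
    rw [map_one, LinearMap.trace_one, Module.finrank_fin_fun]
  have hn : charDegree (ρ.character) = n := by
    rw [h3] at hdeg'
    exact_mod_cast hdeg'.symm
  rw [hn] at hodd'
  exact (Nat.not_even_iff_odd.mpr hodd') heven

theorem not_two_dvd_sq {G : Type*} [Group G] [Finite G] (P : Sylow 2 G)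
    (hsq : ∀ a ∈ (P : Subgroup G), a * a = 1) (g : G) : ¬ 2 ∣ orderOf (g * g) := by
  intro h2
  have ho : orderOf g ≠ 0 := (orderOf_pos g).ne'
  obtain ⟨m, hm⟩ : ∃ m, m = orderOf g / 2 ^ (orderOf g).factorization 2 := ⟨_, rfl⟩
  have hom : 2 ^ (orderOf g).factorization 2 * m = orderOf g := by
    rw [hm]; exact Nat.ordProj_mul_ordCompl_eq_self (orderOf g) 2
  have hmodd : ¬ 2 ∣ m := by rw [hm]; exact Nat.not_dvd_ordCompl Nat.prime_two ho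
  have hy : (g ^ m) ^ (2 ^ (orderOf g).factorization 2) = 1 := by
    rw [← pow_mul, mul_comm, hom, pow_orderOf_eq_one]
  have h1 := k4_sq_of_two_elt P hsq (g ^ m) _ hy
  have h3 : (g * g) ^ m = 1 := by
    rw [← pow_two, ← pow_mul, mul_comm, pow_mul, pow_two]; exact h1
  exact hmodd (h2.trans (orderOf_dvd_of_pow_eq_one h3))

/-- Same setting as the Klein-four order formula: G of order 4·g₀ (g₀ odd) with no normal 2-complement, P a Sylow 2-subgroup, J an involution of P, M over 2, principal 2-block {1, χ₁, χ₂, χ₃} with χ_i(J) = ε_i = ±1. Suppose ε₁ε₂ε₃ = −1 and ε₃ = −1, and put q = x₃ = χ₃(1). Then there is a natural number m with 4·c(J) = m·c(P)·(q + 1), and the order of G equals (m³·c(P)/4)·(q³ − q)/2, that is 8·#G = m³·c(P)·(q³ − q). -/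
theorem result {G : Type*} [Group G] [Finite G] (M : Ideal Cfsg.AlgInt) (hM : Cfsg.IsPModular 2 M) (g₀ : ℕ) (hg₀ : Odd g₀) (hG : Nat.card G = 4 * g₀) (hnc : ¬ ∃ N : Subgroup G, N.Normal ∧ Nat.card N = g₀) (P : Sylow 2 G) (J : G) (hJ : J ∈ (P : Subgroup G)) (hJ2 : orderOf J = 2) (χ₁ χ₂ χ₃ : Cfsg.IrrCharacter G) (ε₁ ε₂ ε₃ : ℤ) (hB : Cfsg.principalBlock M G = {χ : Cfsg.IrrCharacter G | (χ : G → ℂ) = (fun _ => 1) ∨ χ = χ₁ ∨ χ = χ₂ ∨ χ = χ₃}) (hdist : (χ₁ : G → ℂ) ≠ (fun _ => 1) ∧ (χ₂ : G → ℂ) ≠ (fun _ => 1) ∧ (χ₃ : G → ℂ) ≠ (fun _ => 1) ∧ χ₁ ≠ χ₂ ∧ χ₁ ≠ χ₃ ∧ χ₂ ≠ χ₃) (hε : (ε₁ = 1 ∨ ε₁ = -1) ∧ (ε₂ = 1 ∨ ε₂ = -1) ∧ (ε₃ = 1 ∨ ε₃ = -1)) (hval : (χ₁ : G → ℂ) J = ε₁ ∧ (χ₂ : G → ℂ) J = ε₂ ∧ (χ₃ : G → ℂ) J = ε₃) (hprod : ε₁ * ε₂ * ε₃ = -1) (hε₃ : ε₃ = -1) : ∃ m : ℕ, 4 * Nat.card (Subgroup.centralizer ({J} : Set G)) = m * Nat.card (Subgroup.centralizer ((P : Subgroup G) :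 Set G)) * (Cfsg.charDegree (χ₃ : G → ℂ) + 1) ∧ 8 * Nat.card G = m ^ 3 * Nat.card (Subgroup.centralizer ((P : Subgroup G) : Set G)) * (Cfsg.charDegree (χ₃ : G → ℂ) ^ 3 - Cfsg.charDegree (χ₃ : G → ℂ)) := by
  classical
  haveI := Fintype.ofFinite G
  haveI : Fact (Nat.Prime 2) := ⟨Nat.prime_two⟩
  obtain ⟨hfac, hcard, hsq, hNC⟩ := k4_of_no_complement g₀ hg₀ hG hnc P
  obtain ⟨hJJ, hJ1⟩ := k4_invol hJ2
  have hT := k4_trans P hcard hsq hNC J hJ hJ1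
  have hconj := k4_conj P J hT
  obtain ⟨hR1, -⟩ := k4_count g₀ hg₀ hG hnc P J hJ hJ2
  have hθ := k4_theta hM P hfac hsq J hJ2 hconj χ₁ χ₂ χ₃ ε₁ ε₂ ε₃ hB hdist hε hval
  have hS := Cfsg.Agent.S4479.result M hM g₀ hg₀ hG hnc P J hJ hJ2 χ₁ χ₂ χ₃ ε₁ ε₂ ε₃ hB hdist
    hε hval
  obtain ⟨x₁, hx₁⟩ : ∃ x : ℕ, x = Cfsg.charDegree (χ₁ : G → ℂ) := ⟨_, rfl⟩
  obtain ⟨x₂, hx₂⟩ : ∃ x : ℕ, x = Cfsg.charDegree (χ₂ : G → ℂ) := ⟨_, rfl⟩
  obtain ⟨x₃, hx₃⟩ : ∃ x : ℕ, x = Cfsg.charDegree (χ₃ : G → ℂ) := ⟨_, rfl⟩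
  have hχ₁1 : (χ₁ : G → ℂ) 1 = (x₁ : ℂ) := by rw [hx₁]; exact irr_one_eq_degree χ₁
  have hχ₂1 : (χ₂ : G → ℂ) 1 = (x₂ : ℂ) := by rw [hx₂]; exact irr_one_eq_degree χ₂
  have hχ₃1 : (χ₃ : G → ℂ) 1 = (x₃ : ℂ) := by rw [hx₃]; exact irr_one_eq_degree χ₃
  have hx₁pos : 0 < x₁ := hx₁ ▸ irr_degree_pos χ₁
  have hx₂pos : 0 < x₂ := hx₂ ▸ irr_degree_pos χ₂
  have hx₃pos : 0 < x₃ := hx₃ ▸ irr_degree_pos χ₃
  -- signs
  have hdeg := hθ 1
  rw [if_neg (by rw [orderOf_one]; norm_num), hχ₁1, hχ₂1, hχ₃1] at hdeg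
  have hdegZ : (1 : ℤ) + ε₁ * x₁ + ε₂ * x₂ + ε₃ * x₃ = 0 := by
    have h : (((1 : ℤ) + ε₁ * x₁ + ε₂ * x₂ + ε₃ * x₃ : ℤ) : ℂ) = 0 := by
      push_cast
      exact hdeg
    exact_mod_cast h
  have he12 : ε₁ = 1 ∧ ε₂ = 1 := by
    rw [hε₃] at hprod hdegZ
    rcases hε.1 with h1 | h1 <;> rcases hε.2.1 with h2 | h2
    · exact ⟨h1, h2⟩
    · rw [h1, h2] at hprod; norm_num at hprod
    · rw [h1, h2] at hprod; norm_num at hprod
    · rw [h1, h2] at hdegZ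
      have a1 : (0 : ℤ) < x₁ := by exact_mod_cast hx₁pos
      have a2 : (0 : ℤ) < x₂ := by exact_mod_cast hx₂pos
      have a3 : (0 : ℤ) < x₃ := by exact_mod_cast hx₃pos
      omega
  obtain ⟨he1, he2⟩ := he12
  rw [he1, he2, hε₃] at hdegZ
  have hq : x₃ = 1 + x₁ + x₂ := by omega
  -- odd degrees
  have hodd₁ : Odd (charDegree (χ₁ : G → ℂ)) :=
    odd_degree_of_invol χ₁ J hJJ ε₁ hε.1 hval.1
  have hodd₂ : Odd (charDegree (χ₂ : G → ℂ)) :=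
    odd_degree_of_invol χ₂ J hJJ ε₂ hε.2.1 hval.2.1
  have hodd₃ : Odd (charDegree (χ₃ : G → ℂ)) :=
    odd_degree_of_invol χ₃ J hJJ ε₃ hε.2.2 hval.2.2
  -- Frobenius-Schur relation
  have hG0 : (Nat.card G : ℂ) ≠ 0 := Cfsg.Agent.Helper25.card_ne_zero
  have hfs : 1 + fsInd (χ₁ : G → ℂ) + fsInd (χ₂ : G → ℂ) - fsInd (χ₃ : G → ℂ) = 0 := by
    have h1 : ∀ s : G, (1 : ℂ) + (χ₁ : G → ℂ) (s * s) + (χ₂ : G → ℂ) (s * s)
        - (χ₃ : G → ℂ) (s * s) = 0 := by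
      intro s
      have h := hθ (s * s)
      rw [if_neg (not_two_dvd_sq P hsq s), he1, he2, hε₃] at h
      push_cast at h
      linear_combination h
    have h2 : ∑ s : G, ((1 : ℂ) + (χ₁ : G → ℂ) (s * s) + (χ₂ : G → ℂ) (s * s)
        - (χ₃ : G → ℂ) (s * s)) = 0 := Finset.sum_eq_zero (fun s _ => h1 s)
    rw [Finset.sum_sub_distrib, Finset.sum_add_distrib, Finset.sum_add_distrib,
      Finset.sum_const, Finset.card_univ, nsmul_eq_mul, mul_one, ← Nat.card_eq_fintype_card]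
      at h2
    unfold fsInd
    field_simp
    linear_combination h2
  have hν₁ := fsInd_cases χ₁
  have hν₂ := fsInd_cases χ₂
  have hν₃ := fsInd_cases χ₃
  have hn₁ := fsInd_ne_neg_one_of_odd χ₁ hodd₁
  have hn₂ := fsInd_ne_neg_one_of_odd χ₂ hodd₂
  have hn₃ := fsInd_ne_neg_one_of_odd χ₃ hodd₃
  have hnonreal : ¬ ∀ g : G, ((χ₁ : G → ℂ) g).im = 0 := by
    rcases hν₁ with h | ⟨h | h, -⟩
    · exact h.2
    · exfalso
      rw [h] at hfs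
      rcases hν₂ with h2 | ⟨h2 | h2, -⟩
      · rw [h2.1] at hfs
        rcases hν₃ with h3 | ⟨h3 | h3, -⟩
        · rw [h3.1] at hfs; norm_num at hfs
        · rw [h3] at hfs; norm_num at hfs
        · exact hn₃ h3
      · rw [h2] at hfs
        rcases hν₃ with h3 | ⟨h3 | h3, -⟩
        · rw [h3.1] at hfs; norm_num at hfs
        · rw [h3] at hfs; norm_num at hfs
        · exact hn₃ h3
      · exact hn₂ h2
    · exact absurd h hn₁
  -- complex conjugate of χ₁ is χ₂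
  have hx12 : x₁ = x₂ := by
    have hmem1 : χ₁ ∈ Cfsg.principalBlock M G := by
      rw [hB]; exact Or.inr (Or.inl rfl)
    have hmem := (Cfsg.Agent.S4735.galIrr_mem hM (starRingAut : ℂ ≃+* ℂ) χ₁).mpr hmem1
    rw [hB] at hmem
    have happ : ∀ g : G, (Cfsg.Agent.S4735.galIrr (starRingAut : ℂ ≃+* ℂ) χ₁ : G → ℂ) g
        = conj ((χ₁ : G → ℂ) g) := fun g => rfl
    rcases hmem with h | h | h | h
    · exfalso
      apply hdist.1
      funext g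
      have h1 := congrFun h g
      rw [happ] at h1
      have h2 := congrArg conj h1
      rw [Complex.conj_conj, map_one] at h2
      exact h2
    · exfalso
      apply hnonreal
      intro g
      have h1 := happ g
      rw [h] at h1
      exact Complex.conj_eq_iff_im.mp h1.symm
    · have h1 := happ 1
      rw [h, hχ₁1, hχ₂1, Complex.conj_natCast] at h1
      exact_mod_cast h1.symm
    · exfalso
      have h1 := happ J
      rw [h, hval.1, hval.2.2, he1, hε₃] at h1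
      norm_num at h1
  -- arithmetic
  obtain ⟨y, hy⟩ := hx₁ ▸ hodd₁
  have hx₁y : x₁ = 2 * y + 1 := hy
  have hx₂y : x₂ = 2 * y + 1 := by omega
  have hx₃y : x₃ = 4 * y + 3 := by omega
  obtain ⟨N, hN⟩ : ∃ N : ℕ, N = Nat.card G := ⟨_, rfl⟩
  obtain ⟨cJ, hcJ⟩ : ∃ c : ℕ, c = Nat.card (Subgroup.centralizer ({J} : Set G)) := ⟨_, rfl⟩
  obtain ⟨cP, hcP⟩ : ∃ c : ℕ,
      c = Nat.card (Subgroup.centralizer ((P : Subgroup G) : Set G)) := ⟨_, rfl⟩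
  obtain ⟨t, ht⟩ : ∃ t : ℕ, t = (Finset.univ.filter (fun s : G => orderOf s = 2)).card :=
    ⟨_, rfl⟩
  rw [← ht, ← hN, ← hcJ] at hR1
  rw [← hN, ← hcJ, ← hcP, ← hx₁, ← hx₂, ← hx₃, he1, he2, hε₃, hx₁y, hx₂y, hx₃y] at hS
  rw [← hN, ← hcJ, ← hcP, ← hx₃, hx₃y]
  have hcJpos : 0 < cJ := hcJ ▸ Nat.card_pos
  have hcPpos : 0 < cP := hcP ▸ Nat.card_pos
  have hdvd : cP ∣ cJ := by
    rw [hcP, hcJ]
    apply Subgroup.card_dvd_of_le
    apply Subgroup.centralizer_le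
    intro z hz
    rw [Set.mem_singleton_iff.mp hz]
    exact hJ
  obtain ⟨j, hj⟩ := hdvd
  have hjpos : 0 < j := by
    rcases Nat.eq_zero_or_pos j with h | h
    · rw [h, mul_zero] at hj; omega
    · exact h
  have hQ : (N : ℚ) * ((y : ℚ) + 1) ^ 2 * (cP : ℚ) ^ 2
      = (2 * (y : ℚ) + 1) * (4 * (y : ℚ) + 3) * (cJ : ℚ) ^ 3 := by
    have hcP0 : (cP : ℚ) ≠ 0 := by exact_mod_cast hcPpos.ne'
    have hy0 : (0 : ℚ) ≤ (y : ℚ) := Nat.cast_nonneg y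
    have hA : (((2 * y + 1 : ℕ) : ℚ) * ((2 * y + 1 : ℕ) : ℚ) * ((4 * y + 3 : ℕ) : ℚ))
          / ((((2 * y + 1 : ℕ) : ℚ) + ((1 : ℤ) : ℚ)) * (((2 * y + 1 : ℕ) : ℚ) + ((1 : ℤ) : ℚ))
            * (((4 * y + 3 : ℕ) : ℚ) + ((-1 : ℤ) : ℚ)))
        = (2 * (y : ℚ) + 1) * (4 * (y : ℚ) + 3) / (8 * ((y : ℚ) + 1) ^ 2) := by
      have e1 : (((2 * y + 1 : ℕ) : ℚ) + ((1 : ℤ) : ℚ)) = 2 * ((y : ℚ) + 1) := by
        push_cast; ring
      have e2 : (((4 * y + 3 : ℕ) : ℚ) + ((-1 : ℤ) : ℚ)) = 2 * (2 * (y : ℚ) + 1) := by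
        push_cast; ring
      have e3 : ((2 * y + 1 : ℕ) : ℚ) = 2 * (y : ℚ) + 1 := by push_cast; ring
      have e4 : ((4 * y + 3 : ℕ) : ℚ) = 4 * (y : ℚ) + 3 := by push_cast; ring
      rw [e1, e2, e3, e4]
      have p1 : (y : ℚ) + 1 ≠ 0 := by positivity
      have p2 : 2 * (y : ℚ) + 1 ≠ 0 := by positivity
      field_simp
      ring
    rw [hS, hA]
    have p1 : (y : ℚ) + 1 ≠ 0 := by positivity
    field_simp
  have hN1 : N * (y + 1) ^ 2 * cP ^ 2 = (2 * y + 1) * (4 * y + 3) * cJ ^ 3 := by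
    exact_mod_cast hQ
  have hE2 : t * (y + 1) ^ 2 = (2 * y + 1) * (4 * y + 3) * j ^ 2 := by
    have h1 : t * (y + 1) ^ 2 * (j * cP ^ 3) = (2 * y + 1) * (4 * y + 3) * j ^ 2 * (j * cP ^ 3) := by
      calc t * (y + 1) ^ 2 * (j * cP ^ 3) = t * cJ * (y + 1) ^ 2 * cP ^ 2 := by rw [hj]; ring
        _ = (2 * y + 1) * (4 * y + 3) * cJ ^ 3 := by rw [hR1]; exact hN1
        _ = (2 * y + 1) * (4 * y + 3) * j ^ 2 * (j * cP ^ 3) := by rw [hj]; ring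
    exact Nat.eq_of_mul_eq_mul_right (Nat.mul_pos hjpos (pow_pos hcPpos 3)) h1
  have hcop1 : Nat.Coprime (y + 1) (2 * y + 1) := by
    have h1 : Nat.gcd (y + 1) (2 * y + 1) ∣ 2 * (y + 1) - (2 * y + 1) :=
      Nat.dvd_sub (Dvd.dvd.mul_left (Nat.gcd_dvd_left _ _) 2) (Nat.gcd_dvd_right _ _)
    rw [show 2 * (y + 1) - (2 * y + 1) = 1 by omega] at h1
    exact Nat.dvd_one.mp h1
  have hcop2 : Nat.Coprime (y + 1) (4 * y + 3) := by
    have h1 : Nat.gcd (y + 1) (4 * y + 3) ∣ 4 * (y + 1) - (4 * y + 3) :=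
      Nat.dvd_sub (Dvd.dvd.mul_left (Nat.gcd_dvd_left _ _) 4) (Nat.gcd_dvd_right _ _)
    rw [show 4 * (y + 1) - (4 * y + 3) = 1 by omega] at h1
    exact Nat.dvd_one.mp h1
  have hcop : Nat.Coprime ((y + 1) ^ 2) ((2 * y + 1) * (4 * y + 3)) :=
    Nat.Coprime.pow_left 2 (Nat.Coprime.mul_right hcop1 hcop2)
  have hdj : (y + 1) ^ 2 ∣ j ^ 2 := by
    apply hcop.dvd_of_dvd_mul_left
    rw [← hE2]
    exact Dvd.intro_left t rfl
  have hdj' : y + 1 ∣ j := (Nat.pow_dvd_pow_iff (by norm_num)).mp hdj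
  obtain ⟨m, hm⟩ := hdj'
  have htm : t = (2 * y + 1) * (4 * y + 3) * m ^ 2 := by
    have h1 : t * (y + 1) ^ 2 = (2 * y + 1) * (4 * y + 3) * m ^ 2 * (y + 1) ^ 2 := by
      rw [hE2, hm]; ring
    exact Nat.eq_of_mul_eq_mul_right (pow_pos (Nat.succ_pos y) 2) h1
  refine ⟨m, ?_, ?_⟩
  · rw [hj, hm]; ring
  · have hq3 : (4 * y + 3) ^ 3 = (4 * y + 3) + 8 * ((2 * y + 1) * (4 * y + 3) * (y + 1)) := by
      ring
    rw [hq3, Nat.add_sub_cancel_left, ← hR1, htm, hj, hm]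
    ring

end Cfsg.Agent.S4480
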