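import Cfsg.Statements.S4487
import Cfsg.Agent.Helper25.BlockNilp
import Cfsg.Agent.Helper25.BlockCentral
import Cfsg.Agent.Helper16.CharP

set_option autoImplicit false
open Cfsg

namespace Cfsg.Agent.S4487

open Cfsg.Agent.Helper25

/-- Let G be a finite group and p a prime such that G has no non-trivial normal subgroup of order prime to p and C_G(O_p(G)) ≤ O_p(G). Then G has a single p-block: any two irreducible characters lie in the same block relative to every maximal ideal M of the algebraic integers containing p. -/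
theorem result {G : Type*} [Group G] [Finite G] (p : ℕ) [Fact p.Prime] (M : Ideal Cfsg.AlgInt) (hM : Cfsg.IsPModular p M) (hcore : Cfsg.pPrimeCore p G = ⊥) (hconstr : Subgroup.centralizer ((Cfsg.pCore p G) : Set G) ≤ Cfsg.pCore p G) (χ ψ : Cfsg.IrrCharacter G) : Cfsg.SameBlock M (χ : G → ℂ) (ψ : G → ℂ) := by
  classical
  have := Fintype.ofFinite G
  have hp : p.Prime := Fact.out
  set P := Cfsg.pCore p G with hP
  haveI : P.Normal := Cfsg.Agent.Helper16.pCore_normal p G
  have hPp : IsPGroup p P := Cfsg.Agent.Helper16.isPGroup_pCore p G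
  set B := Cfsg.blockOf M (χ : G → ℂ) with hBdef
  have hB : Cfsg.IsPBlock M B := isPBlock_blockOf χ
  have hχB : χ ∈ B := self_mem_blockOf hM χ
  have hvan : ∀ g : G, g ≠ 1 → Cfsg.blockCoeff B g = 0 := by
    intro g hg
    by_cases hgC : g ∈ Subgroup.centralizer (P : Set G)
    · have hgP : g ∈ P := hconstr hgC
      have h1 : p ∣ orderOf g := dvd_orderOf_of_mem_pGroup hp hPp ⟨g, hgP⟩
        (by intro h; exact hg (congrArg Subtype.val h))
      exact blockCoeff_eq_zero_of_singular hM hB g h1
    · exact blockCoeff_eq_zero_of_not_mem_centralizer hM P hPp hB hgC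
  have hsum : ∀ φ : Cfsg.IrrCharacter G, Cfsg.blockCoeff B 1 * (φ : G → ℂ) 1 =
      if φ ∈ B then (φ : G → ℂ) 1 else 0 := by
    intro φ
    rw [← sum_blockCoeff_mul B φ]
    rw [Finset.sum_eq_single (1 : G)]
    · intro g _ hg
      rw [hvan g hg, zero_mul]
    · intro h
      exact absurd (Finset.mem_univ _) h
  have h1 : Cfsg.blockCoeff B 1 = 1 := by
    have h2 := hsum χ
    rw [if_pos hχB] at h2
    exact mul_right_cancel₀ (irr_one_ne_zero χ) (by rw [h2, one_mul])
  have hψB : ψ ∈ B := by
    by_contra hψ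
    have h2 := hsum ψ
    rw [if_neg hψ, h1, one_mul] at h2
    exact irr_one_ne_zero ψ h2
  exact hψB

end Cfsg.Agent.S4487
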