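import Cfsg.Statements.S4491
import Cfsg.Agent.Helper24.BlockDeg2

set_option autoImplicit false
open Cfsg

namespace Cfsg.Agent.S4491

open Cfsg.Agent.Helper25 Cfsg.Agent.Helper24

/-- Let B be a p-block of defect d of the finite group G (relative to a maximal ideal M of the algebraic integers containing p), and let p^a be the p-part of the order of G. Then the exact power of p dividing the sum of the squares of the degrees of the irreducible characters in B is p^(2a − d). -/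
theorem result {G : Type*} [Group G] [Finite G] (p : ℕ) [Fact p.Prime] (M : Ideal Cfsg.AlgInt) (hM : Cfsg.IsPModular p M) (B : Set (Cfsg.IrrCharacter G)) (hB : Cfsg.IsPBlock M B) : (∑ᶠ χ ∈ B, Cfsg.charDegree (χ : G → ℂ) ^ 2).factorization p = 2 * (Nat.card G).factorization p - Cfsg.blockDefect p B := by
  classical
  have := Fintype.ofFinite G
  have hp : p.Prime := Fact.out
  set a := (Nat.card G).factorization p with ha
  obtain ⟨χ₁, hχ₁B⟩ : ∃ χ₁, χ₁ ∈ B := by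
    obtain ⟨χ₁, h⟩ := hB
    exact ⟨χ₁, h ▸ self_mem_blockOf hM χ₁⟩
  set Sset := (fun ψ : Cfsg.IrrCharacter G => (Cfsg.charDegree (ψ : G → ℂ)).factorization p) '' B
    with hSset
  have hSne : Sset.Nonempty := ⟨_, χ₁, hχ₁B, rfl⟩
  obtain ⟨χ₀, hχ₀, hχ₀h⟩ := Nat.sInf_mem hSne
  set h := sInf Sset with hh
  have hχ₀h' : (Cfsg.charDegree (χ₀ : G → ℂ)).factorization p = h := hχ₀h
  have hmin : ∀ ψ ∈ B, h ≤ (Cfsg.charDegree (ψ : G → ℂ)).factorization p :=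
    fun ψ hψ => Nat.sInf_le ⟨ψ, hψ, rfl⟩
  have hdef : Cfsg.blockDefect p B = a - h := rfl
  set d₀ := Cfsg.charDegree (χ₀ : G → ℂ) with hd₀
  have hd₀0 : d₀ ≠ 0 := (irr_degree_pos χ₀).ne'
  set t₀ := d₀ / p ^ h with ht₀
  have hd₀t : p ^ h * t₀ = d₀ := by
    have h1 := Nat.ordProj_mul_ordCompl_eq_self d₀ p
    rw [hχ₀h'] at h1; exact h1
  have hpt₀ : ¬ p ∣ t₀ := by
    have h1 := Nat.not_dvd_ordCompl hp hd₀0
    rw [hχ₀h'] at h1; exact h1
  have hha : h ≤ a := by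
    have h1 : p ^ h ∣ Nat.card G := (Dvd.intro _ hd₀t).trans (irr_degree_dvd_card χ₀)
    exact (hp.pow_dvd_iff_le_factorization Nat.card_pos.ne').mp h1
  have hp0 : (p : ℂ) ≠ 0 := by exact_mod_cast hp.ne_zero
  have hd₀c : (d₀ : ℂ) = (p : ℂ) ^ h * (t₀ : ℂ) := by exact_mod_cast hd₀t.symm
  set Bf : Finset (Cfsg.IrrCharacter G) := Finset.univ.filter (· ∈ B) with hBf
  have hBfeq : (Set.toFinite B).toFinset = Bf := by
    ext ψ; simp [hBf]
  have hSsum : ∑ᶠ χ ∈ B, Cfsg.charDegree (χ : G → ℂ) ^ 2 =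
      ∑ χ ∈ Bf, Cfsg.charDegree (χ : G → ℂ) ^ 2 := by
    rw [finsum_mem_eq_finite_toFinset_sum _ (Set.toFinite B), hBfeq]
  rw [hSsum, hdef]
  set S := ∑ χ ∈ Bf, Cfsg.charDegree (χ : G → ℂ) ^ 2 with hS
  choose k hk using fun ψ : Cfsg.IrrCharacter G => gram_int hp χ₀ ψ
  have hc₀ := gram_div_not_li_of_min hM hB hχ₀ (fun ψ hψ => by rw [hχ₀h']; exact hmin ψ hψ)
  have hc₀lr := lr_gram_div hM χ₀ χ₀
  rw [hk χ₀, irr_one_eq_degree, ← hd₀] at hc₀ hc₀lr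
  set c₀ : ℂ := (k χ₀ : ℂ) / (d₀ : ℂ) with hc₀def
  have hc₀ne : c₀ ≠ 0 := ne_zero_of_not_li hM hc₀
  obtain ⟨n, hn⟩ := exists_sylow_mult (G := G) hp
  set c : Cfsg.IrrCharacter G → ℂ := fun ψ =>
    (k ψ : ℂ) - (if ψ ∈ B then c₀ * (Cfsg.charDegree (ψ : G → ℂ) : ℂ) else 0) with hc
  have hexp1 : ∀ y : G, ∑ ψ : Cfsg.IrrCharacter G, (k ψ : ℂ) * (ψ : G → ℂ) y =
      ((p ^ a : ℕ) : ℂ) * Cfsg.pRegularPart p (χ₀ : G → ℂ) y := by
    intro y
    have h1 := classFun_apply_eq_sum_irr (Cfsg.pRegularPart p (χ₀ : G → ℂ))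
      (pRegularPart_conj (irr_conj χ₀)) y
    rw [h1, Finset.mul_sum]
    apply Finset.sum_congr rfl
    intro ψ _
    rw [← hk ψ]
    unfold gram
    ring
  have hexp2 : ∀ y : G, ∑ ψ : Cfsg.IrrCharacter G,
      (if ψ ∈ B then c₀ * (Cfsg.charDegree (ψ : G → ℂ) : ℂ) else 0) * (ψ : G → ℂ) y =
      c₀ * ∑ ψ ∈ Bf, (ψ : G → ℂ) 1 * (ψ : G → ℂ) y := by
    intro y
    rw [Finset.mul_sum, hBf, Finset.sum_filter]
    apply Finset.sum_congr rfl
    intro ψ _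
    by_cases hψ : ψ ∈ B
    · rw [if_pos hψ, if_pos hψ, irr_one_eq_degree]; ring
    · rw [if_neg hψ, if_neg hψ, zero_mul]
  have hvanB : ∀ y : G, p ∣ orderOf y → ∑ ψ ∈ Bf, (ψ : G → ℂ) 1 * (ψ : G → ℂ) y = 0 := by
    intro y hy
    have h1 := blockCoeff_eq_zero_of_singular hM hB y⁻¹ (by rwa [orderOf_inv])
    rw [blockCoeff_eq_sum, inv_inv, hBfeq] at h1
    rcases mul_eq_zero.mp h1 with h2 | h2
    · exact absurd (inv_eq_zero.mp h2) card_ne_zero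
    · exact h2
  have hcsum : ∀ y : G, ∑ ψ : Cfsg.IrrCharacter G, c ψ * (ψ : G → ℂ) y =
      ((p ^ a : ℕ) : ℂ) * Cfsg.pRegularPart p (χ₀ : G → ℂ) y -
        c₀ * ∑ ψ ∈ Bf, (ψ : G → ℂ) 1 * (ψ : G → ℂ) y := by
    intro y
    rw [← hexp1, ← hexp2, ← Finset.sum_sub_distrib]
    apply Finset.sum_congr rfl
    intro ψ _
    simp only [hc]
    ring
  have hvan : ∀ y : G, p ∣ orderOf y →
      ∑ ψ : Cfsg.IrrCharacter G, c ψ * (ψ : G → ℂ) y = 0 := by
    intro y hy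
    rw [hcsum, pRegularPart_of_sing hy, hvanB y hy]
    ring
  have h1 := hn c hvan
  rw [hcsum, pRegularPart_of_reg (not_dvd_orderOf_one hp)] at h1
  have hSc : ∑ ψ ∈ Bf, (ψ : G → ℂ) 1 * (ψ : G → ℂ) 1 = (S : ℂ) := by
    rw [hS]
    push_cast
    apply Finset.sum_congr rfl
    intro ψ _
    rw [irr_one_eq_degree]; ring
  rw [hSc, irr_one_eq_degree, ← hd₀] at h1
  -- the coefficients c ψ / p^h are in the local ideal
  have h5 : ∀ ψ : Cfsg.IrrCharacter G, Cfsg.MemLocalIdeal M (c ψ / (p : ℂ) ^ h) := by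
    intro ψ
    by_cases hψ : ψ ∈ B
    · have h6 := li_gram_div_sub hM χ₀ ψ χ₀ (sameBlock_of_mem hM hB hψ hχ₀)
      rw [hk ψ, hk χ₀, irr_one_eq_degree ψ, irr_one_eq_degree χ₀, ← hd₀] at h6
      have hdvd : p ^ h ∣ Cfsg.charDegree (ψ : G → ℂ) :=
        (Nat.pow_dvd_pow p (hmin ψ hψ)).trans (Nat.ordProj_dvd _ p)
      obtain ⟨q, hq⟩ := hdvd
      have hq0 : (q : ℂ) ≠ 0 := by
        intro h0
        have : q = 0 := by exact_mod_cast h0
        rw [this, mul_zero] at hq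
        exact (irr_degree_pos ψ).ne' hq
      have h8 : c ψ / (p : ℂ) ^ h = (q : ℂ) *
          ((k ψ : ℂ) / (Cfsg.charDegree (ψ : G → ℂ) : ℂ) - c₀) := by
        simp only [hc, if_pos hψ]
        rw [hq]
        push_cast
        field_simp
      rw [h8]
      exact lr_mul_li hM (lr_natCast hM q) h6
    · have h6 : c ψ = 0 := by
        simp only [hc, if_neg hψ, sub_zero]
        have h7 := hk ψ
        rw [gram_eq_zero_of_lr hM B (fun g => blockCoeff_lr hM hB g) hχ₀ hψ, mul_zero] at h7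
        rw [← h7]
      rw [h6, zero_div]
      exact li_zero hM
  set μ : ℂ := ∑ ψ : Cfsg.IrrCharacter G, (c ψ / (p : ℂ) ^ h) * (n ψ : ℂ) with hμ
  have hμli : Cfsg.MemLocalIdeal M μ :=
    li_sum hM _ _ (fun ψ _ => li_mul_lr hM (h5 ψ) (lr_natCast hM _))
  have hμeq : ∑ ψ : Cfsg.IrrCharacter G, c ψ * (n ψ : ℂ) = (p : ℂ) ^ h * μ := by
    rw [hμ, Finset.mul_sum]
    apply Finset.sum_congr rfl
    intro ψ _
    field_simp
  rw [hμeq] at h1
  -- z = S / p^(a+h)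
  have hz : c₀ * ((S : ℂ) / (p : ℂ) ^ (a + h)) = (t₀ : ℂ) - μ := by
    have h2 : c₀ * (S : ℂ) = (p : ℂ) ^ (a + h) * ((t₀ : ℂ) - μ) := by
      have h3 : c₀ * (S : ℂ) = ((p ^ a : ℕ) : ℂ) * (d₀ : ℂ) - ((p ^ a : ℕ) : ℂ) * ((p : ℂ) ^ h * μ) := by
        rw [← h1]; ring
      rw [h3, hd₀c]
      push_cast
      rw [pow_add]; ring
    rw [mul_div_assoc', h2]
    field_simp
  have ht₀μ : ¬ Cfsg.MemLocalIdeal M ((t₀ : ℂ) - μ) := by
    intro h2
    have h3 := li_add hM h2 hμli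
    rw [sub_add_cancel] at h3
    exact hpt₀ ((li_natCast_iff hM t₀).mp h3)
  have hzlr : Cfsg.MemLocalRing M ((S : ℂ) / (p : ℂ) ^ (a + h)) := by
    have h2 : (S : ℂ) / (p : ℂ) ^ (a + h) = c₀⁻¹ * ((t₀ : ℂ) - μ) := by
      rw [← hz]; field_simp
    rw [h2]
    exact lr_mul hM (lr_inv_of_not_li hc₀lr hc₀)
      (lr_sub hM (lr_natCast hM t₀) (li_lr hμli))
  have hznli : ¬ Cfsg.MemLocalIdeal M ((S : ℂ) / (p : ℂ) ^ (a + h)) := by
    intro h2
    apply ht₀μ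
    rw [← hz]
    exact lr_mul_li hM hc₀lr h2
  have hdvd := dvd_of_lr_div hM S (a + h) hzlr
  have hS0 : S ≠ 0 := by
    intro h0
    apply hznli
    rw [h0, Nat.cast_zero, zero_div]
    exact li_zero hM
  have hndvd : ¬ p ^ (a + h + 1) ∣ S := by
    rintro ⟨q, hq⟩
    apply hznli
    have h2 : (S : ℂ) / (p : ℂ) ^ (a + h) = (p : ℂ) * (q : ℂ) := by
      rw [hq]
      push_cast
      rw [pow_succ]
      field_simp
    rw [h2]
    exact li_mul_lr hM (li_prime hM) (lr_natCast hM q)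
  have h6 := (hp.pow_dvd_iff_le_factorization hS0).mp hdvd
  have h7 := (hp.pow_dvd_iff_le_factorization hS0).not.mp hndvd
  omega

end Cfsg.Agent.S4491
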