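import Cfsg.Statements.S4490
import Cfsg.Agent.Helper24.BlockDeg2
import Cfsg.Agent.S4491
import Cfsg.Agent.Helper7.Defect

set_option autoImplicit false
open Cfsg

namespace Cfsg.Agent.S4490

open Cfsg.Agent.Helper25 Cfsg.Agent.Helper24
open scoped ComplexConjugate

/-- Let G be a finite group and M a maximal ideal of the algebraic integers containing 2. Every 2-block B of G whose defect groups are the Sylow 2-subgroups of G (a block of full defect) and which is not the principal block is different from its complex-conjugate block, the block formed by the complex conjugates of the members of B. -/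
theorem result {G : Type*} [Group G] [Finite G] (M : Ideal Cfsg.AlgInt) (hM : Cfsg.IsPModular 2 M) (B : Set (Cfsg.IrrCharacter G)) (hB : Cfsg.IsPBlock M B) (P : Sylow 2 G) (hfull : Cfsg.IsDefectGroup 2 M B (P : Subgroup G)) (hnp : B ≠ Cfsg.principalBlock M G) : {ψ : Cfsg.IrrCharacter G | ∃ χ ∈ B, (ψ : G → ℂ) = fun g => (starRingEnd ℂ) ((χ : G → ℂ) g)} ≠ B := by
  classical
  have := Fintype.ofFinite G
  have hp : (2 : ℕ).Prime := Nat.prime_two
  haveI : Fact (2 : ℕ).Prime := ⟨hp⟩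
  set a := (Nat.card G).factorization 2 with ha
  intro heq
  let σ : Cfsg.IrrCharacter G → Cfsg.IrrCharacter G := fun χ =>
    ⟨fun g => conj ((χ : G → ℂ) g), Helper2.isIrrCharacter_conj χ.2⟩
  have hσσ : ∀ χ, σ (σ χ) = χ := by
    intro χ
    apply Subtype.ext
    funext g
    show conj (conj ((χ : G → ℂ) g)) = _
    rw [Complex.conj_conj]
  have hconj : ∀ χ ∈ B, σ χ ∈ B := by
    intro χ hχ
    rw [← heq]
    exact ⟨χ, hχ, rfl⟩
  have hdef : Cfsg.blockDefect 2 B = a := by
    have h1 := Helper7.card_defectGroup hM hB hfull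
    have h2 : Nat.card (P : Subgroup G) = 2 ^ a := Sylow.card_eq_multiplicity P
    rw [h2] at h1
    exact (Nat.pow_right_injective (le_refl 2) h1).symm
  have hSf := Cfsg.Agent.S4491.result 2 M hM B hB
  rw [hdef] at hSf
  set S := ∑ᶠ χ ∈ B, Cfsg.charDegree (χ : G → ℂ) ^ 2 with hS
  set Bf := (Set.toFinite B).toFinset with hBf
  have hSsum : S = ∑ χ ∈ Bf, Cfsg.charDegree (χ : G → ℂ) ^ 2 := by
    rw [hS, finsum_mem_eq_finite_toFinset_sum _ (Set.toFinite B)]
  obtain ⟨χ₁, hχ₁B⟩ : ∃ χ₁, χ₁ ∈ B := by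
    obtain ⟨χ₁, h⟩ := hB
    exact ⟨χ₁, h ▸ self_mem_blockOf hM χ₁⟩
  have hS0 : S ≠ 0 := by
    intro h0
    rw [hSsum] at h0
    have h1 := (Finset.sum_eq_zero_iff.mp h0) χ₁ (by simp [hBf, hχ₁B])
    exact (irr_degree_pos χ₁).ne' (by simpa using h1)
  have hSfac : S.factorization 2 = a := by rw [hSf]; omega
  -- the coefficient at 1
  have hcoef1 : Cfsg.blockCoeff B 1 = (Nat.card G : ℂ)⁻¹ * (S : ℂ) := by
    rw [blockCoeff_eq_sum, hSsum, inv_one]
    push_cast
    congr 1
    apply Finset.sum_congr rfl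
    intro χ _
    rw [irr_one_eq_degree]; ring
  have hnli : ¬ Cfsg.MemLocalIdeal M (Cfsg.blockCoeff B 1) := by
    intro hli
    have h1 : 2 ^ a * (S / 2 ^ a) = S := by
      have := Nat.ordProj_mul_ordCompl_eq_self S 2
      rwa [hSfac] at this
    have h2 : ¬ 2 ∣ S / 2 ^ a := by
      have := Nat.not_dvd_ordCompl hp hS0
      rwa [hSfac] at this
    have h3 : 2 ^ a * (Nat.card G / 2 ^ a) = Nat.card G :=
      Nat.ordProj_mul_ordCompl_eq_self (Nat.card G) 2
    have h4 : ((S / 2 ^ a : ℕ) : ℂ) = ((Nat.card G / 2 ^ a : ℕ) : ℂ) * Cfsg.blockCoeff B 1 := by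
      rw [hcoef1]
      have h5 : (S : ℂ) = (2 : ℂ) ^ a * ((S / 2 ^ a : ℕ) : ℂ) := by exact_mod_cast h1.symm
      have h6 : (Nat.card G : ℂ) = (2 : ℂ) ^ a * ((Nat.card G / 2 ^ a : ℕ) : ℂ) := by
        exact_mod_cast h3.symm
      have h7 : ((Nat.card G / 2 ^ a : ℕ) : ℂ) ≠ 0 := by
        intro h0
        rw [h0, mul_zero] at h6
        exact card_ne_zero h6
      rw [h5, h6]
      field_simp
    have h5 : Cfsg.MemLocalIdeal M ((S / 2 ^ a : ℕ) : ℂ) := by
      rw [h4]; exact lr_mul_li hM (lr_natCast hM _) hli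
    exact h2 ((li_natCast_iff hM _).mp h5)
  -- the principal character is not in B
  have hT : trivChar G ∉ B := by
    intro hT
    apply hnp
    have h1 : B = Cfsg.blockOf M (trivChar G : G → ℂ) := eq_blockOf_of_mem hM hB hT
    rw [h1]
    rfl
  -- the sum of all coefficients vanishes
  have hsum0 : ∑ g : G, Cfsg.blockCoeff B g = 0 := by
    have h1 : ∀ g : G, Cfsg.blockCoeff B g = (Nat.card G : ℂ)⁻¹ *
        ∑ χ ∈ Bf, (χ : G → ℂ) 1 * (χ : G → ℂ) g⁻¹ := fun g => blockCoeff_eq_sum B g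
    rw [Finset.sum_congr rfl (fun g _ => h1 g), ← Finset.mul_sum, Finset.sum_comm]
    have h2 : ∀ χ ∈ Bf, ∑ g : G, (χ : G → ℂ) 1 * (χ : G → ℂ) g⁻¹ = 0 := by
      intro χ hχ
      have hχB : χ ∈ B := by simpa [hBf] using hχ
      have h3 := irr_bil χ (trivChar G)
      have hne : χ ≠ trivChar G := by
        intro h
        rw [h] at hχB
        exact hT hχB
      rw [if_neg hne] at h3
      unfold bil at h3
      have h4 : ∑ g : G, (χ : G → ℂ) g * (trivChar G : G → ℂ) g⁻¹ = 0 := by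
        rcases mul_eq_zero.mp h3 with h5 | h5
        · exact absurd (inv_eq_zero.mp h5) card_ne_zero
        · exact h5
      have h5 : ∑ g : G, (χ : G → ℂ) g⁻¹ = ∑ g : G, (χ : G → ℂ) g :=
        Equiv.sum_comp (Equiv.inv G) (fun g => (χ : G → ℂ) g)
      rw [← Finset.mul_sum, h5]
      have h6 : ∑ g : G, (χ : G → ℂ) g = 0 := by
        rw [← h4]
        apply Finset.sum_congr rfl
        intro g _
        rw [trivChar_apply, mul_one]
      rw [h6, mul_zero]
    rw [Finset.sum_eq_zero h2, mul_zero]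
  -- symmetry
  have hsymm : ∀ g : G, Cfsg.blockCoeff B g⁻¹ = Cfsg.blockCoeff B g := by
    intro g
    rw [blockCoeff_eq_sum, blockCoeff_eq_sum, inv_inv]
    congr 1
    apply Finset.sum_nbij' σ σ
    · intro χ hχ
      have hχB : χ ∈ B := by simpa [hBf] using hχ
      simpa [hBf] using hconj χ hχB
    · intro χ hχ
      have hχB : χ ∈ B := by simpa [hBf] using hχ
      simpa [hBf] using hconj χ hχB
    · intro χ _
      exact hσσ χ
    · intro χ _
      exact hσσ χ
    · intro χ _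
      show (χ : G → ℂ) 1 * (χ : G → ℂ) g = conj ((χ : G → ℂ) 1) * conj ((χ : G → ℂ) g⁻¹)
      rw [irr_inv χ g, Complex.conj_conj, irr_one_eq_degree, Complex.conj_natCast]
  obtain ⟨T, hTsum⟩ := sum_odd_inv_invariant (fun g => Cfsg.blockCoeff B g) hsymm
  have h1 : ∀ g : G, (if 2 ∣ orderOf g then (0 : ℂ) else Cfsg.blockCoeff B g) =
      Cfsg.blockCoeff B g := by
    intro g
    by_cases hg : 2 ∣ orderOf g
    · rw [if_pos hg, blockCoeff_eq_zero_of_singular hM hB g hg]
    · rw [if_neg hg]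
  rw [Finset.sum_congr rfl (fun g _ => h1 g), hsum0] at hTsum
  apply hnli
  have h2 : Cfsg.blockCoeff B 1 = -(((2 : ℕ) : ℂ) * ∑ t ∈ T, Cfsg.blockCoeff B t.1) := by
    push_cast
    linear_combination -hTsum
  rw [h2]
  exact li_neg (li_mul_lr hM (li_prime hM) (lr_sum hM _ _ (fun t _ => blockCoeff_lr hM hB t.1)))

end Cfsg.Agent.S4490
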