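import Cfsg.Statements.S4494
import Cfsg.Agent.Helper24.BlockDeg2

set_option autoImplicit false
open Cfsg

namespace Cfsg.Agent.S4494

open Cfsg.Agent.Helper25 Cfsg.Agent.Helper24

/-- The Brauer–Feit bound. Let B be a p-block of the finite group G (relative to a maximal ideal M of the algebraic integers containing p) and let d be its defect. Then the number k(B) of irreducible characters in B satisfies k(B) ≤ p^(2d)/4 + 1, stated here as 4·k(B) ≤ p^(2d) + 4. -/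
theorem result {G : Type*} [Group G] [Finite G] (p : ℕ) [Fact p.Prime] (M : Ideal Cfsg.AlgInt) (hM : Cfsg.IsPModular p M) (B : Set (Cfsg.IrrCharacter G)) (hB : Cfsg.IsPBlock M B) : 4 * Nat.card B ≤ p ^ (2 * Cfsg.blockDefect p B) + 4 := by
  classical
  have := Fintype.ofFinite G
  have hp : p.Prime := Fact.out
  obtain ⟨χ₁, hχ₁B⟩ : ∃ χ₁, χ₁ ∈ B := by
    obtain ⟨χ₁, h⟩ := hB
    exact ⟨χ₁, h ▸ self_mem_blockOf hM χ₁⟩
  set Sset := (fun ψ : Cfsg.IrrCharacter G => (Cfsg.charDegree (ψ : G → ℂ)).factorization p) '' B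
    with hSset
  have hSne : Sset.Nonempty := ⟨_, χ₁, hχ₁B, rfl⟩
  obtain ⟨χ₀, hχ₀, hχ₀h⟩ := Nat.sInf_mem hSne
  have hmin : ∀ ψ ∈ B, (Cfsg.charDegree (χ₀ : G → ℂ)).factorization p ≤
      (Cfsg.charDegree (ψ : G → ℂ)).factorization p :=
    fun ψ hψ => by
      have h1 : (Cfsg.charDegree (χ₀ : G → ℂ)).factorization p = sInf Sset := hχ₀h
      rw [h1]; exact Nat.sInf_le ⟨ψ, hψ, rfl⟩
  set d := Cfsg.blockDefect p B with hd
  choose k hk using fun ψ : Cfsg.IrrCharacter G => gram_defect_int hM B hχ₀ ψ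
  have hpd : ((p ^ d : ℕ) : ℂ) ≠ 0 := by exact_mod_cast (pow_pos hp.pos _).ne'
  have hne : ∀ ψ ∈ B, k ψ ≠ 0 := by
    intro ψ hψ h0
    have hg0 : gram p (χ₀ : G → ℂ) (ψ : G → ℂ) = 0 := by
      have h1 := hk ψ
      rw [h0, Int.cast_zero] at h1
      rcases mul_eq_zero.mp h1 with h2 | h2
      · exact absurd h2 hpd
      · exact h2
    have h6 := li_gram_div_sub hM χ₀ χ₀ ψ (sameBlock_of_mem hM hB hχ₀ hψ)
    rw [hg0, mul_zero, zero_div, sub_zero] at h6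
    exact gram_div_not_li_of_min hM hB hχ₀ hmin h6
  have hB' : ∀ g, Cfsg.MemLocalRing M (Cfsg.blockCoeff B g) := fun g => blockCoeff_lr hM hB g
  have hidem := gram_idem_block hM B hB' hχ₀ χ₀
  set Bf := (Set.toFinite B).toFinset with hBf
  have hsq : ∑ ψ ∈ Bf, (k ψ) ^ 2 = (p : ℤ) ^ d * k χ₀ := by
    have h1 : ((∑ ψ ∈ Bf, (k ψ) ^ 2 : ℤ) : ℂ) = (((p : ℤ) ^ d * k χ₀ : ℤ) : ℂ) := by
      push_cast
      have h2 : ∀ ψ ∈ Bf, ((k ψ : ℂ)) ^ 2 = ((p ^ d : ℕ) : ℂ) ^ 2 *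
          (gram p (χ₀ : G → ℂ) (ψ : G → ℂ) * gram p (ψ : G → ℂ) (χ₀ : G → ℂ)) := by
        intro ψ _
        rw [gram_symm hp χ₀ ψ, ← hk ψ]; ring
      rw [Finset.sum_congr rfl h2, ← Finset.mul_sum, hidem, ← hk χ₀]
      push_cast; ring
    exact_mod_cast h1
  have hχ₀Bf : χ₀ ∈ Bf := by simp [hBf, hχ₀]
  have hge : ((Bf.card : ℤ) - 1) + (k χ₀) ^ 2 ≤ ∑ ψ ∈ Bf, (k ψ) ^ 2 := by
    rw [← Finset.add_sum_erase Bf _ hχ₀Bf]
    have h1 : ((Bf.erase χ₀).card : ℤ) ≤ ∑ ψ ∈ Bf.erase χ₀, (k ψ) ^ 2 := by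
      have h3 : ∀ ψ ∈ Bf.erase χ₀, (1 : ℤ) ≤ (k ψ) ^ 2 := by
        intro ψ hψ
        have hψB : ψ ∈ B := by
          have := Finset.mem_of_mem_erase hψ
          simpa [hBf] using this
        have h4 := hne ψ hψB
        have h2 : 0 < (k ψ) ^ 2 := by positivity
        linarith
      calc ((Bf.erase χ₀).card : ℤ) = ∑ ψ ∈ Bf.erase χ₀, (1 : ℤ) := by simp
        _ ≤ _ := Finset.sum_le_sum h3
    rw [Finset.card_erase_of_mem hχ₀Bf] at h1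
    have h5 : 1 ≤ Bf.card := Finset.card_pos.mpr ⟨χ₀, hχ₀Bf⟩
    push_cast [Nat.cast_sub h5] at h1
    linarith
  have hcard : Nat.card B = Bf.card := by
    rw [Nat.card_coe_set_eq, Set.ncard_eq_toFinset_card B (Set.toFinite B)]
  rw [hcard]
  have hfin : 4 * (Bf.card : ℤ) ≤ ((p : ℤ) ^ d) ^ 2 + 4 := by
    rw [hsq] at hge
    nlinarith [sq_nonneg ((p : ℤ) ^ d - 2 * k χ₀)]
  have h7 : ((4 * Bf.card : ℕ) : ℤ) ≤ ((p ^ (2 * d) + 4 : ℕ) : ℤ) := by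
    push_cast
    rw [mul_comm 2 d, pow_mul]
    exact hfin
  exact_mod_cast h7

end Cfsg.Agent.S4494
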