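import Cfsg.Statements.S4495
import Cfsg.Agent.Helper24.SelfCent

set_option autoImplicit false
open Cfsg

namespace Cfsg.Agent.S4495

open Cfsg.Agent.Helper24

/-- Let the finite group G contain an element x of prime order p with C_G(x) = ⟨x⟩, and let t be the number of conjugacy classes of elements of order p. If t ≠ p − 1 then the commutator subgroup has index at most (p − 1)/t; if t = p − 1 it has index exactly p. -/
theorem result {G : Type*} [Group G] [Finite G] (p : ℕ) (hp : p.Prime) (x : G) (hx : orderOf x = p) (hC : Subgroup.centralizer ({x} : Set G) = Subgroup.zpowers x) (t : ℕ) (ht : Nat.card {C : ConjClasses G // ∃ g ∈ C.carrier, orderOf g = p} = t) : (t ≠ p - 1 → (commutator G).index * t ≤ p - 1) ∧ (t = p - 1 → (commutator G).index = p) := by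
  have hcount := sc_class_count hp hx hC
  rw [ht] at hcount
  have hepos := sc_relIndex_pos (G := G) (x := x)
  have hp1 : 0 < p - 1 := by have := hp.two_le; omega
  constructor
  · intro hne
    have he1 : (Subgroup.zpowers x).relIndex
        (Subgroup.normalizer ((Subgroup.zpowers x : Subgroup G) : Set G)) ≠ 1 := by
      intro h; rw [h, mul_one] at hcount; exact hne hcount
    have hXle := sc_zpowers_le_commutator hp hx hC he1
    have hdvd := sc_index_dvd hp hx hC (commutator G) hXle
    have hle := Nat.le_of_dvd hepos hdvd
    calc (commutator G).index * t ≤ (Subgroup.zpowers x).relIndex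
          (Subgroup.normalizer ((Subgroup.zpowers x : Subgroup G) : Set G)) * t :=
          Nat.mul_le_mul_right t hle
      _ = p - 1 := by rw [mul_comm]; exact hcount
  · intro heq
    rw [heq] at hcount
    have he1 : (Subgroup.zpowers x).relIndex
        (Subgroup.normalizer ((Subgroup.zpowers x : Subgroup G) : Set G)) = 1 :=
      Nat.eq_of_mul_eq_mul_left hp1 (by rw [hcount, mul_one])
    have hN := Subgroup.relIndex_eq_one.1 he1
    exact (sc_comm_of_e_one hp hx hC hN).2

end Cfsg.Agent.S4495
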