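import Cfsg.Statements.S4497
import Cfsg.Agent.Helper24.SelfCent

set_option autoImplicit false
open Cfsg

namespace Cfsg.Agent.S4497

open Cfsg.Agent.Helper24

/-- Let the finite group G contain an element x of prime order p with C_G(x) = ⟨x⟩, let t be the number of conjugacy classes of elements of order p, and let S* = O_{p′}(G) be the largest normal subgroup of order prime to p. Then S* ≤ G′; if t ≠ p − 1 the quotient G′/S* is simple (in particular non-trivial); if t = p − 1 then G′ = S*. -/
theorem result {G : Type*} [Group G] [Finite G] (p : ℕ) (hp : p.Prime) (x : G) (hx : orderOf x = p) (hC : Subgroup.centralizer ({x} : Set G) = Subgroup.zpowers x) (t : ℕ) (ht : Nat.card {C : ConjClasses G // ∃ g ∈ C.carrier, orderOf g = p} = t) : Cfsg.pPrimeCore p G ≤ commutator G ∧ (t ≠ p - 1 → ∀ h : ((Cfsg.pPrimeCore p G).subgroupOf (commutator G)).Normal, IsSimpleGroup (↥(commutator G) ⧸ (Cfsg.pPrimeCore p G).subgroupOf (commutator G))) ∧ (t = p - 1 → commutator G = Cfsg.pPrimeCore p G) := by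
  have hcount := sc_class_count hp hx hC
  rw [ht] at hcount
  have hp1 : 0 < p - 1 := by have := hp.two_le; omega
  haveI hSn := h24_pPrimeCore_normal p G
  have hSp : ¬ p ∣ Nat.card (Cfsg.pPrimeCore p G) := h24_pPrimeCore_not_dvd hp
  have hle : Cfsg.pPrimeCore p G ≤ commutator G := sc_le_commutator hp hx hC _ hSp
  refine ⟨hle, ?_, ?_⟩
  · intro hne hnorm
    have he1 : (Subgroup.zpowers x).relIndex
        (Subgroup.normalizer ((Subgroup.zpowers x : Subgroup G) : Set G)) ≠ 1 := by
      intro h; rw [h, mul_one] at hcount; exact hne hcount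
    have hXle := sc_zpowers_le_commutator hp hx hC he1
    exact sc_simple hp hx hC hXle
  · intro heq
    rw [heq] at hcount
    have he1 : (Subgroup.zpowers x).relIndex
        (Subgroup.normalizer ((Subgroup.zpowers x : Subgroup G) : Set G)) = 1 :=
      Nat.eq_of_mul_eq_mul_left hp1 (by rw [hcount, mul_one])
    have hN := Subgroup.relIndex_eq_one.1 he1
    obtain ⟨h1, h2⟩ := sc_comm_of_e_one hp hx hC hN
    exact le_antisymm (h24_le_pPrimeCore hp _ h1) hle

end Cfsg.Agent.S4497
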