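import Cfsg.Statements.S4498
import Cfsg.Agent.Helper25.BlockBrauer

set_option autoImplicit false
open Cfsg

namespace Cfsg.Agent.S4498

open Cfsg.Agent.Helper25

theorem sum_sing_ne_zero {G : Type*} [Group G] [Fintype G] (r : ℕ) [Fact r.Prime]
    (hr : r ∣ Nat.card G) :
    (Nat.card G : ℂ) - ∑ g : G, pRegularPart r (fun _ : G => (1 : ℂ)) g ≠ 0 := by
  classical
  have h1 : (Nat.card G : ℂ) - ∑ g : G, pRegularPart r (fun _ : G => (1 : ℂ)) g =
      ∑ g : G, (if r ∣ orderOf g then (1 : ℂ) else 0) := by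
    have h2 : (Nat.card G : ℂ) = ∑ g : G, (1 : ℂ) := by
      rw [Finset.sum_const, Finset.card_univ, Nat.card_eq_fintype_card]
      simp
    rw [h2, ← Finset.sum_sub_distrib]
    apply Finset.sum_congr rfl
    intro g _
    by_cases h : r ∣ orderOf g
    · rw [pRegularPart_of_sing h, if_pos h, sub_zero]
    · rw [pRegularPart_of_reg h, if_neg h, sub_self]
  rw [h1, ← Finset.sum_filter, Finset.sum_const]
  obtain ⟨x, hx⟩ := exists_prime_orderOf_dvd_card' r hr
  have h3 : (Finset.univ.filter (fun g : G => r ∣ orderOf g)).card ≠ 0 := by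
    apply Finset.card_ne_zero.mpr
    exact ⟨x, by simp [hx]⟩
  simpa using h3

/-- Let p and q be distinct primes dividing the order of the finite group G, and suppose G has no element of order p·q. Fix maximal ideals M_p over p and M_q over q of the algebraic integers. Then the principal p-block and the principal q-block of G have a non-principal irreducible character in common. -/
theorem result {G : Type*} [Group G] [Finite G] (p q : ℕ) [Fact p.Prime] [Fact q.Prime] (hpq : p ≠ q) (hp : p ∣ Nat.card G) (hq : q ∣ Nat.card G) (hno : ∀ g : G, orderOf g ≠ p * q) (Mp Mq : Ideal Cfsg.AlgInt) (hMp : Cfsg.IsPModular p Mp) (hMq : Cfsg.IsPModular q Mq) : ∃ χ : Cfsg.IrrCharacter G, (χ : G → ℂ) ≠ (fun _ => 1) ∧ χ ∈ Cfsg.principalBlock Mp G ∧ χ ∈ Cfsg.principalBlock Mq G := by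
  classical
  have := Fintype.ofFinite G
  have hpp : p.Prime := Fact.out
  have hqp : q.Prime := Fact.out
  by_contra hcon
  push Not at hcon
  set T := trivChar G with hT
  have hTfun : (T : G → ℂ) = fun _ => (1 : ℂ) := rfl
  set u : ℕ → G → ℂ := fun r g => Cfsg.pRegularPart r (fun _ : G => (1 : ℂ)) g with hu
  have hexp : ∀ (r : ℕ) (g : G), u r g =
      ∑ ψ : Cfsg.IrrCharacter G, gram r (T : G → ℂ) (ψ : G → ℂ) * (ψ : G → ℂ) g := by
    intro r g
    have h1 := classFun_apply_eq_sum_irr (Cfsg.pRegularPart r (T : G → ℂ))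
      (pRegularPart_conj (irr_conj T)) g
    exact h1
  have hgram : ∀ (r : ℕ) (ψ : Cfsg.IrrCharacter G), ∑ g : G, u r g * (ψ : G → ℂ) g⁻¹ =
      (Nat.card G : ℂ) * gram r (T : G → ℂ) (ψ : G → ℂ) := by
    intro r ψ
    rw [gram_eq, ← mul_assoc, mul_inv_cancel₀ card_ne_zero, one_mul]
    rfl
  have hI : ∑ g : G, u p g * u q g⁻¹ = (Nat.card G : ℂ) *
      ∑ ψ : Cfsg.IrrCharacter G, gram p (T : G → ℂ) (ψ : G → ℂ) * gram q (T : G → ℂ) (ψ : G → ℂ) := by
    have h1 : ∀ g : G, u p g * u q g⁻¹ = ∑ ψ : Cfsg.IrrCharacter G,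
        gram q (T : G → ℂ) (ψ : G → ℂ) * (u p g * (ψ : G → ℂ) g⁻¹) := by
      intro g
      rw [hexp q g⁻¹, Finset.mul_sum]
      apply Finset.sum_congr rfl
      intro ψ _
      ring
    rw [Finset.sum_congr rfl (fun g _ => h1 g), Finset.sum_comm, Finset.mul_sum]
    apply Finset.sum_congr rfl
    intro ψ _
    rw [← Finset.mul_sum, hgram p ψ]
    ring
  have hterm : ∀ ψ : Cfsg.IrrCharacter G, ψ ≠ T →
      gram p (T : G → ℂ) (ψ : G → ℂ) * gram q (T : G → ℂ) (ψ : G → ℂ) = 0 := by
    intro ψ hψ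
    by_cases h1 : ψ ∈ Cfsg.principalBlock Mp G
    · have h2 : ψ ∉ Cfsg.principalBlock Mq G :=
        hcon ψ (fun h => hψ (Subtype.ext h)) h1
      rw [gram_eq_zero_of_lr hMq (Cfsg.principalBlock Mq G)
        (fun g => blockCoeff_lr hMq isPBlock_principalBlock g)
        (trivChar_mem_principalBlock hMq) h2, mul_zero]
    · rw [gram_eq_zero_of_lr hMp (Cfsg.principalBlock Mp G)
        (fun g => blockCoeff_lr hMp isPBlock_principalBlock g)
        (trivChar_mem_principalBlock hMp) h1, zero_mul]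
  have hsumT : ∑ ψ : Cfsg.IrrCharacter G,
      gram p (T : G → ℂ) (ψ : G → ℂ) * gram q (T : G → ℂ) (ψ : G → ℂ) =
      gram p (T : G → ℂ) (T : G → ℂ) * gram q (T : G → ℂ) (T : G → ℂ) :=
    Finset.sum_eq_single T (fun ψ _ hψ => hterm ψ hψ) (fun h => absurd (Finset.mem_univ _) h)
  have hgTT : ∀ r : ℕ, gram r (T : G → ℂ) (T : G → ℂ) = (Nat.card G : ℂ)⁻¹ * ∑ g : G, u r g := by
    intro r
    rw [gram_eq]
    congr 1
    apply Finset.sum_congr rfl
    intro g _
    rw [trivChar_apply, mul_one]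
    rfl
  have hpt : ∀ g : G, u p g * u q g⁻¹ = u p g + u q g - 1 := by
    intro g
    have hg : ¬ p ∣ orderOf g ∨ ¬ q ∣ orderOf g := by
      by_contra h
      push Not at h
      have hdvd : p * q ∣ orderOf g :=
        Nat.Coprime.mul_dvd_of_dvd_of_dvd ((Nat.coprime_primes hpp hqp).mpr hpq) h.1 h.2
      obtain ⟨k, hk⟩ := hdvd
      have hk0 : k ≠ 0 := by
        rintro rfl
        rw [mul_zero] at hk
        exact (orderOf_pos g).ne' hk
      have h1 := orderOf_pow_of_dvd hk0 (Dvd.intro_left _ hk.symm)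
      exact hno (g ^ k) (by rw [h1, hk, Nat.mul_div_cancel _ (Nat.pos_of_ne_zero hk0)])
    simp only [hu]
    by_cases hp' : p ∣ orderOf g
    · have hq' : ¬ q ∣ orderOf g := by
        rcases hg with h | h
        · exact absurd hp' h
        · exact h
      rw [pRegularPart_of_sing hp', pRegularPart_of_reg hq']
      ring
    · by_cases hq' : q ∣ orderOf g
      · rw [pRegularPart_of_reg hp', pRegularPart_of_sing hq',
          pRegularPart_of_sing (by rwa [orderOf_inv])]
        ring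
      · rw [pRegularPart_of_reg hp', pRegularPart_of_reg hq',
          pRegularPart_of_reg (by rwa [orderOf_inv])]
        ring
  set A := ∑ g : G, u p g with hA
  set Bq := ∑ g : G, u q g with hBq
  have hN : ∑ g : G, (1 : ℂ) = (Nat.card G : ℂ) := by
    rw [Finset.sum_const, Finset.card_univ, Nat.card_eq_fintype_card]
    simp
  have hkey : A + Bq - (Nat.card G : ℂ) =
      (Nat.card G : ℂ) * (((Nat.card G : ℂ)⁻¹ * A) * ((Nat.card G : ℂ)⁻¹ * Bq)) := by
    rw [← hgTT p, ← hgTT q, ← hsumT, ← hI, Finset.sum_congr rfl (fun g _ => hpt g),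
      Finset.sum_sub_distrib, Finset.sum_add_distrib, hN]
  have hprod : ((Nat.card G : ℂ) - A) * ((Nat.card G : ℂ) - Bq) = 0 := by
    have hne : (Nat.card G : ℂ) ≠ 0 := card_ne_zero
    have h2 : (A + Bq - (Nat.card G : ℂ)) * (Nat.card G : ℂ) = A * Bq := by
      rw [hkey]
      field_simp
    linear_combination -h2
  rcases mul_eq_zero.mp hprod with h | h
  · exact sum_sing_ne_zero p hp h
  · exact sum_sing_ne_zero q hq h

end Cfsg.Agent.S4498
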