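import Cfsg.Statements.S4499
import Cfsg.Agent.Helper24.BlockDeg

set_option autoImplicit false
open Cfsg

namespace Cfsg.Agent.S4499

open Cfsg.Agent.Helper25 Cfsg.Agent.Helper24

/-- Let G be a finite group whose order has p-part p^a (a ≥ 1), and fix a maximal ideal M of the algebraic integers containing p. If the degree of one irreducible character of a p-block B is divisible by p^(a−1), then the degree of every irreducible character in B is divisible by p^(a−1) (so B has defect at most 1). -/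
theorem result {G : Type*} [Group G] [Finite G] (p : ℕ) [Fact p.Prime] (M : Ideal Cfsg.AlgInt) (hM : Cfsg.IsPModular p M) (hpa : p ∣ Nat.card G) (B : Set (Cfsg.IrrCharacter G)) (hB : Cfsg.IsPBlock M B) (χ : Cfsg.IrrCharacter G) (hχ : χ ∈ B) (hdiv : p ^ ((Nat.card G).factorization p - 1) ∣ Cfsg.charDegree (χ : G → ℂ)) (ψ : Cfsg.IrrCharacter G) (hψ : ψ ∈ B) : p ^ ((Nat.card G).factorization p - 1) ∣ Cfsg.charDegree (ψ : G → ℂ) := by
  classical
  have := Fintype.ofFinite G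
  have hp : p.Prime := Fact.out
  set a := (Nat.card G).factorization p with ha
  have ha1 : 1 ≤ a := (hp.dvd_iff_one_le_factorization Nat.card_pos.ne').mp hpa
  set dχ := Cfsg.charDegree (χ : G → ℂ) with hdχ
  have hdχ0 : dχ ≠ 0 := (irr_degree_pos χ).ne'
  by_cases hfull : a ≤ dχ.factorization p
  · have h1 := eq_of_mem_block_of_defect_zero hM hB hχ hψ hfull
    rw [h1]; exact hdiv
  push Not at hfull
  have hfac : dχ.factorization p = a - 1 := by
    have := (hp.pow_dvd_iff_le_factorization hdχ0).mp hdiv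
    omega
  set t := dχ / p ^ (a - 1) with ht
  have hdt : p ^ (a - 1) * t = dχ := by
    have h1 := Nat.ordProj_mul_ordCompl_eq_self dχ p
    rw [hfac] at h1; exact h1
  have hpt : ¬ p ∣ t := by
    have h1 := Nat.not_dvd_ordCompl hp hdχ0
    rw [hfac] at h1; exact h1
  have hp0 : (p : ℂ) ≠ 0 := by exact_mod_cast hp.ne_zero
  have ht0 : (t : ℂ) ≠ 0 := by
    intro h0
    have : t = 0 := by exact_mod_cast h0
    rw [this, mul_zero] at hdt
    exact hdχ0 hdt.symm
  obtain ⟨k, hk⟩ := gram_int hp χ χ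
  obtain ⟨kψ, hkψ⟩ := gram_int hp χ ψ
  have hstep1 : ∀ (ψ' : Cfsg.IrrCharacter G) (k' : ℤ),
      ((p ^ a : ℕ) : ℂ) * gram p (χ : G → ℂ) (ψ' : G → ℂ) = k' → (p : ℤ) ^ (a - 1) ∣ k' := by
    intro ψ' k' hk'
    have h1 := lr_gram_div hM ψ' χ
    rw [gram_symm hp χ ψ', hk', irr_one_eq_degree, ← hdχ, ← hdt] at h1
    apply dvd_of_lr_div_int hM
    have h2 : (k' : ℂ) / (p : ℂ) ^ (a - 1) =
        (t : ℂ) * ((k' : ℂ) / ((p ^ (a - 1) * t : ℕ) : ℂ)) := by
      push_cast
      field_simp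
    rw [h2]
    exact lr_mul hM (lr_natCast hM t) h1
  obtain ⟨j, hj⟩ := hstep1 χ k hk
  obtain ⟨n, hn⟩ := hstep1 ψ kψ hkψ
  have hj' : ¬ (p : ℤ) ∣ j := by
    obtain ⟨ρ, hρ, hρ0, hρ1, hρv⟩ := gram_self_bounds hp χ
    have hρlt : ρ < 1 := by
      rcases lt_or_eq_of_le hρ1 with h | h
      · exact h
      · exfalso
        have h1 := pow_dvd_degree_of_vanish hp χ (hρv h)
        have h2 := (hp.pow_dvd_iff_le_factorization hdχ0).mp h1
        omega
    have hkρ : (k : ℝ) = (p : ℝ) ^ a * ρ := by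
      have h1 : ((k : ℝ) : ℂ) = (((p : ℝ) ^ a * ρ : ℝ) : ℂ) := by
        push_cast
        rw [← hρ, ← hk]
        push_cast
        ring
      exact Complex.ofReal_injective h1
    intro hdvd
    obtain ⟨j', rfl⟩ := hdvd
    have hk2 : (k : ℝ) = (p : ℝ) ^ a * j' := by
      rw [hj]
      push_cast
      have h1 : (p : ℝ) ^ a = (p : ℝ) ^ (a - 1) * p := by
        rw [← pow_succ]; congr 1; omega
      rw [h1]; ring
    have hpp : (0 : ℝ) < (p : ℝ) ^ a := pow_pos (by exact_mod_cast hp.pos) _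
    have h3 : (j' : ℝ) = ρ := by
      have h4 := hkρ.symm.trans hk2
      exact (mul_left_cancel₀ hpp.ne' h4).symm
    have h0 : (0 : ℝ) < j' := by rw [h3]; exact hρ0
    have h1 : (j' : ℝ) < 1 := by rw [h3]; exact hρlt
    have h0' : (0 : ℤ) < j' := by exact_mod_cast h0
    have h1' : j' < (1 : ℤ) := by exact_mod_cast h1
    omega
  have hsb : Cfsg.SameBlock M (ψ : G → ℂ) (χ : G → ℂ) := sameBlock_of_mem hM hB hψ hχ
  have hli := li_gram_div_sub hM χ ψ χ hsb
  rw [hk, hkψ] at hli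
  have hunit : ¬ Cfsg.MemLocalIdeal M ((k : ℂ) / (χ : G → ℂ) 1) := by
    intro hli2
    have h2 : (j : ℂ) = (t : ℂ) * ((k : ℂ) / (χ : G → ℂ) 1) := by
      rw [irr_one_eq_degree, ← hdχ, ← hdt, hj]
      push_cast
      field_simp
    have h3 : Cfsg.MemLocalIdeal M (j : ℂ) := by
      rw [h2]; exact lr_mul_li hM (lr_natCast hM t) hli2
    exact hj' ((li_intCast_iff hM j).mp h3)
  have hunit2 : ¬ Cfsg.MemLocalIdeal M ((kψ : ℂ) / (ψ : G → ℂ) 1) := by
    intro h2
    apply hunit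
    have h3 := li_sub hM h2 hli
    rwa [sub_sub_cancel] at h3
  set dψ := Cfsg.charDegree (ψ : G → ℂ) with hdψ
  have hdψ0 : dψ ≠ 0 := (irr_degree_pos ψ).ne'
  by_contra hnd
  have hlt : dψ.factorization p + 1 ≤ a - 1 := by
    have h1 := (hp.pow_dvd_iff_le_factorization hdψ0).not.mp hnd
    omega
  set e := dψ.factorization p with he
  set s := dψ / p ^ e with hs
  have hds : p ^ e * s = dψ := Nat.ordProj_mul_ordCompl_eq_self dψ p
  have hps : ¬ p ∣ s := Nat.not_dvd_ordCompl hp hdψ0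
  have hs0 : (s : ℂ) ≠ 0 := by
    intro h0
    have : s = 0 := by exact_mod_cast h0
    rw [this, mul_zero] at hds
    exact hdψ0 hds.symm
  apply hunit2
  have h5 : (kψ : ℂ) / (ψ : G → ℂ) 1 =
      (p : ℂ) * (((p : ℂ) ^ (a - 1 - (e + 1)) * (n : ℂ)) * (s : ℂ)⁻¹) := by
    rw [irr_one_eq_degree, ← hdψ, ← hds, hn]
    push_cast
    have h6 : (p : ℂ) ^ (a - 1) = (p : ℂ) ^ (a - 1 - (e + 1)) * (p : ℂ) ^ e * p := by
      rw [mul_assoc, ← pow_succ, ← pow_add]; congr 1; omega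
    rw [h6]
    field_simp
  rw [h5]
  exact li_mul_lr hM (li_prime hM) (lr_mul hM (lr_mul hM (lr_pow hM (lr_natCast hM p) _)
    (lr_intCast hM n)) (lr_natCast_inv hM hps))

end Cfsg.Agent.S4499
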