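import Cfsg.Statements.S4676
import Mathlib
import Cfsg.Agent.Helper25.BlockBF

set_option autoImplicit false
open Cfsg

namespace Cfsg.Agent.S4676

/-- Fix a prime p and a maximal ideal M of the algebraic integers containing p. Let B be a p-block of the finite group G with defect group P. For χ in B, let the height of χ be the exponent of p in the degree of χ minus the least such exponent over the members of B. Then the sum over χ in B of p raised to twice the height of χ is at most the integer part of (order of P)²/4, plus 1; in particular B has at most that many irreducible characters. -/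
theorem result {G : Type*} [Group G] [Fintype G] (p : ℕ) [Fact p.Prime] (M : Ideal Cfsg.AlgInt) (hM : Cfsg.IsPModular p M) (B : Set (Cfsg.IrrCharacter G)) (hB : Cfsg.IsPBlock M B) (P : Subgroup G) (hP : Cfsg.IsDefectGroup p M B P) : ∑ᶠ χ ∈ B, p ^ (2 * Cfsg.blockHeight p B (χ : G → ℂ)) ≤ Nat.card P ^ 2 / 4 + 1 := by
  classical
  have hp := hM.1
  have hPcard : Nat.card P = p ^ blockDefect p B :=
    Cfsg.Agent.Helper7.card_defectGroup hM hB hP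
  obtain ⟨χ₀, hχ₀, h0⟩ := Cfsg.Agent.Helper7.exists_height_zero hM hB
  obtain ⟨d, hd⟩ : ∃ d : ℕ, d = blockDefect p B := ⟨_, rfl⟩
  obtain ⟨S, hS⟩ : ∃ S : Finset (IrrCharacter G), S = (Set.toFinite B).toFinset := ⟨_, rfl⟩
  have hmem : ∀ ψ : IrrCharacter G, ψ ∈ S ↔ ψ ∈ B := fun ψ => by
    rw [hS]; exact Set.Finite.mem_toFinset _
  choose n hn using (fun ψ : IrrCharacter G => Cfsg.Agent.Helper25.gram_defect_int hM B hχ₀ ψ)
  rw [← hd] at hn hPcard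
  have hpd : ((p ^ d : ℕ) : ℂ) ≠ 0 := by exact_mod_cast (pow_pos hp.pos _).ne'
  have hgram : ∀ ψ : IrrCharacter G,
      Cfsg.Agent.Helper25.gram p (χ₀ : G → ℂ) (ψ : G → ℂ) = (n ψ : ℂ) / ((p ^ d : ℕ) : ℂ) := by
    intro ψ
    rw [← hn ψ]
    field_simp
  have hkey : ∑ ψ ∈ S, n ψ ^ 2 = (p : ℤ) ^ d * n χ₀ := by
    have h1 := Cfsg.Agent.Helper25.gram_idem_block hM B
      (Cfsg.Agent.Helper25.blockCoeff_lr hM hB) hχ₀ χ₀
    rw [← hS] at h1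
    have h2 : ∀ ψ ∈ S, Cfsg.Agent.Helper25.gram p (χ₀ : G → ℂ) (ψ : G → ℂ) *
        Cfsg.Agent.Helper25.gram p (ψ : G → ℂ) (χ₀ : G → ℂ)
        = ((n ψ : ℂ)) ^ 2 / ((p ^ d : ℕ) : ℂ) ^ 2 := by
      intro ψ _
      rw [Cfsg.Agent.Helper25.gram_conj χ₀ ψ, hgram ψ]
      simp only [map_div₀, map_intCast, map_natCast]
      field_simp
    rw [Finset.sum_congr rfl h2, hgram χ₀, ← Finset.sum_div] at h1
    have h3 : ((∑ ψ ∈ S, n ψ ^ 2 : ℤ) : ℂ) = (((p : ℤ) ^ d * n χ₀ : ℤ) : ℂ) := by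
      push_cast
      push_cast at h1 hpd
      field_simp at h1
      linear_combination h1
    exact_mod_cast h3
  obtain ⟨s₀, hs₀nd, hs₀⟩ := Cfsg.Agent.Helper25.gram_height hM hB hχ₀ h0 hχ₀
  rw [← hd] at hs₀
  have hn₀ne : n χ₀ ≠ 0 := by
    intro h
    rw [hn χ₀, h0, pow_zero, Nat.cast_one, one_mul] at hs₀
    have h1 : n χ₀ = s₀ := by exact_mod_cast hs₀
    rw [h] at h1
    exact hs₀nd (h1 ▸ dvd_zero _)
  have hsq : ∀ ψ ∈ S, (p : ℤ) ^ (2 * blockHeight p B (ψ : G → ℂ)) ≤ n ψ ^ 2 := by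
    intro ψ hψ
    obtain ⟨s, hsnd, hs⟩ := Cfsg.Agent.Helper25.gram_height hM hB hχ₀ h0 ((hmem ψ).mp hψ)
    rw [← hd, hn ψ] at hs
    have h1 : n ψ = (p : ℤ) ^ blockHeight p B (ψ : G → ℂ) * s := by exact_mod_cast hs
    have hs0 : s ≠ 0 := fun h => hsnd (h ▸ dvd_zero _)
    have hs1 : 1 ≤ s ^ 2 := by
      have := pow_pos (abs_pos.mpr hs0) 2
      rw [sq_abs] at this
      omega
    have hpp : (0 : ℤ) ≤ (p : ℤ) ^ (2 * blockHeight p B (ψ : G → ℂ)) := by positivity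
    rw [h1, mul_pow, ← pow_mul, mul_comm (blockHeight p B (ψ : G → ℂ)) 2]
    exact le_mul_of_one_le_right hpp hs1
  have hpdpos : (0 : ℤ) < (p : ℤ) ^ d := by
    have : (0 : ℤ) < (p : ℤ) := by exact_mod_cast hp.pos
    positivity
  have hn₀pos : 0 < n χ₀ := by
    have h1 : 0 ≤ ∑ ψ ∈ S, n ψ ^ 2 := Finset.sum_nonneg (fun ψ _ => sq_nonneg _)
    rw [hkey] at h1
    rcases lt_trichotomy (n χ₀) 0 with h | h | h
    · nlinarith
    · exact absurd h hn₀ne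
    · exact h
  have hsplit : ∑ ψ ∈ S, n ψ ^ 2 = n χ₀ ^ 2 + ∑ ψ ∈ S.erase χ₀, n ψ ^ 2 :=
    (Finset.add_sum_erase S _ ((hmem χ₀).mpr hχ₀)).symm
  have hsplit2 : ∑ ψ ∈ S, (p : ℤ) ^ (2 * blockHeight p B (ψ : G → ℂ))
      = (p : ℤ) ^ (2 * blockHeight p B (χ₀ : G → ℂ))
        + ∑ ψ ∈ S.erase χ₀, (p : ℤ) ^ (2 * blockHeight p B (ψ : G → ℂ)) :=
    (Finset.add_sum_erase S _ ((hmem χ₀).mpr hχ₀)).symm
  have hle : ∑ ψ ∈ S.erase χ₀, (p : ℤ) ^ (2 * blockHeight p B (ψ : G → ℂ))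
      ≤ ∑ ψ ∈ S.erase χ₀, n ψ ^ 2 :=
    Finset.sum_le_sum (fun ψ hψ => hsq ψ (Finset.mem_of_mem_erase hψ))
  have hfin : (∑ ψ ∈ S, (p : ℤ) ^ (2 * blockHeight p B (ψ : G → ℂ))) * 4
      ≤ ((p : ℤ) ^ d) ^ 2 + 4 := by
    rw [hsplit2, h0, mul_zero, pow_zero]
    have h1 : ∑ ψ ∈ S.erase χ₀, n ψ ^ 2 = (p : ℤ) ^ d * n χ₀ - n χ₀ ^ 2 := by
      rw [← hkey, hsplit]; ring
    nlinarith [sq_nonneg ((p : ℤ) ^ d - 2 * n χ₀)]
  rw [finsum_mem_eq_finite_toFinset_sum _ (Set.toFinite B), hPcard, ← hS]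
  have hfin' : (∑ ψ ∈ S, p ^ (2 * blockHeight p B (ψ : G → ℂ))) * 4 ≤ (p ^ d) ^ 2 + 4 := by
    exact_mod_cast hfin
  generalize (∑ ψ ∈ S, p ^ (2 * blockHeight p B (ψ : G → ℂ))) = X at hfin' ⊢
  generalize (p ^ d) ^ 2 = Y at hfin' ⊢
  omega

end Cfsg.Agent.S4676
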