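import Cfsg.Statements.S4710
import Mathlib
import Cfsg.Agent.S4425
import Cfsg.Agent.S4426
import Cfsg.Agent.S4676
import Cfsg.Agent.Helper7.Defect
import Cfsg.Agent.Helper2.CharExtra
import Cfsg.Agent.Helper2.ExtFirstMain

set_option autoImplicit false
open Cfsg

namespace Cfsg.Agent.S4710

open Cfsg.Agent.Helper25 Cfsg.Agent.Helper24 Cfsg.Agent.Helper7
open scoped ComplexConjugate

theorem contrib {G : Type*} [Group G] [Fintype G] (p : ℕ) (hp1 : ¬ p ∣ 1) (hp0 : p ≠ 0)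
    (χ : IrrCharacter G) (c : ℕ)
    (hΦ : IsGeneralizedCharacter G (fun x : G => if p ∣ orderOf x then (0:ℂ)
      else ((p ^ c : ℕ) : ℂ) * (χ : G → ℂ) x)) :
    ∃ kf : IrrCharacter G → ℤ,
      (∀ ψ : IrrCharacter G, classInner (fun x : G => if p ∣ orderOf x then (0:ℂ)
        else ((p ^ c : ℕ) : ℂ) * (χ : G → ℂ) x) (ψ : G → ℂ) = (kf ψ : ℂ)) ∧
      ((p ^ c : ℕ) : ℤ) * kf χ = ∑ ψ : IrrCharacter G, (kf ψ) ^ 2 ∧ 0 < kf χ := by
  classical
  obtain ⟨Φ, hΦdef⟩ : ∃ Φ : G → ℂ, Φ = (fun x : G => if p ∣ orderOf x then (0:ℂ)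
      else ((p ^ c : ℕ) : ℂ) * (χ : G → ℂ) x) := ⟨_, rfl⟩
  rw [← hΦdef] at hΦ ⊢
  obtain ⟨hcl, hint⟩ := Cfsg.Agent.Helper2.isGeneralizedCharacter_iff.mp hΦ
  choose kf hkf using hint
  have hsing : ∀ x : G, p ∣ orderOf x → Φ x = 0 := by
    intro x hx; rw [hΦdef]; exact if_pos hx
  have hreg : ∀ x : G, ¬ p ∣ orderOf x → Φ x = ((p ^ c : ℕ) : ℂ) * (χ : G → ℂ) x := by
    intro x hx; rw [hΦdef]; exact if_neg hx
  have hself : classInner Φ Φ = ((p ^ c : ℕ) : ℂ) * classInner Φ (χ : G → ℂ) := by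
    have hs : ∑ g : G, Φ g * conj (Φ g)
        = ((p ^ c : ℕ) : ℂ) * ∑ g : G, Φ g * conj ((χ : G → ℂ) g) := by
      rw [Finset.mul_sum]
      apply Finset.sum_congr rfl
      intro x _
      by_cases hx : p ∣ orderOf x
      · rw [hsing x hx, zero_mul, zero_mul, mul_zero]
      · rw [hreg x hx, map_mul, Complex.conj_natCast]
        ring
    unfold classInner
    rw [hs]
    ring
  have hpars := Cfsg.Agent.Helper2.classInner_eq_sum_mul hcl Φ
  have hsum : ((p ^ c : ℕ) : ℤ) * kf χ = ∑ ψ : IrrCharacter G, (kf ψ) ^ 2 := by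
    have h1 : (((p ^ c : ℕ) : ℤ) : ℂ) * ((kf χ : ℤ) : ℂ)
        = ((∑ ψ : IrrCharacter G, (kf ψ) ^ 2 : ℤ) : ℂ) := by
      rw [Int.cast_sum, Int.cast_natCast, ← hkf χ, ← hself, hpars]
      apply Finset.sum_congr rfl
      intro ψ _
      rw [hkf ψ, map_intCast, Int.cast_pow, sq]
    exact_mod_cast h1
  have hK0 : kf χ ≠ 0 := by
    intro h0
    rw [h0, mul_zero] at hsum
    have hall : ∀ ψ ∈ (Finset.univ : Finset (IrrCharacter G)), (kf ψ) ^ 2 = 0 :=
      (Finset.sum_eq_zero_iff_of_nonneg (fun ψ _ => sq_nonneg (kf ψ))).mp hsum.symm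
    have hz : classInner Φ Φ = 0 := by
      rw [hpars]
      apply Finset.sum_eq_zero
      intro ψ hψ
      have := pow_eq_zero_iff (two_ne_zero) |>.mp (hall ψ hψ)
      rw [hkf ψ, this, Int.cast_zero, zero_mul]
    have hΦ0 := (Cfsg.Agent.Helper2.classInner_self_eq_zero_iff Φ).mp hz
    have h1 : Φ 1 = 0 := by rw [hΦ0]; rfl
    rw [hreg 1 (by rw [orderOf_one]; exact hp1), irr_one_eq_degree] at h1
    have hd0 : (charDegree (χ : G → ℂ) : ℂ) ≠ 0 := by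
      exact_mod_cast (irr_degree_pos χ).ne'
    have hpc : ((p ^ c : ℕ) : ℂ) ≠ 0 := by
      exact_mod_cast (pow_ne_zero c hp0)
    exact mul_ne_zero hpc hd0 h1
  refine ⟨kf, hkf, hsum, ?_⟩
  have h1 : (0 : ℤ) ≤ ((p ^ c : ℕ) : ℤ) * kf χ := by
    rw [hsum]; exact Finset.sum_nonneg (fun ψ _ => sq_nonneg (kf ψ))
  have hpc : (0 : ℤ) < ((p ^ c : ℕ) : ℤ) := by
    exact_mod_cast Nat.pos_of_ne_zero (pow_ne_zero c hp0)
  have h2 : 0 ≤ kf χ := by
    by_contra hneg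
    push Not at hneg
    have := mul_neg_of_pos_of_neg hpc hneg
    omega
  exact lt_of_le_of_ne h2 (Ne.symm hK0)

theorem key {G : Type*} [Group G] [Fintype G] (p : ℕ) [Fact p.Prime] (M : Ideal AlgInt)
    (hM : IsPModular p M) (B : Set (IrrCharacter G)) (hB : IsPBlock M B) (χ : IrrCharacter G)
    (hχ : χ ∈ B) (hpos : 0 < blockHeight p B (χ : G → ℂ)) (B₀ : Finset (IrrCharacter G))
    (hB₀ : ∀ ψ ∈ B₀, ψ ∈ B ∧ blockHeight p B (ψ : G → ℂ) = 0) (hne : B₀.Nonempty) :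
    blockHeight p B (χ : G → ℂ) + 2 ≤ blockDefect p B ∧
    4 * B₀.card ≤ (p ^ (blockDefect p B - blockHeight p B (χ : G → ℂ))) ^ 2 := by
  classical
  have hp : p.Prime := Fact.out
  obtain ⟨a, ha⟩ : ∃ a, a = (Nat.card G).factorization p := ⟨_, rfl⟩
  obtain ⟨b, hb⟩ : ∃ b, b = (charDegree (χ : G → ℂ)).factorization p := ⟨_, rfl⟩
  obtain ⟨m, hm⟩ : ∃ m, m = sInf ((fun ψ : IrrCharacter G =>
      (charDegree (ψ : G → ℂ)).factorization p) '' B) := ⟨_, rfl⟩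
  have hht : blockHeight p B (χ : G → ℂ) = b - m := by rw [hb, hm]; rfl
  have hdef : blockDefect p B = a - m := by rw [ha, hm]; rfl
  have hmb : m ≤ b := by rw [hm, hb]; exact Nat.sInf_le ⟨χ, hχ, rfl⟩
  have hba : b ≤ a := by
    have h1 : p ^ b ∣ Nat.card G := by
      rw [hb]; exact (Nat.ordProj_dvd _ p).trans (irr_degree_dvd_card χ)
    rw [ha]
    exact (hp.pow_dvd_iff_le_factorization Nat.card_pos.ne').mp h1
  have hΦ := (Cfsg.Agent.S4425.result p χ).1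
  rw [← ha, ← hb] at hΦ
  obtain ⟨kf, hkf, hsum, hKpos⟩ := contrib p
    (by intro h; exact hp.one_lt.ne' (Nat.dvd_one.mp h)) hp.ne_zero χ (a - b) hΦ
  have hpab : ((p ^ a : ℕ) : ℂ) = ((p ^ b : ℕ) : ℂ) * ((p ^ (a - b) : ℕ) : ℂ) := by
    rw [← Nat.cast_mul, ← pow_add, show b + (a - b) = a by omega]
  have hne0 : ∀ ψ ∈ B₀, kf ψ ≠ 0 := by
    intro ψ hψ h0
    obtain ⟨hψB, hψ0⟩ := hB₀ ψ hψ
    obtain ⟨n, hn, hnne, -⟩ := (Cfsg.Agent.S4426.result p M hM B hB ψ hψB).2.mp hψ0 χ hχ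
    have hrel : classInner (fun x : G => if p ∣ orderOf x then (0 : ℂ)
          else ((p ^ (Nat.card G).factorization p : ℕ) : ℂ) * (ψ : G → ℂ) x) (χ : G → ℂ)
        = ((p ^ b : ℕ) : ℂ) * conj (classInner (fun x : G => if p ∣ orderOf x then (0:ℂ)
          else ((p ^ (a - b) : ℕ) : ℂ) * (χ : G → ℂ) x) (ψ : G → ℂ)) := by
      have hs : ∑ x : G, (if p ∣ orderOf x then (0 : ℂ)
            else ((p ^ (Nat.card G).factorization p : ℕ) : ℂ) * (ψ : G → ℂ) x)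
              * conj ((χ : G → ℂ) x)
          = ((p ^ b : ℕ) : ℂ) * ∑ x : G, conj ((if p ∣ orderOf x then (0:ℂ)
            else ((p ^ (a - b) : ℕ) : ℂ) * (χ : G → ℂ) x) * conj ((ψ : G → ℂ) x)) := by
        rw [Finset.mul_sum]
        apply Finset.sum_congr rfl
        intro x _
        by_cases hx : p ∣ orderOf x
        · rw [if_pos hx, if_pos hx, zero_mul, zero_mul, map_zero, mul_zero]
        · rw [if_neg hx, if_neg hx, map_mul, map_mul, Complex.conj_conj, Complex.conj_natCast,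
            ← ha, hpab]
          ring
      unfold classInner
      beta_reduce
      rw [map_mul, map_inv₀, Complex.conj_natCast, map_sum, hs]
      ring
    rw [hrel, hkf ψ, h0, Int.cast_zero, map_zero, mul_zero] at hn
    exact hnne (by exact_mod_cast hn.symm)
  have hpK : (p : ℤ) ∣ kf χ := by
    by_contra hnd
    have h0 : blockHeight p B (χ : G → ℂ) = 0 := by
      apply (Cfsg.Agent.S4426.result p M hM B hB χ hχ).1.mpr
      refine ⟨χ, hχ, ((p ^ b : ℕ) : ℤ) * kf χ, ?_, ?_, ?_⟩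
      · have hfun : (fun x : G => if p ∣ orderOf x then (0 : ℂ)
              else ((p ^ (Nat.card G).factorization p : ℕ) : ℂ) * (χ : G → ℂ) x)
            = ((p ^ b : ℕ) : ℂ) • (fun x : G => if p ∣ orderOf x then (0:ℂ)
              else ((p ^ (a - b) : ℕ) : ℂ) * (χ : G → ℂ) x) := by
          funext x
          rw [Pi.smul_apply, smul_eq_mul]
          by_cases hx : p ∣ orderOf x
          · rw [if_pos hx, if_pos hx, mul_zero]
          · rw [if_neg hx, if_neg hx, ← ha, hpab, mul_assoc]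
        rw [hfun, Cfsg.Agent.Helper2.classInner_smul_left, hkf χ]
        push_cast
        ring
      · exact mul_ne_zero (by exact_mod_cast (pow_pos hp.pos b).ne') hKpos.ne'
      · rw [padicValInt.mul (by exact_mod_cast (pow_pos hp.pos b).ne') hKpos.ne',
          padicValInt.of_nat, padicValNat.prime_pow, padicValInt.eq_zero_of_not_dvd hnd,
          add_zero, hb]
    omega
  have hχB₀ : χ ∉ B₀ := fun h => by have := (hB₀ χ h).2; omega
  have hA : (B₀.card : ℤ) + (kf χ) ^ 2 ≤ ((p ^ (a - b) : ℕ) : ℤ) * kf χ := by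
    rw [hsum]
    have h1 : ∑ ψ ∈ B₀, (1 : ℤ) ≤ ∑ ψ ∈ B₀, (kf ψ) ^ 2 :=
      Finset.sum_le_sum (fun ψ hψ => by
        have h2 : 0 < (kf ψ) ^ 2 :=
          lt_of_le_of_ne (sq_nonneg _) (Ne.symm (pow_ne_zero 2 (hne0 ψ hψ)))
        omega)
    rw [Finset.sum_const, nsmul_eq_mul, mul_one] at h1
    calc (B₀.card : ℤ) + (kf χ) ^ 2 ≤ ∑ ψ ∈ B₀, (kf ψ) ^ 2 + (kf χ) ^ 2 := by linarith
      _ = ∑ ψ ∈ insert χ B₀, (kf ψ) ^ 2 := by rw [Finset.sum_insert hχB₀]; ring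
      _ ≤ ∑ ψ : IrrCharacter G, (kf ψ) ^ 2 :=
          Finset.sum_le_sum_of_subset_of_nonneg (Finset.subset_univ _)
            (fun ψ _ _ => sq_nonneg (kf ψ))
  have hcard1 : (1 : ℤ) ≤ B₀.card := by exact_mod_cast Finset.card_pos.mpr hne
  obtain ⟨c, hc⟩ : ∃ c, c = a - b := ⟨_, rfl⟩
  rw [← hc] at hA
  obtain ⟨K, hK⟩ : ∃ K, K = kf χ := ⟨_, rfl⟩
  rw [← hK] at hA hpK hKpos
  have hKlt : K < ((p ^ c : ℕ) : ℤ) := by nlinarith
  have hpK' : (p : ℤ) ≤ K := Int.le_of_dvd hKpos hpK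
  have hc2 : 2 ≤ c := by
    by_contra hlt
    push Not at hlt
    have h1 : p ^ c ≤ p := by
      calc p ^ c ≤ p ^ 1 := Nat.pow_le_pow_right hp.pos (by omega)
        _ = p := pow_one p
    have h2 : ((p ^ c : ℕ) : ℤ) ≤ (p : ℤ) := by exact_mod_cast h1
    omega
  constructor
  · rw [hht, hdef]; omega
  · have h4 : (4 : ℤ) * B₀.card ≤ (((p ^ c : ℕ) : ℤ)) ^ 2 := by
      nlinarith [sq_nonneg (((p ^ c : ℕ) : ℤ) - 2 * K)]
    have hcd : blockDefect p B - blockHeight p B (χ : G → ℂ) = c := by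
      rw [hht, hdef, hc]; omega
    rw [hcd]
    exact_mod_cast h4

/-- Let p be a prime, M a maximal ideal of the algebraic integers containing p, and B a p-block of defect d of the finite group G containing k irreducible characters. If B contains a character of positive height then 2k ≤ p^(2d − 2); and every character in B has height 0 when d ≤ 1 and height at most d − 2 when d ≥ 2. -/
theorem result {G : Type*} [Group G] [Finite G] (p : ℕ) [Fact p.Prime] (M : Ideal Cfsg.AlgInt) (hM : Cfsg.IsPModular p M) (B : Set (Cfsg.IrrCharacter G)) (hB : Cfsg.IsPBlock M B) (d : ℕ) (hd : Cfsg.blockDefect p B = d) : ((∃ χ ∈ B, 0 < Cfsg.blockHeight p B (χ : G → ℂ)) → 2 * Nat.card B ≤ p ^ (2 * d - 2)) ∧ ∀ χ ∈ B, (d ≤ 1 → Cfsg.blockHeight p B (χ : G → ℂ) = 0) ∧ (2 ≤ d → Cfsg.blockHeight p B (χ : G → ℂ) ≤ d - 2) := by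
  classical
  haveI := Fintype.ofFinite G
  have hp : p.Prime := Fact.out
  obtain ⟨S, hS⟩ : ∃ S : Finset (IrrCharacter G), S = (Set.toFinite B).toFinset := ⟨_, rfl⟩
  have hSmem : ∀ ψ : IrrCharacter G, ψ ∈ S ↔ ψ ∈ B := fun ψ => by
    rw [hS]; exact Set.Finite.mem_toFinset _
  obtain ⟨B₀, hB₀def⟩ : ∃ B₀ : Finset (IrrCharacter G),
      B₀ = S.filter (fun ψ : IrrCharacter G => blockHeight p B (ψ : G → ℂ) = 0) := ⟨_, rfl⟩
  have hB₀mem : ∀ ψ : IrrCharacter G, ψ ∈ B₀ ↔ ψ ∈ B ∧ blockHeight p B (ψ : G → ℂ) = 0 := by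
    intro ψ
    rw [hB₀def, Finset.mem_filter, hSmem]
  have hB₀ : ∀ ψ ∈ B₀, ψ ∈ B ∧ blockHeight p B (ψ : G → ℂ) = 0 :=
    fun ψ hψ => (hB₀mem ψ).mp hψ
  have hne : B₀.Nonempty := by
    obtain ⟨ψ, hψ, h0⟩ := exists_height_zero hM hB
    exact ⟨ψ, (hB₀mem ψ).mpr ⟨hψ, h0⟩⟩
  have hkey : ∀ χ ∈ B, 0 < blockHeight p B (χ : G → ℂ) →
      blockHeight p B (χ : G → ℂ) + 2 ≤ d ∧
        4 * B₀.card ≤ (p ^ (d - blockHeight p B (χ : G → ℂ))) ^ 2 := by
    intro χ hχ hpos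
    have h := key p M hM B hB χ hχ hpos B₀ hB₀ hne
    rw [hd] at h
    exact h
  constructor
  · rintro ⟨χ, hχ, hpos⟩
    obtain ⟨h1, h2⟩ := hkey χ hχ hpos
    obtain ⟨P, hP⟩ := Cfsg.Agent.Helper2.exists_isDefectGroup hM hB
    have hw := Cfsg.Agent.S4676.result p M hM B hB P hP
    rw [finsum_mem_eq_finite_toFinset_sum _ (Set.toFinite B), card_defectGroup hM hB hP, hd,
      ← hS] at hw
    have hk : Nat.card B = S.card := by
      rw [Nat.card_coe_set_eq, Set.ncard_eq_toFinset_card B (Set.toFinite B), hS]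
    have hB₀S : B₀ ⊆ S := by rw [hB₀def]; exact Finset.filter_subset _ _
    have hD : (S \ B₀).card + B₀.card = S.card := Finset.card_sdiff_add_card_eq_card hB₀S
    have h3 : ∑ ψ ∈ B₀, p ^ (2 * blockHeight p B (ψ : G → ℂ)) = B₀.card := by
      rw [Finset.sum_congr rfl (fun ψ hψ => by rw [(hB₀ ψ hψ).2, mul_zero, pow_zero]),
        Finset.sum_const, smul_eq_mul, mul_one]
    have h4 : (S \ B₀).card • p ^ 2 ≤ ∑ ψ ∈ S \ B₀, p ^ (2 * blockHeight p B (ψ : G → ℂ)) := by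
      apply Finset.card_nsmul_le_sum
      intro ψ hψ
      rw [Finset.mem_sdiff] at hψ
      have hψpos : 1 ≤ blockHeight p B (ψ : G → ℂ) := by
        by_contra h0
        push Not at h0
        exact hψ.2 ((hB₀mem ψ).mpr ⟨(hSmem ψ).mp hψ.1, by omega⟩)
      exact Nat.pow_le_pow_right hp.pos (by omega)
    rw [smul_eq_mul] at h4
    have hsplit := Finset.sum_sdiff hB₀S (f := fun ψ : IrrCharacter G =>
      p ^ (2 * blockHeight p B (ψ : G → ℂ)))
    have hY : (p ^ d) ^ 2 = p ^ 2 * p ^ (2 * d - 2) := by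
      rw [← pow_mul, ← pow_add]; congr 1; omega
    have hX : (p ^ (d - blockHeight p B (χ : G → ℂ))) ^ 2 ≤ p ^ (2 * d - 2) := by
      rw [← pow_mul]; exact Nat.pow_le_pow_right hp.pos (by omega)
    have hP2 : 4 ≤ p ^ 2 := by
      calc 4 = 2 ^ 2 := by norm_num
        _ ≤ p ^ 2 := Nat.pow_le_pow_left hp.two_le 2
    have h6 : 4 * B₀.card ≤ p ^ (2 * d - 2) := le_trans h2 hX
    rw [hk, ← hD]
    have h5 : 4 * (B₀.card + (S \ B₀).card * p ^ 2) ≤ p ^ 2 * p ^ (2 * d - 2) + 4 := by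
      rw [← hY]
      omega
    generalize p ^ (2 * d - 2) = X at h5 h6 ⊢
    generalize p ^ 2 = P2 at h5 hP2
    generalize B₀.card = k0 at h5 h6 ⊢
    generalize (S \ B₀).card = D at h5 ⊢
    by_contra hcon
    push Not at hcon
    have h7 : P2 * (X + 1) ≤ P2 * (2 * (D + k0)) := Nat.mul_le_mul_left P2 hcon
    have h8 : P2 * (4 * k0) ≤ P2 * X := Nat.mul_le_mul_left P2 h6
    nlinarith
  · intro χ hχ
    by_cases h0 : blockHeight p B (χ : G → ℂ) = 0
    · exact ⟨fun _ => h0, fun _ => by omega⟩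
    · have := (hkey χ hχ (Nat.pos_of_ne_zero h0)).1
      exact ⟨fun hd1 => by omega, fun _ => by omega⟩

end Cfsg.Agent.S4710
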