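import Cfsg.Statements.S4500
import Mathlib
import Cfsg.Agent.S4710
import Cfsg.Agent.S0165
import Cfsg.Agent.Helper25.BlockOrth
import Cfsg.Agent.Helper25.BlockBasic
import Cfsg.Agent.Helper1.CharCentral

set_option autoImplicit false
open Cfsg

namespace Cfsg.Agent.S4500

open Cfsg.Agent.Helper25 Cfsg.Agent.Helper24 Cfsg.Agent.Helper7
open scoped ComplexConjugate

theorem exists_nonprincipal_not_dvd {G : Type*} [Group G] [Finite G] (s : ℕ) [Fact s.Prime]
    (M : Ideal AlgInt) (hM : IsPModular s M) (hs : s ∣ Nat.card G) (r : ℕ) (hr : 1 < r) :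
    ∃ χ ∈ principalBlock M G, (χ : G → ℂ) ≠ (fun _ => 1) ∧ ¬ r ∣ charDegree (χ : G → ℂ) := by
  classical
  by_contra hcon
  push Not at hcon
  obtain ⟨x, hx⟩ := exists_prime_orderOf_dvd_card' s hs
  have hsing : s ∣ orderOf x := by rw [hx]
  have h0 := blockCoeff_eq_zero_of_singular hM (isPBlock_principalBlock (M := M) (G := G)) x hsing
  unfold blockCoeff at h0
  have h1 : ∑ᶠ χ ∈ principalBlock M G, (χ : G → ℂ) 1 * conj ((χ : G → ℂ) x) = 0 :=
    (mul_eq_zero.mp h0).resolve_left (inv_ne_zero card_ne_zero)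
  rw [finsum_mem_eq_finite_toFinset_sum _ (Set.toFinite _)] at h1
  obtain ⟨S, hS⟩ : ∃ S : Finset (IrrCharacter G),
      S = (Set.toFinite (principalBlock M G)).toFinset := ⟨_, rfl⟩
  rw [← hS] at h1
  have hSmem : ∀ ψ : IrrCharacter G, ψ ∈ S ↔ ψ ∈ principalBlock M G := fun ψ => by
    rw [hS]; exact Set.Finite.mem_toFinset _
  have htriv : trivChar G ∈ S := (hSmem _).mpr (trivChar_mem_principalBlock hM)
  rw [← Finset.add_sum_erase S _ htriv] at h1
  have ht : (trivChar G : G → ℂ) 1 * conj ((trivChar G : G → ℂ) x) = 1 := by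
    rw [trivChar_apply, trivChar_apply, map_one, mul_one]
  rw [ht] at h1
  have hterm : ∀ χ ∈ S.erase (trivChar G), (χ : G → ℂ) 1 * conj ((χ : G → ℂ) x)
      = (r : ℂ) * (((charDegree (χ : G → ℂ) / r : ℕ) : ℂ) * (χ : G → ℂ) x⁻¹) := by
    intro χ hχ
    obtain ⟨hne, hmem⟩ := Finset.mem_erase.mp hχ
    have hne' : (χ : G → ℂ) ≠ (fun _ => 1) := by
      intro h
      apply hne
      apply Subtype.ext
      rw [h]; rfl
    have hdvd := hcon χ ((hSmem χ).mp hmem) hne'
    rw [irr_one_eq_degree, ← irr_inv, ← mul_assoc, ← Nat.cast_mul, Nat.mul_div_cancel' hdvd]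
  rw [Finset.sum_congr rfl hterm, ← Finset.mul_sum] at h1
  have hint : IsIntegral ℤ (∑ χ ∈ S.erase (trivChar G),
      ((charDegree (χ : G → ℂ) / r : ℕ) : ℂ) * (χ : G → ℂ) x⁻¹) :=
    IsIntegral.sum _ (fun χ _ => IsIntegral.mul (isIntegral_natCast _) (irr_isIntegral χ x⁻¹))
  have hint2 : IsIntegral ℤ (((1 : ℕ) : ℂ) / ((r : ℕ) : ℂ)) := by
    have hr0 : (r : ℂ) ≠ 0 := by exact_mod_cast (by omega : r ≠ 0)
    have h2 : ((1 : ℕ) : ℂ) / (r : ℂ) = -(∑ χ ∈ S.erase (trivChar G),
        ((charDegree (χ : G → ℂ) / r : ℕ) : ℂ) * (χ : G → ℂ) x⁻¹) := by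
      rw [div_eq_iff hr0]
      push_cast
      linear_combination h1
    rw [h2]
    exact hint.neg
  have h3 := Cfsg.Agent.Helper1.dvd_of_isIntegral_div 1 r (by omega) hint2
  have h4 := Nat.le_of_dvd Nat.one_pos h3
  omega

theorem qpow {G : Type*} [Group G] [Finite G] [Nontrivial G] (p q r a b c : ℕ) (hp : p.Prime)
    (hq : q.Prime) (hr : r.Prime) (hpq : p ≠ q) (hpr : p ≠ r) (ha : a ≤ 2)
    (hG : Nat.card G = p ^ a * q ^ b * r ^ c) :
    ∃ χ : IrrCharacter G, (χ : G → ℂ) ≠ (fun _ => 1) ∧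
      ∃ k : ℕ, charDegree (χ : G → ℂ) = q ^ k := by
  classical
  have hfin : ∀ χ : IrrCharacter G, (¬ p ∣ charDegree (χ : G → ℂ) ∨ a = 0) →
      ¬ r ∣ charDegree (χ : G → ℂ) → ∃ k : ℕ, charDegree (χ : G → ℂ) = q ^ k := by
    intro χ h1 h2
    have hd : charDegree (χ : G → ℂ) ∣ p ^ a * q ^ b * r ^ c := hG ▸ irr_degree_dvd_card χ
    have hc1 : Nat.Coprime (charDegree (χ : G → ℂ)) (r ^ c) :=
      ((Nat.Prime.coprime_iff_not_dvd hr).mpr h2).symm.pow_right c
    have hd2 : charDegree (χ : G → ℂ) ∣ p ^ a * q ^ b := hc1.dvd_of_dvd_mul_right hd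
    have hc2 : Nat.Coprime (charDegree (χ : G → ℂ)) (p ^ a) := by
      rcases h1 with h | h
      · exact ((Nat.Prime.coprime_iff_not_dvd hp).mpr h).symm.pow_right a
      · rw [h, pow_zero]; exact Nat.coprime_one_right _
    have hd3 : charDegree (χ : G → ℂ) ∣ q ^ b := hc2.dvd_of_dvd_mul_left hd2
    obtain ⟨k, -, hk⟩ := (Nat.dvd_prime_pow hq).mp hd3
    exact ⟨k, hk⟩
  by_cases ha0 : a = 0
  · by_cases hb0 : b = 0
    · have hc0 : c ≠ 0 := by
        rintro rfl
        rw [ha0, hb0] at hG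
        have := Finite.one_lt_card (α := G)
        rw [hG] at this
        norm_num at this
      have hrG : r ∣ Nat.card G := by
        rw [hG]; exact Dvd.dvd.mul_left (dvd_pow_self r hc0) _
      haveI : Fact r.Prime := ⟨hr⟩
      obtain ⟨M, hM⟩ := Cfsg.Agent.S0165.exists_modular r hr
      obtain ⟨χ, -, hχ1, hχr⟩ := exists_nonprincipal_not_dvd r M hM hrG r hr.one_lt
      exact ⟨χ, hχ1, hfin χ (Or.inr ha0) hχr⟩
    · have hqG : q ∣ Nat.card G := by
        rw [hG]; exact Dvd.dvd.mul_right (Dvd.dvd.mul_left (dvd_pow_self q hb0) _) _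
      haveI : Fact q.Prime := ⟨hq⟩
      obtain ⟨M, hM⟩ := Cfsg.Agent.S0165.exists_modular q hq
      obtain ⟨χ, -, hχ1, hχr⟩ := exists_nonprincipal_not_dvd q M hM hqG r hr.one_lt
      exact ⟨χ, hχ1, hfin χ (Or.inr ha0) hχr⟩
  · have hpG : p ∣ Nat.card G := by
      rw [hG]; exact Dvd.dvd.mul_right (Dvd.dvd.mul_right (dvd_pow_self p ha0) _) _
    haveI : Fact p.Prime := ⟨hp⟩
    obtain ⟨M, hM⟩ := Cfsg.Agent.S0165.exists_modular p hp
    obtain ⟨χ, hχB, hχ1, hχr⟩ := exists_nonprincipal_not_dvd p M hM hpG r hr.one_lt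
    refine ⟨χ, hχ1, hfin χ (Or.inl ?_) hχr⟩
    have hB : IsPBlock M (principalBlock M G) := isPBlock_principalBlock
    obtain ⟨m, hm⟩ : ∃ m, m = sInf ((fun ψ : IrrCharacter G =>
        (charDegree (ψ : G → ℂ)).factorization p) '' principalBlock M G) := ⟨_, rfl⟩
    have hm0 : m = 0 := by
      have h1 : m ≤ (charDegree (trivChar G : G → ℂ)).factorization p := by
        rw [hm]; exact Nat.sInf_le ⟨trivChar G, trivChar_mem_principalBlock hM, rfl⟩
      have h2 : charDegree (trivChar G : G → ℂ) = 1 := by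
        have h3 := irr_one_eq_degree (trivChar G)
        rw [trivChar_apply] at h3
        exact_mod_cast h3.symm
      rw [h2, Nat.factorization_one] at h1
      exact Nat.le_zero.mp h1
    have hdef : blockDefect p (principalBlock M G) = (Nat.card G).factorization p := by
      unfold blockDefect; rw [← hm, hm0, Nat.sub_zero]
    have hht : blockHeight p (principalBlock M G) (χ : G → ℂ)
        = (charDegree (χ : G → ℂ)).factorization p := by
      unfold blockHeight; rw [← hm, hm0, Nat.sub_zero]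
    have ha' : (Nat.card G).factorization p ≤ 2 := by
      have h1 : p ^ (Nat.card G).factorization p ∣ p ^ a * (q ^ b * r ^ c) := by
        rw [← mul_assoc, ← hG]; exact Nat.ordProj_dvd _ _
      have hcop : Nat.Coprime (p ^ (Nat.card G).factorization p) (q ^ b * r ^ c) := by
        apply Nat.Coprime.pow_left
        exact Nat.Coprime.mul_right (Nat.Coprime.pow_right b ((Nat.coprime_primes hp hq).mpr hpq))
          (Nat.Coprime.pow_right c ((Nat.coprime_primes hp hr).mpr hpr))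
      have h2 : p ^ (Nat.card G).factorization p ∣ p ^ a := hcop.dvd_of_dvd_mul_right h1
      have h3 := (Nat.pow_dvd_pow_iff_le_right hp.one_lt).mp h2
      omega
    have hres := (Cfsg.Agent.S4710.result p M hM (principalBlock M G) hB _ hdef).2 χ hχB
    have hh0 : blockHeight p (principalBlock M G) (χ : G → ℂ) = 0 := by
      rcases Nat.lt_or_ge ((Nat.card G).factorization p) 2 with h | h
      · exact hres.1 (by omega)
      · have := hres.2 h; omega
    rw [hht] at hh0
    intro hdvd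
    have h5 : 0 < (charDegree (χ : G → ℂ)).factorization p :=
      hp.factorization_pos_of_dvd (irr_degree_pos χ).ne' hdvd
    omega

/-- Let G be a non-trivial finite group of order p^a · q^b · r^c with p, q, r distinct primes and a ≤ 2. Then G has a non-principal irreducible character whose degree is a power of q, and a non-principal irreducible character whose degree is a power of r; the power may be the zeroth, so a non-principal linear character serves for both. -/
theorem result {G : Type*} [Group G] [Finite G] [Nontrivial G] (p q r a b c : ℕ) (hp : p.Prime) (hq : q.Prime) (hr : r.Prime) (hpq : p ≠ q) (hpr : p ≠ r) (hqr : q ≠ r) (ha : a ≤ 2) (hG : Nat.card G = p ^ a * q ^ b * r ^ c) : (∃ χ : Cfsg.IrrCharacter G, (χ : G → ℂ) ≠ (fun _ => 1) ∧ ∃ k : ℕ, Cfsg.charDegree (χ : G → ℂ) = q ^ k) ∧ ∃ χ : Cfsg.IrrCharacter G, (χ : G → ℂ) ≠ (fun _ => 1) ∧ ∃ k : ℕ, Cfsg.charDegree (χ : G → ℂ) = r ^ k := by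
  exact ⟨qpow p q r a b c hp hq hr hpq hpr ha hG,
    qpow p r q a c b hp hr hq hpr hpq ha (by rw [hG]; ring)⟩

end Cfsg.Agent.S4500
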