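import Cfsg.Statements.S4506
import Mathlib
import Cfsg.Agent.S4425
import Cfsg.Agent.S4426
import Cfsg.Agent.S0165
import Cfsg.Agent.Helper7.SecondMain
import Cfsg.Agent.Helper7.Defect
import Cfsg.Agent.Helper7.SecOrth
import Cfsg.Agent.Helper2.CharExtra
import Cfsg.Agent.Helper1.CharBasic

set_option autoImplicit false
open Cfsg

namespace Cfsg.Agent.S4506

open Cfsg.Agent.Helper25 Cfsg.Agent.Helper24 Cfsg.Agent.Helper7
open scoped ComplexConjugate

theorem gal_agree {G : Type*} [Group G] (σ τ : ℂ ≃+* ℂ) (m : ℕ) (hm : 0 < m)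
    (h : ∀ ω : ℂ, ω ^ m = 1 → σ ω = τ ω) {χ : G → ℂ} (hχ : IsCharacter G χ) (x : G)
    (hx : x ^ m = 1) : σ (χ x) = τ (χ x) := by
  obtain ⟨k, ρ, rfl⟩ := hχ
  have hf : (ρ x) ^ m = 1 := by rw [← map_pow, hx, map_one]
  obtain ⟨b, μ, hμ, hb⟩ := Cfsg.Agent.Helper1.exists_eigenbasis_of_pow_eq_one (ρ x) m hm hf
  have hc : ρ.character x = ∑ i, μ i :=
    Cfsg.Agent.Helper1.trace_eq_sum_of_eigenbasis b (ρ x) μ hb
  rw [hc, map_sum, map_sum]
  exact Finset.sum_congr rfl (fun i _ => h (μ i) (hμ i))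

theorem root_agree (σ τ : ℂ ≃+* ℂ) (n q : ℕ) (hn : 0 < n) (hq : 0 < q) (hcop : Nat.Coprime n q)
    (ζ ξ : ℂ) (hζ : IsPrimitiveRoot ζ n) (hξ : IsPrimitiveRoot ξ q)
    (h1 : σ ζ = τ ζ) (h2 : σ ξ = τ ξ) (ω : ℂ) (hω : ω ^ (n * q) = 1) : σ ω = τ ω := by
  have ha : (ω ^ q) ^ n = 1 := by rw [← pow_mul, mul_comm]; exact hω
  have hb : (ω ^ n) ^ q = 1 := by rw [← pow_mul]; exact hω
  haveI : NeZero n := ⟨hn.ne'⟩
  haveI : NeZero q := ⟨hq.ne'⟩
  obtain ⟨i, -, hi⟩ := hζ.eq_pow_of_pow_eq_one ha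
  obtain ⟨j, -, hj⟩ := hξ.eq_pow_of_pow_eq_one hb
  have e1 : σ (ω ^ q) = τ (ω ^ q) := by rw [← hi, map_pow, map_pow, h1]
  have e2 : σ (ω ^ n) = τ (ω ^ n) := by rw [← hj, map_pow, map_pow, h2]
  have hω0 : ω ≠ 0 := by
    rintro rfl
    rw [zero_pow (Nat.mul_pos hn hq).ne'] at hω
    exact zero_ne_one hω
  have hg1 : Int.gcd (q : ℤ) (n : ℤ) = 1 := by
    rw [Int.gcd_natCast_natCast]; exact hcop.symm
  have hgcd : (1 : ℤ) = (q : ℤ) * Int.gcdA q n + (n : ℤ) * Int.gcdB q n := by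
    have h := Int.gcd_eq_gcd_ab (q : ℤ) (n : ℤ)
    rw [hg1] at h
    exact_mod_cast h
  have hω' : ω = (ω ^ q) ^ (Int.gcdA q n) * (ω ^ n) ^ (Int.gcdB q n) := by
    rw [← zpow_natCast ω q, ← zpow_natCast ω n, ← zpow_mul, ← zpow_mul, ← zpow_add₀ hω0,
      ← hgcd, zpow_one]
  rw [hω', map_mul, map_mul, map_zpow₀, map_zpow₀, map_zpow₀, map_zpow₀, e1, e2]

theorem pow_ordCompl_eq_one {G : Type*} [Group G] [Finite G] (p : ℕ) (hp : p.Prime) (x : G)
    (hx : ¬ p ∣ orderOf x) : x ^ (Nat.card G / p ^ (Nat.card G).factorization p) = 1 := by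
  apply orderOf_dvd_iff_pow_eq_one.mp
  have h1 : orderOf x ∣ p ^ (Nat.card G).factorization p *
      (Nat.card G / p ^ (Nat.card G).factorization p) := by
    rw [Nat.ordProj_mul_ordCompl_eq_self]
    exact orderOf_dvd_natCard x
  have h2 : Nat.Coprime (orderOf x) (p ^ (Nat.card G).factorization p) :=
    ((Nat.Prime.coprime_iff_not_dvd hp).mpr hx).symm.pow_right _
  exact h2.dvd_of_dvd_mul_left h1

theorem reg_fixed {G : Type*} [Group G] [Finite G] (p : ℕ) (hp : p.Prime) {χ : G → ℂ}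
    (hχ : IsCharacter G χ) (σ : ℂ ≃+* ℂ)
    (hσ : σ (Complex.exp (2 * Real.pi * Complex.I /
        ((Nat.card G / p ^ (Nat.card G).factorization p : ℕ) : ℂ)))
      = Complex.exp (2 * Real.pi * Complex.I /
        ((Nat.card G / p ^ (Nat.card G).factorization p : ℕ) : ℂ)))
    (x : G) (hx : ¬ p ∣ orderOf x) : σ (χ x) = χ x := by
  have hg0 : 0 < Nat.card G / p ^ (Nat.card G).factorization p :=
    Nat.ordCompl_pos p Nat.card_pos.ne'
  have hζ := Complex.isPrimitiveRoot_exp _ hg0.ne'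
  haveI : NeZero (Nat.card G / p ^ (Nat.card G).factorization p) := ⟨hg0.ne'⟩
  have h := gal_agree σ (RingEquiv.refl ℂ) _ hg0 (fun ω hω => by
    obtain ⟨i, -, hi⟩ := hζ.eq_pow_of_pow_eq_one hω
    rw [← hi, map_pow, hσ]
    rfl) hχ x (pow_ordCompl_eq_one p hp x hx)
  exact h

theorem core {G : Type*} [Group G] [Fintype G] (p : ℕ) (χ : IrrCharacter G) (c : ℕ)
    (hΦ : IsGeneralizedCharacter G (fun x : G => if p ∣ orderOf x then (0:ℂ)
      else ((p ^ c : ℕ) : ℂ) * (χ : G → ℂ) x))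
    (hp1 : ¬ p ∣ 1) (hp0 : p ≠ 0)
    (S : Finset (IrrCharacter G))
    (hS : ∀ ψ ∈ S, ∀ x : G, ¬ p ∣ orderOf x → (ψ : G → ℂ) x = (χ : G → ℂ) x) :
    ∃ n : ℕ, 0 < n ∧ classInner (fun x : G => if p ∣ orderOf x then (0:ℂ)
      else ((p ^ c : ℕ) : ℂ) * (χ : G → ℂ) x) (χ : G → ℂ) = (n : ℂ) ∧ S.card * n ≤ p ^ c := by
  classical
  obtain ⟨Φ, hΦdef⟩ : ∃ Φ : G → ℂ, Φ = (fun x : G => if p ∣ orderOf x then (0:ℂ)
      else ((p ^ c : ℕ) : ℂ) * (χ : G → ℂ) x) := ⟨_, rfl⟩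
  rw [← hΦdef] at hΦ ⊢
  obtain ⟨hcl, hint⟩ := Cfsg.Agent.Helper2.isGeneralizedCharacter_iff.mp hΦ
  choose kf hkf using hint
  have hsing : ∀ x : G, p ∣ orderOf x → Φ x = 0 := by
    intro x hx; rw [hΦdef]; exact if_pos hx
  have hreg : ∀ x : G, ¬ p ∣ orderOf x → Φ x = ((p ^ c : ℕ) : ℂ) * (χ : G → ℂ) x := by
    intro x hx; rw [hΦdef]; exact if_neg hx
  have hSk : ∀ ψ ∈ S, kf ψ = kf χ := by
    intro ψ hψ
    have h1 : classInner Φ (ψ : G → ℂ) = classInner Φ (χ : G → ℂ) := by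
      unfold classInner
      congr 1
      apply Finset.sum_congr rfl
      intro x _
      by_cases hx : p ∣ orderOf x
      · rw [hsing x hx, zero_mul, zero_mul]
      · rw [hS ψ hψ x hx]
    rw [hkf ψ, hkf χ] at h1
    exact_mod_cast h1
  have hself : classInner Φ Φ = ((p ^ c : ℕ) : ℂ) * classInner Φ (χ : G → ℂ) := by
    have hs : ∑ g : G, Φ g * conj (Φ g)
        = ((p ^ c : ℕ) : ℂ) * ∑ g : G, Φ g * conj ((χ : G → ℂ) g) := by
      rw [Finset.mul_sum]
      apply Finset.sum_congr rfl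
      intro x _
      by_cases hx : p ∣ orderOf x
      · rw [hsing x hx, zero_mul, zero_mul, mul_zero]
      · rw [hreg x hx, map_mul, Complex.conj_natCast]
        ring
    unfold classInner
    rw [hs]
    ring
  have hpars := Cfsg.Agent.Helper2.classInner_eq_sum_mul hcl Φ
  have hsum : ((p ^ c : ℕ) : ℤ) * kf χ = ∑ ψ : IrrCharacter G, (kf ψ) ^ 2 := by
    have h1 : (((p ^ c : ℕ) : ℤ) : ℂ) * ((kf χ : ℤ) : ℂ)
        = ((∑ ψ : IrrCharacter G, (kf ψ) ^ 2 : ℤ) : ℂ) := by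
      rw [Int.cast_sum, Int.cast_natCast, ← hkf χ, ← hself, hpars]
      apply Finset.sum_congr rfl
      intro ψ _
      rw [hkf ψ, map_intCast, Int.cast_pow, sq]
    exact_mod_cast h1
  have hK0 : kf χ ≠ 0 := by
    intro h0
    rw [h0, mul_zero] at hsum
    have hall : ∀ ψ ∈ (Finset.univ : Finset (IrrCharacter G)), (kf ψ) ^ 2 = 0 :=
      (Finset.sum_eq_zero_iff_of_nonneg (fun ψ _ => sq_nonneg (kf ψ))).mp hsum.symm
    have hz : classInner Φ Φ = 0 := by
      rw [hpars]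
      apply Finset.sum_eq_zero
      intro ψ hψ
      have := pow_eq_zero_iff (two_ne_zero) |>.mp (hall ψ hψ)
      rw [hkf ψ, this, Int.cast_zero, zero_mul]
    have hΦ0 := (Cfsg.Agent.Helper2.classInner_self_eq_zero_iff Φ).mp hz
    have h1 : Φ 1 = 0 := by rw [hΦ0]; rfl
    rw [hreg 1 (by rw [orderOf_one]; exact hp1), irr_one_eq_degree] at h1
    have hd0 : (charDegree (χ : G → ℂ) : ℂ) ≠ 0 := by
      exact_mod_cast (irr_degree_pos χ).ne'
    have hpc : ((p ^ c : ℕ) : ℂ) ≠ 0 := by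
      exact_mod_cast (pow_ne_zero c hp0)
    exact mul_ne_zero hpc hd0 h1
  have hge : (S.card : ℤ) * (kf χ) ^ 2 ≤ ((p ^ c : ℕ) : ℤ) * kf χ := by
    rw [hsum]
    calc (S.card : ℤ) * (kf χ) ^ 2 = ∑ ψ ∈ S, (kf ψ) ^ 2 := by
          rw [Finset.sum_congr rfl (fun ψ hψ => by rw [hSk ψ hψ]), Finset.sum_const,
            nsmul_eq_mul]
      _ ≤ ∑ ψ : IrrCharacter G, (kf ψ) ^ 2 :=
          Finset.sum_le_sum_of_subset_of_nonneg (Finset.subset_univ S)
            (fun ψ _ _ => sq_nonneg (kf ψ))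
  have hKpos : 0 < kf χ := by
    have h1 : (0 : ℤ) ≤ ((p ^ c : ℕ) : ℤ) * kf χ :=
      le_trans (mul_nonneg (Int.natCast_nonneg _) (sq_nonneg _)) hge
    have hpc : (0 : ℤ) < ((p ^ c : ℕ) : ℤ) := by
      exact_mod_cast Nat.pos_of_ne_zero (pow_ne_zero c hp0)
    have h2 : 0 ≤ kf χ := by
      by_contra hneg
      push Not at hneg
      have := mul_neg_of_pos_of_neg hpc hneg
      omega
    exact lt_of_le_of_ne h2 (Ne.symm hK0)
  refine ⟨(kf χ).toNat, ?_, ?_, ?_⟩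
  · omega
  · rw [hkf χ]
    have : ((kf χ).toNat : ℤ) = kf χ := Int.toNat_of_nonneg hKpos.le
    exact_mod_cast congrArg (fun z : ℤ => (z : ℂ)) this.symm
  · have h3 : (S.card : ℤ) * kf χ ≤ ((p ^ c : ℕ) : ℤ) := by
      have h4 : (S.card : ℤ) * kf χ * kf χ ≤ ((p ^ c : ℕ) : ℤ) * kf χ := by
        rw [mul_assoc, ← sq]; exact hge
      exact le_of_mul_le_mul_right h4 hKpos
    have h5 : ((kf χ).toNat : ℤ) = kf χ := Int.toNat_of_nonneg hKpos.le
    rw [← h5] at h3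
    exact_mod_cast h3

/-- Let G be a finite group, p a prime, p^a the p-part of the order of G and g′ its p′-part. Call two irreducible characters p-conjugate when one is obtained from the other by applying a field automorphism of ℂ that fixes the g′-th roots of unity, and let r be the number of characters p-conjugate to the irreducible character χ (χ included). Then the exponent of p in r·χ(1) is at most a; and if p^a divides r·χ(1) then p^a already divides χ(1). -/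
theorem result {G : Type*} [Group G] [Finite G] (p : ℕ) (hp : p.Prime) (χ : Cfsg.IrrCharacter G) (r : ℕ) (hr : Nat.card {ψ : Cfsg.IrrCharacter G // ∃ σ : ℂ ≃+* ℂ, σ (Complex.exp (2 * Real.pi * Complex.I / ((Nat.card G / p ^ (Nat.card G).factorization p) : ℕ))) = Complex.exp (2 * Real.pi * Complex.I / ((Nat.card G / p ^ (Nat.card G).factorization p) : ℕ)) ∧ (ψ : G → ℂ) = fun g => σ ((χ : G → ℂ) g)} = r) : (r * Cfsg.charDegree (χ : G → ℂ)).factorization p ≤ (Nat.card G).factorization p ∧ (p ^ (Nat.card G).factorization p ∣ r * Cfsg.charDegree (χ : G → ℂ) → p ^ (Nat.card G).factorization p ∣ Cfsg.charDegree (χ : G → ℂ)) := by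
  classical
  haveI : Fact p.Prime := ⟨hp⟩
  haveI := Fintype.ofFinite G
  obtain ⟨M, hM⟩ := Cfsg.Agent.S0165.exists_modular p hp
  have hn0 : Nat.card G ≠ 0 := Nat.card_pos.ne'
  obtain ⟨a, ha⟩ : ∃ a, a = (Nat.card G).factorization p := ⟨_, rfl⟩
  obtain ⟨d, hd⟩ : ∃ d, d = Cfsg.charDegree (χ : G → ℂ) := ⟨_, rfl⟩
  obtain ⟨b, hb⟩ : ∃ b, b = d.factorization p := ⟨_, rfl⟩
  have hd0 : d ≠ 0 := by rw [hd]; exact (irr_degree_pos χ).ne'
  have hba : b ≤ a := by
    have h1 : p ^ b ∣ Nat.card G := by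
      rw [hb]; exact (Nat.ordProj_dvd d p).trans (by rw [hd]; exact irr_degree_dvd_card χ)
    rw [ha]
    exact (hp.pow_dvd_iff_le_factorization hn0).mp h1
  obtain ⟨ζ, hζdef⟩ : ∃ ζ : ℂ, ζ = Complex.exp (2 * Real.pi * Complex.I /
      ((Nat.card G / p ^ (Nat.card G).factorization p : ℕ) : ℂ)) := ⟨_, rfl⟩
  rw [← hζdef] at hr
  obtain ⟨S, hSdef⟩ : ∃ S : Finset (IrrCharacter G), S = Finset.univ.filter
      (fun ψ : IrrCharacter G => ∃ σ : ℂ ≃+* ℂ, σ ζ = ζ ∧
        (ψ : G → ℂ) = fun g => σ ((χ : G → ℂ) g)) := ⟨_, rfl⟩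
  have hSmem : ∀ ψ : IrrCharacter G, ψ ∈ S ↔ ∃ σ : ℂ ≃+* ℂ, σ ζ = ζ ∧
      (ψ : G → ℂ) = fun g => σ ((χ : G → ℂ) g) := by
    intro ψ; rw [hSdef, Finset.mem_filter]; simp only [Finset.mem_univ, true_and]
  have hrS : S.card = r := by
    rw [← hr, Nat.card_eq_fintype_card, Fintype.card_subtype, hSdef]
  have hχS : χ ∈ S := (hSmem χ).mpr ⟨RingEquiv.refl ℂ, rfl, rfl⟩
  have hr0 : 0 < r := by rw [← hrS]; exact Finset.card_pos.mpr ⟨χ, hχS⟩
  have hSreg : ∀ ψ ∈ S, ∀ x : G, ¬ p ∣ orderOf x → (ψ : G → ℂ) x = (χ : G → ℂ) x := by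
    intro ψ hψ x hx
    obtain ⟨σ, hσ, hψσ⟩ := (hSmem ψ).mp hψ
    rw [hψσ]
    rw [hζdef] at hσ
    exact reg_fixed p hp (irr_isCharacter χ) σ hσ x hx
  have hΦ := (Cfsg.Agent.S4425.result p χ).1
  rw [← ha, ← hd, ← hb] at hΦ
  obtain ⟨n, hn0', hn, hle⟩ := core p χ (a - b) hΦ
    (by intro h; exact hp.one_lt.ne' (Nat.dvd_one.mp h)) hp.ne_zero S hSreg
  rw [hrS] at hle
  rw [← ha, ← hd]
  have hrle : r ≤ p ^ (a - b) := le_trans (Nat.le_mul_of_pos_right r hn0') hle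
  have hfr : r.factorization p ≤ a - b := by
    have h1 : p ^ r.factorization p ≤ r := Nat.le_of_dvd hr0 (Nat.ordProj_dvd r p)
    exact (Nat.pow_le_pow_iff_right hp.one_lt).mp (h1.trans hrle)
  have hfac : (r * d).factorization p = r.factorization p + b := by
    rw [Nat.factorization_mul hr0.ne' hd0, Finsupp.add_apply, hb]
  constructor
  · rw [hfac]; omega
  · intro hdvd
    have h1 : a ≤ (r * d).factorization p :=
      (hp.pow_dvd_iff_le_factorization (Nat.mul_ne_zero hr0.ne' hd0)).mp hdvd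
    rw [hfac] at h1
    apply (hp.pow_dvd_iff_le_factorization hd0).mpr
    rw [← hb]
    by_contra hlt
    push Not at hlt
    have hrc : r.factorization p = a - b := by omega
    have hpr : p ^ (a - b) ∣ r := by rw [← hrc]; exact Nat.ordProj_dvd r p
    have hreq : r = p ^ (a - b) := le_antisymm hrle (Nat.le_of_dvd hr0 hpr)
    have hn1 : n = 1 := by
      have hpos : 0 < p ^ (a - b) := pow_pos hp.pos _
      have h2 : p ^ (a - b) * n ≤ p ^ (a - b) * 1 := by
        rw [mul_one]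
        calc p ^ (a - b) * n = r * n := by rw [hreq]
          _ ≤ p ^ (a - b) := hle
      have := Nat.le_of_mul_le_mul_left h2 hpos
      omega
    have hB : IsPBlock M (blockOf M (χ : G → ℂ)) := isPBlock_blockOf χ
    have hχB : χ ∈ blockOf M (χ : G → ℂ) := self_mem_blockOf hM χ
    have hht : blockHeight p (blockOf M (χ : G → ℂ)) (χ : G → ℂ) = 0 := by
      apply (Cfsg.Agent.S4426.result p M hM _ hB χ hχB).1.mpr
      refine ⟨χ, hχB, ((p ^ b : ℕ) : ℤ), ?_, ?_, ?_⟩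
      · have hfun : (fun x : G => if p ∣ orderOf x then (0 : ℂ)
              else ((p ^ (Nat.card G).factorization p : ℕ) : ℂ) * (χ : G → ℂ) x)
            = ((p ^ b : ℕ) : ℂ) • (fun x : G => if p ∣ orderOf x then (0:ℂ)
              else ((p ^ (a - b) : ℕ) : ℂ) * (χ : G → ℂ) x) := by
          funext x
          rw [Pi.smul_apply, smul_eq_mul]
          by_cases hx : p ∣ orderOf x
          · rw [if_pos hx, if_pos hx, mul_zero]
          · rw [if_neg hx, if_neg hx, ← ha, ← mul_assoc, ← Nat.cast_mul, ← pow_add,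
              show b + (a - b) = a by omega]
        rw [hfun, Cfsg.Agent.Helper2.classInner_smul_left, hn, hn1]
        push_cast
        ring
      · exact_mod_cast (pow_pos hp.pos b).ne'
      · rw [padicValInt.of_nat, padicValNat.prime_pow, ← hd, hb]
    have hdef : blockDefect p (blockOf M (χ : G → ℂ)) = a - b := by
      unfold blockHeight at hht
      unfold blockDefect
      have hle' : sInf ((fun ψ : IrrCharacter G => (charDegree (ψ : G → ℂ)).factorization p) ''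
          blockOf M (χ : G → ℂ)) ≤ (charDegree (χ : G → ℂ)).factorization p :=
        Nat.sInf_le ⟨χ, hχB, rfl⟩
      rw [← hd, ← hb] at hht hle'
      rw [← ha]
      omega
    obtain ⟨c, hc⟩ : ∃ c, c = a - b := ⟨_, rfl⟩
    have hc1 : 1 ≤ c := by omega
    obtain ⟨q, hq⟩ : ∃ q, q = p ^ c := ⟨_, rfl⟩
    have hq0 : 0 < q := by rw [hq]; exact pow_pos hp.pos c
    obtain ⟨ξ, hξdef⟩ : ∃ ξ : ℂ, ξ = Complex.exp (2 * Real.pi * Complex.I / (q : ℂ)) :=
      ⟨_, rfl⟩
    have hξ : IsPrimitiveRoot ξ q := by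
      rw [hξdef]; exact Complex.isPrimitiveRoot_exp q hq0.ne'
    obtain ⟨g', hg'⟩ : ∃ g', g' = Nat.card G / p ^ (Nat.card G).factorization p := ⟨_, rfl⟩
    have hg'0 : 0 < g' := by rw [hg']; exact Nat.ordCompl_pos p hn0
    have hζ : IsPrimitiveRoot ζ g' := by
      rw [hζdef, hg']
      exact Complex.isPrimitiveRoot_exp _ (Nat.ordCompl_pos p hn0).ne'
    have hcop : Nat.Coprime g' q := by
      rw [hq, hg']
      exact ((Nat.Prime.coprime_iff_not_dvd hp).mpr
        (Nat.not_dvd_ordCompl hp hn0)).symm.pow_right c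
    choose! σf hσf using fun ψ : IrrCharacter G => (hSmem ψ).mp
    have hmem : ∀ ψ : S, (σf ψ.1) ξ ∈ primitiveRoots q ℂ := by
      intro ψ
      rw [mem_primitiveRoots hq0]
      exact hξ.map_of_injective (σf ψ.1).injective
    have hinj : Function.Injective
        (fun ψ : S => (⟨(σf ψ.1) ξ, hmem ψ⟩ : primitiveRoots q ℂ)) := by
      intro ψ ψ' h
      have hξe : (σf ψ.1) ξ = (σf ψ'.1) ξ := congrArg Subtype.val h
      apply Subtype.ext
      apply Subtype.ext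
      rw [(hσf ψ.1 ψ.2).2, (hσf ψ'.1 ψ'.2).2]
      funext x
      by_cases hx0 : (χ : G → ℂ) x = 0
      · rw [hx0, map_zero, map_zero]
      · obtain ⟨xp, hxp⟩ := exists_isPPart hp x
        have hex : ∃ D : Subgroup G, IsDefectGroup p M (blockOf M (χ : G → ℂ)) D ∧ xp ∈ D := by
          by_contra hno
          push Not at hno
          exact hx0 (irr_eq_zero_of_ppart_not_mem_defect hM χ x xp hxp hno)
        obtain ⟨D, hD, hxpD⟩ := hex
        have hDcard : Nat.card D = q := by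
          rw [card_defectGroup hM hB hD, hdef, hq, hc]
        have hxpq : xp ^ q = 1 := by
          apply orderOf_dvd_iff_pow_eq_one.mp
          rw [← hDcard]
          exact Subgroup.orderOf_dvd_natCard D hxpD
        obtain ⟨y, hxy, hcomm, -, hy⟩ := hxp
        have hyg : y ^ g' = 1 := by rw [hg']; exact pow_ordCompl_eq_one p hp y hy
        have hxm : x ^ (g' * q) = 1 := by
          rw [← hxy, hcomm.mul_pow, mul_comm g' q, pow_mul, hxpq, one_pow, one_mul,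
            mul_comm q g', pow_mul, hyg, one_pow]
        exact gal_agree (σf ψ.1) (σf ψ'.1) (g' * q) (Nat.mul_pos hg'0 hq0)
          (root_agree (σf ψ.1) (σf ψ'.1) g' q hg'0 hq0 hcop ζ ξ hζ hξ
            (by rw [(hσf ψ.1 ψ.2).1, (hσf ψ'.1 ψ'.2).1]) hξe) (irr_isCharacter χ) x hxm
    have hcard := Fintype.card_le_of_injective _ hinj
    rw [Fintype.card_coe, Fintype.card_coe, Complex.card_primitiveRoots, hrS, hq,
      Nat.totient_prime_pow hp (n := c) hc1, hreq, ← hc] at hcard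
    have hlt' : p ^ (c - 1) * (p - 1) < p ^ c := by
      have h2 : p ^ c = p ^ (c - 1) * p := by
        rw [← pow_succ]; congr 1; omega
      rw [h2]
      exact Nat.mul_lt_mul_of_pos_left (Nat.sub_lt hp.pos Nat.one_pos) (pow_pos hp.pos _)
    exact absurd hcard (not_le.mpr hlt')

end Cfsg.Agent.S4506
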