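import Cfsg.Statements.S4508
import Mathlib
import Cfsg.Agent.Helper23.DegPm1A
import Cfsg.Agent.Helper23.DegPm1B
import Cfsg.Agent.Helper23.DegPm1C
import Cfsg.Agent.Helper7.LinChar

set_option autoImplicit false
open Cfsg

namespace Cfsg.Agent.S4508

open Cfsg.Agent.Helper23

/-- Let the finite group G contain an element x of prime order p with C_G(x) = ⟨x⟩, and let t be the number of conjugacy classes of elements of order p. If G has an irreducible character of degree p − 1, then t is even or the commutator subgroup has even index. -/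
theorem result {G : Type*} [Group G] [Finite G] (p : ℕ) (hp : p.Prime) (x : G) (hx : orderOf x = p) (hC : Subgroup.centralizer ({x} : Set G) = Subgroup.zpowers x) (t : ℕ) (ht : Nat.card {C : ConjClasses G // ∃ g ∈ C.carrier, orderOf g = p} = t) (χ : Cfsg.IrrCharacter G) (hχ : Cfsg.charDegree (χ : G → ℂ) + 1 = p) : Even t ∨ Even (commutator G).index := by
  classical
  letI : Fintype G := Fintype.ofFinite G
  obtain ⟨hP, hx1, hcent⟩ := DegPm1A.setup p hp x hx hC
  obtain ⟨P, hPdef⟩ : ∃ P : Subgroup G, P = Subgroup.zpowers x := ⟨_, rfl⟩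
  rw [← hPdef] at hP hcent
  have hxP : x ∈ P := hPdef ▸ Subgroup.mem_zpowers x
  letI : Fintype P := Fintype.ofFinite P
  have hPN : P ≤ Subgroup.normalizer (P : Set G) := Subgroup.le_normalizer
  obtain ⟨e, he⟩ : ∃ e, Nat.card (Subgroup.normalizer (P : Set G)) = p * e := by
    have h1 := Subgroup.card_dvd_of_le hPN
    rw [hP] at h1
    exact h1
  obtain ⟨hcount, hmain⟩ := DegPm1B.main p hp P hP hcent x hxP hx1 e he t ht
  by_cases hp2 : p = 2
  · right
    subst hp2
    apply DegPm1A.even_index_of_two x hx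
    haveI : Fact (Nat.Prime 2) := ⟨hp⟩
    obtain ⟨S, hS⟩ := DegPm1A.exists_sylow 2 P hP hcent x hxP hx1
    intro h4
    have h1 := Sylow.pow_dvd_card_of_pow_dvd_card S (n := 2)
      (by rw [show (2 : ℕ) ^ 2 = 4 from rfl]; exact h4)
    rw [hS, hP] at h1
    norm_num at h1
  · by_cases hteven : Even t
    · left; exact hteven
    right
    have hp3 : 3 ≤ p := by have := hp.two_le; omega
    have hpodd : Odd p := hp.odd_of_ne_two hp2
    have htodd : Odd t := Nat.not_even_iff_odd.mp hteven
    obtain ⟨k, s, hsodd, hks⟩ := Nat.exists_eq_two_pow_mul_odd (n := p - 1) (by omega)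
    have hk1 : 1 ≤ k := by
      by_contra hk
      have hk0 : k = 0 := by omega
      rw [hk0, pow_zero, one_mul] at hks
      rw [← hks] at hsodd
      obtain ⟨a, ha⟩ := hpodd
      obtain ⟨b, hb⟩ := hsodd
      omega
    have het : e * t = 2 ^ k * s := by rw [← hks]; omega
    have hme : 2 ^ k ∣ e := by
      have hcop : Nat.Coprime (2 ^ k) t := Nat.Coprime.pow_left k (Nat.coprime_two_left.mpr htodd)
      exact hcop.dvd_of_dvd_mul_right (by rw [het]; exact dvd_mul_right _ _)
    have he0 : e ≠ 0 := by
      rintro rfl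
      omega
    have he2 : 2 ≤ e := by
      have h1 : 2 ∣ e := (dvd_pow_self 2 (by omega : k ≠ 0)).trans hme
      have := Nat.le_of_dvd (Nat.pos_of_ne_zero he0) h1
      exact this
    have hsum0 := hmain χ hχ hp3 he2
    have hcop2 : Nat.Coprime (2 ^ k) p := Nat.Coprime.pow_left k (Nat.coprime_two_left.mpr hpodd)
    obtain ⟨g, hgN, hgord⟩ :=
      DegPm1A.exists_orderOf_eq p hp P hP hcent x hxP hx1 e (2 ^ k) he hme hcop2
    obtain ⟨n, ρ, hρirr, hρχ⟩ := χ.2
    have hn : n = 2 ^ k * s := by
      have h1 := Helper25.rep_char_one ρ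
      rw [hρχ, Helper25.irr_one_eq_degree] at h1
      have h2 : charDegree (χ : G → ℂ) = n := by exact_mod_cast h1
      omega
    have hvanP : ∀ y ∈ Subgroup.normalizer (P : Set G), y ∉ P → ρ.character y = 0 :=
      fun y hyN hyP => DegPm1C.vanish P hcent ρ (by rw [hρχ]; exact hsum0) y hyN hyP
    have hdet : LinearMap.det (ρ g) = -1 := by
      apply DegPm1C.det_neg_one ρ g (2 ^ k) s hgord
        ((Nat.even_pow' (by omega : k ≠ 0)).mpr even_two) hsodd hn
      intro i hi0 him
      apply hvanP _ (Subgroup.pow_mem _ hgN i)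
      intro hmem
      have h1 : orderOf (g ^ i) ∣ p := hP ▸ Subgroup.orderOf_dvd_natCard P hmem
      have h2 : orderOf (g ^ i) ∣ 2 ^ k := by
        apply orderOf_dvd_of_pow_eq_one
        rw [← pow_mul, mul_comm, pow_mul, ← hgord, pow_orderOf_eq_one, one_pow]
      have h3 : orderOf (g ^ i) ∣ 1 := by
        have := Nat.dvd_gcd h2 h1
        rwa [hcop2.gcd_eq_one] at this
      have h4 : g ^ i = 1 := orderOf_eq_one_iff.mp (Nat.dvd_one.mp h3)
      have h5 := orderOf_dvd_of_pow_eq_one h4
      rw [hgord] at h5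
      have := Nat.le_of_dvd hi0 h5
      omega
    apply DegPm1A.even_index_of_hom (Helper7.detHom ρ) g
    have h1 : Helper7.detHom ρ g = -1 := by
      apply Units.ext
      rw [Helper7.detHom_apply, hdet]
      simp
    rw [h1]
    have h2 : orderOf (-1 : ℂˣ) = 2 := by
      apply orderOf_eq_prime (by simp)
      intro h
      have h3 := congrArg Units.val h
      norm_num at h3
    rw [h2]
    exact even_two

end Cfsg.Agent.S4508
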