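import Cfsg.Statements.S4509
import Cfsg.Agent.Helper24.SelfCent

set_option autoImplicit false
open Cfsg

namespace Cfsg.Agent.S4509

open Cfsg.Agent.Helper24

/-- Let the finite group G contain an element x of prime order p with C_G(x) = ⟨x⟩; let t be the number of conjugacy classes of elements of order p and 1 + n·p the number of subgroups of order p. Then G has a normal subgroup of order 1 + n·p if and only if either t = p − 1, or t < p − 1 and G″ ≠ G′. Moreover, if t = p − 1 then G′ has order 1 + n·p and G/G′ is cyclic of order p; and if t < p − 1 and G″ ≠ G′ then G″ has order 1 + n·p and G′ has order p·(1 + n·p). -/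
theorem result {G : Type*} [Group G] [Finite G] (p : ℕ) (hp : p.Prime) (x : G) (hx : orderOf x = p) (hC : Subgroup.centralizer ({x} : Set G) = Subgroup.zpowers x) (t : ℕ) (ht : Nat.card {C : ConjClasses G // ∃ g ∈ C.carrier, orderOf g = p} = t) (n : ℕ) (hn : Nat.card {H : Subgroup G // Nat.card H = p} = 1 + n * p) : ((∃ S : Subgroup G, S.Normal ∧ Nat.card S = 1 + n * p) ↔ (t = p - 1 ∨ (t < p - 1 ∧ derivedSeries G 2 ≠ derivedSeries G 1))) ∧ (t = p - 1 → Nat.card (commutator G) = 1 + n * p ∧ IsCyclic (G ⧸ commutator G) ∧ (commutator G).index = p) ∧ (t < p - 1 → derivedSeries G 2 ≠ derivedSeries G 1 → Nat.card (derivedSeries G 2) = 1 + n * p ∧ Nat.card (commutator G) = p * (1 + n * p)) := by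
  have hcount := sc_class_count hp hx hC
  rw [ht] at hcount
  have hepos := sc_relIndex_pos (G := G) (x := x)
  have hp1 : 0 < p - 1 := by have := hp.two_le; omega
  have hidx : (Subgroup.normalizer ((Subgroup.zpowers x : Subgroup G) : Set G)).index = 1 + n * p := by
    rw [← hn, sc_card_subgroups hp hx hC, sc_card_sylow hp hx hC]
  have hd1 : derivedSeries G 1 = commutator G := derivedSeries_one G
  have hd2 : derivedSeries G 2 = ⁅commutator G, commutator G⁆ := rfl
  have part2 : t = p - 1 → Nat.card (commutator G) = 1 + n * p ∧ IsCyclic (G ⧸ commutator G) ∧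
      (commutator G).index = p := by
    intro heq
    rw [heq] at hcount
    have he1 : (Subgroup.zpowers x).relIndex
        (Subgroup.normalizer ((Subgroup.zpowers x : Subgroup G) : Set G)) = 1 :=
      Nat.eq_of_mul_eq_mul_left hp1 (by rw [hcount, mul_one])
    have hN := Subgroup.relIndex_eq_one.1 he1
    obtain ⟨h1, h2⟩ := sc_comm_of_e_one hp hx hC hN
    refine ⟨?_, ?_, h2⟩
    · have hNX : Subgroup.normalizer ((Subgroup.zpowers x : Subgroup G) : Set G) = Subgroup.zpowers x :=
        le_antisymm hN Subgroup.le_normalizer
      have a := Subgroup.card_mul_index (commutator G)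
      have b := Subgroup.card_mul_index (Subgroup.zpowers x)
      rw [h2] at a
      rw [sc_card hx] at b
      rw [hNX] at hidx
      rw [← hidx]
      have h5 : Nat.card (commutator G) * p = p * (Subgroup.zpowers x).index := a.trans b.symm
      rw [mul_comm] at h5
      exact Nat.eq_of_mul_eq_mul_left hp.pos h5
    · haveI : Fact p.Prime := ⟨hp⟩
      have hcard : Nat.card (G ⧸ commutator G) = p := by rw [← Subgroup.index_eq_card]; exact h2
      exact isCyclic_of_prime_card hcard
  have part3 : t < p - 1 → derivedSeries G 2 ≠ derivedSeries G 1 →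
      Nat.card (derivedSeries G 2) = 1 + n * p ∧ Nat.card (commutator G) = p * (1 + n * p) := by
    intro hlt hne
    have he1 : (Subgroup.zpowers x).relIndex
        (Subgroup.normalizer ((Subgroup.zpowers x : Subgroup G) : Set G)) ≠ 1 := by
      intro h; rw [h, mul_one] at hcount; omega
    rw [hd1, hd2] at hne
    have h3 := sc_derived_card hp hx hC he1 hne
    rw [hidx] at h3
    rw [hd2]
    exact h3
  refine ⟨⟨?_, ?_⟩, part2, part3⟩
  · rintro ⟨S, hSn, hScard⟩
    by_cases heq : t = p - 1
    · left; exact heq
    · right
      have hle : t ≤ p - 1 := by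
        calc t = t * 1 := (mul_one t).symm
          _ ≤ t * (Subgroup.zpowers x).relIndex
              (Subgroup.normalizer ((Subgroup.zpowers x : Subgroup G) : Set G)) :=
            Nat.mul_le_mul_left t hepos
          _ = p - 1 := hcount
      refine ⟨lt_of_le_of_ne hle heq, ?_⟩
      have he1 : (Subgroup.zpowers x).relIndex
          (Subgroup.normalizer ((Subgroup.zpowers x : Subgroup G) : Set G)) ≠ 1 := by
        intro h; rw [h, mul_one] at hcount; exact heq hcount
      rw [hd1, hd2]
      haveI := hSn
      exact sc_derived_ne hp hx hC he1 S (hScard.trans hidx.symm)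
  · rintro (heq | ⟨hlt, hne⟩)
    · exact ⟨commutator G, inferInstance, (part2 heq).1⟩
    · exact ⟨derivedSeries G 2, derivedSeries_normal G 2, (part3 hlt hne).1⟩

end Cfsg.Agent.S4509
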