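import Cfsg.Statements.S4511
import Cfsg.Agent.Helper24.KB

set_option autoImplicit false
open Cfsg

namespace Cfsg.Agent.S4511

open Cfsg.Agent.Helper25 Cfsg.Agent.Helper24 Cfsg.Agent.Helper7

/-- Brauer's count of the irreducible characters in a block by subsections. Let M be a maximal ideal of the algebraic integers containing the prime p, B a p-block of the finite group G, and X a set of representatives of the conjugacy classes of p-elements of G (elements of p-power order, the identity included: every p-element is conjugate to exactly one member of X). Then the number of irreducible characters in B is the sum, over x ∈ X and over the blocks b of C_G(x) that induce B, of the p-regular rank of b (the number of irreducible Brauer characters of b, here the dimension of the span of the restrictions of the members of b to the p-regular elements of C_G(x)). -/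
theorem result {G : Type*} [Group G] [Finite G] (p : ℕ) (M : Ideal Cfsg.AlgInt) (hM : Cfsg.IsPModular p M)
    (B : Set (Cfsg.IrrCharacter G)) (hB : Cfsg.IsPBlock M B) (X : Finset G)
    (hX : ∀ x ∈ X, ∃ k : ℕ, orderOf x = p ^ k)
    (hXrep : ∀ g : G, (∃ k : ℕ, orderOf g = p ^ k) → ∃! x, x ∈ X ∧ IsConj g x) :
    Nat.card B = ∑ x ∈ X, ∑ᶠ b ∈ {b : Set (Cfsg.IrrCharacter ↥(Subgroup.centralizer ({x} : Set G))) | Cfsg.IsInducedBlock M (Subgroup.centralizer ({x} : Set G)) b B},
      Cfsg.blockRank p b := by
  classical
  haveI : Fact p.Prime := ⟨hM.1⟩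
  haveI := Fintype.ofFinite G
  obtain ⟨F, hF⟩ : ∃ F : G → ℂ, F = fun g => ∑ ζ ∈ (Set.toFinite B).toFinset,
      (ζ : G → ℂ) g * starRingEnd ℂ ((ζ : G → ℂ) g) := ⟨_, rfl⟩
  have hFcl : ∀ g t : G, F (t * g * t⁻¹) = F g := by
    intro g t
    simp only [hF, irr_conj]
  have hG0 : (Nat.card G : ℂ) ≠ 0 := by
    have : Nat.card G ≠ 0 := Nat.card_pos.ne'
    exact_mod_cast this
  have h1 : (Nat.card B : ℂ) = (Nat.card G : ℂ)⁻¹ * ∑ g : G, F g := by
    have h0 : (Nat.card B : ℂ) = ∑ ζ ∈ (Set.toFinite B).toFinset, (1 : ℂ) := by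
      rw [Finset.sum_const, nsmul_eq_mul, mul_one, Nat.card_coe_set_eq,
        Set.ncard_eq_toFinset_card B (Set.toFinite B)]
    rw [h0, hF, Finset.sum_comm, Finset.mul_sum]
    refine Finset.sum_congr rfl (fun ζ _ => ?_)
    have := irr_classInner ζ ζ
    unfold classInner at this
    rw [if_pos rfl] at this
    exact this.symm
  have h2 := sum_sections (p := p) X hX hXrep F hFcl
  have h3 : ∀ x ∈ X, (Nat.card G : ℂ) *
      (Nat.card (Subgroup.centralizer ({x} : Set G)) : ℂ)⁻¹ *
      ∑ᶠ y : Subgroup.centralizer ({x} : Set G),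
        regInd p (Subgroup.centralizer ({x} : Set G)) y * F (x * (y : G)) =
      (Nat.card G : ℂ) * ((∑ᶠ b ∈ {b : Set (Cfsg.IrrCharacter ↥(Subgroup.centralizer ({x} : Set G))) |
        Cfsg.IsInducedBlock M (Subgroup.centralizer ({x} : Set G)) b B}, Cfsg.blockRank p b : ℕ) : ℂ) := by
    intro x hx
    obtain ⟨k, hk⟩ := hX x hx
    haveI := Fintype.ofFinite (Subgroup.centralizer ({x} : Set G))
    rw [finsum_eq_sum_of_fintype]
    have e1 : ∀ y : Subgroup.centralizer ({x} : Set G),
        regInd p (Subgroup.centralizer ({x} : Set G)) y * F (x * (y : G)) =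
        ∑ b ∈ (allBlocks M (Subgroup.centralizer ({x} : Set G))).filter
          (fun b => IsInducedBlock M (Subgroup.centralizer ({x} : Set G)) b B),
          ∑ χ ∈ (Set.toFinite b).toFinset,
            pRegularPart p (χ : Subgroup.centralizer ({x} : Set G) → ℂ) y *
              (χ : Subgroup.centralizer ({x} : Set G) → ℂ) y⁻¹ := by
      intro y
      by_cases hy : p ∣ orderOf y
      · rw [regInd_sing hy, zero_mul]
        symm
        apply Finset.sum_eq_zero
        intro b _
        apply Finset.sum_eq_zero
        intro χ _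
        rw [pRegularPart_of_sing hy, zero_mul]
      · rw [regInd_reg hy, one_mul, hF]
        beta_reduce
        rw [secB hM x k hk B hB y hy]
        refine Finset.sum_congr rfl (fun b _ => Finset.sum_congr rfl (fun χ _ => ?_))
        rw [pRegularPart_of_reg hy, irr_inv]
    rw [Finset.sum_congr rfl (fun y _ => e1 y), Finset.sum_comm]
    have e2 : ∀ b ∈ (allBlocks M (Subgroup.centralizer ({x} : Set G))).filter
          (fun b => IsInducedBlock M (Subgroup.centralizer ({x} : Set G)) b B),
        ∑ y : Subgroup.centralizer ({x} : Set G), ∑ χ ∈ (Set.toFinite b).toFinset,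
            pRegularPart p (χ : Subgroup.centralizer ({x} : Set G) → ℂ) y *
              (χ : Subgroup.centralizer ({x} : Set G) → ℂ) y⁻¹ =
        (Nat.card (Subgroup.centralizer ({x} : Set G)) : ℂ) * (blockRank p b : ℂ) := by
      intro b hb
      have hbB := mem_allBlocks.mp (Finset.mem_filter.mp hb).1
      have hC0 : (Nat.card (Subgroup.centralizer ({x} : Set G)) : ℂ) ≠ 0 := by
        have : Nat.card (Subgroup.centralizer ({x} : Set G)) ≠ 0 := Nat.card_pos.ne'
        exact_mod_cast this
      rw [blockRank_eq_sum_gram hM b (blockCoeff_lr hM hbB), Finset.sum_comm, Finset.mul_sum]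
      refine Finset.sum_congr rfl (fun χ _ => ?_)
      rw [gram_eq, ← mul_assoc, mul_inv_cancel₀ hC0, one_mul]
    rw [Finset.sum_congr rfl e2, ← Finset.mul_sum]
    have e3 : {b : Set (Cfsg.IrrCharacter ↥(Subgroup.centralizer ({x} : Set G))) |
        Cfsg.IsInducedBlock M (Subgroup.centralizer ({x} : Set G)) b B} =
        ((allBlocks M (Subgroup.centralizer ({x} : Set G))).filter
          (fun b => IsInducedBlock M (Subgroup.centralizer ({x} : Set G)) b B) : Set _) := by
      ext b
      simp only [Set.mem_ofPred_eq, Finset.coe_filter, mem_allBlocks]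
      exact ⟨fun h => ⟨h.1, h⟩, fun h => h.2⟩
    rw [e3, finsum_mem_coe_finset]
    have hC0 : (Nat.card (Subgroup.centralizer ({x} : Set G)) : ℂ) ≠ 0 := by
      have : Nat.card (Subgroup.centralizer ({x} : Set G)) ≠ 0 := Nat.card_pos.ne'
      exact_mod_cast this
    push_cast
    field_simp
  rw [h2, Finset.sum_congr rfl h3, ← Finset.mul_sum, ← mul_assoc, inv_mul_cancel₀ hG0, one_mul] at h1
  apply Nat.cast_injective (R := ℂ)
  rw [h1]
  push_cast
  rfl

end Cfsg.Agent.S4511
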