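import Cfsg.Statements.S4512
import Cfsg.Agent.Helper7.KleinBlock
import Cfsg.Agent.Helper7.SectionSum
import Cfsg.Agent.Helper25.BlockRank

set_option autoImplicit false
open Cfsg

namespace Cfsg.Agent.S4512

open Cfsg.Agent.Helper25 Cfsg.Agent.Helper7

theorem s4512_sq_one {G : Type*} [Group G] [Finite G] (P : Sylow 2 G)
    (hexp : ∀ x : P, x * x = 1) (x : G) (k : ℕ) (hk : orderOf x = 2 ^ k) : x * x = 1 := by
  haveI : Fact (Nat.Prime 2) := ⟨Nat.prime_two⟩
  have hpg : IsPGroup 2 (Subgroup.zpowers x) :=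
    IsPGroup.of_card (n := k) (by rw [Nat.card_zpowers, hk])
  obtain ⟨Q, hQ⟩ := hpg.exists_le_sylow
  obtain ⟨g, hg⟩ := MulAction.exists_smul_eq G P Q
  have hx : x ∈ (Q : Subgroup G) := hQ (Subgroup.mem_zpowers x)
  rw [← hg, Sylow.coe_subgroup_smul] at hx
  obtain ⟨s, hs, rfl⟩ := (Subgroup.mem_smul_pointwise_iff_exists _ _ _).mp hx
  have h2 : s * s = 1 := congrArg Subtype.val (hexp ⟨s, hs⟩)
  show (MulAut.conj g) s * (MulAut.conj g) s = 1
  rw [← map_mul, h2, map_one]

theorem s4512_const {G : Type*} [Group G] [Finite G] (M : Ideal AlgInt) (hM : IsPModular 2 M)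
    (P : Sylow 2 G) (hP : Nat.card P = 4) (hexp : ∀ x : P, x * x = 1)
    (χ : IrrCharacter G) (hχ : χ ∈ principalBlock M G) (x y : G) (hx : orderOf x = 2)
    (hxy : x * y = y * x) (hy : ¬ 2 ∣ orderOf y) :
    (χ : G → ℂ) (x * y) = (χ : G → ℂ) x := by
  classical
  haveI : Fact (Nat.Prime 2) := ⟨Nat.prime_two⟩
  have hx1 : x ≠ 1 := by
    rintro rfl
    rw [orderOf_one] at hx
    norm_num at hx
  -- a Sylow 2-subgroup S of G containing x
  have hpg : IsPGroup 2 (Subgroup.zpowers x) :=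
    IsPGroup.of_card (n := 1) (by rw [Nat.card_zpowers, hx, pow_one])
  obtain ⟨S, hS⟩ := hpg.exists_le_sylow
  have hxS : x ∈ (S : Subgroup G) := hS (Subgroup.mem_zpowers x)
  have hSsq : ∀ a ∈ (S : Subgroup G), a * a = 1 := by
    intro a ha
    obtain ⟨j, hj⟩ := (S.2 ⟨a, ha⟩)
    have hj' : a ^ 2 ^ j = 1 := by
      have := congrArg Subtype.val hj
      simpa using this
    obtain ⟨i, -, hi⟩ := (Nat.dvd_prime_pow Nat.prime_two).mp (orderOf_dvd_of_pow_eq_one hj')
    exact s4512_sq_one P hexp a i hi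
  have hScomm : ∀ a ∈ (S : Subgroup G), ∀ b ∈ (S : Subgroup G), a * b = b * a := by
    intro a ha b hb
    have h1 := hSsq (a * b) (Subgroup.mul_mem _ ha hb)
    have h2 := hSsq a ha
    have h3 := hSsq b hb
    calc a * b = b * b * (a * b) * (a * a) := by rw [h2, h3]; group
      _ = b * (b * a * (b * a))⁻¹⁻¹ * a := by group
      _ = b * a := by
        have : b * a * (b * a) = 1 := hSsq (b * a) (Subgroup.mul_mem _ hb ha)
        rw [this]; group
  have hSC : (S : Subgroup G) ≤ Subgroup.centralizer ({x} : Set G) := by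
    intro a ha
    rw [Subgroup.mem_centralizer_singleton_iff]
    exact hScomm a ha x hxS
  set C := Subgroup.centralizer ({x} : Set G) with hC
  let Q : Sylow 2 C := S.subtype hSC
  have hQmem : ∀ a : C, a ∈ Q ↔ (a : G) ∈ (S : Subgroup G) := by
    intro a
    show a ∈ ((S.subtype hSC : Sylow 2 C) : Subgroup C) ↔ _
    rw [Sylow.coe_subtype, Subgroup.mem_subgroupOf]
  have hcardS : Nat.card S = 4 := by
    rw [Sylow.card_eq_multiplicity, ← hP, Sylow.card_eq_multiplicity]
  have hcardQ : Nat.card Q = 4 := by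
    rw [← hcardS]
    show Nat.card ((S.subtype hSC : Sylow 2 C) : Subgroup C) = _
    rw [Sylow.coe_subtype]
    exact Nat.card_congr (Subgroup.subgroupOfEquivOfLe hSC).toEquiv
  have hxC : x ∈ C := by
    rw [hC, Subgroup.mem_centralizer_singleton_iff]
  have hyC : y ∈ C := by
    rw [hC, Subgroup.mem_centralizer_singleton_iff]
    exact hxy.symm
  obtain ⟨k, hk⟩ := pPrimeCore_index_of_klein_central Q hcardQ
    (fun a ha => Subtype.ext (hSsq (a : G) ((hQmem a).mp ha))) ⟨x, hxC⟩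
    ((hQmem _).mpr hxS) (fun h => hx1 (congrArg Subtype.val h))
    (fun h => Subtype.ext ((Subgroup.mem_centralizer_singleton_iff.mp h.2)))
  have hy' : ¬ 2 ∣ orderOf (⟨y, hyC⟩ : C) := by
    rw [← Subgroup.orderOf_coe]; exact hy
  have h1' : ¬ 2 ∣ orderOf (1 : C) := by
    rw [orderOf_one]; norm_num
  have hyK : (⟨y, hyC⟩ : C) ∈ pPrimeCore 2 C := by
    haveI hKn : (pPrimeCore 2 C).Normal := Subgroup.sSup_normal _ (fun _ h => h.1)
    have h1 : orderOf (QuotientGroup.mk (⟨y, hyC⟩ : C) : C ⧸ pPrimeCore 2 C) ∣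
        orderOf (⟨y, hyC⟩ : C) :=
      orderOf_map_dvd (QuotientGroup.mk' (pPrimeCore 2 C)) _
    have h2 : orderOf (QuotientGroup.mk (⟨y, hyC⟩ : C) : C ⧸ pPrimeCore 2 C) ∣ 2 ^ k := by
      rw [← hk, Subgroup.index_eq_card]
      exact orderOf_dvd_natCard _
    obtain ⟨j, -, hj⟩ := (Nat.dvd_prime_pow Nat.prime_two).mp h2
    have hj0 : j = 0 := by
      by_contra hj0
      apply hy'
      exact (dvd_pow_self 2 hj0).trans (hj ▸ h1)
    rw [hj0, pow_zero, orderOf_eq_one_iff] at hj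
    exact (QuotientGroup.eq_one_iff _).mp hj
  have e1 := section_eq_blockPart_principal hM x 1 (by rw [hx, pow_one]) χ ⟨y, hyC⟩ hy'
  have e2 := section_eq_blockPart_principal hM x 1 (by rw [hx, pow_one]) χ (1 : C) h1'
  rw [if_pos hχ] at e1 e2
  have e3 : blockPart (principalBlock M C) (fun c : C => (χ : G → ℂ) (x * (c : G))) ⟨y, hyC⟩
      = blockPart (principalBlock M C) (fun c : C => (χ : G → ℂ) (x * (c : G))) 1 := by
    show (∑ᶠ ψ ∈ principalBlock M C, _ * (ψ : C → ℂ) ⟨y, hyC⟩) =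
      ∑ᶠ ψ ∈ principalBlock M C, _ * (ψ : C → ℂ) 1
    apply finsum_mem_congr rfl
    intro ψ hψ
    have h1 := (mem_principalBlock_iff_of_pNilpotent hM k hk ψ).mp hψ
    rw [(mem_irrKer ψ _).mp (h1 hyK)]
  have e4 : (χ : G → ℂ) (x * ((⟨y, hyC⟩ : C) : G)) = (χ : G → ℂ) (x * ((1 : C) : G)) := by
    rw [← e1, ← e2, e3]
  simpa using e4

/-- If G is a finite group with a Sylow 2-subgroup that is a Klein four-group and a single conjugacy class of involutions, then its principal 2-block (relative to a maximal ideal M of the algebraic integers containing 2) has 2-regular rank 3: the restrictions of its irreducible characters to the elements of odd order span a space of dimension 3 (it has three irreducible Brauer characters). -/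
theorem result {G : Type*} [Group G] [Finite G] (M : Ideal Cfsg.AlgInt) (hM : Cfsg.IsPModular 2 M) (P : Sylow 2 G)
    (hP : Nat.card P = 4) (hexp : ∀ x : P, x * x = 1)
    (hone : ∀ s t : G, orderOf s = 2 → orderOf t = 2 → IsConj s t) :
    Cfsg.blockRank 2 (Cfsg.principalBlock M G) = 3 := by
  classical
  haveI : Fact (Nat.Prime 2) := ⟨Nat.prime_two⟩
  haveI := Fintype.ofFinite G
  have hKF : IsKleinFour (P : Subgroup G) := by
    refine ⟨hP, ?_⟩
    have h1 : Monoid.exponent (P : Subgroup G) ∣ 2 := by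
      apply Monoid.exponent_dvd_of_forall_pow_eq_one
      intro x
      rw [pow_two]; exact hexp x
    rcases (Nat.dvd_prime Nat.prime_two).mp h1 with h | h
    · exfalso
      have := Monoid.exp_eq_one_iff.mp h
      have h4 : Nat.card (P : Subgroup G) = 1 := Nat.card_eq_one_iff_unique.mpr ⟨this, ⟨1⟩⟩
      rw [hP] at h4
      norm_num at h4
    · exact h
  obtain ⟨ζ₂, ζ₃, ζ₄, ε, hε, h2ne, h3ne, h23, h24, h34, hB, hval, -, -, -, -⟩ :=
    klein_principal_block hM P hKF hone
  have h2G : 2 ∣ Nat.card G := by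
    have := Subgroup.card_subgroup_dvd_card (P : Subgroup G)
    rw [hP] at this
    exact dvd_trans (by norm_num) this
  obtain ⟨z₁, hz₁⟩ := exists_prime_orderOf_dvd_card' 2 h2G
  obtain ⟨v2, v3, v4⟩ := hval z₁ hz₁
  have hεsq : (ε : ℂ) * (ε : ℂ) = 1 := by
    rcases hε with h | h <;> simp [h]
  -- members
  have hmem : ∀ χ : IrrCharacter G, χ ∈ principalBlock M G ↔
      χ = trivChar G ∨ χ = ζ₂ ∨ χ = ζ₃ ∨ χ = ζ₄ := by
    intro χ
    rw [hB]
    constructor
    · rintro (h | h)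
      · exact Or.inl (Subtype.ext h)
      · exact Or.inr h
    · rintro (h | h)
      · exact Or.inl (by rw [h]; rfl)
      · exact Or.inr h
  have hB0 : IsPBlock M (principalBlock M G) := isPBlock_principalBlock
  have ht2 : trivChar G ≠ ζ₂ := fun h => h2ne (by rw [← h]; rfl)
  have ht3 : trivChar G ≠ ζ₃ := fun h => h3ne (by rw [← h]; rfl)
  have ht4 : trivChar G ≠ ζ₄ := by
    intro h
    rw [← h, trivChar_apply] at v4
    norm_num at v4
  have hfin : (Set.toFinite (principalBlock M G)).toFinset = {trivChar G, ζ₂, ζ₃, ζ₄} := by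
    ext χ
    rw [Set.Finite.mem_toFinset, hmem]
    simp
  have hsum4 : ∀ F : IrrCharacter G → ℂ, ∑ χ ∈ (Set.toFinite (principalBlock M G)).toFinset, F χ
      = F (trivChar G) + F ζ₂ + F ζ₃ + F ζ₄ := by
    intro F
    rw [hfin, Finset.sum_insert (by simp [ht2, ht3, ht4]),
      Finset.sum_insert (by simp [h23, h24]), Finset.sum_insert (by simp [h34]),
      Finset.sum_singleton]
    ring
  -- constancy on even-order elements
  have hconst : ∀ χ ∈ principalBlock M G, ∀ g : G, 2 ∣ orderOf g →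
      (χ : G → ℂ) g = (χ : G → ℂ) z₁ := by
    intro χ hχ g hg
    obtain ⟨x, y, hxy, hc, ⟨k, hk⟩, hy⟩ := exists_isPPart Nat.prime_two g
    have hxsq := s4512_sq_one P hexp x k hk
    have hx1 : x ≠ 1 := by
      rintro rfl
      rw [one_mul] at hxy
      rw [hxy] at hy
      exact hy hg
    have hx2 : orderOf x = 2 := orderOf_eq_prime (by rw [pow_two]; exact hxsq) hx1
    rw [← hxy, s4512_const M hM P hP hexp χ hχ x y hx2 hc.eq hy]
    obtain ⟨c, hc'⟩ := isConj_iff.mp (hone z₁ x hz₁ hx2)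
    rw [← hc', irr_conj]
  set κ : ℂ := ((Finset.univ.filter (fun g : G => 2 ∣ orderOf g)).card : ℂ) / (Nat.card G : ℂ)
    with hκ
  have hG0 : (Nat.card G : ℂ) ≠ 0 := by
    have : Nat.card G ≠ 0 := Nat.card_pos.ne'
    exact_mod_cast this
  have hκ0 : κ ≠ 0 := by
    rw [hκ]
    apply div_ne_zero _ hG0
    have : 0 < (Finset.univ.filter (fun g : G => 2 ∣ orderOf g)).card :=
      Finset.card_pos.mpr ⟨z₁, Finset.mem_filter.mpr ⟨Finset.mem_univ _, by rw [hz₁]⟩⟩
    exact_mod_cast this.ne'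
  have hgram : ∀ χ ∈ principalBlock M G, ∀ ψ ∈ principalBlock M G,
      gram 2 (χ : G → ℂ) (ψ : G → ℂ) = (if χ = ψ then 1 else 0) -
        κ * ((χ : G → ℂ) z₁ * (ψ : G → ℂ) z₁) := by
    intro χ hχ ψ hψ
    rw [gram_eq]
    have h1 : ∀ g : G, pRegularPart 2 (χ : G → ℂ) g * (ψ : G → ℂ) g⁻¹ =
        (χ : G → ℂ) g * starRingEnd ℂ ((ψ : G → ℂ) g) -
        (if 2 ∣ orderOf g then (χ : G → ℂ) z₁ * (ψ : G → ℂ) z₁ else 0) := by
      intro g
      by_cases hg : 2 ∣ orderOf g
      · rw [pRegularPart_of_sing hg, if_pos hg, hconst χ hχ g hg, ← irr_inv,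
          hconst ψ hψ g⁻¹ (by rwa [orderOf_inv])]
        ring
      · rw [pRegularPart_of_reg hg, if_neg hg, irr_inv]
        ring
    rw [Finset.sum_congr rfl (fun g _ => h1 g), Finset.sum_sub_distrib, mul_sub]
    have h2 := irr_classInner χ ψ
    unfold classInner at h2
    rw [h2, ← Finset.sum_filter, Finset.sum_const, nsmul_eq_mul, hκ]
    field_simp
  have ht : trivChar G ∈ principalBlock M G := (hmem _).mpr (Or.inl rfl)
  have hm2 : ζ₂ ∈ principalBlock M G := (hmem _).mpr (Or.inr (Or.inl rfl))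
  have hm3 : ζ₃ ∈ principalBlock M G := (hmem _).mpr (Or.inr (Or.inr (Or.inl rfl)))
  have hm4 : ζ₄ ∈ principalBlock M G := (hmem _).mpr (Or.inr (Or.inr (Or.inr rfl)))
  have hidem := gram_idem_block hM (principalBlock M G) (blockCoeff_lr hM hB0) ht (trivChar G)
  rw [hsum4] at hidem
  rw [hgram _ ht _ ht, hgram _ ht _ hm2, hgram _ hm2 _ ht, hgram _ ht _ hm3, hgram _ hm3 _ ht,
    hgram _ ht _ hm4, hgram _ hm4 _ ht] at hidem
  rw [if_pos rfl, if_neg ht2, if_neg (Ne.symm ht2), if_neg ht3, if_neg (Ne.symm ht3),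
    if_neg ht4, if_neg (Ne.symm ht4), v2, v3, v4, trivChar_apply] at hidem
  have hκ4 : κ = 1 / 4 := by
    have h1 : κ * (4 * κ - 1) = 0 := by
      linear_combination hidem - κ * κ * hεsq
    rcases mul_eq_zero.mp h1 with h | h
    · exact absurd h hκ0
    · linear_combination h / 4
  have e1 := blockRank_eq_sum_gram hM (principalBlock M G) (blockCoeff_lr hM hB0)
  rw [hsum4, hgram _ ht _ ht, hgram _ hm2 _ hm2, hgram _ hm3 _ hm3, hgram _ hm4 _ hm4] at e1
  rw [if_pos rfl, if_pos rfl, if_pos rfl, if_pos rfl, v2, v3, v4, trivChar_apply, hκ4] at e1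
  have e2 : (blockRank 2 (principalBlock M G) : ℂ) = (3 : ℕ) := by
    rw [e1]
    push_cast
    linear_combination (-1 / 4 : ℂ) * hεsq
  exact Nat.cast_injective e2

end Cfsg.Agent.S4512
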