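import Cfsg.Statements.S4513
import Cfsg.Agent.Helper24.DefectOne2
import Cfsg.Agent.Helper24.IndBlk
import Cfsg.Agent.Helper2.CharExtra

set_option autoImplicit false
open Cfsg

namespace Cfsg.Agent.S4513

open Cfsg.Agent.Helper25 Cfsg.Agent.Helper24 Cfsg.Agent.Helper7 Cfsg.Agent.Helper2
open scoped ComplexConjugate

/-- Blocks of defect one for p = 2. Let M be a maximal ideal of the algebraic integers containing 2, B a 2-block of the finite group G whose defect group is the subgroup generated by an involution x, C = C_G(x), b a block of C inducing B and θ a member of b taking the same value at x as at 1 (there is exactly one). Then B consists of exactly two irreducible characters, which agree on every element of odd order, and they can be labelled χ₁, χ₂ with signs ε₁, ε₂ = ±1, ε₁ε₂ = −1, such that χᵢ(x y) = εᵢ θ(y) for every element y of C of odd order. -/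
theorem result {G : Type*} [Group G] [Finite G] (M : Ideal Cfsg.AlgInt) (hM : Cfsg.IsPModular 2 M) (x : G) (hx : orderOf x = 2)
    (B : Set (Cfsg.IrrCharacter G)) (hB : Cfsg.IsPBlock M B) (hBD : Cfsg.IsDefectGroup 2 M B (Subgroup.zpowers x))
    (b : Set (Cfsg.IrrCharacter ↥(Subgroup.centralizer ({x} : Set G)))) (hb : Cfsg.IsInducedBlock M (Subgroup.centralizer ({x} : Set G)) b B)
    (θ : Cfsg.IrrCharacter ↥(Subgroup.centralizer ({x} : Set G))) (hθ : θ ∈ b)
    (hθx : ∀ z : ↥(Subgroup.centralizer ({x} : Set G)), (z : G) = x → (θ : ↥(Subgroup.centralizer ({x} : Set G)) → ℂ) z = (θ : ↥(Subgroup.centralizer ({x} : Set G)) → ℂ) 1) :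
    Nat.card B = 2 ∧ (∀ χ ∈ B, ∀ ψ ∈ B, ∀ g : G, ¬ 2 ∣ orderOf g → (χ : G → ℂ) g = (ψ : G → ℂ) g) ∧
      ∃ χ₁ ∈ B, ∃ χ₂ ∈ B, χ₁ ≠ χ₂ ∧ ∃ ε₁ ε₂ : ℤ, (ε₁ = 1 ∨ ε₁ = -1) ∧ (ε₂ = 1 ∨ ε₂ = -1) ∧ ε₁ * ε₂ = -1 ∧
        ∀ y : ↥(Subgroup.centralizer ({x} : Set G)), ¬ 2 ∣ orderOf y →
          (χ₁ : G → ℂ) (x * y) = (ε₁ : ℂ) * (θ : ↥(Subgroup.centralizer ({x} : Set G)) → ℂ) y ∧ (χ₂ : G → ℂ) (x * y) = (ε₂ : ℂ) * (θ : ↥(Subgroup.centralizer ({x} : Set G)) → ℂ) y := by
  classical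
  haveI : Fact (Nat.Prime 2) := ⟨Nat.prime_two⟩
  have hp : Nat.Prime 2 := Nat.prime_two
  haveI : Fintype G := Fintype.ofFinite G
  haveI : Fintype ↥(Subgroup.centralizer ({x} : Set G)) := Fintype.ofFinite _
  have hxC : x ∈ Subgroup.centralizer ({x} : Set G) :=
    Subgroup.mem_centralizer_iff.mpr (fun z hz => by rw [Set.mem_singleton_iff.mp hz])
  have hx2 : x * x = 1 := by rw [← pow_two, ← hx]; exact pow_orderOf_eq_one x
  have hcomm : ∀ c : ↥(Subgroup.centralizer ({x} : Set G)), x * (c : G) = (c : G) * x :=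
    fun c => Subgroup.mem_centralizer_iff.mp c.2 x (Set.mem_singleton x)
  have hdB : Cfsg.blockDefect 2 B = 1 := by
    have hc := card_defectGroup hM hB hBD
    rw [Nat.card_zpowers, hx] at hc
    have h3 : (2 : ℕ) ^ 1 = 2 ^ Cfsg.blockDefect 2 B := by rw [pow_one]; exact hc
    exact (Nat.pow_right_injective (le_refl 2) h3).symm
  obtain ⟨χ₁, χ₂, hne, hBeq, hregB, hsingB, -⟩ := defect_one_two hM hB hdB
  obtain ⟨hdb, huniq⟩ := unique_induced_of_involution hM x hx hB hBD hb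
  obtain ⟨θ', hneθ, hbeq, hregb, hsingb, hgramb⟩ := defect_one_partner hM hb.1 hdb θ hθ
  have hχ₁B : χ₁ ∈ B := by rw [hBeq]; exact Set.mem_insert _ _
  have hχ₂B : χ₂ ∈ B := by rw [hBeq]; exact Set.mem_insert_of_mem _ rfl
  have h11 : ¬ 2 ∣ orderOf (1 : ↥(Subgroup.centralizer ({x} : Set G))) := not_dvd_orderOf_one hp
  have hθ1 : (θ : ↥(Subgroup.centralizer ({x} : Set G)) → ℂ) 1 ≠ 0 := irr_one_ne_zero θ
  -- the section functions
  set ϑ : Cfsg.IrrCharacter G → ↥(Subgroup.centralizer ({x} : Set G)) → ℂ :=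
    fun χ c => (χ : G → ℂ) (x * (c : G)) with hϑ
  set κ : Cfsg.IrrCharacter G → ℂ := fun χ =>
    Cfsg.classInner (ϑ χ) (θ : ↥(Subgroup.centralizer ({x} : Set G)) → ℂ) +
      Cfsg.classInner (ϑ χ) (θ' : ↥(Subgroup.centralizer ({x} : Set G)) → ℂ) with hκ
  have hpart : ∀ (χ : Cfsg.IrrCharacter G) (y : ↥(Subgroup.centralizer ({x} : Set G))),
      ¬ 2 ∣ orderOf y → Cfsg.blockPart b (ϑ χ) y
        = κ χ * (θ : ↥(Subgroup.centralizer ({x} : Set G)) → ℂ) y := by
    intro χ y hy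
    rw [blockPart_apply]
    have hSeq : (Set.toFinite b).toFinset
        = ({θ, θ'} : Finset (Cfsg.IrrCharacter ↥(Subgroup.centralizer ({x} : Set G)))) := by
      ext φ
      rw [Set.Finite.mem_toFinset, hbeq]
      simp
    rw [hSeq, Finset.sum_pair hneθ, hregb y hy]
    simp only [hκ]
    ring
  have hsec : ∀ (χ : Cfsg.IrrCharacter G) (y : ↥(Subgroup.centralizer ({x} : Set G))),
      ¬ 2 ∣ orderOf y → κ χ * (θ : ↥(Subgroup.centralizer ({x} : Set G)) → ℂ) y
        = if χ ∈ B then (χ : G → ℂ) (x * (y : G)) else 0 := by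
    intro χ y hy
    rw [← hpart χ y hy]
    exact section_eq_blockPart_of_unique hM x 1 (by rw [hx, pow_one]) hb huniq χ y hy
  have hκ0 : ∀ χ : Cfsg.IrrCharacter G, χ ∉ B → κ χ = 0 := by
    intro χ hχ
    have h1 := hsec χ 1 h11
    rw [if_neg hχ] at h1
    exact (mul_eq_zero.mp h1).resolve_right hθ1
  have hval : ∀ χ ∈ B, ∀ y : ↥(Subgroup.centralizer ({x} : Set G)), ¬ 2 ∣ orderOf y →
      (χ : G → ℂ) (x * (y : G)) = κ χ * (θ : ↥(Subgroup.centralizer ({x} : Set G)) → ℂ) y := by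
    intro χ hχ y hy
    have h1 := hsec χ y hy
    rw [if_pos hχ] at h1
    exact h1.symm
  -- the element x of C
  set xC : ↥(Subgroup.centralizer ({x} : Set G)) := ⟨x, hxC⟩ with hxCdef
  have hxC2 : xC * xC = 1 := Subtype.ext hx2
  have hxCcentral : ∀ c : ↥(Subgroup.centralizer ({x} : Set G)), xC * c = c * xC :=
    fun c => Subtype.ext (hcomm c)
  set τ : ↥(Subgroup.centralizer ({x} : Set G)) → ℂ := fun c =>
    2 * Cfsg.pRegularPart 2 (θ : ↥(Subgroup.centralizer ({x} : Set G)) → ℂ) (xC * c) with hτ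
  have hτcl : Cfsg.IsClassFunction ↥(Subgroup.centralizer ({x} : Set G)) τ := by
    intro c a
    simp only [hτ]
    have e : xC * (a * c * a⁻¹) = a * (xC * c) * a⁻¹ := by
      rw [← mul_assoc, ← mul_assoc, hxCcentral a]
      group
    rw [e, pRegularPart_conj (irr_conj θ)]
  set T : Set G := {g | ∃ y : ↥(Subgroup.centralizer ({x} : Set G)),
    ¬ 2 ∣ orderOf y ∧ g = x * (y : G)} with hT
  have hτT : ∀ h : ↥(Subgroup.centralizer ({x} : Set G)), (h : G) ∉ T → τ h = 0 := by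
    intro h hh
    simp only [hτ]
    by_cases hs : 2 ∣ orderOf (xC * h)
    · rw [pRegularPart_of_sing hs, mul_zero]
    · exfalso
      apply hh
      refine ⟨xC * h, hs, ?_⟩
      show (h : G) = x * (x * (h : G))
      rw [← mul_assoc, hx2, one_mul]
  have hTI : ∀ g : G, g ∉ Subgroup.centralizer ({x} : Set G) → ∀ t ∈ T, g * t * g⁻¹ ∉ T := by
    rintro g hg t ⟨y, hy, rfl⟩ ⟨y', hy', e⟩
    have h1 := conj_eq_of_conj_section hp (k := 1) (by rw [hx, pow_one]) (hcomm y) (hcomm y')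
      (by rwa [Subgroup.orderOf_coe]) (by rwa [Subgroup.orderOf_coe]) e
    apply hg
    rw [Subgroup.mem_centralizer_singleton_iff]
    calc g * x = (g * x * g⁻¹) * g := by group
      _ = x * g := by rw [h1.1]
  set Ψ : G → ℂ := Cfsg.indFun (Subgroup.centralizer ({x} : Set G)) τ with hΨ
  have hΨcl : Cfsg.IsClassFunction G Ψ := indFun_isClassFunction _ _
  have hm : ∀ χ : Cfsg.IrrCharacter G, Cfsg.classInner Ψ (χ : G → ℂ) = conj (κ χ) := by
    intro χ
    rw [hΨ, frobenius_reciprocity _ τ (χ : G → ℂ) (Cfsg.Agent.Helper1.isClassFunction_irr χ)]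
    simp only [hκ, hϑ]
    unfold Cfsg.classInner
    rw [← mul_add, ← Finset.sum_add_distrib, map_mul, map_inv₀, Complex.conj_natCast, map_sum]
    congr 1
    rw [← Equiv.sum_comp (Equiv.mulLeft xC)]
    apply Finset.sum_congr rfl
    intro c _
    simp only [Equiv.coe_mulLeft, hτ]
    rw [← mul_assoc, hxC2, one_mul]
    have e1 : ((xC * c : ↥(Subgroup.centralizer ({x} : Set G))) : G) = x * (c : G) := rfl
    rw [e1, map_add, map_mul, map_mul, Complex.conj_conj, Complex.conj_conj]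
    by_cases hc : 2 ∣ orderOf c
    · rw [pRegularPart_of_sing hc, hsingb c hc]; ring
    · rw [pRegularPart_of_reg hc, hregb c hc]; ring
  have hpars : Cfsg.classInner Ψ Ψ = conj (κ χ₁) * κ χ₁ + conj (κ χ₂) * κ χ₂ := by
    rw [classInner_eq_sum_mul hΨcl Ψ]
    have e : ∀ χ : Cfsg.IrrCharacter G,
        Cfsg.classInner Ψ (χ : G → ℂ) * conj (Cfsg.classInner Ψ (χ : G → ℂ))
          = conj (κ χ) * κ χ := by
      intro χ
      rw [hm, Complex.conj_conj]
    rw [Finset.sum_congr rfl (fun χ _ => e χ)]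
    rw [← Finset.sum_subset (Finset.subset_univ ({χ₁, χ₂} : Finset (Cfsg.IrrCharacter G)))
      (fun χ _ hχ => by
        rw [hκ0 χ (fun h => hχ (by rw [hBeq] at h; simpa using h)), mul_zero]),
      Finset.sum_pair hne]
  have hiso : Cfsg.classInner Ψ Ψ = 2 := by
    rw [frobenius_reciprocity _ τ Ψ hΨcl]
    unfold Cfsg.classInner
    have e : ∀ c : ↥(Subgroup.centralizer ({x} : Set G)), τ c * conj (Ψ (c : G))
        = 4 * (Cfsg.pRegularPart 2 (θ : ↥(Subgroup.centralizer ({x} : Set G)) → ℂ) (xC * c) *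
            (θ : ↥(Subgroup.centralizer ({x} : Set G)) → ℂ) (xC * c)⁻¹) := by
      intro c
      by_cases hcT : (c : G) ∈ T
      · rw [hΨ, indFun_eq_of_ti _ T hTI τ hτcl hτT c hcT]
        simp only [hτ]
        by_cases hs : 2 ∣ orderOf (xC * c)
        · rw [pRegularPart_of_sing hs]; simp
        · rw [pRegularPart_of_reg hs, irr_inv θ, map_mul, Complex.conj_ofNat]; ring
      · have h0 := hτT c hcT
        rw [h0, zero_mul]
        have h1 : Cfsg.pRegularPart 2 (θ : ↥(Subgroup.centralizer ({x} : Set G)) → ℂ) (xC * c)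
            = 0 := by
          simp only [hτ] at h0
          simpa using h0
        rw [h1]; ring
    have hre : ∑ c : ↥(Subgroup.centralizer ({x} : Set G)),
        Cfsg.pRegularPart 2 (θ : ↥(Subgroup.centralizer ({x} : Set G)) → ℂ) (xC * c) *
          (θ : ↥(Subgroup.centralizer ({x} : Set G)) → ℂ) (xC * c)⁻¹
        = ∑ c : ↥(Subgroup.centralizer ({x} : Set G)),
        Cfsg.pRegularPart 2 (θ : ↥(Subgroup.centralizer ({x} : Set G)) → ℂ) c *
          (θ : ↥(Subgroup.centralizer ({x} : Set G)) → ℂ) c⁻¹ :=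
      Equiv.sum_comp (Equiv.mulLeft xC) (fun c =>
        Cfsg.pRegularPart 2 (θ : ↥(Subgroup.centralizer ({x} : Set G)) → ℂ) c *
          (θ : ↥(Subgroup.centralizer ({x} : Set G)) → ℂ) c⁻¹)
    rw [Finset.sum_congr rfl (fun c _ => e c), ← Finset.mul_sum, hre]
    have hg := hgramb
    rw [gram_eq] at hg
    linear_combination 4 * hg
  have hx_sing : 2 ∣ orderOf x := by rw [hx]
  have e1 : x * ((1 : ↥(Subgroup.centralizer ({x} : Set G))) : G) = x := by
    rw [OneMemClass.coe_one, mul_one]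
  have hκ2 : κ χ₂ = -κ χ₁ := by
    have h1 := hval χ₁ hχ₁B 1 h11
    have h2 := hval χ₂ hχ₂B 1 h11
    rw [e1] at h1 h2
    rw [hsingB x hx_sing, h1] at h2
    have h3 : (κ χ₂ + κ χ₁) * (θ : ↥(Subgroup.centralizer ({x} : Set G)) → ℂ) 1 = 0 := by
      linear_combination -h2
    have h4 := (mul_eq_zero.mp h3).resolve_right hθ1
    linear_combination h4
  have hκreal : conj (κ χ₁) = κ χ₁ := by
    have h1 := hval χ₁ hχ₁B 1 h11
    rw [e1] at h1
    have hxinv : x⁻¹ = x := inv_eq_of_mul_eq_one_left hx2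
    have h2 : conj ((χ₁ : G → ℂ) x) = (χ₁ : G → ℂ) x := by
      rw [← irr_inv χ₁ x, hxinv]
    have h3 : conj ((θ : ↥(Subgroup.centralizer ({x} : Set G)) → ℂ) 1)
        = (θ : ↥(Subgroup.centralizer ({x} : Set G)) → ℂ) 1 := by
      rw [irr_one_eq_degree, Complex.conj_natCast]
    have h4 : conj (κ χ₁) * (θ : ↥(Subgroup.centralizer ({x} : Set G)) → ℂ) 1
        = κ χ₁ * (θ : ↥(Subgroup.centralizer ({x} : Set G)) → ℂ) 1 := by
      calc conj (κ χ₁) * (θ : ↥(Subgroup.centralizer ({x} : Set G)) → ℂ) 1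
          = conj (κ χ₁ * (θ : ↥(Subgroup.centralizer ({x} : Set G)) → ℂ) 1) := by
            rw [map_mul, h3]
        _ = conj ((χ₁ : G → ℂ) x) := by rw [h1]
        _ = (χ₁ : G → ℂ) x := h2
        _ = _ := h1
    exact mul_right_cancel₀ hθ1 h4
  have hsq : κ χ₁ * κ χ₁ = 1 := by
    have h1 := hpars
    rw [hiso, hκ2, map_neg, hκreal] at h1
    linear_combination (-1 / 2 : ℂ) * h1
  have hcases : κ χ₁ = 1 ∨ κ χ₁ = -1 := by
    have h1 : (κ χ₁ - 1) * (κ χ₁ + 1) = 0 := by linear_combination hsq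
    rcases mul_eq_zero.mp h1 with h | h
    · left; linear_combination h
    · right; linear_combination h
  refine ⟨?_, ?_, χ₁, hχ₁B, χ₂, hχ₂B, hne, ?_⟩
  · rw [hBeq, Nat.card_coe_set_eq, Set.ncard_pair hne]
  · intro χ hχ ψ hψ g hg
    rw [hBeq] at hχ hψ
    rcases hχ with h | h <;> rcases hψ with h' | h'
    · rw [h, h']
    · rw [h, Set.mem_singleton_iff.mp h', hregB g hg]
    · rw [Set.mem_singleton_iff.mp h, h', hregB g hg]
    · rw [Set.mem_singleton_iff.mp h, Set.mem_singleton_iff.mp h']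
  · rcases hcases with h | h
    · refine ⟨1, -1, Or.inl rfl, Or.inr rfl, by norm_num, ?_⟩
      intro y hy
      constructor
      · rw [hval χ₁ hχ₁B y hy, h]; push_cast; ring
      · rw [hval χ₂ hχ₂B y hy, hκ2, h]; push_cast; ring
    · refine ⟨-1, 1, Or.inr rfl, Or.inl rfl, by norm_num, ?_⟩
      intro y hy
      constructor
      · rw [hval χ₁ hχ₁B y hy, h]; push_cast; ring
      · rw [hval χ₂ hχ₂B y hy, hκ2, h]; push_cast; ring

end Cfsg.Agent.S4513
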