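import Cfsg.Statements.S4633
import Mathlib
import Cfsg.Agent.S4437
import Cfsg.Agent.S4717

set_option autoImplicit false
open Cfsg

namespace Cfsg.Agent.S4633

open Cfsg Cfsg.Agent.Helper25 Cfsg.Agent.Helper7 Cfsg.Agent.Helper2

universe u

/-- Conjugation by a normalizing element acts on a cyclic subgroup as a power map. -/
theorem conj_eq_pow_of_cyclic {G : Type u} [Group G] [Finite G] (P : Subgroup G)
    (hcyc : IsCyclic P) (t : G) (ht : t ∈ Subgroup.normalizer (P : Set G)) :
    ∃ k : ℕ, ∀ u ∈ P, t * u * t⁻¹ = u ^ k := by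
  obtain ⟨y, hy⟩ := hcyc.exists_generator
  have hty : t * (y : G) * t⁻¹ ∈ P := (Subgroup.mem_normalizer_iff.mp ht (y : G)).mp y.2
  have h1 := hy ⟨_, hty⟩
  rw [← mem_powers_iff_mem_zpowers] at h1
  obtain ⟨k, hk⟩ := h1
  have hk' : (y : G) ^ k = t * (y : G) * t⁻¹ := by
    have := congrArg (Subtype.val) hk
    simpa using this
  refine ⟨k, fun u hu => ?_⟩
  have h2 := hy ⟨u, hu⟩
  rw [← mem_powers_iff_mem_zpowers] at h2
  obtain ⟨i, hi⟩ := h2
  have hi' : (y : G) ^ i = u := by
    have := congrArg (Subtype.val) hi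
    simpa using this
  rw [← hi', ← conj_pow, ← hk', ← pow_mul, ← pow_mul, mul_comm]

/-- A normalizing element of `p'`-order modulo the centralizer which fixes a non-identity element
of a cyclic `p`-subgroup centralizes it. -/
theorem cyclic_fix_mem_centralizer {G : Type u} [Group G] [Finite G] {p : ℕ} [Fact p.Prime]
    (P : Subgroup G) (hP : IsPGroup p P) (hcyc : IsCyclic P) (t : G)
    (ht : t ∈ Subgroup.normalizer (P : Set G)) (x : G) (hx : x ∈ P) (hx1 : x ≠ 1)
    (hfix : t * x * t⁻¹ = x) (m : ℕ) (hm : ¬ p ∣ m)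
    (htm : t ^ m ∈ Subgroup.centralizer (P : Set G)) :
    t ∈ Subgroup.centralizer (P : Set G) := by
  have hp : p.Prime := Fact.out
  obtain ⟨y, hy⟩ := hcyc.exists_generator
  obtain ⟨k, hk⟩ := conj_eq_pow_of_cyclic P hcyc t ht
  -- order of y
  obtain ⟨n, hn⟩ : ∃ n, orderOf (y : G) = p ^ n := by
    obtain ⟨r, hr⟩ := hP y
    have h1 : (y : G) ^ p ^ r = 1 := by
      have := congrArg (Subtype.val) hr
      simpa using this
    have h2 := orderOf_dvd_of_pow_eq_one h1
    obtain ⟨n, -, hn⟩ := (Nat.dvd_prime_pow hp).1 h2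
    exact ⟨n, hn⟩
  -- x as a power of y
  have h2 := hy ⟨x, hx⟩
  rw [← mem_powers_iff_mem_zpowers] at h2
  obtain ⟨j, hj⟩ := h2
  have hj' : (y : G) ^ j = x := by
    have := congrArg (Subtype.val) hj
    simpa using this
  have hjn : ¬ p ^ n ∣ j := by
    intro hd
    apply hx1
    rw [← hj']
    rw [← hn] at hd
    exact orderOf_dvd_iff_pow_eq_one.mp hd
  -- k ≡ 1 mod p
  have hkx : x ^ k = x := by rw [← hk x hx, hfix]
  have hmod : j * k ≡ j [MOD p ^ n] := by
    rw [← hn, ← pow_eq_pow_iff_modEq, pow_mul, hj', hkx]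
  have hdvd : ((p ^ n : ℕ) : ℤ) ∣ (j : ℤ) - ((j * k : ℕ) : ℤ) := (Nat.modEq_iff_dvd).mp hmod
  have hpk : (p : ℤ) ∣ (k : ℤ) - 1 := by
    by_contra hnd
    have hcop : IsCoprime (p : ℤ) ((k : ℤ) - 1) :=
      ((Nat.prime_iff_prime_int.mp hp).irreducible.coprime_iff_not_dvd).mpr hnd
    have hcop' : IsCoprime ((p : ℤ) ^ n) ((k : ℤ) - 1) := hcop.pow_left
    have h3 : ((p : ℤ) ^ n) ∣ (j : ℤ) * ((k : ℤ) - 1) := by
      have : (j : ℤ) * ((k : ℤ) - 1) = -((j : ℤ) - ((j * k : ℕ) : ℤ)) := by push_cast; ring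
      rw [this]
      have h4 := hdvd
      push_cast at h4
      exact (dvd_neg).mpr (by simpa using h4)
    have h5 := hcop'.dvd_of_dvd_mul_right h3
    apply hjn
    have h6 : ((p ^ n : ℕ) : ℤ) ∣ (j : ℤ) := by push_cast; exact h5
    exact Int.natCast_dvd_natCast.mp h6
  have hpow : ((p : ℤ) ^ (n + 1)) ∣ (k : ℤ) ^ p ^ n - 1 ^ p ^ n := dvd_sub_pow_of_dvd_sub hpk n
  have hpow' : ((p ^ n : ℕ) : ℤ) ∣ ((k ^ p ^ n : ℕ) : ℤ) - ((1 : ℕ) : ℤ) := by
    push_cast
    rw [one_pow] at hpow
    exact Dvd.dvd.trans ⟨(p : ℤ), by ring⟩ hpow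
  have hmod2 : 1 ≡ k ^ p ^ n [MOD p ^ n] := (Nat.modEq_iff_dvd).mpr hpow'
  -- iterate conjugation
  have hiter : ∀ i : ℕ, t ^ i * (y : G) * (t ^ i)⁻¹ = (y : G) ^ (k ^ i) := by
    intro i
    induction i with
    | zero => simp
    | succ i ih =>
      have : t ^ (i + 1) * (y : G) * (t ^ (i + 1))⁻¹ = t * (t ^ i * (y : G) * (t ^ i)⁻¹) * t⁻¹ := by
        rw [pow_succ']; group
      rw [this, ih, ← conj_pow, hk (y : G) y.2, ← pow_mul, pow_succ']
  have hcent : t ^ p ^ n ∈ Subgroup.centralizer (P : Set G) := by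
    have h7 : t ^ p ^ n * (y : G) * (t ^ p ^ n)⁻¹ = (y : G) := by
      rw [hiter]
      have := (pow_eq_pow_iff_modEq (x := (y : G)) (n := 1) (m := k ^ p ^ n)).mpr (by rw [hn]; exact hmod2)
      rw [← this, pow_one]
    have h8 : t ^ p ^ n * (y : G) = (y : G) * t ^ p ^ n := by
      have := congrArg (fun w => w * t ^ p ^ n) h7
      simpa [mul_assoc] using this
    rw [Subgroup.mem_centralizer_iff]
    intro u hu
    have h2 := hy ⟨u, hu⟩
    rw [← mem_powers_iff_mem_zpowers] at h2
    obtain ⟨i, hi⟩ := h2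
    have hi' : (y : G) ^ i = u := by
      have := congrArg (Subtype.val) hi
      simpa using this
    rw [← hi']
    exact ((Commute.pow_left (show Commute (y : G) (t ^ p ^ n) from h8.symm) i)).eq
  -- Bezout
  have hcop : Nat.Coprime m (p ^ n) := by
    apply Nat.Coprime.pow_right
    exact (Nat.Coprime.symm ((Nat.Prime.coprime_iff_not_dvd hp).mpr hm))
  have hbez := Nat.gcd_eq_gcd_ab m (p ^ n)
  rw [hcop] at hbez
  have ht1 : t = (t ^ m) ^ (Nat.gcdA m (p ^ n)) * (t ^ p ^ n) ^ (Nat.gcdB m (p ^ n)) := by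
    rw [← zpow_natCast, ← zpow_natCast t (p ^ n), ← zpow_mul, ← zpow_mul, ← zpow_add, ← hbez]
    simp
  rw [ht1]
  exact Subgroup.mul_mem _ (Subgroup.zpow_mem _ htm _) (Subgroup.zpow_mem _ hcent _)

/-- Let B be a block of the finite group G relative to a maximal ideal M of the algebraic integers containing the prime p, with a nontrivial cyclic defect group P. Let c be a block of C_G(P) inducing B and T the stabilizer of c in N_G(P) (the elements of N_G(P) conjugating c to itself); T contains C_G(P). Then T/C_G(P) is cyclic of order dividing p − 1, and it acts freely on the non-identity elements of P: an element of T fixing some non-identity element of P under conjugation lies in C_G(P). -/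
theorem result {G : Type*} [Group G] [Finite G] (p : ℕ) [Fact p.Prime] (M : Ideal Cfsg.AlgInt) (hM : Cfsg.IsPModular p M) (B : Set (Cfsg.IrrCharacter G)) (hB : Cfsg.IsPBlock M B) (P : Subgroup G) (hPD : Cfsg.IsDefectGroup p M B P) (hP1 : P ≠ ⊥) (hcyc : IsCyclic P) (c : Set (Cfsg.IrrCharacter (Subgroup.centralizer (P : Set G)))) (hc : Cfsg.IsInducedBlock M (Subgroup.centralizer (P : Set G)) c B) (T : Subgroup G) (hT : ∀ g : G, g ∈ T ↔ (g ∈ Subgroup.normalizer (P : Set G) ∧ Cfsg.StabilizesBlock (Subgroup.centralizer (P : Set G)) c g)) [hn : ((Subgroup.centralizer (P : Set G)).subgroupOf T).Normal] : IsCyclic (T ⧸ (Subgroup.centralizer (P : Set G)).subgroupOf T) ∧ (Subgroup.centralizer (P : Set G)).relIndex T ∣ p - 1 ∧ ∀ g ∈ T, ∀ x ∈ P, x ≠ 1 → g * x * g⁻¹ = x → g ∈ Subgroup.centralizer (P : Set G) := by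
  classical
  haveI : Fintype G := Fintype.ofFinite G
  have hp : p.Prime := Fact.out
  have hPp : IsPGroup p P := isPGroup_of_isDefectGroup hPD
  have hPC : P ≤ Subgroup.centralizer (P : Set G) := by
    intro x hx
    rw [Subgroup.mem_centralizer_iff]
    intro y hy
    obtain ⟨g, hg⟩ := hcyc.exists_generator
    have h1 := hg ⟨x, hx⟩
    have h2 := hg ⟨y, hy⟩
    obtain ⟨i, hi⟩ := Subgroup.mem_zpowers_iff.mp h1
    obtain ⟨j, hj⟩ := Subgroup.mem_zpowers_iff.mp h2
    have hi' : (g : G) ^ i = x := by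
      have := congrArg (Subtype.val) hi
      simpa using this
    have hj' : (g : G) ^ j = y := by
      have := congrArg (Subtype.val) hj
      simpa using this
    rw [← hi', ← hj', ← zpow_add, ← zpow_add, add_comm]
  have hCT : Subgroup.centralizer (P : Set G) ≤ T := by
    intro g hg
    rw [hT]
    refine ⟨Subgroup.centralizer_le_normalizer (P : Set G) hg, Subgroup.le_normalizer hg, ?_⟩
    intro χ hχ
    refine ⟨χ, hχ, ?_⟩
    intro k k' hkk
    have : k' = ⟨g, hg⟩ * k * (⟨g, hg⟩ : Subgroup.centralizer (P : Set G))⁻¹ := Subtype.ext (by simpa using hkk)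
    rw [this, irr_conj]
  have hTN : T ≤ Subgroup.normalizer (P : Set G) := fun g hg => ((hT g).1 hg).1
  have hTC : T ≤ Subgroup.normalizer ((Subgroup.centralizer (P : Set G) : Subgroup G) : Set G) :=
    fun g hg => ((hT g).1 hg).2.1
  have hstab : ∀ t : G, t ∈ T → ∀ θ ∈ c, ∀ θ' : IrrCharacter (Subgroup.centralizer (P : Set G)),
      (∀ h h' : Subgroup.centralizer (P : Set G), (h' : G) = t⁻¹ * h * (t⁻¹)⁻¹ →
        (θ' : Subgroup.centralizer (P : Set G) → ℂ) h' = (θ : Subgroup.centralizer (P : Set G) → ℂ) h) → θ' ∈ c := by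
    intro t ht θ hθ θ' hθ'
    have ht' : t⁻¹ ∈ T := T.inv_mem ht
    obtain ⟨hn, hst⟩ := ((hT t⁻¹).1 ht').2
    obtain ⟨χ', hχ', hconj⟩ := hst θ hθ
    have : θ' = χ' := by
      apply Subtype.ext
      funext k'
      have hk : t * (k' : G) * t⁻¹ ∈ Subgroup.centralizer (P : Set G) :=
        (Subgroup.mem_normalizer_iff.mp (hTC ht) (k' : G)).mp k'.2
      have e1 : ((k' : Subgroup.centralizer (P : Set G)) : G) = t⁻¹ * ((⟨_, hk⟩ : Subgroup.centralizer (P : Set G)) : G) * (t⁻¹)⁻¹ := by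
        simp [mul_assoc]
      rw [hθ' ⟨_, hk⟩ k' e1, hconj ⟨_, hk⟩ k' e1]
    rw [this]; exact hχ'
  obtain ⟨BT, hBT, hdef⟩ := Cfsg.Agent.S4437.defect_T hM P (Subgroup.centralizer (P : Set G)) T hPp hPC le_rfl hCT hTN hTC c hc.1 hstab B hc
  have h1 := Cfsg.Agent.S4717.defect_le_of_induced hM T hBT
  obtain ⟨D', hD'⟩ := exists_isDefectGroup hM hc.1
  have hDeq := defectGroup_eq_of_induced hM hB hPD (Subgroup.centralizer (P : Set G)) hPC
    (Subgroup.centralizer_le_normalizer (P : Set G)) hc hD'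
  have hc1 := card_defectGroup hM hc.1 hD'
  have hc2 := card_defectGroup hM hB hPD
  have hdeq : blockDefect p c = blockDefect p B := by
    apply Nat.pow_right_injective hp.two_le
    show p ^ blockDefect p c = p ^ blockDefect p B
    rw [← hc1, ← hc2, hDeq]
    exact Nat.card_congr (Subgroup.subgroupOfEquivOfLe hPC).toEquiv
  have hnd : ¬ p ∣ (Subgroup.centralizer (P : Set G)).relIndex T := by
    have hz : ((Subgroup.centralizer (P : Set G)).relIndex T).factorization p = 0 := by omega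
    rcases (Nat.factorization_eq_zero_iff _ _).1 hz with h | h | h
    · exact absurd hp h
    · exact h
    · exact absurd h (by
        show ((Subgroup.centralizer (P : Set G)).subgroupOf T).index ≠ 0
        exact Subgroup.index_ne_zero_of_finite)
  have hpowm : ∀ t ∈ T, t ^ (Subgroup.centralizer (P : Set G)).relIndex T ∈ Subgroup.centralizer (P : Set G) := by
    intro t ht
    have := Subgroup.pow_index_mem ((Subgroup.centralizer (P : Set G)).subgroupOf T) (⟨t, ht⟩ : T)
    rw [Subgroup.mem_subgroupOf] at this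
    have h' : t ^ ((Subgroup.centralizer (P : Set G)).subgroupOf T).index ∈ Subgroup.centralizer (P : Set G) := by
      simpa using this
    exact h'
  have hfree : ∀ g ∈ T, ∀ x ∈ P, x ≠ 1 → g * x * g⁻¹ = x → g ∈ Subgroup.centralizer (P : Set G) := by
    intro g hg x hx hx1 hfix
    exact cyclic_fix_mem_centralizer P hPp hcyc g (hTN hg) x hx hx1 hfix _ hnd (hpowm g hg)
  -- element of order p
  have hcardP : p ∣ Nat.card P := by
    rcases hPp.card_eq_or_dvd with h | h
    · exact absurd ((Subgroup.card_eq_one).mp h) hP1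
    · exact h
  obtain ⟨z₀, hz₀⟩ := exists_prime_orderOf_dvd_card' p hcardP
  have hzo : orderOf (z₀ : G) = p := by rw [Subgroup.orderOf_coe]; exact hz₀
  have hz1 : (z₀ : G) ≠ 1 := by
    intro h
    rw [h, orderOf_one] at hzo
    exact hp.one_lt.ne hzo
  have hZcard : Nat.card (Subgroup.zpowers (z₀ : G)) = p := by rw [Nat.card_zpowers, hzo]
  have hZP : Subgroup.zpowers (z₀ : G) ≤ P := by
    rw [Subgroup.zpowers_le]; exact z₀.2
  have hTZ : T ≤ Subgroup.normalizer ((Subgroup.zpowers (z₀ : G) : Subgroup G) : Set G) := by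
    intro t ht
    rw [Subgroup.mem_normalizer_iff]
    intro h
    obtain ⟨k, hk⟩ := conj_eq_pow_of_cyclic P hcyc t (hTN ht)
    obtain ⟨k', hk'⟩ := conj_eq_pow_of_cyclic P hcyc t⁻¹ (hTN (T.inv_mem ht))
    constructor
    · intro hh
      rw [hk h (hZP hh)]
      exact Subgroup.pow_mem _ hh k
    · intro hh
      have := hk' _ (hZP hh)
      have e : t⁻¹ * (t * h * t⁻¹) * t⁻¹⁻¹ = h := by group
      rw [e] at this
      rw [this]
      exact Subgroup.pow_mem _ hh k'
  let f : ↥T →* MulAut ↥(Subgroup.zpowers (z₀ : G)) :=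
    (Subgroup.zpowers (z₀ : G)).normalizerMonoidHom.comp (Subgroup.inclusion hTZ)
  have hker : f.ker = (Subgroup.centralizer (P : Set G)).subgroupOf T := by
    ext t
    rw [MonoidHom.mem_ker, Subgroup.mem_subgroupOf]
    have h0 : f t = 1 ↔ (Subgroup.inclusion hTZ t) ∈ (Subgroup.zpowers (z₀ : G)).normalizerMonoidHom.ker := by
      rw [MonoidHom.mem_ker]; rfl
    rw [h0, Subgroup.normalizerMonoidHom_ker, Subgroup.mem_subgroupOf]
    constructor
    · intro h
      have h' : (t : G) ∈ Subgroup.centralizer ((Subgroup.zpowers (z₀ : G) : Subgroup G) : Set G) := h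
      rw [Subgroup.mem_centralizer_iff] at h'
      have h2 := h' (z₀ : G) (Subgroup.mem_zpowers _)
      apply hfree (t : G) t.2 (z₀ : G) z₀.2 hz1
      rw [← h2]; group
    · intro h
      exact Subgroup.centralizer_le hZP h
  let e : T ⧸ (Subgroup.centralizer (P : Set G)).subgroupOf T ≃* f.range :=
    (QuotientGroup.quotientMulEquivOfEq hker.symm).trans (QuotientGroup.quotientKerEquivRange f)
  haveI : Fact (Nat.card (Subgroup.zpowers (z₀ : G))).Prime := ⟨by rw [hZcard]; exact hp⟩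
  haveI hcycA : IsCyclic (MulAut ↥(Subgroup.zpowers (z₀ : G))) :=
    (IsCyclic.mulAutMulEquiv ↥(Subgroup.zpowers (z₀ : G))).isCyclic.mpr inferInstance
  refine ⟨e.isCyclic.mpr inferInstance, ?_, hfree⟩
  have hidx : (Subgroup.centralizer (P : Set G)).relIndex T = Nat.card f.range := by
    show ((Subgroup.centralizer (P : Set G)).subgroupOf T).index = _
    rw [Subgroup.index_eq_card]
    exact Nat.card_congr e.toEquiv
  rw [hidx]
  have h3 := Subgroup.card_subgroup_dvd_card f.range
  rw [IsCyclic.card_mulAut, hZcard, Nat.totient_prime hp] at h3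
  exact h3

end Cfsg.Agent.S4633
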