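import Cfsg.Statements.S4636

set_option autoImplicit false
open scoped Pointwise
open Cfsg

namespace Cfsg.Agent.S4636

open scoped Pointwise in
theorem mem_normalizer_iff_smul {G : Type*} [Group G] (H : Subgroup G) (g : G) :
    g ∈ Subgroup.normalizer (H : Set G) ↔ MulAut.conj g • H = H := by
  rw [Subgroup.mem_normalizer_iff'']
  constructor
  · intro h
    ext x
    rw [Subgroup.mem_pointwise_smul_iff_inv_smul_mem]
    have := h x
    simpa [MulAut.smul_def] using this.symm
  · intro h x
    have h2 : x ∈ MulAut.conj g • H ↔ x ∈ H := by rw [h]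
    rw [Subgroup.mem_pointwise_smul_iff_inv_smul_mem] at h2
    simpa [MulAut.smul_def] using h2.symm

theorem cyclic_unique {C : Type*} [Group C] [Finite C] [IsCyclic C] (n : ℕ) (hn : 0 < n)
    (A B : Subgroup C) (hA : Nat.card A = n) (hB : Nat.card B = n) : A = B := by
  classical
  haveI := Fintype.ofFinite C
  have hS := IsCyclic.card_pow_eq_one_le (α := C) hn
  have key : ∀ D : Subgroup C, Nat.card D = n →
      (D : Set C).toFinset = Finset.univ.filter (fun a : C => a ^ n = 1) := by
    intro D hD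
    apply Finset.eq_of_subset_of_card_le
    · intro x hx
      simp only [Set.mem_toFinset, SetLike.mem_coe] at hx
      simp only [Finset.mem_filter, Finset.mem_univ, true_and]
      have := pow_card_eq_one' (G := D) (x := ⟨x, hx⟩)
      rw [hD] at this
      have h3 := congrArg (fun y : D => (y : C)) this
      simpa using h3
    · refine hS.trans ?_
      rw [Set.toFinset_card, ← Nat.card_eq_fintype_card]
      exact hD.ge
  have h1 := key A hA
  have h2 := key B hB
  have : (A : Set C) = (B : Set C) := by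
    have := h1.trans h2.symm
    simpa using this
  exact SetLike.coe_injective this

theorem unique_in_cyclic {G : Type*} [Group G] [Finite G] (P : Subgroup G) (hcyc : IsCyclic P)
    (n : ℕ) (hn : 0 < n) (A B : Subgroup G) (hAP : A ≤ P) (hBP : B ≤ P)
    (hA : Nat.card A = n) (hB : Nat.card B = n) : A = B := by
  have h1 : Nat.card (A.subgroupOf P) = n := by
    rw [Nat.card_congr (Subgroup.subgroupOfEquivOfLe hAP).toEquiv]; exact hA
  have h2 : Nat.card (B.subgroupOf P) = n := by
    rw [Nat.card_congr (Subgroup.subgroupOfEquivOfLe hBP).toEquiv]; exact hB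
  have := cyclic_unique n hn _ _ h1 h2
  rw [Subgroup.subgroupOf_inj] at this
  rwa [inf_eq_left.mpr hAP, inf_eq_left.mpr hBP] at this

theorem Z_le {G : Type*} [Group G] [Finite G] (p : ℕ) [Fact p.Prime] (P : Subgroup G)
    (hP : IsPGroup p P) (hcyc : IsCyclic P) (Z : Subgroup G) (hZ : Z ≤ P)
    (hZcard : Nat.card Z = p) (K : Subgroup G) (hK : K ≤ P) (hK1 : K ≠ ⊥) : Z ≤ K := by
  have hKp : IsPGroup p K := hP.to_le hK
  have hnt : Nontrivial K := (Subgroup.nontrivial_iff_ne_bot K).mpr hK1
  obtain ⟨n, hn⟩ := IsPGroup.iff_card.mp hKp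
  have hn0 : n ≠ 0 := by
    rintro rfl
    rw [pow_zero] at hn
    have : Subsingleton K := (Nat.card_eq_one_iff_unique.mp hn).1
    exact not_subsingleton K this
  have hdvd : p ∣ Nat.card K := by rw [hn]; exact dvd_pow_self p hn0
  obtain ⟨x, hx⟩ := exists_prime_orderOf_dvd_card' p hdvd
  have hZ' : Nat.card (Subgroup.zpowers (x : G)) = p := by
    rw [Nat.card_zpowers, Subgroup.orderOf_coe, hx]
  have hle : Subgroup.zpowers (x : G) ≤ K := by
    rw [Subgroup.zpowers_le]; exact x.2
  have := unique_in_cyclic P hcyc p (Fact.out : p.Prime).pos Z (Subgroup.zpowers (x : G)) hZ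
    (hle.trans hK) hZcard hZ'
  rw [this]; exact hle

/-- Let P be a nontrivial cyclic p-subgroup of the finite group G and Z its subgroup of order p. For every x outside N_G(Z), P meets its conjugate xPx⁻¹ trivially; consequently N_G(Q) ≤ N_G(Z) for every nontrivial subgroup Q of P. -/
theorem result {G : Type*} [Group G] [Finite G] (p : ℕ) [Fact p.Prime] (P : Subgroup G) (hP : IsPGroup p P) (hP1 : P ≠ ⊥) (hcyc : IsCyclic P) (Z : Subgroup G) (hZ : Z ≤ P) (hZcard : Nat.card Z = p) : (∀ x : G, x ∉ Subgroup.normalizer (Z : Set G) → P ⊓ MulAut.conj x • P = ⊥) ∧ ∀ Q : Subgroup G, Q ≤ P → Q ≠ ⊥ → Subgroup.normalizer (Q : Set G) ≤ Subgroup.normalizer (Z : Set G) := by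
  have hp := (Fact.out : p.Prime)
  have card_smul : ∀ (x : G) (H : Subgroup G), Nat.card (MulAut.conj x • H : Subgroup G) = Nat.card H := by
    intro x H
    exact Nat.card_congr (Subgroup.equivSMul (MulAut.conj x) H).toEquiv.symm
  have key : ∀ (x : G) (Q : Subgroup G), Q ≤ P → Q ≠ ⊥ → MulAut.conj x • Q ≤ P →
      x ∈ Subgroup.normalizer (Z : Set G) := by
    intro x Q hQP hQ1 hxQ
    have h1 : Z ≤ Q := Z_le p P hP hcyc Z hZ hZcard Q hQP hQ1
    have h2 : MulAut.conj x • Z ≤ P :=
      (Subgroup.pointwise_smul_le_pointwise_smul_iff.mpr h1).trans hxQ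
    rw [mem_normalizer_iff_smul]
    exact unique_in_cyclic P hcyc p hp.pos _ _ h2 hZ ((card_smul x Z).trans hZcard) hZcard
  constructor
  · intro x hx
    by_contra hne
    apply hx
    have hK : MulAut.conj x⁻¹ • (P ⊓ MulAut.conj x • P) ≤ P := by
      intro y hy
      rw [Subgroup.mem_pointwise_smul_iff_inv_smul_mem] at hy
      have := (Subgroup.mem_inf.mp hy).2
      rw [Subgroup.mem_pointwise_smul_iff_inv_smul_mem] at this
      simpa [MulAut.smul_def, mul_assoc] using this
    have hK1 : MulAut.conj x⁻¹ • (P ⊓ MulAut.conj x • P) ≠ ⊥ := by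
      intro h
      apply hne
      rw [eq_bot_iff] at h ⊢
      intro y hy
      have := h (Subgroup.smul_mem_pointwise_smul _ (MulAut.conj x⁻¹) _ hy)
      rw [Subgroup.mem_bot] at this ⊢
      have h4 : x⁻¹ * y * x = 1 := by simpa [MulAut.smul_def] using this
      have h5 : y = x * (x⁻¹ * y * x) * x⁻¹ := by group
      rw [h5, h4]; group
    have hx2 : MulAut.conj x • (MulAut.conj x⁻¹ • (P ⊓ MulAut.conj x • P)) ≤ P := by
      rw [smul_smul]
      simp only [← map_mul, mul_inv_cancel, map_one, one_smul]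
      exact inf_le_left
    exact key x _ hK hK1 hx2
  · intro Q hQP hQ1 g hg
    have : MulAut.conj g • Q = Q := (mem_normalizer_iff_smul Q g).mp hg
    exact key g Q hQP hQ1 (this.le.trans hQP)

end Cfsg.Agent.S4636
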