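import Cfsg.Statements.S4652
import Mathlib
import Cfsg.Agent.Helper25.BlockIdem

set_option autoImplicit false
open Cfsg

namespace Cfsg.Agent.S4652

/-- Fix a prime p and a maximal ideal M of the algebraic integers containing p. The defect groups of the principal p-block of a finite group G are exactly the Sylow p-subgroups of G: a subgroup D is a defect group of the principal block if and only if D is a Sylow p-subgroup. -/
theorem result {G : Type*} [Group G] [Fintype G] (p : ℕ) [Fact p.Prime] (M : Ideal Cfsg.AlgInt) (hM : Cfsg.IsPModular p M) (D : Subgroup G) : Cfsg.IsDefectGroup p M (Cfsg.principalBlock M G) D ↔ ∃ S : Sylow p G, (S : Subgroup G) = D := by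
  classical
  open Cfsg.Agent.Helper25 in
  constructor
  · rintro ⟨g, hg, P, rfl⟩
    have h1 := hg.2.2 (trivChar G) (trivChar_mem_principalBlock hM)
    have h2 : centralChar (trivChar G : G → ℂ) g =
        ((Subgroup.centralizer ({g} : Set G)).index : ℂ) := centralChar_one_fun g
    rw [h2, li_natCast_iff hM] at h1
    have hcard : Nat.card ((P : Subgroup (Subgroup.centralizer ({g} : Set G))).map
        (Subgroup.centralizer ({g} : Set G)).subtype) = p ^ (Nat.card G).factorization p := by
      rw [Subgroup.card_map_of_injective (Subgroup.subtype_injective _), Sylow.card_eq_multiplicity]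
      congr 1
      rw [← Subgroup.card_mul_index (Subgroup.centralizer ({g} : Set G)),
        Nat.factorization_mul Nat.card_pos.ne' (Subgroup.index_ne_zero_of_finite),
        Finsupp.add_apply, Nat.factorization_eq_zero_of_not_dvd h1, add_zero]
    exact ⟨Sylow.ofCard _ hcard, Sylow.coe_ofCard _ hcard⟩
  · rintro ⟨S, rfl⟩
    obtain ⟨g, hg, hp⟩ := exists_isDefectClass_principal (G := G) hM
    obtain ⟨x, hx⟩ := exists_conj_centralizes_sylow S g hp
    have hle : (S : Subgroup G) ≤ Subgroup.centralizer ({x * g * x⁻¹} : Set G) := by
      intro u hu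
      rw [Subgroup.mem_centralizer_iff]
      intro y hy
      rw [Set.mem_singleton_iff] at hy
      rw [hy]
      exact (hx u hu).symm
    refine ⟨x * g * x⁻¹, isDefectClass_conj hg x, S.subtype hle, ?_⟩
    rw [Sylow.coe_subtype, Subgroup.map_subgroupOf_eq_of_le hle]

end Cfsg.Agent.S4652
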