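import Cfsg.Statements.S4654
import Mathlib
import Cfsg.Agent.Helper2.BlockNormP

set_option autoImplicit false
open Cfsg

namespace Cfsg.Agent.S4654

open Cfsg Cfsg.Agent.Helper2 Cfsg.Agent.Helper25 Cfsg.Agent.Helper7

/-- Fix a prime p and a maximal ideal M of the algebraic integers containing p. Let P be a normal p-subgroup of the finite group G, B a p-block of G and e a p-block of C_G(P) such that (P, e) is a Brauer pair of B (as P is normal, this says that e occurs in the idempotent of B, which is supported on C_G(P)). Let T be the stabilizer of e in G under conjugation. Then the idempotent of e is a block idempotent of T: some block E of T has, at every element of T, the same idempotent coefficient as e (zero off C_G(P)); and the idempotent of B is the sum of the distinct G-conjugates of the idempotent of e: its coefficient at g is the sum over all x in G of the coefficient of e at x⁻¹ g x, divided by the order of T. -/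
theorem result {G : Type*} [Group G] [Fintype G] (p : ℕ) [Fact p.Prime] (M : Ideal Cfsg.AlgInt) (hM : Cfsg.IsPModular p M) (P : Subgroup G) [P.Normal] (hP : IsPGroup p P) (B : Set (Cfsg.IrrCharacter G)) (e : Set (Cfsg.IrrCharacter (Subgroup.centralizer (P : Set G)))) (hBe : Cfsg.IsBrauerPairOf p M B P e) (T : Subgroup G) (hT : ∀ x : G, x ∈ T ↔ Cfsg.StabilizesBlock (Subgroup.centralizer (P : Set G)) e x) : (∃ E : Set (Cfsg.IrrCharacter T), Cfsg.IsPBlock M E ∧ ∀ t : T, Cfsg.blockCoeff E t = Cfsg.subgroupBlockCoeff (Subgroup.centralizer (P : Set G)) e (t : G)) ∧ ∀ g : G, Cfsg.blockCoeff B g = (Nat.card T : ℂ)⁻¹ * ∑ x : G, Cfsg.subgroupBlockCoeff (Subgroup.centralizer (P : Set G)) e (x⁻¹ * g * x) := by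
  classical
  obtain ⟨⟨hP', he⟩, hB, hbr⟩ := hBe
  haveI : Fintype (Subgroup.centralizer (P : Set G)) := Fintype.ofFinite _
  have hTiff : ∀ x : G, x ∈ T ↔
      ∀ ξ ∈ e, conjIrrEquiv (Subgroup.centralizer (P : Set G)) x ξ ∈ e := by
    intro x
    rw [← stabilizesBlock_inv_iff, ← hT, inv_mem_iff]
  have hCT : Subgroup.centralizer (P : Set G) ≤ T := by
    intro x hx
    rw [hTiff]
    intro ξ hξ
    have : conjIrrEquiv (Subgroup.centralizer (P : Set G)) x ξ = ξ := by
      apply Subtype.ext
      funext k
      show conjChar (Subgroup.centralizer (P : Set G))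
        (ξ : Subgroup.centralizer (P : Set G) → ℂ) x k = _
      rw [conjChar_apply]
      exact irr_conj ξ k ⟨x, hx⟩
    rw [this]
    exact hξ
  have hPT : P ≤ T := by
    intro x hx
    rw [hTiff]
    intro ξ hξ
    have : conjIrrEquiv (Subgroup.centralizer (P : Set G)) x ξ = ξ := by
      apply Subtype.ext
      funext k
      show conjChar (Subgroup.centralizer (P : Set G))
        (ξ : Subgroup.centralizer (P : Set G) → ℂ) x k = _
      rw [conjChar_apply]
      have hk2 : (⟨x * (k : G) * x⁻¹, (inferInstance : (Subgroup.centralizer (P : Set G)).Normal).conj_mem (k : G) k.2 x⟩ :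
          Subgroup.centralizer (P : Set G)) = k := by
        apply Subtype.ext
        show x * (k : G) * x⁻¹ = k
        have h1 := (Subgroup.mem_centralizer_iff.mp k.2) x hx
        rw [h1, mul_inv_cancel_right]
      rw [hk2]
    rw [this]
    exact hξ
  constructor
  · obtain ⟨E, hE, hEc⟩ := exists_block_of_stabilizer hM P hP' e he T hCT hPT
      (fun x hx => (hTiff x).mp hx)
    refine ⟨E, hE, fun t => ?_⟩
    rw [hEc t, subgroupBlockCoeff_eq]
  · intro g
    have hcov : ∀ (χ : IrrCharacter G) (ξ : IrrCharacter (Subgroup.centralizer (P : Set G))),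
        ξ ∈ e → classInner (fun n : Subgroup.centralizer (P : Set G) => (χ : G → ℂ) n)
          (ξ : Subgroup.centralizer (P : Set G) → ℂ) ≠ 0 → χ ∈ B :=
      fun χ ξ hξ h => mem_of_brauerOmega_normal hM P hP' B hB ξ (hbr ξ hξ) χ h
    rw [blockCoeff_eq_avg_of_normal hM (Subgroup.centralizer (P : Set G)) e he B hB hcov T hTiff g,
      subgroupBlockCoeff_eq]

end Cfsg.Agent.S4654
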