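import Cfsg.Statements.S4657
import Mathlib
import Cfsg.Agent.Helper25.BlockBrauerMap

set_option autoImplicit false
open Cfsg

namespace Cfsg.Agent.S4657

/-- Fix a prime p and a maximal ideal M of the algebraic integers containing p. Every Brauer pair (P, e) of the finite group G is a Brauer pair of exactly one p-block B of G. -/
theorem result {G : Type*} [Group G] [Fintype G] (p : ℕ) [Fact p.Prime] (M : Ideal Cfsg.AlgInt) (hM : Cfsg.IsPModular p M) (P : Subgroup G) (e : Set (Cfsg.IrrCharacter (Subgroup.centralizer (P : Set G)))) (hPe : Cfsg.IsBrauerPair p M P e) : ∃! B : Set (Cfsg.IrrCharacter G), Cfsg.IsBrauerPairOf p M B P e := by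
  classical
  haveI : Fintype (Subgroup.centralizer (P : Set G)) := Fintype.ofFinite _
  obtain ⟨hPp, he⟩ := hPe
  obtain ⟨ξ₀, hξ₀⟩ : ∃ ξ₀, ξ₀ ∈ e := by
    obtain ⟨ξ, rfl⟩ := he
    exact ⟨ξ, Cfsg.Agent.Helper25.sameBlock_refl hM _⟩
  obtain ⟨B₀, hB₀, hB₀t, huniq⟩ :=
    Cfsg.Agent.Helper25.exists_unique_block_brauerOmega P hM hPp ξ₀
  refine ⟨B₀, ⟨⟨hPp, he⟩, hB₀, ?_⟩, ?_⟩
  · intro ξ hξ
    have h1 : MemLocalIdeal M
        (brauerOmega P (blockCoeff B₀) (ξ : Subgroup.centralizer (P : Set G) → ℂ) -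
          brauerOmega P (blockCoeff B₀) (ξ₀ : Subgroup.centralizer (P : Set G) → ℂ)) := by
      rw [Cfsg.Agent.Helper25.brauerOmega_eq_omega, Cfsg.Agent.Helper25.brauerOmega_eq_omega]
      exact Cfsg.Agent.Helper25.omega_congr hM
        (fun x : Subgroup.centralizer (P : Set G) => blockCoeff B₀ (x : G))
        (fun g x => Cfsg.Agent.Helper25.blockCoeff_conj B₀ (g : G) (x : G))
        (fun g => Cfsg.Agent.Helper25.blockCoeff_lr hM hB₀ _)
        (Cfsg.Agent.Helper25.sameBlock_of_mem hM he hξ hξ₀)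
    have h2 := Cfsg.Agent.Helper25.li_add hM h1 hB₀t
    rwa [sub_add_sub_cancel] at h2
  · rintro B' ⟨-, hB', hB't⟩
    exact huniq B' hB' (hB't ξ₀ hξ₀)

end Cfsg.Agent.S4657
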