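import Cfsg.Statements.S4662
import Cfsg.Agent.Helper25.BlockPairs22

set_option autoImplicit false
open Cfsg

namespace Cfsg.Agent.S4662

open Cfsg.Agent.Helper25
open scoped Pointwise

/-- Fix a prime p and a maximal ideal M of the algebraic integers containing p. Let (P, e) be a maximal Brauer pair of the p-block B of the finite group G, Q ≤ P, and f the p-block of C_G(Q) with (Q, f) ≤ (P, e). Let T be the stabilizer of f in N_G(Q). Then the idempotent of f is a block idempotent of T, and N_P(Q) is contained in a defect group of that block of T; moreover for some x in G the conjugate pair (x Q x⁻¹, conjugate of f) again lies below (P, e) and, with T' the stabilizer of the conjugate of f in N_G(x Q x⁻¹), N_P(x Q x⁻¹) is a defect group of the block of T' whose idempotent is that of the conjugate of f. -/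
theorem result {G : Type*} [Group G] [Fintype G] (p : ℕ) [Fact p.Prime] (M : Ideal Cfsg.AlgInt) (hM : Cfsg.IsPModular p M) (B : Set (Cfsg.IrrCharacter G)) (P Q : Subgroup G) (e : Set (Cfsg.IrrCharacter (Subgroup.centralizer (P : Set G)))) (f : Set (Cfsg.IrrCharacter (Subgroup.centralizer (Q : Set G)))) (hmax : Cfsg.IsMaximalBrauerPair p M B P e) (hQP : Q ≤ P) (hf : Cfsg.IsPBlock M f) (hle : Cfsg.SubpairLE p M Q f P e) (T : Subgroup G) (hT : ∀ y : G, y ∈ T ↔ y ∈ Subgroup.normalizer (Q : Set G) ∧ Cfsg.StabilizesBlock (Subgroup.centralizer (Q : Set G)) f y) : (∃ F : Set (Cfsg.IrrCharacter T), Cfsg.IsPBlock M F ∧ (∀ t : T, Cfsg.blockCoeff F t = Cfsg.subgroupBlockCoeff (Subgroup.centralizer (Q : Set G)) f (t : G)) ∧ ∃ D : Subgroup T, Cfsg.IsDefectGroup p M F D ∧ (P ⊓ Subgroup.normalizer (Q : Set G)).subgroupOf T ≤ D) ∧ ∃ x : G, Cfsg.SubpairLE p M (Q.map (MulAut.conj x).toMonoidHom) (Cfsg.conjBlock Q x f) P e ∧ ∀ (T' :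 Subgroup G), (∀ y : G, y ∈ T' ↔ y ∈ Subgroup.normalizer ((Q.map (MulAut.conj x).toMonoidHom) : Set G) ∧ Cfsg.StabilizesBlock (Subgroup.centralizer ((Q.map (MulAut.conj x).toMonoidHom) : Set G)) (Cfsg.conjBlock Q x f) y) → ∃ F' : Set (Cfsg.IrrCharacter T'), Cfsg.IsPBlock M F' ∧ (∀ t : T', Cfsg.blockCoeff F' t = Cfsg.subgroupBlockCoeff (Subgroup.centralizer ((Q.map (MulAut.conj x).toMonoidHom) : Set G)) (Cfsg.conjBlock Q x f) (t : G)) ∧ Cfsg.IsDefectGroup p M F' ((P ⊓ Subgroup.normalizer ((Q.map (MulAut.conj x).toMonoidHom) : Set G)).subgroupOf T') := by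
  classical
  have hPe := hmax.1.1
  have hle' : Relation.ReflTransGen (Cfsg.NormalSubpairRel p M)
      (⟨Q, f⟩ : Cfsg.BrauerPairIdx G) ⟨P, e⟩ := hle
  have hTeq : T = pairStab Q f :=
    Subgroup.ext (fun y => (hT y).trans (mem_pairStab Q f y).symm)
  subst hTeq
  refine ⟨exists_block_defectGroup_ge hM hmax hle', ?_⟩
  obtain ⟨a₀, ha₀, hmaxa⟩ := Set.exists_max_image
    {x : G | Relation.ReflTransGen (Cfsg.NormalSubpairRel p M)
      (conjIdx x (⟨Q, f⟩ : Cfsg.BrauerPairIdx G)) ⟨P, e⟩}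
    (fun x => Nat.card ↥(P ⊓ Subgroup.normalizer
      (((conjIdx x (⟨Q, f⟩ : Cfsg.BrauerPairIdx G)).1 : Subgroup G) : Set G)))
    (Set.toFinite _) ⟨1, by
      show Relation.ReflTransGen (Cfsg.NormalSubpairRel p M)
        (conjIdx 1 (⟨Q, f⟩ : Cfsg.BrauerPairIdx G)) ⟨P, e⟩
      rw [conjIdx_one]
      exact hle'⟩
  refine ⟨a₀, ha₀, ?_⟩
  intro T' hT'
  have hT'eq : T' = pairStab (Q.map (MulAut.conj a₀).toMonoidHom) (Cfsg.conjBlock Q a₀ f) :=
    Subgroup.ext (fun y => (hT' y).trans (mem_pairStab _ _ y).symm)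
  subst hT'eq
  have hQ₁f₁ : Cfsg.IsBrauerPair p M (Q.map (MulAut.conj a₀).toMonoidHom)
      (Cfsg.conjBlock Q a₀ f) :=
    isBrauerPair_of_subpairLE (a := conjIdx a₀ (⟨Q, f⟩ : Cfsg.BrauerPairIdx G)) (c := ⟨P, e⟩)
      hPe ha₀
  obtain ⟨b, hb, hbc⟩ := exists_block_of_stab hM hQ₁f₁ (pairStab _ _) (le_pairStab_self _ _)
    (centralizer_le_pairStab _ _) (pairStab_le_normalizer _ _)
    (fun x hx => ((mem_pairStab _ _ x).mp hx).2)
  refine ⟨b, hb, hbc, ?_⟩
  apply isDefectGroup_of_fullyNormalized hM hmax (Q := Q.map (MulAut.conj a₀).toMonoidHom)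
    (f := Cfsg.conjBlock Q a₀ f) ha₀ ?_ hb hbc
  intro x hx
  have hx' : Relation.ReflTransGen (Cfsg.NormalSubpairRel p M)
      (conjIdx (x * a₀) (⟨Q, f⟩ : Cfsg.BrauerPairIdx G)) ⟨P, e⟩ := by
    rw [← conjIdx_conjIdx]
    exact hx
  have h2 := hmaxa (x * a₀) hx'
  have h3 : (conjIdx x (⟨Q.map (MulAut.conj a₀).toMonoidHom, Cfsg.conjBlock Q a₀ f⟩ :
      Cfsg.BrauerPairIdx G)).1 = (conjIdx (x * a₀) (⟨Q, f⟩ : Cfsg.BrauerPairIdx G)).1 :=
    congrArg Sigma.fst (conjIdx_conjIdx a₀ x (⟨Q, f⟩ : Cfsg.BrauerPairIdx G))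
  rw [h3]
  exact h2

end Cfsg.Agent.S4662
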