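import Cfsg.Statements.S4664
import Mathlib
import Cfsg.Agent.Helper25.BlockOrth
import Cfsg.Agent.Helper25.CharEig

set_option autoImplicit false
open Cfsg

namespace Cfsg.Agent.S4664

/-- Fix a prime p and a maximal ideal M of the algebraic integers containing p, and let B be a p-block of the finite group G. Let m be the p'-part of the order of G and η = exp(2πi/m). Then every coefficient of the idempotent of B lies in the cyclotomic field ℚ(η). -/
theorem result {G : Type*} [Group G] [Fintype G] (p : ℕ) [Fact p.Prime] (M : Ideal Cfsg.AlgInt) (hM : Cfsg.IsPModular p M) (B : Set (Cfsg.IrrCharacter G)) (hB : Cfsg.IsPBlock M B) (g : G) : Cfsg.blockCoeff B g ∈ IntermediateField.adjoin ℚ ({Complex.exp (2 * Real.pi * Complex.I / ((Nat.card G / p ^ (Nat.card G).factorization p : ℕ) : ℂ))} : Set ℂ) := by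
  classical
  have hp : p.Prime := Fact.out
  set m : ℕ := Nat.card G / p ^ (Nat.card G).factorization p with hm
  set ζ : ℂ := Complex.exp (2 * Real.pi * Complex.I / (m : ℂ)) with hζ
  set K := IntermediateField.adjoin ℚ ({ζ} : Set ℂ) with hK
  have hGpos : 0 < Nat.card G := Nat.card_pos
  have hmul : p ^ (Nat.card G).factorization p * m = Nat.card G :=
    Nat.ordProj_mul_ordCompl_eq_self (Nat.card G) p
  have hmpos : 0 < m := by
    rcases Nat.eq_zero_or_pos m with h | h
    · rw [h, mul_zero] at hmul; omega
    · exact h
  have hprim : IsPrimitiveRoot ζ m := Complex.isPrimitiveRoot_exp m hmpos.ne'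
  have hζK : ζ ∈ K := IntermediateField.subset_adjoin ℚ _ (Set.mem_singleton ζ)
  by_cases hg : p ∣ orderOf g
  · rw [Cfsg.Agent.Helper25.blockCoeff_eq_zero_of_singular hM hB g hg]
    exact zero_mem K
  · rw [Cfsg.Agent.Helper25.blockCoeff_eq_sum]
    apply mul_mem
    · exact inv_mem (natCast_mem K _)
    · apply sum_mem
      intro χ _
      apply mul_mem
      · rw [Cfsg.Agent.Helper25.irr_one_eq_degree]
        exact natCast_mem K _
      · obtain ⟨ι, _, μ, δ, h1, h2, h3, h4⟩ := Cfsg.Agent.Helper25.irr_eigenvalues χ g⁻¹
        have h5 := h3 1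
        rw [pow_one] at h5
        rw [h5]
        apply sum_mem
        intro i _
        rw [pow_one]
        have hom : orderOf g⁻¹ ∣ m := by
          rw [orderOf_inv]
          have h6 : orderOf g ∣ p ^ (Nat.card G).factorization p * m := by
            rw [hmul]; exact orderOf_dvd_natCard g
          have h7 : Nat.Coprime (orderOf g) (p ^ (Nat.card G).factorization p) :=
            Nat.Coprime.pow_right _ ((Nat.Prime.coprime_iff_not_dvd hp).mpr hg).symm
          exact h7.dvd_of_dvd_mul_left h6
        have hμ : μ i ^ m = 1 := by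
          obtain ⟨d, hd⟩ := hom
          rw [hd, pow_mul, h2 i, one_pow]
        haveI : NeZero m := ⟨hmpos.ne'⟩
        obtain ⟨k, _, hk⟩ := hprim.eq_pow_of_pow_eq_one hμ
        rw [← hk]
        exact pow_mem hζK k

end Cfsg.Agent.S4664
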