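import Cfsg.Statements.S4665
import Cfsg.Agent.Helper25.CharArith

set_option autoImplicit false
open Cfsg

namespace Cfsg.Agent.S4665

/-- Fix a prime p, a maximal ideal M of the algebraic integers containing p, and a p-block B of the finite group G, and let p^a be the p-part of the order of G. Let χ be an integer combination of the irreducible characters in B. If the function that agrees with χ on p-regular elements and vanishes on p-singular elements is again an integer combination of the irreducible characters in B, then p^a divides χ(1). -/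
theorem result {G : Type*} [Group G] [Fintype G] (p : ℕ) [Fact p.Prime] (M : Ideal Cfsg.AlgInt) (hM : Cfsg.IsPModular p M) (B : Set (Cfsg.IrrCharacter G)) (hB : Cfsg.IsPBlock M B) (χ : G → ℂ) (hχ : (∃ n : Cfsg.IrrCharacter G → ℤ, ∀ g : G, χ g = ∑ᶠ ψ ∈ B, (n ψ : ℂ) * (ψ : G → ℂ) g)) (h0 : (∃ n : Cfsg.IrrCharacter G → ℤ, ∀ g : G, Cfsg.pRegularPart p χ g = ∑ᶠ ψ ∈ B, (n ψ : ℂ) * (ψ : G → ℂ) g)) : ∃ k : ℤ, χ 1 = (p ^ (Nat.card G).factorization p : ℂ) * k := by
  classical
  obtain ⟨n, hn⟩ := h0
  obtain ⟨P⟩ := (inferInstance : Nonempty (Sylow p G))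
  have hPcard : Nat.card (P : Subgroup G) = p ^ (Nat.card G).factorization p :=
    Sylow.card_eq_multiplicity P
  have hsum1 : ∑ u : (P : Subgroup G), Cfsg.pRegularPart p χ (u : G) = χ 1 := by
    rw [Finset.sum_eq_single (1 : (P : Subgroup G))]
    · unfold Cfsg.pRegularPart
      rw [if_pos]
      · rfl
      · show ¬ p ∣ orderOf ((1 : (P : Subgroup G)) : G)
        rw [Subgroup.coe_one, orderOf_one]
        exact (Fact.out : p.Prime).one_lt.ne' ∘ Nat.dvd_one.mp
    · intro u _ hu
      unfold Cfsg.pRegularPart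
      rw [if_neg]
      intro hreg
      apply hreg
      obtain ⟨k, hk⟩ := (IsPGroup.iff_orderOf.mp P.isPGroup') u
      rw [Subgroup.orderOf_coe, hk]
      have hk0 : k ≠ 0 := by
        intro h0
        rw [h0, pow_zero, orderOf_eq_one_iff] at hk
        exact hu hk
      exact dvd_pow_self p hk0
    · intro h
      exact absurd (Finset.mem_univ _) h
  have hsum2 : ∑ u : (P : Subgroup G), Cfsg.pRegularPart p χ (u : G) =
      ∑ ψ ∈ (Set.toFinite B).toFinset, (n ψ : ℂ) * ∑ u : (P : Subgroup G), (ψ : G → ℂ) (u : G) := by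
    simp_rw [hn, finsum_mem_eq_finite_toFinset_sum _ (Set.toFinite B)]
    rw [Finset.sum_comm]
    simp_rw [Finset.mul_sum]
  choose m hm using fun ψ : Cfsg.IrrCharacter G => Cfsg.Agent.Helper25.irr_sum_subgroup ψ (P : Subgroup G)
  refine ⟨∑ ψ ∈ (Set.toFinite B).toFinset, n ψ * (m ψ : ℤ), ?_⟩
  rw [← hsum1, hsum2]
  simp_rw [hm]
  rw [hPcard]
  push_cast
  rw [Finset.mul_sum]
  apply Finset.sum_congr rfl
  intro ψ _
  ring

end Cfsg.Agent.S4665
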