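import Cfsg.Statements.S4666
import Mathlib
import Cfsg.Agent.Helper25.BlockBrauer

set_option autoImplicit false
open Cfsg

namespace Cfsg.Agent.S4666

/-- Fix a prime p and a maximal ideal M of the algebraic integers containing p, and a p-block B of the finite group G of defect d. For every integer combination χ of the irreducible characters in B, p^d times the function that agrees with χ on p-regular elements and vanishes elsewhere is again an integer combination of the irreducible characters in B. -/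
theorem result {G : Type*} [Group G] [Fintype G] (p : ℕ) [Fact p.Prime] (M : Ideal Cfsg.AlgInt) (hM : Cfsg.IsPModular p M) (B : Set (Cfsg.IrrCharacter G)) (hB : Cfsg.IsPBlock M B) (χ : G → ℂ) (hχ : (∃ n : Cfsg.IrrCharacter G → ℤ, ∀ g : G, χ g = ∑ᶠ ψ ∈ B, (n ψ : ℂ) * (ψ : G → ℂ) g)) : (∃ n : Cfsg.IrrCharacter G → ℤ, ∀ g : G, (p ^ Cfsg.blockDefect p B : ℂ) * Cfsg.pRegularPart p χ g = ∑ᶠ ψ ∈ B, (n ψ : ℂ) * (ψ : G → ℂ) g) := by
  classical
  have hlr := Cfsg.Agent.Helper25.blockCoeff_lr hM hB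
  obtain ⟨n, hn⟩ := hχ
  set S := (Set.toFinite B).toFinset with hS
  have hmem : ∀ ψ, ψ ∈ S ↔ ψ ∈ B := fun ψ => Set.Finite.mem_toFinset _
  have hK : ∀ ψ φ : IrrCharacter G, ∃ k : ℤ, ψ ∈ B →
      ((p ^ blockDefect p B : ℕ) : ℂ) *
        Cfsg.Agent.Helper25.gram p (ψ : G → ℂ) (φ : G → ℂ) = k := by
    intro ψ φ
    by_cases h : ψ ∈ B
    · obtain ⟨k, hk⟩ := Cfsg.Agent.Helper25.gram_defect_int hM B h φ
      exact ⟨k, fun _ => hk⟩
    · exact ⟨0, fun h' => absurd h' h⟩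
  choose K hK using hK
  refine ⟨fun φ => ∑ ψ ∈ S, n ψ * K ψ φ, ?_⟩
  intro g
  rw [finsum_mem_eq_finite_toFinset_sum _ (Set.toFinite B)]
  have h1 : pRegularPart p χ g = ∑ ψ ∈ S, (n ψ : ℂ) * pRegularPart p (ψ : G → ℂ) g := by
    by_cases h : p ∣ orderOf g
    · simp only [Cfsg.Agent.Helper25.pRegularPart_of_sing h, mul_zero, Finset.sum_const_zero]
    · simp only [Cfsg.Agent.Helper25.pRegularPart_of_reg h]
      rw [hn g, finsum_mem_eq_finite_toFinset_sum _ (Set.toFinite B)]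
  have h2 : ∀ ψ ∈ S, pRegularPart p (ψ : G → ℂ) g =
      ∑ φ ∈ S, Cfsg.Agent.Helper25.gram p (ψ : G → ℂ) (φ : G → ℂ) * (φ : G → ℂ) g := by
    intro ψ hψ
    rw [Cfsg.Agent.Helper25.classFun_apply_eq_sum_irr (pRegularPart p (ψ : G → ℂ))
      (Cfsg.Agent.Helper25.pRegularPart_conj (Cfsg.Agent.Helper25.irr_conj ψ)) g]
    symm
    apply Finset.sum_subset (Finset.subset_univ _)
    intro φ _ hφ
    have h3 : Cfsg.Agent.Helper25.gram p (ψ : G → ℂ) (φ : G → ℂ) = 0 :=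
      Cfsg.Agent.Helper25.gram_eq_zero_of_lr hM B hlr ((hmem ψ).mp hψ)
        (fun h => hφ ((hmem φ).mpr h))
    rw [h3, zero_mul]
  rw [h1, Finset.mul_sum]
  calc ∑ ψ ∈ S, (p : ℂ) ^ blockDefect p B * ((n ψ : ℂ) * pRegularPart p (ψ : G → ℂ) g)
      = ∑ ψ ∈ S, ∑ φ ∈ S, ((n ψ : ℂ) * (K ψ φ : ℂ)) * (φ : G → ℂ) g := by
        apply Finset.sum_congr rfl
        intro ψ hψ
        rw [h2 ψ hψ, Finset.mul_sum, Finset.mul_sum]
        apply Finset.sum_congr rfl
        intro φ _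
        have h4 := hK ψ φ ((hmem ψ).mp hψ)
        rw [← h4]
        push_cast
        ring
    _ = ∑ φ ∈ S, ∑ ψ ∈ S, ((n ψ : ℂ) * (K ψ φ : ℂ)) * (φ : G → ℂ) g := Finset.sum_comm
    _ = _ := by
        apply Finset.sum_congr rfl
        intro φ _
        push_cast
        rw [Finset.sum_mul]

end Cfsg.Agent.S4666
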