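import Cfsg.Statements.S4668
import Mathlib
import Cfsg.Agent.Helper25.BlockOrth
import Cfsg.Agent.Helper25.BlockNilp
import Cfsg.Agent.Helper10.AxB

set_option autoImplicit false
open Cfsg

namespace Cfsg.Agent.S4668

/-- Fix a prime p and a maximal ideal M of the algebraic integers containing p. Let Q₀ < Q₁ < ⋯ < Q_m be a strictly increasing chain of p-subgroups of the finite group G and N the intersection of their normalizers. Then every block idempotent of N is supported on C_G(Q_m): for every p-block E of N, the idempotent coefficient of E vanishes at every element of N outside C_G(Q_m). -/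
theorem result {G : Type*} [Group G] [Fintype G] (p : ℕ) [Fact p.Prime] (M : Ideal Cfsg.AlgInt) (hM : Cfsg.IsPModular p M) (m : ℕ) (Q : Fin (m + 1) → Subgroup G) (hQ : StrictMono Q) (hQp : ∀ i, IsPGroup p (Q i)) (N : Subgroup G) (hN : ∀ g : G, g ∈ N ↔ ∀ i, g ∈ Subgroup.normalizer (Q i : Set G)) (E : Set (Cfsg.IrrCharacter N)) (hE : Cfsg.IsPBlock M E) (n : N) (hn : (n : G) ∉ Subgroup.centralizer (Q (Fin.last m) : Set G)) : Cfsg.blockCoeff E n = 0 := by
  classical
  have hp : p.Prime := Fact.out
  by_cases hsing : p ∣ orderOf n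
  · exact Cfsg.Agent.Helper25.blockCoeff_eq_zero_of_singular hM hE n hsing
  have hreg : ¬ p ∣ orderOf (n : G) := by rwa [Subgroup.orderOf_coe]
  -- the normal p-subgroup R = Q_m ∩ N of N
  set R : Subgroup N := (Q (Fin.last m) ⊓ N).subgroupOf N with hR
  have hRn : R.Normal := by
    constructor
    intro x hx g
    rw [hR, Subgroup.mem_subgroupOf] at hx ⊢
    have h1 := (hN (g : G)).mp g.2 (Fin.last m)
    have h2 := (Subgroup.mem_normalizer_iff.mp h1 (x : G)).mp (Subgroup.mem_inf.mp hx).1
    exact Subgroup.mem_inf.mpr ⟨by simpa using h2, (g * x * g⁻¹).2⟩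
  have hRp : IsPGroup p R := by
    have h1 : IsPGroup p (Q (Fin.last m) ⊓ N : Subgroup G) :=
      (hQp (Fin.last m)).to_le inf_le_left
    exact h1.comap_subtype
  apply Cfsg.Agent.Helper25.blockCoeff_eq_zero_of_not_mem_centralizer hM R hRp hE
  intro hcen
  apply hn
  -- n commutes with every element of Q_m ∩ N
  have hcomm : ∀ g : G, g ∈ Q (Fin.last m) → g ∈ N → g * (n : G) = (n : G) * g := by
    intro g hg1 hg2
    have h1 := Subgroup.mem_centralizer_iff.mp hcen ⟨g, hg2⟩ (by
      rw [SetLike.mem_coe, hR, Subgroup.mem_subgroupOf]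
      exact ⟨hg1, hg2⟩)
    exact congrArg Subtype.val h1
  have hmono : Monotone Q := hQ.monotone
  have hzp : ∀ S : Subgroup G, (n : G) ∈ Subgroup.centralizer (S : Set G) ↔
      ⁅S, Subgroup.zpowers (n : G)⁆ = ⊥ := by
    intro S
    rw [Subgroup.commutator_comm, Subgroup.commutator_eq_bot_iff_le_centralizer,
      Subgroup.zpowers_le]
  have hB : ∀ b ∈ Subgroup.zpowers (n : G), (orderOf b).Coprime p := by
    intro b hb
    have h1 : orderOf b ∣ orderOf (n : G) := orderOf_dvd_of_mem_zpowers hb
    exact Nat.Coprime.coprime_dvd_left h1 ((Nat.Prime.coprime_iff_not_dvd hp).mpr hreg).symm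
  have key : ∀ i : Fin (m + 1), (n : G) ∈ Subgroup.centralizer (Q i : Set G) := by
    intro i
    induction i using Fin.induction with
    | zero =>
      rw [Subgroup.mem_centralizer_iff]
      intro g hg
      apply hcomm g (hmono (Fin.zero_le _) hg)
      rw [hN]
      intro j
      exact Subgroup.le_normalizer (hmono (Fin.zero_le j) hg)
    | succ i ih =>
      rw [hzp]
      apply Cfsg.Agent.Helper10.thompson_AxB (Q i.castSucc) (Subgroup.zpowers (n : G)) (Q i.succ)
        (hQp _) (hQp _) hB ((hzp _).mp ih)
      · exact (hmono (Fin.castSucc_lt_succ (i := i)).le).trans Subgroup.le_normalizer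
      · rw [Subgroup.zpowers_le]
        exact (hN (n : G)).mp n.2 i.succ
      · rw [← hzp, Subgroup.mem_centralizer_iff]
        intro g hg
        obtain ⟨hg1, hg2⟩ := Subgroup.mem_inf.mp hg
        apply hcomm g (hmono (Fin.le_last _) hg1)
        rw [hN]
        intro j
        rcases le_or_gt j i.castSucc with hj | hj
        · exact Subgroup.centralizer_le_normalizer _ (Subgroup.centralizer_le (hmono hj) hg2)
        · have hj' : i.succ ≤ j := Fin.castSucc_lt_iff_succ_le.mp hj
          exact Subgroup.le_normalizer (hmono hj' hg1)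
  exact key (Fin.last m)

end Cfsg.Agent.S4668
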