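import Cfsg.Statements.S4670
import Mathlib
import Cfsg.Agent.Helper7.BrauerCorr
import Cfsg.Agent.Helper2.BlockNormP

set_option autoImplicit false
open Cfsg

namespace Cfsg.Agent.S4670

open Cfsg Cfsg.Agent.Helper25 Cfsg.Agent.Helper7 Cfsg.Agent.Helper2

/-- Fix a prime p and a maximal ideal M of the algebraic integers containing p. Let P be a p-subgroup of the finite group G and H a subgroup containing N_G(P). For every p-block B of G with defect group P there is exactly one p-block c of H with defect group P whose idempotent agrees with that of B, modulo the local ideal at M, at every element of C_G(P) (their Brauer-map images at P coincide); and every p-block c of H with defect group P arises in this way from exactly one such B. This is the Brauer correspondence over H. -/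
theorem result {G : Type*} [Group G] [Fintype G] (p : ℕ) [Fact p.Prime] (M : Ideal Cfsg.AlgInt) (hM : Cfsg.IsPModular p M) (P H : Subgroup G) (hP : IsPGroup p P) (hH : Subgroup.normalizer (P : Set G) ≤ H) : (∀ B : Set (Cfsg.IrrCharacter G), Cfsg.IsPBlock M B → Cfsg.IsDefectGroup p M B P → ∃! c : Set (Cfsg.IrrCharacter H), Cfsg.IsPBlock M c ∧ Cfsg.IsDefectGroup p M c (P.subgroupOf H) ∧ ∀ x : G, x ∈ Subgroup.centralizer (P : Set G) → Cfsg.MemLocalIdeal M (Cfsg.blockCoeff B x - Cfsg.subgroupBlockCoeff H c x)) ∧ (∀ c : Set (Cfsg.IrrCharacter H), Cfsg.IsPBlock M c → Cfsg.IsDefectGroup p M c (P.subgroupOf H) → ∃! B : Set (Cfsg.IrrCharacter G), Cfsg.IsPBlock M B ∧ Cfsg.IsDefectGroup p M B P ∧ ∀ x : G, x ∈ Subgroup.centralizer (P : Set G) → Cfsg.MemLocalIdeal M (Cfsg.blockCoeff B x - Cfsg.subgroupBlockCoeff H c x)) := by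
  classical
  have hp : p.Prime := Fact.out
  obtain ⟨N, hNdef⟩ : ∃ N : Subgroup G, N = Subgroup.normalizer (P : Set G) := ⟨_, rfl⟩
  have hPN : P ≤ Subgroup.normalizer (P : Set G) := Subgroup.le_normalizer
  have hPH : P ≤ H := hPN.trans hH
  have hPHp : IsPGroup p (P.subgroupOf H) := hP.comap_subtype
  have hNeq : (Subgroup.normalizer (P : Set G)).subgroupOf H
      = Subgroup.normalizer ((P.subgroupOf H : Subgroup H) : Set H) :=
    Subgroup.subgroupOf_normalizer_eq hPH
  let φ : ↥(Subgroup.normalizer ((P.subgroupOf H : Subgroup H) : Set H)) ≃*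
      ↥(Subgroup.normalizer (P : Set G)) :=
    (MulEquiv.subgroupCongr hNeq.symm).trans (Subgroup.subgroupOfEquivOfLe hH)
  have hφ : ∀ y : Subgroup.normalizer ((P.subgroupOf H : Subgroup H) : Set H),
      ((φ y : Subgroup.normalizer (P : Set G)) : G) = ((y : H) : G) := fun y => rfl
  -- cardinalities
  have hc1 : Nat.card (P.subgroupOf (Subgroup.normalizer (P : Set G))) = Nat.card P :=
    Nat.card_congr (Subgroup.subgroupOfEquivOfLe hPN).toEquiv
  have hc2 : Nat.card ((P.subgroupOf H).subgroupOf
      (Subgroup.normalizer ((P.subgroupOf H : Subgroup H) : Set H))) = Nat.card P := by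
    rw [Nat.card_congr (Subgroup.subgroupOfEquivOfLe
      (Subgroup.le_normalizer (H := P.subgroupOf H))).toEquiv]
    exact Nat.card_congr (Subgroup.subgroupOfEquivOfLe hPH).toEquiv
  haveI hn1 : (P.subgroupOf (Subgroup.normalizer (P : Set G))).Normal :=
    (Subgroup.normal_subgroupOf_iff_le_normalizer hPN).mpr le_rfl
  haveI hn2 : ((P.subgroupOf H).subgroupOf
      (Subgroup.normalizer ((P.subgroupOf H : Subgroup H) : Set H))).Normal :=
    (Subgroup.normal_subgroupOf_iff_le_normalizer Subgroup.le_normalizer).mpr le_rfl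
  -- elements of the centralizer
  have hxN : ∀ x : G, x ∈ Subgroup.centralizer (P : Set G) → x ∈ Subgroup.normalizer (P : Set G) :=
    fun x hx => Subgroup.centralizer_le_normalizer _ hx
  have hyC : ∀ y : Subgroup.normalizer ((P.subgroupOf H : Subgroup H) : Set H),
      ((y : H) : G) ∈ Subgroup.centralizer (P : Set G) ↔
        (y : H) ∈ Subgroup.centralizer ((P.subgroupOf H : Subgroup H) : Set H) := by
    intro y
    rw [Subgroup.mem_centralizer_iff, Subgroup.mem_centralizer_iff]
    constructor
    · intro h u hu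
      exact Subtype.ext (h (u : G) (Subgroup.mem_subgroupOf.mp hu))
    · intro h u hu
      have := h ⟨u, hPH hu⟩ (Subgroup.mem_subgroupOf.mpr hu)
      exact congrArg (fun t : H => (t : G)) this
  have hsub : ∀ (c : Set (IrrCharacter H)) (y : Subgroup.normalizer ((P.subgroupOf H : Subgroup H) : Set H)),
      subgroupBlockCoeff H c ((y : H) : G) = blockCoeff c (y : H) := by
    intro c y
    unfold subgroupBlockCoeff
    rw [dif_pos (y : H).2]
  -- the element of NH attached to x ∈ C_G(P)
  have hyx : ∀ x : G, x ∈ Subgroup.centralizer (P : Set G) →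
      ∃ y : Subgroup.normalizer ((P.subgroupOf H : Subgroup H) : Set H), ((y : H) : G) = x := by
    intro x hx
    have h1 : (⟨x, hH (hxN x hx)⟩ : H) ∈ Subgroup.normalizer ((P.subgroupOf H : Subgroup H) : Set H) := by
      rw [← hNeq, Subgroup.mem_subgroupOf]
      exact hxN x hx
    exact ⟨⟨_, h1⟩, rfl⟩
  -- the basic congruence chain: for b block of N, bH = transport, B over b, c over bH
  have hchain : ∀ (B : Set (IrrCharacter G)) (c : Set (IrrCharacter H))
      (b : Set (IrrCharacter (Subgroup.normalizer (P : Set G))))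
      (bH : Set (IrrCharacter (Subgroup.normalizer ((P.subgroupOf H : Subgroup H) : Set H)))),
      (∀ y, blockCoeff bH y = blockCoeff b (φ y)) →
      (∀ h : Subgroup.normalizer (P : Set G), (h : G) ∈ Subgroup.centralizer (P : Set G) →
        MemLocalIdeal M (blockCoeff B (h : G) - blockCoeff b h)) →
      (∀ y : Subgroup.normalizer ((P.subgroupOf H : Subgroup H) : Set H),
        (y : H) ∈ Subgroup.centralizer ((P.subgroupOf H : Subgroup H) : Set H) →
        MemLocalIdeal M (blockCoeff c (y : H) - blockCoeff bH y)) →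
      ∀ x : G, x ∈ Subgroup.centralizer (P : Set G) →
        MemLocalIdeal M (blockCoeff B x - subgroupBlockCoeff H c x) := by
    intro B c b bH hbb h1 h2 x hx
    obtain ⟨y, rfl⟩ := hyx x hx
    have e1 := h1 (φ y) (by rw [hφ]; exact hx)
    have e2 := h2 y ((hyC y).mp hx)
    rw [hbb] at e2
    rw [hφ] at e1
    rw [hsub]
    have := li_sub hM e1 e2
    rw [sub_sub_sub_cancel_right] at this
    exact this
  constructor
  · intro B hB hBP
    obtain ⟨b, hb, hbD, hbind, hbcong⟩ := corr_down hM P hP hB hBP
    have hbH : IsPBlock M (transportSet φ b) := isPBlock_transportSet φ hb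
    have hbHD : IsDefectGroup p M (transportSet φ b) ((P.subgroupOf H).subgroupOf
        (Subgroup.normalizer ((P.subgroupOf H : Subgroup H) : Set H))) := by
      apply isDefectGroup_of_normal_card hM ((P.subgroupOf H).subgroupOf
        (Subgroup.normalizer ((P.subgroupOf H : Subgroup H) : Set H))) hPHp.comap_subtype hbH
      rw [hc2, Cfsg.Agent.S4717.blockDefect_transport, ← card_defectGroup hM hb hbD, hc1]
    obtain ⟨c, hc, hcD, hcind, hccong⟩ := corr_up hM (P.subgroupOf H) hPHp hbH hbHD
    have hcc := hchain B c b (transportSet φ b) (fun y => blockCoeff_transportSet φ b y) hbcong hccong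
    refine ⟨c, ⟨hc, hcD, hcc⟩, ?_⟩
    rintro c' ⟨hc', hc'D, hc'cong⟩
    obtain ⟨b', hb', hb'D, hb'ind, hb'cong⟩ := corr_down hM (P.subgroupOf H) hPHp hc' hc'D
    have hbb : b' = transportSet φ b := by
      apply corr_inj hM (P.subgroupOf H) hPHp hb' hbH
      intro y hy
      have hx := (hyC y).mpr hy
      have e1 := hb'cong y hy
      have e2 := hc'cong _ hx
      rw [hsub] at e2
      have e3 := hbcong (φ y) (by rw [hφ]; exact hx)
      rw [hφ] at e3
      rw [blockCoeff_transportSet]
      -- b' y ≡ c' y ≡ B x ≡ b (φ y)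
      have h4 := li_sub hM e3 e2   -- (B - b) - (B - c') = c' - b
      have h5 := li_sub hM h4 e1   -- (c' - b) - (c' - b') = b' - b
      convert h5 using 1
      ring
    rw [hbb] at hb'ind
    exact isInducedBlock_unique hM _ hb'ind hcind
  · intro c hc hcD
    obtain ⟨bH, hbH, hbHD, hbHind, hbHcong⟩ := corr_down hM (P.subgroupOf H) hPHp hc hcD
    have hb : IsPBlock M (transportSet φ.symm bH) := isPBlock_transportSet φ.symm hbH
    have hbD : IsDefectGroup p M (transportSet φ.symm bH)
        (P.subgroupOf (Subgroup.normalizer (P : Set G))) := by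
      apply isDefectGroup_of_normal_card hM (P.subgroupOf (Subgroup.normalizer (P : Set G)))
        hP.comap_subtype hb
      rw [hc1, Cfsg.Agent.S4717.blockDefect_transport, ← card_defectGroup hM hbH hbHD, hc2]
    obtain ⟨B, hB, hBD, hBind, hBcong⟩ := corr_up hM P hP hb hbD
    have hbb : ∀ y, blockCoeff bH y = blockCoeff (transportSet φ.symm bH) (φ y) := by
      intro y
      rw [blockCoeff_transportSet, MulEquiv.symm_apply_apply]
    have hcc := hchain B c (transportSet φ.symm bH) bH hbb hBcong hbHcong
    refine ⟨B, ⟨hB, hBD, hcc⟩, ?_⟩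
    rintro B' ⟨hB', hB'D, hB'cong⟩
    obtain ⟨b', hb', hb'D, hb'ind, hb'cong⟩ := corr_down hM P hP hB' hB'D
    have hbeq : b' = transportSet φ.symm bH := by
      apply corr_inj hM P hP hb' hb
      intro n hn
      obtain ⟨y, hy⟩ := hyx (n : G) hn
      have hny : n = φ y := Subtype.ext (by rw [hφ, hy])
      have e1 := hb'cong n hn
      have e2 := hB'cong _ hn
      rw [← hy, hsub] at e2
      have e3 := hbHcong y ((hyC y).mp (by rw [hy]; exact hn))
      rw [hbb] at e3
      rw [hny]
      rw [hny] at e1
      rw [hφ] at e1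
      -- b' n ≡ B' x ≡ c y ≡ b n
      have h4 := li_sub hM e2 e1   -- (B' - c) - (B' - b') = b' - c
      have h5 := li_add hM h4 e3   -- (b' - c) + (c - b) = b' - b
      convert h5 using 1
      ring
    rw [hbeq] at hb'ind
    exact isInducedBlock_unique hM _ hb'ind hBind

end Cfsg.Agent.S4670
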