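import Cfsg.Statements.S4672
import Mathlib
import Cfsg.Agent.Helper2.BlockStable

set_option autoImplicit false
open Cfsg

namespace Cfsg.Agent.S4672

open Cfsg Cfsg.Agent.Helper2 Cfsg.Agent.Helper25 Cfsg.Agent.Helper7

/-- Fix a prime p and a maximal ideal M of the algebraic integers containing p. Let N be a normal subgroup of the finite group G of p-power index and c a p-block of N stable under conjugation by G. Then the idempotent of c is a block idempotent of G: there is a p-block B of G whose idempotent coefficients agree with those of c on N and vanish off N; and for every defect group P of such a block B, G = NP and P ∩ N is a defect group of c. -/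
theorem result {G : Type*} [Group G] [Fintype G] (p : ℕ) [Fact p.Prime] (M : Ideal Cfsg.AlgInt) (hM : Cfsg.IsPModular p M) (N : Subgroup G) [N.Normal] (hN : ∃ k : ℕ, N.index = p ^ k) (c : Set (Cfsg.IrrCharacter N)) (hc : Cfsg.IsPBlock M c) (hst : ∀ x : G, Cfsg.StabilizesBlock N c x) : (∃ B : Set (Cfsg.IrrCharacter G), Cfsg.IsPBlock M B ∧ ∀ g : G, Cfsg.blockCoeff B g = Cfsg.subgroupBlockCoeff N c g) ∧ ∀ B : Set (Cfsg.IrrCharacter G), Cfsg.IsPBlock M B → (∀ g : G, Cfsg.blockCoeff B g = Cfsg.subgroupBlockCoeff N c g) → ∀ P : Subgroup G, Cfsg.IsDefectGroup p M B P → N ⊔ P = ⊤ ∧ Cfsg.IsDefectGroup p M c ((P ⊓ N).subgroupOf N) := by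
  classical
  haveI : Fintype N := Fintype.ofFinite N
  obtain ⟨k, hk⟩ := hN
  have hst' := stab_of_stabilizesBlock N c hst
  constructor
  · obtain ⟨B, hB, hBc⟩ := exists_block_of_stable hM N k hk c hc hst'
    refine ⟨B, hB, fun g => ?_⟩
    rw [hBc, subgroupBlockCoeff_eq]
  · intro B hB hBc P hP
    have hBc' : blockCoeff B = extendByZero N (blockCoeff c) := by
      funext g
      rw [hBc g, subgroupBlockCoeff_eq]
    obtain ⟨g₀, hg₀, Pd, rfl⟩ := hP
    obtain ⟨hmem, hdc, hrel⟩ := defect_class_of_stable hM N k hk c hc hst' B hB hBc' g₀ hg₀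
    have hPC : (Pd : Subgroup (Subgroup.centralizer ({g₀} : Set G))).map
        (Subgroup.centralizer ({g₀} : Set G)).subtype ≤ Subgroup.centralizer ({g₀} : Set G) :=
      Subgroup.map_subtype_le _
    have hcardP : Nat.card ((Pd : Subgroup (Subgroup.centralizer ({g₀} : Set G))).map
        (Subgroup.centralizer ({g₀} : Set G)).subtype)
        = p ^ (Nat.card (Subgroup.centralizer ({g₀} : Set G))).factorization p := by
      rw [Subgroup.card_map_of_injective (Subgroup.subtype_injective _), Pd.card_eq_multiplicity]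
    obtain ⟨h1, h2⟩ := sylow_inter_of_relIndex N k hk _ hrel _ hPC hcardP
    exact ⟨h1, isDefectGroup_inter N c ⟨g₀, hmem⟩ hdc _ hPC h2⟩

end Cfsg.Agent.S4672
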