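import Cfsg.Statements.S4679
import Cfsg.Agent.Helper25.BlockPairs22

set_option autoImplicit false
open Cfsg

namespace Cfsg.Agent.S4679

open Cfsg.Agent.Helper25
open scoped Pointwise

/-- Fix a prime p and a maximal ideal M of the algebraic integers containing p, a p-block B of the finite group G with maximal Brauer pair (P, e), its fusion system F on P, a Brauer pair (Q, f) ≤ (P, e), and let T be the stabilizer of f in N_G(Q). Then Q is fully normalized in F if and only if N_P(Q) is a defect group of the block of T whose idempotent is that of f. -/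
theorem result {G : Type*} [Group G] [Fintype G] (p : ℕ) [Fact p.Prime] (M : Ideal Cfsg.AlgInt) (hM : Cfsg.IsPModular p M) (B : Set (Cfsg.IrrCharacter G)) (P : Subgroup G) (e : Set (Cfsg.IrrCharacter (Subgroup.centralizer (P : Set G)))) (hmax : Cfsg.IsMaximalBrauerPair p M B P e) (F : Cfsg.FusionSystem P) (hF : Cfsg.IsBlockFusionSystemOn p M B P e F) (Q : Subgroup G) (f : Set (Cfsg.IrrCharacter (Subgroup.centralizer (Q : Set G)))) (hQP : Q ≤ P) (hf : Cfsg.IsPBlock M f) (hle : Cfsg.SubpairLE p M Q f P e) (T : Subgroup G) (hT : ∀ y : G, y ∈ T ↔ y ∈ Subgroup.normalizer (Q : Set G) ∧ Cfsg.StabilizesBlock (Subgroup.centralizer (Q : Set G)) f y) : F.IsFullyNormalized Q ↔ ∃ F' : Set (Cfsg.IrrCharacter T), Cfsg.IsPBlock M F' ∧ (∀ t : T, Cfsg.blockCoeff F' t = Cfsg.subgroupBlockCoeff (Subgroup.centralizer (Q : Set G)) f (t : G)) ∧ Cfsg.IsDefectGroup p M F' ((P ⊓ Subgroup.normalizer (Q : Set G)).subgroupOf T) := by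
  classical
  have hPe := hmax.1.1
  have hle' : Relation.ReflTransGen (Cfsg.NormalSubpairRel p M)
      (⟨Q, f⟩ : Cfsg.BrauerPairIdx G) ⟨P, e⟩ := hle
  have hTeq : T = pairStab Q f :=
    Subgroup.ext (fun y => (hT y).trans (mem_pairStab Q f y).symm)
  subst hTeq
  have hQf : Cfsg.IsBrauerPair p M Q f := ⟨hPe.1.to_le hQP, hf⟩
  constructor
  · rintro ⟨-, hfn⟩
    obtain ⟨b, hb, hbc⟩ := exists_block_of_stab hM hQf (pairStab Q f) (le_pairStab_self Q f)
      (centralizer_le_pairStab Q f) (pairStab_le_normalizer Q f)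
      (fun x hx => ((mem_pairStab Q f x).mp hx).2)
    refine ⟨b, hb, hbc, isDefectGroup_of_fullyNormalized hM hmax hle' ?_ hb hbc⟩
    intro x hx
    exact hfn _ ((blockFusion_isConj_iff hM F hF hQP hf hle _).mpr ⟨x, rfl, hx⟩)
  · rintro ⟨F', hF', hF'c, hD⟩
    refine ⟨hQP, ?_⟩
    intro Q' hconj
    obtain ⟨g, rfl, hg⟩ := (blockFusion_isConj_iff hM F hF hQP hf hle Q').mp hconj
    exact card_normalizer_le_of_isDefectGroup hM hmax hle' hF' hF'c hD g hg

end Cfsg.Agent.S4679
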