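import Cfsg.Statements.S4681
import Mathlib
import Cfsg.Agent.Helper25.BlockPairs9

set_option autoImplicit false
open Cfsg

namespace Cfsg.Agent.S4681

/-- Fix a prime p and a maximal ideal M of the algebraic integers containing p. Let B₀ be the principal p-block of the finite group G, P a Sylow p-subgroup and e₀ the principal p-block of C_G(P). Then (P, e₀) is a maximal Brauer pair of B₀, and the fusion system of B₀ on (P, e₀) is the fusion system of G on P: its maps from each subgroup of P are exactly the conjugation maps into P by elements of G. -/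
theorem result {G : Type*} [Group G] [Fintype G] (p : ℕ) [Fact p.Prime] (M : Ideal Cfsg.AlgInt) (hM : Cfsg.IsPModular p M) (S : Sylow p G) : Cfsg.IsMaximalBrauerPair p M (Cfsg.principalBlock M G) (S : Subgroup G) (Cfsg.principalBlock M (Subgroup.centralizer ((S : Subgroup G) : Set G))) ∧ ∀ F : Cfsg.FusionSystem (S : Subgroup G), Cfsg.IsBlockFusionSystemOn p M (Cfsg.principalBlock M G) (S : Subgroup G) (Cfsg.principalBlock M (Subgroup.centralizer ((S : Subgroup G) : Set G))) F → ∀ Q : Subgroup G, F.Hom Q = (Cfsg.groupFusionSystem (S : Subgroup G)).Hom Q := by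
  classical
  have hS : IsPGroup p (S : Subgroup G) := S.isPGroup'
  have hpair := Cfsg.Agent.Helper25.isBrauerPairOf_principal hM (S : Subgroup G) hS
  have hmax : Cfsg.IsMaximalBrauerPair p M (Cfsg.principalBlock M G) (S : Subgroup G)
      (Cfsg.principalBlock M (Subgroup.centralizer ((S : Subgroup G) : Set G))) := by
    refine ⟨hpair, fun R g hRg hle => ?_⟩
    have h1 : (S : Subgroup G) ≤ R := Cfsg.Agent.Helper25.subpairLE_le (p := p) (M := M)
      ⟨(S : Subgroup G), Cfsg.principalBlock M (Subgroup.centralizer ((S : Subgroup G) : Set G))⟩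
      ⟨R, g⟩ hle
    have hR : IsPGroup p R := hRg.1.1
    exact S.3 hR h1
  have key : ∀ Q : Subgroup G, Q ≤ (S : Subgroup G) →
      Cfsg.SubpairLE p M Q (Cfsg.principalBlock M (Subgroup.centralizer (Q : Set G)))
        (S : Subgroup G) (Cfsg.principalBlock M (Subgroup.centralizer ((S : Subgroup G) : Set G))) := by
    intro Q hQS
    obtain ⟨f, ⟨hf, hle⟩, -⟩ := Cfsg.Agent.Helper25.exists_unique_subpair hM (S : Subgroup G) Q _
      hpair.1 hQS
    have h1 := (Cfsg.Agent.Helper25.isBrauerPairOf_iff_of_subpairLE hM (Cfsg.principalBlock M G)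
      ⟨Q, f⟩ ⟨(S : Subgroup G), _⟩ hle).mp hpair
    have h2 := Cfsg.Agent.Helper25.eq_principal_of_isBrauerPairOf_principal hM h1
    rw [← h2]
    exact hle
  refine ⟨hmax, fun F hF Q => ?_⟩
  ext φ
  rw [hF.2 Q φ]
  constructor
  · rintro ⟨hQS, g, hg, hQg, -⟩
    show Q ≤ (S : Subgroup G) ∧ (∀ x : Q, φ x ∈ (S : Subgroup G)) ∧
      ∃ g : G, ∀ x : Q, φ x = g * (x : G) * g⁻¹
    refine ⟨hQS, fun u => ?_, g, hg⟩
    rw [hg u]
    exact hQg (Subgroup.mem_map.mpr ⟨u, u.2, rfl⟩)
  · intro h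
    obtain ⟨hQS, hφS, g, hg⟩ : Q ≤ (S : Subgroup G) ∧ (∀ x : Q, φ x ∈ (S : Subgroup G)) ∧
      ∃ g : G, ∀ x : Q, φ x = g * (x : G) * g⁻¹ := h
    have hQg : Q.map (MulAut.conj g).toMonoidHom ≤ (S : Subgroup G) := by
      rintro _ ⟨u, hu, rfl⟩
      have h1 := hφS ⟨u, hu⟩
      rw [hg ⟨u, hu⟩] at h1
      exact h1
    refine ⟨hQS, g, hg, hQg, Cfsg.principalBlock M (Subgroup.centralizer (Q : Set G)), key Q hQS, ?_⟩
    rw [Cfsg.Agent.Helper25.conjBlock_principal]
    exact key _ hQg

end Cfsg.Agent.S4681
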