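import Cfsg.Statements.S4682
import Cfsg.Agent.Helper25.BlockPairs14

set_option autoImplicit false
open Cfsg

namespace Cfsg.Agent.S4682

open scoped Pointwise

/-- Fix a prime p and a maximal ideal M of the algebraic integers containing p, a p-block B of the finite group G with maximal Brauer pair (P, e), P abelian, and a Brauer pair (Q, f) ≤ (P, e). Let T_Q be the stabilizer of f in N_G(Q) and T_P the stabilizer of e in N_G(P). Then every element of T_Q is a product of an element of T_P and an element of C_G(Q); and the index of C_G(Q) in T_Q equals the index of T_P ∩ C_G(Q) in T_P ∩ N_G(Q). -/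
theorem result {G : Type*} [Group G] [Fintype G] (p : ℕ) [Fact p.Prime] (M : Ideal Cfsg.AlgInt) (hM : Cfsg.IsPModular p M) (B : Set (Cfsg.IrrCharacter G)) (P : Subgroup G) (e : Set (Cfsg.IrrCharacter (Subgroup.centralizer (P : Set G)))) (hmax : Cfsg.IsMaximalBrauerPair p M B P e) (hab : ∀ x ∈ P, ∀ y ∈ P, x * y = y * x) (Q : Subgroup G) (f : Set (Cfsg.IrrCharacter (Subgroup.centralizer (Q : Set G)))) (hQP : Q ≤ P) (hf : Cfsg.IsPBlock M f) (hle : Cfsg.SubpairLE p M Q f P e) (TQ : Subgroup G) (hTQ : ∀ y : G, y ∈ TQ ↔ y ∈ Subgroup.normalizer (Q : Set G) ∧ Cfsg.StabilizesBlock (Subgroup.centralizer (Q : Set G)) f y) (TP : Subgroup G) (hTP : ∀ y : G, y ∈ TP ↔ y ∈ Subgroup.normalizer (P : Set G) ∧ Cfsg.StabilizesBlock (Subgroup.centralizer (P : Set G)) e y) : (∀ x ∈ TQ, ∃ y ∈ TP, ∃ c ∈ Subgroup.centralizer (Q : Set G), x = y * c) ∧ ((Subgroup.centralizer (Q : Set G)).subgroupOf TQ).index = ((TP ⊓ Subgroup.centralizer (Q : Set G)).subgroupOf (TP ⊓ Subgroup.normalizer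 (Q : Set G))).index := by
  classical
  have hPC₀ : P ≤ Subgroup.centralizer (P : Set G) := fun u hu =>
    Subgroup.mem_centralizer_iff.mpr (fun g hg => hab g hg u hu)
  have hPC : P ≤ Subgroup.centralizer (Q : Set G) := hPC₀.trans (Subgroup.centralizer_le hQP)
  have hCN : Subgroup.centralizer (Q : Set G) ≤ Subgroup.normalizer (Q : Set G) :=
    Subgroup.centralizer_le_normalizer _
  have hNNC := Cfsg.Agent.Helper25.normalizer_le_normalizer_centralizer Q
  -- the key factorization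
  have key : ∀ x ∈ TQ, ∃ y ∈ TP ⊓ Subgroup.normalizer (Q : Set G),
      ∃ c ∈ Subgroup.centralizer (Q : Set G), x = y * c := by
    intro x hx
    obtain ⟨hxN, hxst⟩ := (hTQ x).mp hx
    obtain ⟨c, hc, hcN, hcst⟩ := Cfsg.Agent.Helper25.exists_mul_mem_stab hM hmax hQP hPC hle
      x hxN hxst
    have hyNQ : c * x ∈ Subgroup.normalizer (Q : Set G) :=
      Subgroup.mul_mem _ (hCN hc) hxN
    refine ⟨c * x, ⟨(hTP _).mpr ⟨hcN, hcst⟩, hyNQ⟩, (c * x)⁻¹ * c⁻¹ * (c * x), ?_, ?_⟩
    · have h1 := (Subgroup.mem_normalizer_iff.mp (hNNC (Subgroup.inv_mem _ hyNQ)) c⁻¹).mp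
        (Subgroup.inv_mem _ hc)
      rw [inv_inv] at h1
      exact h1
    · group
  refine ⟨fun x hx => ?_, ?_⟩
  · obtain ⟨y, hy, c, hc, rfl⟩ := key x hx
    exact ⟨y, hy.1, c, hc, rfl⟩
  · have hCTQ : Subgroup.centralizer (Q : Set G) ≤ TQ := fun c hc =>
      (hTQ c).mpr ⟨hCN hc, (Cfsg.Agent.Helper25.mem_blockStab _ f c).mp
        (Cfsg.Agent.Helper25.le_blockStab_self _ f hc)⟩
    have hTQN : TQ ≤ Subgroup.normalizer (Q : Set G) := fun x hx => ((hTQ x).mp hx).1
    have hAN : TP ⊓ Subgroup.normalizer (Q : Set G) ≤ Subgroup.normalizer (Q : Set G) :=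
      inf_le_right
    have hATQ : TP ⊓ Subgroup.normalizer (Q : Set G) ≤ TQ := by
      rintro y ⟨hyT, hyN⟩
      obtain ⟨hyNP, hyst⟩ := (hTP y).mp hyT
      refine (hTQ y).mpr ⟨hyN, ?_⟩
      have hyNC := Cfsg.Agent.Helper25.normalizer_le_normalizer_centralizer P hyNP
      have h1 := Cfsg.Agent.Helper25.subpairLE_conj y hle
      have h2 := Cfsg.Agent.Helper25.conjIdx_eq_smul P e ⟨y, hyNC⟩ hyNP
      have h3 : (⟨y, hyNC⟩ : Subgroup.normalizer
          ((Subgroup.centralizer (P : Set G) : Subgroup G) : Set G)) • e = e :=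
        (Cfsg.Agent.Helper25.stabilizesBlock_iff_smul_eq _ e ⟨y, hyNC⟩).mp hyst
      rw [h3] at h2
      have h4 := Cfsg.Agent.Helper25.conjIdx_eq_smul Q f ⟨y, hNNC hyN⟩ hyN
      have h2' : Cfsg.Agent.Helper25.conjIdx y (⟨P, e⟩ : Cfsg.BrauerPairIdx G) = ⟨P, e⟩ := h2
      have h4' : Cfsg.Agent.Helper25.conjIdx y (⟨Q, f⟩ : Cfsg.BrauerPairIdx G)
          = ⟨Q, (⟨y, hNNC hyN⟩ : Subgroup.normalizer
            ((Subgroup.centralizer (Q : Set G) : Subgroup G) : Set G)) • f⟩ := h4
      rw [h2', h4'] at h1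
      obtain ⟨f₀, -, huniq⟩ := Cfsg.Agent.Helper25.exists_unique_subpair hM P Q e hmax.1.1 hQP
      have h5 := huniq _ ⟨(Cfsg.Agent.Helper25.isPBlock_smul _ _ f).mpr hf, h1⟩
      have h6 := huniq f ⟨hf, hle⟩
      exact (Cfsg.Agent.Helper25.stabilizesBlock_iff_smul_eq _ f ⟨y, hNNC hyN⟩).mpr
        (h5.trans h6.symm)
    have hTQeq : TQ = (TP ⊓ Subgroup.normalizer (Q : Set G)) ⊔ Subgroup.centralizer (Q : Set G) := by
      apply le_antisymm
      · intro x hx
        obtain ⟨y, hy, c, hc, rfl⟩ := key x hx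
        exact Subgroup.mul_mem _ (le_sup_left (a := TP ⊓ Subgroup.normalizer (Q : Set G)) hy)
          (le_sup_right (b := Subgroup.centralizer (Q : Set G)) hc)
      · exact sup_le hATQ hCTQ
    haveI : ((Subgroup.centralizer (Q : Set G)).subgroupOf
        (Subgroup.normalizer (Q : Set G))).Normal :=
      (Subgroup.normal_subgroupOf_iff_le_normalizer hCN).mpr hNNC
    have e1 : Subgroup.centralizer (Q : Set G) ⊓ (TP ⊓ Subgroup.normalizer (Q : Set G))
        = TP ⊓ Subgroup.centralizer (Q : Set G) := by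
      ext z
      simp only [Subgroup.mem_inf]
      constructor
      · rintro ⟨h1, h2, -⟩
        exact ⟨h2, h1⟩
      · rintro ⟨h1, h2⟩
        exact ⟨h2, h1, hCN h2⟩
    change (Subgroup.centralizer (Q : Set G)).relIndex TQ
      = (TP ⊓ Subgroup.centralizer (Q : Set G)).relIndex (TP ⊓ Subgroup.normalizer (Q : Set G))
    calc (Subgroup.centralizer (Q : Set G)).relIndex TQ
        = ((Subgroup.centralizer (Q : Set G)).subgroupOf (Subgroup.normalizer (Q : Set G))).relIndex
            (TQ.subgroupOf (Subgroup.normalizer (Q : Set G))) :=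
          (Subgroup.relIndex_subgroupOf hTQN).symm
      _ = ((Subgroup.centralizer (Q : Set G)).subgroupOf (Subgroup.normalizer (Q : Set G))).relIndex
            ((TP ⊓ Subgroup.normalizer (Q : Set G)).subgroupOf (Subgroup.normalizer (Q : Set G))
              ⊔ (Subgroup.centralizer (Q : Set G)).subgroupOf (Subgroup.normalizer (Q : Set G))) := by
          rw [← Subgroup.subgroupOf_sup hAN hCN, ← hTQeq]
      _ = ((Subgroup.centralizer (Q : Set G)).subgroupOf (Subgroup.normalizer (Q : Set G))).relIndex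
            ((TP ⊓ Subgroup.normalizer (Q : Set G)).subgroupOf (Subgroup.normalizer (Q : Set G))) :=
          Subgroup.relIndex_sup_right _ _
      _ = (Subgroup.centralizer (Q : Set G)).relIndex (TP ⊓ Subgroup.normalizer (Q : Set G)) :=
          Subgroup.relIndex_subgroupOf hAN
      _ = (Subgroup.centralizer (Q : Set G) ⊓ (TP ⊓ Subgroup.normalizer (Q : Set G))).relIndex
            (TP ⊓ Subgroup.normalizer (Q : Set G)) := (Subgroup.inf_relIndex_right _ _).symm
      _ = (TP ⊓ Subgroup.centralizer (Q : Set G)).relIndex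
            (TP ⊓ Subgroup.normalizer (Q : Set G)) := by rw [e1]

end Cfsg.Agent.S4682
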