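import Cfsg.Statements.S4686
import Cfsg.Agent.Helper25.BlockPairs20

set_option autoImplicit false
open Cfsg

namespace Cfsg.Agent.S4686

open Cfsg.Agent.Helper25
open scoped Pointwise

/-- Fix a prime p and a maximal ideal M of the algebraic integers containing p, a p-block B of the finite group G with maximal Brauer pair (P, e) and fusion system F on P. Then B is nilpotent (for every Brauer pair (Q, f) of B the stabilizer of f in N_G(Q) is C_G(Q) extended by a p-group) if and only if F is the inner fusion system of P: its maps from each subgroup of P are exactly the conjugations by elements of P. -/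
theorem result {G : Type*} [Group G] [Fintype G] (p : ℕ) [Fact p.Prime] (M : Ideal Cfsg.AlgInt) (hM : Cfsg.IsPModular p M) (B : Set (Cfsg.IrrCharacter G)) (P : Subgroup G) (e : Set (Cfsg.IrrCharacter (Subgroup.centralizer (P : Set G)))) (hmax : Cfsg.IsMaximalBrauerPair p M B P e) (F : Cfsg.FusionSystem P) (hF : Cfsg.IsBlockFusionSystemOn p M B P e F) : Cfsg.IsNilpotentBlock p M B ↔ ∀ Q : Subgroup G, F.Hom Q = (Cfsg.innerFusionSystem P).Hom Q := by
  classical
  have hp : p.Prime := Fact.out
  have hPe := hmax.1.1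
  constructor
  · intro hnil Q
    ext φ
    constructor
    · intro hφ
      obtain ⟨hQP, g, hg, -, f, hle, hle'⟩ := (hF.2 Q φ).mp hφ
      obtain ⟨u, hu, c, hc, huc⟩ := mem_mul_centralizer_of_nilpotent hM hmax hnil (Nat.card P)
        Q f g hle hle' (Nat.sub_le _ _)
      refine ⟨hQP, u, hu, fun x => ?_⟩
      rw [hg x, huc]
      have h1 : (x : G) * c = c * (x : G) := Subgroup.mem_centralizer_iff.mp hc (x : G) x.2
      calc u * c * (x : G) * (u * c)⁻¹ = u * (c * (x : G)) * c⁻¹ * u⁻¹ := by group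
        _ = u * ((x : G) * c) * c⁻¹ * u⁻¹ := by rw [h1]
        _ = u * (x : G) * u⁻¹ := by group
    · rintro ⟨hQP, g, hg, hφ⟩
      have h1 : φ = Cfsg.conjHom Q g := MonoidHom.ext (fun x => hφ x)
      rw [h1]
      exact F.conj_mem hQP hg
  · intro h
    refine ⟨hmax.1.2.1, ?_⟩
    intro Q₀ f₀ hQf x₀ hx₀N hx₀st hreg
    obtain ⟨t, ht⟩ := exists_conj_subpairLE hM hmax hQf
    have hQP : Q₀.map (MulAut.conj t).toMonoidHom ≤ P :=
      subpairLE_le (⟨_, Cfsg.conjBlock Q₀ t f₀⟩ : Cfsg.BrauerPairIdx G) ⟨P, e⟩ ht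
    have hxN := conj_mem_normalizer_map_conj Q₀ t hx₀N
    have hxst := stabilizesBlock_conj Q₀ t f₀ hx₀st
    obtain ⟨x, hxdef⟩ : ∃ x : G, x = t * x₀ * t⁻¹ := ⟨_, rfl⟩
    rw [← hxdef] at hxN hxst
    have hself := conjIdx_eq_self _ _ x hxN hxst
    have hmem : Cfsg.conjHom (Q₀.map (MulAut.conj t).toMonoidHom) x
        ∈ F.Hom (Q₀.map (MulAut.conj t).toMonoidHom) := by
      apply (hF.2 _ _).mpr
      refine ⟨hQP, x, fun u => rfl, ?_, Cfsg.conjBlock Q₀ t f₀, ht, ?_⟩
      · have h5 : (Q₀.map (MulAut.conj t).toMonoidHom).map (MulAut.conj x).toMonoidHom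
            = Q₀.map (MulAut.conj t).toMonoidHom := congrArg Sigma.fst hself
        rw [h5]
        exact hQP
      · have h2 : Relation.ReflTransGen (Cfsg.NormalSubpairRel p M)
            (conjIdx x (⟨_, Cfsg.conjBlock Q₀ t f₀⟩ : Cfsg.BrauerPairIdx G)) ⟨P, e⟩ := by
          rw [hself]
          exact ht
        exact h2
    rw [h] at hmem
    obtain ⟨-, u, hu, hux⟩ := hmem
    have hcC : u⁻¹ * x ∈ Subgroup.centralizer
        ((Q₀.map (MulAut.conj t).toMonoidHom : Subgroup G) : Set G) := by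
      rw [Subgroup.mem_centralizer_iff]
      intro y hy
      have h3 : x * y * x⁻¹ = u * y * u⁻¹ := hux ⟨y, hy⟩
      calc y * (u⁻¹ * x) = u⁻¹ * (u * y * u⁻¹) * x := by group
        _ = u⁻¹ * (x * y * x⁻¹) * x := by rw [h3]
        _ = u⁻¹ * x * y := by group
    have huN : u ∈ Subgroup.normalizer ((Subgroup.centralizer
        ((Q₀.map (MulAut.conj t).toMonoidHom : Subgroup G) : Set G) : Subgroup G) : Set G) := by
      have h4 : u = x * (u⁻¹ * x)⁻¹ := by group
      rw [h4]
      exact Subgroup.mul_mem _ (normalizer_le_normalizer_centralizer _ hxN)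
        (Subgroup.inv_mem _ (Subgroup.le_normalizer hcC))
    have hc2 : x * u⁻¹ ∈ Subgroup.centralizer
        ((Q₀.map (MulAut.conj t).toMonoidHom : Subgroup G) : Set G) := by
      have h5 := (Subgroup.mem_normalizer_iff.mp huN (u⁻¹ * x)).mp hcC
      have e2 : u * (u⁻¹ * x) * u⁻¹ = x * u⁻¹ := by group
      rw [e2] at h5
      exact h5
    obtain ⟨j, hj⟩ := hPe.1 ⟨u, hu⟩
    have hj' : u ^ (p ^ j) = 1 := by
      have h6 := congrArg Subtype.val hj
      rw [Subgroup.coe_pow] at h6
      exact h6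
    obtain ⟨c', hc', hpow⟩ := exists_mul_pow _ hc2 huN (p ^ j)
    have hxp : x ^ (p ^ j) ∈ Subgroup.centralizer
        ((Q₀.map (MulAut.conj t).toMonoidHom : Subgroup G) : Set G) := by
      have e3 : x * u⁻¹ * u = x := by group
      rw [e3, hj', mul_one] at hpow
      rw [hpow]
      exact hc'
    have hxo : x ^ (orderOf x₀) ∈ Subgroup.centralizer
        ((Q₀.map (MulAut.conj t).toMonoidHom : Subgroup G) : Set G) := by
      rw [hxdef, conj_pow, pow_orderOf_eq_one, mul_one, mul_inv_cancel]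
      exact Subgroup.one_mem _
    have hxC := mem_of_pow_mem_of_coprime _ x
      (Nat.Coprime.pow_left j ((Nat.Prime.coprime_iff_not_dvd hp).mpr hreg)) hxp hxo
    have h3 := (mem_centralizer_map_conj_iff Q₀ t _).mp hxC
    have e1 : t⁻¹ * x * t = x₀ := by
      rw [hxdef]
      group
    rw [e1] at h3
    exact h3

end Cfsg.Agent.S4686
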