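import Cfsg.Statements.S4687
import Cfsg.Agent.Helper25.BlockPairs14

set_option autoImplicit false
open Cfsg

namespace Cfsg.Agent.S4687

/-- Fix a prime p and a maximal ideal M of the algebraic integers containing p, and a p-block B of the finite group G with maximal Brauer pair (P, e), P abelian. Then B is nilpotent if and only if its inertial quotient is trivial: every element of N_G(P) stabilizing e centralizes P. -/
theorem result {G : Type*} [Group G] [Fintype G] (p : ℕ) [Fact p.Prime] (M : Ideal Cfsg.AlgInt) (hM : Cfsg.IsPModular p M) (B : Set (Cfsg.IrrCharacter G)) (P : Subgroup G) (e : Set (Cfsg.IrrCharacter (Subgroup.centralizer (P : Set G)))) (hmax : Cfsg.IsMaximalBrauerPair p M B P e) (hab : ∀ x ∈ P, ∀ y ∈ P, x * y = y * x) : Cfsg.IsNilpotentBlock p M B ↔ ∀ x : G, x ∈ Subgroup.normalizer (P : Set G) → Cfsg.StabilizesBlock (Subgroup.centralizer (P : Set G)) e x → x ∈ Subgroup.centralizer (P : Set G) := by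
  classical
  have hp : p.Prime := Fact.out
  have hPC : P ≤ Subgroup.centralizer (P : Set G) := fun u hu =>
    Subgroup.mem_centralizer_iff.mpr (fun g hg => hab g hg u hu)
  constructor
  · intro hnil x hxN hxst
    have hH : Cfsg.Agent.Helper25.NoUpperPair p M P e := fun R hR hPR hne hRN hst x hx =>
      Cfsg.Agent.Helper25.li_blockCoeff_of_maximal hM hmax R hR hPR hne hRN hst x hx
    obtain ⟨j, m, hm, hn⟩ := Nat.exists_eq_pow_mul_and_not_dvd (orderOf_pos x).ne' p hp.ne_one
    have hxT : x ∈ Cfsg.Agent.Helper25.blockStab (Subgroup.centralizer (P : Set G)) e :=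
      (Cfsg.Agent.Helper25.mem_blockStab _ e x).mpr hxst
    have h1 : x ^ (p ^ j) ∈ Subgroup.centralizer (P : Set G) := by
      apply hnil.2 P e hmax.1 _ (Subgroup.pow_mem _ hxN _)
        ((Cfsg.Agent.Helper25.mem_blockStab _ e _).mp (Subgroup.pow_mem _ hxT _))
      intro hdvd
      apply hm
      have h2 : orderOf (x ^ (p ^ j)) ∣ m := by
        apply orderOf_dvd_of_pow_eq_one
        rw [← pow_mul, ← hn, pow_orderOf_eq_one]
      exact hdvd.trans h2
    have h2 : x ^ m ∈ Subgroup.centralizer (P : Set G) := by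
      have h3 := Cfsg.Agent.Helper25.mem_sup_of_noUpperPair hM hmax.1.1 hH (x ^ m)
        (Subgroup.pow_mem _ hxN _)
        ((Cfsg.Agent.Helper25.mem_blockStab _ e _).mp (Subgroup.pow_mem _ hxT _)) j
        (by rw [← pow_mul, mul_comm, ← hn, pow_orderOf_eq_one])
      have h4 : P ⊔ Subgroup.centralizer (P : Set G) = Subgroup.centralizer (P : Set G) :=
        sup_eq_right.mpr hPC
      rw [h4] at h3
      exact h3
    exact Cfsg.Agent.Helper25.mem_of_pow_mem_of_coprime _ x
      (Nat.Coprime.pow_left j ((Nat.Prime.coprime_iff_not_dvd hp).mpr hm)) h1 h2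
  · intro h
    refine ⟨hmax.1.2.1, ?_⟩
    intro Q₀ f₀ hQf x₀ hx₀N hx₀st _
    obtain ⟨t, ht⟩ := Cfsg.Agent.Helper25.exists_conj_subpairLE hM hmax hQf
    have hQP : Q₀.map (MulAut.conj t).toMonoidHom ≤ P :=
      Cfsg.Agent.Helper25.subpairLE_le
        (⟨_, Cfsg.conjBlock Q₀ t f₀⟩ : Cfsg.BrauerPairIdx G) ⟨P, e⟩ ht
    have hPC₁ : P ≤ Subgroup.centralizer
        ((Q₀.map (MulAut.conj t).toMonoidHom : Subgroup G) : Set G) :=
      hPC.trans (Subgroup.centralizer_le hQP)
    have hxN := Cfsg.Agent.Helper25.conj_mem_normalizer_map_conj Q₀ t hx₀N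
    have hxst := Cfsg.Agent.Helper25.stabilizesBlock_conj Q₀ t f₀ hx₀st
    obtain ⟨c, hc, hcN, hcst⟩ := Cfsg.Agent.Helper25.exists_mul_mem_stab hM hmax hQP hPC₁ ht
      (t * x₀ * t⁻¹) hxN hxst
    have h1 := h _ hcN hcst
    have h2 : t * x₀ * t⁻¹ ∈ Subgroup.centralizer
        ((Q₀.map (MulAut.conj t).toMonoidHom : Subgroup G) : Set G) := by
      have h3 := Subgroup.mul_mem _ (Subgroup.inv_mem _ hc) (Subgroup.centralizer_le hQP h1)
      rw [inv_mul_cancel_left] at h3
      exact h3
    have h3 := (Cfsg.Agent.Helper25.mem_centralizer_map_conj_iff Q₀ t _).mp h2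
    have e1 : t⁻¹ * (t * x₀ * t⁻¹) * t = x₀ := by group
    rw [e1] at h3
    exact h3

end Cfsg.Agent.S4687
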