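import Cfsg.Statements.S4693
import Cfsg.Agent.Helper25.BlockPairs17

set_option autoImplicit false
open Cfsg

namespace Cfsg.Agent.S4693

open Cfsg.Agent.Helper25
open scoped Pointwise

/-- Fix a prime p and a maximal ideal M of the algebraic integers containing p, a p-block B of the finite group G with maximal Brauer pair (P, e) and fusion system F on P, and a Brauer pair (Q, f) ≤ (P, e) with Q centric in F. Suppose every element of G normalizes Q and stabilizes f. Then the idempotent of B agrees with that of f modulo M at every element of G, and f is the idempotent of a nilpotent block of Q·C_G(Q): some p-block of Q·C_G(Q) has the idempotent coefficients of f and is nilpotent. -/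
theorem result {G : Type*} [Group G] [Fintype G] (p : ℕ) [Fact p.Prime] (M : Ideal Cfsg.AlgInt) (hM : Cfsg.IsPModular p M) (B : Set (Cfsg.IrrCharacter G)) (P : Subgroup G) (e : Set (Cfsg.IrrCharacter (Subgroup.centralizer (P : Set G)))) (hmax : Cfsg.IsMaximalBrauerPair p M B P e) (F : Cfsg.FusionSystem P) (hF : Cfsg.IsBlockFusionSystemOn p M B P e F) (Q : Subgroup G) (f : Set (Cfsg.IrrCharacter (Subgroup.centralizer (Q : Set G)))) (hQP : Q ≤ P) (hf : Cfsg.IsPBlock M f) (hle : Cfsg.SubpairLE p M Q f P e) (hcen : F.IsCentric Q) (hG : ∀ x : G, x ∈ Subgroup.normalizer (Q : Set G) ∧ Cfsg.StabilizesBlock (Subgroup.centralizer (Q : Set G)) f x) : (∀ g : G, Cfsg.MemLocalIdeal M (Cfsg.blockCoeff B g - Cfsg.subgroupBlockCoeff (Subgroup.centralizer (Q : Set G)) f g)) ∧ ∃ F' : Set (Cfsg.IrrCharacter ↥(Q ⊔ Subgroup.centralizer (Q : Set G))), Cfsg.IsPBlock M F' ∧ (∀ t : ↥(Q ⊔ Subgroup.centralizer (Q : Set G)), Cfsg.blockCoeff F' t = Cfsg.subgroupBlockCoeff (Subgroup.centralizer (Q : Set G)) f (t : G)) ∧ Cfsg.IsNilpotentBlock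 p M F' := by
  classical
  have hQf : IsBrauerPairOf p M B Q f :=
    (isBrauerPairOf_iff_of_subpairLE hM B ⟨Q, f⟩ ⟨P, e⟩ hle).mp hmax.1
  have hQn : Q.Normal := by
    rw [← Subgroup.normalizer_eq_top_iff]
    exact top_unique (fun x _ => (hG x).1)
  refine ⟨fun g => ?_, ?_⟩
  · rw [blockCoeff_eq_of_normal_pair hM hQf hG g, sub_self]
    exact li_zero hM
  · have hcen' := (isCentric_iff hM hmax F hF hQP hf hle).mp hcen
    obtain ⟨n, hn⟩ := hQf.1.1.exists_card_eq
    have h1 : ((Subgroup.centralizer (Q : Set G)).subgroupOf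
        (Q ⊔ Subgroup.centralizer (Q : Set G))).index ∣ p ^ n := by
      have h2 : ((Subgroup.centralizer (Q : Set G)).subgroupOf
          (Q ⊔ Subgroup.centralizer (Q : Set G))).index
          = ((Subgroup.centralizer (Q : Set G)).subgroupOf Q).index :=
        Subgroup.relIndex_sup_right Q (Subgroup.centralizer (Q : Set G))
      rw [h2, ← hn]
      exact Subgroup.index_dvd_card _
    obtain ⟨m, -, hm⟩ := (Nat.dvd_prime_pow hM.1).mp h1
    obtain ⟨F', hF', hF'c⟩ := exists_block_of_subgroup hM (Subgroup.centralizer (Q : Set G))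
      (Q ⊔ Subgroup.centralizer (Q : Set G)) le_sup_right m hm hf (fun x _ => (hG x).2)
    exact ⟨F', hF', hF'c, isNilpotentBlock_sup_centralizer hM Q hQf.1.1 hf hcen' hF' hF'c⟩

end Cfsg.Agent.S4693
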