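import Cfsg.Statements.S4713
import Mathlib
import Cfsg.Agent.Helper2.PSolvIto

set_option autoImplicit false
open Cfsg

namespace Cfsg.Agent.S4713

open Cfsg.Agent.Helper2 Cfsg.Agent.Helper24

/-- Let p be a prime and G a finite p-solvable group. Then G has a normal abelian Sylow p-subgroup if and only if the degree of every irreducible character of G is prime to p. -/
theorem result {G : Type*} [Group G] [Finite G] (p : ℕ) [Fact p.Prime] (hsolv : Cfsg.IsPSolvable p G) (P : Sylow p G) : ((P : Subgroup G).Normal ∧ IsMulCommutative P) ↔ ∀ χ : Cfsg.IrrCharacter G, ¬ p ∣ Cfsg.charDegree (χ : G → ℂ) := by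
  have hp : p.Prime := Fact.out
  constructor
  · rintro ⟨hPn, hPab⟩ χ hdvd
    obtain ⟨n, ρ, hρ, hχ⟩ := χ.2
    haveI := hρ
    haveI := hPn
    have hab : ∀ a ∈ (P : Subgroup G), ∀ b ∈ (P : Subgroup G), a * b = b * a := by
      intro a ha b hb
      have := (isMulCommutative_iff.mp hPab) ⟨a, ha⟩ ⟨b, hb⟩
      exact congrArg Subtype.val this
    have h1 := Cfsg.Agent.S0169.result ρ (P : Subgroup G) hab
    rw [Module.finrank_fin_fun] at h1
    rw [← hχ, Cfsg.Agent.Helper25.rep_charDegree] at hdvd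
    exact P.not_dvd_index (hdvd.trans h1)
  · intro h
    obtain ⟨P₀, hP₀n, hP₀p, hP₀i⟩ :=
      exists_normal_sylow_of_pprime_degrees_psolv p _ G rfl hsolv h
    haveI := hP₀n
    have hle : (P : Subgroup G) ≤ P₀ := le_of_normal_pprime_index p P₀ hP₀i P P.isPGroup'
    have heq : P₀ = (P : Subgroup G) := P.is_maximal' hP₀p hle
    rw [← heq]
    refine ⟨hP₀n, ?_⟩
    rw [isMulCommutative_iff]
    intro a b
    exact Subtype.ext (abelian_of_normal_pgroup p P₀ hP₀p h a a.2 b b.2)

end Cfsg.Agent.S4713
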