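import Cfsg.Statements.S4714
import Mathlib
import Cfsg.Agent.Helper2.CentProd4

set_option autoImplicit false
open Cfsg

namespace Cfsg.Agent.S4714

open Cfsg Cfsg.Agent.Helper25 Cfsg.Agent.Helper7 Cfsg.Agent.Helper2

/-- Let p be a prime, M a maximal ideal of the algebraic integers containing p, D a p-subgroup of the finite group G with G = D·C_G(D), and B a p-block with defect group D. Let χ be a member of B having D in its kernel (there is exactly one, the canonical character of B). Then the irreducible characters in B are exactly the functions θ on G for which there is an irreducible character ζ of D such that θ(yx) = ζ(y)χ(x) whenever y ∈ D, x has order prime to p and x commutes with y, and θ(z) = 0 whenever the p-part of z does not lie in D. -/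
theorem result {G : Type*} [Group G] [Finite G] (p : ℕ) [Fact p.Prime] (M : Ideal Cfsg.AlgInt) (hM : Cfsg.IsPModular p M) (D : Subgroup G) (hD : IsPGroup p D) (hG : D ⊔ Subgroup.centralizer (D : Set G) = ⊤) (B : Set (Cfsg.IrrCharacter G)) (hB : Cfsg.IsPBlock M B) (hBD : Cfsg.IsDefectGroup p M B D) (χ : Cfsg.IrrCharacter G) (hχ : χ ∈ B) (hχD : ∀ y ∈ D, (χ : G → ℂ) y = (χ : G → ℂ) 1) : (∀ θ : Cfsg.IrrCharacter G, θ ∈ B ↔ ∃ ζ : Cfsg.IrrCharacter D, (∀ (y : D) (x : G), ¬ p ∣ orderOf x → Commute (y : G) x → (θ : G → ℂ) ((y : G) * x) = (ζ : D → ℂ) y * (χ : G → ℂ) x) ∧ (∀ z : G, (∀ y : G, Cfsg.IsPPart p z y → y ∉ D) → (θ : G → ℂ) z = 0)) ∧ ∀ ζ : Cfsg.IrrCharacter D, ∃ θ ∈ B, (∀ (y : D) (x : G), ¬ p ∣ orderOf x → Commute (y : G) x → (θ : G → ℂ) ((y : G) * x) = (ζ : D → ℂ) y * (χ : G → ℂ) x) ∧ (∀ z : G, (∀ y : G, Cfsg.IsPPart p z y → y ∉ D) → (θ : G → ℂ) z = 0) := by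
  classical
  have hp : p.Prime := Fact.out
  obtain ⟨θ₀, hθ₀, hk, huniq, hdeg, F, hFB, hFinj, hFsurj, hFval⟩ :=
    centProd_param hM D hD hG B hB hBD
  have hχθ : χ = θ₀ := huniq χ hχ (fun y hy => (mem_irrKer χ y).mpr (hχD y hy))
  haveI hDn := normal_of_sup_centralizer D hG
  have hvan : ∀ θ ∈ B, ∀ z : G, (∀ y : G, IsPPart p z y → y ∉ D) → (θ : G → ℂ) z = 0 := by
    intro θ hθ z hz
    apply irr_vanish_of_normal_defect hM D hD hB hBD θ hθ z
    rintro ⟨y, hy, x, hx, hc, rfl⟩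
    have hyord : ∃ k : ℕ, orderOf y = p ^ k := by
      obtain ⟨k, hk⟩ := (IsPGroup.iff_orderOf.mp hD) ⟨y, hy⟩
      exact ⟨k, by rw [← hk]; exact Subgroup.orderOf_coe (⟨y, hy⟩ : D)⟩
    exact hz y ⟨x, rfl, hc, hyord, hx⟩ hy
  have hprop : ∀ ζ : IrrCharacter D,
      (∀ (y : D) (x : G), ¬ p ∣ orderOf x → Commute (y : G) x →
        (F ζ : G → ℂ) ((y : G) * x) = (ζ : D → ℂ) y * (χ : G → ℂ) x) ∧
      (∀ z : G, (∀ y : G, IsPPart p z y → y ∉ D) → (F ζ : G → ℂ) z = 0) :=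
    fun ζ => ⟨fun y x hx _ => by rw [hχθ]; exact hFval ζ y x hx, hvan (F ζ) (hFB ζ)⟩
  refine ⟨fun θ => ⟨fun hθ => ?_, ?_⟩, fun ζ => ⟨F ζ, hFB ζ, hprop ζ⟩⟩
  · obtain ⟨ζ, rfl⟩ := hFsurj θ hθ
    exact ⟨ζ, hprop ζ⟩
  · rintro ⟨ζ, h1, h2⟩
    have heq : θ = F ζ := by
      apply Subtype.ext
      funext z
      obtain ⟨u, hu⟩ := exists_isPPart hp z
      by_cases huD : u ∈ D
      · obtain ⟨s, hs, hc, -, hr⟩ := hu
        rw [← hs]
        exact (h1 ⟨u, huD⟩ s hr hc).trans ((hprop ζ).1 ⟨u, huD⟩ s hr hc).symm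
      · have hall : ∀ y : G, IsPPart p z y → y ∉ D := by
          intro y hy
          rw [isPPart_unique hp hy hu]
          exact huD
        rw [h2 z hall, (hprop ζ).2 z hall]
    rw [heq]
    exact hFB ζ

end Cfsg.Agent.S4714
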