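import Cfsg.Statements.S4718
import Mathlib
import Cfsg.Agent.Helper25.BlockBF
import Cfsg.Agent.Helper25.Landau
import Cfsg.Agent.Helper1.CharClass
import Cfsg.Agent.S4676

set_option autoImplicit false
universe u
open Cfsg

namespace Cfsg.Agent.S4718

/-- Let p be a prime and a a natural number. There is a bound N such that every finite group whose Sylow p-subgroups have order p^a and whose only p-block (relative to a maximal ideal of the algebraic integers containing p) is the principal block has order at most N. -/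
theorem result (p : ℕ) [Fact p.Prime] (a : ℕ) : ∃ N : ℕ, ∀ (G : Type u) [Group G] [Finite G] (M : Ideal Cfsg.AlgInt), Cfsg.IsPModular p M → (Nat.card G).factorization p = a → (∀ B : Set (Cfsg.IrrCharacter G), Cfsg.IsPBlock M B → B = Cfsg.principalBlock M G) → Nat.card G ≤ N := by
  obtain ⟨N, hN⟩ := Cfsg.Agent.Helper25.landau_bound.{u} ((p ^ a) ^ 2 / 4 + 1)
  refine ⟨N, ?_⟩
  intro G _ _ M hM ha hB
  classical
  have := Fintype.ofFinite G
  apply hN G
  have hB0 : Cfsg.IsPBlock M (Cfsg.principalBlock M G) :=
    Cfsg.Agent.Helper25.isPBlock_principalBlock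
  have huniv : ∀ χ : IrrCharacter G, χ ∈ principalBlock M G := by
    intro χ
    have h1 := hB _ (Cfsg.Agent.Helper25.isPBlock_blockOf (M := M) χ)
    rw [← h1]
    exact Cfsg.Agent.Helper25.self_mem_blockOf hM χ
  have hBu : principalBlock M G = Set.univ := Set.eq_univ_of_forall huniv
  obtain ⟨g, hg⟩ := Cfsg.Agent.Helper25.exists_isDefectClass hM hB0
  obtain ⟨P⟩ : Nonempty (Sylow p (Subgroup.centralizer ({g} : Set G))) := inferInstance
  have hD : IsDefectGroup p M (principalBlock M G)
      ((P : Subgroup _).map (Subgroup.centralizer ({g} : Set G)).subtype) := ⟨g, hg, P, rfl⟩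
  have h1 := Cfsg.Agent.S4676.result p M hM _ hB0 _ hD
  have hcard := Cfsg.Agent.Helper7.card_defectGroup hM hB0 hD
  have hd : blockDefect p (principalBlock M G) ≤ a := by
    unfold blockDefect
    rw [ha]
    exact Nat.sub_le _ _
  rw [← Cfsg.Agent.Helper1.card_irr]
  have h2 : Nat.card (IrrCharacter G) ≤ ∑ᶠ χ ∈ principalBlock M G,
      p ^ (2 * blockHeight p (principalBlock M G) (χ : G → ℂ)) := by
    have : Fintype (IrrCharacter G) := Fintype.ofFinite _
    rw [hBu, finsum_mem_univ, finsum_eq_sum_of_fintype, Nat.card_eq_fintype_card,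
      ← Finset.card_univ, Finset.card_eq_sum_ones]
    apply Finset.sum_le_sum
    intro χ _
    exact Nat.one_le_pow _ _ (Fact.out : p.Prime).pos
  refine le_trans h2 (le_trans h1 ?_)
  rw [hcard]
  apply Nat.add_le_add_right
  apply Nat.div_le_div_right
  apply Nat.pow_le_pow_left
  exact Nat.pow_le_pow_right (Fact.out : p.Prime).pos hd

end Cfsg.Agent.S4718
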