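import Cfsg.Statements.S4720
import Cfsg.Agent.Helper25.BlockSection2
import Cfsg.Agent.Helper25.CharMore

set_option autoImplicit false
open Cfsg

namespace Cfsg.Agent.S4720

open Cfsg.Agent.Helper25
open scoped Pointwise

/-- Let p be a prime, M a maximal ideal of the algebraic integers containing p, P a p-subgroup of the finite group G, N a subgroup with P ≤ N ≤ N_G(P), and U a nonempty subset of P normalized by N such that an element of U and an element of P that are conjugate in G are already conjugate in N, and such that λ(C_G(y)) = w·#C_N(y) for every y ∈ U with one rational number w, where λ(X) denotes the sum of the squares of the degrees of the irreducible characters in the principal p-block of X. For a complex function θ on P and χ in the principal block of G put a_χ(θ) = #P⁻¹ Σ_{y ∈ P} χ(y) θ(y⁻¹). Then for generalized characters θ, η of P with θ vanishing outside U, Σ_χ a_χ(θ)·conj(a_χ(η)) = (w/#P²)·Σ_{y ∈ P} θ(y)·conj(Σ_{x ∈ N}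 η(x y x⁻¹)) (η extended by zero off P; the conjugates lie in P), the first sum over the principal p-block of G. -/
theorem result {G : Type*} [Group G] [Finite G] (p : ℕ) [Fact p.Prime] (M : Ideal Cfsg.AlgInt) (hM : Cfsg.IsPModular p M) (P : Subgroup G) (hP : IsPGroup p P) (N : Subgroup G) (hPN : P ≤ N) (hNN : N ≤ Subgroup.normalizer (P : Set G)) (U : Set G) (hUne : U.Nonempty) (hUP : U ⊆ (P : Set G)) (hUN : ∀ n ∈ N, ∀ u ∈ U, n * u * n⁻¹ ∈ U) (hfus : ∀ u ∈ U, ∀ g : G, g * u * g⁻¹ ∈ (P : Set G) → ∃ n ∈ N, n * u * n⁻¹ = g * u * g⁻¹) (w : ℚ) (hw : ∀ y ∈ U, ((∑ᶠ ψ ∈ Cfsg.principalBlock M ↥(Subgroup.centralizer ({y} : Set G)), Cfsg.charDegree (ψ : ↥(Subgroup.centralizer ({y} : Set G)) → ℂ) ^ 2) : ℚ) = w * Nat.card ↥(N ⊓ Subgroup.centralizer ({y} : Set G))) (θ η : ↥P → ℂ) (hθ : Cfsg.IsGeneralizedCharacter ↥P θ) (hη : Cfsg.IsGeneralizedCharacter ↥P η) (hθU : ∀ y : ↥P, (y : G) ∉ U → θ y = 0) : ∑ᶠ χ ∈ Cfsg.principalBlock M G, ((Nat.card ↥P : ℂ)⁻¹ *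 ∑ᶠ y : ↥P, (χ : G → ℂ) (y : G) * θ y⁻¹) * (starRingEnd ℂ) ((Nat.card ↥P : ℂ)⁻¹ * ∑ᶠ y : ↥P, (χ : G → ℂ) (y : G) * η y⁻¹) = ((w : ℂ) / ((Nat.card ↥P : ℂ) ^ 2)) * ∑ᶠ y : ↥P, θ y * (starRingEnd ℂ) (∑ᶠ x : ↥N, Cfsg.extendByZero P η ((x : G) * (y : G) * (x : G)⁻¹)) := by
  classical
  haveI : Fintype G := Fintype.ofFinite G
  haveI : Fintype P := Fintype.ofFinite P
  haveI : Fintype N := Fintype.ofFinite N
  have hPc0 : (Nat.card P : ℂ) ≠ 0 := Nat.cast_ne_zero.mpr Nat.card_pos.ne'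
  rw [finsum_mem_eq_finite_toFinset_sum _ (Set.toFinite (principalBlock M G))]
  simp only [finsum_eq_sum_of_fintype]
  have hA : ∀ χ : IrrCharacter G,
      ((Nat.card ↥P : ℂ)⁻¹ * ∑ y : ↥P, (χ : G → ℂ) (y : G) * θ y⁻¹)
        * (starRingEnd ℂ) ((Nat.card ↥P : ℂ)⁻¹ * ∑ y : ↥P, (χ : G → ℂ) (y : G) * η y⁻¹)
      = ((Nat.card ↥P : ℂ) ^ 2)⁻¹ * ∑ v : ↥P, ∑ v' : ↥P,
          θ v * starRingEnd ℂ (η v') * ((χ : G → ℂ) (v' : G) * (χ : G → ℂ) (v : G)⁻¹) := by
    intro χ
    have e1 : ∑ y : ↥P, (χ : G → ℂ) (y : G) * θ y⁻¹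
        = ∑ v : ↥P, (χ : G → ℂ) (v : G)⁻¹ * θ v := by
      rw [← Equiv.sum_comp (Equiv.inv ↥P)]
      apply Finset.sum_congr rfl
      intro y _
      simp
    have e2 : starRingEnd ℂ ((Nat.card ↥P : ℂ)⁻¹ * ∑ y : ↥P, (χ : G → ℂ) (y : G) * η y⁻¹)
        = (Nat.card ↥P : ℂ)⁻¹ * ∑ v' : ↥P, (χ : G → ℂ) (v' : G) * starRingEnd ℂ (η v') := by
      rw [map_mul, map_inv₀, Complex.conj_natCast, map_sum]
      congr 1
      rw [← Equiv.sum_comp (Equiv.inv ↥P)]
      apply Finset.sum_congr rfl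
      intro y _
      simp only [Equiv.inv_apply, inv_inv, map_mul, Subgroup.coe_inv, irr_inv, Complex.conj_conj]
    rw [e1, e2]
    calc ((Nat.card ↥P : ℂ)⁻¹ * ∑ v : ↥P, (χ : G → ℂ) (v : G)⁻¹ * θ v)
          * ((Nat.card ↥P : ℂ)⁻¹ * ∑ v' : ↥P, (χ : G → ℂ) (v' : G) * starRingEnd ℂ (η v'))
        = ((Nat.card ↥P : ℂ) ^ 2)⁻¹ * ((∑ v : ↥P, (χ : G → ℂ) (v : G)⁻¹ * θ v)
          * ∑ v' : ↥P, (χ : G → ℂ) (v' : G) * starRingEnd ℂ (η v')) := by ring
      _ = _ := by
        rw [Finset.sum_mul_sum]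
        congr 1
        apply Finset.sum_congr rfl
        intro v _
        apply Finset.sum_congr rfl
        intro v' _
        ring
  simp only [hA]
  rw [← Finset.mul_sum, Finset.sum_comm]
  have hC : ∀ v : ↥P, ∑ χ ∈ (Set.toFinite (principalBlock M G)).toFinset, ∑ v' : ↥P,
        θ v * starRingEnd ℂ (η v') * ((χ : G → ℂ) (v' : G) * (χ : G → ℂ) (v : G)⁻¹)
      = (w : ℂ) * (θ v * starRingEnd ℂ
          (∑ x : ↥N, extendByZero P η ((x : G) * (v : G) * (x : G)⁻¹))) := by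
    intro v
    rw [Finset.sum_comm]
    by_cases hv : (v : G) ∈ U
    · have hΛ : ∑ ψ ∈ (Set.toFinite
            (principalBlock M (Subgroup.centralizer ({(v : G)} : Set G)))).toFinset,
          ((charDegree (ψ : Subgroup.centralizer ({(v : G)} : Set G) → ℂ) : ℕ) : ℂ) ^ 2
          = (w : ℂ) * (Nat.card ↥(N ⊓ Subgroup.centralizer ({(v : G)} : Set G)) : ℂ) := by
        have h1 := hw (v : G) hv
        rw [finsum_mem_eq_finite_toFinset_sum _ (Set.toFinite _)] at h1
        have h2 := congrArg (fun q : ℚ => (q : ℂ)) h1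
        beta_reduce at h2
        push_cast at h2
        exact h2
      have hstep : ∀ v' : ↥P, ∑ χ ∈ (Set.toFinite (principalBlock M G)).toFinset,
            θ v * starRingEnd ℂ (η v') * ((χ : G → ℂ) (v' : G) * (χ : G → ℂ) (v : G)⁻¹)
          = (w : ℂ) * θ v * ((if IsConj (v' : G) (v : G) then
              (Nat.card ↥(N ⊓ Subgroup.centralizer ({(v : G)} : Set G)) : ℂ) else 0)
              * starRingEnd ℂ (η v')) := by
        intro v'
        rw [← Finset.mul_sum, principal_block_sum_pair hM P hP v' v]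
        by_cases hc : IsConj (v' : G) (v : G)
        · rw [if_pos hc, if_pos hc, hΛ]
          ring
        · rw [if_neg hc, if_neg hc]
          ring
      simp only [hstep]
      rw [← Finset.mul_sum]
      have horb := sum_normalizer_orbit P N hNN v (fun g hg => hfus (v : G) hv g hg)
        (fun v' => starRingEnd ℂ (η v'))
      have hbridge : ∑ v' : ↥P, (if IsConj (v' : G) (v : G) then
            (Nat.card ↥(N ⊓ Subgroup.centralizer ({(v : G)} : Set G)) : ℂ) else 0)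
            * starRingEnd ℂ (η v')
          = ∑ n : ↥N, extendByZero P (fun v' => starRingEnd ℂ (η v'))
              ((n : G) * (v : G) * (n : G)⁻¹) := by
        rw [horb]
        apply Finset.sum_congr rfl
        intro v' _
        by_cases hc : IsConj (v' : G) (v : G)
        · rw [if_pos hc, if_pos hc]
        · rw [if_neg hc, if_neg hc]
      rw [hbridge, map_sum, mul_assoc]
      congr 2
      apply Finset.sum_congr rfl
      intro n _
      by_cases hg : (n : G) * (v : G) * (n : G)⁻¹ ∈ P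
      · rw [Cfsg.Agent.Helper2.extendByZero_of_mem P _ hg,
          Cfsg.Agent.Helper2.extendByZero_of_mem P _ hg]
      · rw [Cfsg.Agent.Helper2.extendByZero_of_not_mem P _ hg,
          Cfsg.Agent.Helper2.extendByZero_of_not_mem P _ hg, map_zero]
    · rw [hθU v hv]
      simp
  simp only [hC]
  rw [← Finset.mul_sum]
  ring

end Cfsg.Agent.S4720
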