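import Cfsg.Statements.S4722
import Cfsg.Agent.Helper25.BlockSection
import Cfsg.Agent.Helper25.BlockBasic
import Cfsg.Agent.Helper25.CharMore
import Cfsg.Agent.Helper7.BlockKer
import Cfsg.Agent.Helper10.PComp
import Cfsg.Agent.Helper2.CharExtra

set_option autoImplicit false
open Cfsg

namespace Cfsg.Agent.S4722

open Cfsg.Agent.Helper25
open scoped Pointwise

/-- Let M be a maximal ideal of the algebraic integers containing 2, P a 2-subgroup of the finite group G, U a subset of P, and t an involution of G such that no element of U is inverted by any conjugate of t. Let θ be a generalized character of P vanishing outside U, and for χ in the principal 2-block B₀ put a_χ = #P⁻¹ Σ_{y ∈ P} χ(y) θ(y⁻¹). Then Σ_{χ ∈ B₀} a_χ χ(t)^2/χ(1) = 0, Σ_{χ ∈ B₀} a_χ χ(1) = 0 and Σ_{χ ∈ B₀} a_χ χ(t) = 0. If moreover #P⁻¹ Σ_{y ∈ P} θ(y) ≠ 0, then either at least two of the a_χ have positive real part and at least two have negative real part, or G has a proper normal subgroup containing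 O_2'(G) and t. -/
theorem result {G : Type*} [Group G] [Finite G] (M : Ideal Cfsg.AlgInt) (hM : Cfsg.IsPModular 2 M) (P : Subgroup G) (hP : IsPGroup 2 P) (U : Set G) (hUP : U ⊆ (P : Set G)) (t : G) (ht : orderOf t = 2) (hinv : ∀ u ∈ U, ∀ g : G, (g * t * g⁻¹) * u * (g * t * g⁻¹)⁻¹ ≠ u⁻¹) (θ : ↥P → ℂ) (hθ : Cfsg.IsGeneralizedCharacter ↥P θ) (hθU : ∀ y : ↥P, (y : G) ∉ U → θ y = 0) : (∑ᶠ χ ∈ Cfsg.principalBlock M G, ((Nat.card ↥P : ℂ)⁻¹ * ∑ᶠ y : ↥P, (χ : G → ℂ) (y : G) * θ y⁻¹) * (χ : G → ℂ) t ^ 2 / (χ : G → ℂ) 1 = 0) ∧ (∑ᶠ χ ∈ Cfsg.principalBlock M G, ((Nat.card ↥P : ℂ)⁻¹ * ∑ᶠ y : ↥P, (χ : G → ℂ) (y : G) * θ y⁻¹) * (χ : G → ℂ) 1 = 0) ∧ (∑ᶠ χ ∈ Cfsg.principalBlock M G, ((Nat.card ↥P : ℂ)⁻¹ * ∑ᶠ y : ↥P, (χ : G → ℂ) (y : G) * θ y⁻¹) * (χ : G → ℂ) t = 0) ∧ ((Nat.card ↥P : ℂ)⁻¹ * ∑ᶠ y : ↥P, θ y ≠ 0 → (2 ≤ Nat.card {χ : Cfsg.IrrCharacter G // χ ∈ Cfsg.principalBlock M G ∧ 0 < (((Nat.card ↥P : ℂ)⁻¹ * ∑ᶠ y : ↥P, (χ : G → ℂ) (y : G) * θ y⁻¹)).re} ∧ 2 ≤ Nat.card {χ : Cfsg.IrrCharacter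 G // χ ∈ Cfsg.principalBlock M G ∧ (((Nat.card ↥P : ℂ)⁻¹ * ∑ᶠ y : ↥P, (χ : G → ℂ) (y : G) * θ y⁻¹)).re < 0}) ∨ ∃ K : Subgroup G, K.Normal ∧ K ≠ ⊤ ∧ Cfsg.pPrimeCore 2 G ≤ K ∧ t ∈ K) := by
  classical
  haveI : Fact (Nat.Prime 2) := ⟨Nat.prime_two⟩
  haveI : Fintype G := Fintype.ofFinite G
  haveI : Fintype P := Fintype.ofFinite P
  have hB : IsPBlock M (principalBlock M G) := isPBlock_principalBlock
  have hPc0 : (Nat.card P : ℂ) ≠ 0 := Nat.cast_ne_zero.mpr Nat.card_pos.ne'
  have hG0 : (Nat.card G : ℂ) ≠ 0 := Nat.cast_ne_zero.mpr Nat.card_pos.ne'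
  obtain ⟨a, ha'⟩ : ∃ a : IrrCharacter G → ℂ, ∀ χ : IrrCharacter G,
      a χ = (Nat.card ↥P : ℂ)⁻¹ * ∑ᶠ y : ↥P, (χ : G → ℂ) (y : G) * θ y⁻¹ := ⟨_, fun _ => rfl⟩
  simp only [← ha']
  have ha : ∀ χ : IrrCharacter G,
      a χ = (Nat.card ↥P : ℂ)⁻¹ * ∑ y : ↥P, (χ : G → ℂ) (y : G) * θ y⁻¹ := by
    intro χ
    rw [ha', finsum_eq_sum_of_fintype]
  have hΦ : ∀ g x : G, IsPPart 2 g x → (∀ u ∈ U, ¬ IsConj x u) →
      ∑ χ ∈ (Set.toFinite (principalBlock M G)).toFinset, a χ * (χ : G → ℂ) g = 0 := by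
    intro g x hx hxU
    have h1 := block_sum_induced_eq_zero hM hB P hP U θ hθU g x hx hxU
    have h2 : ∀ χ : IrrCharacter G, a χ * (χ : G → ℂ) g = (Nat.card ↥P : ℂ)⁻¹ *
        ((∑ y : ↥P, (χ : G → ℂ) (y : G) * θ y⁻¹) * (χ : G → ℂ) g) := by
      intro χ
      rw [ha, mul_assoc]
    simp only [h2]
    rw [← Finset.mul_sum, h1, mul_zero]
  have ht2 : t * t = 1 := by
    rw [← pow_two, ← ht]
    exact pow_orderOf_eq_one t
  have htinv : t⁻¹ = t := inv_eq_of_mul_eq_one_right ht2
  have hE1 : ∑ χ ∈ (Set.toFinite (principalBlock M G)).toFinset,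
      a χ * (χ : G → ℂ) t ^ 2 / (χ : G → ℂ) 1 = 0 := by
    have h1 : ∀ χ : IrrCharacter G, a χ * (χ : G → ℂ) t ^ 2 / (χ : G → ℂ) 1
        = (Nat.card G : ℂ)⁻¹ * ∑ z : G, a χ * (χ : G → ℂ) (t * (z * t * z⁻¹)) := by
      intro χ
      have := irr_one_ne_zero χ
      rw [← Finset.mul_sum, irr_sum_conj_mul]
      field_simp
    simp only [h1]
    rw [← Finset.mul_sum, Finset.sum_comm, Finset.sum_eq_zero, mul_zero]
    intro z _
    obtain ⟨x, hx⟩ := Cfsg.Agent.Helper7.exists_isPPart Nat.prime_two (t * (z * t * z⁻¹))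
    apply hΦ _ x hx
    intro u hu hconj
    have hginv : t * (t * (z * t * z⁻¹)) * t⁻¹ = (t * (z * t * z⁻¹))⁻¹ := by
      rw [htinv]
      have e1 : t * (t * (z * t * z⁻¹)) * t = (t * t) * (z * t * z⁻¹) * t := by group
      have e2 : (t * (z * t * z⁻¹))⁻¹ = z * t⁻¹ * z⁻¹ * t⁻¹ := by group
      rw [e1, e2, ht2, one_mul, htinv]
    have h3 := Cfsg.Agent.Helper7.isPPart_conj hx t
    rw [hginv] at h3
    have h4 := Cfsg.Agent.Helper7.isPPart_inv hx
    have h5 : t * x * t⁻¹ = x⁻¹ := Cfsg.Agent.Helper7.isPPart_unique Nat.prime_two h3 h4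
    obtain ⟨c, hc⟩ := isConj_iff.mp hconj
    apply hinv u hu c
    rw [← hc]
    calc c * t * c⁻¹ * (c * x * c⁻¹) * (c * t * c⁻¹)⁻¹ = c * (t * x * t⁻¹) * c⁻¹ := by group
      _ = (c * x * c⁻¹)⁻¹ := by rw [h5]; group
  have hE2 : ∑ χ ∈ (Set.toFinite (principalBlock M G)).toFinset, a χ * (χ : G → ℂ) 1 = 0 := by
    apply hΦ 1 1 ⟨1, mul_one 1, Commute.one_right 1, ⟨0, by simp⟩, by simp⟩
    intro u hu hconj
    have hu1 : u = 1 := isConj_one_right.mp hconj
    apply hinv u hu 1
    rw [hu1]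
    simp
  have hE3 : ∑ χ ∈ (Set.toFinite (principalBlock M G)).toFinset, a χ * (χ : G → ℂ) t = 0 := by
    apply hΦ t t ⟨1, mul_one t, Commute.one_right t, ⟨1, by rw [ht, pow_one]⟩,
      by rw [orderOf_one]; norm_num⟩
    intro u hu hconj
    obtain ⟨c, hc⟩ := isConj_iff.mp hconj
    apply hinv u hu c
    have hu2 : u * u = 1 := by
      rw [← hc]
      calc c * t * c⁻¹ * (c * t * c⁻¹) = c * (t * t) * c⁻¹ := by group
        _ = 1 := by rw [ht2]; group
    rw [hc, mul_inv_cancel_right, inv_eq_of_mul_eq_one_right hu2]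
  refine ⟨?_, ?_, ?_, ?_⟩
  · rw [finsum_mem_eq_finite_toFinset_sum _ (Set.toFinite (principalBlock M G))]
    exact hE1
  · rw [finsum_mem_eq_finite_toFinset_sum _ (Set.toFinite (principalBlock M G))]
    exact hE2
  · rw [finsum_mem_eq_finite_toFinset_sum _ (Set.toFinite (principalBlock M G))]
    exact hE3
  · intro hθ1
    by_cases hboth : 2 ≤ Nat.card {χ : IrrCharacter G // χ ∈ principalBlock M G ∧ 0 < (a χ).re} ∧
        2 ≤ Nat.card {χ : IrrCharacter G // χ ∈ principalBlock M G ∧ (a χ).re < 0}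
    · exact Or.inl hboth
    · right
      have hareal : ∀ χ : IrrCharacter G, a χ = ((a χ).re : ℂ) := by
        intro χ
        obtain ⟨χ₁, χ₂, h₁, h₂, hθeq⟩ := hθ
        obtain ⟨m₁, hm₁⟩ := Cfsg.Agent.Helper2.classInner_char_nat
          (Cfsg.Agent.Helper2.isCharacter_restrict P (irr_isCharacter χ)) h₁
        obtain ⟨m₂, hm₂⟩ := Cfsg.Agent.Helper2.classInner_char_nat
          (Cfsg.Agent.Helper2.isCharacter_restrict P (irr_isCharacter χ)) h₂
        have h3 : a χ = (((m₁ : ℝ) - m₂ : ℝ) : ℂ) := by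
          rw [ha]
          push_cast
          rw [← hm₁, ← hm₂]
          unfold classInner
          rw [← mul_sub, ← Finset.sum_sub_distrib]
          congr 1
          apply Finset.sum_congr rfl
          intro y _
          rw [hθeq, Pi.sub_apply, char_inv h₁, char_inv h₂]
          ring
        rw [h3, Complex.ofReal_re]
      have htreal : ∀ χ : IrrCharacter G, (χ : G → ℂ) t = (((χ : G → ℂ) t).re : ℂ) := by
        intro χ
        have h1 := irr_inv χ t
        rw [htinv] at h1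
        exact (Complex.conj_eq_iff_re.mp h1.symm).symm
      have hd : ∀ χ : IrrCharacter G, (0 : ℝ) < (charDegree (χ : G → ℂ) : ℝ) := fun χ => by
        exact_mod_cast irr_degree_pos χ
      have E2r : ∑ χ ∈ (Set.toFinite (principalBlock M G)).toFinset,
          (a χ).re * (charDegree (χ : G → ℂ) : ℝ) = 0 := by
        have h1 : ∀ χ : IrrCharacter G, a χ * (χ : G → ℂ) 1
            = (((a χ).re * (charDegree (χ : G → ℂ) : ℝ) : ℝ) : ℂ) := by
          intro χ
          rw [irr_one_eq_degree]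
          conv_lhs => rw [hareal χ]
          push_cast
          ring
        simp only [h1] at hE2
        rw [← Complex.ofReal_sum] at hE2
        exact_mod_cast hE2
      have E3r : ∑ χ ∈ (Set.toFinite (principalBlock M G)).toFinset,
          (a χ).re * (charDegree (χ : G → ℂ) : ℝ)
            * (((χ : G → ℂ) t).re / (charDegree (χ : G → ℂ) : ℝ)) = 0 := by
        have h1 : ∀ χ : IrrCharacter G, a χ * (χ : G → ℂ) t
            = (((a χ).re * (charDegree (χ : G → ℂ) : ℝ)
              * (((χ : G → ℂ) t).re / (charDegree (χ : G → ℂ) : ℝ)) : ℝ) : ℂ) := by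
          intro χ
          have hd0 := (hd χ).ne'
          conv_lhs => rw [hareal χ, htreal χ]
          rw [← Complex.ofReal_mul]
          congr 1
          field_simp
        simp only [h1] at hE3
        rw [← Complex.ofReal_sum] at hE3
        exact_mod_cast hE3
      have E1r : ∑ χ ∈ (Set.toFinite (principalBlock M G)).toFinset,
          (a χ).re * (charDegree (χ : G → ℂ) : ℝ)
            * (((χ : G → ℂ) t).re / (charDegree (χ : G → ℂ) : ℝ)) ^ 2 = 0 := by
        have h1 : ∀ χ : IrrCharacter G, a χ * (χ : G → ℂ) t ^ 2 / (χ : G → ℂ) 1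
            = (((a χ).re * (charDegree (χ : G → ℂ) : ℝ)
              * (((χ : G → ℂ) t).re / (charDegree (χ : G → ℂ) : ℝ)) ^ 2 : ℝ) : ℂ) := by
          intro χ
          have hd0 := (hd χ).ne'
          rw [irr_one_eq_degree]
          conv_lhs => rw [hareal χ, htreal χ]
          have e : ((charDegree (χ : G → ℂ) : ℕ) : ℂ) = (((charDegree (χ : G → ℂ) : ℕ) : ℝ) : ℂ) := by
            push_cast
            rfl
          rw [e, ← Complex.ofReal_pow, ← Complex.ofReal_mul, ← Complex.ofReal_div]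
          congr 1
          field_simp
        simp only [h1] at hE1
        rw [← Complex.ofReal_sum] at hE1
        exact_mod_cast hE1
      have htriv : trivChar G ∈ (Set.toFinite (principalBlock M G)).toFinset :=
        (Set.Finite.mem_toFinset _).mpr (trivChar_mem_principalBlock hM)
      have hdtriv : (charDegree ((trivChar G : IrrCharacter G) : G → ℂ) : ℝ) = 1 := by
        have h1 := irr_one_eq_degree (trivChar G)
        rw [trivChar_apply] at h1
        have h2 : charDegree ((trivChar G : IrrCharacter G) : G → ℂ) = 1 := by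
          exact_mod_cast h1.symm
        rw [h2]
        norm_num
      have hu1 : (((trivChar G : IrrCharacter G) : G → ℂ) t).re
          / (charDegree ((trivChar G : IrrCharacter G) : G → ℂ) : ℝ) = 1 := by
        rw [hdtriv, trivChar_apply]
        simp
      have hα1 : (a (trivChar G)).re ≠ 0 := by
        intro h0
        apply hθ1
        have h1 : a (trivChar G) = (Nat.card ↥P : ℂ)⁻¹ * ∑ᶠ y : ↥P, θ y := by
          rw [ha, finsum_eq_sum_of_fintype]
          congr 1
          rw [← Equiv.sum_comp (Equiv.inv ↥P)]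
          apply Finset.sum_congr rfl
          intro y _
          rw [trivChar_apply, one_mul]
          simp
        rw [← h1, hareal (trivChar G), h0]
        simp
      -- the character with `t` in its kernel
      have hexists : ∃ χ ∈ (Set.toFinite (principalBlock M G)).toFinset, χ ≠ trivChar G ∧
          ((χ : G → ℂ) t).re / (charDegree (χ : G → ℂ) : ℝ) = 1 := by
        have hor : ¬ (2 ≤ Nat.card {χ : IrrCharacter G // χ ∈ principalBlock M G ∧ 0 < (a χ).re})
            ∨ ¬ (2 ≤ Nat.card {χ : IrrCharacter G // χ ∈ principalBlock M G ∧ (a χ).re < 0}) := by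
          by_contra hcon
          push Not at hcon
          exact hboth hcon
        rcases hor with h | h
        · haveI hsub : Subsingleton {χ : IrrCharacter G // χ ∈ principalBlock M G ∧ 0 < (a χ).re} :=
            (Finite.card_le_one_iff_subsingleton).mp (by omega)
          obtain ⟨χ, hχ, hne, -, hu⟩ := exists_ne_of_sign_count
            (Set.toFinite (principalBlock M G)).toFinset (fun χ => (a χ).re)
            (fun χ => (charDegree (χ : G → ℂ) : ℝ))
            (fun χ => ((χ : G → ℂ) t).re / (charDegree (χ : G → ℂ) : ℝ)) (trivChar G) htriv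
            (fun χ _ => hd χ) hu1 hα1 E1r E2r E3r
            (fun i hi j hj hi0 hj0 => congrArg Subtype.val (Subsingleton.elim
              (⟨i, (Set.Finite.mem_toFinset _).mp hi, hi0⟩ :
                {χ : IrrCharacter G // χ ∈ principalBlock M G ∧ 0 < (a χ).re})
              ⟨j, (Set.Finite.mem_toFinset _).mp hj, hj0⟩))
          exact ⟨χ, hχ, hne, hu⟩
        · haveI hsub : Subsingleton {χ : IrrCharacter G // χ ∈ principalBlock M G ∧ (a χ).re < 0} :=
            (Finite.card_le_one_iff_subsingleton).mp (by omega)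
          obtain ⟨χ, hχ, hne, -, hu⟩ := exists_ne_of_sign_count
            (Set.toFinite (principalBlock M G)).toFinset (fun χ => -(a χ).re)
            (fun χ => (charDegree (χ : G → ℂ) : ℝ))
            (fun χ => ((χ : G → ℂ) t).re / (charDegree (χ : G → ℂ) : ℝ)) (trivChar G) htriv
            (fun χ _ => hd χ) hu1 (neg_ne_zero.mpr hα1)
            (by simp only [neg_mul, Finset.sum_neg_distrib, E1r, neg_zero])
            (by simp only [neg_mul, Finset.sum_neg_distrib, E2r, neg_zero])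
            (by simp only [neg_mul, Finset.sum_neg_distrib, E3r, neg_zero])
            (fun i hi j hj hi0 hj0 => congrArg Subtype.val (Subsingleton.elim
              (⟨i, (Set.Finite.mem_toFinset _).mp hi, by linarith⟩ :
                {χ : IrrCharacter G // χ ∈ principalBlock M G ∧ (a χ).re < 0})
              ⟨j, (Set.Finite.mem_toFinset _).mp hj, by linarith⟩))
          exact ⟨χ, hχ, hne, hu⟩
      obtain ⟨χ, hχS, hne, hu⟩ := hexists
      have hχB : χ ∈ principalBlock M G := (Set.Finite.mem_toFinset _).mp hχS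
      have hχt : (χ : G → ℂ) t = (χ : G → ℂ) 1 := by
        rw [htreal χ, irr_one_eq_degree]
        have h1 : ((χ : G → ℂ) t).re = (charDegree (χ : G → ℂ) : ℝ) := by
          have hd0 := (hd χ).ne'
          field_simp at hu
          linarith
        rw [h1]
        push_cast
        rfl
      haveI hNn : (pPrimeCore 2 G).Normal := Subgroup.sSup_normal _ (fun _ h => h.1)
      refine ⟨irrKer χ, inferInstance, ?_, ?_, (mem_irrKer χ t).mpr hχt⟩
      · intro htop
        have h1 : ∀ g : G, (χ : G → ℂ) g = (χ : G → ℂ) 1 := by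
          intro g
          have h2 : g ∈ irrKer χ := by rw [htop]; exact Subgroup.mem_top g
          exact (mem_irrKer χ g).mp h2
        have h3 := irr_classInner χ (trivChar G)
        rw [if_neg hne] at h3
        unfold classInner at h3
        simp only [trivChar_apply, map_one, mul_one, h1, Finset.sum_const, Finset.card_univ,
          nsmul_eq_mul] at h3
        rw [← Nat.card_eq_fintype_card, ← mul_assoc, inv_mul_cancel₀ hG0, one_mul] at h3
        exact irr_one_ne_zero χ h3
      · apply Cfsg.Agent.Helper7.le_irrKer_of_sameBlock hM (pPrimeCore 2 G)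
          ((Nat.Prime.coprime_iff_not_dvd Nat.prime_two).mp
            (Cfsg.Agent.Helper10.pPrimeCore_coprime 2 G).symm) (trivChar G) χ hχB
        intro n _
        exact (mem_irrKer _ n).mpr rfl

end Cfsg.Agent.S4722
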