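import Cfsg.Statements.S4723
import Mathlib
import Cfsg.Agent.Helper2.Fong
import Cfsg.Agent.Helper2.BlockNormP
import Cfsg.Agent.Helper2.CliffDeg
import Cfsg.Agent.Helper7.Defect
import Cfsg.Agent.Helper24.InvConst

set_option autoImplicit false
open Cfsg

namespace Cfsg.Agent.S4723

open Cfsg Cfsg.Agent.Helper25 Cfsg.Agent.Helper7 Cfsg.Agent.Helper2

/-- Let p be a prime, M a maximal ideal of the algebraic integers containing p, H a normal subgroup of the finite group G and b a p-block of H. Let T be the stabilizer of b in G. Then b contains a character θ of height zero whose own stabilizer in G (the elements g with θ(g h g⁻¹) = θ(h) for all h ∈ H) has index prime to p in T, i.e. contains a Sylow p-subgroup of T. -/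
theorem result {G : Type*} [Group G] [Finite G] (p : ℕ) [Fact p.Prime] (M : Ideal Cfsg.AlgInt) (hM : Cfsg.IsPModular p M) (H : Subgroup G) [H.Normal] (b : Set (Cfsg.IrrCharacter ↥H)) (hb : Cfsg.IsPBlock M b) (T : Subgroup G) (hT : (∀ g : G, g ∈ T ↔ ∀ θ ∈ b, ∀ θ' : Cfsg.IrrCharacter ↥H, (∀ h h' : ↥H, (h' : G) = g * h * g⁻¹ → (θ' : ↥H → ℂ) h' = (θ : ↥H → ℂ) h) → θ' ∈ b)) : ∃ θ ∈ b, Cfsg.blockHeight p b (θ : ↥H → ℂ) = 0 ∧ ∃ S : Subgroup G, S ≤ T ∧ (∀ g : G, g ∈ S ↔ (g ∈ T ∧ ∀ h h' : ↥H, (h' : G) = g * h * g⁻¹ → (θ : ↥H → ℂ) h' = (θ : ↥H → ℂ) h)) ∧ ¬ p ∣ S.relIndex T := by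
  classical
  haveI : Fintype G := Fintype.ofFinite G
  have hp : p.Prime := Fact.out
  have hHn : H.Normal := inferInstance
  have hTconj : ∀ g : G, g ∈ T → ∀ θ ∈ b, conjIrrEquiv H g θ ∈ b := by
    intro g hg θ hθ
    refine (hT g⁻¹).mp (T.inv_mem hg) θ hθ (conjIrrEquiv H g θ) ?_
    intro h h' hh'
    show Helper2.conjChar H (θ : H → ℂ) g h' = _
    rw [Helper2.conjChar_apply]
    have e : (⟨g * (h' : G) * g⁻¹, hHn.conj_mem h' h'.2 g⟩ : H) = h :=
      Subtype.ext (by show g * (h' : G) * g⁻¹ = h; rw [hh']; group)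
    rw [e]
  have hHT : H ≤ T := by
    intro h₀ hh₀
    rw [hT]
    intro θ hθ θ' hθ'
    have : θ' = θ := by
      apply Subtype.ext
      funext h'
      have h1 := hθ' ((⟨h₀, hh₀⟩ : H)⁻¹ * h' * ⟨h₀, hh₀⟩) h' (by push_cast; group)
      rw [h1]
      have h2 := irr_conj θ h' ((⟨h₀, hh₀⟩ : H)⁻¹)
      rw [inv_inv] at h2
      exact h2
    rw [this]
    exact hθ
  obtain ⟨Q⟩ : Nonempty (Sylow p T) := inferInstance
  obtain ⟨P, hPdef⟩ : ∃ P : Subgroup G, P = (Q : Subgroup T).map T.subtype := ⟨_, rfl⟩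
  have hPT : P ≤ T := by rw [hPdef]; exact Subgroup.map_subtype_le _
  have hPp : IsPGroup p P := by
    rw [hPdef]; exact Q.2.map T.subtype
  obtain ⟨L, hLdef⟩ : ∃ L : Subgroup G, L = H ⊔ P := ⟨_, rfl⟩
  have hHL : H ≤ L := by rw [hLdef]; exact le_sup_left
  have hPL : P ≤ L := by rw [hLdef]; exact le_sup_right
  have hLT : L ≤ T := by rw [hLdef]; exact sup_le hHT hPT
  haveI : Fintype L := Fintype.ofFinite L
  haveI : Fintype (H.subgroupOf L) := Fintype.ofFinite _
  haveI hN'n : (H.subgroupOf L).Normal := inferInstance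
  have hb' : IsPBlock M (transportSet (Subgroup.subgroupOfEquivOfLe hHL) b) :=
    isPBlock_transportSet _ hb
  have hst : ∀ (x : L) (ξ : IrrCharacter (H.subgroupOf L)),
      ξ ∈ transportSet (Subgroup.subgroupOfEquivOfLe hHL) b →
      conjIrrEquiv (H.subgroupOf L) x ξ ∈ transportSet (Subgroup.subgroupOfEquivOfLe hHL) b := by
    intro x ξ hξ
    rw [mem_transportSet] at hξ ⊢
    rw [conj_transport H L hHL x ξ]
    exact hTconj x (hLT x.2) _ hξ
  obtain ⟨B', hB', ⟨χ₀, hχ₀, θ₀, hθ₀, hne₀⟩, hinf⟩ :=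
    exists_cover_same_min hM (H.subgroupOf L) _ hb' hst
  obtain ⟨χ₁, hχ₁, hht⟩ := exists_height_zero hM hB'
  obtain ⟨θ₁, hθ₁⟩ := Cfsg.Agent.Helper24.exists_constituent
    (isCharacter_restrict (H.subgroupOf L) (isCharacter_of_isIrrCharacter χ₁.2))
    (by simpa using irr_one_ne_zero χ₁)
  have hθ₁b := constituent_mem_of_cover hM (H.subgroupOf L) _ hb' hst χ₀ χ₁
    (sameBlock_of_mem hM hB' hχ₀ hχ₁) θ₀ hθ₀ hne₀ θ₁ hθ₁
  obtain ⟨a, ha, hdeg⟩ := clifford_degree (H.subgroupOf L) χ₁ θ₁ hθ₁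
  obtain ⟨St, hStdef⟩ : ∃ St : Subgroup L, St = @MulAction.stabilizer L
    (IrrCharacter (H.subgroupOf L)) _ (conjActionFull (H.subgroupOf L)) θ₁ := ⟨_, rfl⟩
  rw [← hStdef] at hdeg
  have hStle : H.subgroupOf L ≤ St := by
    rw [hStdef]; exact le_stabilizer_conjActionFull _ θ₁
  -- index of St is a power of p
  have hidx : ∃ j : ℕ, St.index = p ^ j := by
    obtain ⟨n, hn⟩ := IsPGroup.iff_card.mp hPp
    have h1 : St.index ∣ (H.subgroupOf L).index := Subgroup.index_dvd_of_le hStle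
    have h2 : (H.subgroupOf L).index = H.relIndex P := by
      show H.relIndex L = _
      rw [hLdef, Subgroup.relIndex_sup_left]
    have h3 : H.relIndex P ∣ p ^ n := by
      rw [← hn]; exact Subgroup.relIndex_dvd_card H P
    rw [h2] at h1
    obtain ⟨j, -, hj⟩ := (Nat.dvd_prime_pow hp).mp (h1.trans h3)
    exact ⟨j, hj⟩
  obtain ⟨j, hj⟩ := hidx
  have hd1 : 0 < charDegree (θ₁ : H.subgroupOf L → ℂ) := irr_degree_pos θ₁
  have hfac : (charDegree (χ₁ : L → ℂ)).factorization p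
      = a.factorization p + (j + (charDegree (θ₁ : H.subgroupOf L → ℂ)).factorization p) := by
    rw [hdeg, hj, Nat.factorization_mul ha.ne' (Nat.mul_ne_zero (pow_ne_zero _ hp.pos.ne') hd1.ne'),
      Nat.factorization_mul (pow_ne_zero _ hp.pos.ne') hd1.ne', Nat.factorization_pow]
    simp [hp.factorization_self]
  have hle1 : (charDegree (χ₁ : L → ℂ)).factorization p
      ≤ sInf ((fun χ : IrrCharacter L => (charDegree (χ : L → ℂ)).factorization p) '' B') := by
    unfold blockHeight at hht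
    exact Nat.sub_eq_zero_iff_le.mp hht
  have hle2 : sInf ((fun θ : IrrCharacter (H.subgroupOf L) =>
      (charDegree (θ : H.subgroupOf L → ℂ)).factorization p) ''
        transportSet (Subgroup.subgroupOfEquivOfLe hHL) b)
      ≤ (charDegree (θ₁ : H.subgroupOf L → ℂ)).factorization p :=
    Nat.sInf_le ⟨θ₁, hθ₁b, rfl⟩
  rw [hinf] at hle1
  have hj0 : j = 0 := by omega
  have hht1 : blockHeight p (transportSet (Subgroup.subgroupOfEquivOfLe hHL) b)
      (θ₁ : H.subgroupOf L → ℂ) = 0 := by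
    unfold blockHeight
    apply Nat.sub_eq_zero_iff_le.mpr
    omega
  have hSttop : St = ⊤ := by
    rw [← Subgroup.index_eq_one, hj, hj0, pow_zero]
  -- θ₁ is L-invariant
  have hinv : ∀ x : L, conjIrrEquiv (H.subgroupOf L) x θ₁ = θ₁ := by
    intro x
    have hx : x ∈ St := by rw [hSttop]; exact Subgroup.mem_top x
    rw [hStdef, mem_stabilizer_conjActionFull] at hx
    exact Subtype.ext hx
  refine ⟨irrEquiv (Subgroup.subgroupOfEquivOfLe hHL).symm θ₁, (mem_transportSet _ _ _).mp hθ₁b, ?_, ?_⟩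
  · rw [← blockHeight_irrEquiv (Subgroup.subgroupOfEquivOfLe hHL) b, irrEquiv_irrEquiv_symm]
    exact hht1
  · obtain ⟨θ, hθdef⟩ : ∃ θ : IrrCharacter H,
      θ = irrEquiv (Subgroup.subgroupOfEquivOfLe hHL).symm θ₁ := ⟨_, rfl⟩
    rw [← hθdef]
    have hinvH : ∀ x : G, x ∈ L → Helper2.conjChar H (θ : H → ℂ) x = (θ : H → ℂ) := by
      intro x hx
      have h1 := conj_transport H L hHL ⟨x, hx⟩ θ₁
      rw [hinv, ← hθdef] at h1
      exact (congrArg Subtype.val h1).symm
    have hmemS : ∀ g : G, g ∈ @MulAction.stabilizer G (IrrCharacter H) _ (conjActionFull H) θ ↔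
        ∀ h h' : H, (h' : G) = g * h * g⁻¹ → (θ : H → ℂ) h' = (θ : H → ℂ) h := by
      intro g
      rw [← inv_mem_iff, mem_stabilizer_conjActionFull]
      constructor
      · intro hg h h' hh'
        have h1 := congrFun hg h'
        rw [Helper2.conjChar_apply] at h1
        have e : (⟨g⁻¹ * (h' : G) * g⁻¹⁻¹, hHn.conj_mem h' h'.2 g⁻¹⟩ : H) = h :=
          Subtype.ext (by show g⁻¹ * (h' : G) * g⁻¹⁻¹ = h; rw [hh']; group)
        rw [e] at h1
        exact h1.symm
      · intro hg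
        funext h'
        rw [Helper2.conjChar_apply]
        exact (hg ⟨g⁻¹ * (h' : G) * g⁻¹⁻¹, hHn.conj_mem h' h'.2 g⁻¹⟩ h' (by
          show (h' : G) = g * (g⁻¹ * (h' : G) * g⁻¹⁻¹) * g⁻¹; group)).symm
    refine ⟨T ⊓ @MulAction.stabilizer G (IrrCharacter H) _ (conjActionFull H) θ, inf_le_left, ?_, ?_⟩
    · intro g
      rw [Subgroup.mem_inf, hmemS]
    · have hPS : P ≤ T ⊓ @MulAction.stabilizer G (IrrCharacter H) _ (conjActionFull H) θ := by
        intro q hq
        refine Subgroup.mem_inf.mpr ⟨hPT hq, ?_⟩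
        rw [mem_stabilizer_conjActionFull]
        exact hinvH q (hPL hq)
      have hQle : (Q : Subgroup T) ≤
          (T ⊓ @MulAction.stabilizer G (IrrCharacter H) _ (conjActionFull H) θ).subgroupOf T := by
        intro x hx
        rw [Subgroup.mem_subgroupOf]
        apply hPS
        rw [hPdef]
        exact Subgroup.mem_map_of_mem T.subtype hx
      intro hdvd
      exact Q.not_dvd_index (hdvd.trans (Subgroup.index_dvd_of_le hQle))

end Cfsg.Agent.S4723
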