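import Cfsg.Statements.S4725
import Mathlib
import Cfsg.Agent.Helper2.BlockStable

set_option autoImplicit false
open Cfsg

namespace Cfsg.Agent.S4725

open Cfsg Cfsg.Agent.Helper2 Cfsg.Agent.Helper25 Cfsg.Agent.Helper7

/-- If `S / m ≡ 1` modulo the local ideal, then `p ^ (ν_p(m) + 1)` does not divide `S`. -/
theorem not_pow_succ_dvd {p : ℕ} {M : Ideal Cfsg.AlgInt} (hM : Cfsg.IsPModular p M) (S m : ℕ)
    (hm : m ≠ 0) (h : Cfsg.MemLocalIdeal M ((S : ℂ) / (m : ℂ) - 1)) :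
    ¬ p ^ (m.factorization p + 1) ∣ S := by
  have hp := hM.1
  intro hdvd
  obtain ⟨s', hs'⟩ := hdvd
  have hm' : ¬ p ∣ m / p ^ m.factorization p := Nat.not_dvd_ordCompl hp hm
  have hmm : p ^ m.factorization p * (m / p ^ m.factorization p) = m :=
    Nat.ordProj_mul_ordCompl_eq_self m p
  have hm0 : ((m / p ^ m.factorization p : ℕ) : ℂ) ≠ 0 := by
    apply Nat.cast_ne_zero.mpr
    intro h0
    rw [h0, mul_zero] at hmm
    exact hm hmm.symm
  have hp0 : (p : ℂ) ≠ 0 := Nat.cast_ne_zero.mpr hp.pos.ne'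
  have e1 : (S : ℂ) / (m : ℂ) = (p : ℂ) * ((s' : ℂ) * ((m / p ^ m.factorization p : ℕ) : ℂ)⁻¹) := by
    have e2 : (m : ℂ) = (p : ℂ) ^ m.factorization p * ((m / p ^ m.factorization p : ℕ) : ℂ) := by
      rw [← Nat.cast_pow, ← Nat.cast_mul, hmm]
    rw [e2, hs']
    push_cast
    field_simp
    ring
  have h1 : Cfsg.MemLocalIdeal M ((S : ℂ) / (m : ℂ)) := by
    rw [e1]
    exact li_mul_lr hM (li_prime hM) (lr_mul hM (lr_natCast hM s') (lr_natCast_inv hM hm'))
  apply not_li_one hM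
  have h2 := li_sub hM h1 h
  rwa [sub_sub_cancel] at h2

/-- Let p be a prime, M a maximal ideal of the algebraic integers containing p, H a subgroup of the finite group G, and b a p-block of H inducing the p-block B of G, with b and B of the same defect. Then for every height-zero ζ ∈ b there is a height-zero χ ∈ B whose multiplicity in the character induced from ζ is not divisible by p. -/
theorem result {G : Type*} [Group G] [Fintype G] (p : ℕ) [Fact p.Prime] (M : Ideal Cfsg.AlgInt) (hM : Cfsg.IsPModular p M) (H : Subgroup G) (b : Set (Cfsg.IrrCharacter ↥H)) (B : Set (Cfsg.IrrCharacter G)) (hind : Cfsg.IsInducedBlock M H b B) (hdef : Cfsg.blockDefect p b = Cfsg.blockDefect p B) (ζ : Cfsg.IrrCharacter ↥H) (hζ : ζ ∈ b) (hζ0 : Cfsg.blockHeight p b (ζ : ↥H → ℂ) = 0) : ∃ χ ∈ B, Cfsg.blockHeight p B (χ : G → ℂ) = 0 ∧ ∃ a : ℕ, Cfsg.classInner (Cfsg.indFun H (ζ : ↥H → ℂ)) (χ : G → ℂ) = (a : ℂ) ∧ ¬ p ∣ a := by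
  classical
  haveI : Fintype H := Fintype.ofFinite H
  obtain ⟨hb, hB, hcong⟩ := hind
  have hp := hM.1
  obtain ⟨ψ, hψ⟩ : ∃ ψ : G → ℂ, ψ = Cfsg.indFun H (ζ : H → ℂ) := ⟨_, rfl⟩
  rw [← hψ]
  have hψchar : Cfsg.IsCharacter G ψ := by
    rw [hψ]; exact isCharacter_indFun H (isCharacter_of_isIrrCharacter ζ.2)
  have hψcl : Cfsg.IsClassFunction G ψ := isClassFunction_of_isCharacter hψchar
  have hnat : ∀ χ : Cfsg.IrrCharacter G, ∃ m : ℕ, Cfsg.classInner ψ (χ : G → ℂ) = (m : ℂ) :=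
    fun χ => classInner_char_nat hψchar (isCharacter_of_isIrrCharacter χ.2)
  choose n hn using hnat
  -- the degree of ψ
  have hHne : (Nat.card H : ℂ) ≠ 0 := Nat.cast_ne_zero.mpr Nat.card_pos.ne'
  have hψ1 : ψ 1 = ((H.index * Cfsg.charDegree (ζ : H → ℂ) : ℕ) : ℂ) := by
    rw [hψ, indFun_one, irr_one_eq_degree, ← H.card_mul_index]
    push_cast
    field_simp
  have hm0 : H.index * Cfsg.charDegree (ζ : H → ℂ) ≠ 0 :=
    Nat.mul_ne_zero Subgroup.index_ne_zero_of_finite (irr_degree_pos ζ).ne'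
  have hψ1ne : ψ 1 ≠ 0 := by rw [hψ1]; exact Nat.cast_ne_zero.mpr hm0
  -- the sum S
  obtain ⟨S, hS⟩ : ∃ S : ℕ, S = ∑ χ : Cfsg.IrrCharacter G,
      if χ ∈ B then n χ * Cfsg.charDegree (χ : G → ℂ) else 0 := ⟨_, rfl⟩
  have hsum1 : ∑ g : G, Cfsg.blockCoeff B g * ψ g = (S : ℂ) := by
    have hdec := classFun_eq_sum_classInner hψcl
    have h1 : ∀ g : G, Cfsg.blockCoeff B g * ψ g
        = ∑ χ : Cfsg.IrrCharacter G, (n χ : ℂ) * (Cfsg.blockCoeff B g * (χ : G → ℂ) g) := by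
      intro g
      conv_lhs => rw [hdec]
      rw [Finset.sum_apply, Finset.mul_sum]
      apply Finset.sum_congr rfl
      intro χ _
      rw [Pi.smul_apply, smul_eq_mul, hn χ]
      ring
    rw [Finset.sum_congr rfl (fun g _ => h1 g), Finset.sum_comm, hS]
    push_cast
    apply Finset.sum_congr rfl
    intro χ _
    rw [← Finset.mul_sum, sum_blockCoeff_mul]
    split_ifs
    · rw [irr_one_eq_degree]
    · simp
  -- the congruence
  obtain ⟨χ₀, hχ₀⟩ : ∃ χ₀ : Cfsg.IrrCharacter G, χ₀ ∈ B := by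
    obtain ⟨χ₀, rfl⟩ := hB
    exact ⟨χ₀, self_mem_blockOf hM χ₀⟩
  have hχ₀1 := irr_one_ne_zero χ₀
  have hone : ∑ g : G, Cfsg.blockCoeff B g * ((χ₀ : G → ℂ) g / (χ₀ : G → ℂ) 1) = 1 := by
    have h1 := sum_blockCoeff_mul B χ₀
    rw [if_pos hχ₀] at h1
    have h2 : ∀ g : G, Cfsg.blockCoeff B g * ((χ₀ : G → ℂ) g / (χ₀ : G → ℂ) 1)
        = Cfsg.blockCoeff B g * (χ₀ : G → ℂ) g / (χ₀ : G → ℂ) 1 := fun g => by ring
    rw [Finset.sum_congr rfl (fun g _ => h2 g), ← Finset.sum_div, h1, div_self hχ₀1]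
  have hli : Cfsg.MemLocalIdeal M ((S : ℂ) / ((H.index * Cfsg.charDegree (ζ : H → ℂ) : ℕ) : ℂ) - 1) := by
    rw [← hψ1, ← hsum1, ← hone, Finset.sum_div, ← Finset.sum_sub_distrib]
    apply Helper25.li_sum_classFun hM
    · intro g x
      rw [blockCoeff_conj, hψcl g x, irr_conj]
    · intro g
      have e : ((Subgroup.centralizer ({g} : Set G)).index : ℂ) *
          (Cfsg.blockCoeff B g * ψ g / ψ 1 -
            Cfsg.blockCoeff B g * ((χ₀ : G → ℂ) g / (χ₀ : G → ℂ) 1))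
          = Cfsg.blockCoeff B g *
            (Cfsg.centralChar ψ g - Cfsg.centralChar (χ₀ : G → ℂ) g) := by
        unfold Cfsg.centralChar
        ring
      rw [e]
      apply lr_mul_li hM (blockCoeff_lr hM hB g)
      rw [hψ, centralChar_indFun H _ (irr_one_ne_zero ζ)]
      exact hcong ζ hζ χ₀ hχ₀ g
  have hnd := not_pow_succ_dvd hM S _ hm0 hli
  -- bookkeeping of defects
  obtain ⟨mB, hmB⟩ : ∃ mB : ℕ, mB = sInf ((fun χ : Cfsg.IrrCharacter G =>
      (Cfsg.charDegree (χ : G → ℂ)).factorization p) '' B) := ⟨_, rfl⟩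
  obtain ⟨mb, hmb⟩ : ∃ mb : ℕ, mb = sInf ((fun χ : Cfsg.IrrCharacter H =>
      (Cfsg.charDegree (χ : H → ℂ)).factorization p) '' b) := ⟨_, rfl⟩
  have hfacle : ∀ {K : Type _} [Group K] [Finite K] (χ : Cfsg.IrrCharacter K),
      (Cfsg.charDegree (χ : K → ℂ)).factorization p ≤ (Nat.card K).factorization p := by
    intro K _ _ χ
    exact (Nat.factorization_le_iff_dvd (irr_degree_pos χ).ne' Nat.card_pos.ne').mpr
      (irr_degree_dvd_card χ) p
  have hB_le : ∀ χ ∈ B, mB ≤ (Cfsg.charDegree (χ : G → ℂ)).factorization p := by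
    intro χ hχ
    rw [hmB]
    exact Nat.sInf_le ⟨χ, hχ, rfl⟩
  have hb_le : mb ≤ (Cfsg.charDegree (ζ : H → ℂ)).factorization p := by
    rw [hmb]
    exact Nat.sInf_le ⟨ζ, hζ, rfl⟩
  have hζeq : (Cfsg.charDegree (ζ : H → ℂ)).factorization p = mb := by
    unfold Cfsg.blockHeight at hζ0
    rw [← hmb] at hζ0
    omega
  have hdef' : (Nat.card H).factorization p - mb = (Nat.card G).factorization p - mB := by
    unfold Cfsg.blockDefect at hdef
    rw [← hmb, ← hmB] at hdef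
    exact hdef
  have h1 := hfacle ζ
  have h2 := hfacle χ₀
  have h3 := hB_le χ₀ hχ₀
  have hcard : (Nat.card G).factorization p
      = (Nat.card H).factorization p + H.index.factorization p := by
    rw [← H.card_mul_index, Nat.factorization_mul Nat.card_pos.ne' Subgroup.index_ne_zero_of_finite]
    rfl
  have he : (H.index * Cfsg.charDegree (ζ : H → ℂ)).factorization p = mB := by
    rw [Nat.factorization_mul Subgroup.index_ne_zero_of_finite (irr_degree_pos ζ).ne']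
    show H.index.factorization p + (Cfsg.charDegree (ζ : H → ℂ)).factorization p = mB
    omega
  rw [he] at hnd
  by_contra hcon
  apply hnd
  rw [hS]
  apply Finset.dvd_sum
  intro χ _
  split_ifs with hχ
  · have hd0 := (irr_degree_pos χ).ne'
    by_cases hh : (Cfsg.charDegree (χ : G → ℂ)).factorization p ≤ mB
    · have hheight : Cfsg.blockHeight p B (χ : G → ℂ) = 0 := by
        unfold Cfsg.blockHeight
        rw [← hmB]
        omega
      have hpn : p ∣ n χ := by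
        by_contra hpn
        exact hcon ⟨χ, hχ, hheight, n χ, hn χ, hpn⟩
      have hpd : p ^ mB ∣ Cfsg.charDegree (χ : G → ℂ) :=
        (hp.pow_dvd_iff_le_factorization hd0).mpr (hB_le χ hχ)
      rw [pow_succ, mul_comm (p ^ mB) p]
      exact mul_dvd_mul hpn hpd
    · have hpd : p ^ (mB + 1) ∣ Cfsg.charDegree (χ : G → ℂ) :=
        (hp.pow_dvd_iff_le_factorization hd0).mpr (by omega)
      exact Dvd.dvd.mul_left hpd _
  · exact dvd_zero _

end Cfsg.Agent.S4725
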