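import Cfsg.Statements.S4726
import Cfsg.Agent.Helper25.IndDefect

set_option autoImplicit false
open Cfsg

namespace Cfsg.Agent.S4726

open Cfsg.Agent.Helper25
open scoped Pointwise

/-- Let p be a prime, M a maximal ideal of the algebraic integers containing p, H a subgroup of the finite group G and b a p-block of H with defect group D₀ such that C_G(D₀) ≤ H. Then b induces a block of G, and for every block B of G induced by b there is a defect group D of B with Z(D) ≤ Z(D₀) ≤ D₀ ≤ D (as subgroups of G). In particular, if the defect groups of B are abelian then D₀ is a defect group of B. -/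
theorem result {G : Type*} [Group G] [Finite G] (p : ℕ) [Fact p.Prime] (M : Ideal Cfsg.AlgInt) (hM : Cfsg.IsPModular p M) (H : Subgroup G) (b : Set (Cfsg.IrrCharacter ↥H)) (hb : Cfsg.IsPBlock M b) (D₀ : Subgroup ↥H) (hD₀ : Cfsg.IsDefectGroup p M b D₀) (hC : Subgroup.centralizer ((D₀.map H.subtype : Subgroup G) : Set G) ≤ H) : Cfsg.InducedBlockDefined M H b ∧ ∀ B : Set (Cfsg.IrrCharacter G), Cfsg.IsInducedBlock M H b B → (∃ D : Subgroup G, Cfsg.IsDefectGroup p M B D ∧ (Subgroup.center ↥D).map D.subtype ≤ ((Subgroup.center ↥D₀).map D₀.subtype).map H.subtype ∧ ((Subgroup.center ↥D₀).map D₀.subtype).map H.subtype ≤ D₀.map H.subtype ∧ D₀.map H.subtype ≤ D) ∧ (∀ D : Subgroup G, Cfsg.IsDefectGroup p M B D → IsMulCommutative ↥D → Cfsg.IsDefectGroup p M B (D₀.map H.subtype)) := by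
  classical
  have hQH : D₀.map H.subtype ≤ H := Subgroup.map_subtype_le D₀
  have hsub : (D₀.map H.subtype).subgroupOf H = D₀ :=
    Subgroup.comap_map_eq_self_of_injective (Subgroup.subtype_injective H) D₀
  have hD₀' : IsDefectGroup p M b ((D₀.map H.subtype).subgroupOf H) := by
    rw [hsub]; exact hD₀
  obtain ⟨h1, h2⟩ := induced_defect_main hM H hb (D₀.map H.subtype) hQH hC hD₀'
  refine ⟨h1, fun B hind => ?_⟩
  obtain ⟨⟨D, hD, hQD, hcen⟩, hab⟩ := h2 B hind
  refine ⟨⟨D, hD, ?_, Subgroup.map_mono (Subgroup.map_subtype_le _), hQD⟩, fun D' hD' hcomm => ?_⟩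
  · rintro x ⟨z, hz, rfl⟩
    have hzc : ∀ y ∈ D, y * (z : G) = (z : G) * y := by
      intro y hy
      have := Subgroup.mem_center_iff.mp hz ⟨y, hy⟩
      exact congrArg Subtype.val this
    have hzQ : (z : G) ∈ D₀.map H.subtype := hcen (z : G) z.2 hzc
    obtain ⟨d, hd, hdz⟩ := hzQ
    refine ⟨d, ⟨⟨d, hd⟩, ?_, rfl⟩, hdz⟩
    rw [SetLike.mem_coe, Subgroup.mem_center_iff]
    intro y
    apply Subtype.ext
    apply Subtype.ext
    have hy : ((y : H) : G) ∈ D := hQD ⟨(y : H), y.2, rfl⟩
    have h3 := hzc _ hy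
    have hdz' : ((d : H) : G) = (z : G) := hdz
    rw [← hdz'] at h3
    exact h3
  · apply hab D' hD'
    intro x hx y hy
    have h3 := hcomm.is_comm.comm (⟨x, hx⟩ : D') ⟨y, hy⟩
    exact congrArg Subtype.val h3

end Cfsg.Agent.S4726
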