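import Cfsg.Statements.S4734
import Cfsg.Agent.Helper25.BlockPairs26

set_option autoImplicit false
open Cfsg

namespace Cfsg.Agent.S4734

open Cfsg.Agent.Helper25
open scoped Pointwise

/-- Let p be a prime, π a set of primes containing p, M a maximal ideal of the algebraic integers containing p, B a p-block of the finite group G with defect group D, and B₁ the block of N_G(D) with defect group D inducing B. Write O_π'(X) for the largest normal subgroup of X whose order has no prime divisor in π, and suppose every element of O_π'(N_G(D)) lies in the kernel of every member of B₁. Let G₀ be a subgroup and B₀ a block of G₀ with defect group D₀ such that C_G(D₀) ≤ G₀ and B₀ induces B. Then every element of O_π'(G₀) lies in the kernel of every member of B₀. -/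
theorem result {G : Type*} [Group G] [Finite G] (p : ℕ) [Fact p.Prime] (M : Ideal Cfsg.AlgInt) (hM : Cfsg.IsPModular p M) (π : Set ℕ) (hpπ : p ∈ π) (B : Set (Cfsg.IrrCharacter G)) (hB : Cfsg.IsPBlock M B) (D : Subgroup G) (hBD : Cfsg.IsDefectGroup p M B D) (B₁ : Set (Cfsg.IrrCharacter ↥(Subgroup.normalizer (D : Set G)))) (hB₁ : Cfsg.IsInducedBlock M (Subgroup.normalizer (D : Set G)) B₁ B) (hB₁D : Cfsg.IsDefectGroup p M B₁ (D.subgroupOf (Subgroup.normalizer (D : Set G)))) (hker : ∀ n : ↥(Subgroup.normalizer (D : Set G)), n ∈ Cfsg.piCore {q | q ∉ π} ↥(Subgroup.normalizer (D : Set G)) → n ∈ Cfsg.blockKer B₁) (G₀ : Subgroup G) (B₀ : Set (Cfsg.IrrCharacter ↥G₀)) (hB₀ : Cfsg.IsInducedBlock M G₀ B₀ B) (D₀ : Subgroup ↥G₀) (hD₀ : Cfsg.IsDefectGroup p M B₀ D₀) (hC : Subgroup.centralizer ((D₀.map G₀.subtype : Subgroup G) : Set G) ≤ G₀) : ∀ x : ↥G₀, x ∈ Cfsg.piCore {q | q ∉ π} ↥G₀ → x ∈ Cfsg.blockKer B₀ := by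
  classical
  intro x hx
  obtain ⟨e, hmax, hpairN⟩ := exists_maximal_of_correspondent hM hB hBD hB₁ hB₁D
  have hN : Subgroup.normalizer (D : Set G)
      ≤ Subgroup.normalizer ((Subgroup.centralizer (D : Set G) : Subgroup G) : Set G) :=
    normalizer_le_normalizer_centralizer D
  have hPK : PiKer π (⟨D, e⟩ : BrauerPairIdx G) :=
    piKer_of_ker_sub hM hpπ (Subgroup.normalizer (D : Set G)) D Subgroup.le_normalizer
      (Subgroup.centralizer_le_normalizer _) hN hpairN (fun k hk θ hθ =>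
        hker _ (mem_piCore_of_normal {q | q ∉ π} (Subgroup.centralizer (D : Set G))
          (Subgroup.normalizer (D : Set G)) (Subgroup.centralizer_le_normalizer _) hN k hk)
          θ hθ)
  obtain ⟨e₀, he₀⟩ := exists_isBrauerPairOf_of_isDefectGroup hM hB₀.1 hD₀
  obtain ⟨a, h1, h2, hz⟩ := exists_eq_subIdx G₀ (⟨D₀, e₀⟩ : BrauerPairIdx G₀) hC
  have hp : IsBrauerPairOf p M B₀ (⟨D₀, e₀⟩ : BrauerPairIdx G₀).1
      (⟨D₀, e₀⟩ : BrauerPairIdx G₀).2 := he₀
  rw [hz] at hp
  obtain ⟨Q, β⟩ := a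
  have hp' : IsBrauerPairOf p M B₀ (Q.subgroupOf G₀) (subBlock G₀ Q h1 h2 β) := hp
  have hQβ := isBrauerPairOf_of_sub hM G₀ hB₀ Q h1 h2 hp'
  haveI := Fintype.ofFinite G
  obtain ⟨y, hy⟩ := exists_conj_subpairLE hM hmax hQβ
  have h3 : PiKer π (conjIdx y (⟨Q, β⟩ : BrauerPairIdx G)) := piKer_of_subpairLE hM hpπ hy hPK
  have h4 := piKer_conjIdx y⁻¹ h3
  rw [conjIdx_inv_conjIdx] at h4
  exact ker_of_piKer_sub hM hpπ G₀ Q h1 h2 hp' h4 x hx

end Cfsg.Agent.S4734
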