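import Cfsg.Statements.S4727
import Cfsg.Agent.Helper25.BlockPairs26
import Cfsg.Agent.Helper2.ExtFirstMain
import Cfsg.Agent.Helper28.Basic
import Cfsg.Agent.S4734
import Cfsg.Agent.S0912

set_option autoImplicit false
open Cfsg

namespace Cfsg.Agent.S4727

open Cfsg.Agent.Helper25
open scoped Pointwise

/-- Let p be a prime, π a set of primes containing p, M a maximal ideal of the algebraic integers containing p, and B a p-block of the finite group G with defect group D; let B₁ be the block of N_G(D) with defect group D that induces B (the Brauer correspondent of B). Suppose every element of O_π'(N_G(D)), the largest normal subgroup of N_G(D) whose order has no prime divisor in π, lies in the kernel of every member of B₁. If y is a p-element whose centralizer C has a normal Hall π'-subgroup (every element of C whose order has no prime divisor in π lies in O_π'(C)), then χ(y x) = χ(y) for every χ ∈ B and every x ∈ C whose order has no prime divisor in π. -/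
theorem result {G : Type*} [Group G] [Finite G] (p : ℕ) [Fact p.Prime] (M : Ideal Cfsg.AlgInt) (hM : Cfsg.IsPModular p M) (π : Set ℕ) (hpπ : p ∈ π) (B : Set (Cfsg.IrrCharacter G)) (hB : Cfsg.IsPBlock M B) (D : Subgroup G) (hBD : Cfsg.IsDefectGroup p M B D) (B₁ : Set (Cfsg.IrrCharacter ↥(Subgroup.normalizer (D : Set G)))) (hB₁ : Cfsg.IsInducedBlock M (Subgroup.normalizer (D : Set G)) B₁ B) (hB₁D : Cfsg.IsDefectGroup p M B₁ (D.subgroupOf (Subgroup.normalizer (D : Set G)))) (hker : ∀ n : ↥(Subgroup.normalizer (D : Set G)), n ∈ Cfsg.piCore {q | q ∉ π} ↥(Subgroup.normalizer (D : Set G)) → n ∈ Cfsg.blockKer B₁) (y : G) (hy : ∃ k : ℕ, orderOf y = p ^ k) (hC : ∀ x : ↥(Subgroup.centralizer ({y} : Set G)), (∀ q : ℕ, q.Prime → q ∣ orderOf x → q ∉ π) → x ∈ Cfsg.piCore {q | q ∉ π} ↥(Subgroup.centralizer ({y} : Set G))) : ∀ χ ∈ B, ∀ x : G, x ∈ Subgroup.centralizer ({y} : Set G) → (∀ q : ℕ, q.Prime → q ∣ orderOf x → q ∉ π) → (χ : G → ℂ) (y * x) = (χ : G → ℂ) y := by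
  classical
  intro χ hχ x hx hxπ
  obtain ⟨k, hk⟩ := hy
  have hp := hM.1
  let _ : Fintype (Subgroup.centralizer ({y} : Set G)) := Fintype.ofFinite _
  have hcomm : ∀ c : Subgroup.centralizer ({y} : Set G), y * (c : G) = (c : G) * y :=
    fun c => Subgroup.mem_centralizer_iff.mp c.2 y (Set.mem_singleton y)
  have hyC : y ∈ Subgroup.centralizer ({y} : Set G) :=
    Subgroup.mem_centralizer_iff.mpr (fun z hz => by rw [Set.mem_singleton_iff.mp hz])
  obtain ⟨ϑ, hϑdef⟩ : ∃ ϑ : Subgroup.centralizer ({y} : Set G) → ℂ,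
      ϑ = fun c : Subgroup.centralizer ({y} : Set G) => (χ : G → ℂ) (y * (c : G)) :=
    ⟨_, rfl⟩
  have hϑc : ∀ g t : Subgroup.centralizer ({y} : Set G), ϑ (t * g * t⁻¹) = ϑ g := by
    intro g t
    rw [hϑdef]
    show (χ : G → ℂ) (y * ((t : G) * (g : G) * (t : G)⁻¹)) = (χ : G → ℂ) (y * (g : G))
    have e : y * ((t : G) * (g : G) * (t : G)⁻¹) = (t : G) * (y * (g : G)) * (t : G)⁻¹ := by
      rw [← mul_assoc, ← mul_assoc, hcomm t]
      group
    rw [e, irr_conj]
  have hdec : ∀ c : Subgroup.centralizer ({y} : Set G),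
      ϑ c = ∑ b ∈ allBlocks M (Subgroup.centralizer ({y} : Set G)), blockPart b ϑ c := by
    intro c
    have h1 : ∀ b ∈ allBlocks M (Subgroup.centralizer ({y} : Set G)),
        blockPart b ϑ c = ∑ k' : Subgroup.centralizer ({y} : Set G),
          blockCoeff b k' * ϑ (k' * c) := by
      intro b _
      rw [Cfsg.Agent.Helper7.blockPart_eq_sum_blockCoeff b ϑ hϑc c, finsum_eq_sum_of_fintype]
    rw [Finset.sum_congr rfl h1, Finset.sum_comm]
    have h2 : ∀ k' : Subgroup.centralizer ({y} : Set G),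
        ∑ b ∈ allBlocks M (Subgroup.centralizer ({y} : Set G)), blockCoeff b k' * ϑ (k' * c)
          = if k' = 1 then ϑ c else 0 := by
      intro k'
      rw [← Finset.sum_mul, sum_allBlocks_blockCoeff hM k']
      by_cases h : k' = 1
      · rw [if_pos h, if_pos h, h, one_mul, one_mul]
      · rw [if_neg h, if_neg h, zero_mul]
    rw [Finset.sum_congr rfl (fun k' _ => h2 k')]
    simp
  have hx'π : ∀ q : ℕ, q.Prime →
      q ∣ orderOf (⟨x, hx⟩ : Subgroup.centralizer ({y} : Set G)) → q ∉ π := by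
    intro q hq hdvd
    rw [Subgroup.orderOf_mk] at hdvd
    exact hxπ q hq hdvd
  have hx'K := hC ⟨x, hx⟩ hx'π
  have hx'reg : ¬ p ∣ orderOf (⟨x, hx⟩ : Subgroup.centralizer ({y} : Set G)) :=
    fun h => hx'π p hp h hpπ
  have h1reg : ¬ p ∣ orderOf (1 : Subgroup.centralizer ({y} : Set G)) := by
    rw [orderOf_one]
    exact fun h => hp.one_lt.ne' (Nat.dvd_one.mp h)
  have hblock : ∀ b ∈ allBlocks M (Subgroup.centralizer ({y} : Set G)),
      blockPart b ϑ ⟨x, hx⟩ = blockPart b ϑ 1 := by
    intro b hb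
    have hbB := mem_allBlocks.mp hb
    by_cases hind : IsInducedBlock M (Subgroup.centralizer ({y} : Set G)) b B
    · obtain ⟨D₀, hD₀⟩ := Cfsg.Agent.Helper2.exists_isDefectGroup hM hbB
      have hyD₀ : (⟨y, hyC⟩ : Subgroup.centralizer ({y} : Set G)) ∈ D₀ := by
        have hle := Cfsg.Agent.S0912.result p M hM b hbB D₀ hD₀
        apply hle
        have hZn : (Subgroup.zpowers
            (⟨y, hyC⟩ : Subgroup.centralizer ({y} : Set G))).Normal := by
          constructor
          intro z hz t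
          obtain ⟨n, rfl⟩ := Subgroup.mem_zpowers_iff.mp hz
          have hc : Commute t (⟨y, hyC⟩ : Subgroup.centralizer ({y} : Set G)) :=
            Subtype.ext (hcomm t).symm
          have e : t * (⟨y, hyC⟩ : Subgroup.centralizer ({y} : Set G)) ^ n * t⁻¹
              = (⟨y, hyC⟩ : Subgroup.centralizer ({y} : Set G)) ^ n := by
            rw [(hc.zpow_right n).eq, mul_inv_cancel_right]
          rw [e]
          exact Subgroup.mem_zpowers_iff.mpr ⟨n, rfl⟩
        have hZp : IsPGroup p (Subgroup.zpowers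
            (⟨y, hyC⟩ : Subgroup.centralizer ({y} : Set G))) :=
          IsPGroup.of_card (by rw [Nat.card_zpowers, Subgroup.orderOf_mk, hk])
        exact Cfsg.Agent.Helper28.le_pCore hZn hZp (Subgroup.mem_zpowers _)
      have hcent : Subgroup.centralizer
          ((D₀.map (Subgroup.centralizer ({y} : Set G)).subtype : Subgroup G) : Set G)
          ≤ Subgroup.centralizer ({y} : Set G) := by
        apply Subgroup.centralizer_le
        intro z hz
        rw [Set.mem_singleton_iff.mp hz]
        exact ⟨⟨y, hyC⟩, hyD₀, rfl⟩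
      have hker₀ := Cfsg.Agent.S4734.result p M hM π hpπ B hB D hBD B₁ hB₁ hB₁D hker
        (Subgroup.centralizer ({y} : Set G)) b hind D₀ hD₀ hcent ⟨x, hx⟩ hx'K
      unfold blockPart
      apply finsum_mem_congr rfl
      intro θ hθ
      rw [hker₀ θ hθ]
    · rw [hϑdef, Cfsg.Agent.Helper7.blockPart_section_eq_zero hM y k hk hB hχ hbB hind
        ⟨x, hx⟩ hx'reg,
        Cfsg.Agent.Helper7.blockPart_section_eq_zero hM y k hk hB hχ hbB hind 1 h1reg]
  have h3 := hdec ⟨x, hx⟩
  rw [Finset.sum_congr rfl hblock, ← hdec 1, hϑdef] at h3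
  simpa using h3

end Cfsg.Agent.S4727
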