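import Cfsg.Statements.S4728
import Cfsg.Agent.Helper25.BlockPairs26

set_option autoImplicit false
open Cfsg

namespace Cfsg.Agent.S4728

open Cfsg.Agent.Helper25
open scoped Pointwise

/-- Let p be a prime, π a set of primes containing p, M a maximal ideal of the algebraic integers containing p, B a p-block of the finite group G with defect group D, and B₁ the block of N_G(D) with defect group D inducing B. Let D₀ be a p-subgroup, H₀ = D₀·C_G(D₀), and b a block of H₀ inducing B. Write O_π'(X) for the largest normal subgroup of X whose order has no prime divisor in π. Suppose that O_π'(C_G(D₀)) is a normal Hall π'-subgroup of C_G(D₀) (it contains every element of C_G(D₀) whose order has no prime divisor in π) and that every element of it lies in the kernel of every member of b. Then every element of O_π'(N_G(D)) lies in the kernel of every member of B₁. -/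
theorem result {G : Type*} [Group G] [Finite G] (p : ℕ) [Fact p.Prime] (M : Ideal Cfsg.AlgInt) (hM : Cfsg.IsPModular p M) (π : Set ℕ) (hpπ : p ∈ π) (B : Set (Cfsg.IrrCharacter G)) (hB : Cfsg.IsPBlock M B) (D : Subgroup G) (hBD : Cfsg.IsDefectGroup p M B D) (B₁ : Set (Cfsg.IrrCharacter ↥(Subgroup.normalizer (D : Set G)))) (hB₁ : Cfsg.IsInducedBlock M (Subgroup.normalizer (D : Set G)) B₁ B) (hB₁D : Cfsg.IsDefectGroup p M B₁ (D.subgroupOf (Subgroup.normalizer (D : Set G)))) (D₀ : Subgroup G) (hD₀ : IsPGroup p D₀) (H₀ : Subgroup G) (hH₀ : H₀ = D₀ ⊔ Subgroup.centralizer (D₀ : Set G)) (b : Set (Cfsg.IrrCharacter ↥H₀)) (hb : Cfsg.IsInducedBlock M H₀ b B) (hcompl : ∀ x : ↥(Subgroup.centralizer (D₀ : Set G)), (∀ q : ℕ, q.Prime → q ∣ orderOf x → q ∉ π) → x ∈ Cfsg.piCore {q | q ∉ π} ↥(Subgroup.centralizer (D₀ : Set G))) (hkerb : ∀ x : ↥(Subgroup.centralizer (D₀ : Set G)), x ∈ Cfsg.piCore {q | q ∉ π} ↥(Subgroup.centralizer (D₀ : Set G)) → ∀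 θ ∈ b, ∀ h : ↥H₀, (h : G) = (x : G) → (θ : ↥H₀ → ℂ) h = (θ : ↥H₀ → ℂ) 1) : ∀ n : ↥(Subgroup.normalizer (D : Set G)), n ∈ Cfsg.piCore {q | q ∉ π} ↥(Subgroup.normalizer (D : Set G)) → n ∈ Cfsg.blockKer B₁ := by
  classical
  intro n hn
  haveI := Fintype.ofFinite G
  obtain ⟨e, hmax, hpairN⟩ := exists_maximal_of_correspondent hM hB hBD hB₁ hB₁D
  subst hH₀
  have h1 : D₀ ≤ D₀ ⊔ Subgroup.centralizer (D₀ : Set G) := le_sup_left
  have h2 : Subgroup.centralizer (D₀ : Set G) ≤ D₀ ⊔ Subgroup.centralizer (D₀ : Set G) :=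
    le_sup_right
  have hHN : D₀ ⊔ Subgroup.centralizer (D₀ : Set G) ≤ Subgroup.normalizer (D₀ : Set G) :=
    sup_le Subgroup.le_normalizer (Subgroup.centralizer_le_normalizer _)
  haveI : (D₀.subgroupOf (D₀ ⊔ Subgroup.centralizer (D₀ : Set G))).Normal :=
    (Subgroup.normal_subgroupOf_iff_le_normalizer h1).mpr hHN
  obtain ⟨β₀, hβ₀⟩ := exists_isBrauerPairOf_of_normal hM hb.1
    (D₀.subgroupOf (D₀ ⊔ Subgroup.centralizer (D₀ : Set G))) hD₀.comap_subtype
  obtain ⟨β, hβ⟩ := exists_subBlock_eq (D₀ ⊔ Subgroup.centralizer (D₀ : Set G)) D₀ h1 h2 β₀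
  rw [← hβ] at hβ₀
  have hQβ := isBrauerPairOf_of_sub hM (D₀ ⊔ Subgroup.centralizer (D₀ : Set G)) hb D₀ h1 h2 hβ₀
  have hPK₀ : PiKer π (⟨D₀, β⟩ : BrauerPairIdx G) :=
    piKer_of_ker_sub hM hpπ (D₀ ⊔ Subgroup.centralizer (D₀ : Set G)) D₀ h1 h2
      (hHN.trans (normalizer_le_normalizer_centralizer D₀)) hβ₀
      (fun k hk θ hθ => hkerb k hk θ hθ ⟨(k : G), h2 k.2⟩ rfl)
  have hHall₀ : PiHall π D₀ := hcompl
  obtain ⟨y, hy⟩ := exists_conj_subpairLE hM hmax hQβ
  have h3 := piKer_up_of_subpairLE hM hpπ hy (piKer_conjIdx y hPK₀) (piHall_conj y hHall₀)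
  exact ker_of_piKer_sub hM hpπ (Subgroup.normalizer (D : Set G)) D Subgroup.le_normalizer
    (Subgroup.centralizer_le_normalizer _) hpairN h3.1 n hn

end Cfsg.Agent.S4728
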