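import Cfsg.Statements.S4729
import Cfsg.Agent.Helper25.BlockBasic
import Cfsg.Agent.Helper25.CharEig

set_option autoImplicit false
open Cfsg

namespace Cfsg.Agent.S4729

/-- Let p be a prime, M a maximal ideal of the algebraic integers containing p, G a finite perfect group and P a Sylow p-subgroup. If the principal p-block of G contains a faithful irreducible character of degree less than 2p, then the centralizer of P is a p-group. -/
theorem result {G : Type*} [Group G] [Finite G] (p : ℕ) [Fact p.Prime] (M : Ideal Cfsg.AlgInt) (hM : Cfsg.IsPModular p M) (hperf : commutator G = ⊤) (P : Sylow p G) (χ : Cfsg.IrrCharacter G) (hχ : χ ∈ Cfsg.principalBlock M G) (hfaith : ∀ g : G, (χ : G → ℂ) g = (χ : G → ℂ) 1 → g = 1) (hdeg : Cfsg.charDegree (χ : G → ℂ) < 2 * p) : IsPGroup p ↥(Subgroup.centralizer ((P : Subgroup G) : Set G)) := by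
  classical
  have hp := (Fact.out : p.Prime)
  have key : ∀ x : G, x ∈ Subgroup.centralizer ((P : Subgroup G) : Set G) →
      ¬ p ∣ orderOf x → x = 1 := by
    intro x hx hpx
    obtain ⟨ι, _, μ, δ, hcard, hμ, hval, hdet⟩ := Cfsg.Agent.Helper25.irr_eigenvalues χ x
    obtain ⟨m, hm⟩ : ∃ m : ℕ, m = orderOf x := ⟨_, rfl⟩
    rw [← hm] at hμ hpx
    have hm0 : 0 < m := hm ▸ orderOf_pos x
    obtain ⟨n, hn⟩ : ∃ n : ℕ, n = Cfsg.charDegree (χ : G → ℂ) := ⟨_, rfl⟩
    rw [← hn] at hcard hdeg
    have hn0 : n ≠ 0 := by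
      rw [hn]
      exact (Cfsg.Agent.Helper25.irr_degree_pos χ).ne'
    have hnC : (n : ℂ) ≠ 0 := by exact_mod_cast hn0
    have hχ1 : (χ : G → ℂ) 1 = (n : ℂ) := by
      rw [hn]
      exact Cfsg.Agent.Helper25.irr_one_eq_degree χ
    have hcong : ∀ j : ℕ, Cfsg.MemLocalIdeal M (1 - (χ : G → ℂ) (x ^ j) / (n : ℂ)) := by
      intro j
      have hxj : x ^ j ∈ Subgroup.centralizer ((P : Subgroup G) : Set G) :=
        Subgroup.pow_mem _ hx j
      have hPle : (P : Subgroup G) ≤ Subgroup.centralizer ({x ^ j} : Set G) := by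
        intro u hu
        rw [Subgroup.mem_centralizer_iff]
        intro h hh
        rw [Set.mem_singleton_iff] at hh
        rw [hh]
        exact ((Subgroup.mem_centralizer_iff.mp hxj) u hu).symm
      have hidx : ¬ p ∣ (Subgroup.centralizer ({x ^ j} : Set G)).index := fun h =>
        P.not_dvd_index (dvd_trans h (Subgroup.index_dvd_of_le hPle))
      have h1 := (Cfsg.Agent.Helper25.mem_principalBlock_iff χ).mp hχ (x ^ j)
      have h2 : ((Subgroup.centralizer ({x ^ j} : Set G)).index : ℂ) -
          Cfsg.centralChar (χ : G → ℂ) (x ^ j) =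
          ((Subgroup.centralizer ({x ^ j} : Set G)).index : ℂ) *
            (1 - (χ : G → ℂ) (x ^ j) / (n : ℂ)) := by
        show ((Subgroup.centralizer ({x ^ j} : Set G)).index : ℂ) -
          ((Subgroup.centralizer ({x ^ j} : Set G)).index : ℂ) * (χ : G → ℂ) (x ^ j) /
            (χ : G → ℂ) 1 = _
        rw [hχ1]
        ring
      rw [h2] at h1
      exact Cfsg.Agent.Helper25.li_of_mul_left hM (Cfsg.Agent.Helper25.lr_natCast hM _)
        (fun h => hidx ((Cfsg.Agent.Helper25.li_natCast_iff hM _).mp h)) h1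
    have hmult : ∀ ε : ℂ, ε ^ m = 1 → ε ≠ 1 →
        p ∣ (Finset.univ.filter (fun i => μ i = ε)).card := by
      intro ε hε hε1
      have hsum := Cfsg.Agent.Helper25.eig_mult_formula μ m hm0 hμ ε hε
      simp_rw [← hval] at hsum
      have hgeo : ∑ j ∈ Finset.range m, ε⁻¹ ^ j = 0 := by
        have hne : ε⁻¹ ≠ 1 := by
          intro h
          apply hε1
          exact inv_eq_one.mp h
        rw [geom_sum_eq hne, inv_pow, hε]
        simp
      have hεint : IsIntegral ℤ (ε⁻¹) := by
        apply IsIntegral.of_pow hm0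
        rw [inv_pow, hε, inv_one]
        exact isIntegral_one
      have hLI : Cfsg.MemLocalIdeal M
          (((Finset.univ.filter (fun i => μ i = ε)).card : ℂ) * (m : ℂ) / (n : ℂ)) := by
        have e : ((Finset.univ.filter (fun i => μ i = ε)).card : ℂ) * (m : ℂ) / (n : ℂ) =
            - ∑ j ∈ Finset.range m, (1 - (χ : G → ℂ) (x ^ j) / (n : ℂ)) * ε⁻¹ ^ j := by
          rw [← hsum]
          have h3 : ∑ j ∈ Finset.range m, (1 - (χ : G → ℂ) (x ^ j) / (n : ℂ)) * ε⁻¹ ^ j =
              ∑ j ∈ Finset.range m, ε⁻¹ ^ j -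
                (∑ j ∈ Finset.range m, (χ : G → ℂ) (x ^ j) * ε⁻¹ ^ j) / (n : ℂ) := by
            rw [Finset.sum_div, ← Finset.sum_sub_distrib]
            apply Finset.sum_congr rfl
            intro j _
            ring
          rw [h3, hgeo]
          ring
        rw [e]
        apply Cfsg.Agent.Helper25.li_neg
        apply Cfsg.Agent.Helper25.li_sum hM
        intro j _
        exact Cfsg.Agent.Helper25.li_mul_lr hM (hcong j)
          (Cfsg.Agent.Helper25.lr_pow hM (Cfsg.Agent.Helper25.lr_of_isIntegral hM hεint) j)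
      have hLI2 : Cfsg.MemLocalIdeal M
          ((((Finset.univ.filter (fun i => μ i = ε)).card * m : ℕ) : ℂ)) := by
        have e : ((((Finset.univ.filter (fun i => μ i = ε)).card * m : ℕ) : ℂ)) =
            ((Finset.univ.filter (fun i => μ i = ε)).card : ℂ) * (m : ℂ) / (n : ℂ) * (n : ℂ) := by
          push_cast
          field_simp
        rw [e]
        exact Cfsg.Agent.Helper25.li_mul_lr hM hLI (Cfsg.Agent.Helper25.lr_natCast hM n)
      have h3 := (Cfsg.Agent.Helper25.li_natCast_iff hM _).mp hLI2
      exact Nat.Coprime.dvd_of_dvd_mul_right ((Nat.Prime.coprime_iff_not_dvd hp).mpr hpx) h3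
    by_contra hx1
    have hex : ∃ i, μ i ≠ 1 := by
      by_contra hall
      push Not at hall
      apply hx1
      apply hfaith
      have h1 := hval 1
      rw [pow_one] at h1
      rw [h1, hχ1]
      simp [hall, hcard]
    obtain ⟨i₀, hi₀⟩ := hex
    have hc0 := hmult (μ i₀) (hμ i₀) hi₀
    have hpos : 0 < (Finset.univ.filter (fun i => μ i = μ i₀)).card :=
      Finset.card_pos.mpr ⟨i₀, by simp⟩
    have hge : p ≤ (Finset.univ.filter (fun i => μ i = μ i₀)).card := Nat.le_of_dvd hpos hc0
    have hleuniv : (Finset.univ.filter (fun i => μ i = μ i₀)).card ≤ n := by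
      rw [← hcard]
      exact Finset.card_le_univ _
    have hall : ∀ i, μ i ≠ 1 → μ i = μ i₀ := by
      intro i hi
      by_contra hne
      have hc1 := hmult (μ i) (hμ i) hi
      have hpos1 : 0 < (Finset.univ.filter (fun k => μ k = μ i)).card :=
        Finset.card_pos.mpr ⟨i, by simp⟩
      have hge1 := Nat.le_of_dvd hpos1 hc1
      have hdisj : Disjoint (Finset.univ.filter (fun k => μ k = μ i₀))
          (Finset.univ.filter (fun k => μ k = μ i)) := by
        rw [Finset.disjoint_filter]
        intro k _ h1 h2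
        exact hne (h2.symm.trans h1)
      have hle : (Finset.univ.filter (fun k => μ k = μ i₀)).card +
          (Finset.univ.filter (fun k => μ k = μ i)).card ≤ n := by
        rw [← Finset.card_union_of_disjoint hdisj, ← hcard]
        exact Finset.card_le_univ _
      omega
    have hcardp : (Finset.univ.filter (fun i => μ i = μ i₀)).card = p := by
      obtain ⟨k, hk⟩ := hc0
      have hk1 : k = 1 := by
        rcases k with _ | _ | k
        · omega
        · rfl
        · exfalso
          have : p * (k + 1 + 1) = p * k + 2 * p := by ring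
          omega
      rw [hk, hk1, mul_one]
    have hdet1 : δ x = 1 := by
      have h1 : x ∈ δ.ker := Abelianization.commutator_subset_ker δ (by rw [hperf]; trivial)
      exact MonoidHom.mem_ker.mp h1
    have hprod : ∏ i, μ i = μ i₀ ^ p := by
      rw [← Finset.prod_filter_mul_prod_filter_not Finset.univ (fun i => μ i = μ i₀),
        Finset.prod_congr rfl (fun i hi => (Finset.mem_filter.mp hi).2), Finset.prod_const, hcardp,
        Finset.prod_eq_one, mul_one]
      intro i hi
      by_contra h1
      exact (Finset.mem_filter.mp hi).2 (hall i h1)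
    have hε₀p : μ i₀ ^ p = 1 := by
      rw [← hprod, ← hdet, hdet1]
      simp
    have h5 := pow_gcd_eq_one.mpr ⟨hε₀p, hμ i₀⟩
    rw [Nat.Coprime.gcd_eq_one ((Nat.Prime.coprime_iff_not_dvd hp).mpr hpx), pow_one] at h5
    exact hi₀ h5
  intro c
  refine ⟨(orderOf (c : G)).factorization p, ?_⟩
  have ho : orderOf (c : G) ≠ 0 := (orderOf_pos _).ne'
  have hx := key ((c : G) ^ (p ^ (orderOf (c : G)).factorization p))
    (Subgroup.pow_mem _ c.2 _) (by
      rw [orderOf_pow' _ (pow_pos hp.pos _).ne', Nat.gcd_eq_right (Nat.ordProj_dvd _ _)]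
      exact Nat.not_dvd_ordCompl hp ho)
  exact Subtype.ext (by simpa using hx)

end Cfsg.Agent.S4729
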