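import Cfsg.Statements.S4730
import Cfsg.Agent.Helper25.BlockBasic
import Cfsg.Agent.Helper25.CharZ

set_option autoImplicit false
open Cfsg

namespace Cfsg.Agent.S4730

/-- Let p be a prime, M a maximal ideal of the algebraic integers containing p, and G a finite group with trivial centre, Sylow p-subgroup P of order p^a and centre Z(P) of order p^b. If χ is a faithful irreducible character of G whose degree is a power of p, then the p-block of χ has defect at most a − b; in particular, if P is abelian then χ lies in a block of defect zero. -/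
theorem result {G : Type*} [Group G] [Finite G] (p : ℕ) [Fact p.Prime] (M : Ideal Cfsg.AlgInt) (hM : Cfsg.IsPModular p M) (hZ : Subgroup.center G = ⊥) (P : Sylow p G) (a b : ℕ) (ha : Nat.card P = p ^ a) (hb : Nat.card (Subgroup.center ↥(P : Subgroup G)) = p ^ b) (χ : Cfsg.IrrCharacter G) (hfaith : ∀ g : G, (χ : G → ℂ) g = (χ : G → ℂ) 1 → g = 1) (n : ℕ) (hdeg : Cfsg.charDegree (χ : G → ℂ) = p ^ n) : Cfsg.blockDefect p (Cfsg.blockOf M (χ : G → ℂ)) ≤ a - b ∧ (IsMulCommutative ↥(P : Subgroup G) → Cfsg.blockDefect p (Cfsg.blockOf M (χ : G → ℂ)) = 0) := by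
  classical
  have := Fintype.ofFinite G
  have hp := (Fact.out : p.Prime)
  have ha' : (Nat.card G).factorization p = a := by
    have h1 := Sylow.card_eq_multiplicity P
    rw [ha] at h1
    exact (Nat.pow_right_injective hp.two_le h1).symm
  have hcardZ : Nat.card ((Subgroup.center ↥(P : Subgroup G)).map (P : Subgroup G).subtype) =
      p ^ b := by
    rw [Subgroup.card_map_of_injective (Subgroup.subtype_injective _), hb]
  have hZP : ∀ z ∈ (Subgroup.center ↥(P : Subgroup G)).map (P : Subgroup G).subtype,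
      ∀ u ∈ (P : Subgroup G), z * u = u * z := by
    rintro z ⟨w, hw, rfl⟩ u hu
    have h1 := (Subgroup.mem_center_iff.mp hw) ⟨u, hu⟩
    have h2 := congrArg (fun t : ↥(P : Subgroup G) => (t : G)) h1
    exact h2.symm
  have key : ∀ ψ ∈ Cfsg.blockOf M (χ : G → ℂ),
      b ≤ (Cfsg.charDegree (ψ : G → ℂ)).factorization p := by
    intro ψ hψ
    obtain ⟨d, hd⟩ : ∃ d : ℕ, d = Cfsg.charDegree (ψ : G → ℂ) := ⟨_, rfl⟩
    have hd0 : d ≠ 0 := by
      rw [hd]
      exact (Cfsg.Agent.Helper25.irr_degree_pos ψ).ne'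
    have hψ1 : (ψ : G → ℂ) 1 = (d : ℂ) := by
      rw [hd]
      exact Cfsg.Agent.Helper25.irr_one_eq_degree ψ
    have hdC : (d : ℂ) ≠ 0 := by exact_mod_cast hd0
    have hli : ∀ z ∈ (Subgroup.center ↥(P : Subgroup G)).map (P : Subgroup G).subtype, z ≠ 1 →
        Cfsg.MemLocalIdeal M ((ψ : G → ℂ) z / (d : ℂ)) := by
      intro z hz hz1
      have hPle : (P : Subgroup G) ≤ Subgroup.centralizer ({z} : Set G) := by
        intro u hu
        rw [Subgroup.mem_centralizer_iff]
        intro h hh
        rw [Set.mem_singleton_iff] at hh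
        rw [hh]
        exact hZP z hz u hu
      have hidx : ¬ p ∣ (Subgroup.centralizer ({z} : Set G)).index := fun h =>
        P.not_dvd_index (dvd_trans h (Subgroup.index_dvd_of_le hPle))
      have hzc : z ∉ Subgroup.center G := by
        rw [hZ, Subgroup.mem_bot]
        exact hz1
      have hχz : (χ : G → ℂ) z = 0 := by
        apply Cfsg.Agent.Helper25.irr_eq_zero_of_coprime χ hfaith z hzc
        rw [hdeg]
        exact Nat.Coprime.pow_left n ((Nat.Prime.coprime_iff_not_dvd hp).mpr hidx)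
      have h1 := hψ z
      have h2 : Cfsg.centralChar (χ : G → ℂ) z = 0 := by
        show ((Subgroup.centralizer ({z} : Set G)).index : ℂ) * (χ : G → ℂ) z / (χ : G → ℂ) 1 = 0
        rw [hχz, mul_zero, zero_div]
      rw [h2, zero_sub] at h1
      have h3 := Cfsg.Agent.Helper25.li_neg h1
      rw [neg_neg] at h3
      have h4 : Cfsg.centralChar (ψ : G → ℂ) z =
          ((Subgroup.centralizer ({z} : Set G)).index : ℂ) * ((ψ : G → ℂ) z / (d : ℂ)) := by
        show ((Subgroup.centralizer ({z} : Set G)).index : ℂ) * (ψ : G → ℂ) z / (ψ : G → ℂ) 1 = _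
        rw [hψ1, mul_div_assoc]
      rw [h4] at h3
      exact Cfsg.Agent.Helper25.li_of_mul_left hM (Cfsg.Agent.Helper25.lr_natCast hM _)
        (fun h => hidx ((Cfsg.Agent.Helper25.li_natCast_iff hM _).mp h)) h3
    obtain ⟨m, hm⟩ := Cfsg.Agent.Helper25.irr_sum_subgroup ψ
      ((Subgroup.center ↥(P : Subgroup G)).map (P : Subgroup G).subtype)
    rw [← Finset.add_sum_erase Finset.univ _ (Finset.mem_univ
      (1 : ((Subgroup.center ↥(P : Subgroup G)).map (P : Subgroup G).subtype))), hcardZ] at hm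
    obtain ⟨t, ht⟩ : ∃ t : ℂ, t = ∑ u ∈ Finset.univ.erase
        (1 : ((Subgroup.center ↥(P : Subgroup G)).map (P : Subgroup G).subtype)),
        (ψ : G → ℂ) (u : G) / (d : ℂ) := ⟨_, rfl⟩
    have htli : Cfsg.MemLocalIdeal M t := by
      rw [ht]
      apply Cfsg.Agent.Helper25.li_sum hM
      intro u hu
      apply hli (u : G) u.2
      intro h1
      exact (Finset.ne_of_mem_erase hu) (Subtype.ext h1)
    have hm2 : (d : ℂ) * (1 + t) = ((p ^ b : ℕ) : ℂ) * (m : ℂ) := by
      rw [← hm, ht, mul_add, mul_one, Finset.mul_sum, Subgroup.coe_one, hψ1]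
      congr 1
      apply Finset.sum_congr rfl
      intro u _
      field_simp
    have hunit : ¬ Cfsg.MemLocalIdeal M (1 + t) := by
      intro h
      apply Cfsg.Agent.Helper25.not_li_one hM
      have h1 := Cfsg.Agent.Helper25.li_sub hM h htli
      rwa [add_sub_cancel_right] at h1
    have hlr1 : Cfsg.MemLocalRing M (1 + t) :=
      Cfsg.Agent.Helper25.lr_add hM (Cfsg.Agent.Helper25.lr_one hM) (Cfsg.Agent.Helper25.li_lr htli)
    have h1t : (1 + t) ≠ 0 := Cfsg.Agent.Helper25.ne_zero_of_not_li hM hunit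
    have hpC : (p : ℂ) ≠ 0 := by exact_mod_cast hp.ne_zero
    have hquot : (d : ℂ) / (p : ℂ) ^ b = (m : ℂ) * (1 + t)⁻¹ := by
      have hpb : ((p : ℂ) ^ b) ≠ 0 := pow_ne_zero b hpC
      push_cast at hm2
      field_simp
      linear_combination hm2
    have hdvd : p ^ b ∣ d := by
      apply Cfsg.Agent.Helper25.dvd_of_lr_div hM d b
      rw [hquot]
      exact Cfsg.Agent.Helper25.lr_mul hM (Cfsg.Agent.Helper25.lr_natCast hM m)
        (Cfsg.Agent.Helper25.lr_inv_of_not_li hlr1 hunit)
    rw [← hd]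
    exact (hp.pow_dvd_iff_le_factorization hd0).mp hdvd
  have hne : ((fun ψ : Cfsg.IrrCharacter G => (Cfsg.charDegree (ψ : G → ℂ)).factorization p) ''
      Cfsg.blockOf M (χ : G → ℂ)).Nonempty :=
    ⟨_, χ, Cfsg.Agent.Helper25.self_mem_blockOf hM χ, rfl⟩
  have hinf : b ≤ sInf ((fun ψ : Cfsg.IrrCharacter G =>
      (Cfsg.charDegree (ψ : G → ℂ)).factorization p) '' Cfsg.blockOf M (χ : G → ℂ)) := by
    apply le_csInf hne
    rintro _ ⟨ψ, hψ, rfl⟩
    exact key ψ hψ
  constructor
  · show (Nat.card G).factorization p - sInf _ ≤ a - b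
    rw [ha']
    exact Nat.sub_le_sub_left hinf a
  · intro hab
    have htop : Subgroup.center ↥(P : Subgroup G) = ⊤ := by
      rw [Subgroup.eq_top_iff']
      intro x
      rw [Subgroup.mem_center_iff]
      intro g
      exact hab.is_comm.comm g x
    have hab' : a = b := by
      rw [htop, Subgroup.card_top, ha] at hb
      exact Nat.pow_right_injective hp.two_le hb
    show (Nat.card G).factorization p - sInf _ = 0
    rw [ha']
    omega

end Cfsg.Agent.S4730
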