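import Cfsg.Statements.S4733
import Mathlib
import Cfsg.Agent.Helper25.BlockRank
import Cfsg.Agent.Helper25.CharArith

set_option autoImplicit false
open Cfsg

namespace Cfsg.Agent.S4733

/-- Let p be a prime, M a maximal ideal of the algebraic integers containing p, and B a p-block of the finite group G with k irreducible characters and p-regular rank l (the number of irreducible Brauer characters). Then l ≤ k, and the following are equivalent: B has defect 0; k = l = 1; k = l. -/
theorem result {G : Type*} [Group G] [Finite G] (p : ℕ) [Fact p.Prime] (M : Ideal Cfsg.AlgInt) (hM : Cfsg.IsPModular p M) (B : Set (Cfsg.IrrCharacter G)) (hB : Cfsg.IsPBlock M B) : Cfsg.blockRank p B ≤ Nat.card B ∧ (Cfsg.blockDefect p B = 0 ↔ (Nat.card B = 1 ∧ Cfsg.blockRank p B = 1)) ∧ (Cfsg.blockDefect p B = 0 ↔ Nat.card B = Cfsg.blockRank p B) := by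
  classical
  have := Fintype.ofFinite G
  have hp : p.Prime := Fact.out
  have hlr := Cfsg.Agent.Helper25.blockCoeff_lr hM hB
  set a := (Nat.card G).factorization p with ha
  obtain ⟨χ₀, hχ₀⟩ : ∃ χ₀, χ₀ ∈ B := by
    obtain ⟨χ, rfl⟩ := hB
    exact ⟨χ, Cfsg.Agent.Helper25.sameBlock_refl hM _⟩
  have hle : ∀ χ : IrrCharacter G, (charDegree (χ : G → ℂ)).factorization p ≤ a := by
    intro χ
    exact (Nat.factorization_le_iff_dvd (Cfsg.Agent.Helper25.irr_degree_pos χ).ne'
      Nat.card_pos.ne').mpr (Cfsg.Agent.Helper25.irr_degree_dvd_card χ) p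
  have hdef : blockDefect p B = 0 ↔ ∀ χ ∈ B, a ≤ (charDegree (χ : G → ℂ)).factorization p := by
    unfold blockDefect
    set S := (fun χ : IrrCharacter G => (charDegree (χ : G → ℂ)).factorization p) '' B with hS
    have hSne : S.Nonempty := ⟨_, χ₀, hχ₀, rfl⟩
    constructor
    · intro h χ hχ
      have h1 : sInf S ≤ (charDegree (χ : G → ℂ)).factorization p := Nat.sInf_le ⟨χ, hχ, rfl⟩
      have h2 : a ≤ sInf S := Nat.sub_eq_zero_iff_le.mp h
      omega
    · intro h
      obtain ⟨χ, hχ, hχe⟩ := Nat.sInf_mem hSne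
      have h3 := h χ hχ
      simp only at hχe
      rw [Nat.sub_eq_zero_iff_le]
      omega
  have h1 : blockDefect p B = 0 → Nat.card B = 1 ∧ blockRank p B = 1 := by
    intro h
    rw [hdef] at h
    have hB1 : B = {χ₀} := by
      ext ψ
      simp only [Set.mem_singleton_iff]
      constructor
      · intro hψ
        exact Cfsg.Agent.Helper25.eq_of_mem_block_of_defect_zero hM hB hχ₀ hψ (h χ₀ hχ₀)
      · rintro rfl
        exact hχ₀
    constructor
    · rw [hB1]
      simp
    · rw [hB1]
      unfold blockRank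
      rw [Set.image_singleton]
      apply finrank_span_singleton
      intro h0
      have h5 := congrFun h0 1
      rw [Cfsg.Agent.Helper25.pRegularPart_of_reg (by
        rw [orderOf_one]
        exact fun h => hp.one_lt.ne' (Nat.dvd_one.mp h))] at h5
      exact Cfsg.Agent.Helper25.irr_one_ne_zero χ₀ h5
  have h2 : Nat.card B = blockRank p B → blockDefect p B = 0 := by
    intro h
    rw [hdef]
    intro χ hχ
    have h3 := Cfsg.Agent.Helper25.pow_dvd_degree_of_vanish hp χ (fun y hy =>
      Cfsg.Agent.Helper25.irr_eq_zero_of_singular_of_card_eq_rank hM B hlr h hχ y hy)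
    exact (hp.pow_dvd_iff_le_factorization (Cfsg.Agent.Helper25.irr_degree_pos χ).ne').mp h3
  refine ⟨Cfsg.Agent.Helper25.blockRank_le_card B, ⟨h1, fun ⟨h3, h4⟩ => h2 (by rw [h3, h4])⟩,
    ⟨fun h => ?_, h2⟩⟩
  obtain ⟨h3, h4⟩ := h1 h
  rw [h3, h4]

end Cfsg.Agent.S4733
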