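import Cfsg.Statements.S4736
import Mathlib
import Cfsg.Agent.Helper2.PSolvBlock

set_option autoImplicit false
open Cfsg

namespace Cfsg.Agent.S4736

open Cfsg.Agent.Helper2 Cfsg.Agent.Helper24 Cfsg.Agent.Helper25 Cfsg.Agent.Helper7

/-- Let p be a prime, M a maximal ideal of the algebraic integers containing p, and G a finite p-solvable group with Sylow p-subgroup P. Then P is abelian if and only if every irreducible character in the principal p-block of G has height zero. -/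
theorem result {G : Type*} [Group G] [Finite G] (p : ℕ) [Fact p.Prime] (M : Ideal Cfsg.AlgInt) (hM : Cfsg.IsPModular p M) (hsolv : Cfsg.IsPSolvable p G) (P : Sylow p G) : IsMulCommutative P ↔ ∀ χ ∈ Cfsg.principalBlock M G, Cfsg.blockHeight p (Cfsg.principalBlock M G) (χ : G → ℂ) = 0 := by
  have hp : p.Prime := Fact.out
  have hK : (Nat.card (Cfsg.pPrimeCore p G)).Coprime p := Cfsg.Agent.Helper10.pPrimeCore_coprime p G
  have hK' : ¬ p ∣ Nat.card (Cfsg.pPrimeCore p G) := fun h =>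
    (Nat.Prime.coprime_iff_not_dvd hp).mp hK.symm h
  have hcoreq : Cfsg.pPrimeCore p (G ⧸ Cfsg.pPrimeCore p G) = ⊥ :=
    Cfsg.Agent.Helper10.pPrimeCore_quotient p G
  have hsolvq : Cfsg.IsPSolvable p (G ⧸ Cfsg.pPrimeCore p G) :=
    Cfsg.Agent.Helper13.isPSolvable_quotient hsolv _
  have hdegeq : ∀ (ψ' : Cfsg.IrrCharacter (G ⧸ Cfsg.pPrimeCore p G)) (χ : Cfsg.IrrCharacter G),
      (χ : G → ℂ) = (ψ' : G ⧸ Cfsg.pPrimeCore p G → ℂ) ∘ QuotientGroup.mk →
      Cfsg.charDegree (χ : G → ℂ) = Cfsg.charDegree (ψ' : G ⧸ Cfsg.pPrimeCore p G → ℂ) := by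
    intro ψ' χ h
    have h1 := irr_one_eq_degree χ
    have h2 := irr_one_eq_degree ψ'
    have h3 : (χ : G → ℂ) 1 = (ψ' : G ⧸ Cfsg.pPrimeCore p G → ℂ) 1 := by
      rw [h]
      simp only [Function.comp_apply, QuotientGroup.mk_one]
    rw [h3, h2] at h1
    exact (Nat.cast_injective h1).symm
  constructor
  · intro hab χ hχ
    rw [principal_height_eq_zero_iff hM]
    obtain ⟨ψ', hψ', -⟩ := Cfsg.Agent.S0967.result p M hM (Cfsg.pPrimeCore p G) hK'
      (trivChar (G ⧸ Cfsg.pPrimeCore p G)) χ hχ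
    rw [hdegeq ψ' χ hψ']
    apply pprime_degree_of_abelian_sylow_core_bot hsolvq hcoreq
      ((P : Subgroup G).map (QuotientGroup.mk' (Cfsg.pPrimeCore p G)))
    · intro hd
      exact P.not_dvd_index (hd.trans
        (Subgroup.index_map_dvd _ (QuotientGroup.mk'_surjective _)))
    · rintro _ ⟨a, ha, rfl⟩ _ ⟨b, hb, rfl⟩
      have := (isMulCommutative_iff.mp hab) ⟨a, ha⟩ ⟨b, hb⟩
      have h2 : a * b = b * a := congrArg Subtype.val this
      rw [← map_mul, ← map_mul, h2]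
  · intro h
    have hdeg : ∀ ψ' : Cfsg.IrrCharacter (G ⧸ Cfsg.pPrimeCore p G),
        ¬ p ∣ Cfsg.charDegree (ψ' : G ⧸ Cfsg.pPrimeCore p G → ℂ) := by
      intro ψ'
      have hirr := Cfsg.Agent.Helper2.isIrrCharacter_comp_of_surjective
        (QuotientGroup.mk' (Cfsg.pPrimeCore p G)) (QuotientGroup.mk'_surjective _) ψ'.2
      have hmem : (⟨_, hirr⟩ : Cfsg.IrrCharacter G) ∈ Cfsg.principalBlock M G :=
        Cfsg.Agent.Helper26.sameBlock_inflate hM (Cfsg.pPrimeCore p G)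
          (trivChar (G ⧸ Cfsg.pPrimeCore p G)) ψ'
          (sameBlock_of_psolv_core_bot hM hsolvq hcoreq _ ψ')
      have h0 := (principal_height_eq_zero_iff hM _).mp (h _ hmem)
      rwa [hdegeq ψ' ⟨_, hirr⟩ rfl] at h0
    obtain ⟨P₀, hP₀n, hP₀p, hP₀i⟩ :=
      exists_normal_sylow_of_pprime_degrees_psolv p _ (G ⧸ Cfsg.pPrimeCore p G) rfl hsolvq hdeg
    haveI := hP₀n
    have habP₀ := abelian_of_normal_pgroup p P₀ hP₀p hdeg
    have hle : (P : Subgroup G).map (QuotientGroup.mk' (Cfsg.pPrimeCore p G)) ≤ P₀ :=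
      le_of_normal_pprime_index p P₀ hP₀i _ (P.isPGroup'.map _)
    rw [isMulCommutative_iff]
    intro a b
    apply Subtype.ext
    show (a : G) * (b : G) = (b : G) * (a : G)
    have h1 := habP₀ _ (hle (Subgroup.mem_map_of_mem _ a.2)) _ (hle (Subgroup.mem_map_of_mem _ b.2))
    rw [← map_mul, ← map_mul] at h1
    have h2 : ((b : G) * (a : G))⁻¹ * ((a : G) * (b : G)) ∈ Cfsg.pPrimeCore p G :=
      QuotientGroup.eq.mp h1.symm
    have h3 : ((b : G) * (a : G))⁻¹ * ((a : G) * (b : G)) ∈ (P : Subgroup G) :=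
      mul_mem (inv_mem (mul_mem b.2 a.2)) (mul_mem a.2 b.2)
    have h4 : ((b : G) * (a : G))⁻¹ * ((a : G) * (b : G)) = 1 := by
      obtain ⟨j, hj⟩ := P.isPGroup' ⟨_, h3⟩
      have hj' : (((b : G) * (a : G))⁻¹ * ((a : G) * (b : G))) ^ p ^ j = 1 := by
        simpa using congrArg Subtype.val hj
      have o1 : orderOf (((b : G) * (a : G))⁻¹ * ((a : G) * (b : G))) ∣ p ^ j :=
        orderOf_dvd_of_pow_eq_one hj'
      have o2 : orderOf (((b : G) * (a : G))⁻¹ * ((a : G) * (b : G)))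
          ∣ Nat.card (Cfsg.pPrimeCore p G) := by
        have := orderOf_dvd_natCard (⟨_, h2⟩ : Cfsg.pPrimeCore p G)
        rwa [Subgroup.orderOf_mk] at this
      have o3 : orderOf (((b : G) * (a : G))⁻¹ * ((a : G) * (b : G))) ∣ 1 := by
        have := Nat.dvd_gcd o2 o1
        rwa [Nat.Coprime.gcd_eq_one (Nat.Coprime.pow_right _ hK)] at this
      exact orderOf_eq_one_iff.mp (Nat.dvd_one.mp o3)
    have h5 := congrArg (fun z => (b : G) * (a : G) * z) h4
    simp only [mul_inv_cancel_left, mul_one] at h5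
    exact h5

end Cfsg.Agent.S4736
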