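import Cfsg.Statements.S5014
import Cfsg.Agent.Helper26.RankOne

set_option autoImplicit false
open Cfsg

namespace Cfsg.Agent.S5014

open Cfsg.Agent.Helper26 in
theorem to_std {G : Type*} [Group G] {A B : Subgroup G} (h : Cfsg.IsRankOnePair A B)
    {C₁ C₂ : Subgroup G} (h1 : C₁ ∈ Cfsg.unipotentSubgroups A B)
    (h2 : C₂ ∈ Cfsg.unipotentSubgroups A B) (hne : C₁ ≠ C₂) :
    ∃ x ∈ A ⊔ B, Cfsg.conjBy C₁ x = A ∧ Cfsg.conjBy C₂ x = B := by
  obtain ⟨u, hu, rfl⟩ := h1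
  have h3 : conjBy C₂ u⁻¹ ∈ unipotentSubgroups A B :=
    conjBy_mem_unipotentSubgroups h2 ((A ⊔ B).inv_mem hu)
  rcases (mem_unipotentSubgroups_iff h).mp h3 with h4 | ⟨a, ha, h4⟩
  · exfalso
    apply hne
    rw [conjBy_eq_iff, inv_inv] at h4
    exact h4.symm
  · refine ⟨a⁻¹ * u⁻¹, (A ⊔ B).mul_mem ((A ⊔ B).inv_mem (Subgroup.mem_sup_left ha))
      ((A ⊔ B).inv_mem hu), ?_, ?_⟩
    · rw [conjBy_conjBy]
      have : a⁻¹ * u⁻¹ * u = a⁻¹ := by group
      rw [this, conjBy_of_mem (A.inv_mem ha)]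
    · rw [← conjBy_conjBy, h4, conjBy_conjBy]
      simp [conjBy_one]

open Cfsg.Agent.Helper26 in
/-- Let X = ⟨A, B⟩ be a rank one group with unipotent subgroups A and B and let Ω be the set of conjugates of A under X. Then Ω has at least three members, X acts doubly transitively on Ω by conjugation (any two ordered pairs of distinct members are carried to one another by a single element of X), and A acts regularly on Ω with A removed: for C, D in Ω different from A there is exactly one element of A conjugating C to D. -/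
theorem result {G : Type*} [Group G] {A B : Subgroup G} (h : Cfsg.IsRankOnePair A B) :
    (∃ C₁ ∈ Cfsg.unipotentSubgroups A B, ∃ C₂ ∈ Cfsg.unipotentSubgroups A B, ∃ C₃ ∈ Cfsg.unipotentSubgroups A B,
      C₁ ≠ C₂ ∧ C₁ ≠ C₃ ∧ C₂ ≠ C₃) ∧
    (∀ C₁ ∈ Cfsg.unipotentSubgroups A B, ∀ C₂ ∈ Cfsg.unipotentSubgroups A B, ∀ D₁ ∈ Cfsg.unipotentSubgroups A B,
      ∀ D₂ ∈ Cfsg.unipotentSubgroups A B, C₁ ≠ C₂ → D₁ ≠ D₂ →
        ∃ x ∈ A ⊔ B, Cfsg.conjBy C₁ x = D₁ ∧ Cfsg.conjBy C₂ x = D₂) ∧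
    (∀ C ∈ Cfsg.unipotentSubgroups A B, ∀ D ∈ Cfsg.unipotentSubgroups A B, C ≠ A → D ≠ A →
      ∃! a : G, a ∈ A ∧ Cfsg.conjBy C a = D) := by
  refine ⟨?_, ?_, ?_⟩
  · obtain ⟨a, ha, ha1⟩ := exists_ne_one_left h
    refine ⟨A, mem_unipotentSubgroups_self A B, B, mem_unipotentSubgroups_right h, conjBy B a,
      (mem_unipotentSubgroups_iff h).mpr (Or.inr ⟨a, ha, rfl⟩), h.ne,
      (conjBy_right_ne_left h ha).symm, ?_⟩
    intro hB
    exact ha1 (eq_one_of_mem_of_normalizes h ha (conjBy_eq_self_iff.mp hB.symm))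
  · intro C₁ hC₁ C₂ hC₂ D₁ hD₁ D₂ hD₂ hC hD
    obtain ⟨x, hx, hx1, hx2⟩ := to_std h hC₁ hC₂ hC
    obtain ⟨y, hy, hy1, hy2⟩ := to_std h hD₁ hD₂ hD
    refine ⟨y⁻¹ * x, (A ⊔ B).mul_mem ((A ⊔ B).inv_mem hy) hx, ?_, ?_⟩
    · rw [← conjBy_conjBy, hx1]
      rw [conjBy_eq_iff] at hy1
      exact hy1.symm
    · rw [← conjBy_conjBy, hx2]
      rw [conjBy_eq_iff] at hy2
      exact hy2.symm
  · intro C hC D hD hCA hDA
    rcases (mem_unipotentSubgroups_iff h).mp hC with h4 | ⟨a₁, ha₁, rfl⟩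
    · exact absurd h4 hCA
    rcases (mem_unipotentSubgroups_iff h).mp hD with h4 | ⟨a₂, ha₂, rfl⟩
    · exact absurd h4 hDA
    refine ⟨a₂ * a₁⁻¹, ⟨A.mul_mem ha₂ (A.inv_mem ha₁), ?_⟩, ?_⟩
    · rw [conjBy_conjBy]; simp
    · rintro a ⟨ha, hab⟩
      rw [conjBy_conjBy] at hab
      have h5 : conjBy B (a₂⁻¹ * (a * a₁)) = B := by
        rw [← conjBy_conjBy, hab, conjBy_conjBy]; simp [conjBy_one]
      have h6 := eq_one_of_mem_of_normalizes h
        (A.mul_mem (A.inv_mem ha₂) (A.mul_mem ha ha₁)) (conjBy_eq_self_iff.mp h5)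
      have : a = a₂ * a₁⁻¹ := by
        have h7 : a * a₁ = a₂ := by
          have := congrArg (fun t => a₂ * t) h6
          simpa [mul_assoc] using this
        rw [← h7]; group
      exact this

end Cfsg.Agent.S5014
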