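import Cfsg.Statements.S5015
import Cfsg.Agent.Helper26.RankOne

set_option autoImplicit false
open Cfsg

namespace Cfsg.Agent.S5015

open Cfsg.Agent.Helper26 in
/-- Let a group Y act doubly transitively on a set Ω with at least three points, and suppose that the stabilizer of a point α contains a nilpotent subgroup A, normalized by that stabilizer, which acts regularly on the points other than α. Then for any y in Y moving α, the subgroups A and y A y⁻¹ are the unipotent subgroups of a rank one group, and the normal closure of A in Y (the subgroup generated by all conjugates of A) is generated by A and y A y⁻¹ alone. -/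
theorem result {Y Ω : Type*} [Group Y] [MulAction Y Ω]
    (h2 : MulAction.IsMultiplyPretransitive Y Ω 2) (hΩ : 3 ≤ ENat.card Ω) (α : Ω) (A : Subgroup Y)
    (hA : A ≤ MulAction.stabilizer Y α) (hAn : ∀ y ∈ MulAction.stabilizer Y α, Cfsg.conjBy A y = A)
    (hnil : Group.IsNilpotent A) (hreg : ∀ β γ : Ω, β ≠ α → γ ≠ α → ∃! a : Y, a ∈ A ∧ a • β = γ)
    (y : Y) (hy : y ∉ MulAction.stabilizer Y α) :
    Cfsg.IsRankOnePair A (Cfsg.conjBy A y) ∧ Subgroup.normalClosure (A : Set Y) = A ⊔ Cfsg.conjBy A y := by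
  have hwd : ∀ g g' : Y, g • α = g' • α → conjBy A g = conjBy A g' := by
    intro g g' h
    have hs : g⁻¹ * g' ∈ MulAction.stabilizer Y α := by
      rw [MulAction.mem_stabilizer_iff, mul_smul, ← h, inv_smul_smul]
    have : g' = g * (g⁻¹ * g') := by group
    rw [this, ← conjBy_conjBy, hAn _ hs]
  have hβ : y • α ≠ α := fun h => hy (MulAction.mem_stabilizer_iff.mpr h)
  have hAα : ∀ a ∈ A, a • α = α := fun a ha => MulAction.mem_stabilizer_iff.mp (hA ha)
  have hBβ : ∀ b ∈ conjBy A y, b • (y • α) = y • α := by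
    rintro _ ⟨a, ha, rfl⟩
    show (y * a * y⁻¹) • (y • α) = y • α
    rw [mul_smul, mul_smul, inv_smul_smul, hAα a ha]
  have hA1 : ∀ a ∈ A, a • (y • α) = y • α → a = 1 := by
    intro a ha h
    obtain ⟨a0, -, huniq⟩ := hreg (y • α) (y • α) hβ hβ
    rw [huniq a ⟨ha, h⟩, huniq 1 ⟨A.one_mem, one_smul _ _⟩]
  have hBreg : ∀ γ δ : Ω, γ ≠ y • α → δ ≠ y • α → ∃ b ∈ conjBy A y, b • γ = δ := by
    intro γ δ hγ hδ
    have hγ' : y⁻¹ • γ ≠ α := by
      intro h; apply hγ; rw [← h, smul_inv_smul]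
    have hδ' : y⁻¹ • δ ≠ α := by
      intro h; apply hδ; rw [← h, smul_inv_smul]
    obtain ⟨a, ⟨ha, hab⟩, -⟩ := hreg _ _ hγ' hδ'
    refine ⟨y * a * y⁻¹, conj_mem_conjBy ha, ?_⟩
    rw [mul_smul, mul_smul, hab, smul_inv_smul]
  have hB1 : ∀ b ∈ conjBy A y, b • α = α → b = 1 := by
    rintro _ ⟨a, ha, rfl⟩ h
    have h' : (y * a * y⁻¹) • α = α := h
    have h3 : a • (y⁻¹ • α) = y⁻¹ • α := by
      rw [mul_smul, mul_smul] at h'
      have := congrArg (fun t => y⁻¹ • t) h'
      simpa using this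
    have hne : y⁻¹ • α ≠ α := by
      intro h2; apply hβ
      have := congrArg (fun t => y • t) h2
      simpa using this.symm
    obtain ⟨a0, -, huniq⟩ := hreg _ _ hne hne
    have ha1 : a = 1 := by rw [huniq a ⟨ha, h3⟩, huniq 1 ⟨A.one_mem, one_smul _ _⟩]
    show y * a * y⁻¹ = 1
    rw [ha1]; group
  obtain ⟨γ, hγα, hγβ⟩ : ∃ γ : Ω, γ ≠ α ∧ γ ≠ y • α := by
    by_contra hne
    simp only [not_exists, not_and, not_not] at hne
    have hsub : (Set.univ : Set Ω) ⊆ {α, y • α} := by
      intro γ _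
      by_cases h : γ = α
      · left; exact h
      · right; exact hne γ h
    have h1 : ENat.card Ω ≤ 2 := by
      rw [← Set.encard_univ]
      exact (Set.encard_le_encard hsub).trans (Set.encard_pair (Ne.symm hβ)).le
    have : (3 : ℕ∞) ≤ 2 := hΩ.trans h1
    exact absurd this (by decide)
  have hne : A ≠ conjBy A y := by
    intro hAB
    obtain ⟨a, ⟨ha, hab⟩, -⟩ := hreg (y • α) γ hβ hγα
    have ha' : a ∈ conjBy A y := by rw [← hAB]; exact ha
    have := hBβ a ha'
    rw [hab] at this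
    exact hγβ this
  have hconj_le : ∀ g : Y, conjBy A g ≤ A ⊔ conjBy A y := by
    intro g
    by_cases hg : g • α = α
    · rw [hAn g (MulAction.mem_stabilizer_iff.mpr hg)]; exact le_sup_left
    · obtain ⟨a, ⟨ha, hab⟩, -⟩ := hreg (y • α) (g • α) hβ hg
      have h3 : conjBy A g = conjBy A (a * y) := by
        apply hwd; rw [mul_smul, hab]
      rw [h3, ← conjBy_conjBy]
      rintro _ ⟨b, hb, rfl⟩
      show a * b * a⁻¹ ∈ A ⊔ conjBy A y
      have ha' : a ∈ A ⊔ conjBy A y := Subgroup.mem_sup_left ha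
      exact Subgroup.mul_mem _ (Subgroup.mul_mem _ ha' (Subgroup.mem_sup_right hb))
        (Subgroup.inv_mem _ ha')
  refine ⟨⟨hne, hnil, isNilpotent_conjBy hnil y, ?_, ?_⟩, ?_⟩
  · intro a ha ha1
    have h1 : a⁻¹ • (y • α) ≠ y • α := by
      intro h; apply ha1
      have := hA1 a⁻¹ (A.inv_mem ha) h; simpa using this
    have h2' : a⁻¹ • (y • α) ≠ α := by
      intro h; apply hβ
      have h3 := hAα a ha
      have := congrArg (fun t => a • t) h
      simp only [smul_inv_smul] at this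
      rw [this, h3]
    obtain ⟨b', hb', hb'γ⟩ := hBreg α (a⁻¹ • (y • α)) (Ne.symm hβ) h1
    refine ⟨b'⁻¹, (conjBy A y).inv_mem hb', ?_, ?_⟩
    · intro h; rw [inv_eq_one] at h; rw [h, one_smul] at hb'γ; exact h2' hb'γ.symm
    · rw [inv_inv, conjBy_conjBy]
      apply hwd
      rw [hb'γ, mul_smul]
  · intro b hb hb1
    have h1 : b⁻¹ • α ≠ α := by
      intro h; apply hb1
      have := hB1 b⁻¹ ((conjBy A y).inv_mem hb) h; simpa using this
    have h2' : b⁻¹ • α ≠ y • α := by
      intro h; apply hβ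
      have h3 := hBβ b hb
      have := congrArg (fun t => b • t) h
      simp only [smul_inv_smul] at this
      rw [h3] at this
      exact this.symm
    obtain ⟨a', ⟨ha', ha'γ⟩, -⟩ := hreg (y • α) (b⁻¹ • α) hβ h1
    refine ⟨a'⁻¹, A.inv_mem ha', ?_, ?_⟩
    · intro h; rw [inv_eq_one] at h; rw [h, one_smul] at ha'γ; exact h2' ha'γ.symm
    · rw [inv_inv, conjBy_conjBy]
      apply hwd
      rw [mul_smul, ha'γ]
  · apply le_antisymm
    · rw [Subgroup.normalClosure, Subgroup.closure_le]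
      intro x hx
      rw [Group.mem_conjugatesOfSet_iff] at hx
      obtain ⟨a, ha, hax⟩ := hx
      rw [isConj_iff] at hax
      obtain ⟨c, rfl⟩ := hax
      exact hconj_le c (conj_mem_conjBy ha)
    · apply sup_le Subgroup.le_normalClosure
      rintro _ ⟨a, ha, rfl⟩
      exact (Subgroup.normalClosure_normal).conj_mem _ (Subgroup.subset_normalClosure ha) y

end Cfsg.Agent.S5015
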