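import Cfsg.Statements.S5018
import Cfsg.Agent.Helper26.RankOne

set_option autoImplicit false
open Cfsg

namespace Cfsg.Agent.S5018

open Cfsg.Agent.Helper26 in
theorem center_le_normalizer {X : Type*} [Group X] (A : Subgroup X) :
    Subgroup.center X ≤ Subgroup.normalizer (A : Set X) := by
  intro z hz
  rw [Subgroup.mem_normalizer_iff]
  intro a
  have hza : z * a * z⁻¹ = a := by
    rw [Subgroup.mem_center_iff] at hz
    rw [← hz a]; group
  rw [hza]

open Cfsg.Agent.Helper26 in
/-- A rank one group is not nilpotent, and its second centre equals its centre. -/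
theorem result {X : Type*} [Group X] {A B : Subgroup X} (h : Cfsg.IsRankOneGroup X A B) :
    Subgroup.upperCentralSeries X 2 = Subgroup.center X ∧ ¬ Group.IsNilpotent X := by
  have hcenter : Subgroup.center X ≠ ⊤ := by
    intro hc
    apply not_forall_normalize h
    intro x
    apply conjBy_eq_self_iff.mpr
    have hx : x ∈ Subgroup.center X := by rw [hc]; trivial
    exact center_le_normalizer A hx
  have hZ2 : Subgroup.upperCentralSeries X 2 = Subgroup.center X := by
    rcases normal_sup_or_le_center h (Subgroup.upperCentralSeries X 2) inferInstance with h1 | h1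
    · exfalso
      have hconj : ∀ x : X, conjBy A x ≤ A ⊔ Subgroup.center X := by
        intro x
        have hx : x ∈ ((Subgroup.upperCentralSeries X 2 ⊔ A : Subgroup X) : Set X) := by
          rw [h1]; trivial
        rw [Subgroup.normal_mul] at hx
        obtain ⟨z, hz, a, ha, rfl⟩ := hx
        rw [← conjBy_conjBy, conjBy_of_mem ha]
        rintro _ ⟨a', ha', rfl⟩
        show z * a' * z⁻¹ ∈ A ⊔ Subgroup.center X
        have hc : z * a' * z⁻¹ * a'⁻¹ ∈ Subgroup.center X := by
          have := Subgroup.mem_upperCentralSeries_succ_iff.mp hz a'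
          rw [Subgroup.upperCentralSeries_one] at this
          exact this
        have : z * a' * z⁻¹ = (z * a' * z⁻¹ * a'⁻¹) * a' := by group
        rw [this]
        exact Subgroup.mul_mem _ (Subgroup.mem_sup_right hc) (Subgroup.mem_sup_left ha')
      have hB : B ≤ A ⊔ Subgroup.center X := by
        obtain ⟨x, -, hx⟩ := exists_conj_eq h.2
        rw [hx]; exact hconj x
      have hK : A ⊔ Subgroup.center X = ⊤ := by
        rw [eq_top_iff, ← h.1]
        exact sup_le le_sup_left hB
      apply not_forall_normalize h
      intro x
      apply conjBy_eq_self_iff.mpr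
      have hle : A ⊔ Subgroup.center X ≤ Subgroup.normalizer (A : Set X) :=
        sup_le Subgroup.le_normalizer (center_le_normalizer A)
      exact hle (by rw [hK]; trivial)
    · apply le_antisymm h1
      rw [← Subgroup.upperCentralSeries_one]
      exact Subgroup.upperCentralSeries_mono X (by norm_num)
  refine ⟨hZ2, fun hnil => ?_⟩
  have h1 : Subgroup.upperCentralSeries X 1 = ⊤ :=
    Subgroup.upperCentralSeries.eq_top (a := 1) (b := 2) (by norm_num)
      (by rw [Subgroup.upperCentralSeries_one, hZ2])
  rw [Subgroup.upperCentralSeries_one] at h1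
  exact hcenter h1

end Cfsg.Agent.S5018
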