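import Cfsg.Statements.S5024
import Cfsg.Agent.Helper26.RankOne
import Cfsg.Agent.S5028

set_option autoImplicit false
open Cfsg

namespace Cfsg.Agent.S5024

open Cfsg.Agent.Helper26 in
theorem mem_Omega {G : Type*} [Group G] {S : Set (Subgroup G)} (hS : Cfsg.IsRootSubgroupSet S)
    {A B C D : Subgroup G} (hA : A ∈ S) (hB : B ∈ S) (hAB : IsRankOnePair A B) (hC : C ∈ S)
    (hD : D ∈ S) (hCD : IsRankOnePair C D) (hAle : A ≤ C ⊔ D) (hBle : B ≤ C ⊔ D) :
    A ∈ Cfsg.unipotentSubgroups C D := by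
  by_contra hAΩ
  have hcomm : ∀ E ∈ unipotentSubgroups C D, ⁅A, E⁆ = ⊥ := by
    intro E hE
    have hES : E ∈ S := by
      obtain ⟨y, -, rfl⟩ := hE
      exact hS.conj_mem C hC y
    have hEle : E ≤ C ⊔ D := unipotent_le hE
    rcases hS.pair A hA E hES with h | h | h
    · exact h
    · exfalso
      obtain ⟨a, ha, ha1⟩ := exists_ne_one_left h
      obtain ⟨e, he, -, hae⟩ := cond_left' h ha ha1
      have h1 : conjBy E a ∈ unipotentSubgroups C D := conjBy_mem_unipotentSubgroups hE (hAle ha)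
      rw [← hae] at h1
      have h2 := conjBy_mem_unipotentSubgroups h1 ((C ⊔ D).inv_mem (hEle he))
      rw [conjBy_conjBy] at h2
      simp only [inv_mul_cancel, conjBy_one] at h2
      exact hAΩ h2
    · exfalso
      obtain ⟨hF, hcent, hgenA, -⟩ := h
      obtain ⟨a, ha, ha1⟩ := exists_ne_one_left hAB
      have hEa : conjBy E a = E := by
        by_contra hne
        have hEa' : conjBy E a ∈ unipotentSubgroups C D :=
          conjBy_mem_unipotentSubgroups hE (hAle ha)
        obtain ⟨E', hE', hEE'⟩ := unipotent_partner hS hD hCD hE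
        obtain ⟨e₀, he₀, he₀1⟩ := exists_ne_one_left hEE'
        apply he₀1
        apply eq_one_of_mem_of_normalizes_of_ne hCD hE hEa' (Ne.symm hne) he₀
        apply mem_normalizer_of_forall_comm
        rintro _ ⟨e, he, rfl⟩
        show a * e * a⁻¹ * e₀ = e₀ * (a * e * a⁻¹)
        have hw : a * e * a⁻¹ * e⁻¹ ∈ ⁅A, E⁆ := Subgroup.commutator_mem_commutator ha he
        have hwc := hcent _ hw e₀ (Subgroup.mem_sup_right he₀)
        have hcc := comm_of_isMulCommutative (hS.commutative E hES) he he₀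
        calc a * e * a⁻¹ * e₀ = (a * e * a⁻¹ * e⁻¹) * (e * e₀) := by group
          _ = (a * e * a⁻¹ * e⁻¹) * (e₀ * e) := by rw [hcc]
          _ = ((a * e * a⁻¹ * e⁻¹) * e₀) * e := by group
          _ = (e₀ * (a * e * a⁻¹ * e⁻¹)) * e := by rw [hwc]
          _ = e₀ * (a * e * a⁻¹) := by group
      have hFE : ⁅A, E⁆ ≤ E := by
        rw [← hgenA a ha ha1, Subgroup.closure_le]
        rintro _ ⟨e, he, rfl⟩
        show a * e * a⁻¹ * e⁻¹ ∈ E
        refine E.mul_mem ?_ (E.inv_mem he)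
        have : a * e * a⁻¹ ∈ conjBy E a := conj_mem_conjBy he
        rwa [hEa] at this
      obtain ⟨E', hE', hEE'⟩ := unipotent_partner hS hD hCD hE
      rcases Cfsg.Agent.S5028.result hS (not_isolated_of_partner hES hE' hEE') hES _ hF with h3 | h3
      · rw [inf_eq_right.mpr hFE] at h3
        exact hS.ne_bot _ hF h3
      · apply hS.ne_bot _ hF
        rw [← hgenA a ha ha1, eq_bot_iff]
        have h4 : (fun e : G => a * e * a⁻¹ * e⁻¹) '' (E : Set G) ⊆ {1} := by
          rintro _ ⟨e, he, rfl⟩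
          have he' : e ∈ ⁅A, E⁆ := by rw [← h3]; exact he
          have := hcent e he' a (Subgroup.mem_sup_left ha)
          simp only [Set.mem_singleton_iff]
          rw [← this]; group
        calc _ ≤ Subgroup.closure {1} := Subgroup.closure_mono h4
          _ = ⊥ := by simp
  obtain ⟨a, ha, ha1⟩ := exists_ne_one_left hAB
  apply ha1
  apply eq_one_of_mem_of_normalizes hAB ha
  apply mem_normalizer_of_forall_comm
  intro b hb
  have hz : a ∈ Subgroup.centralizer ((C ⊔ D : Subgroup G) : Set G) := by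
    apply mem_centralizer_sup
    · intro x hx
      exact (comm_of_commutator_eq_bot (hcomm C (mem_unipotentSubgroups_self C D)) ha hx).symm
    · intro x hx
      exact (comm_of_commutator_eq_bot (hcomm D (mem_unipotentSubgroups_right hCD)) ha hx).symm
  exact Subgroup.mem_centralizer_iff.mp hz b (hBle hb)

open Cfsg.Agent.Helper26 in
/-- Let S be a set of abstract root subgroups of G, A and C members of S, B a rank one partner of A in S and D a rank one partner of C in S. If the rank one group ⟨A, B⟩ is contained in ⟨C, D⟩ then the two coincide, and C and D are conjugates of A inside ⟨A, B⟩. -/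
theorem result {G : Type*} [Group G] {S : Set (Subgroup G)} (hS : Cfsg.IsRootSubgroupSet S)
    {A B C D : Subgroup G} (hA : A ∈ S) (hC : C ∈ S) (hB : B ∈ Cfsg.rankOnePartners S A) (hD : D ∈ Cfsg.rankOnePartners S C)
    (hle : A ⊔ B ≤ C ⊔ D) : A ⊔ B = C ⊔ D ∧ C ∈ Cfsg.unipotentSubgroups A B ∧ D ∈ Cfsg.unipotentSubgroups A B := by
  obtain ⟨hBS, hAB⟩ := hB
  obtain ⟨hDS, hCD⟩ := hD
  have hAle : A ≤ C ⊔ D := le_sup_left.trans hle
  have hBle : B ≤ C ⊔ D := le_sup_right.trans hle
  have hAΩ := mem_Omega hS hA hBS hAB hC hDS hCD hAle hBle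
  have hBΩ := mem_Omega hS hBS hA (RankOnePair_symm hAB) hC hDS hCD hBle hAle
  obtain ⟨y, hy, hy1, hy2⟩ := to_std hCD hAΩ hBΩ hAB.ne
  have heq : A ⊔ B = C ⊔ D := by
    have h1 : conjBy (A ⊔ B) y = C ⊔ D := by
      rw [← hy1, ← hy2]
      exact Subgroup.map_sup A B _
    rw [conjBy_eq_iff, conjBy_of_mem ((C ⊔ D).inv_mem hy)] at h1
    exact h1
  refine ⟨heq, ⟨y, by rw [heq]; exact hy, hy1.symm⟩, ?_⟩
  obtain ⟨x₀, hx₀, hBx⟩ := exists_conj_eq hAB
  refine ⟨y * x₀, (A ⊔ B).mul_mem (by rw [heq]; exact hy) hx₀, ?_⟩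
  rw [← conjBy_conjBy, ← hBx, hy2]

end Cfsg.Agent.S5024
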