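import Cfsg.Statements.S5026
import Cfsg.Agent.Helper26.RankOne
import Cfsg.Agent.S5025

set_option autoImplicit false
open Cfsg

namespace Cfsg.Agent.S5026

open Cfsg.Agent.Helper26 in
theorem aux {G : Type*} [Group G] {S : Set (Subgroup G)} (hS : Cfsg.IsRootSubgroupSet S) (hdeg : Cfsg.IsDegenerateRootSet S)
    {a b : G} {A B : Subgroup G} (hA : A ∈ S) (hB : B ∈ S) (haA : a ∈ A) (hbB : b ∈ B) (ha1 : a ≠ 1)
    (hb1 : b ≠ 1) (hab : a * b = b * a) (hab1 : a * b ≠ 1) {C : Subgroup G} (hC : C ∈ S)
    (hCab : ∀ c ∈ C, c * (a * b) = (a * b) * c) : ∀ c ∈ C, c * a = a * c := by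
  have hABc : ⁅A, B⁆ = ⊥ := by
    rcases hS.pair A hA B hB with h | h | h
    · exact h
    · exact absurd (eq_one_of_comm h (hS.commutative B hB) haA ha1 hbB hab) hb1
    · exact absurd h (hdeg A hA B hB)
  rcases hS.pair A hA C hC with h | h | h
  · intro c hc; exact (comm_of_commutator_eq_bot h haA hc).symm
  · exfalso
    have hz : a * b ∈ Subgroup.centralizer ((A ⊔ C : Subgroup G) : Set G) := by
      apply mem_centralizer_sup
      · intro x hx
        have h1 : Commute x a := comm_of_isMulCommutative (hS.commutative A hA) hx haA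
        have h2 : Commute x b := comm_of_commutator_eq_bot hABc hx hbB
        exact h1.mul_right h2
      · exact hCab
    have h3 := Cfsg.Agent.S5025.result hS hA ⟨hC, h⟩ hz hab1 a⁻¹ (A.inv_mem haA) (by simpa using ha1)
    apply h3
    have h4 : a * b * a⁻¹ = b := by rw [hab]; group
    rw [h4]
    exact ⟨hb1, B, hB, hbB⟩
  · exact absurd h (hdeg A hA C hC)

open Cfsg.Agent.Helper26 in
/-- Let S be a degenerate set of abstract root subgroups of G (a set of abstract transvection groups) and let a, b be commuting non-identity elements of members of S with a b ≠ 1. Then the members of S centralizing a b are exactly those centralizing both a and b. -/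
theorem result {G : Type*} [Group G] {S : Set (Subgroup G)} (hS : Cfsg.IsRootSubgroupSet S) (hdeg : Cfsg.IsDegenerateRootSet S)
    {a b : G} (ha : a ∈ Cfsg.rootElements S) (hb : b ∈ Cfsg.rootElements S) (hab : a * b = b * a) (hab1 : a * b ≠ 1) :
    Cfsg.centralizingMembers S (Subgroup.zpowers (a * b)) =
      Cfsg.centralizingMembers S (Subgroup.zpowers a) ∩ Cfsg.centralizingMembers S (Subgroup.zpowers b) := by
  obtain ⟨ha1, A, hA, haA⟩ := ha
  obtain ⟨hb1, B, hB, hbB⟩ := hb
  ext C
  constructor
  · rintro ⟨hC, hCc⟩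
    have hCab : ∀ c ∈ C, c * (a * b) = (a * b) * c := le_centralizer_zpowers_iff.mp hCc
    have hCa := aux hS hdeg hA hB haA hbB ha1 hb1 hab hab1 hC hCab
    have hCb : ∀ c ∈ C, c * b = b * c := by
      intro c hc
      have h1 : Commute c a := hCa c hc
      have h2 : Commute c (a * b) := hCab c hc
      have := h1.inv_right.mul_right h2
      rw [inv_mul_cancel_left] at this
      exact this
    exact ⟨⟨hC, le_centralizer_zpowers_iff.mpr hCa⟩, ⟨hC, le_centralizer_zpowers_iff.mpr hCb⟩⟩
  · rintro ⟨⟨hC, hCa⟩, ⟨-, hCb⟩⟩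
    refine ⟨hC, ?_⟩
    rw [le_centralizer_zpowers_iff] at *
    intro c hc
    exact ((show Commute c a from hCa c hc).mul_right (hCb c hc))

end Cfsg.Agent.S5026
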