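import Cfsg.Statements.S5027
import Cfsg.Agent.Helper26.RankOne

set_option autoImplicit false
open Cfsg

namespace Cfsg.Agent.S5027

open Cfsg.Agent.Helper26 in
theorem key {G : Type*} [Group G] {S : Set (Subgroup G)} (hS : Cfsg.IsRootSubgroupSet S)
    (hF : ∀ A ∈ S, ¬ Cfsg.IsIsolatedIn (Cfsg.FAdj S) S A) {z : G}
    (hθ : ∀ y : G, z * y * z⁻¹ * y⁻¹ ∈ Subgroup.center G) :
    ∀ A ∈ S, ∀ a ∈ A, z * a = a * z := by
  intro A hA
  obtain ⟨B, hB, hAB⟩ := exists_partner (hF A hA) hA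
  have hE : conjBy A z ∈ S := hS.conj_mem A hA z
  by_cases hEA : conjBy A z = A
  · intro a ha
    have h1 : z * a * z⁻¹ * a⁻¹ ∈ A := by
      refine A.mul_mem ?_ (A.inv_mem ha)
      have : z * a * z⁻¹ ∈ conjBy A z := conj_mem_conjBy ha
      rwa [hEA] at this
    have h2 := eq_one_of_mem_of_normalizes hAB h1 (center_le_normalizer B (hθ a))
    have : z * a = (z * a * z⁻¹ * a⁻¹) * (a * z) := by group
    rw [this, h2, one_mul]
  · exfalso
    obtain ⟨a, ha, ha1⟩ := exists_ne_one_left hAB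
    have he : z * a * z⁻¹ ∈ conjBy A z := conj_mem_conjBy ha
    have he1 : z * a * z⁻¹ ≠ 1 := by
      intro h
      apply ha1
      have : a = z⁻¹ * (z * a * z⁻¹) * z := by group
      rw [this, h]; group
    -- the central element θ
    have hθa := hθ a
    have hθc : ∀ g : G, g * (z * a * z⁻¹ * a⁻¹) = (z * a * z⁻¹ * a⁻¹) * g :=
      fun g => Subgroup.mem_center_iff.mp hθa g
    have hcomm : ∀ a₁ ∈ A, ∀ e₁ ∈ conjBy A z, e₁ * a₁ = a₁ * e₁ := by
      rintro a₁ ha₁ _ ⟨a₂, ha₂, rfl⟩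
      show z * a₂ * z⁻¹ * a₁ = a₁ * (z * a₂ * z⁻¹)
      have h2 := Subgroup.mem_center_iff.mp (hθ a₂) a₁
      have hcc := comm_of_isMulCommutative (hS.commutative A hA) ha₂ ha₁
      calc z * a₂ * z⁻¹ * a₁ = (z * a₂ * z⁻¹ * a₂⁻¹) * (a₂ * a₁) := by group
        _ = (z * a₂ * z⁻¹ * a₂⁻¹) * (a₁ * a₂) := by rw [hcc]
        _ = ((z * a₂ * z⁻¹ * a₂⁻¹) * a₁) * a₂ := by group
        _ = (a₁ * (z * a₂ * z⁻¹ * a₂⁻¹)) * a₂ := by rw [h2]
        _ = a₁ * (z * a₂ * z⁻¹) := by group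
    rcases hS.pair _ hE B hB with h1 | h1 | h1
    · apply ha1
      apply eq_one_of_mem_of_normalizes hAB ha
      apply mem_normalizer_of_forall_comm
      intro b hb
      have h2 := comm_of_commutator_eq_bot h1 he hb
      have h3 := hθc b
      calc b * a = (z * a * z⁻¹ * a⁻¹)⁻¹ * ((z * a * z⁻¹ * a⁻¹) * b) * a := by group
        _ = (z * a * z⁻¹ * a⁻¹)⁻¹ * (b * (z * a * z⁻¹ * a⁻¹)) * a := by rw [h3]
        _ = (z * a * z⁻¹ * a⁻¹)⁻¹ * (b * (z * a * z⁻¹)) := by group
        _ = (z * a * z⁻¹ * a⁻¹)⁻¹ * ((z * a * z⁻¹) * b) := by rw [h2]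
        _ = a * b := by group
    · obtain ⟨b', hb', hb'1, hb'e⟩ := cond_left' h1 he he1
      obtain ⟨b, hb, hb1, hbe⟩ := cond_left' hAB ha ha1
      have h2 : conjBy B (z * a * z⁻¹) = conjBy B a := by
        have : z * a * z⁻¹ = (z * a * z⁻¹ * a⁻¹) * a := by group
        rw [this, ← conjBy_conjBy, conjBy_of_mem_center _ hθa]
      have hEd : conjBy A z = conjBy A (b'⁻¹ * b) := by
        rw [← conjBy_conjBy A b, hbe, ← h2, ← hb'e, conjBy_conjBy]; simp [conjBy_one]
      by_cases hd : b'⁻¹ * b = 1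
      · rw [hd, conjBy_one] at hEd; exact hEA hEd
      · apply ha1
        apply eq_one_of_normalizes_conj hAB (B.mul_mem (B.inv_mem hb') hb) hd ha
        rw [← hEd]
        apply mem_normalizer_of_forall_comm
        intro e₁ he₁
        exact hcomm a ha e₁ he₁
    · obtain ⟨hD, hcent, -, -⟩ := h1
      obtain ⟨b₀, hb₀, hb₀1, hb₀x⟩ := cond_left' hAB ha ha1
      apply hb₀1
      apply eq_one_of_normalizes_conj' hAB ha ha1 hb₀
      apply mem_normalizer_of_forall_comm
      rintro _ ⟨b, hb, rfl⟩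
      show a * b * a⁻¹ * b₀ = b₀ * (a * b * a⁻¹)
      have hz : (z * a * z⁻¹) * b * (z * a * z⁻¹)⁻¹ * b⁻¹ ∈ ⁅conjBy A z, B⁆ :=
        Subgroup.commutator_mem_commutator he hb
      have hzc := hcent _ hz b₀ (Subgroup.mem_sup_right hb₀)
      have hcc := comm_of_isMulCommutative (hS.commutative B hB) hb hb₀
      have h3 := hθc b
      have h4 : (z * a * z⁻¹) * b * (z * a * z⁻¹)⁻¹ = a * b * a⁻¹ := by
        calc (z * a * z⁻¹) * b * (z * a * z⁻¹)⁻¹
            = ((z * a * z⁻¹ * a⁻¹) * (a * b * a⁻¹)) * (z * a * z⁻¹ * a⁻¹)⁻¹ := by group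
          _ = ((a * b * a⁻¹) * (z * a * z⁻¹ * a⁻¹)) * (z * a * z⁻¹ * a⁻¹)⁻¹ := by
              rw [hθc (a * b * a⁻¹)]
          _ = a * b * a⁻¹ := by group
      rw [h4] at hzc
      calc a * b * a⁻¹ * b₀ = (a * b * a⁻¹ * b⁻¹) * (b * b₀) := by group
        _ = (a * b * a⁻¹ * b⁻¹) * (b₀ * b) := by rw [hcc]
        _ = ((a * b * a⁻¹ * b⁻¹) * b₀) * b := by group
        _ = (b₀ * (a * b * a⁻¹ * b⁻¹)) * b := by rw [hzc]
        _ = b₀ * (a * b * a⁻¹) := by group

open Cfsg.Agent.Helper26 in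
/-- Let S be a set of abstract root subgroups of G such that every member of S has a rank one partner in S (the graph of rank one pairs on S has no isolated vertex). Then the second centre of G equals its centre. -/
theorem result {G : Type*} [Group G] {S : Set (Subgroup G)} (hS : Cfsg.IsRootSubgroupSet S)
    (hF : ∀ A ∈ S, ¬ Cfsg.IsIsolatedIn (Cfsg.FAdj S) S A) : Subgroup.upperCentralSeries G 2 = Subgroup.center G := by
  apply le_antisymm
  · intro z hz
    have hθ : ∀ y : G, z * y * z⁻¹ * y⁻¹ ∈ Subgroup.center G := by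
      intro y
      have := Subgroup.mem_upperCentralSeries_succ_iff.mp hz y
      rw [Subgroup.upperCentralSeries_one] at this
      exact this
    have hkey := key hS hF hθ
    rw [Subgroup.mem_center_iff]
    intro g
    have hle : (⨆ A ∈ S, A) ≤ Subgroup.centralizer ({z} : Set G) := by
      apply iSup₂_le
      intro A hA a ha
      rw [Subgroup.mem_centralizer_iff]
      intro m hm
      rw [Set.mem_singleton_iff] at hm
      rw [hm]
      exact hkey A hA a ha
    have hg : g ∈ Subgroup.centralizer ({z} : Set G) := hle (by rw [hS.generates]; trivial)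
    exact (Subgroup.mem_centralizer_iff.mp hg z rfl).symm
  · rw [← Subgroup.upperCentralSeries_one]
    exact Subgroup.upperCentralSeries_mono G (by norm_num)

end Cfsg.Agent.S5027
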