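import Cfsg.Statements.S5049
import Cfsg.Agent.Helper26.PCore

set_option autoImplicit false
open Cfsg

namespace Cfsg.Agent.S5049

open Cfsg.Agent.Helper26

variable {G : Type*} [Group G]

theorem sq_eq_one {D : Set G} (hD : IsRootInvolutionSet D) {d : G} (hd : d ∈ D) : d * d = 1 := by
  have := pow_orderOf_eq_one d
  rw [hD.orderOf_eq d hd, pow_two] at this
  exact this

theorem inv_eq_self {D : Set G} (hD : IsRootInvolutionSet D) {d : G} (hd : d ∈ D) : d⁻¹ = d :=
  inv_eq_of_mul_eq_one_left (sq_eq_one hD hd)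

/-- an element of odd order of a 2-subgroup is trivial -/
theorem eq_one_of_odd {Q : Subgroup G} (hQ : IsPGroup 2 Q) {x : G} (hx : x ∈ Q) {m : ℕ}
    (hm : Odd m) (hxm : x ^ m = 1) : x = 1 := by
  obtain ⟨k, hk⟩ := hQ ⟨x, hx⟩
  have hk' : x ^ (2 ^ k) = 1 := by
    have := congrArg Subtype.val hk
    simpa using this
  have h1 : orderOf x ∣ 2 ^ k := orderOf_dvd_of_pow_eq_one hk'
  have h2 : orderOf x ∣ m := orderOf_dvd_of_pow_eq_one hxm
  have h3 : Nat.Coprime (2 ^ k) m := Nat.Coprime.pow_left k (Nat.coprime_two_left.mpr hm)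
  have h4 : orderOf x ∣ 1 := by
    have := Nat.dvd_gcd h1 h2
    rwa [h3] at this
  exact orderOf_eq_one_iff.mp (Nat.dvd_one.mp h4)

theorem comm_conj [Finite G] {D : Set G} (hD : IsOddTranspositionSet D) {a e : G} (ha : a ∈ D)
    (he : e ∈ D) (hea : e * a = a * e) {q : G} (hq : q ∈ pCore 2 G) :
    e * (q * a * q⁻¹) = (q * a * q⁻¹) * e := by
  have hQn := pCore_normal 2 G
  have hQp := isPGroup_pCore 2 G
  have ha' : q * a * q⁻¹ ∈ D := hD.1.conj_mem a ha q
  rcases hD.1.pair e he _ ha' with h | h | h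
  · exact h
  · have haa := sq_eq_one hD.1 ha
    have hee := sq_eq_one hD.1 he
    have hc : a⁻¹ * q * a * q⁻¹ ∈ pCore 2 G := by
      have h1 : a⁻¹ * q * a⁻¹⁻¹ ∈ pCore 2 G := hQn.conj_mem q hq a⁻¹
      rw [inv_inv] at h1
      exact Subgroup.mul_mem _ h1 (Subgroup.inv_mem _ hq)
    have hea2 : (e * a) * (e * a) = 1 := by
      calc (e * a) * (e * a) = e * (a * e) * a := by group
        _ = e * (e * a) * a := by rw [hea]
        _ = (e * e) * (a * a) := by group
        _ = 1 := by rw [hee, haa, one_mul]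
    have hx : (e * (q * a * q⁻¹)) * (e * (q * a * q⁻¹)) ∈ pCore 2 G := by
      have h1 : e * (q * a * q⁻¹) = (e * a) * (a⁻¹ * q * a * q⁻¹) := by group
      have h2 : (e * a) * (a⁻¹ * q * a * q⁻¹) * (e * a)⁻¹ ∈ pCore 2 G := hQn.conj_mem _ hc _
      have h3 : (e * a)⁻¹ = e * a := inv_eq_of_mul_eq_one_left hea2
      have h4 : (e * (q * a * q⁻¹)) * (e * (q * a * q⁻¹)) =
          ((e * a) * (a⁻¹ * q * a * q⁻¹) * (e * a)⁻¹) * (a⁻¹ * q * a * q⁻¹) := by
        rw [h3, h1]; group
      rw [h4]; exact Subgroup.mul_mem _ h2 hc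
    have hx1 : (e * (q * a * q⁻¹)) * (e * (q * a * q⁻¹)) = 1 := by
      apply eq_one_of_odd hQp hx h
      rw [← pow_two, ← pow_mul, mul_comm, pow_mul, pow_orderOf_eq_one, one_pow]
    have h5 : orderOf (e * (q * a * q⁻¹)) ∣ 2 :=
      orderOf_dvd_of_pow_eq_one (by rw [pow_two]; exact hx1)
    have h6 : orderOf (e * (q * a * q⁻¹)) = 1 := by
      rcases (Nat.dvd_prime Nat.prime_two).mp h5 with h7 | h7
      · exact h7
      · rw [h7] at h; exact absurd h (by decide)
    have h7 : e * (q * a * q⁻¹) = 1 := orderOf_eq_one_iff.mp h6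
    have h8 : q * a * q⁻¹ = e⁻¹ := eq_inv_of_mul_eq_one_right h7
    rw [h8]; group
  · exact absurd h.1 (hD.2 e he _ ha')

theorem comm_of_comm_mul [Finite G] {D : Set G} (hD : IsOddTranspositionSet D) {a b : G}
    (ha : a ∈ D) (hb : b ∈ D) (hba : b ≠ a) (hodd : Odd (orderOf (a * b))) {q : G}
    (hq : q ∈ pCore 2 G) (hqt : q * (a * b) = a * b * q) : q * a = a * q := by
  have hQn := pCore_normal 2 G
  have hQp := isPGroup_pCore 2 G
  have haa := sq_eq_one hD.1 ha
  have hbb := sq_eq_one hD.1 hb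
  have ha' : q * a * q⁻¹ ∈ D := hD.1.conj_mem a ha q
  have ha'a' := sq_eq_one hD.1 ha'
  have hainv := inv_eq_self hD.1 ha
  have hbinv := inv_eq_self hD.1 hb
  have ha'inv := inv_eq_self hD.1 ha'
  have htinv : (a * b)⁻¹ = b * a := by rw [mul_inv_rev, hainv, hbinv]
  have hu : a * (q * a * q⁻¹) ∈ pCore 2 G := by
    have h1 : a * q * a⁻¹ ∈ pCore 2 G := hQn.conj_mem q hq a
    have h2 : a * (q * a * q⁻¹) = (a * q * a⁻¹) * q⁻¹ := by
      rw [hainv]; group
    rw [h2]; exact Subgroup.mul_mem _ h1 (Subgroup.inv_mem _ hq)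
  have hut : Commute (a * (q * a * q⁻¹)) (a * b) := by
    have h1 : a * (a * b) * a = b * a := by
      rw [← mul_assoc, haa, one_mul]
    have hq1 : q⁻¹ * (a * b) * q = a * b := by
      rw [mul_assoc, ← hqt]; group
    have h2 : (q * a * q⁻¹) * (a * b) * (q * a * q⁻¹) = b * a := by
      calc (q * a * q⁻¹) * (a * b) * (q * a * q⁻¹)
          = q * (a * (q⁻¹ * (a * b) * q) * a) * q⁻¹ := by group
        _ = q * (a * (a * b) * a) * q⁻¹ := by rw [hq1]
        _ = q * (b * a) * q⁻¹ := by rw [h1]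
        _ = q * (a * b)⁻¹ * q⁻¹ := by rw [htinv]
        _ = (a * b)⁻¹ := by
            have : Commute q (a * b)⁻¹ := (show Commute q (a * b) from hqt).inv_right
            rw [this.eq]; group
        _ = b * a := htinv
    show a * (q * a * q⁻¹) * (a * b) = a * b * (a * (q * a * q⁻¹))
    calc a * (q * a * q⁻¹) * (a * b)
        = a * ((q * a * q⁻¹) * (a * b) * (q * a * q⁻¹)) * (q * a * q⁻¹)⁻¹ := by group
      _ = a * (b * a) * (q * a * q⁻¹) := by rw [h2, ha'inv]
      _ = a * b * (a * (q * a * q⁻¹)) := by group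
  have hba' : b * (q * a * q⁻¹) = (a * b)⁻¹ * (a * (q * a * q⁻¹)) := by
    rw [htinv, mul_assoc b a, ← mul_assoc a a, haa, one_mul]
  -- orders
  have hm1 : orderOf (a * b) ≠ 1 := by
    intro h
    rw [orderOf_eq_one_iff] at h
    apply hba
    have : b = a⁻¹ := eq_inv_of_mul_eq_one_right h
    rw [this, hainv]
  obtain ⟨k, hk⟩ := hQp ⟨_, hu⟩
  have hk' : (a * (q * a * q⁻¹)) ^ (2 ^ k) = 1 := by
    have := congrArg Subtype.val hk
    simpa using this
  have hou : orderOf (a * (q * a * q⁻¹)) ∣ 2 ^ k := orderOf_dvd_of_pow_eq_one hk'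
  have hcop : Nat.Coprime (orderOf (a * b)⁻¹) (orderOf (a * (q * a * q⁻¹))) := by
    rw [orderOf_inv]
    exact Nat.Coprime.coprime_dvd_right hou
      (Nat.Coprime.pow_right k (Nat.coprime_two_right.mpr hodd))
  have hord : orderOf (b * (q * a * q⁻¹)) = orderOf (a * b) * orderOf (a * (q * a * q⁻¹)) := by
    rw [hba', Commute.orderOf_mul_eq_mul_orderOf_of_coprime hut.symm.inv_left hcop, orderOf_inv]
  have hu1 : a * (q * a * q⁻¹) = 1 := by
    rcases hD.1.pair b hb _ ha' with h | h | h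
    · exfalso
      have h2 : (b * (q * a * q⁻¹)) ^ 2 = 1 := by
        rw [pow_two]
        calc b * (q * a * q⁻¹) * (b * (q * a * q⁻¹))
            = b * ((q * a * q⁻¹) * b) * (q * a * q⁻¹) := by group
          _ = b * (b * (q * a * q⁻¹)) * (q * a * q⁻¹) := by rw [h]
          _ = (b * b) * ((q * a * q⁻¹) * (q * a * q⁻¹)) := by group
          _ = 1 := by rw [hbb, ha'a', one_mul]
      have h3 : orderOf (b * (q * a * q⁻¹)) ∣ 2 := orderOf_dvd_of_pow_eq_one h2
      rw [hord] at h3
      have h4 : orderOf (a * b) ∣ 2 := Dvd.dvd.trans (Dvd.intro _ rfl) h3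
      rcases (Nat.dvd_prime Nat.prime_two).mp h4 with h5 | h5
      · exact hm1 h5
      · rw [h5] at hodd; exact absurd hodd (by decide)
    · rw [hord, Nat.odd_mul] at h
      exact eq_one_of_odd hQp hu h.2 (pow_orderOf_eq_one _)
    · exact absurd h.1 (hD.2 b hb _ ha')
  have h9 : q * a * q⁻¹ = a := by
    have : q * a * q⁻¹ = a⁻¹ := eq_inv_of_mul_eq_one_right hu1
    rw [this, hainv]
  calc q * a = (q * a * q⁻¹) * q := by group
    _ = a * q := by rw [h9]

/-- Let G be a finite group generated by a set D of odd transpositions (root involutions with no product of order 4), Q = O₂(G), and for a ∈ D let Q_a be the commutator subgroup of Q with a. Then every member of D commuting with a centralizes Q_a; and for b ∈ D with ab of odd order greater than 1, the centralizer of ab in Q is the intersection of the centralizers of a and b in Q. -/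
theorem result {G : Type*} [Group G] [Finite G] {D : Set G} (hD : Cfsg.IsOddTranspositionSet D) {a : G} (ha : a ∈ D) :
    (∀ e ∈ Cfsg.commutingMembers D a, ∀ q ∈ ⁅Cfsg.pCore 2 G, Subgroup.zpowers a⁆, e * q = q * e) ∧
    (∀ b ∈ Cfsg.oddPartners D a,
      Cfsg.pCore 2 G ⊓ Subgroup.centralizer {a * b} = Cfsg.pCore 2 G ⊓ Subgroup.centralizer {a} ⊓ Subgroup.centralizer {b}) := by
  constructor
  · rintro e ⟨he, hea⟩ q hq
    have hle : ⁅pCore 2 G, Subgroup.zpowers a⁆ ≤ Subgroup.centralizer {e} := by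
      rw [Subgroup.commutator_le]
      rintro g hg _ ⟨n, rfl⟩
      rw [Subgroup.mem_centralizer_singleton_iff, commutatorElement_def]
      have h1 : Commute e (g * a * g⁻¹) := comm_conj hD ha he hea hg
      have h2 : Commute e a := hea
      have h3 : g * a ^ n * g⁻¹ = (g * a * g⁻¹) ^ n := by simp
      rw [h3]
      exact ((h1.zpow_right n).mul_right (h2.zpow_right n).inv_right).symm
    exact (Subgroup.mem_centralizer_singleton_iff.mp (hle hq)).symm
  · rintro b ⟨hb, hba, hodd⟩
    ext q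
    simp only [Subgroup.mem_inf, Subgroup.mem_centralizer_singleton_iff]
    constructor
    · rintro ⟨hq, hqt⟩
      have hqa : q * a = a * q := comm_of_comm_mul hD ha hb hba hodd hq hqt
      refine ⟨⟨hq, hqa⟩, ?_⟩
      have h1 : Commute q a := hqa
      have h2 : Commute q (a * b) := hqt
      have := h1.inv_right.mul_right h2
      rw [inv_mul_cancel_left] at this
      exact this
    · rintro ⟨⟨hq, hqa⟩, hqb⟩
      exact ⟨hq, (show Commute q a from hqa).mul_right hqb⟩

end Cfsg.Agent.S5049
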