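import Cfsg.Statements.S5057
import Cfsg.Agent.Helper26.AltSix

set_option autoImplicit false
open Cfsg

namespace Cfsg.Agent.S5057

open Cfsg.Agent.Helper26

/-- The involutions of the alternating group of degree 6 form a class of root involutions (a single conjugacy class of involutions generating the group, any two of which commute, have product of odd order, or have product of order 4 whose square is again an involution of the class), and the product of any two of them has order at most 5. -/
theorem result :
    Cfsg.IsRootInvolutionClass {g : ↥(alternatingGroup (Fin 6)) | orderOf g = 2} ∧
    ∀ d ∈ {g : ↥(alternatingGroup (Fin 6)) | orderOf g = 2}, ∀ e ∈ {g : ↥(alternatingGroup (Fin 6)) | orderOf g = 2},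
      orderOf (d * e) ≤ 5 := by
  exact altSix_rootInvolutions

end Cfsg.Agent.S5057
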