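import Mathlib
import Cfsg.Statements.S5070
import Cfsg.Agent.Helper6.PSpSimple
import Cfsg.Agent.Helper6.SpPerfect
import Cfsg.Agent.S0271
import Cfsg.Agent.S5016
import Cfsg.Agent.Helper26.RankOne

set_option autoImplicit false
open Matrix
open Cfsg

namespace Cfsg.Agent.S5070

section aux

open Cfsg.Agent.Helper6 Cfsg.Agent.Helper26 Matrix

variable {F : Type*} [Field F] {m : ℕ}

theorem sp_mem_of_isom (A : Matrix (Fin m ⊕ Fin m) (Fin m ⊕ Fin m) F)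
    (hg : ∀ u v, Cfsg.sympForm m F (A *ᵥ u) (A *ᵥ v) = Cfsg.sympForm m F u v) :
    A ∈ Matrix.symplecticGroup (Fin m) F := by
  classical
  rw [SymplecticGroup.mem_iff']
  ext i j
  have h := hg (Pi.single i 1) (Pi.single j 1)
  unfold Cfsg.sympForm at h
  rw [← Matrix.vecMul_transpose, ← Matrix.dotProduct_mulVec, Matrix.mulVec_mulVec,
    Matrix.mulVec_mulVec] at h
  simpa [Matrix.mulVec_single_one, Matrix.mul_assoc] using h

/-- the action of a 2×2 matrix on the hyperbolic plane `⟨e, f⟩`, extended by the identity -/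
noncomputable def Tl (e f : Fin m ⊕ Fin m → F) (M : Matrix (Fin 2) (Fin 2) F) :
    (Fin m ⊕ Fin m → F) →ₗ[F] (Fin m ⊕ Fin m → F) where
  toFun v := v + ((M 0 0 - 1) * Cfsg.sympForm m F v f - M 0 1 * Cfsg.sympForm m F v e) • e
      + (M 1 0 * Cfsg.sympForm m F v f - (M 1 1 - 1) * Cfsg.sympForm m F v e) • f
  map_add' v w := by
    simp only [sf_add_left]
    module
  map_smul' a v := by
    simp only [sf_smul_left, RingHom.id_apply]
    module

theorem Tl_apply (e f : Fin m ⊕ Fin m → F) (M : Matrix (Fin 2) (Fin 2) F)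
    (v : Fin m ⊕ Fin m → F) :
    Tl e f M v = v + ((M 0 0 - 1) * Cfsg.sympForm m F v f - M 0 1 * Cfsg.sympForm m F v e) • e
      + (M 1 0 * Cfsg.sympForm m F v f - (M 1 1 - 1) * Cfsg.sympForm m F v e) • f := rfl

theorem Tl_f (e f : Fin m ⊕ Fin m → F) (hef : Cfsg.sympForm m F e f = 1)
    (M : Matrix (Fin 2) (Fin 2) F) (v : Fin m ⊕ Fin m → F) :
    Cfsg.sympForm m F (Tl e f M v) f
      = M 0 0 * Cfsg.sympForm m F v f - M 0 1 * Cfsg.sympForm m F v e := by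
  rw [Tl_apply, sf_add_left, sf_add_left, sf_smul_left, sf_smul_left, hef, sf_self]
  ring

theorem Tl_e (e f : Fin m ⊕ Fin m → F) (hef : Cfsg.sympForm m F e f = 1)
    (M : Matrix (Fin 2) (Fin 2) F) (v : Fin m ⊕ Fin m → F) :
    Cfsg.sympForm m F (Tl e f M v) e
      = M 1 1 * Cfsg.sympForm m F v e - M 1 0 * Cfsg.sympForm m F v f := by
  have hfe : Cfsg.sympForm m F f e = -1 := by rw [sf_swap, hef]
  rw [Tl_apply, sf_add_left, sf_add_left, sf_smul_left, sf_smul_left, hfe, sf_self]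
  ring

theorem Tl_mul (e f : Fin m ⊕ Fin m → F) (hef : Cfsg.sympForm m F e f = 1)
    (M N : Matrix (Fin 2) (Fin 2) F) (v : Fin m ⊕ Fin m → F) :
    Tl e f (M * N) v = Tl e f M (Tl e f N v) := by
  rw [Tl_apply e f M, Tl_f e f hef, Tl_e e f hef, Tl_apply, Tl_apply]
  simp only [Matrix.mul_apply, Fin.sum_univ_two]
  module

theorem Tl_one (e f : Fin m ⊕ Fin m → F) (v : Fin m ⊕ Fin m → F) :
    Tl e f 1 v = v := by
  rw [Tl_apply]
  simp

theorem Tl_isom (e f : Fin m ⊕ Fin m → F) (hef : Cfsg.sympForm m F e f = 1)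
    (M : Matrix (Fin 2) (Fin 2) F) (hM : M.det = 1) (v w : Fin m ⊕ Fin m → F) :
    Cfsg.sympForm m F (Tl e f M v) (Tl e f M w) = Cfsg.sympForm m F v w := by
  have hfe : Cfsg.sympForm m F f e = -1 := by rw [sf_swap, hef]
  rw [Matrix.det_fin_two] at hM
  have h1 := sf_swap e w
  have h2 := sf_swap f w
  rw [Tl_apply, Tl_apply]
  simp only [sf_add_left, sf_add_right, sf_smul_left, sf_smul_right, sf_self, hef, hfe, h1, h2]
  linear_combination (Cfsg.sympForm m F v e * Cfsg.sympForm m F w f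
    - Cfsg.sympForm m F v f * Cfsg.sympForm m F w e) * hM

theorem toMat_mulVec (g : (Fin m ⊕ Fin m → F) →ₗ[F] (Fin m ⊕ Fin m → F))
    (x : Fin m ⊕ Fin m → F) : LinearMap.toMatrix' g *ᵥ x = g x := by
  rw [← Matrix.toLin'_apply, Matrix.toLin'_toMatrix']

/-- the homomorphism `SL₂(F) → Sp` attached to a hyperbolic pair -/
noncomputable def phi (e f : Fin m ⊕ Fin m → F) (hef : Cfsg.sympForm m F e f = 1) :
    Matrix.SpecialLinearGroup (Fin 2) F →* Matrix.symplecticGroup (Fin m) F where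
  toFun M := ⟨LinearMap.toMatrix' (Tl e f M.1), sp_mem_of_isom _ (fun u v => by
    rw [toMat_mulVec, toMat_mulVec]
    exact Tl_isom e f hef M.1 M.2 u v)⟩
  map_one' := by
    apply sp_ext
    intro x
    show LinearMap.toMatrix' (Tl e f (1 : Matrix (Fin 2) (Fin 2) F)) *ᵥ x = _
    rw [toMat_mulVec, sp_coe_one, Matrix.one_mulVec]
    exact Tl_one e f x
  map_mul' M N := by
    apply sp_ext
    intro x
    rw [sp_coe_mul, ← Matrix.mulVec_mulVec]
    show LinearMap.toMatrix' (Tl e f (M.1 * N.1)) *ᵥ x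
      = LinearMap.toMatrix' (Tl e f M.1) *ᵥ (LinearMap.toMatrix' (Tl e f N.1) *ᵥ x)
    rw [toMat_mulVec, toMat_mulVec, toMat_mulVec]
    exact Tl_mul e f hef M.1 N.1 x

theorem phi_mulVec (e f : Fin m ⊕ Fin m → F) (hef : Cfsg.sympForm m F e f = 1)
    (M : Matrix.SpecialLinearGroup (Fin 2) F) (x : Fin m ⊕ Fin m → F) :
    (phi e f hef M : Matrix (Fin m ⊕ Fin m) (Fin m ⊕ Fin m) F) *ᵥ x = Tl e f M.1 x :=
  toMat_mulVec _ x

theorem phi_up (e f : Fin m ⊕ Fin m → F) (hef : Cfsg.sympForm m F e f = 1) (t : F) :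
    phi e f hef (Cfsg.Agent.S5016.up t) = tvS e (-t) := by
  apply sp_ext
  intro x
  rw [phi_mulVec, tvS_mulVec, Tl_apply]
  show x + (((1 : F) - 1) * Cfsg.sympForm m F x f - t * Cfsg.sympForm m F x e) • e
      + ((0 : F) * Cfsg.sympForm m F x f - ((1 : F) - 1) * Cfsg.sympForm m F x e) • f = _
  module

theorem phi_lo (e f : Fin m ⊕ Fin m → F) (hef : Cfsg.sympForm m F e f = 1) (t : F) :
    phi e f hef (Cfsg.Agent.S5016.lo t) = tvS f t := by
  apply sp_ext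
  intro x
  rw [phi_mulVec, tvS_mulVec, Tl_apply]
  show x + (((1 : F) - 1) * Cfsg.sympForm m F x f - 0 * Cfsg.sympForm m F x e) • e
      + (t * Cfsg.sympForm m F x f - ((1 : F) - 1) * Cfsg.sympForm m F x e) • f = _
  module

theorem phi_map_upper (e f : Fin m ⊕ Fin m → F) (hef : Cfsg.sympForm m F e f = 1) :
    (Cfsg.upperUnipotentSL2 F).map (phi e f hef) = tvGrp e := by
  ext A
  rw [Subgroup.mem_map]
  constructor
  · rintro ⟨M, hM, rfl⟩
    obtain ⟨t, rfl⟩ := Cfsg.Agent.S5016.mem_upper.1 hM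
    exact ⟨-t, phi_up e f hef t⟩
  · rintro ⟨c, rfl⟩
    exact ⟨Cfsg.Agent.S5016.up (-c), Cfsg.Agent.S5016.up_mem _, by rw [phi_up, neg_neg]⟩

theorem phi_map_lower (e f : Fin m ⊕ Fin m → F) (hef : Cfsg.sympForm m F e f = 1) :
    (Cfsg.lowerUnipotentSL2 F).map (phi e f hef) = tvGrp f := by
  ext A
  rw [Subgroup.mem_map]
  constructor
  · rintro ⟨M, hM, rfl⟩
    obtain ⟨t, rfl⟩ := Cfsg.Agent.S5016.mem_lower.1 hM
    exact ⟨t, phi_lo e f hef t⟩
  · rintro ⟨c, rfl⟩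
    exact ⟨Cfsg.Agent.S5016.lo c, Cfsg.Agent.S5016.lo_mem _, phi_lo e f hef c⟩

theorem phi_range (e f : Fin m ⊕ Fin m → F) (hef : Cfsg.sympForm m F e f = 1) :
    (phi e f hef).range = tvGrp e ⊔ tvGrp f := by
  rw [MonoidHom.range_eq_map, ← (Cfsg.Agent.S5016.result F).1.1, Subgroup.map_sup,
    phi_map_upper, phi_map_lower, sup_comm]

theorem phi_ker (e f : Fin m ⊕ Fin m → F) (hef : Cfsg.sympForm m F e f = 1) :
    (phi e f hef).ker ≤ Subgroup.center (Matrix.SpecialLinearGroup (Fin 2) F) := by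
  intro M hM
  rw [MonoidHom.mem_ker] at hM
  have h1 : ∀ v, Tl e f M.1 v = v := by
    intro v
    rw [← phi_mulVec e f hef, hM, sp_coe_one, Matrix.one_mulVec]
  have hfe : Cfsg.sympForm m F f e = -1 := by rw [sf_swap, hef]
  have ha : M.1 0 0 = 1 := by
    have h := Tl_f e f hef M.1 e
    rw [h1, hef, sf_self] at h
    linear_combination -h
  have hc : M.1 1 0 = 0 := by
    have h := Tl_e e f hef M.1 e
    rw [h1, hef, sf_self] at h
    linear_combination h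
  have hb : M.1 0 1 = 0 := by
    have h := Tl_f e f hef M.1 f
    rw [h1, hfe, sf_self] at h
    linear_combination -h
  have hd : M.1 1 1 = 1 := by
    have h := Tl_e e f hef M.1 f
    rw [h1, hfe, sf_self] at h
    linear_combination h
  have hM1 : M = 1 := by
    ext i j
    fin_cases i <;> fin_cases j <;> simp [ha, hb, hc, hd]
  rw [hM1]
  exact Subgroup.one_mem _

theorem tvS_ne_one (p : Fin m ⊕ Fin m → F) (hp : p ≠ 0) (c : F) (hc : c ≠ 0) : tvS p c ≠ 1 := by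
  intro h
  obtain ⟨x, hx⟩ := Cfsg.Agent.S0768.nondeg p hp
  have h1 := tvS_mulVec p c x
  rw [h, sp_coe_one, Matrix.one_mulVec] at h1
  have h2 : (c * Cfsg.sympForm m F x p) • p = 0 := by simpa using h1.symm
  rcases smul_eq_zero.1 h2 with h3 | h3
  · rcases mul_eq_zero.1 h3 with h4 | h4
    · exact hc h4
    · apply hx
      rw [sf_swap, h4, neg_zero]
  · exact hp h3

theorem tvS_comm_of (p r : Fin m ⊕ Fin m → F) (h : Cfsg.sympForm m F p r = 0) (c d : F) :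
    tvS p c * tvS r d = tvS r d * tvS p c := by
  apply sp_ext
  intro x
  have h' : Cfsg.sympForm m F r p = 0 := by rw [sf_swap, h, neg_zero]
  rw [sp_coe_mul, sp_coe_mul, ← Matrix.mulVec_mulVec, ← Matrix.mulVec_mulVec, tvS_mulVec,
    tvS_mulVec, tvS_mulVec, tvS_mulVec]
  simp only [sf_add_left, sf_smul_left, h, h', mul_zero, add_zero]
  module

theorem tvS_comm_imp (p r : Fin m ⊕ Fin m → F) (hp : p ≠ 0) (c d : F)
    (h : tvS p c * tvS r d = tvS r d * tvS p c) : c * d * Cfsg.sympForm m F p r = 0 := by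
  have h1 : ((tvS p c * tvS r d : Matrix.symplecticGroup (Fin m) F) :
        Matrix (Fin m ⊕ Fin m) (Fin m ⊕ Fin m) F) *ᵥ p
      = ((tvS r d * tvS p c : Matrix.symplecticGroup (Fin m) F) :
        Matrix (Fin m ⊕ Fin m) (Fin m ⊕ Fin m) F) *ᵥ p := by rw [h]
  rw [sp_coe_mul, sp_coe_mul, ← Matrix.mulVec_mulVec, ← Matrix.mulVec_mulVec, tvS_mulVec,
    tvS_mulVec, tvS_mulVec, tvS_mulVec] at h1
  simp only [sf_add_left, sf_smul_left, sf_self, mul_zero, zero_smul, add_zero] at h1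
  have h2 : (c * (d * Cfsg.sympForm m F p r * Cfsg.sympForm m F r p)) • p = 0 := by
    simpa using h1
  rcases smul_eq_zero.1 h2 with h3 | h3
  · rw [sf_swap r p] at h3
    have h4 : (c * d * Cfsg.sympForm m F p r) * Cfsg.sympForm m F p r = 0 := by
      linear_combination -h3
    rcases mul_eq_zero.1 h4 with h5 | h5
    · exact h5
    · rw [h5, mul_zero]
  · exact absurd h3 hp

theorem tvGrp_comm (p : Fin m ⊕ Fin m → F) : IsMulCommutative (tvGrp p) :=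
  ⟨⟨by
    rintro ⟨_, ⟨c, rfl⟩⟩ ⟨_, ⟨d, rfl⟩⟩
    apply Subtype.ext
    show tvS p c * tvS p d = tvS p d * tvS p c
    rw [tvS_mul, tvS_mul, add_comm]⟩⟩

theorem conjBy_tv (g : Matrix.symplecticGroup (Fin m) F) (w : Fin m ⊕ Fin m → F) :
    Cfsg.conjBy (tvGrp w) g
      = tvGrp ((g : Matrix (Fin m ⊕ Fin m) (Fin m ⊕ Fin m) F) *ᵥ w) :=
  (tvGrp_conj g w).symm

theorem tvGrp_ne (p r : Fin m ⊕ Fin m → F) (hp : p ≠ 0) (hκ : Cfsg.sympForm m F p r ≠ 0) :
    tvGrp p ≠ tvGrp r := by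
  intro h
  have h1 : tvS p 1 ∈ tvGrp r := by
    rw [← h]
    exact ⟨1, rfl⟩
  obtain ⟨d, hd⟩ := h1
  have h2 : tvS p 1 * tvS r 1 = tvS r 1 * tvS p 1 := by
    rw [hd, tvS_mul, tvS_mul, add_comm]
  have h3 := tvS_comm_imp p r hp 1 1 h2
  rw [one_mul, one_mul] at h3
  exact hκ h3

theorem tv_rank_one_cond (p r : Fin m ⊕ Fin m → F) (hp : p ≠ 0) (hr : r ≠ 0)
    (hκ : Cfsg.sympForm m F p r ≠ 0) : Cfsg.RankOneCondition (tvGrp p) (tvGrp r) := by
  intro a ha ha1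
  obtain ⟨c, rfl⟩ := ha
  have hc : c ≠ 0 := by
    rintro rfl
    exact ha1 (tvS_zero p)
  refine ⟨tvS r (-(c * Cfsg.sympForm m F p r ^ 2)⁻¹), ⟨_, rfl⟩,
    tvS_ne_one r hr _ (neg_ne_zero.2 (inv_ne_zero (mul_ne_zero hc (pow_ne_zero 2 hκ)))), ?_⟩
  rw [tvS_inv, tvS_inv, conjBy_tv, conjBy_tv, tvS_mulVec, tvS_mulVec, neg_neg]
  have e1 : p + ((c * Cfsg.sympForm m F p r ^ 2)⁻¹ * Cfsg.sympForm m F p r) • r
      = (c * Cfsg.sympForm m F p r)⁻¹ • (r + (-c * Cfsg.sympForm m F r p) • p) := by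
    rw [sf_swap r p, smul_add, smul_smul, add_comm]
    congr 1
    · congr 1
      field_simp
    · have : (c * Cfsg.sympForm m F p r)⁻¹ * (-c * -Cfsg.sympForm m F p r) = 1 := by
        field_simp
      rw [this, one_smul]
  rw [e1, tvGrp_smul _ (inv_ne_zero (mul_ne_zero hc hκ))]

theorem tv_rank_one (p r : Fin m ⊕ Fin m → F) (hp : p ≠ 0) (hr : r ≠ 0)
    (hκ : Cfsg.sympForm m F p r ≠ 0) : Cfsg.IsRankOnePair (tvGrp p) (tvGrp r) :=
  ⟨tvGrp_ne p r hp hκ, isNilpotent_of_isMulCommutative (tvGrp_comm p),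
    isNilpotent_of_isMulCommutative (tvGrp_comm r), tv_rank_one_cond p r hp hr hκ,
    tv_rank_one_cond r p hr hp (by rw [sf_swap]; exact neg_ne_zero.2 hκ)⟩

theorem not_rank_one_of_perp (p r : Fin m ⊕ Fin m → F) (hp : p ≠ 0)
    (h0 : Cfsg.sympForm m F p r = 0) : ¬ Cfsg.IsRankOnePair (tvGrp p) (tvGrp r) := by
  intro h
  obtain ⟨b, hb, -, hconj⟩ := h.cond_left (tvS p 1) ⟨1, rfl⟩ (tvS_ne_one p hp 1 one_ne_zero)
  obtain ⟨d, rfl⟩ := hb
  rw [tvS_inv, tvS_inv, conjBy_tv, conjBy_tv, tvS_mulVec, tvS_mulVec, h0, sf_swap r p, h0] at hconj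
  simp only [mul_zero, neg_zero, zero_smul, add_zero] at hconj
  exact h.ne hconj

theorem tv_comm_bot (p r : Fin m ⊕ Fin m → F) (h0 : Cfsg.sympForm m F p r = 0) :
    ⁅tvGrp p, tvGrp r⁆ = ⊥ := by
  rw [Subgroup.commutator_eq_bot_iff_le_centralizer]
  rintro _ ⟨c, rfl⟩ _ ⟨d, rfl⟩
  exact (tvS_comm_of p r h0 c d).symm

/-- the set of symplectic transvection subgroups -/
def rootSet (m : ℕ) (F : Type*) [Field F] : Set (Subgroup (Matrix.symplecticGroup (Fin m) F)) :=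
  {A | ∃ p : Fin m ⊕ Fin m → F, p ≠ 0 ∧ A = tvGrp p}

theorem root_isSet (m : ℕ) : Cfsg.IsRootSubgroupSet (rootSet m F) where
  commutative := by
    rintro _ ⟨p, hp, rfl⟩
    exact tvGrp_comm p
  ne_bot := by
    rintro _ ⟨p, hp, rfl⟩ h
    have h1 : tvS p 1 ∈ tvGrp p := ⟨1, rfl⟩
    rw [h, Subgroup.mem_bot] at h1
    exact tvS_ne_one p hp 1 one_ne_zero h1
  generates := by
    rw [eq_top_iff, ← Cfsg.Agent.S0765.result m, Subgroup.closure_le]
    rintro A ⟨w, c, hA⟩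
    have hA' : A = tvS w c := Subtype.ext hA
    by_cases hw : w = 0
    · rw [hA', hw, tvS_zero_vec]
      exact Subgroup.one_mem _
    · exact Subgroup.mem_iSup_of_mem (tvGrp w)
        (Subgroup.mem_iSup_of_mem ⟨w, hw, rfl⟩ ⟨c, hA'⟩)
  conj_mem := by
    rintro _ ⟨p, hp, rfl⟩ g
    exact ⟨_, sp_mulVec_ne_zero g p hp, conjBy_tv g p⟩
  pair := by
    rintro _ ⟨p, hp, rfl⟩ _ ⟨r, hr, rfl⟩
    by_cases h0 : Cfsg.sympForm m F p r = 0
    · exact Or.inl (tv_comm_bot p r h0)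
    · exact Or.inr (Or.inl (tv_rank_one p r hp hr h0))

theorem root_conj (m : ℕ) : Cfsg.IsConjClassOfSubgroups (rootSet (m + 1) F) := by
  classical
  refine ⟨⟨tvGrp (Pi.single (Sum.inl 0) 1), _, ?_, rfl⟩, ?_⟩
  · intro h
    have := congrFun h (Sum.inl 0)
    simp at this
  · rintro _ ⟨p, hp, rfl⟩ _ ⟨r, hr, rfl⟩
    obtain ⟨g, hg⟩ := Cfsg.Agent.S0271.result (m + 1) p r hp hr
    exact ⟨g, by rw [conjBy_tv]; exact congrArg tvGrp hg.symm⟩

theorem root_degenerate (m : ℕ) : Cfsg.IsDegenerateRootSet (rootSet m F) := by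
  rintro _ ⟨p, hp, rfl⟩ _ ⟨r, hr, rfl⟩ ⟨h1, h2, -, -⟩
  by_cases h0 : Cfsg.sympForm m F p r = 0
  · rw [tv_comm_bot p r h0] at h1
    obtain ⟨s, hs, hs'⟩ := h1
    exact (root_isSet m).ne_bot _ ⟨s, hs, rfl⟩ hs'.symm
  · have hc : tvS p (1 : F) * tvS r (1 : F) * (tvS p (1 : F))⁻¹ * (tvS r (1 : F))⁻¹
        ∈ ⁅tvGrp p, tvGrp r⁆ :=
      Subgroup.commutator_mem_commutator (g₁ := tvS p (1 : F)) (g₂ := tvS r (1 : F))
        ⟨1, rfl⟩ ⟨1, rfl⟩
    have h3 := h2 _ hc (tvS p 1) (Subgroup.mem_sup_left ⟨1, rfl⟩)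
    have h4 : (tvS r 1 * (tvS p 1)⁻¹ * (tvS r 1)⁻¹) * tvS p 1
        = tvS p 1 * (tvS r 1 * (tvS p 1)⁻¹ * (tvS r 1)⁻¹) := by
      have h5 := congrArg (fun z => (tvS p 1)⁻¹ * z) h3
      simp only [mul_assoc, inv_mul_cancel_left] at h5
      simpa [mul_assoc] using h5
    rw [tvS_inv p, tvS_conj] at h4
    have h5 := tvS_comm_imp _ p (sp_mulVec_ne_zero (tvS r 1) p hp) (-1) 1 h4
    rw [tvS_mulVec, sf_add_left, sf_smul_left, sf_self, sf_swap r p] at h5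
    have h6 : Cfsg.sympForm m F p r * Cfsg.sympForm m F p r = 0 := by
      linear_combination h5
    rcases mul_eq_zero.1 h6 with h7 | h7 <;> exact h0 h7

theorem root_kroot (m : ℕ) : Cfsg.IsKRootSubgroupSet F (rootSet m F) := by
  refine ⟨root_isSet m, ?_⟩
  rintro _ ⟨p, hp, rfl⟩ _ ⟨r, hr, rfl⟩ hpair
  have hκ : Cfsg.sympForm m F p r ≠ 0 := fun h0 => not_rank_one_of_perp p r hp h0 hpair
  have hef : Cfsg.sympForm m F p ((Cfsg.sympForm m F p r)⁻¹ • r) = 1 := by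
    rw [sf_smul_right, inv_mul_cancel₀ hκ]
  have hB : tvGrp ((Cfsg.sympForm m F p r)⁻¹ • r) = tvGrp r := tvGrp_smul _ (inv_ne_zero hκ) r
  rw [← hB]
  exact ⟨phi p _ hef, phi_range p _ hef, phi_ker p _ hef, phi_map_upper p _ hef,
    phi_map_lower p _ hef⟩

theorem root_connected (m : ℕ) :
    Cfsg.IsConnectedFamily (Cfsg.FAdj (rootSet m F)) (rootSet m F) := by
  rintro _ ⟨p, hp, rfl⟩ _ ⟨r, hr, rfl⟩
  by_cases h0 : Cfsg.sympForm m F p r = 0
  · obtain ⟨s, hs1, hs2⟩ : ∃ s, Cfsg.sympForm m F p s ≠ 0 ∧ Cfsg.sympForm m F s r ≠ 0 := by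
      obtain ⟨x, hx⟩ := Cfsg.Agent.S0768.nondeg p hp
      obtain ⟨y, hy⟩ := Cfsg.Agent.S0768.nondeg r hr
      by_cases h1 : Cfsg.sympForm m F r x = 0
      · by_cases h2 : Cfsg.sympForm m F p y = 0
        · refine ⟨x + y, ?_, ?_⟩
          · rw [sf_add_right, h2, add_zero]
            exact hx
          · rw [sf_swap, sf_add_right, h1, zero_add]
            exact neg_ne_zero.2 hy
        · exact ⟨y, h2, by rw [sf_swap]; exact neg_ne_zero.2 hy⟩
      · exact ⟨x, hx, by rw [sf_swap]; exact neg_ne_zero.2 h1⟩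
    have hs0 : s ≠ 0 := by
      rintro rfl
      exact hs2 (sf_zero_left r)
    exact Relation.ReflTransGen.head ⟨⟨p, hp, rfl⟩, ⟨s, hs0, rfl⟩, tv_rank_one p s hp hs0 hs1⟩
      (Relation.ReflTransGen.single ⟨⟨s, hs0, rfl⟩, ⟨r, hr, rfl⟩, tv_rank_one s r hs0 hr hs2⟩)
  · exact Relation.ReflTransGen.single ⟨⟨p, hp, rfl⟩, ⟨r, hr, rfl⟩, tv_rank_one p r hp hr h0⟩

theorem set_eq (m : ℕ) :
    {A : Subgroup ↥(Matrix.symplecticGroup (Fin m) F) | ∃ p : Fin m ⊕ Fin m → F, p ≠ 0 ∧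
        A = Subgroup.closure {g : ↥(Matrix.symplecticGroup (Fin m) F) | ∃ c : F,
          ∀ v : Fin m ⊕ Fin m → F,
          (g : Matrix (Fin m ⊕ Fin m) (Fin m ⊕ Fin m) F) *ᵥ v =
            v + (c * (v ⬝ᵥ (Matrix.J (Fin m) F *ᵥ p))) • p}} = rootSet m F := by
  have key : ∀ p : Fin m ⊕ Fin m → F,
      Subgroup.closure {g : ↥(Matrix.symplecticGroup (Fin m) F) | ∃ c : F,
          ∀ v : Fin m ⊕ Fin m → F,
          (g : Matrix (Fin m ⊕ Fin m) (Fin m ⊕ Fin m) F) *ᵥ v =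
            v + (c * (v ⬝ᵥ (Matrix.J (Fin m) F *ᵥ p))) • p} = tvGrp p := by
    intro p
    have h1 : {g : ↥(Matrix.symplecticGroup (Fin m) F) | ∃ c : F,
          ∀ v : Fin m ⊕ Fin m → F,
          (g : Matrix (Fin m ⊕ Fin m) (Fin m ⊕ Fin m) F) *ᵥ v =
            v + (c * (v ⬝ᵥ (Matrix.J (Fin m) F *ᵥ p))) • p} = (tvGrp p : Set _) := by
      ext g
      constructor
      · rintro ⟨c, hc⟩
        exact ⟨c, sp_ext _ _ (fun v => by rw [hc, tvS_mulVec]; rfl)⟩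
      · rintro ⟨c, rfl⟩
        exact ⟨c, fun v => tvS_mulVec p c v⟩
    rw [h1, Subgroup.closure_eq]
  ext A
  constructor
  · rintro ⟨p, hp, rfl⟩
    exact ⟨p, hp, key p⟩
  · rintro ⟨p, hp, rfl⟩
    exact ⟨p, hp, (key p).symm⟩

end aux

/-- Let F be a field, m a natural number and V = F^{2(m+1)} with the standard non-degenerate alternating form f(u, v) = uᵀ J v. For a non-zero vector p let T(p) be the group of symplectic transvections v ↦ v + c f(v, p) p, c ∈ F. Then the subgroups T(p), p ≠ 0, generate the symplectic group Sp_{2(m+1)}(F) and form a degenerate class of abstract F-root subgroups of it (any two of them either commute elementwise or are the unipotent subgroups of a rank one group that is an image of SL₂(F) with central kernel, never the commutator case), and their graph of rank one pairs is connected. -/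
theorem result (F : Type*) [Field F] (m : ℕ) :
    Cfsg.IsRootSubgroupClass {A : Subgroup ↥(Matrix.symplecticGroup (Fin (m + 1)) F) | ∃ p : Fin (m + 1) ⊕ Fin (m + 1) → F, p ≠ 0 ∧
        A = Subgroup.closure {g : ↥(Matrix.symplecticGroup (Fin (m + 1)) F) | ∃ c : F, ∀ v : Fin (m + 1) ⊕ Fin (m + 1) → F,
          (g : Matrix (Fin (m + 1) ⊕ Fin (m + 1)) (Fin (m + 1) ⊕ Fin (m + 1)) F) *ᵥ v =
            v + (c * (v ⬝ᵥ (Matrix.J (Fin (m + 1)) F *ᵥ p))) • p}} ∧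
    Cfsg.IsDegenerateRootSet {A : Subgroup ↥(Matrix.symplecticGroup (Fin (m + 1)) F) | ∃ p : Fin (m + 1) ⊕ Fin (m + 1) → F, p ≠ 0 ∧
        A = Subgroup.closure {g : ↥(Matrix.symplecticGroup (Fin (m + 1)) F) | ∃ c : F, ∀ v : Fin (m + 1) ⊕ Fin (m + 1) → F,
          (g : Matrix (Fin (m + 1) ⊕ Fin (m + 1)) (Fin (m + 1) ⊕ Fin (m + 1)) F) *ᵥ v =
            v + (c * (v ⬝ᵥ (Matrix.J (Fin (m + 1)) F *ᵥ p))) • p}} ∧
    Cfsg.IsKRootSubgroupSet F {A : Subgroup ↥(Matrix.symplecticGroup (Fin (m + 1)) F) | ∃ p : Fin (m + 1) ⊕ Fin (m + 1) → F, p ≠ 0 ∧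
        A = Subgroup.closure {g : ↥(Matrix.symplecticGroup (Fin (m + 1)) F) | ∃ c : F, ∀ v : Fin (m + 1) ⊕ Fin (m + 1) → F,
          (g : Matrix (Fin (m + 1) ⊕ Fin (m + 1)) (Fin (m + 1) ⊕ Fin (m + 1)) F) *ᵥ v =
            v + (c * (v ⬝ᵥ (Matrix.J (Fin (m + 1)) F *ᵥ p))) • p}} ∧
    Cfsg.IsConnectedFamily (Cfsg.FAdj {A : Subgroup ↥(Matrix.symplecticGroup (Fin (m + 1)) F) | ∃ p : Fin (m + 1) ⊕ Fin (m + 1) → F, p ≠ 0 ∧
        A = Subgroup.closure {g : ↥(Matrix.symplecticGroup (Fin (m + 1)) F) | ∃ c : F, ∀ v : Fin (m + 1) ⊕ Fin (m + 1) → F,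
          (g : Matrix (Fin (m + 1) ⊕ Fin (m + 1)) (Fin (m + 1) ⊕ Fin (m + 1)) F) *ᵥ v =
            v + (c * (v ⬝ᵥ (Matrix.J (Fin (m + 1)) F *ᵥ p))) • p}})
      {A : Subgroup ↥(Matrix.symplecticGroup (Fin (m + 1)) F) | ∃ p : Fin (m + 1) ⊕ Fin (m + 1) → F, p ≠ 0 ∧
        A = Subgroup.closure {g : ↥(Matrix.symplecticGroup (Fin (m + 1)) F) | ∃ c : F, ∀ v : Fin (m + 1) ⊕ Fin (m + 1) → F,
          (g : Matrix (Fin (m + 1) ⊕ Fin (m + 1)) (Fin (m + 1) ⊕ Fin (m + 1)) F) *ᵥ v =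
            v + (c * (v ⬝ᵥ (Matrix.J (Fin (m + 1)) F *ᵥ p))) • p}} := by
  rw [set_eq (m + 1)]
  exact ⟨⟨root_isSet (m + 1), root_conj m⟩, root_degenerate (m + 1), root_kroot (m + 1),
    root_connected (m + 1)⟩

end Cfsg.Agent.S5070
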