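import Mathlib
import Cfsg.Statements.S5071
import Cfsg.Agent.Helper6.UtRootB

set_option autoImplicit false
open Matrix
open Cfsg

namespace Cfsg.Agent.S5071

section aux

open Cfsg.Agent.Helper6 Cfsg.Agent.Helper16 Cfsg.Agent.Helper26 Cfsg.Agent.H6UtRoot

section abs

variable {G : Type*} [Group G]

theorem mem_conjBy (A : Subgroup G) (g y : G) : y ∈ Cfsg.conjBy A g ↔ g⁻¹ * y * g ∈ A := by
  constructor
  · rintro ⟨t, ht, rfl⟩
    have e : g⁻¹ * ((MulAut.conj g).toMonoidHom t) * g = t := by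
      show g⁻¹ * (g * t * g⁻¹) * g = t
      group
    rw [e]
    exact ht
  · intro h
    refine ⟨g⁻¹ * y * g, h, ?_⟩
    show g * (g⁻¹ * y * g) * g⁻¹ = y
    group

theorem conjBy_sub (G₀ A : Subgroup G) (x : ↥G₀) :
    Cfsg.conjBy (A.subgroupOf G₀) x = (Cfsg.conjBy A (x : G)).subgroupOf G₀ := by
  ext y
  rw [mem_conjBy, Subgroup.mem_subgroupOf, Subgroup.mem_subgroupOf, mem_conjBy]
  rfl

theorem conjBy_conjBy (A : Subgroup G) (x y : G) :
    Cfsg.conjBy (Cfsg.conjBy A x) y = Cfsg.conjBy A (y * x) := by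
  ext z
  rw [mem_conjBy, mem_conjBy, mem_conjBy, _root_.mul_inv_rev]
  simp only [mul_assoc]

theorem conjBy_one (A : Subgroup G) : Cfsg.conjBy A 1 = A := by
  ext z
  rw [mem_conjBy]
  simp

theorem conjBy_of_comm (A : Subgroup G) (g : G) (h : ∀ x ∈ A, g * x = x * g) :
    Cfsg.conjBy A g = A := by
  ext y
  rw [mem_conjBy]
  constructor
  · intro hy
    have h1 := h _ hy
    have h2 : y = g⁻¹ * y * g := by
      calc y = g * (g⁻¹ * y * g) * g⁻¹ := by group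
        _ = (g⁻¹ * y * g) * g * g⁻¹ := by rw [h1]
        _ = g⁻¹ * y * g := by group
    rw [h2]
    exact hy
  · intro hy
    have h1 := h y hy
    have h2 : g⁻¹ * y * g = y := by
      calc g⁻¹ * y * g = g⁻¹ * (y * g) := by group
        _ = g⁻¹ * (g * y) := by rw [h1]
        _ = y := by group
    rw [h2]
    exact hy

theorem comm_of (A : Subgroup G) (h : IsMulCommutative A) (x y : G) (hx : x ∈ A) (hy : y ∈ A) :
    x * y = y * x :=
  congrArg Subtype.val (h.is_comm.comm ⟨x, hx⟩ ⟨y, hy⟩)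

theorem sub_comm (G₀ A : Subgroup G) (h : IsMulCommutative A) :
    IsMulCommutative (A.subgroupOf G₀) :=
  ⟨⟨fun a b => Subtype.ext (Subtype.ext (comm_of A h a.1.1 b.1.1 a.2 b.2))⟩⟩

theorem sub_inj (G₀ A B : Subgroup G) (hA : A ≤ G₀) (hB : B ≤ G₀)
    (h : A.subgroupOf G₀ = B.subgroupOf G₀) : A = B := by
  ext x
  constructor
  · intro hx
    have h1 : (⟨x, hA hx⟩ : ↥G₀) ∈ A.subgroupOf G₀ := hx
    rw [h] at h1
    exact h1
  · intro hx
    have h1 : (⟨x, hB hx⟩ : ↥G₀) ∈ B.subgroupOf G₀ := hx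
    rw [← h] at h1
    exact h1

theorem comm_sub (G₀ A B : Subgroup G) (h : ⁅A, B⁆ = ⊥) :
    ⁅A.subgroupOf G₀, B.subgroupOf G₀⁆ = ⊥ := by
  rw [Subgroup.commutator_eq_bot_iff_le_centralizer] at h ⊢
  intro a ha
  rw [Subgroup.mem_centralizer_iff]
  intro b hb
  apply Subtype.ext
  exact (Subgroup.mem_centralizer_iff.1 (h ha)) b.1 hb

theorem cond_sub (G₀ A B : Subgroup G) (hB : B ≤ G₀) (h : Cfsg.RankOneCondition A B) :
    Cfsg.RankOneCondition (A.subgroupOf G₀) (B.subgroupOf G₀) := by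
  intro a ha ha1
  obtain ⟨b, hb, hb1, hc⟩ := h a.1 ha (fun h1 => ha1 (Subtype.ext h1))
  refine ⟨⟨b, hB hb⟩, hb, fun h1 => hb1 (congrArg Subtype.val h1), ?_⟩
  rw [conjBy_sub, conjBy_sub]
  exact congrArg (fun X : Subgroup G => X.subgroupOf G₀) hc

theorem pair_sub (G₀ A B : Subgroup G) (hA : A ≤ G₀) (hB : B ≤ G₀)
    (hcA : IsMulCommutative A) (hcB : IsMulCommutative B) (h : Cfsg.IsRankOnePair A B) :
    Cfsg.IsRankOnePair (A.subgroupOf G₀) (B.subgroupOf G₀) :=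
  ⟨fun he => h.ne (sub_inj G₀ A B hA hB he),
    isNilpotent_of_isMulCommutative (sub_comm G₀ A hcA),
    isNilpotent_of_isMulCommutative (sub_comm G₀ B hcB),
    cond_sub G₀ A B hB h.cond_left, cond_sub G₀ B A hA h.cond_right⟩

theorem map_cod {H : Type*} [Group H] (G₀ : Subgroup G) (ψ : H →* G) (hψ : ∀ x, ψ x ∈ G₀)
    (U : Subgroup H) : U.map (ψ.codRestrict G₀ hψ) = (U.map ψ).subgroupOf G₀ := by
  ext x
  rw [Subgroup.mem_subgroupOf, Subgroup.mem_map, Subgroup.mem_map]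
  constructor
  · rintro ⟨M, hM, rfl⟩
    exact ⟨M, hM, rfl⟩
  · rintro ⟨M, hM, h⟩
    exact ⟨M, hM, Subtype.ext h⟩

theorem abs_main {L : Type*} [Field L] (S : Set (Subgroup G))
    (H1 : ∀ A ∈ S, IsMulCommutative A) (H2 : ∀ A ∈ S, A ≠ ⊥)
    (H3 : ∀ A ∈ S, ∀ g : G, Cfsg.conjBy A g ∈ S)
    (H4 : ∀ A ∈ S, ∀ B ∈ S, ⁅A, B⁆ = ⊥ ∨ (Cfsg.IsRankOnePair A B ∧
      (∃ a ∈ A, ∃ b ∈ B, (a * b * a⁻¹ * b⁻¹) * a ≠ a * (a * b * a⁻¹ * b⁻¹)) ∧
      ∃ ψ : Matrix.SpecialLinearGroup (Fin 2) L →* G, ψ.range = A ⊔ B ∧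
        ψ.ker ≤ Subgroup.center (Matrix.SpecialLinearGroup (Fin 2) L) ∧
        (Cfsg.upperUnipotentSL2 L).map ψ = A ∧ (Cfsg.lowerUnipotentSL2 L).map ψ = B))
    (H5 : ∀ A ∈ S, ∀ B ∈ S, Cfsg.IsRankOnePair A B ∨
      ∃ C ∈ S, Cfsg.IsRankOnePair A C ∧ Cfsg.IsRankOnePair C B)
    (H6 : S.Nonempty) :
    Cfsg.IsRootSubgroupClass ((fun A : Subgroup G => A.subgroupOf (⨆ B ∈ S, B)) '' S) ∧
    Cfsg.IsDegenerateRootSet ((fun A : Subgroup G => A.subgroupOf (⨆ B ∈ S, B)) '' S) ∧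
    Cfsg.IsKRootSubgroupSet L ((fun A : Subgroup G => A.subgroupOf (⨆ B ∈ S, B)) '' S) ∧
    Cfsg.IsConnectedFamily (Cfsg.FAdj ((fun A : Subgroup G => A.subgroupOf (⨆ B ∈ S, B)) '' S))
      ((fun A : Subgroup G => A.subgroupOf (⨆ B ∈ S, B)) '' S) := by
  obtain ⟨G₀, hG₀⟩ : ∃ G₀ : Subgroup G, G₀ = ⨆ B ∈ S, B := ⟨_, rfl⟩
  rw [← hG₀]
  have hle : ∀ A ∈ S, A ≤ G₀ := by
    intro A hA
    rw [hG₀]
    exact le_iSup₂ (f := fun (B : Subgroup G) (_ : B ∈ S) => B) A hA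
  have hmem : ∀ A ∈ S, A.subgroupOf G₀ ∈ (fun A : Subgroup G => A.subgroupOf G₀) '' S :=
    fun A hA => ⟨A, hA, rfl⟩
  have hbot : ∀ A ∈ S, A.subgroupOf G₀ ≠ ⊥ := by
    intro A hA h
    apply H2 A hA
    rw [Subgroup.eq_bot_iff_forall]
    intro x hx
    have h1 : (⟨x, hle A hA hx⟩ : ↥G₀) ∈ A.subgroupOf G₀ := hx
    rw [h, Subgroup.mem_bot] at h1
    exact congrArg Subtype.val h1
  have hset : Cfsg.IsRootSubgroupSet ((fun A : Subgroup G => A.subgroupOf G₀) '' S) := by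
    refine ⟨?_, ?_, ?_, ?_, ?_⟩
    · rintro _ ⟨A, hA, rfl⟩
      exact sub_comm G₀ A (H1 A hA)
    · rintro _ ⟨A, hA, rfl⟩
      exact hbot A hA
    · rw [eq_top_iff]
      rintro x -
      have key' : ∀ B ∈ S, B ≤
          (⨆ A' ∈ (fun A : Subgroup G => A.subgroupOf G₀) '' S, A').map G₀.subtype := by
        intro B hB y hy
        exact ⟨⟨y, hle B hB hy⟩, Subgroup.mem_iSup_of_mem (B.subgroupOf G₀)
          (Subgroup.mem_iSup_of_mem (hmem B hB) hy), rfl⟩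
      have key : G₀ ≤
          (⨆ A' ∈ (fun A : Subgroup G => A.subgroupOf G₀) '' S, A').map G₀.subtype :=
        hG₀.le.trans (iSup₂_le key')
      obtain ⟨y, hy, hyx⟩ := key x.2
      have e : y = x := Subtype.ext hyx
      rw [← e]
      exact hy
    · rintro _ ⟨A, hA, rfl⟩ g
      exact ⟨Cfsg.conjBy A g.1, H3 A hA g.1, (conjBy_sub G₀ A g).symm⟩
    · rintro _ ⟨A, hA, rfl⟩ _ ⟨B, hB, rfl⟩
      rcases H4 A hA B hB with h | ⟨h, -, -⟩
      · exact Or.inl (comm_sub G₀ A B h)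
      · exact Or.inr (Or.inl (pair_sub G₀ A B (hle A hA) (hle B hB) (H1 A hA) (H1 B hB) h))
  have hconn : Cfsg.IsConnectedFamily
      (Cfsg.FAdj ((fun A : Subgroup G => A.subgroupOf G₀) '' S))
      ((fun A : Subgroup G => A.subgroupOf G₀) '' S) := by
    rintro _ ⟨A, hA, rfl⟩ _ ⟨B, hB, rfl⟩
    have hp : ∀ A ∈ S, ∀ B ∈ S, Cfsg.IsRankOnePair A B →
        Cfsg.FAdj ((fun A : Subgroup G => A.subgroupOf G₀) '' S) (A.subgroupOf G₀)
          (B.subgroupOf G₀) :=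
      fun A hA B hB h => ⟨hmem A hA, hmem B hB,
        pair_sub G₀ A B (hle A hA) (hle B hB) (H1 A hA) (H1 B hB) h⟩
    rcases H5 A hA B hB with h | ⟨C, hC, h1, h2⟩
    · exact Relation.ReflTransGen.single (hp A hA B hB h)
    · exact Relation.ReflTransGen.head (hp A hA C hC h1)
        (Relation.ReflTransGen.single (hp C hC B hB h2))
  have hconj : ∀ A' B' : Subgroup ↥G₀,
      Relation.ReflTransGen (Cfsg.FAdj ((fun A : Subgroup G => A.subgroupOf G₀) '' S)) A' B' →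
      ∃ g : ↥G₀, B' = Cfsg.conjBy A' g := by
    intro A' B' h
    induction h with
    | refl => exact ⟨1, (conjBy_one A').symm⟩
    | tail _ hcb ih =>
      obtain ⟨g, rfl⟩ := ih
      obtain ⟨hC', -, hpair⟩ := hcb
      have hne : Cfsg.conjBy A' g ≠ ⊥ := hset.ne_bot _ hC'
      obtain ⟨c, hc, hc1⟩ : ∃ c ∈ Cfsg.conjBy A' g, c ≠ 1 := by
        by_contra hcon
        push Not at hcon
        exact hne ((Subgroup.eq_bot_iff_forall _).2 hcon)
      obtain ⟨b, hb, -, he⟩ := hpair.cond_left c hc hc1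
      refine ⟨c * (b⁻¹ * g), ?_⟩
      have e1 := congrArg (fun X => Cfsg.conjBy X c) he
      simp only [conjBy_conjBy, mul_inv_cancel, conjBy_one] at e1
      exact e1.symm
  have hclass : Cfsg.IsConjClassOfSubgroups ((fun A : Subgroup G => A.subgroupOf G₀) '' S) := by
    obtain ⟨A, hA⟩ := H6
    exact ⟨⟨_, hmem A hA⟩, fun A' hA' B' hB' => hconj A' B' (hconn A' hA' B' hB')⟩
  have hdeg : Cfsg.IsDegenerateRootSet ((fun A : Subgroup G => A.subgroupOf G₀) '' S) := by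
    rintro _ ⟨A, hA, rfl⟩ _ ⟨B, hB, rfl⟩ ⟨h1, h2, -, -⟩
    rcases H4 A hA B hB with h | ⟨-, ⟨a, ha, b, hb, hne⟩, -⟩
    · rw [comm_sub G₀ A B h] at h1
      exact hset.ne_bot _ h1 rfl
    · have ha' : (⟨a, hle A hA ha⟩ : ↥G₀) ∈ A.subgroupOf G₀ := ha
      have hb' : (⟨b, hle B hB hb⟩ : ↥G₀) ∈ B.subgroupOf G₀ := hb
      have hc : (⟨a, hle A hA ha⟩ : ↥G₀) * ⟨b, hle B hB hb⟩ * (⟨a, hle A hA ha⟩ : ↥G₀)⁻¹
          * (⟨b, hle B hB hb⟩ : ↥G₀)⁻¹ ∈ ⁅A.subgroupOf G₀, B.subgroupOf G₀⁆ :=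
        Subgroup.commutator_mem_commutator ha' hb'
      have h3 := h2 _ hc ⟨a, hle A hA ha⟩ (Subgroup.mem_sup_left ha')
      exact hne (congrArg Subtype.val h3)
  have hk : Cfsg.IsKRootSubgroupSet L ((fun A : Subgroup G => A.subgroupOf G₀) '' S) := by
    refine ⟨hset, ?_⟩
    rintro _ ⟨A, hA, rfl⟩ _ ⟨B, hB, rfl⟩ hpair
    rcases H4 A hA B hB with h | ⟨-, -, ψ, hψ1, hψ2, hψ3, hψ4⟩
    · exfalso
      have hcomm := comm_sub G₀ A B h
      rw [Subgroup.commutator_eq_bot_iff_le_centralizer] at hcomm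
      have hcm : ∀ a ∈ A.subgroupOf G₀, ∀ b ∈ B.subgroupOf G₀, b * a = a * b :=
        fun a ha b hb => (Subgroup.mem_centralizer_iff.1 (hcomm ha)) b hb
      obtain ⟨a, ha, ha1⟩ : ∃ a ∈ A.subgroupOf G₀, a ≠ 1 := by
        by_contra hcon
        push Not at hcon
        exact hbot A hA ((Subgroup.eq_bot_iff_forall _).2 hcon)
      obtain ⟨b, hb, -, he⟩ := hpair.cond_left a ha ha1
      have e1 : Cfsg.conjBy (A.subgroupOf G₀) b⁻¹ = A.subgroupOf G₀ :=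
        conjBy_of_comm _ _ (fun x hx => by
          have h1 := hcm x hx b hb
          calc b⁻¹ * x = b⁻¹ * (x * b) * b⁻¹ := by group
            _ = b⁻¹ * (b * x) * b⁻¹ := by rw [h1]
            _ = x * b⁻¹ := by group)
      have e2 : Cfsg.conjBy (B.subgroupOf G₀) a⁻¹ = B.subgroupOf G₀ :=
        conjBy_of_comm _ _ (fun x hx => by
          have h1 := hcm a ha x hx
          calc a⁻¹ * x = a⁻¹ * (x * a) * a⁻¹ := by group
            _ = a⁻¹ * (a * x) * a⁻¹ := by rw [h1]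
            _ = x * a⁻¹ := by group)
      rw [e1, e2] at he
      exact hpair.ne he
    · have hr : ∀ M, ψ M ∈ G₀ := by
        intro M
        have h1 : ψ M ∈ ψ.range := ⟨M, rfl⟩
        rw [hψ1] at h1
        exact (sup_le (hle A hA) (hle B hB)) h1
      refine ⟨ψ.codRestrict G₀ hr, ?_, ?_, ?_, ?_⟩
      · rw [MonoidHom.range_eq_map, map_cod, ← MonoidHom.range_eq_map, hψ1]
        exact Subgroup.subgroupOf_sup (hle A hA) (hle B hB)
      · rw [MonoidHom.ker_codRestrict]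
        exact hψ2
      · rw [map_cod, hψ3]
      · rw [map_cod, hψ4]
  exact ⟨⟨hset, hclass⟩, hdeg, hk, hconn⟩

end abs

variable {F : Type*} [Field F] [Fintype F] {q : ℕ}

/-- the set of unitary transvection groups -/
def rootSet (Φ : Frob F q) (n : ℕ) : Set (Subgroup ↥(Cfsg.SU n F q)) :=
  {A | ∃ p : Fin n → F, p ≠ 0 ∧ Cfsg.hermForm n F q p p = 0 ∧ A = Tg Φ p}

theorem set_eq (Φ : Frob F q) (n : ℕ) :
    {A : Subgroup ↥(Cfsg.SU n F q) | ∃ p : Fin n → F, p ≠ 0 ∧ Cfsg.hermForm n F q p p = 0 ∧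
          A = Subgroup.closure {g : ↥(Cfsg.SU n F q) |
            (∀ v : Fin n → F, ∃ c : F, ((g : Matrix.SpecialLinearGroup (Fin n) F) : Matrix (Fin n) (Fin n) F) *ᵥ v = v + c • p) ∧
            ∀ v : Fin n → F, Cfsg.hermForm n F q v p = 0 →
              ((g : Matrix.SpecialLinearGroup (Fin n) F) : Matrix (Fin n) (Fin n) F) *ᵥ v = v}}
      = rootSet Φ n := by
  have key : ∀ p : Fin n → F, p ≠ 0 → Cfsg.hermForm n F q p p = 0 →
      Subgroup.closure {g : ↥(Cfsg.SU n F q) |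
            (∀ v : Fin n → F, ∃ c : F, ((g : Matrix.SpecialLinearGroup (Fin n) F) : Matrix (Fin n) (Fin n) F) *ᵥ v = v + c • p) ∧
            ∀ v : Fin n → F, Cfsg.hermForm n F q v p = 0 →
              ((g : Matrix.SpecialLinearGroup (Fin n) F) : Matrix (Fin n) (Fin n) F) *ᵥ v = v}
        = Tg Φ p := by
    intro p hp0 hp
    unfold Tg
    congr 1
    ext g
    exact ts_iff Φ p hp0 hp g
  ext A
  constructor
  · rintro ⟨p, hp0, hp, rfl⟩
    exact ⟨p, hp0, hp, key p hp0 hp⟩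
  · rintro ⟨p, hp0, hp, rfl⟩
    exact ⟨p, hp0, hp, (key p hp0 hp).symm⟩

theorem main (hF : Fintype.card F = q ^ 2) (Φ : Frob F q) (n : ℕ) (hn : 2 ≤ n)
    {L : Type} [Field L] (ι : L →+* F)
    (hι1 : ∀ x, Φ.φ (ι x) = ι x) (hι2 : ∀ y, Φ.φ y = y → ∃ x, ι x = y) :
    Cfsg.IsRootSubgroupClass ((fun A : Subgroup ↥(Cfsg.SU n F q) =>
        A.subgroupOf (⨆ B ∈ rootSet Φ n, B)) '' rootSet Φ n) ∧
    Cfsg.IsDegenerateRootSet ((fun A : Subgroup ↥(Cfsg.SU n F q) =>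
        A.subgroupOf (⨆ B ∈ rootSet Φ n, B)) '' rootSet Φ n) ∧
    Cfsg.IsKRootSubgroupSet L ((fun A : Subgroup ↥(Cfsg.SU n F q) =>
        A.subgroupOf (⨆ B ∈ rootSet Φ n, B)) '' rootSet Φ n) ∧
    Cfsg.IsConnectedFamily (Cfsg.FAdj ((fun A : Subgroup ↥(Cfsg.SU n F q) =>
        A.subgroupOf (⨆ B ∈ rootSet Φ n, B)) '' rootSet Φ n))
      ((fun A : Subgroup ↥(Cfsg.SU n F q) =>
        A.subgroupOf (⨆ B ∈ rootSet Φ n, B)) '' rootSet Φ n) := by
  refine abs_main (L := L) (rootSet Φ n) ?_ ?_ ?_ ?_ ?_ ?_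
  · rintro _ ⟨p, hp0, hp, rfl⟩
    exact tg_comm Φ p hp
  · rintro _ ⟨p, hp0, hp, rfl⟩ h
    obtain ⟨g, hg, hg1⟩ := tg_exists hF Φ p hp0 hp
    rw [h, Subgroup.mem_bot] at hg
    exact hg1 hg
  · rintro _ ⟨p, hp0, hp, rfl⟩ g
    exact ⟨sact g p, sact_ne_zero g p hp0, by rw [sact_herm]; exact hp, conjBy_tg Φ g p hp⟩
  · rintro _ ⟨p, hp0, hp, rfl⟩ _ ⟨r, hr0, hr, rfl⟩
    by_cases hκ : Cfsg.hermForm n F q p r = 0
    · exact Or.inl (tg_comm_bot Φ p r hp hr hκ)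
    · refine Or.inr ⟨tg_rank_one hF Φ p r hp0 hr0 hp hr hκ,
        tg_nocentral hF Φ p r hp0 hp hr hκ, ?_⟩
      have hκ' := um_ne_symm Φ p r hκ
      have hr' : Cfsg.hermForm n F q ((Cfsg.hermForm n F q r p)⁻¹ • r)
          ((Cfsg.hermForm n F q r p)⁻¹ • r) = 0 := by
        rw [uherm_smul_left, uherm_smul_right Φ, hr]
        ring
      have hpr : Cfsg.hermForm n F q p ((Cfsg.hermForm n F q r p)⁻¹ • r) = 1 := by
        rw [uherm_smul_right Φ, map_inv₀, uherm_conj Φ r p, inv_mul_cancel₀ hκ]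
      have hB := tg_smul Φ r hr _ (inv_ne_zero hκ')
      rw [← hB]
      exact exists_hom hF Φ p _ hp hr' hpr ι hι1 hι2
  · rintro _ ⟨p, hp0, hp, rfl⟩ _ ⟨r, hr0, hr, rfl⟩
    by_cases hκ : Cfsg.hermForm n F q p r = 0
    · obtain ⟨z, hz, hzp, hzr⟩ := exists_iso_nonorth hF Φ p r hp0 hr0 hp hr
      have hz0 : z ≠ 0 := by
        rintro rfl
        exact hzp (uherm_zero_left p)
      exact Or.inr ⟨Tg Φ z, ⟨z, hz0, hz, rfl⟩,
        tg_rank_one hF Φ p z hp0 hz0 hp hz (um_ne_symm Φ z p hzp),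
        tg_rank_one hF Φ z r hz0 hr0 hz hr hzr⟩
    · exact Or.inl (tg_rank_one hF Φ p r hp0 hr0 hp hr hκ)
  · obtain ⟨e, he0, he⟩ := exists_iso_vec hF Φ hn
    exact ⟨Tg Φ e, e, he0, he, rfl⟩

end aux

/-- Let F be a finite field with q² elements, n a natural number, and h the Hermitian form Σ uᵢ vᵢ^q on F^{n+2}. For a non-zero isotropic vector p let T(p) be the group of unitary transvections with centre ⟨p⟩: the elements of SU_{n+2}(q) moving every vector by a multiple of p and fixing every vector perpendicular to p. Let Σ be the set of these T(p) and G₀ the subgroup they generate. Then, viewed inside G₀, the members of Σ form a degenerate class of abstract k-root subgroups of G₀ for some field k with q elements (any two commute or are the unipotent subgroups of a rank one group that is an image of SL₂(k) with central kernel, never the commutator case), and their graph of rank one pairs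 is connected. -/
theorem result (F : Type*) [Field F] [Fintype F] (q n : ℕ) (hF : Fintype.card F = q ^ 2) :
    Cfsg.IsRootSubgroupClass ((fun A : Subgroup ↥(Cfsg.SU (n + 2) F q) => A.subgroupOf (⨆ B ∈ {A : Subgroup ↥(Cfsg.SU (n + 2) F q) | ∃ p : Fin (n + 2) → F, p ≠ 0 ∧ Cfsg.hermForm (n + 2) F q p p = 0 ∧
          A = Subgroup.closure {g : ↥(Cfsg.SU (n + 2) F q) |
            (∀ v : Fin (n + 2) → F, ∃ c : F, ((g : Matrix.SpecialLinearGroup (Fin (n + 2)) F) : Matrix (Fin (n + 2)) (Fin (n + 2)) F) *ᵥ v = v + c • p) ∧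
            ∀ v : Fin (n + 2) → F, Cfsg.hermForm (n + 2) F q v p = 0 →
              ((g : Matrix.SpecialLinearGroup (Fin (n + 2)) F) : Matrix (Fin (n + 2)) (Fin (n + 2)) F) *ᵥ v = v}}, B)) ''
      {A : Subgroup ↥(Cfsg.SU (n + 2) F q) | ∃ p : Fin (n + 2) → F, p ≠ 0 ∧ Cfsg.hermForm (n + 2) F q p p = 0 ∧
          A = Subgroup.closure {g : ↥(Cfsg.SU (n + 2) F q) |
            (∀ v : Fin (n + 2) → F, ∃ c : F, ((g : Matrix.SpecialLinearGroup (Fin (n + 2)) F) : Matrix (Fin (n + 2)) (Fin (n + 2)) F) *ᵥ v = v + c • p) ∧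
            ∀ v : Fin (n + 2) → F, Cfsg.hermForm (n + 2) F q v p = 0 →
              ((g : Matrix.SpecialLinearGroup (Fin (n + 2)) F) : Matrix (Fin (n + 2)) (Fin (n + 2)) F) *ᵥ v = v}}) ∧
    Cfsg.IsDegenerateRootSet ((fun A : Subgroup ↥(Cfsg.SU (n + 2) F q) => A.subgroupOf (⨆ B ∈ {A : Subgroup ↥(Cfsg.SU (n + 2) F q) | ∃ p : Fin (n + 2) → F, p ≠ 0 ∧ Cfsg.hermForm (n + 2) F q p p = 0 ∧
          A = Subgroup.closure {g : ↥(Cfsg.SU (n + 2) F q) |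
            (∀ v : Fin (n + 2) → F, ∃ c : F, ((g : Matrix.SpecialLinearGroup (Fin (n + 2)) F) : Matrix (Fin (n + 2)) (Fin (n + 2)) F) *ᵥ v = v + c • p) ∧
            ∀ v : Fin (n + 2) → F, Cfsg.hermForm (n + 2) F q v p = 0 →
              ((g : Matrix.SpecialLinearGroup (Fin (n + 2)) F) : Matrix (Fin (n + 2)) (Fin (n + 2)) F) *ᵥ v = v}}, B)) ''
      {A : Subgroup ↥(Cfsg.SU (n + 2) F q) | ∃ p : Fin (n + 2) → F, p ≠ 0 ∧ Cfsg.hermForm (n + 2) F q p p = 0 ∧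
          A = Subgroup.closure {g : ↥(Cfsg.SU (n + 2) F q) |
            (∀ v : Fin (n + 2) → F, ∃ c : F, ((g : Matrix.SpecialLinearGroup (Fin (n + 2)) F) : Matrix (Fin (n + 2)) (Fin (n + 2)) F) *ᵥ v = v + c • p) ∧
            ∀ v : Fin (n + 2) → F, Cfsg.hermForm (n + 2) F q v p = 0 →
              ((g : Matrix.SpecialLinearGroup (Fin (n + 2)) F) : Matrix (Fin (n + 2)) (Fin (n + 2)) F) *ᵥ v = v}}) ∧
    (∃ (L : Type) (_ : Field L) (_ : Fintype L), Fintype.card L = q ∧ Cfsg.IsKRootSubgroupSet L ((fun A : Subgroup ↥(Cfsg.SU (n + 2) F q) => A.subgroupOf (⨆ B ∈ {A : Subgroup ↥(Cfsg.SU (n + 2) F q) | ∃ p : Fin (n + 2) → F, p ≠ 0 ∧ Cfsg.hermForm (n + 2) F q p p = 0 ∧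
          A = Subgroup.closure {g : ↥(Cfsg.SU (n + 2) F q) |
            (∀ v : Fin (n + 2) → F, ∃ c : F, ((g : Matrix.SpecialLinearGroup (Fin (n + 2)) F) : Matrix (Fin (n + 2)) (Fin (n + 2)) F) *ᵥ v = v + c • p) ∧
            ∀ v : Fin (n + 2) → F, Cfsg.hermForm (n + 2) F q v p = 0 →
              ((g : Matrix.SpecialLinearGroup (Fin (n + 2)) F) : Matrix (Fin (n + 2)) (Fin (n + 2)) F) *ᵥ v = v}}, B)) ''
      {A : Subgroup ↥(Cfsg.SU (n + 2) F q) | ∃ p : Fin (n + 2) → F, p ≠ 0 ∧ Cfsg.hermForm (n + 2) F q p p = 0 ∧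
          A = Subgroup.closure {g : ↥(Cfsg.SU (n + 2) F q) |
            (∀ v : Fin (n + 2) → F, ∃ c : F, ((g : Matrix.SpecialLinearGroup (Fin (n + 2)) F) : Matrix (Fin (n + 2)) (Fin (n + 2)) F) *ᵥ v = v + c • p) ∧
            ∀ v : Fin (n + 2) → F, Cfsg.hermForm (n + 2) F q v p = 0 →
              ((g : Matrix.SpecialLinearGroup (Fin (n + 2)) F) : Matrix (Fin (n + 2)) (Fin (n + 2)) F) *ᵥ v = v}})) ∧
    Cfsg.IsConnectedFamily (Cfsg.FAdj ((fun A : Subgroup ↥(Cfsg.SU (n + 2) F q) => A.subgroupOf (⨆ B ∈ {A : Subgroup ↥(Cfsg.SU (n + 2) F q) | ∃ p : Fin (n + 2) → F, p ≠ 0 ∧ Cfsg.hermForm (n + 2) F q p p = 0 ∧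
          A = Subgroup.closure {g : ↥(Cfsg.SU (n + 2) F q) |
            (∀ v : Fin (n + 2) → F, ∃ c : F, ((g : Matrix.SpecialLinearGroup (Fin (n + 2)) F) : Matrix (Fin (n + 2)) (Fin (n + 2)) F) *ᵥ v = v + c • p) ∧
            ∀ v : Fin (n + 2) → F, Cfsg.hermForm (n + 2) F q v p = 0 →
              ((g : Matrix.SpecialLinearGroup (Fin (n + 2)) F) : Matrix (Fin (n + 2)) (Fin (n + 2)) F) *ᵥ v = v}}, B)) ''
      {A : Subgroup ↥(Cfsg.SU (n + 2) F q) | ∃ p : Fin (n + 2) → F, p ≠ 0 ∧ Cfsg.hermForm (n + 2) F q p p = 0 ∧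
          A = Subgroup.closure {g : ↥(Cfsg.SU (n + 2) F q) |
            (∀ v : Fin (n + 2) → F, ∃ c : F, ((g : Matrix.SpecialLinearGroup (Fin (n + 2)) F) : Matrix (Fin (n + 2)) (Fin (n + 2)) F) *ᵥ v = v + c • p) ∧
            ∀ v : Fin (n + 2) → F, Cfsg.hermForm (n + 2) F q v p = 0 →
              ((g : Matrix.SpecialLinearGroup (Fin (n + 2)) F) : Matrix (Fin (n + 2)) (Fin (n + 2)) F) *ᵥ v = v}})) ((fun A : Subgroup ↥(Cfsg.SU (n + 2) F q) => A.subgroupOf (⨆ B ∈ {A : Subgroup ↥(Cfsg.SU (n + 2) F q) | ∃ p : Fin (n + 2) → F, p ≠ 0 ∧ Cfsg.hermForm (n + 2) F q p p = 0 ∧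
          A = Subgroup.closure {g : ↥(Cfsg.SU (n + 2) F q) |
            (∀ v : Fin (n + 2) → F, ∃ c : F, ((g : Matrix.SpecialLinearGroup (Fin (n + 2)) F) : Matrix (Fin (n + 2)) (Fin (n + 2)) F) *ᵥ v = v + c • p) ∧
            ∀ v : Fin (n + 2) → F, Cfsg.hermForm (n + 2) F q v p = 0 →
              ((g : Matrix.SpecialLinearGroup (Fin (n + 2)) F) : Matrix (Fin (n + 2)) (Fin (n + 2)) F) *ᵥ v = v}}, B)) ''
      {A : Subgroup ↥(Cfsg.SU (n + 2) F q) | ∃ p : Fin (n + 2) → F, p ≠ 0 ∧ Cfsg.hermForm (n + 2) F q p p = 0 ∧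
          A = Subgroup.closure {g : ↥(Cfsg.SU (n + 2) F q) |
            (∀ v : Fin (n + 2) → F, ∃ c : F, ((g : Matrix.SpecialLinearGroup (Fin (n + 2)) F) : Matrix (Fin (n + 2)) (Fin (n + 2)) F) *ᵥ v = v + c • p) ∧
            ∀ v : Fin (n + 2) → F, Cfsg.hermForm (n + 2) F q v p = 0 →
              ((g : Matrix.SpecialLinearGroup (Fin (n + 2)) F) : Matrix (Fin (n + 2)) (Fin (n + 2)) F) *ᵥ v = v}}) := by
  obtain ⟨Φ⟩ := Cfsg.Agent.Helper16.exists_Frob hF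
  obtain ⟨L, iL, iF, ι, hcard, hι1, hι2⟩ := Cfsg.Agent.H6UtRoot.exists_L hF Φ
  rw [set_eq Φ (n + 2)]
  have hm := main hF Φ (n + 2) (by omega) ι hι1 hι2
  exact ⟨hm.1, hm.2.1, ⟨L, iL, iF, hcard, hm.2.2.1⟩, hm.2.2.2⟩

end Cfsg.Agent.S5071
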