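import Mathlib
import Cfsg.Statements.S5072
import Cfsg.Agent.Helper6.SgRootE
import Cfsg.Agent.S5071

set_option autoImplicit false
open Matrix
open Cfsg

namespace Cfsg.Agent.S5072

section aux

open Cfsg.Agent.Helper16 Cfsg.Agent.Helper26 Cfsg.Agent.H6Sg Cfsg.Agent.S5071 QuadraticMap

section abs

variable {G : Type*} [Group G]

theorem rcc_sub (G₀ : Subgroup G) (S : Set (Subgroup G)) (A B : Subgroup G) (hA : A ≤ G₀)
    (hB : B ≤ G₀) (hZ : ⁅A, B⁆ ≤ G₀) (h : Cfsg.RootCommutatorCase S A B) :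
    Cfsg.RootCommutatorCase ((fun A : Subgroup G => A.subgroupOf G₀) '' S)
      (A.subgroupOf G₀) (B.subgroupOf G₀) := by
  obtain ⟨hmem, hcen, hcl1, hcl2⟩ := h
  have e0 : ⁅A.subgroupOf G₀, B.subgroupOf G₀⁆ = (⁅A, B⁆).subgroupOf G₀ := by
    apply Subgroup.map_injective G₀.subtype_injective
    rw [Subgroup.map_commutator, Subgroup.map_subgroupOf_eq_of_le hA,
      Subgroup.map_subgroupOf_eq_of_le hB, Subgroup.map_subgroupOf_eq_of_le hZ]
  refine ⟨?_, ?_, ?_, ?_⟩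
  · rw [e0]
    exact ⟨_, hmem, rfl⟩
  · intro c hc x hx
    rw [e0] at hc
    rw [← Subgroup.subgroupOf_sup hA hB] at hx
    exact Subtype.ext (hcen c.1 hc x.1 hx)
  · intro a ha ha1
    rw [e0]
    apply Subgroup.map_injective G₀.subtype_injective
    rw [MonoidHom.map_closure, Subgroup.map_subgroupOf_eq_of_le hZ]
    have e1 : (G₀.subtype '' ((fun b => a * b * a⁻¹ * b⁻¹) '' (B.subgroupOf G₀ : Set ↥G₀)))
        = (fun b => a.1 * b * a.1⁻¹ * b⁻¹) '' (B : Set G) := by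
      ext z
      constructor
      · rintro ⟨_, ⟨b, hb, rfl⟩, rfl⟩
        exact ⟨b.1, hb, rfl⟩
      · rintro ⟨b, hb, rfl⟩
        exact ⟨_, ⟨⟨b, hB hb⟩, hb, rfl⟩, rfl⟩
    rw [e1]
    exact hcl1 a.1 ha (fun h1 => ha1 (Subtype.ext h1))
  · intro b hb hb1
    rw [e0]
    apply Subgroup.map_injective G₀.subtype_injective
    rw [MonoidHom.map_closure, Subgroup.map_subgroupOf_eq_of_le hZ]
    have e1 : (G₀.subtype '' ((fun a => a * b * a⁻¹ * b⁻¹) '' (A.subgroupOf G₀ : Set ↥G₀)))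
        = (fun a => a * b.1 * a⁻¹ * b.1⁻¹) '' (A : Set G) := by
      ext z
      constructor
      · rintro ⟨_, ⟨a, ha, rfl⟩, rfl⟩
        exact ⟨a.1, ha, rfl⟩
      · rintro ⟨a, ha, rfl⟩
        exact ⟨_, ⟨⟨a, hA ha⟩, ha, rfl⟩, rfl⟩
    rw [e1]
    exact hcl2 b.1 hb (fun h1 => hb1 (Subtype.ext h1))

theorem not_rank_one_of_central (A B : Subgroup G) (hcA : IsMulCommutative A) (hA : A ≠ ⊥)
    (hZ : ⁅A, B⁆ ≠ ⊥) (hcen : ∀ c ∈ ⁅A, B⁆, ∀ x ∈ A ⊔ B, c * x = x * c) :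
    ¬ Cfsg.IsRankOnePair A B := by
  intro hp
  obtain ⟨a, ha, ha1⟩ : ∃ a ∈ A, a ≠ 1 := by
    by_contra hcon
    push Not at hcon
    exact hA ((Subgroup.eq_bot_iff_forall _).2 hcon)
  obtain ⟨b, hb, -, he⟩ := hp.cond_left a ha ha1
  have e1 := congrArg (fun X => Cfsg.conjBy X a) he
  simp only [Cfsg.Agent.S5071.conjBy_conjBy, mul_inv_cancel, Cfsg.Agent.S5071.conjBy_one] at e1
  let Nn : Subgroup G :=
    { carrier := {g | (∀ z ∈ ⁅A, B⁆, z * g = g * z) ∧ ∀ a₁ ∈ A, g * a₁ * g⁻¹ * a₁⁻¹ ∈ ⁅A, B⁆}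
      mul_mem' := by
        rintro g h ⟨hg1, hg2⟩ ⟨hh1, hh2⟩
        refine ⟨fun z hz => ?_, fun a₁ ha₁ => ?_⟩
        · rw [← mul_assoc, hg1 z hz, mul_assoc, hh1 z hz, mul_assoc]
        · have hz := hh2 a₁ ha₁
          obtain ⟨z, hzd⟩ : ∃ z, z = h * a₁ * h⁻¹ * a₁⁻¹ := ⟨_, rfl⟩
          rw [← hzd] at hz
          have hzc := hg1 z hz
          have e : g * h * a₁ * (g * h)⁻¹ * a₁⁻¹ = z * (g * a₁ * g⁻¹ * a₁⁻¹) := by
            calc g * h * a₁ * (g * h)⁻¹ * a₁⁻¹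
                = g * (h * a₁ * h⁻¹ * a₁⁻¹) * a₁ * g⁻¹ * a₁⁻¹ := by group
              _ = (g * z) * a₁ * g⁻¹ * a₁⁻¹ := by rw [← hzd]
              _ = (z * g) * a₁ * g⁻¹ * a₁⁻¹ := by rw [hzc]
              _ = z * (g * a₁ * g⁻¹ * a₁⁻¹) := by group
          rw [e]
          exact Subgroup.mul_mem _ hz (hg2 a₁ ha₁)
      one_mem' := ⟨fun z _ => by rw [mul_one, one_mul], fun a₁ _ => by
        have e : (1 : G) * a₁ * 1⁻¹ * a₁⁻¹ = 1 := by group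
        rw [e]
        exact Subgroup.one_mem _⟩
      inv_mem' := by
        rintro g ⟨hg1, hg2⟩
        refine ⟨fun z hz => ?_, fun a₁ ha₁ => ?_⟩
        · have h1 := hg1 z hz
          calc z * g⁻¹ = g⁻¹ * (g * z) * g⁻¹ := by group
            _ = g⁻¹ * (z * g) * g⁻¹ := by rw [h1]
            _ = g⁻¹ * z := by group
        · have hz := hg2 a₁ ha₁
          obtain ⟨z, hzd⟩ : ∃ z, z = g * a₁ * g⁻¹ * a₁⁻¹ := ⟨_, rfl⟩
          rw [← hzd] at hz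
          have hzc := hg1 z hz
          have e : g⁻¹ * a₁ * g⁻¹⁻¹ * a₁⁻¹ = z⁻¹ := by
            calc g⁻¹ * a₁ * g⁻¹⁻¹ * a₁⁻¹
                = g⁻¹ * (g * a₁ * g⁻¹ * a₁⁻¹)⁻¹ * g := by group
              _ = g⁻¹ * z⁻¹ * g := by rw [← hzd]
              _ = g⁻¹ * (z⁻¹ * (g * z) * z⁻¹) := by group
              _ = g⁻¹ * (z⁻¹ * (z * g) * z⁻¹) := by rw [hzc]
              _ = z⁻¹ := by group
          rw [e]
          exact Subgroup.inv_mem _ hz }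
  have hAN : A ≤ Nn := by
    intro g hg
    refine ⟨fun z hz => hcen z hz g (Subgroup.mem_sup_left hg), fun a₁ ha₁ => ?_⟩
    have h1 := comm_of A hcA g a₁ hg ha₁
    have e : g * a₁ * g⁻¹ * a₁⁻¹ = 1 := by
      rw [h1]
      group
    rw [e]
    exact Subgroup.one_mem _
  have hBN : B ≤ Nn := by
    intro g hg
    refine ⟨fun z hz => hcen z hz g (Subgroup.mem_sup_right hg), fun a₁ ha₁ => ?_⟩
    have h1 : g * a₁ * g⁻¹ * a₁⁻¹ ∈ ⁅B, A⁆ := Subgroup.commutator_mem_commutator hg ha₁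
    rw [Subgroup.commutator_comm] at h1
    exact h1
  have hg : a * b⁻¹ ∈ Nn :=
    (sup_le hAN hBN) (Subgroup.mul_mem _ (Subgroup.mem_sup_left ha)
      (Subgroup.inv_mem _ (Subgroup.mem_sup_right hb)))
  apply hZ
  rw [Subgroup.commutator_eq_bot_iff_le_centralizer]
  intro a₂ ha₂
  rw [Subgroup.mem_centralizer_iff]
  intro b₁ hb₁
  have hb₁' : b₁ ∈ Cfsg.conjBy A (a * b⁻¹) := by
    rw [e1]
    exact hb₁
  rw [Cfsg.Agent.S5071.mem_conjBy] at hb₁'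
  obtain ⟨a₁, ha₁d⟩ : ∃ a₁, a₁ = (a * b⁻¹)⁻¹ * b₁ * (a * b⁻¹) := ⟨_, rfl⟩
  rw [← ha₁d] at hb₁'
  have hz := hg.2 a₁ hb₁'
  obtain ⟨z, hzd⟩ : ∃ z, z = a * b⁻¹ * a₁ * (a * b⁻¹)⁻¹ * a₁⁻¹ := ⟨_, rfl⟩
  rw [← hzd] at hz
  have hb1 : b₁ = z * a₁ := by
    rw [hzd, ha₁d]
    group
  have hc1 := hcen z hz a₂ (Subgroup.mem_sup_left ha₂)
  have hc2 := comm_of A hcA a₁ a₂ hb₁' ha₂
  calc b₁ * a₂ = z * (a₁ * a₂) := by rw [hb1, mul_assoc]
    _ = z * (a₂ * a₁) := by rw [hc2]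
    _ = (z * a₂) * a₁ := by rw [mul_assoc]
    _ = (a₂ * z) * a₁ := by rw [hc1]
    _ = a₂ * b₁ := by rw [hb1, mul_assoc]

theorem abs_kroot {L : Type*} [Field L] (S : Set (Subgroup G))
    (H1 : ∀ A ∈ S, IsMulCommutative A) (H2 : ∀ A ∈ S, A ≠ ⊥)
    (H3 : ∀ A ∈ S, ∀ g : G, Cfsg.conjBy A g ∈ S)
    (H4 : ∀ A ∈ S, ∀ B ∈ S, ⁅A, B⁆ = ⊥ ∨ (Cfsg.IsRankOnePair A B ∧
      ∃ ψ : Matrix.SpecialLinearGroup (Fin 2) L →* G, ψ.range = A ⊔ B ∧
        ψ.ker ≤ Subgroup.center (Matrix.SpecialLinearGroup (Fin 2) L) ∧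
        (Cfsg.upperUnipotentSL2 L).map ψ = A ∧ (Cfsg.lowerUnipotentSL2 L).map ψ = B) ∨
      Cfsg.RootCommutatorCase S A B) :
    Cfsg.IsKRootSubgroupSet L ((fun A : Subgroup G => A.subgroupOf (⨆ B ∈ S, B)) '' S) := by
  obtain ⟨G₀, hG₀⟩ : ∃ G₀ : Subgroup G, G₀ = ⨆ B ∈ S, B := ⟨_, rfl⟩
  rw [← hG₀]
  have hle : ∀ A ∈ S, A ≤ G₀ := by
    intro A hA
    rw [hG₀]
    exact le_iSup₂ (f := fun (B : Subgroup G) (_ : B ∈ S) => B) A hA
  have hmem : ∀ A ∈ S, A.subgroupOf G₀ ∈ (fun A : Subgroup G => A.subgroupOf G₀) '' S :=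
    fun A hA => ⟨A, hA, rfl⟩
  have hbot : ∀ A ∈ S, A.subgroupOf G₀ ≠ ⊥ := by
    intro A hA h
    apply H2 A hA
    rw [Subgroup.eq_bot_iff_forall]
    intro x hx
    have h1 : (⟨x, hle A hA hx⟩ : ↥G₀) ∈ A.subgroupOf G₀ := hx
    rw [h, Subgroup.mem_bot] at h1
    exact congrArg Subtype.val h1
  have hset : Cfsg.IsRootSubgroupSet ((fun A : Subgroup G => A.subgroupOf G₀) '' S) := by
    refine ⟨?_, ?_, ?_, ?_, ?_⟩
    · rintro _ ⟨A, hA, rfl⟩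
      exact sub_comm G₀ A (H1 A hA)
    · rintro _ ⟨A, hA, rfl⟩
      exact hbot A hA
    · rw [eq_top_iff]
      rintro x -
      have key' : ∀ B ∈ S, B ≤
          (⨆ A' ∈ (fun A : Subgroup G => A.subgroupOf G₀) '' S, A').map G₀.subtype := by
        intro B hB y hy
        exact ⟨⟨y, hle B hB hy⟩, Subgroup.mem_iSup_of_mem (B.subgroupOf G₀)
          (Subgroup.mem_iSup_of_mem (hmem B hB) hy), rfl⟩
      have key : G₀ ≤
          (⨆ A' ∈ (fun A : Subgroup G => A.subgroupOf G₀) '' S, A').map G₀.subtype :=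
        hG₀.le.trans (iSup₂_le key')
      obtain ⟨y, hy, hyx⟩ := key x.2
      have e : y = x := Subtype.ext hyx
      rw [← e]
      exact hy
    · rintro _ ⟨A, hA, rfl⟩ g
      exact ⟨Cfsg.conjBy A g.1, H3 A hA g.1, (conjBy_sub G₀ A g).symm⟩
    · rintro _ ⟨A, hA, rfl⟩ _ ⟨B, hB, rfl⟩
      rcases H4 A hA B hB with h | ⟨h, -⟩ | h
      · exact Or.inl (comm_sub G₀ A B h)
      · exact Or.inr (Or.inl (pair_sub G₀ A B (hle A hA) (hle B hB) (H1 A hA) (H1 B hB) h))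
      · exact Or.inr (Or.inr (rcc_sub G₀ S A B (hle A hA) (hle B hB) (hle _ h.1) h))
  refine ⟨hset, ?_⟩
  rintro _ ⟨A, hA, rfl⟩ _ ⟨B, hB, rfl⟩ hpair
  rcases H4 A hA B hB with h | ⟨-, ψ, hψ1, hψ2, hψ3, hψ4⟩ | h
  · exfalso
    have hcomm := comm_sub G₀ A B h
    rw [Subgroup.commutator_eq_bot_iff_le_centralizer] at hcomm
    have hcm : ∀ a ∈ A.subgroupOf G₀, ∀ b ∈ B.subgroupOf G₀, b * a = a * b :=
      fun a ha b hb => (Subgroup.mem_centralizer_iff.1 (hcomm ha)) b hb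
    obtain ⟨a, ha, ha1⟩ : ∃ a ∈ A.subgroupOf G₀, a ≠ 1 := by
      by_contra hcon
      push Not at hcon
      exact hbot A hA ((Subgroup.eq_bot_iff_forall _).2 hcon)
    obtain ⟨b, hb, -, he⟩ := hpair.cond_left a ha ha1
    have e1 : Cfsg.conjBy (A.subgroupOf G₀) b⁻¹ = A.subgroupOf G₀ :=
      conjBy_of_comm _ _ (fun x hx => by
        have h1 := hcm x hx b hb
        calc b⁻¹ * x = b⁻¹ * (x * b) * b⁻¹ := by group
          _ = b⁻¹ * (b * x) * b⁻¹ := by rw [h1]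
          _ = x * b⁻¹ := by group)
    have e2 : Cfsg.conjBy (B.subgroupOf G₀) a⁻¹ = B.subgroupOf G₀ :=
      conjBy_of_comm _ _ (fun x hx => by
        have h1 := hcm a ha x hx
        calc a⁻¹ * x = a⁻¹ * (x * a) * a⁻¹ := by group
          _ = a⁻¹ * (a * x) * a⁻¹ := by rw [h1]
          _ = x * a⁻¹ := by group)
    rw [e1, e2] at he
    exact hpair.ne he
  · have hr : ∀ M, ψ M ∈ G₀ := by
      intro M
      have h1 : ψ M ∈ ψ.range := ⟨M, rfl⟩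
      rw [hψ1] at h1
      exact (sup_le (hle A hA) (hle B hB)) h1
    refine ⟨ψ.codRestrict G₀ hr, ?_, ?_, ?_, ?_⟩
    · rw [MonoidHom.range_eq_map, map_cod, ← MonoidHom.range_eq_map, hψ1]
      exact Subgroup.subgroupOf_sup (hle A hA) (hle B hB)
    · rw [MonoidHom.ker_codRestrict]
      exact hψ2
    · rw [map_cod, hψ3]
    · rw [map_cod, hψ4]
  · exfalso
    have hr := rcc_sub G₀ S A B (hle A hA) (hle B hB) (hle _ h.1) h
    exact not_rank_one_of_central _ _ (sub_comm G₀ A (H1 A hA)) (hbot A hA)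
      (hset.ne_bot _ hr.1) hr.2.1 hpair

end abs

variable {ι : Type} [Fintype ι] [DecidableEq ι] {F : Type*} [Field F]

theorem set_eq (Q : QuadraticForm F (ι → F)) :
    {A : Subgroup ↥(Cfsg.isometryGroup F ⇑Q) | ∃ p r : ι → F, LinearIndependent F ![p, r] ∧
          Q p = 0 ∧ Q r = 0 ∧ Q (p + r) = 0 ∧
          A = Subgroup.closure {σ : ↥(Cfsg.isometryGroup F ⇑Q) | ∀ v : ι → F,
            Q (v + p) - Q v - Q p = 0 → Q (v + r) - Q v - Q r = 0 →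
              ((σ : Matrix.GeneralLinearGroup ι F) : Matrix ι ι F) *ᵥ v = v}}
      = lineSet Q := by
  ext A
  constructor
  · rintro ⟨p, r, hli, hp, hr, hpr, rfl⟩
    refine ⟨p, r, ⟨LinearIndependent.pair_iff.1 hli, hp, hr, ?_⟩, rfl⟩
    show Q (p + r) - Q p - Q r = 0
    rw [hpr, hp, hr]
    ring
  · rintro ⟨p, r, h, rfl⟩
    refine ⟨p, r, LinearIndependent.pair_iff.2 h.ind, h.qp, h.qr, ?_, rfl⟩
    rw [qf_add, h.qp, h.qr, h.pr]
    ring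

theorem main (N : ℕ) (hN : 3 ≤ N) :
    Cfsg.IsKRootSubgroupSet F ((fun A : Subgroup ↥(Cfsg.isometryGroup F ⇑(qfPlus N F)) =>
        A.subgroupOf (⨆ B ∈ lineSet (qfPlus N F), B)) '' lineSet (qfPlus N F)) ∧
    Cfsg.IsConnectedFamily (Cfsg.FAdj (lineSet (qfPlus N F))) (lineSet (qfPlus N F)) := by
  have hQ := plus_nondeg (F := F) (N := N)
  refine ⟨abs_kroot (L := F) (lineSet (qfPlus N F)) ?_ ?_ ?_ (pair_cases _ hQ), connected hN⟩
  · rintro _ ⟨p, r, h, rfl⟩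
    exact Tq_comm _ hQ p r h
  · rintro _ ⟨p, r, h, rfl⟩
    exact Tq_ne_bot _ hQ p r h
  · rintro _ ⟨p, r, h, rfl⟩ g
    exact ⟨_, _, h.img g, conjBy_Tq _ hQ p r h g⟩

end aux

/-- Let F be a field, m a natural number and V = F^{2(m+3)} with the hyperbolic quadratic form q(x, y) = Σ xᵢ yᵢ (non-degenerate, Witt index m + 3 ≥ 3). For a singular line ℓ (a 2-dimensional subspace on which q vanishes) let T(ℓ) be the group of isometries of q fixing every vector of ℓ^⊥ (the Siegel transvection group of ℓ), let Σ be the set of these groups and G₀ the subgroup they generate. Then, viewed inside G₀, the members of Σ form a set of abstract F-root subgroups of G₀ (any two commute, or are the unipotent subgroups of a rank one group that is an image of SL₂(F) with central kernel, or satisfy the commutator case), and their graph of rank one pairs is connected. -/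
theorem result (F : Type*) [Field F] (m : ℕ) :
    Cfsg.IsKRootSubgroupSet F ((fun A : Subgroup ↥(Cfsg.isometryGroup F (Cfsg.quadFormPlus (m + 3) F)) => A.subgroupOf (⨆ B ∈ {A : Subgroup ↥(Cfsg.isometryGroup F (Cfsg.quadFormPlus (m + 3) F)) | ∃ p r : Fin (m + 3) ⊕ Fin (m + 3) → F, LinearIndependent F ![p, r] ∧
          Cfsg.quadFormPlus (m + 3) F p = 0 ∧ Cfsg.quadFormPlus (m + 3) F r = 0 ∧
          Cfsg.quadFormPlus (m + 3) F (p + r) = 0 ∧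
          A = Subgroup.closure {σ : ↥(Cfsg.isometryGroup F (Cfsg.quadFormPlus (m + 3) F)) | ∀ v : Fin (m + 3) ⊕ Fin (m + 3) → F,
            Cfsg.quadFormPlus (m + 3) F (v + p) - Cfsg.quadFormPlus (m + 3) F v - Cfsg.quadFormPlus (m + 3) F p = 0 →
            Cfsg.quadFormPlus (m + 3) F (v + r) - Cfsg.quadFormPlus (m + 3) F v - Cfsg.quadFormPlus (m + 3) F r = 0 →
              ((σ : Matrix.GeneralLinearGroup (Fin (m + 3) ⊕ Fin (m + 3)) F) : Matrix (Fin (m + 3) ⊕ Fin (m + 3)) (Fin (m + 3) ⊕ Fin (m + 3)) F) *ᵥ v = v}}, B)) ''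
      {A : Subgroup ↥(Cfsg.isometryGroup F (Cfsg.quadFormPlus (m + 3) F)) | ∃ p r : Fin (m + 3) ⊕ Fin (m + 3) → F, LinearIndependent F ![p, r] ∧
          Cfsg.quadFormPlus (m + 3) F p = 0 ∧ Cfsg.quadFormPlus (m + 3) F r = 0 ∧
          Cfsg.quadFormPlus (m + 3) F (p + r) = 0 ∧
          A = Subgroup.closure {σ : ↥(Cfsg.isometryGroup F (Cfsg.quadFormPlus (m + 3) F)) | ∀ v : Fin (m + 3) ⊕ Fin (m + 3) → F,
            Cfsg.quadFormPlus (m + 3) F (v + p) - Cfsg.quadFormPlus (m + 3) F v - Cfsg.quadFormPlus (m + 3) F p = 0 →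
            Cfsg.quadFormPlus (m + 3) F (v + r) - Cfsg.quadFormPlus (m + 3) F v - Cfsg.quadFormPlus (m + 3) F r = 0 →
              ((σ : Matrix.GeneralLinearGroup (Fin (m + 3) ⊕ Fin (m + 3)) F) : Matrix (Fin (m + 3) ⊕ Fin (m + 3)) (Fin (m + 3) ⊕ Fin (m + 3)) F) *ᵥ v = v}}) ∧
    Cfsg.IsConnectedFamily (Cfsg.FAdj {A : Subgroup ↥(Cfsg.isometryGroup F (Cfsg.quadFormPlus (m + 3) F)) | ∃ p r : Fin (m + 3) ⊕ Fin (m + 3) → F, LinearIndependent F ![p, r] ∧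
          Cfsg.quadFormPlus (m + 3) F p = 0 ∧ Cfsg.quadFormPlus (m + 3) F r = 0 ∧
          Cfsg.quadFormPlus (m + 3) F (p + r) = 0 ∧
          A = Subgroup.closure {σ : ↥(Cfsg.isometryGroup F (Cfsg.quadFormPlus (m + 3) F)) | ∀ v : Fin (m + 3) ⊕ Fin (m + 3) → F,
            Cfsg.quadFormPlus (m + 3) F (v + p) - Cfsg.quadFormPlus (m + 3) F v - Cfsg.quadFormPlus (m + 3) F p = 0 →
            Cfsg.quadFormPlus (m + 3) F (v + r) - Cfsg.quadFormPlus (m + 3) F v - Cfsg.quadFormPlus (m + 3) F r = 0 →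
              ((σ : Matrix.GeneralLinearGroup (Fin (m + 3) ⊕ Fin (m + 3)) F) : Matrix (Fin (m + 3) ⊕ Fin (m + 3)) (Fin (m + 3) ⊕ Fin (m + 3)) F) *ᵥ v = v}})
      {A : Subgroup ↥(Cfsg.isometryGroup F (Cfsg.quadFormPlus (m + 3) F)) | ∃ p r : Fin (m + 3) ⊕ Fin (m + 3) → F, LinearIndependent F ![p, r] ∧
          Cfsg.quadFormPlus (m + 3) F p = 0 ∧ Cfsg.quadFormPlus (m + 3) F r = 0 ∧
          Cfsg.quadFormPlus (m + 3) F (p + r) = 0 ∧
          A = Subgroup.closure {σ : ↥(Cfsg.isometryGroup F (Cfsg.quadFormPlus (m + 3) F)) | ∀ v : Fin (m + 3) ⊕ Fin (m + 3) → F,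
            Cfsg.quadFormPlus (m + 3) F (v + p) - Cfsg.quadFormPlus (m + 3) F v - Cfsg.quadFormPlus (m + 3) F p = 0 →
            Cfsg.quadFormPlus (m + 3) F (v + r) - Cfsg.quadFormPlus (m + 3) F v - Cfsg.quadFormPlus (m + 3) F r = 0 →
              ((σ : Matrix.GeneralLinearGroup (Fin (m + 3) ⊕ Fin (m + 3)) F) : Matrix (Fin (m + 3) ⊕ Fin (m + 3)) (Fin (m + 3) ⊕ Fin (m + 3)) F) *ᵥ v = v}} := by
  rw [← Cfsg.Agent.Helper16.coe_qfPlus (m + 3) F]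
  rw [set_eq (Cfsg.Agent.Helper16.qfPlus (m + 3) F)]
  exact main (m + 3) (by omega)

end Cfsg.Agent.S5072
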