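import Cfsg.Statements.S5078
import Cfsg.Agent.Helper26.Fusion

set_option autoImplicit false
open Cfsg

namespace Cfsg.Agent.S5078

open Cfsg.Agent.Helper26 Cfsg.FusionSystem

/-- In any fusion system over a finite subgroup S, a receptive subgroup is fully centralized. -/
theorem result {Ω : Type*} [Group Ω] {S : Subgroup Ω} [Finite S] (F : Cfsg.FusionSystem S) (P : Subgroup Ω) (hP : F.IsReceptive P) : F.IsFullyCentralized P := by
  refine ⟨hP.1, ?_⟩
  rintro Q ⟨φ, hφ, rfl⟩
  obtain ⟨ψ, hψ, hψφ, hrange⟩ := exists_inv_map F hφ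
  obtain ⟨χ, hχ, hχψ⟩ := hP.2 φ.range ψ hψ hrange
  have hQS := (F.le_of_mem hψ).1
  have hψS := (F.le_of_mem hψ).2
  have hle : centralizerIn S φ.range ≤ extender S φ.range ψ := centralizerIn_le_extender _ _ _
  have hQle : φ.range ≤ extender S φ.range ψ := le_extender hQS ψ hψS
  have hmem : ∀ c : centralizerIn S φ.range, χ ⟨c, hle c.2⟩ ∈ centralizerIn S P := by
    intro c
    refine ⟨(F.le_of_mem hχ).2 _, ?_⟩
    intro y hy
    have hy' : y ∈ ψ.range := by rw [hrange]; exact hy
    obtain ⟨x, rfl⟩ := hy'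
    rw [← hχψ x x.2 (hQle x.2)]
    rw [← map_mul, ← map_mul]
    congr 1
    apply Subtype.ext
    exact c.2.2 x x.2
  have hinj : Function.Injective
      (fun c : centralizerIn S φ.range => (⟨χ ⟨c, hle c.2⟩, hmem c⟩ : centralizerIn S P)) := by
    intro c d hcd
    have h1 : χ ⟨c, hle c.2⟩ = χ ⟨d, hle d.2⟩ := congrArg Subtype.val hcd
    have h2 := F.injective_of_mem hχ h1
    exact Subtype.ext (Subtype.mk.inj h2)
  exact Nat.card_le_card_of_injective _ hinj

end Cfsg.Agent.S5078
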