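import Cfsg.Statements.S5100
import Cfsg.Agent.Helper26.GroupFusion

set_option autoImplicit false
open Cfsg

namespace Cfsg.Agent.S5100

open Cfsg.Agent.Helper26 Cfsg.FusionSystem

/-- In the fusion system of a finite group G on a Sylow p-subgroup S, a subgroup P ≤ S is fully normalized if and only if N_S(P) is a Sylow p-subgroup of N_G(P). -/
theorem result {G : Type*} [Group G] [Finite G] (p : ℕ) [Fact p.Prime] (S : Sylow p G) (P : Subgroup G) (hP : P ≤ S) : (Cfsg.groupFusionSystem (S : Subgroup G)).IsFullyNormalized P ↔ ∃ R : Sylow p ↥(Subgroup.normalizer (P : Set G)), (R : Subgroup ↥(Subgroup.normalizer (P : Set G))) = (Cfsg.FusionSystem.normalizerIn (S : Subgroup G) P).subgroupOf (Subgroup.normalizer (P : Set G)) := by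
  rw [sylow_iff_cardSyl p (A := normalizerIn (S : Subgroup G) P) inf_le_right]
  constructor
  · intro hfn
    obtain ⟨A, hNA, hA⟩ := exists_cardSyl_ge p (isPGroup_normalizerIn S P)
      (inf_le_right : normalizerIn (S : Subgroup G) P ≤ Subgroup.normalizer (P : Set G))
    have hPA : P ≤ A := (le_normalizerIn hP).trans hNA
    obtain ⟨g, hQS, hAQ, hsyl⟩ := exists_conj_normalizer_sylow p S hA hPA
    have hconj : (groupFusionSystem (S : Subgroup G)).IsConj P (P.map (MulAut.conj g).toMonoidHom) :=
      (groupFusion_isConj_iff _).mpr ⟨hP, hQS, g, rfl⟩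
    have h1 := hfn.2 _ hconj
    have h2 : Nat.card A ≤ Nat.card (normalizerIn (S : Subgroup G) P) := by
      rw [← card_map_conj A g]
      exact (Subgroup.card_le_of_le hAQ).trans h1
    have h3 : normalizerIn (S : Subgroup G) P = A := Subgroup.eq_of_le_of_card_ge hNA h2
    rw [h3]; exact hA
  · intro h
    refine ⟨hP, fun Q hQ => ?_⟩
    obtain ⟨-, hQS, g, rfl⟩ := (groupFusion_isConj_iff _).mp hQ
    have hT : IsPGroup p ((normalizerIn (S : Subgroup G) (P.map (MulAut.conj g).toMonoidHom)).map
        (MulAut.conj g⁻¹).toMonoidHom) := (isPGroup_normalizerIn S _).map _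
    have hTB : (normalizerIn (S : Subgroup G) (P.map (MulAut.conj g).toMonoidHom)).map
        (MulAut.conj g⁻¹).toMonoidHom ≤ Subgroup.normalizer (P : Set G) := by
      have h1 := map_conj_mono (inf_le_right : normalizerIn (S : Subgroup G)
        (P.map (MulAut.conj g).toMonoidHom) ≤ _) g⁻¹
      rw [← normalizer_map_conj, map_conj_inv_map_conj] at h1
      exact h1
    have h2 := card_le_of_isPGroup p hT hTB
    rw [card_map_conj, ← h.2] at h2
    exact h2

end Cfsg.Agent.S5100
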