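import Cfsg.Statements.S5102
import Cfsg.Agent.Helper26.Fusion

set_option autoImplicit false
open Cfsg

namespace Cfsg.Agent.S5102

open Cfsg.Agent.Helper26 Cfsg.FusionSystem

/-- A normal p-subgroup of a finite group G is normal in the fusion system of G on a Sylow p-subgroup. -/
theorem result {G : Type*} [Group G] [Finite G] (p : ℕ) [Fact p.Prime] (S : Sylow p G) (R : Subgroup G) [R.Normal] (hR : IsPGroup p R) : (Cfsg.groupFusionSystem (S : Subgroup G)).IsNormal R := by
  have hRS : R ≤ (S : Subgroup G) := hR.le_sylow_of_normal S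
  refine ⟨hRS, ?_⟩
  rintro P φ ⟨hPS, hφS, g, hg⟩
  have hle : P ⊔ R ≤ (S : Subgroup G) := sup_le hPS hRS
  have hconj : P ⊔ R ≤ Subgroup.comap (MulAut.conj g).toMonoidHom (S : Subgroup G) := by
    apply sup_le
    · intro x hx
      rw [Subgroup.mem_comap]
      have := hφS ⟨x, hx⟩
      rw [hg] at this
      exact this
    · intro x hx
      rw [Subgroup.mem_comap]
      exact hRS (‹R.Normal›.conj_mem x hx g)
  refine ⟨conjHom (P ⊔ R) g, ⟨hle, fun x => hconj x.2, g, fun x => rfl⟩, ?_, ?_⟩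
  · intro x
    rw [hg]; rfl
  · ext y
    constructor
    · rintro ⟨⟨u, hu'⟩, hu, rfl⟩
      rw [SetLike.mem_coe, Subgroup.mem_subgroupOf] at hu
      exact ‹R.Normal›.conj_mem u hu g
    · intro hy
      have h1 : g⁻¹ * y * g ∈ R := by
        have := ‹R.Normal›.conj_mem y hy g⁻¹
        rwa [inv_inv] at this
      refine ⟨⟨g⁻¹ * y * g, le_sup_right (a := P) h1⟩, ?_, ?_⟩
      · rw [SetLike.mem_coe, Subgroup.mem_subgroupOf]; exact h1
      · show g * (g⁻¹ * y * g) * g⁻¹ = y
        group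

end Cfsg.Agent.S5102
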