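import Cfsg.Statements.S5104
import Cfsg.Agent.Helper26.Fusion

set_option autoImplicit false
open Cfsg

namespace Cfsg.Agent.S5104

open Cfsg.Agent.Helper26 Cfsg.FusionSystem

/-- In a saturated fusion system over a finite p-group S, a fully centralized subgroup U with C_S(U) ≤ U is centric. -/
theorem result {Ω : Type*} [Group Ω] {S : Subgroup Ω} [Finite S] (p : ℕ) [Fact p.Prime] (hS : IsPGroup p S) (F : Cfsg.FusionSystem S) (hF : F.IsSaturated p) (U : Subgroup Ω) (hU : F.IsFullyCentralized U) (hC : Cfsg.FusionSystem.centralizerIn S U ≤ U) : F.IsCentric U := by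
  refine ⟨hU.1, ?_⟩
  rintro Q ⟨φ, hφ, rfl⟩
  have hcard := hU.2 φ.range ⟨φ, hφ, rfl⟩
  have hmem : ∀ c : centralizerIn S U, φ ⟨c, hC c.2⟩ ∈ centralizerIn S φ.range := by
    intro c
    refine ⟨(F.le_of_mem hφ).2 _, ?_⟩
    rintro _ ⟨x, rfl⟩
    rw [← map_mul, ← map_mul]
    congr 1
    apply Subtype.ext
    exact c.2.2 x x.2
  have hinj : Function.Injective
      (fun c : centralizerIn S U => (⟨φ ⟨c, hC c.2⟩, hmem c⟩ : centralizerIn S φ.range)) := by
    intro c d hcd
    have h1 : φ ⟨c, hC c.2⟩ = φ ⟨d, hC d.2⟩ := congrArg Subtype.val hcd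
    have h2 := F.injective_of_mem hφ h1
    exact Subtype.ext (Subtype.mk.inj h2)
  have hbij := hinj.bijective_of_nat_card_le hcard
  intro y hy
  obtain ⟨c, hc⟩ := hbij.2 ⟨y, hy⟩
  have : φ ⟨c, hC c.2⟩ = y := congrArg Subtype.val hc
  rw [← this]
  exact ⟨_, rfl⟩

end Cfsg.Agent.S5104
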