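import Cfsg.Statements.S5107
import Cfsg.Agent.Helper26.NormalSeries

set_option autoImplicit false
open Cfsg

namespace Cfsg.Agent.S5107

open Cfsg.Agent.Helper26 Cfsg.FusionSystem

/-- If a Sylow p-subgroup S of a finite group G has nilpotency class at most two and its centre is strongly closed in S with respect to G, then every map of the fusion system of G on S is conjugation by an element of N_G(S), and S is the largest subgroup normal in that fusion system. -/
theorem result {G : Type*} [Group G] [Finite G] (p : ℕ) [Fact p.Prime] (S : Sylow p G) (hcl : ⁅(S : Subgroup G), (S : Subgroup G)⁆ ≤ (S : Subgroup G) ⊓ Subgroup.centralizer ((S : Subgroup G) : Set G)) (hZ : Cfsg.IsStronglyClosed ((S : Subgroup G) ⊓ Subgroup.centralizer ((S : Subgroup G) : Set G)) (S : Subgroup G)) : (∀ (P : Subgroup G) (φ : P →* G), φ ∈ (Cfsg.groupFusionSystem (S : Subgroup G)).Hom P → ∃ g ∈ Subgroup.normalizer ((S : Subgroup G) : Set G), ∀ x : P, φ x = g * (x : G) * g⁻¹) ∧ (Cfsg.groupFusionSystem (S : Subgroup G)).core = S := by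
  have hF := groupFusion_saturated p S
  have hS : IsPGroup p ↥(S : Subgroup G) := S.isPGroup'
  have hZsc : (groupFusionSystem (S : Subgroup G)).StronglyClosed
      ((S : Subgroup G) ⊓ Subgroup.centralizer ((S : Subgroup G) : Set G)) := by
    refine ⟨inf_le_left, fun R hR φ hφ x => ?_⟩
    obtain ⟨-, hφS, g, hg⟩ := hφ
    have h1 := hφS x
    rw [hg] at h1 ⊢
    exact hZ.2 x (hR x.2) g h1
  have hSsc : (groupFusionSystem (S : Subgroup G)).StronglyClosed (S : Subgroup G) :=
    ⟨le_rfl, fun R _ φ hφ x => ((groupFusionSystem (S : Subgroup G)).le_of_mem hφ).2 x⟩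
  have hnorm : (groupFusionSystem (S : Subgroup G)).IsNormal (S : Subgroup G) := by
    apply normal_of_series p hS _ hF (S : Subgroup G)
      (fun i => if i = 0 then ⊥ else if i = 1 then
        (S : Subgroup G) ⊓ Subgroup.centralizer ((S : Subgroup G) : Set G) else (S : Subgroup G)) 2
      rfl rfl
    · intro i hi
      have hi' : i = 0 ∨ i = 1 := by omega
      rcases hi' with rfl | rfl
      · exact bot_le
      · exact inf_le_left
    · intro i hi
      have hi' : i = 0 ∨ i = 1 := by omega
      rcases hi' with rfl | rfl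
      · exact hZsc
      · exact hSsc
    · intro i hi
      have hi' : i = 0 ∨ i = 1 := by omega
      rcases hi' with rfl | rfl
      · show ⁅(S : Subgroup G), (S : Subgroup G) ⊓ Subgroup.centralizer ((S : Subgroup G) : Set G)⁆
          ≤ ⊥
        rw [Subgroup.commutator_le]
        intro g₁ h₁ g₂ h₂
        rw [Subgroup.mem_bot, commutatorElement_eq_one_iff_mul_comm]
        exact h₂.2 g₁ h₁
      · exact hcl
  constructor
  · intro P φ hφ
    obtain ⟨ψ, hψ, hψφ, hψS⟩ := hnorm.2 P φ hφ
    rw [map_subgroupOf_eq_iff] at hψS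
    obtain ⟨-, -, g, hg⟩ := hψ
    refine ⟨g, ?_, fun x => ?_⟩
    · rw [Subgroup.mem_normalizer_iff]
      intro h
      constructor
      · intro hh
        have := hψS.1 ⟨h, hh⟩
        rw [hg] at this
        exact this
      · intro hh
        obtain ⟨q, hq⟩ := hψS.2 _ hh
        rw [hg] at hq
        have : (q : G) = h := mul_left_cancel (mul_right_cancel hq)
        rw [← this]
        exact q.2
    · rw [← hψφ x, hg]
      rfl
  · exact le_antisymm (sSup_le fun Q hQ => hQ.1) (le_sSup hnorm)

end Cfsg.Agent.S5107
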