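import Cfsg.Statements.S5128
import Cfsg.Agent.Helper27.FusLift

set_option autoImplicit false
open Cfsg

namespace Cfsg.Agent.S5128

open Cfsg.FusionSystem Cfsg.Agent.Helper27

/-- In a saturated fusion system over a finite p-group S, the product of two strongly closed subgroups is strongly closed. -/
theorem result {Ω : Type*} [Group Ω] {S : Subgroup Ω} [Finite S] (p : ℕ) [Fact p.Prime] (hS : IsPGroup p S) (F : Cfsg.FusionSystem S) (hF : F.IsSaturated p) (T₁ T₂ : Subgroup Ω) (h₁ : F.StronglyClosed T₁) (h₂ : F.StronglyClosed T₂) : F.StronglyClosed (T₁ ⊔ T₂) := by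
  refine ⟨sup_le h₁.1 h₂.1, ?_⟩
  intro R hR φ hφ x
  have hf : Mor F R (fn φ) := mor_of_hom hφ
  obtain ⟨ψ, hψ, hψx⟩ := lift_mod_stronglyClosed hS hF h₁ hf
  have hx := hψx x x.2
  rw [fn_apply] at hx
  obtain ⟨t₁, ht₁, t₂, ht₂, hxt⟩ := exists_mul_of_mem_sup
    (fun r hr t ht => StronglyClosed.conj_mem h₂ (h₁.1 hr) ht) (hR x.2)
  have ht₂' : t₂ ∈ R ⊔ T₁ := by
    have h : t₂ = t₁⁻¹ * x := by rw [hxt]; group
    rw [h]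
    exact Subgroup.mul_mem _ ((le_sup_right : T₁ ≤ R ⊔ T₁) (T₁.inv_mem ht₁))
      ((le_sup_left : R ≤ R ⊔ T₁) x.2)
  have ht₁' : t₁ ∈ R ⊔ T₁ := (le_sup_right : T₁ ≤ R ⊔ T₁) ht₁
  have h3 : ψ x = ψ t₁ * ψ t₂ := by rw [hxt]; exact hψ.map_mul ht₁' ht₂'
  have h4 : ψ t₁ ∈ T₁ := StronglyClosed.mor h₁ (hψ.restrict le_sup_right) le_rfl ht₁
  have h5 : ψ t₂ ∈ T₂ :=
    StronglyClosed.mor h₂ (hψ.restrict (R := (R ⊔ T₁) ⊓ T₂) inf_le_left) inf_le_right ⟨ht₂', ht₂⟩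
  have h6 : φ x = ψ x * ((φ x)⁻¹ * ψ x)⁻¹ := by group
  rw [h6]
  refine Subgroup.mul_mem _ ?_ ((le_sup_left : T₁ ≤ T₁ ⊔ T₂) (T₁.inv_mem hx))
  rw [h3]
  exact Subgroup.mul_mem _ ((le_sup_left : T₁ ≤ T₁ ⊔ T₂) h4) ((le_sup_right : T₂ ≤ T₁ ⊔ T₂) h5)

end Cfsg.Agent.S5128
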