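import Cfsg.Statements.S5164
import Cfsg.Agent.Helper27.AltSylow

set_option autoImplicit false
open Cfsg

namespace Cfsg.Agent.S5164

open Cfsg.Agent.Helper27

/-- For n ≥ 6 and a prime p, a nontrivial Sylow p-subgroup of the alternating group of degree n is abelian if and only if n < p². -/
theorem result (n p : ℕ) (hn : 6 ≤ n) [Fact p.Prime] (S : Sylow p (alternatingGroup (Fin n))) (hS : (S : Subgroup (alternatingGroup (Fin n))) ≠ ⊥) : IsMulCommutative S ↔ n < p ^ 2 := by
  have hp : p.Prime := Fact.out
  constructor
  · intro hcomm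
    by_contra hlt
    rw [not_lt] at hlt
    by_cases hp2 : p = 2
    · subst hp2
      have hcard : Fintype.card ((ZMod 2 × ZMod 2) ⊕ ℤˣ) ≤ Fintype.card (Fin n) := by
        rw [Fintype.card_sum, Fintype.card_prod, ZMod.card, Fintype.card_units_int,
          Fintype.card_fin]
        omega
      obtain ⟨e⟩ := Function.Embedding.nonempty_of_card_le hcard
      obtain ⟨f, hfdef⟩ : ∃ f : Heis 2 →* Equiv.Perm (Fin n),
          f = (Equiv.Perm.extendDomainHom e.toEquivRange).comp
            ((signFix _).comp (Heis 2).subtype) := ⟨_, rfl⟩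
      have hf : ∀ h, Equiv.Perm.sign (f h) = 1 := by
        intro h
        rw [hfdef]
        show Equiv.Perm.sign (Equiv.Perm.extendDomain _ e.toEquivRange) = 1
        rw [Equiv.Perm.sign_extendDomain]
        exact sign_signFix _ _
      have hinj : Function.Injective f := by
        rw [hfdef]
        exact (Equiv.Perm.extendDomainHom_injective e.toEquivRange).comp
          ((signFix_injective _).comp Subtype.val_injective)
      have h1 := comm_of_hom S hcomm (isPGroup_Heis 2) f hf ⟨heis 2 1 0 0, heis_mem _ _ _ _⟩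
        ⟨heis 2 0 0 1, heis_mem _ _ _ _⟩
      rw [← map_mul, ← map_mul] at h1
      have h2 := hinj h1
      exact heis_not_comm 2 (congrArg Subtype.val h2)
    · have hcard : Fintype.card (ZMod p × ZMod p) ≤ Fintype.card (Fin n) := by
        rw [Fintype.card_prod, ZMod.card, Fintype.card_fin]
        rw [pow_two] at hlt
        exact hlt
      obtain ⟨e⟩ := Function.Embedding.nonempty_of_card_le hcard
      obtain ⟨f, hfdef⟩ : ∃ f : Heis p →* Equiv.Perm (Fin n),
          f = (Equiv.Perm.extendDomainHom e.toEquivRange).comp (Heis p).subtype := ⟨_, rfl⟩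
      have hf : ∀ h, Equiv.Perm.sign (f h) = 1 := fun h =>
        sign_eq_one_of_pgroup hp2 (isPGroup_Heis p) (Equiv.Perm.sign.comp f) h
      have hinj : Function.Injective f := by
        rw [hfdef]
        exact (Equiv.Perm.extendDomainHom_injective e.toEquivRange).comp Subtype.val_injective
      have h1 := comm_of_hom S hcomm (isPGroup_Heis p) f hf ⟨heis p 1 0 0, heis_mem _ _ _ _⟩
        ⟨heis p 0 0 1, heis_mem _ _ _ _⟩
      rw [← map_mul, ← map_mul] at h1
      have h2 := hinj h1
      exact heis_not_comm p (congrArg Subtype.val h2)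
  · intro hlt
    refine ⟨⟨fun a b => ?_⟩⟩
    have hP : IsPGroup p ((S : Subgroup (alternatingGroup (Fin n))).map
        (alternatingGroup (Fin n)).subtype) := S.isPGroup'.map _
    have h := comm_of_pgroup_small (by simpa using hlt) _ hP
      ((a : alternatingGroup (Fin n)) : Equiv.Perm (Fin n))
      ((b : alternatingGroup (Fin n)) : Equiv.Perm (Fin n)) ⟨_, a.2, rfl⟩ ⟨_, b.2, rfl⟩
    exact Subtype.ext (Subtype.ext h)

end Cfsg.Agent.S5164
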