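import Cfsg.Statements.S5345
-- import your own Cfsg.Agent.* helpers here

set_option autoImplicit false
open Cfsg
open scoped Pointwise

namespace Cfsg.Agent.S5345

/-- Let D be a conjugation-invariant generating set of 3-transpositions of a finite group G and T a Sylow 2-subgroup of G. Then the members of D lying in T generate an abelian subgroup, and their number is the width of D (the largest number of pairwise commuting members of D). -/
theorem result {G : Type*} [Group G] [Finite G] {D : Set G} (hD : Cfsg.IsThreeTranspositionGroup D) (T : Sylow 2 G) : IsMulCommutative (Subgroup.closure {d : G | d ∈ D ∧ d ∈ T}) ∧ {d : G | d ∈ D ∧ d ∈ T}.ncard = Cfsg.commutingWidth D := by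
  obtain ⟨⟨hord, h23⟩, hconj, -⟩ := hD
  have sq : ∀ d ∈ D, d * d = 1 := by
    intro d hd
    have h := hord d hd
    rw [← pow_two, ← h]
    exact pow_orderOf_eq_one d
  have invself : ∀ d ∈ D, d⁻¹ = d := fun d hd => inv_eq_of_mul_eq_one_left (sq d hd)
  have hcommA : ∀ x ∈ {d : G | d ∈ D ∧ d ∈ T}, ∀ y ∈ {d : G | d ∈ D ∧ d ∈ T}, x * y = y * x := by
    rintro d ⟨hd, hdT⟩ e ⟨he, heT⟩
    have hdeT : d * e ∈ (T : Subgroup G) := mul_mem hdT heT
    obtain ⟨k, hk⟩ := T.2 ⟨d * e, hdeT⟩
    have hk' : (d * e) ^ (2 ^ k) = 1 := by simpa using congrArg Subtype.val hk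
    rcases h23 d hd e he with h | h
    · rw [pow_two] at h
      have h4 : d * e = (d * e)⁻¹ := eq_inv_of_mul_eq_one_left h
      rw [mul_inv_rev, invself d hd, invself e he] at h4
      exact h4
    · have ho : orderOf (d * e) ∣ Nat.gcd 3 (2 ^ k) :=
        Nat.dvd_gcd (orderOf_dvd_of_pow_eq_one h) (orderOf_dvd_of_pow_eq_one hk')
      have hc : Nat.gcd 3 (2 ^ k) = 1 := Nat.Coprime.pow_right k (by norm_num)
      rw [hc] at ho
      have h1 : d * e = 1 := orderOf_eq_one_iff.mp (Nat.dvd_one.mp ho)
      have h2 : d = e := by rw [eq_inv_of_mul_eq_one_left h1, invself e he]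
      rw [h2]
  refine ⟨Subgroup.isMulCommutative_closure hcommA, ?_⟩
  have hAfin : {d : G | d ∈ D ∧ d ∈ T}.Finite := Set.toFinite _
  have hAmem : {d : G | d ∈ D ∧ d ∈ T}.ncard ∈ {n : ℕ | ∃ E : Set G, E ⊆ D ∧ E.Finite ∧
      (∀ a ∈ E, ∀ b ∈ E, Commute a b) ∧ E.ncard = n} :=
    ⟨_, fun d hd => hd.1, hAfin, fun a ha b hb => hcommA a ha b hb, rfl⟩
  have hub : ∀ n ∈ {n : ℕ | ∃ E : Set G, E ⊆ D ∧ E.Finite ∧
      (∀ a ∈ E, ∀ b ∈ E, Commute a b) ∧ E.ncard = n}, n ≤ {d : G | d ∈ D ∧ d ∈ T}.ncard := by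
    rintro n ⟨E, hED, -, hEc, rfl⟩
    have hcl := Subgroup.isMulCommutative_closure (k := E) (fun x hx y hy => hEc x hx y hy)
    have hsq : ∀ x ∈ Subgroup.closure E, x * x = 1 := by
      intro x hx
      induction hx using Subgroup.closure_induction with
      | mem y hy => exact sq y (hED hy)
      | one => simp
      | mul a b ha hb iha ihb =>
        have hab : a * b = b * a := by
          have h := isMulCommutative_iff.mp hcl (⟨a, ha⟩ : Subgroup.closure E) ⟨b, hb⟩
          exact congrArg Subtype.val h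
        calc a * b * (a * b) = a * (b * a) * b := by group
          _ = a * (a * b) * b := by rw [hab]
          _ = (a * a) * (b * b) := by group
          _ = 1 := by rw [iha, ihb, one_mul]
      | inv a ha iha =>
        calc a⁻¹ * a⁻¹ = (a * a)⁻¹ := by group
          _ = 1 := by rw [iha, inv_one]
    have hp : IsPGroup 2 (Subgroup.closure E) := by
      intro x
      refine ⟨1, ?_⟩
      apply Subtype.ext
      have h := hsq x x.2
      simp only [pow_one, pow_two]
      exact h
    obtain ⟨R, hR⟩ := hp.exists_le_sylow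
    obtain ⟨g, hg⟩ := MulAction.exists_smul_eq G R T
    refine Set.ncard_le_ncard_of_injOn (fun e => g * e * g⁻¹) ?_ ?_ hAfin
    · intro e he
      refine ⟨hconj g e (hED he), ?_⟩
      have h0 : e ∈ (R : Subgroup G) := hR (Subgroup.subset_closure he)
      have h1 : (MulAut.conj g) • e ∈ (MulAut.conj g) • (R : Subgroup G) :=
        Subgroup.smul_mem_pointwise_smul _ _ _ h0
      have h2 : ((g • R : Sylow 2 G) : Subgroup G) = MulAut.conj g • (R : Subgroup G) :=
        Sylow.coe_subgroup_smul
      rw [← h2, hg] at h1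
      exact h1
    · intro e _ e' _ h
      have h' : g * e * g⁻¹ = g * e' * g⁻¹ := h
      exact mul_left_cancel (mul_right_cancel h')
  exact le_antisymm (le_csSup ⟨_, hub⟩ hAmem) (csSup_le ⟨_, hAmem⟩ hub)

end Cfsg.Agent.S5345
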