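import Cfsg.Statements.S5355
import Cfsg.Agent.Helper27.ThreeTransB

open Cfsg.Agent.Helper27


set_option autoImplicit false
open Cfsg

namespace Cfsg.Agent.S5355

/-- Let D be a conjugacy class of 3-transpositions generating the finite group G, with at least two members, and d a member of D. Suppose that every member of D commuting with d commutes with exactly the same members of D as d does, and that exactly one member of D other than d commutes with d. Then G is isomorphic to the symmetric group of degree 4. -/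
theorem result {G : Type*} [Group G] [Finite G] {D : Set G} (hD : Cfsg.IsThreeTranspositionClass D) (hD2 : ∃ a ∈ D, ∃ b ∈ D, a ≠ b) {d : G} (hd : d ∈ D) (hV : {y : G | y ∈ D ∧ Commute d y} = {v : G | v ∈ D ∧ ∀ e ∈ D, Commute v e ↔ Commute d e}) (hm : {y : G | y ∈ D ∧ Commute d y}.ncard = 2) : Nonempty (G ≃* Equiv.Perm (Fin 4)) := by
  classical
  have hDs := hD.1
  have hconj := TT.class_conj hD
  obtain ⟨x, y, hxy, hA⟩ := Set.ncard_eq_two.mp hm
  have hdA : d ∈ {y : G | y ∈ D ∧ Commute d y} := ⟨hd, Commute.refl d⟩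
  obtain ⟨v, hvd, hA'⟩ : ∃ v, v ≠ d ∧ {y : G | y ∈ D ∧ Commute d y} = {d, v} := by
    rw [hA] at hdA
    rcases hdA with h | h
    · exact ⟨y, fun h' => hxy (h.symm ▸ h'.symm), by rw [hA, h]⟩
    · have h' : d = y := h
      exact ⟨x, fun h'' => hxy (h''.trans h'), by rw [hA, h', Set.pair_comm]⟩
  have hvA : v ∈ {y : G | y ∈ D ∧ Commute d y} := by rw [hA']; simp
  have hvV : v ∈ TT.Vc D d := by
    rw [hV] at hvA
    exact hvA
  have hAd : ∀ y ∈ D, Commute d y → y = d ∨ y = v := by
    intro y hy hc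
    have h : y ∈ {y : G | y ∈ D ∧ Commute d y} := ⟨hy, hc⟩
    rw [hA'] at h
    simpa using h
  have P2 : ∀ a ∈ D, ∀ y ∈ D, ∀ z ∈ D, Commute a y → Commute a z → y ≠ a → z ≠ a → y = z := by
    intro a ha y hy z hz hay haz hya hza
    obtain ⟨g, rfl⟩ := TT.exists_conj_eq hD hd ha
    have hy' : g⁻¹ * y * g ∈ D := by
      have := hconj g⁻¹ y hy
      rwa [inv_inv] at this
    have hz' : g⁻¹ * z * g ∈ D := by
      have := hconj g⁻¹ z hz
      rwa [inv_inv] at this
    have h1 := hAd _ hy' ((TT.commute_conj_iff g d y).mp hay)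
    have h2 := hAd _ hz' ((TT.commute_conj_iff g d z).mp haz)
    have e1 : g⁻¹ * y * g = v := by
      rcases h1 with h | h
      · exfalso
        apply hya
        rw [← h]
        group
      · exact h
    have e2 : g⁻¹ * z * g = v := by
      rcases h2 with h | h
      · exfalso
        apply hza
        rw [← h]
        group
      · exact h
    have e3 : y = g * (g⁻¹ * y * g) * g⁻¹ := by group
    rw [e3, e1, ← e2]
    group
  obtain ⟨c, hc, hdc⟩ := TT.exists_not_commute hD hD2 hd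
  have hcv : ¬ Commute c v := fun h => hdc ((hvV.2 c hc).mp h.symm)
  obtain ⟨φ, hinj, h0, h1, h2⟩ := Cfsg.Agent.S5344.result hDs hd hc hvV.1 (Ne.symm hvd)
    (TT.Vc_commute hd hvV).symm hdc hcv
  -- the partner of `c`
  have Fdc := TT.partner hDs hconj hd hvV (Ne.symm hvd) hc hdc
  obtain ⟨c', hc'⟩ : ∃ c', c' = (d * v) * c * (d * v)⁻¹ := ⟨_, rfl⟩
  rw [← hc'] at Fdc
  have ic' : φ ((Equiv.swap 0 1 * Equiv.swap 2 3) * Equiv.swap 1 2 * (Equiv.swap 0 1 * Equiv.swap 2 3)⁻¹) = c' := by
    rw [hc']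
    simp only [map_mul, map_inv, h0, h1, h2]
  -- the third pair
  obtain ⟨f, hf⟩ : ∃ f, f = c * d * c⁻¹ := ⟨_, rfl⟩
  obtain ⟨f', hf'⟩ : ∃ f', f' = c * v * c⁻¹ := ⟨_, rfl⟩
  have hfD : f ∈ D := by rw [hf]; exact hconj c d hd
  have hf'V : f' ∈ TT.Vc D f := by rw [hf, hf']; exact TT.Vc_conj hconj hvV c
  have hff' : f ≠ f' := by
    rw [hf, hf']
    intro h
    apply hvd
    have h3 : c⁻¹ * (c * d * c⁻¹) * c = c⁻¹ * (c * v * c⁻¹) * c := by rw [h]
    have h4 : d = v := by
      have e1 : c⁻¹ * (c * d * c⁻¹) * c = d := by group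
      have e2 : c⁻¹ * (c * v * c⁻¹) * c = v := by group
      rw [e1, e2] at h3
      exact h3
    exact h4.symm
  have if_ : φ (Equiv.swap 1 2 * Equiv.swap 0 1 * (Equiv.swap 1 2)⁻¹) = f := by
    rw [hf]
    simp only [map_mul, map_inv, h0, h1, h2]
  have if' : φ (Equiv.swap 1 2 * Equiv.swap 2 3 * (Equiv.swap 1 2)⁻¹) = f' := by
    rw [hf']
    simp only [map_mul, map_inv, h0, h1, h2]
  have k5 : (d * v) * (c * c') = f * f' := by
    have e : ((Equiv.swap 0 1 : Equiv.Perm (Fin 4)) * Equiv.swap 2 3) *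
        (Equiv.swap 1 2 * ((Equiv.swap 0 1 * Equiv.swap 2 3) * Equiv.swap 1 2 * (Equiv.swap 0 1 * Equiv.swap 2 3)⁻¹)) =
        (Equiv.swap 1 2 * Equiv.swap 0 1 * (Equiv.swap 1 2)⁻¹) * (Equiv.swap 1 2 * Equiv.swap 2 3 * (Equiv.swap 1 2)⁻¹) := by
      decide
    have e' := congrArg φ e
    simp only [map_mul, map_inv, h0, h1, h2] at e'
    rw [hc', hf, hf']
    exact e'
  have hDrange : ∀ e ∈ D, e ∈ φ.range := by
    intro e he
    by_cases hde : Commute d e
    · rcases hAd e he hde with rfl | rfl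
      · exact ⟨_, h0⟩
      · exact ⟨_, h2⟩
    by_cases hce : Commute c e
    · by_cases hec : e = c
      · rw [hec]
        exact ⟨_, h1⟩
      · have h3 : e = c' := P2 c hc e he c' Fdc.1.1 hce (TT.Vc_commute hc Fdc.1).symm hec Fdc.2.1
        rw [h3]
        exact ⟨_, ic'⟩
    have Fd := TT.partner hDs hconj hd hvV (Ne.symm hvd) he hde
    have Fc := TT.partner hDs hconj hc Fdc.1 (Ne.symm Fdc.2.1) he hce
    have hee : (c * c') * e * (c * c')⁻¹ = (d * v) * e * (d * v)⁻¹ :=
      P2 e he _ Fc.1.1 _ Fd.1.1 (TT.Vc_commute he Fc.1).symm (TT.Vc_commute he Fd.1).symm Fc.2.1 Fd.2.1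
    obtain ⟨w, hw⟩ : ∃ w, w = e * ((d * v) * e * (d * v)⁻¹) := ⟨_, rfl⟩
    have hww : w * w = 1 := by
      rw [hw]
      have h3 := TT.sq_of_commute hDs he Fd.1.1 (TT.Vc_commute he Fd.1).symm
      rwa [pow_two] at h3
    have k1 : e * (d * v) * e⁻¹ = (d * v) * w := by
      rw [hw]
      exact Fd.2.2.1
    have k2 : e * (c * c') * e⁻¹ = (c * c') * w := by
      rw [hw, ← hee]
      exact Fc.2.2.1
    have k3 : (c * c') * w = w * (c * c') := by
      rw [hw, ← hee]
      exact Fc.2.2.2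
    have k4 : e * ((d * v) * (c * c')) * e⁻¹ = (d * v) * (c * c') := by
      calc e * ((d * v) * (c * c')) * e⁻¹ = (e * (d * v) * e⁻¹) * (e * (c * c') * e⁻¹) := by group
        _ = (d * v) * w * ((c * c') * w) := by rw [k1, k2]
        _ = (d * v) * w * (w * (c * c')) := by rw [k3]
        _ = (d * v) * (w * w) * (c * c') := by group
        _ = (d * v) * (c * c') := by rw [hww, mul_one]
    rw [k5] at k4
    have hcomm : e * (f * f') = (f * f') * e := by
      have h3 : e * (f * f') = e * (f * f') * e⁻¹ * e := by group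
      rw [h3, k4]
    have hfe : Commute f e := by
      by_contra hfe
      have Ff := TT.partner hDs hconj hfD hf'V hff' he hfe
      apply Ff.2.1
      rw [← hcomm, mul_assoc, mul_inv_cancel, mul_one]
    by_cases hef : e = f
    · rw [hef]
      exact ⟨_, if_⟩
    · have h3 : e = f' := P2 f hfD e he f' hf'V.1 hfe (TT.Vc_commute hfD hf'V).symm hef (Ne.symm hff')
      rw [h3]
      exact ⟨_, if'⟩
  have hsurj : Function.Surjective φ := by
    rw [← MonoidHom.range_eq_top]
    apply top_unique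
    rw [← hD.2.2, Subgroup.closure_le]
    exact hDrange
  exact ⟨(MulEquiv.ofBijective φ ⟨hinj, hsurj⟩).symm⟩

end Cfsg.Agent.S5355
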