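import Cfsg.Statements.S5358
-- import your own Cfsg.Agent.* helpers here

set_option autoImplicit false
open scoped MatrixGroups
open Cfsg

namespace Cfsg.Agent.S5358

/-- Let Q be a non-degenerate quadratic form on the n-dimensional coordinate space over the field with three elements and u, v vectors of the same non-zero norm Q(u) = Q(v) spanning different lines (v ≠ u and v ≠ −u). Then the reflection matrices of u and v commute if and only if u and v are orthogonal for the polar form of Q. -/
theorem result (n : ℕ) (Q : QuadraticForm (ZMod 3) (Fin n → ZMod 3)) (hQ : (QuadraticMap.polarBilin Q).Nondegenerate) (u v : Fin n → ZMod 3) (hu : Q u ≠ 0) (huv : Q u = Q v) (h1 : v ≠ u) (h2 : v ≠ -u) : Commute (Cfsg.reflectionMatrix (⇑Q) u) (Cfsg.reflectionMatrix (⇑Q) v) ↔ QuadraticMap.polar (⇑Q) u v = 0 := by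
  have hB : ∀ (w x : Fin n → ZMod 3), Cfsg.polarVec (⇑Q) w ⬝ᵥ x = QuadraticMap.polar (⇑Q) w x := by
    intro w x
    have h := LinearMap.pi_apply_eq_sum_univ (QuadraticMap.polarBilin Q w) x
    rw [QuadraticMap.polarBilin_apply_apply] at h
    rw [h]
    simp only [dotProduct, Cfsg.polarVec]
    refine Finset.sum_congr rfl fun i _ => ?_
    have h3 : (fun j => if i = j then (1 : ZMod 3) else 0) = Pi.single i 1 := by
      ext j
      simp [Pi.single_apply, eq_comm]
    rw [h3, QuadraticMap.polarBilin_apply_apply, smul_eq_mul, mul_comm]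
  have hUV : ∀ (x y : Fin n → ZMod 3),
      Matrix.vecMulVec x (Cfsg.polarVec (⇑Q) x) * Matrix.vecMulVec y (Cfsg.polarVec (⇑Q) y) =
        QuadraticMap.polar (⇑Q) x y • Matrix.vecMulVec x (Cfsg.polarVec (⇑Q) y) := by
    intro x y
    rw [Matrix.vecMulVec_mul_vecMulVec, hB]
    ext i j
    simp [Matrix.vecMulVec_apply]
    ring
  have hcomm : ∀ (A B : Matrix (Fin n) (Fin n) (ZMod 3)), Commute (1 - A) (1 - B) ↔ A * B = B * A := by
    intro A B
    have h : (1 - A) * (1 - B) - (1 - B) * (1 - A) = A * B - B * A := by noncomm_ring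
    constructor
    · intro hc
      have hc' : (1 - A) * (1 - B) = (1 - B) * (1 - A) := hc
      rw [hc', sub_self] at h
      exact (sub_eq_zero.mp h.symm)
    · intro hc
      rw [hc, sub_self] at h
      exact sub_eq_zero.mp h
  unfold Cfsg.reflectionMatrix
  rw [hcomm, ← huv]
  simp only [Matrix.smul_mul, Matrix.mul_smul, hUV]
  rw [QuadraticMap.polar_comm (⇑Q) v u]
  constructor
  · intro h
    by_contra hne
    have ha : (Q u)⁻¹ ≠ 0 := inv_ne_zero hu
    have h3 : Matrix.vecMulVec u (Cfsg.polarVec (⇑Q) v) = Matrix.vecMulVec v (Cfsg.polarVec (⇑Q) u) := by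
      have h4 := smul_right_injective (Matrix (Fin n) (Fin n) (ZMod 3)) ha h
      have h5 := smul_right_injective (Matrix (Fin n) (Fin n) (ZMod 3)) ha h4
      exact smul_right_injective (Matrix (Fin n) (Fin n) (ZMod 3)) hne h5
    have h6 := congrArg (fun M => M.mulVec u) h3
    simp only [Matrix.vecMulVec_mulVec, hB] at h6
    simp only [op_smul_eq_smul] at h6
    rw [QuadraticMap.polar_self, QuadraticMap.polar_comm (⇑Q) v u] at h6
    have h2ne : (2 • Q u : ZMod 3) ≠ 0 := by
      rw [nsmul_eq_mul]
      exact mul_ne_zero (by decide) hu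
    obtain ⟨μ, hv⟩ : ∃ μ : ZMod 3, v = μ • u := by
      refine ⟨(2 • Q u)⁻¹ * QuadraticMap.polar (⇑Q) u v, ?_⟩
      have h7 := congrArg (fun x => (2 • Q u)⁻¹ • x) h6
      simp only [smul_smul] at h7
      rw [inv_mul_cancel₀ h2ne, one_smul] at h7
      exact h7.symm
    have hQ' : Q v = (μ * μ) • Q u := by
      rw [hv]
      exact QuadraticMap.map_smul Q μ u
    rw [← huv, smul_eq_mul] at hQ'
    have hμ2 : μ * μ = 1 := by
      have h8 : (μ * μ - 1) * Q u = 0 := by rw [sub_mul, one_mul, ← hQ', sub_self]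
      rcases mul_eq_zero.mp h8 with h | h
      · exact sub_eq_zero.mp h
      · exact absurd h hu
    rcases mul_self_eq_one_iff.mp hμ2 with h | h
    · apply h1
      rw [hv, h, one_smul]
    · apply h2
      rw [hv, h, neg_one_smul]
  · intro h
    rw [h]
    simp

end Cfsg.Agent.S5358
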