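import Cfsg.Statements.S5363
-- import your own Cfsg.Agent.* helpers here

set_option autoImplicit false
open Cfsg

namespace Cfsg.Agent.S5363

/-- Let D be a conjugation-invariant set of involutions of a finite group G. Then every product of two members of D has odd order or order 2 if and only if, for every a in D and every b in D different from a and commuting with a, the members of D commuting with a b are exactly those commuting with both a and b. -/
theorem result {G : Type*} [Group G] [Finite G] {D : Set G} (hinv : ∀ d ∈ D, orderOf d = 2) (hconj : ∀ g : G, ∀ d ∈ D, g * d * g⁻¹ ∈ D) : (∀ a ∈ D, ∀ b ∈ D, Odd (orderOf (a * b)) ∨ orderOf (a * b) = 2) ↔ ∀ a ∈ D, ∀ b ∈ D, b ≠ a → Commute a b → {y : G | y ∈ D ∧ Commute (a * b) y} = {y : G | y ∈ D ∧ Commute a y} ∩ {y : G | y ∈ D ∧ Commute b y} := by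
  have sq : ∀ d ∈ D, d * d = 1 := by
    intro d hd
    have h := hinv d hd
    rw [← pow_two, ← h]
    exact pow_orderOf_eq_one d
  have invself : ∀ d ∈ D, d⁻¹ = d := fun d hd => inv_eq_of_mul_eq_one_left (sq d hd)
  constructor
  · intro h a ha b hb hne hab
    have haa := sq a ha
    have hai := invself a ha
    ext y
    simp only [Set.mem_setOf_eq, Set.mem_inter_iff]
    constructor
    · rintro ⟨hyD, hyt⟩
      have hay : Commute a y := by
        rcases h y hyD a ha with hodd | h2
        · have ht1 : a * b ≠ 1 := by
            intro h1
            apply hne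
            rw [eq_inv_of_mul_eq_one_right h1, hai]
          have ht2 : (a * b) ^ 2 = 1 := by
            rw [pow_two]
            calc a * b * (a * b) = a * (b * a) * b := by group
              _ = a * (a * b) * b := by rw [hab.eq]
              _ = (a * a) * (b * b) := by group
              _ = 1 := by rw [haa, sq b hb, one_mul]
          have hto : orderOf (a * b) = 2 := orderOf_eq_prime ht2 ht1
          have hc : Commute (y * a) (a * b) :=
            Commute.mul_left hyt.symm (Commute.mul_right (Commute.refl a) hab)
          have hco : (orderOf (y * a)).Coprime (orderOf (a * b)) := by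
            rw [hto]
            exact Nat.coprime_two_right.mpr hodd
          have hord := hc.orderOf_mul_eq_mul_orderOf_of_coprime hco
          have hyb : y * a * (a * b) = y * b := by
            calc y * a * (a * b) = y * (a * a) * b := by group
              _ = y * b := by rw [haa, mul_one]
          rw [hyb, hto] at hord
          have hn1 : orderOf (y * a) = 1 := by
            rcases h y hyD b hb with hodd' | h2'
            · exfalso
              rw [hord] at hodd'
              obtain ⟨k, hk⟩ := hodd'
              omega
            · rw [hord] at h2'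
              omega
          have hya : y * a = 1 := orderOf_eq_one_iff.mp hn1
          have hy : y = a := by rw [eq_inv_of_mul_eq_one_left hya, hai]
          rw [hy]
        · have h3 : (y * a) ^ 2 = 1 := by
            rw [← h2]
            exact pow_orderOf_eq_one _
          rw [pow_two] at h3
          have h4 : y * a = (y * a)⁻¹ := eq_inv_of_mul_eq_one_left h3
          rw [mul_inv_rev, hai, invself y hyD] at h4
          exact h4.symm
      refine ⟨⟨hyD, hay⟩, hyD, ?_⟩
      have h5 : Commute (a⁻¹ * (a * b)) y := Commute.mul_left (Commute.inv_left hay) hyt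
      rwa [inv_mul_cancel_left] at h5
    · rintro ⟨⟨hyD, hay⟩, -, hby⟩
      exact ⟨hyD, Commute.mul_left hay hby⟩
  · intro H a ha b hb
    have haa := sq a ha
    have hbb := sq b hb
    have hai := invself a ha
    have hbi := invself b hb
    rcases Nat.even_or_odd (orderOf (a * b)) with heven | hodd
    · right
      obtain ⟨m, hm⟩ := heven
      have hpos : 0 < orderOf (a * b) := orderOf_pos (a * b)
      have hz1 : (a * b) ^ m ≠ 1 := pow_ne_one_of_lt_orderOf (by omega) (by omega)
      have hzz : (a * b) ^ m * (a * b) ^ m = 1 := by
        rw [← pow_add, ← hm]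
        exact pow_orderOf_eq_one _
      have hzi : ((a * b) ^ m)⁻¹ = (a * b) ^ m := inv_eq_of_mul_eq_one_left hzz
      have hta : a * (a * b) * a⁻¹ = (a * b)⁻¹ := by
        rw [mul_inv_rev, hai, hbi]
        calc a * (a * b) * a = (a * a) * (b * a) := by group
          _ = b * a := by rw [haa, one_mul]
      have htb : b * (a * b) * b⁻¹ = (a * b)⁻¹ := by
        rw [mul_inv_rev, hai, hbi]
        calc b * (a * b) * b = (b * a) * (b * b) := by group
          _ = b * a := by rw [hbb, mul_one]
      have hza : a * (a * b) ^ m * a⁻¹ = (a * b) ^ m := by
        rw [← conj_pow, hta, inv_pow, hzi]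
      have hzb : b * (a * b) ^ m * b⁻¹ = (a * b) ^ m := by
        rw [← conj_pow, htb, inv_pow, hzi]
      have hza' : a * (a * b) ^ m = (a * b) ^ m * a := mul_inv_eq_iff_eq_mul.mp hza
      have hzb' : b * (a * b) ^ m = (a * b) ^ m * b := mul_inv_eq_iff_eq_mul.mp hzb
      have hDj : ∀ j : ℕ, (a * b) ^ j * a ∈ D ∧ (a * b) ^ (j + 1) * a ∈ D := by
        intro j
        induction j with
        | zero =>
          refine ⟨by simpa using ha, ?_⟩
          have h1 : (a * b) ^ (0 + 1) * a = a * b * a⁻¹ := by rw [hai]; simp
          rw [h1]
          exact hconj a b hb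
        | succ j ih =>
          refine ⟨ih.2, ?_⟩
          have h1 : (a * b) ^ (j + 1 + 1) * a = (a * b) * ((a * b) ^ j * a) * (a * b)⁻¹ := by
            rw [mul_inv_rev, hai, hbi, pow_succ, pow_succ']
            simp only [mul_assoc]
          rw [h1]
          exact hconj (a * b) _ ih.1
      have hcD : (a * b) ^ m * a ∈ D := (hDj m).1
      have hca : (a * b) ^ m * a ≠ a := by
        intro h1
        apply hz1
        have h2 : (a * b) ^ m * a = 1 * a := by rw [one_mul]; exact h1
        exact mul_right_cancel h2
      have hcomm : Commute a ((a * b) ^ m * a) := by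
        show a * ((a * b) ^ m * a) = (a * b) ^ m * a * a
        rw [← mul_assoc, hza']
      have hset := H a ha _ hcD hca hcomm
      have hprod : a * ((a * b) ^ m * a) = (a * b) ^ m := by
        rw [← mul_assoc, hza', mul_assoc, haa, mul_one]
      rw [hprod] at hset
      have hbmem : b ∈ {y : G | y ∈ D ∧ Commute ((a * b) ^ m) y} := ⟨hb, hzb'.symm⟩
      rw [hset] at hbmem
      have hab : a * b = b * a := hbmem.1.2
      have ht2 : (a * b) ^ 2 = 1 := by
        rw [pow_two]
        calc a * b * (a * b) = a * (b * a) * b := by group
          _ = a * (a * b) * b := by rw [hab]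
          _ = (a * a) * (b * b) := by group
          _ = 1 := by rw [haa, hbb, one_mul]
      have hdvd : orderOf (a * b) ∣ 2 := orderOf_dvd_of_pow_eq_one ht2
      have hle : orderOf (a * b) ≤ 2 := Nat.le_of_dvd (by norm_num) hdvd
      omega
    · left
      exact hodd

end Cfsg.Agent.S5363
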