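import Cfsg.Statements.S5364
-- import your own Cfsg.Agent.* helpers here

set_option autoImplicit false
open Cfsg

namespace Cfsg.Agent.S5364

/-- Let D be a conjugation-invariant set of involutions of a finite group G and t an involution in the centre of G such that d t does not lie in D for any d in D. If the images of the members of D in G modulo the subgroup generated by t satisfy the 3-transposition order conditions (each has order 2 and any two have product of order at most 3), then so do the members of D. -/
theorem result {G : Type*} [Group G] [Finite G] {D : Set G} (hinv : ∀ d ∈ D, orderOf d = 2) (hconj : ∀ g : G, ∀ d ∈ D, g * d * g⁻¹ ∈ D) (t : G) (ht : orderOf t = 2) (htZ : t ∈ Subgroup.center G) (hDt : ∀ d ∈ D, d * t ∉ D) [(Subgroup.zpowers t).Normal] (himg : Cfsg.IsThreeTranspositionSet ((QuotientGroup.mk : G → G ⧸ Subgroup.zpowers t) '' D)) : Cfsg.IsThreeTranspositionSet D := by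
  have key : ∀ x : G, x ∈ Subgroup.zpowers t → x = 1 ∨ x = t := by
    intro x hx
    obtain ⟨k, rfl⟩ := Subgroup.mem_zpowers_iff.mp hx
    have h := zpow_mod_orderOf t k
    rw [ht] at h
    simp only [Nat.cast_ofNat] at h
    rcases Int.emod_two_eq_zero_or_one k with h0 | h0
    · left; rw [← h, h0, zpow_zero]
    · right; rw [← h, h0, zpow_one]
  have invself : ∀ d ∈ D, d⁻¹ = d := by
    intro d hd
    have h := hinv d hd
    have h2 : d * d = 1 := by
      rw [← pow_two, ← h]
      exact pow_orderOf_eq_one d
    exact inv_eq_of_mul_eq_one_left h2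
  have htc : ∀ g : G, t * g = g * t := fun g => (Subgroup.mem_center_iff.mp htZ g).symm
  refine ⟨hinv, fun d hd e he => ?_⟩
  have hdi := invself d hd
  have hei := invself e he
  rcases himg.2 _ ⟨d, hd, rfl⟩ _ ⟨e, he, rfl⟩ with h | h
  · left
    have hm : (d * e) ^ 2 ∈ Subgroup.zpowers t :=
      (QuotientGroup.eq_one_iff _).mp (by rw [QuotientGroup.mk_pow, QuotientGroup.mk_mul]; exact h)
    rcases key _ hm with h1 | h1
    · exact h1
    · exfalso
      apply hDt e he
      have h3 : d * e * d⁻¹ = e * t := by
        calc d * e * d⁻¹ = d * e * d := by rw [hdi]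
          _ = (d * e) ^ 2 * e⁻¹ := by rw [pow_two]; group
          _ = t * e⁻¹ := by rw [h1]
          _ = t * e := by rw [hei]
          _ = e * t := htc e
      rw [← h3]
      exact hconj d e he
  · right
    have hm : (d * e) ^ 3 ∈ Subgroup.zpowers t :=
      (QuotientGroup.eq_one_iff _).mp (by rw [QuotientGroup.mk_pow, QuotientGroup.mk_mul]; exact h)
    rcases key _ hm with h1 | h1
    · exact h1
    · exfalso
      apply hDt e he
      have h3 : (d * e) * d * (d * e)⁻¹ = e * t := by
        calc (d * e) * d * (d * e)⁻¹ = (d * e) * d * (e⁻¹ * d⁻¹) := by rw [mul_inv_rev]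
          _ = (d * e) * d * (e * d) := by rw [hei, hdi]
          _ = (d * e) ^ 3 * e⁻¹ := by rw [pow_succ, pow_two]; group
          _ = t * e⁻¹ := by rw [h1]
          _ = t * e := by rw [hei]
          _ = e * t := htc e
      rw [← h3]
      exact hconj (d * e) d hd

end Cfsg.Agent.S5364
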