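import Cfsg.Statements.S5367
import Mathlib
import Cfsg.Agent.Helper18.FspA
import Cfsg.Agent.Helper18.FspD
-- import your own Cfsg.Agent.* helpers here

set_option autoImplicit false
open Cfsg

namespace Cfsg.Agent.S5367

/-- Let D be a conjugation-invariant generating set of 3-transpositions of a finite group G. Then the line system on D whose lines are the triples {x, y, y x y⁻¹} for non-commuting members x, y of D is a Fischer space: two points lie on at most one line, lines have three points, and two different meeting lines generate a subspace isomorphic to the dual affine plane of order two or to the affine plane of order three. -/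
theorem result {G : Type*} [Group G] [Finite G] {D : Set G} (hD : Cfsg.IsThreeTranspositionGroup D) : Cfsg.IsFischerSpace (Cfsg.threeTranspositionLines D) := by
  have hT := hD.1
  refine ⟨Cfsg.Agent.Helper18.Fsp.partialLinear hT,
    fun l hl => Cfsg.Agent.Helper18.Fsp.line_ncard hD hl, ?_⟩
  intro l hl m hm hlm hnon
  obtain ⟨A, hAl, hAm⟩ := hnon
  have other : ∀ k : Set D, k ∈ Cfsg.threeTranspositionLines D → A ∈ k → ∃ B : D, B ∈ k ∧ B ≠ A := by
    intro k hk _
    obtain ⟨p, q, hpq, rfl⟩ := hk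
    by_cases h : A = p
    · refine ⟨q, Or.inr (Or.inl rfl), ?_⟩
      rw [h]
      intro h'
      exact hpq (by rw [h'])
    · exact ⟨p, Or.inl rfl, fun h' => h h'.symm⟩
  obtain ⟨B, hBl, hBA⟩ := other l hl hAl
  obtain ⟨C, hCm, hCA⟩ := other m hm hAm
  have hlc := Cfsg.Agent.Helper18.Fsp.line_char hT hl hAl hBl hBA.symm
  have hmc := Cfsg.Agent.Helper18.Fsp.line_char hT hm hAm hCm hCA.symm
  have hCl : C ∉ l := fun h =>
    hlm (Cfsg.Agent.Helper18.Fsp.partialLinear hT l hl m hm A C hCA.symm hAl h hAm hCm)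
  obtain ⟨B', hB'l, hB'A, hB'C⟩ : ∃ B' : D, B' ∈ l ∧ B' ≠ A ∧ ¬ Commute (B' : G) (C : G) := by
    by_cases h : Commute (B : G) (C : G)
    · refine ⟨⟨(B : G) * (A : G) * (B : G)⁻¹, hD.2.1 B A A.2⟩, ?_, ?_, ?_⟩
      · exact (hlc.2 _).2 (Or.inr (Or.inr rfl))
      · intro h'
        have h2 : (B : G) * (A : G) * (B : G)⁻¹ = A := congrArg Subtype.val h'
        exact (Cfsg.Agent.Helper18.Fsp.tri hT A.2 B.2 hlc.1).2.1 h2
      · intro h2
        apply hmc.1
        have h3 : Commute ((B : G)⁻¹ * ((B : G) * (A : G) * (B : G)⁻¹) * (B : G)) (C : G) :=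
          (h.inv_left.mul_left h2).mul_left h
        have e : (B : G)⁻¹ * ((B : G) * (A : G) * (B : G)⁻¹) * (B : G) = A := by group
        rw [e] at h3
        exact h3
    · exact ⟨B, hBl, hBA, h⟩
  have hlc' := Cfsg.Agent.Helper18.Fsp.line_char hT hl hAl hB'l hB'A.symm
  have hbr := Cfsg.Agent.Helper18.Fsp.braid hT A.2 B'.2 hlc'.1
  have hne_cu : (C : G) ≠ (A : G) * (B' : G) * (A : G) := by
    intro h
    apply hCl
    refine (hlc'.2 C).2 (Or.inr (Or.inr ?_))
    rw [h, hbr, Cfsg.Agent.Helper18.Fsp.inv_of_mem hT B'.2]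
  by_cases hu : Commute ((A : G) * (B' : G) * (A : G)) (C : G)
  · left
    exact Cfsg.Agent.Helper18.Fsp.dual_case hD A B' C A.2 B'.2 C.2 hlc'.1 hmc.1 hB'C hu hne_cu
      l m hlc'.2 hmc.2
  · right
    exact Cfsg.Agent.Helper18.Fsp.affine_case hD A B' C A.2 B'.2 C.2 hlc'.1 hmc.1 hB'C hu
      l m hlc'.2 hmc.2

end Cfsg.Agent.S5367
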