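import Cfsg.Statements.S5393
import Cfsg.Agent.Helper28.Octads
import Cfsg.Agent.Helper12.GolayM24

set_option autoImplicit false
open Cfsg

namespace Cfsg.Agent.S5393

open scoped Pointwise
open Cfsg.Agent.Helper28.Code Cfsg.Agent.Helper28.Leech Cfsg.Agent.Helper28.Octads

theorem mem_dod (d : Finset GolayPt) : d ∈ dodecads ↔ ofSet d ∈ golayCode ∧ d.card = 12 := by
  unfold dodecads wordsOfWeight
  rw [Set.mem_ofPred_eq, mem_supports_iff]

/-- the permutation action on words, on supports -/
theorem perm_ofSet (σ : Equiv.Perm GolayPt) (s : Finset GolayPt) :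
    (fun p => ofSet s (σ.symm p)) = ofSet (σ • s) := by
  funext p
  simp only [ofSet]
  have h : σ.symm p ∈ s ↔ p ∈ σ • s := by
    rw [Finset.mem_smul_finset]
    constructor
    · intro h; exact ⟨σ.symm p, h, by simp⟩
    · rintro ⟨y, hy, rfl⟩; simpa using hy
  simp only [h]

/-- every dodecad meets some octad in exactly four points -/
theorem dodecad_octad {d : Finset GolayPt} (hd : ofSet d ∈ golayCode) (hd12 : d.card = 12) :
    ∃ o ∈ octads, (o ∩ d).card = 4 := by
  obtain ⟨T, hTsub, hT4⟩ := Finset.exists_subset_card_eq (show 4 ≤ d.card by omega)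
  obtain ⟨F, hF6, hTF, hF4, hFd, hFC, hFmem, hFcov⟩ := gsextet T hT4
  have c1 : ∀ S ∈ F, S ≠ T → (d ∩ (T ∪ S)).card = 4 + (d ∩ S).card := by
    intro S hS hST
    have hdisj : Disjoint T S := hFd _ hTF _ hS (Ne.symm hST)
    rw [Finset.inter_union_distrib_left, Finset.card_union_of_disjoint
      (hdisj.mono Finset.inter_subset_right Finset.inter_subset_right),
      Finset.inter_eq_right.mpr hTsub, hT4]
  have key : ∀ S ∈ F, S ≠ T → (d ∩ S).card = 0 ∨ (d ∩ S).card = 2 := by
    intro S hS hST
    have hO : T ∪ S ∈ octads := union_mem_octads hF4 hFd hFC hTF hS (Ne.symm hST)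
    have e := card_symmDiff d (T ∪ S)
    have w := weights _ (symmDiff_mem hd ((mem_oct _).mp hO).1)
    have h8 := ((mem_oct _).mp hO).2
    have hle : (d ∩ S).card ≤ 4 := by
      rw [← hF4 S hS]; exact Finset.card_le_card Finset.inter_subset_right
    have := c1 S hS hST
    omega
  have hsum := card_partition F hFd hFcov d
  have hex : ∃ S ∈ F.erase T, (d ∩ S).card = 0 := by
    by_contra hcon
    push Not at hcon
    have hall : ∀ S ∈ F.erase T, (d ∩ S).card = 2 := by
      intro S hS
      have hS' := hS
      simp only [Finset.mem_erase] at hS'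
      rcases key S hS'.2 hS'.1 with h | h
      · exact absurd h (hcon S hS)
      · exact h
    have s1 := Finset.sum_const_nat hall
    have c2 : (F.erase T).card = 5 := by rw [Finset.card_erase_of_mem hTF, hF6]
    have s2 := Finset.add_sum_erase F (fun s => (d ∩ s).card) hTF
    have hT : (d ∩ T).card = 4 := by rw [Finset.inter_eq_right.mpr hTsub, hT4]
    omega
  obtain ⟨S, hS, hS0⟩ := hex
  simp only [Finset.mem_erase] at hS
  refine ⟨T ∪ S, union_mem_octads hF4 hFd hFC hTF hS.2 (Ne.symm hS.1), ?_⟩
  rw [Finset.inter_comm, c1 S hS.2 hS.1, hS0]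


/-- The length-24 code built from the squares modulo 23 contains the all-ones word, and the code modulo the all-ones word is an irreducible module over the field with two elements for the code's automorphism group: a subspace of the code that contains the all-ones word and is invariant under every coordinate permutation preserving the code is either the span of the all-ones word or the whole code. -/
theorem result : (fun _ : Cfsg.GolayPt => (1 : ZMod 2)) ∈ Cfsg.golayCode ∧ ∀ W : Submodule (ZMod 2) (Cfsg.GolayPt → ZMod 2), (fun _ => (1 : ZMod 2)) ∈ W → W ≤ Cfsg.golayCode → (∀ σ ∈ Cfsg.M24, ∀ w ∈ W, (fun p => w (σ.symm p)) ∈ W) → W = Submodule.span (ZMod 2) {fun _ => (1 : ZMod 2)} ∨ W = Cfsg.golayCode := by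
  refine ⟨one_mem, ?_⟩
  intro W h1 hWC hinv
  have h1' : (1 : GolayPt → ZMod 2) ∈ W := h1
  by_cases hall : ∀ w ∈ W, w = 0 ∨ w = 1
  · left
    apply le_antisymm
    · intro w hw
      rcases hall w hw with rfl | rfl
      · exact Submodule.zero_mem _
      · exact Submodule.subset_span rfl
    · rw [Submodule.span_le]
      rintro w rfl
      exact h1
  · right
    push Not at hall
    obtain ⟨w, hw, hw0, hw1⟩ := hall
    have hoct : ∃ o ∈ octads, ofSet o ∈ W := by
      have hwC := hWC hw
      have hws : ofSet (support₂ w) = w := ofSet_supp w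
      have hwts := weights (support₂ w) (by rw [hws]; exact hwC)
      have hn0 : (support₂ w).card ≠ 0 := by
        intro h
        rw [Finset.card_eq_zero] at h
        apply hw0
        rw [← hws, h, ofSet_empty]
      have hn24 : (support₂ w).card ≠ 24 := by
        intro h
        have h' : support₂ w = Finset.univ := Finset.eq_univ_of_card _ (by rw [h, card_pts])
        apply hw1
        rw [← hws, h', ofSet_univ]
      rcases hwts with h | h | h | h | h
      · exact absurd h hn0
      · exact ⟨support₂ w, (mem_oct _).mpr ⟨by rw [hws]; exact hwC, h⟩, by rw [hws]; exact hw⟩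
      · obtain ⟨o, ho, ho4⟩ := dodecad_octad (d := support₂ w) (by rw [hws]; exact hwC) h
        refine ⟨o, ho, ?_⟩
        have hd : support₂ w ∈ dodecads := (mem_dod _).mpr ⟨by rw [hws]; exact hwC, h⟩
        have hd' : symmDiff o (support₂ w) ∈ dodecads := by
          rw [mem_dod]
          refine ⟨symmDiff_mem ((mem_oct _).mp ho).1 (by rw [hws]; exact hwC), ?_⟩
          have e := card_symmDiff o (support₂ w)
          have h8 := ((mem_oct _).mp ho).2
          omega
        obtain ⟨g, hg, hgd⟩ := Cfsg.Agent.Helper12.M24_trans_dodecads hd hd'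
        have h2 := hinv g hg w hw
        rw [← hws, perm_ofSet, hgd, ofSet_symmDiff, hws] at h2
        have h3 := W.add_mem h2 hw
        rwa [add_assoc, add_self, add_zero] at h3
      · refine ⟨(support₂ w)ᶜ, (mem_oct _).mpr ⟨?_, ?_⟩, ?_⟩
        · rw [ofSet_compl, hws]; exact golayCode.add_mem one_mem hwC
        · rw [Finset.card_compl, card_pts, h]
        · rw [ofSet_compl, hws]; exact W.add_mem h1' hw
      · exact absurd h hn24
    obtain ⟨o, ho, hoW⟩ := hoct
    apply le_antisymm hWC
    rw [← span_octads card_pts golayCode Cfsg.Agent.Helper3.golayCode_finrank golay_H2,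
      Submodule.span_le]
    rintro c ⟨hc, hc8⟩
    have hco : support₂ c ∈ octads :=
      (mem_oct _).mpr ⟨by rw [ofSet_supp]; exact hc, by rw [← norm_eq]; exact hc8⟩
    obtain ⟨g, hg, hgo⟩ := Cfsg.Agent.Helper12.M24_trans_octads ho hco
    have h2 := hinv g hg _ hoW
    rw [perm_ofSet, hgo, ofSet_supp] at h2
    exact h2

end Cfsg.Agent.S5393
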