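import Cfsg.Statements.S5394
import Cfsg.Agent.Helper28.ClassTools

set_option autoImplicit false
open Cfsg

namespace Cfsg.Agent.S5394

open Cfsg.Agent.Helper12 Cfsg.Agent.Helper28 Cfsg.Agent.Helper28.Coset
open Cfsg.Agent.Helper28.InvClass Cfsg.Agent.Helper28.ClassTools

/-- The automorphism group of the length-24 code built from the squares modulo 23 has exactly two conjugacy classes of involutions: an involution either fixes exactly the eight points of an octad or has no fixed points, both kinds occur, and any two involutions of the same kind are conjugate in the group. -/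
theorem result : (∀ g ∈ Cfsg.M24, orderOf g = 2 → (Finset.univ.filter fun p => g p = p) ∈ Cfsg.octads ∨ ∀ p, g p ≠ p) ∧ (∃ g ∈ Cfsg.M24, orderOf g = 2 ∧ (Finset.univ.filter fun p => g p = p) ∈ Cfsg.octads) ∧ (∃ g ∈ Cfsg.M24, orderOf g = 2 ∧ ∀ p, g p ≠ p) ∧ ∀ g ∈ Cfsg.M24, ∀ h ∈ Cfsg.M24, orderOf g = 2 → orderOf h = 2 → ((∀ p, g p ≠ p) ↔ (∀ p, h p ≠ p)) → ∃ k ∈ Cfsg.M24, k * g * k⁻¹ = h := by
  refine ⟨?_, ?_, ?_, ?_⟩
  · intro g hg h2
    by_cases hf : ∀ p, g p ≠ p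
    · exact Or.inr hf
    · left
      obtain ⟨k, hk, e⟩ := conj_gA hg h2 hf
      rw [conj_symm e, fix_conj, smul_mem_octads (inv_mem hk)]
      exact gA_fix_mem
  · exact ⟨gA, gA_mem, order_of_sq gA_sq gA_ne, gA_fix_mem⟩
  · exact ⟨gB, gB_mem, order_of_sq gB_sq gB_ne, gB_fpf⟩
  · intro g hg h hh h2 h2' hiff
    by_cases hf : ∀ p, g p ≠ p
    · obtain ⟨k, hk, e⟩ := conj_gB hg h2 hf
      obtain ⟨k', hk', e'⟩ := conj_gB hh h2' (hiff.1 hf)
      refine ⟨k'⁻¹ * k, mul_mem (inv_mem hk') hk, ?_⟩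
      rw [conj_symm e']
      rw [← e]; group
    · obtain ⟨k, hk, e⟩ := conj_gA hg h2 hf
      obtain ⟨k', hk', e'⟩ := conj_gA hh h2' (fun hc => hf (hiff.2 hc))
      refine ⟨k'⁻¹ * k, mul_mem (inv_mem hk') hk, ?_⟩
      rw [conj_symm e']
      rw [← e]; group

end Cfsg.Agent.S5394
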