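import Cfsg.Statements.S5395
-- import your own Cfsg.Agent.* helpers here

set_option autoImplicit false
open Cfsg

namespace Cfsg.Agent.S5395

open scoped IsMulCommutative

open scoped commutatorElement in
theorem comm_mem_center {E : Type*} [Group E] (hcomm : commutator E = Subgroup.center E) (g x : E) :
    g * x * g⁻¹ * x⁻¹ ∈ Subgroup.center E := by
  rw [← hcomm]
  have h : ⁅g, x⁆ ∈ ⁅(⊤ : Subgroup E), ⊤⁆ :=
    Subgroup.commutator_mem_commutator (Subgroup.mem_top g) (Subgroup.mem_top x)
  rw [commutatorElement_def] at h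
  exact h

/-- Any finite commutative group `Z` of order 2 embeds in `ℂˣ`. -/
theorem exists_inj_hom (Z : Type*) [CommGroup Z] [Finite Z] (hZ : Nat.card Z = 2) :
    ∃ ι : Z →* ℂˣ, Function.Injective ι := by
  have h1 : Nontrivial Z := (Finite.one_lt_card_iff_nontrivial).mp (by rw [hZ]; norm_num)
  obtain ⟨z, hz⟩ := exists_ne (1 : Z)
  obtain ⟨ι, hι⟩ := CommGroup.exists_apply_ne_one_of_hasEnoughRootsOfUnity Z ℂ hz
  refine ⟨ι, ?_⟩
  rw [← MonoidHom.ker_eq_bot_iff]
  have hf : Fact (Nat.card Z).Prime := ⟨by rw [hZ]; exact Nat.prime_two⟩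
  rcases Subgroup.eq_bot_or_eq_top_of_prime_card ι.ker with h | h
  · exact h
  · exfalso; apply hι
    have hm : z ∈ ι.ker := by rw [h]; exact Subgroup.mem_top z
    exact hm

/-- Homomorphisms into a group of order two: at most `|E : E'|` of them. -/
theorem card_hom_le {E : Type*} [Group E] [Finite E] (Z : Type*) [CommGroup Z] [Finite Z]
    (hZ : Nat.card Z = 2) : Nat.card (E →* Z) ≤ (commutator E).index := by
  obtain ⟨ι, hι⟩ := exists_inj_hom Z hZ
  have hfin : Finite (Abelianization E) := by unfold Abelianization; infer_instance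
  have hcard : Nat.card (Abelianization E →* ℂˣ) = Nat.card (Abelianization E) :=
    CommGroup.card_monoidHom_of_hasEnoughRootsOfUnity (Abelianization E) ℂ
  have hfin2 : Finite (Abelianization E →* ℂˣ) := by
    apply Nat.finite_of_card_ne_zero
    rw [hcard]
    exact Nat.card_pos.ne'
  have hinj : Function.Injective (fun t : E →* Z => Abelianization.lift (ι.comp t)) := by
    intro t t' h
    have h2 : ι.comp t = ι.comp t' := Abelianization.lift.injective h
    ext x
    apply hι
    exact DFunLike.congr_fun h2 x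
  have := Nat.card_le_card_of_injective _ hinj
  rw [hcard] at this
  exact this

/-- For a finite extraspecial 2-group E, an automorphism of E that induces the identity on E modulo its centre is inner (so these automorphisms form exactly the inner automorphism group, an elementary abelian 2-group of order |E|/2). -/
theorem result {E : Type*} [Group E] [Finite E] (hE : Cfsg.IsExtraspecial 2 E) (φ : E ≃* E) (hφ : ∀ x : E, φ x * x⁻¹ ∈ Subgroup.center E) : ∃ g : E, ∀ x : E, φ x = g * x * g⁻¹ := by
  obtain ⟨⟨-, -, hcomm⟩, hcard⟩ := hE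
  have hc := comm_mem_center hcomm
  let mu : E →* (E →* Subgroup.center E) :=
    { toFun := fun g =>
        { toFun := fun x => ⟨g * x * g⁻¹ * x⁻¹, hc g x⟩
          map_one' := by apply Subtype.ext; simp
          map_mul' := fun x y => by
            apply Subtype.ext
            show g * (x * y) * g⁻¹ * (x * y)⁻¹ = (g * x * g⁻¹ * x⁻¹) * (g * y * g⁻¹ * y⁻¹)
            have h := hc g y
            rw [Subgroup.mem_center_iff] at h
            calc g * (x * y) * g⁻¹ * (x * y)⁻¹
                = g * x * g⁻¹ * ((g * y * g⁻¹ * y⁻¹) * x⁻¹) := by group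
              _ = g * x * g⁻¹ * (x⁻¹ * (g * y * g⁻¹ * y⁻¹)) := by rw [h x⁻¹]
              _ = _ := by group }
      map_one' := by
        ext x
        show (1 : E) * x * 1⁻¹ * x⁻¹ = ((1 : Subgroup.center E) : E)
        simp
      map_mul' := fun g h => by
        ext x
        show (g * h) * x * (g * h)⁻¹ * x⁻¹ = (g * x * g⁻¹ * x⁻¹) * (h * x * h⁻¹ * x⁻¹)
        have h1 := hc h x
        rw [Subgroup.mem_center_iff] at h1
        calc (g * h) * x * (g * h)⁻¹ * x⁻¹
            = g * (h * x * h⁻¹ * x⁻¹) * (x * g⁻¹ * x⁻¹) := by group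
          _ = (h * x * h⁻¹ * x⁻¹) * g * (x * g⁻¹ * x⁻¹) := by rw [h1 g]
          _ = (h * x * h⁻¹ * x⁻¹) * (g * x * g⁻¹ * x⁻¹) := by group
          _ = _ := by rw [h1 (g * x * g⁻¹ * x⁻¹)] }
  have hmu : ∀ g x, ((mu g x : Subgroup.center E) : E) = g * x * g⁻¹ * x⁻¹ := fun g x => rfl
  have hker : mu.ker = Subgroup.center E := by
    ext g
    rw [MonoidHom.mem_ker, Subgroup.mem_center_iff]
    constructor
    · intro h x
      have h2 : ((mu g x : Subgroup.center E) : E) = 1 := by rw [h]; rfl
      rw [hmu] at h2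
      calc x * g = (g * x * g⁻¹ * x⁻¹)⁻¹ * (g * x) := by group
        _ = g * x := by rw [h2]; simp
    · intro h
      ext x
      rw [hmu]
      show g * x * g⁻¹ * x⁻¹ = 1
      rw [← h x]; group
  have hfinT : Finite (E →* Subgroup.center E) :=
    Finite.of_injective (fun f => (f : E → Subgroup.center E)) DFunLike.coe_injective
  have hrange : mu.range = ⊤ := by
    apply Subgroup.eq_top_of_le_card
    have hle := card_hom_le (E := E) (Subgroup.center E) hcard
    rw [hcomm] at hle
    rw [← Subgroup.index_ker, hker]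
    exact hle
  let lam : E →* Subgroup.center E :=
    { toFun := fun x => ⟨φ x * x⁻¹, hφ x⟩
      map_one' := by apply Subtype.ext; simp
      map_mul' := fun x y => by
        apply Subtype.ext
        show φ (x * y) * (x * y)⁻¹ = (φ x * x⁻¹) * (φ y * y⁻¹)
        have h := hφ y
        rw [Subgroup.mem_center_iff] at h
        rw [map_mul]
        calc φ x * φ y * (x * y)⁻¹ = φ x * ((φ y * y⁻¹) * x⁻¹) := by group
          _ = φ x * (x⁻¹ * (φ y * y⁻¹)) := by rw [h x⁻¹]
          _ = _ := by group }
  have hl : lam ∈ mu.range := by rw [hrange]; exact Subgroup.mem_top _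
  obtain ⟨g, hg⟩ := hl
  refine ⟨g, fun x => ?_⟩
  have h2 : ((mu g x : Subgroup.center E) : E) = ((lam x : Subgroup.center E) : E) := by rw [hg]
  rw [hmu] at h2
  have h3 : ((lam x : Subgroup.center E) : E) = φ x * x⁻¹ := rfl
  rw [h3] at h2
  calc φ x = (φ x * x⁻¹) * x := by group
    _ = (g * x * g⁻¹ * x⁻¹) * x := by rw [h2]
    _ = _ := by group

end Cfsg.Agent.S5395
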