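import Cfsg.Statements.S5408
import Cfsg.Agent.Helper28.MonsterQ

set_option autoImplicit false
open Cfsg

namespace Cfsg.Agent.S5408

open Cfsg.Agent.Helper28.MonsterQ in

/-- Let G be a finite group of Monster type at the involution z with Q the extraspecial normal subgroup of order 2^25 of C = C_G(z) (so C/Q is identified with the first Conway group with Q modulo its centre the Leech lattice modulo 2, and z is not weakly closed in Q). Then Q is of plus type: it contains an elementary abelian subgroup of order 2^13. -/
theorem result {G : Type*} [Group G] [Finite G] (z : G) (Q : Subgroup (Subgroup.centralizer ({z} : Set G))) [Q.Normal] (hM : Cfsg.IsOfMonsterType z Q) : ∃ E : Subgroup Q, Cfsg.IsElementaryAbelian 2 E ∧ Nat.card E = 2 ^ 13 := by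
  obtain ⟨⟨hz2, hF, hQ, hcard, hnwc⟩, e, ψ, hmul, hsurj, hker, heq⟩ := hM
  refine exists_elementary (P := Q) hQ.2 (by rw [hcard]) ψ hmul hsurj hker ?_
  intro g hg
  obtain ⟨h, hh⟩ := QuotientGroup.mk_surjective (e.symm (QuotientGroup.mk (⟨g, hg⟩ : Cfsg.Co0)))
  have key : ∀ (a b : Subgroup.centralizer ({z} : Set G)),
      a * b * a⁻¹ * (a * b * a⁻¹) = 1 ↔ b * b = 1 := by
    intro a b
    constructor
    · intro h1
      have h2 : a * (b * b) * a⁻¹ = 1 := by rw [← h1]; group
      exact conj_eq_one_iff.mp h2
    · intro h1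
      have h2 : a * b * a⁻¹ * (a * b * a⁻¹) = a * (b * b) * a⁻¹ := by group
      rw [h2, h1]; group
  refine ⟨fun q => ⟨h * q * h⁻¹, (inferInstance : Q.Normal).conj_mem q q.2 h⟩, ?_, ?_⟩
  · intro q
    constructor
    · intro h1
      have h1' := congrArg Subtype.val h1
      exact Subtype.ext ((key h q).mp h1')
    · intro h1
      have h1' := congrArg Subtype.val h1
      exact Subtype.ext ((key h q).mpr h1')
  · intro v q hvq
    exact heq h ⟨g, hg⟩ (by rw [hh, e.apply_symm_apply]) v q hvq

end Cfsg.Agent.S5408
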