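import Cfsg.Statements.S5411
import Cfsg.Agent.Helper12.MonQ

set_option autoImplicit false
open Cfsg

namespace Cfsg.Agent.S5411

open Cfsg.Agent.Helper3 Cfsg.Agent.Helper28.Leech Cfsg.Agent.Helper28.MonsterQ Cfsg.Agent.H12MonQ

/-- Let G be a finite group of Monster type at the involution z with Q the extraspecial normal subgroup of order 2^25 of C = C_G(z) (so C/Q is identified with the first Conway group with Q modulo its centre the Leech lattice modulo 2, and z is not weakly closed in Q). Then C acts transitively by conjugation on the involutions of Q that are not conjugate to z in G. -/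
theorem result {G : Type*} [Group G] [Finite G] (z : G) (Q : Subgroup (Subgroup.centralizer ({z} : Set G))) [Q.Normal] (hM : Cfsg.IsOfMonsterType z Q) (s t : G) (hsQ : ∃ hsc : s ∈ Subgroup.centralizer ({z} : Set G), (⟨s, hsc⟩ : Subgroup.centralizer ({z} : Set G)) ∈ Q) (htQ : ∃ htc : t ∈ Subgroup.centralizer ({z} : Set G), (⟨t, htc⟩ : Subgroup.centralizer ({z} : Set G)) ∈ Q) (hs2 : orderOf s = 2) (ht2 : orderOf t = 2) (hs : ¬ IsConj z s) (ht : ¬ IsConj z t) : ∃ h ∈ Subgroup.centralizer ({z} : Set G), h * s * h⁻¹ = t := by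
  obtain ⟨⟨hz2, hF, hQ, hcard, g0, ⟨hq0, hq0Q⟩, hg0⟩, e, ψ, hψ⟩ := hM
  obtain ⟨hsc, hsQ'⟩ := hsQ
  obtain ⟨htc, htQ'⟩ := htQ
  have hZ : Nat.card (Subgroup.center Q) = 2 := hQ.2
  have hcard' : Nat.card Q = 2 ^ 25 := by rw [hcard]
  have hz1 : z ≠ 1 := by
    intro h
    rw [h, orderOf_one] at hz2
    norm_num at hz2
  have hzz : z * z = 1 := by
    have h := pow_orderOf_eq_one z
    rw [hz2, pow_two] at h
    exact h
  have hzQ : zc z ∈ Q := z_mem z Q hF
  have hψ' := hψ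
  obtain ⟨hmul, hsurj, hker, heq⟩ := hψ
  have hinv : ∀ g : Co0, ∃ α : Q → Q, (∀ q, α q * α q = 1 ↔ q * q = 1) ∧
      ∀ (v : leechLattice) (q : Q), ψ v = QuotientGroup.mk q →
        ψ (g • v) = QuotientGroup.mk (α q) := by
    intro g
    obtain ⟨h, hh⟩ := QuotientGroup.mk_surjective (e.symm (QuotientGroup.mk g))
    have key : ∀ (a b : Subgroup.centralizer ({z} : Set G)),
        a * b * a⁻¹ * (a * b * a⁻¹) = 1 ↔ b * b = 1 := by
      intro a b
      constructor
      · intro h1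
        have h2 : a * (b * b) * a⁻¹ = 1 := by rw [← h1]; group
        exact conj_eq_one_iff.mp h2
      · intro h1
        have h2 : a * b * a⁻¹ * (a * b * a⁻¹) = a * (b * b) * a⁻¹ := by group
        rw [h2, h1]; group
    refine ⟨fun q => ⟨h * q * h⁻¹, (inferInstance : Q.Normal).conj_mem q q.2 h⟩, ?_, ?_⟩
    · intro q
      constructor
      · intro h1
        have h1' := congrArg Subtype.val h1
        exact Subtype.ext ((key h q).mp h1')
      · intro h1
        have h1' := congrArg Subtype.val h1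
        exact Subtype.ext ((key h q).mpr h1')
    · intro v q hvq
      exact heq h g (by rw [hh, e.apply_symm_apply]) v q hvq
  have hrep : ∀ x : Q, x * x = 1 → x ∉ Subgroup.center Q →
      ∃ y : leechLattice, ψ y = QuotientGroup.mk x ∧
        (sqNorm (y : GolayPt → ℤ) = 32 ∨ sqNorm (y : GolayPt → ℤ) = 64) := by
    intro x hx2 hxc
    obtain ⟨y, hy, hyn⟩ := exists_rep ψ hmul hsurj hker x
    have hty := sq_type hZ hcard' ψ hmul hsurj hker hinv y x hy
    have hs0 : sqf x = 0 := by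
      unfold sqf
      rw [hx2]
      exact iota_one
    rw [hs0] at hty
    rcases hyn with h | h | h | h
    · exfalso
      apply hxc
      rw [← QuotientGroup.eq_one_iff, ← hy, hker]
      refine ⟨0, ?_⟩
      rw [add_zero]
      exact Subtype.ext (sqNorm_eq_zero _ h)
    · exact ⟨y, hy, Or.inl h⟩
    · exfalso
      rw [h] at hty
      exact absurd hty (by decide)
    · exact ⟨y, hy, Or.inr h⟩
  have hss : s * s = 1 := by
    have h := pow_orderOf_eq_one s
    rw [hs2, pow_two] at h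
    exact h
  have htt : t * t = 1 := by
    have h := pow_orderOf_eq_one t
    rw [ht2, pow_two] at h
    exact h
  have hs1 : s ≠ 1 := by
    intro h
    rw [h, orderOf_one] at hs2
    norm_num at hs2
  have ht1 : t ≠ 1 := by
    intro h
    rw [h, orderOf_one] at ht2
    norm_num at ht2
  have hnc : ∀ (a : G) (ha : a ∈ Subgroup.centralizer ({z} : Set G))
      (haQ : (⟨a, ha⟩ : Subgroup.centralizer ({z} : Set G)) ∈ Q), a ≠ 1 → a ≠ z →
      (⟨⟨a, ha⟩, haQ⟩ : Q) ∉ Subgroup.center Q := by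
    intro a ha haQ ha1 haz hc
    rcases central_cases z Q hZ hzQ hz1 _ hc with h | h
    · exact ha1 (congrArg (fun q : Q => ((q : Subgroup.centralizer ({z} : Set G)) : G)) h)
    · exact haz (congrArg (fun q : Q => ((q : Subgroup.centralizer ({z} : Set G)) : G)) h)
  have hsz : s ≠ z := fun h => hs (h ▸ IsConj.refl z)
  have htz : t ≠ z := fun h => ht (h ▸ IsConj.refl z)
  obtain ⟨ys, hys, hns⟩ := hrep ⟨⟨s, hsc⟩, hsQ'⟩ (Subtype.ext (Subtype.ext hss))
    (hnc s hsc hsQ' hs1 hsz)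
  obtain ⟨yt, hyt, hnt⟩ := hrep ⟨⟨t, htc⟩, htQ'⟩ (Subtype.ext (Subtype.ext htt))
    (hnc t htc htQ' ht1 htz)
  have hgg : g0 * z * g0⁻¹ * (g0 * z * g0⁻¹) = 1 := by
    have h : g0 * z * g0⁻¹ * (g0 * z * g0⁻¹) = g0 * (z * z) * g0⁻¹ := by group
    rw [h, hzz]
    group
  have hg1 : g0 * z * g0⁻¹ ≠ 1 := by
    intro h
    apply hz1
    have h3 : z = g0⁻¹ * (g0 * z * g0⁻¹) * g0 := by group
    rw [h3, h]
    group
  obtain ⟨yz, hyz, hnz⟩ := hrep ⟨⟨g0 * z * g0⁻¹, hq0⟩, hq0Q⟩ (Subtype.ext (Subtype.ext hgg))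
    (hnc _ hq0 hq0Q hg1 hg0)
  have hzs : ¬ ((sqNorm (yz : GolayPt → ℤ) = 32 ∧ sqNorm (ys : GolayPt → ℤ) = 32) ∨
      (sqNorm (yz : GolayPt → ℤ) = 64 ∧ sqNorm (ys : GolayPt → ℤ) = 64)) := by
    intro hN
    obtain ⟨h, hh⟩ := conj_of_same_norm z Q hZ e ψ hψ' _ _ yz ys hyz hys hN
    apply hs
    rw [isConj_iff]
    refine ⟨(h : G) * g0, ?_⟩
    have hh' : (h : G) * (g0 * z * g0⁻¹) * (h : G)⁻¹ = s := congrArg Subtype.val hh
    rw [← hh']
    group
  have hzt : ¬ ((sqNorm (yz : GolayPt → ℤ) = 32 ∧ sqNorm (yt : GolayPt → ℤ) = 32) ∨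
      (sqNorm (yz : GolayPt → ℤ) = 64 ∧ sqNorm (yt : GolayPt → ℤ) = 64)) := by
    intro hN
    obtain ⟨h, hh⟩ := conj_of_same_norm z Q hZ e ψ hψ' _ _ yz yt hyz hyt hN
    apply ht
    rw [isConj_iff]
    refine ⟨(h : G) * g0, ?_⟩
    have hh' : (h : G) * (g0 * z * g0⁻¹) * (h : G)⁻¹ = t := congrArg Subtype.val hh
    rw [← hh']
    group
  have hst : (sqNorm (ys : GolayPt → ℤ) = 32 ∧ sqNorm (yt : GolayPt → ℤ) = 32) ∨
      (sqNorm (ys : GolayPt → ℤ) = 64 ∧ sqNorm (yt : GolayPt → ℤ) = 64) := by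
    rcases hns with a | a
    · rcases hnt with b | b
      · exact Or.inl ⟨a, b⟩
      · rcases hnz with c | c
        · exact absurd (Or.inl ⟨c, a⟩) hzs
        · exact absurd (Or.inr ⟨c, b⟩) hzt
    · rcases hnt with b | b
      · rcases hnz with c | c
        · exact absurd (Or.inl ⟨c, b⟩) hzt
        · exact absurd (Or.inr ⟨c, a⟩) hzs
      · exact Or.inr ⟨a, b⟩
  obtain ⟨h, hh⟩ := conj_of_same_norm z Q hZ e ψ hψ' _ _ ys yt hys hyt hst
  exact ⟨h, h.2, congrArg Subtype.val hh⟩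

end Cfsg.Agent.S5411
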