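import Cfsg.Statements.S5420
import Cfsg.Agent.Helper28.Basic

set_option autoImplicit false
open Cfsg

namespace Cfsg.Agent.S5420

open Cfsg.Agent.Helper28

theorem result {G : Type*} [Group G] [Finite G] (Q : Subgroup G) (hL1 : Cfsg.IsExtraspecial 2 ↥Q) (hL2 : Subgroup.centralizer (Q : Set G) = ((Subgroup.center ↥Q).map Q.subtype)) (hL3 : Subgroup.centralizer (((Subgroup.center ↥Q).map Q.subtype) : Set G) ≤ Subgroup.normalizer (Q : Set G)) (hZ : ((Subgroup.center ↥Q).map Q.subtype) ≤ Cfsg.pCore 2 G) : Cfsg.IsLargeExtraspecial Q := by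
  refine ⟨hL1, hL2, hL3, ?_⟩
  intro K hKodd hQK
  have hQ2 : IsPGroup 2 Q := hL1.1.1
  have hZQ : ((Subgroup.center ↥Q).map Q.subtype) ≤ Q := by
    rintro _ ⟨y, -, rfl⟩
    exact y.2
  have hO := pCore_isPGroup 2 G
  have hON := pCore_normal 2 G
  -- K centralizes Z
  have hKZ : K ≤ Subgroup.centralizer (((Subgroup.center ↥Q).map Q.subtype) : Set G) := by
    intro k hk
    rw [Subgroup.mem_centralizer_iff]
    intro z hz
    have hzN : z ∈ Subgroup.normalizer (K : Set G) := hQK (hZQ hz)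
    have h1 : z * k * z⁻¹ ∈ K := (Subgroup.mem_normalizer_iff.mp hzN k).mp hk
    have h2 : z * k * z⁻¹ * k⁻¹ ∈ K := K.mul_mem h1 (K.inv_mem hk)
    have h3 : z * k * z⁻¹ * k⁻¹ ∈ Cfsg.pCore 2 G := by
      have hz' : z ∈ Cfsg.pCore 2 G := hZ hz
      have h4 : k * z⁻¹ * k⁻¹ ∈ Cfsg.pCore 2 G := hON.conj_mem _ (inv_mem hz') k
      have e : z * k * z⁻¹ * k⁻¹ = z * (k * z⁻¹ * k⁻¹) := by group
      rw [e]
      exact mul_mem hz' h4
    have h5 := eq_one_of_mem_odd_of_mem_two hKodd hO h2 h3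
    calc z * k = (z * k * z⁻¹ * k⁻¹) * k * z := by group
      _ = k * z := by rw [h5, one_mul]
  have hKN : K ≤ Subgroup.normalizer (Q : Set G) := hKZ.trans hL3
  rw [eq_bot_iff]
  intro k hk
  rw [Subgroup.mem_bot]
  -- k centralizes Q
  have hkC : k ∈ Subgroup.centralizer (Q : Set G) := by
    rw [Subgroup.mem_centralizer_iff]
    intro q hq
    have hqN : q ∈ Subgroup.normalizer (K : Set G) := hQK hq
    have h1 : q * k * q⁻¹ ∈ K := (Subgroup.mem_normalizer_iff.mp hqN k).mp hk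
    have h2 : q * k * q⁻¹ * k⁻¹ ∈ K := K.mul_mem h1 (K.inv_mem hk)
    have h3 : q * k * q⁻¹ * k⁻¹ ∈ Q := by
      have h4 : k * q⁻¹ * k⁻¹ ∈ Q :=
        (Subgroup.mem_normalizer_iff.mp (hKN hk) q⁻¹).mp (Q.inv_mem hq)
      have e : q * k * q⁻¹ * k⁻¹ = q * (k * q⁻¹ * k⁻¹) := by group
      rw [e]
      exact Q.mul_mem hq h4
    have h5 := eq_one_of_mem_odd_of_mem_two hKodd hQ2 h2 h3
    calc q * k = (q * k * q⁻¹ * k⁻¹) * k * q := by group
      _ = k * q := by rw [h5, one_mul]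
  rw [hL2] at hkC
  exact eq_one_of_mem_odd_of_mem_two hKodd hQ2 hk (hZQ hkC)

end Cfsg.Agent.S5420
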