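import Cfsg.Statements.S5421
import Cfsg.Agent.Helper28.Basic

set_option autoImplicit false
open Cfsg

namespace Cfsg.Agent.S5421

open Cfsg.Agent.Helper28
open scoped commutatorElement

/-- Let Q be an extraspecial 2-subgroup of the finite group G whose centralizer in G is its centre Z and which is normal in the centralizer of Z. If some involution b of Q outside Z has Z inside the largest normal 2-subgroup of the centralizer of b, then Q is a large extraspecial 2-subgroup of G. -/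
theorem result {G : Type*} [Group G] [Finite G] (Q : Subgroup G) (hL1 : Cfsg.IsExtraspecial 2 ↥Q) (hL2 : Subgroup.centralizer (Q : Set G) = ((Subgroup.center ↥Q).map Q.subtype)) (hL3 : Subgroup.centralizer (((Subgroup.center ↥Q).map Q.subtype) : Set G) ≤ Subgroup.normalizer (Q : Set G)) (b : G) (hbQ : b ∈ Q) (hbZ : b ∉ ((Subgroup.center ↥Q).map Q.subtype)) (hb : orderOf b = 2) (hZ : ((Subgroup.center ↥Q).map Q.subtype) ≤ (Cfsg.pCore 2 ↥(Subgroup.centralizer ({b} : Set G))).map (Subgroup.centralizer ({b} : Set G)).subtype) : Cfsg.IsLargeExtraspecial Q := by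
  refine ⟨hL1, hL2, hL3, ?_⟩
  intro K hKodd hQK
  obtain ⟨⟨hQp, hfrat, hcomm⟩, hcard⟩ := hL1
  have hZQ : (Subgroup.center ↥Q).map Q.subtype ≤ Q := by
    rintro x ⟨y, -, rfl⟩
    exact y.2
  obtain ⟨zc, hzc1, hzcu⟩ := (Nat.card_eq_two_iff' (1 : Subgroup.center ↥Q)).1 hcard
  have hzQ : ((zc : ↥Q) : G) ∈ Q := (zc : ↥Q).2
  have hzZ : ((zc : ↥Q) : G) ∈ (Subgroup.center ↥Q).map Q.subtype := ⟨(zc : ↥Q), zc.2, rfl⟩
  have hz1 : ((zc : ↥Q) : G) ≠ 1 := by
    intro h
    apply hzc1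
    apply Subtype.ext
    apply Subtype.ext
    exact h
  have hZall : ∀ x ∈ (Subgroup.center ↥Q).map Q.subtype, x = 1 ∨ x = ((zc : ↥Q) : G) := by
    rintro x ⟨y, hy, rfl⟩
    by_cases h1 : (⟨y, hy⟩ : Subgroup.center ↥Q) = 1
    · left
      have := congrArg (fun w : Subgroup.center ↥Q => ((w : ↥Q) : G)) h1
      simpa using this
    · right
      have := hzcu ⟨y, hy⟩ h1
      rw [← this]
      rfl
  have hzcomm : ∀ q ∈ Q, q * ((zc : ↥Q) : G) = ((zc : ↥Q) : G) * q := by
    intro q hq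
    have := Subgroup.mem_center_iff.1 zc.2 ⟨q, hq⟩
    exact congrArg Subtype.val this
  have hzz : ((zc : ↥Q) : G) * ((zc : ↥Q) : G) = 1 := by
    have hmem : ((zc : ↥Q) : G) * ((zc : ↥Q) : G) ∈ (Subgroup.center ↥Q).map Q.subtype :=
      mul_mem hzZ hzZ
    rcases hZall _ hmem with h | h
    · exact h
    · exfalso
      apply hz1
      have : ((zc : ↥Q) : G) * ((zc : ↥Q) : G) = ((zc : ↥Q) : G) * 1 := by rw [h, mul_one]
      exact mul_left_cancel this
  have hzuniq : ∀ y : ↥Q, y ∈ Subgroup.center ↥Q → y ≠ 1 → (y : G) = ((zc : ↥Q) : G) := by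
    intro y hy hy1
    have := hzcu ⟨y, hy⟩ (fun h => hy1 (congrArg Subtype.val h))
    rw [← this]
  generalize ((zc : ↥Q) : G) = z at hzQ hzZ hz1 hZall hzcomm hzz hzuniq
  -- step 1
  have step1 : ∀ k ∈ K, k * z = z * k → k = 1 := by
    intro k hk hkz
    have hkC : k ∈ Subgroup.centralizer
        (((Subgroup.center ↥Q).map Q.subtype : Subgroup G) : Set G) := by
      rw [Subgroup.mem_centralizer_iff]
      intro x hx
      rcases hZall x hx with rfl | rfl
      · simp
      · exact hkz.symm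
    have hkN := hL3 hkC
    have hkQ : k ∈ Subgroup.centralizer (Q : Set G) := by
      rw [Subgroup.mem_centralizer_iff]
      intro q hq
      have h1 : k * q * k⁻¹ ∈ Q := (Subgroup.mem_normalizer_iff.1 hkN q).1 hq
      have h2 : q * k⁻¹ * q⁻¹ ∈ K := (Subgroup.mem_normalizer_iff.1 (hQK hq) k⁻¹).1 (inv_mem hk)
      have h3 : k * q * k⁻¹ * q⁻¹ ∈ Q := mul_mem h1 (inv_mem hq)
      have h4 : k * q * k⁻¹ * q⁻¹ ∈ K := by
        have : k * q * k⁻¹ * q⁻¹ = k * (q * k⁻¹ * q⁻¹) := by group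
        rw [this]
        exact mul_mem hk h2
      have h5 := eq_one_of_mem_odd_of_mem_two hKodd hQp h4 h3
      have : k * q = q * k := by
        calc k * q = (k * q * k⁻¹ * q⁻¹) * (q * k) := by group
          _ = q * k := by rw [h5, one_mul]
      exact this.symm
    rw [hL2] at hkQ
    exact eq_one_of_mem_odd_of_mem_two hKodd hQp hk (hZQ hkQ)
  -- step 2
  have step2 : ∀ k ∈ K, k * b = b * k → k = 1 := by
    intro k hk hkb
    apply step1 k hk
    obtain ⟨zr, hzr, hzre⟩ := hZ hzZ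
    have hkC : k ∈ Subgroup.centralizer ({b} : Set G) := by
      rw [Subgroup.mem_centralizer_iff]
      intro x hx
      rw [Set.mem_singleton_iff] at hx
      rw [hx]
      exact hkb.symm
    have hnorm : (Cfsg.pCore 2 ↥(Subgroup.centralizer ({b} : Set G))).Normal := pCore_normal 2 _
    have h1 : (⟨k, hkC⟩ : ↥(Subgroup.centralizer ({b} : Set G))) * zr * (⟨k, hkC⟩)⁻¹ ∈
        Cfsg.pCore 2 ↥(Subgroup.centralizer ({b} : Set G)) := hnorm.conj_mem zr hzr _
    have h2 := mul_mem h1 (inv_mem hzr)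
    have hR : IsPGroup 2 ((Cfsg.pCore 2 ↥(Subgroup.centralizer ({b} : Set G))).map
        (Subgroup.centralizer ({b} : Set G)).subtype) := (pCore_isPGroup 2 _).map _
    have h3 : k * z * k⁻¹ * z⁻¹ ∈ (Cfsg.pCore 2 ↥(Subgroup.centralizer ({b} : Set G))).map
        (Subgroup.centralizer ({b} : Set G)).subtype := by
      refine ⟨_, h2, ?_⟩
      rw [← hzre]
      rfl
    have h4 : k * z * k⁻¹ * z⁻¹ ∈ K := by
      have : k * z * k⁻¹ * z⁻¹ = k * (z * k⁻¹ * z⁻¹) := by group
      rw [this]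
      exact mul_mem hk ((Subgroup.mem_normalizer_iff.1 (hQK hzQ) k⁻¹).1 (inv_mem hk))
    have h5 := eq_one_of_mem_odd_of_mem_two hKodd hR h4 h3
    calc k * z = (k * z * k⁻¹ * z⁻¹) * (z * k) := by group
      _ = z * k := by rw [h5, one_mul]
  -- a conjugate of b
  obtain ⟨q, hq, hqb⟩ : ∃ q ∈ Q, q * b * q⁻¹ = b * z := by
    have hbnc : (⟨b, hbQ⟩ : ↥Q) ∉ Subgroup.center ↥Q := by
      intro h
      exact hbZ ⟨⟨b, hbQ⟩, h, rfl⟩
    rw [Subgroup.mem_center_iff] at hbnc
    push Not at hbnc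
    obtain ⟨q, hq⟩ := hbnc
    have hc : ⁅q, (⟨b, hbQ⟩ : ↥Q)⁆ ∈ Subgroup.center ↥Q := by
      rw [← hcomm]
      exact Subgroup.commutator_mem_commutator (Subgroup.mem_top _) (Subgroup.mem_top _)
    have hc1 : ⁅q, (⟨b, hbQ⟩ : ↥Q)⁆ ≠ 1 := by
      intro h
      rw [commutatorElement_eq_one_iff_mul_comm] at h
      exact hq h
    have h1 := hzuniq _ hc hc1
    rw [commutatorElement_def] at h1
    have h2 : (q : G) * b * (q : G)⁻¹ * b⁻¹ = z := h1
    refine ⟨(q : G), q.2, ?_⟩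
    calc (q : G) * b * (q : G)⁻¹ = ((q : G) * b * (q : G)⁻¹ * b⁻¹) * b := by group
      _ = z * b := by rw [h2]
      _ = b * z := (hzcomm b hbQ).symm
  -- step 3
  have step3 : ∀ k ∈ K, k * (b * z) = (b * z) * k → k = 1 := by
    intro k hk hkbz
    have hk' : q⁻¹ * k * q ∈ K := by
      have := (Subgroup.mem_normalizer_iff.1 (hQK (inv_mem hq)) k).1 hk
      rwa [inv_inv] at this
    have h1 : q⁻¹ * k * q * b = b * (q⁻¹ * k * q) := by
      calc q⁻¹ * k * q * b = q⁻¹ * (k * (q * b * q⁻¹)) * q := by group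
        _ = q⁻¹ * ((q * b * q⁻¹) * k) * q := by rw [hqb, hkbz]
        _ = b * (q⁻¹ * k * q) := by group
    have h2 := step2 _ hk' h1
    calc k = q * (q⁻¹ * k * q) * q⁻¹ := by group
      _ = 1 := by rw [h2]; group
  -- fixed-point-free involutions invert
  have inv_of : ∀ x ∈ Q, x * x = 1 → (∀ k ∈ K, k * x = x * k → k = 1) →
      ∀ k ∈ K, x * k * x⁻¹ = k⁻¹ := by
    intro x hx hxx hfix k hk
    let φ : ↥K →* ↥K := ((MulAut.conj x).toMonoidHom.comp K.subtype).codRestrict K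
      (fun k => (Subgroup.mem_normalizer_iff.1 (hQK hx) k).1 k.2)
    have hφ : MonoidHom.FixedPointFree φ := by
      intro k hk'
      have h1 : x * (k : G) * x⁻¹ = k := congrArg Subtype.val hk'
      apply Subtype.ext
      apply hfix k k.2
      calc (k : G) * x = (x * (k : G) * x⁻¹) * x := by rw [h1]
        _ = x * k := by group
    have hinv : Function.Involutive φ := by
      intro k
      apply Subtype.ext
      show x * (x * (k : G) * x⁻¹) * x⁻¹ = k
      calc x * (x * (k : G) * x⁻¹) * x⁻¹ = (x * x) * k * (x * x)⁻¹ := by group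
        _ = k := by rw [hxx]; group
    have h := hφ.coe_eq_inv_of_involutive hinv
    have h2 := congrFun h ⟨k, hk⟩
    exact congrArg Subtype.val h2
  have hbb : b * b = 1 := by rw [← pow_two, ← hb, pow_orderOf_eq_one]
  have hzinv := inv_of z hzQ hzz step1
  have hbinv := inv_of b hbQ hbb step2
  rw [Subgroup.eq_bot_iff_forall]
  intro k hk
  apply step3 k hk
  have h1 : z * k * z⁻¹ = k⁻¹ := hzinv k hk
  have h2 : b * k⁻¹ * b⁻¹ = k⁻¹⁻¹ := hbinv k⁻¹ (inv_mem hk)
  rw [inv_inv] at h2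
  calc k * (b * z) = (b * (z * k * z⁻¹) * b⁻¹) * (b * z) := by rw [h1, h2]
    _ = b * z * k := by group

end Cfsg.Agent.S5421
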