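import Cfsg.Statements.S5422
import Cfsg.Agent.Lead.XS6

set_option autoImplicit false
open Cfsg

namespace Cfsg.Agent.S5422

/-- Let Q be an extraspecial 2-subgroup of the finite group G whose centralizer in G is its centre Z and which is normal in the centralizer of Z; suppose Q has width at least 2 (order 2^(2w+1) with w ≥ 2) and g is an element of G not normalizing Z with g Z g⁻¹ inside Q. Then Z lies inside g Q g⁻¹; writing V for the subgroup generated by Z and g Z g⁻¹ (a four-group), the normalizer of V induces on V its full automorphism group, that is, the centralizer of V has index 6 in the normalizer of V; and Q is a large extraspecial 2-subgroup of G. -/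
theorem result {G : Type*} [Group G] [Finite G] (Q : Subgroup G) (hL1 : Cfsg.IsExtraspecial 2 ↥Q) (hL2 : Subgroup.centralizer (Q : Set G) = ((Subgroup.center ↥Q).map Q.subtype)) (hL3 : Subgroup.centralizer (((Subgroup.center ↥Q).map Q.subtype) : Set G) ≤ Subgroup.normalizer (Q : Set G)) (w : ℕ) (hw : 2 ≤ w) (hcard : Nat.card ↥Q = 2 ^ (2 * w + 1)) (g : G) (hg : g ∉ Subgroup.normalizer (((Subgroup.center ↥Q).map Q.subtype) : Set G)) (hZg : (((Subgroup.center ↥Q).map Q.subtype)).map (MulAut.conj g).toMonoidHom ≤ Q) : ((Subgroup.center ↥Q).map Q.subtype) ≤ (Q).map (MulAut.conj g).toMonoidHom ∧ (Subgroup.centralizer ((((Subgroup.center ↥Q).map Q.subtype) ⊔ (((Subgroup.center ↥Q).map Q.subtype)).map (MulAut.conj g).toMonoidHom : Subgroup G) : Set G)).relIndex (Subgroup.normalizer ((((Subgroup.center ↥Q).map Q.subtype) ⊔ (((Subgroup.center ↥Q).map Q.subtype)).map (MulAut.conj g).toMonoidHom : Subgroup G) : Set G)) = 6 ∧ Cfsg.IsLargeExtraspecial Q := by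
  classical
  obtain ⟨z, hzQ, hz1, hz2, hzc, cen⟩ := Cfsg.Agent.Lead.XS.exists_z Q hL1
  have comm := Cfsg.Agent.Lead.XS.xs_comm Q z hzQ hz1 hzc hL1
  have hZmem : ∀ y : G, y ∈ (Subgroup.center ↥Q).map Q.subtype ↔ y = 1 ∨ y = z := by
    intro y
    constructor
    · rintro ⟨c, hc, rfl⟩
      exact cen (c : G) c.2 (fun y hy => by
        have h := Subgroup.mem_center_iff.mp hc ⟨y, hy⟩
        have h' := congrArg Subtype.val h
        exact h'.symm)
    · rintro (h | h)
      · rw [h]; exact Subgroup.one_mem _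
      · rw [h]
        refine ⟨⟨z, hzQ⟩, ?_, rfl⟩
        rw [SetLike.mem_coe, Subgroup.mem_center_iff]
        intro y
        apply Subtype.ext
        exact (hzc y y.2).symm
  have hCall : ∀ h : G, (∀ y ∈ Q, h * y = y * h) → h ∈ Q := by
    intro h hh
    have h1 : h ∈ Subgroup.centralizer (Q : Set G) := by
      rw [Subgroup.mem_centralizer_iff]
      intro y hy
      exact (hh y hy).symm
    rw [hL2] at h1
    rcases (hZmem h).mp h1 with h2 | h2
    · rw [h2]; exact Q.one_mem
    · rw [h2]; exact hzQ
  have hnorm : ∀ h : G, h * z = z * h → ∀ y ∈ Q, h * y * h⁻¹ ∈ Q := by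
    intro h hh y hy
    have h1 : h ∈ Subgroup.centralizer
        (((Subgroup.center ↥Q).map Q.subtype : Subgroup G) : Set G) := by
      rw [Subgroup.mem_centralizer_iff]
      intro y hy
      rcases (hZmem y).mp hy with h2 | h2
      · rw [h2, one_mul, mul_one]
      · rw [h2]; exact hh.symm
    exact (Subgroup.mem_normalizer_iff.mp (hL3 h1) y).mp hy
  have hx : g * z * g⁻¹ ∈ Q :=
    hZg (Subgroup.mem_map.mpr ⟨z, (hZmem z).mpr (Or.inr rfl), rfl⟩)
  have hgz : g * z * g⁻¹ ≠ z := by
    intro h
    apply hg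
    rw [Subgroup.mem_normalizer_iff]
    intro y
    constructor
    · intro hy
      rcases (hZmem y).mp hy with h1 | h1
      · rw [h1, mul_one, mul_inv_cancel]; exact Subgroup.one_mem _
      · rw [h1, h]; exact (hZmem z).mpr (Or.inr rfl)
    · intro hy
      rcases (hZmem _).mp hy with h1 | h1
      · have : y = 1 := by
          calc y = g⁻¹ * (g * y * g⁻¹) * g := by group
            _ = 1 := by rw [h1]; group
        rw [this]; exact Subgroup.one_mem _
      · have : y = z := by
          calc y = g⁻¹ * (g * y * g⁻¹) * g := by group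
            _ = g⁻¹ * (g * z * g⁻¹) * g := by rw [h1, h]
            _ = z := by group
        rw [this]; exact (hZmem z).mpr (Or.inr rfl)
  have hzg := Cfsg.Agent.Lead.XS.main_gen Q hL1 z hzQ hz1 hz2 hzc cen hCall hnorm g hx
  obtain ⟨u, hu⟩ : ∃ u, u = g * z * g⁻¹ := ⟨_, rfl⟩
  rw [← hu] at hx hgz
  have hu2 : u * u = 1 := by
    rw [hu]
    calc g * z * g⁻¹ * (g * z * g⁻¹) = g * (z * z) * g⁻¹ := by group
      _ = 1 := by rw [hz2]; group
  have hu1 : u ≠ 1 := by
    intro h
    apply hz1
    calc z = g⁻¹ * (g * z * g⁻¹) * g := by group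
      _ = 1 := by rw [← hu, h]; group
  have hzu : z * u = u * z := hzc u hx
  refine ⟨?_, ?_, ?_⟩
  · intro y hy
    rcases (hZmem y).mp hy with h1 | h1
    · rw [h1]; exact Subgroup.one_mem _
    · rw [h1]
      refine Subgroup.mem_map.mpr ⟨g⁻¹ * z * g, hzg, ?_⟩
      show g * (g⁻¹ * z * g) * g⁻¹ = z
      group
  · have e1 : z * (u * z) = u := by rw [← mul_assoc, hzu, mul_assoc, hz2, mul_one]
    have e2 : u * (u * z) = z := by rw [← mul_assoc, hu2, one_mul]
    have e3 : u * z * z = u := by rw [mul_assoc, hz2, mul_one]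
    have e4 : u * z * u = z := by rw [mul_assoc, hzu, ← mul_assoc, hu2, one_mul]
    have e5 : u * z * (u * z) = 1 := by rw [← mul_assoc, e4, hz2]
    have hmul : ∀ a b : G, (a = 1 ∨ a = z ∨ a = u ∨ a = u * z) →
        (b = 1 ∨ b = z ∨ b = u ∨ b = u * z) →
        (a * b = 1 ∨ a * b = z ∨ a * b = u ∨ a * b = u * z) := by
      intro a b ha hb
      rcases ha with h | h | h | h <;> rcases hb with h' | h' | h' | h' <;> rw [h, h']
      · left; rw [one_mul]
      · right; left; rw [one_mul]
      · right; right; left; rw [one_mul]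
      · right; right; right; rw [one_mul]
      · right; left; rw [mul_one]
      · left; exact hz2
      · right; right; right; exact hzu
      · right; right; left; exact e1
      · right; right; left; rw [mul_one]
      · right; right; right; rfl
      · left; exact hu2
      · right; left; exact e2
      · right; right; right; rw [mul_one]
      · right; right; left; exact e3
      · right; left; exact e4
      · left; exact e5
    have hinv : ∀ a : G, (a = 1 ∨ a = z ∨ a = u ∨ a = u * z) →
        (a⁻¹ = 1 ∨ a⁻¹ = z ∨ a⁻¹ = u ∨ a⁻¹ = u * z) := by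
      intro a ha
      have h1 : a * a = 1 := by
        rcases ha with h | h | h | h
        · rw [h, one_mul]
        · rw [h]; exact hz2
        · rw [h]; exact hu2
        · rw [h]; exact e5
      rw [inv_eq_of_mul_eq_one_left h1]
      exact ha
    obtain ⟨W, hW⟩ : ∃ W : Subgroup G, ∀ v, v ∈ W ↔ (v = 1 ∨ v = z ∨ v = u ∨ v = u * z) :=
      ⟨{ carrier := {v | v = 1 ∨ v = z ∨ v = u ∨ v = u * z}
         one_mem' := Or.inl rfl
         mul_mem' := fun {a b} ha hb => hmul a b ha hb
         inv_mem' := fun {a} ha => hinv a ha }, fun v => Iff.rfl⟩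
    have hV : ∀ v, v ∈ ((Subgroup.center ↥Q).map Q.subtype ⊔
        ((Subgroup.center ↥Q).map Q.subtype).map (MulAut.conj g).toMonoidHom : Subgroup G) ↔
        (v = 1 ∨ v = z ∨ v = u ∨ v = u * z) := by
      intro v
      constructor
      · intro hv
        have hle : ((Subgroup.center ↥Q).map Q.subtype ⊔
            ((Subgroup.center ↥Q).map Q.subtype).map (MulAut.conj g).toMonoidHom : Subgroup G)
            ≤ W := by
          apply sup_le
          · intro y hy
            rcases (hZmem y).mp hy with h1 | h1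
            · exact (hW y).mpr (Or.inl h1)
            · exact (hW y).mpr (Or.inr (Or.inl h1))
          · intro y hy
            obtain ⟨c, hc, hcy⟩ := Subgroup.mem_map.mp hy
            have hcy' : g * c * g⁻¹ = y := hcy
            rcases (hZmem c).mp hc with h1 | h1
            · refine (hW y).mpr (Or.inl ?_)
              rw [← hcy', h1]; group
            · refine (hW y).mpr (Or.inr (Or.inr (Or.inl ?_)))
              rw [← hcy', h1, hu]
        exact (hW v).mp (hle hv)
      · intro hv
        have hzV : z ∈ ((Subgroup.center ↥Q).map Q.subtype ⊔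
            ((Subgroup.center ↥Q).map Q.subtype).map (MulAut.conj g).toMonoidHom : Subgroup G) :=
          (le_sup_left : (Subgroup.center ↥Q).map Q.subtype ≤ _) ((hZmem z).mpr (Or.inr rfl))
        have huV : u ∈ ((Subgroup.center ↥Q).map Q.subtype ⊔
            ((Subgroup.center ↥Q).map Q.subtype).map (MulAut.conj g).toMonoidHom : Subgroup G) := by
          refine (le_sup_right : ((Subgroup.center ↥Q).map Q.subtype).map
            (MulAut.conj g).toMonoidHom ≤ _) ?_
          refine Subgroup.mem_map.mpr ⟨z, (hZmem z).mpr (Or.inr rfl), ?_⟩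
          rw [hu]; rfl
        rcases hv with h | h | h | h
        · rw [h]; exact Subgroup.one_mem _
        · rw [h]; exact hzV
        · rw [h]; exact huV
        · rw [h]; exact Subgroup.mul_mem _ huV hzV
    obtain ⟨q, hq, hqu⟩ := Cfsg.Agent.Lead.XS.exists_q Q z u hx hgz hu1 cen comm
    have hv2 : g⁻¹ * z * g ≠ z := by
      intro h
      apply hgz
      rw [hu]
      calc g * z * g⁻¹ = g * (g⁻¹ * z * g) * g⁻¹ := by rw [h]
        _ = z := by group
    have hv1 : g⁻¹ * z * g ≠ 1 := by
      intro h
      apply hz1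
      calc z = g * (g⁻¹ * z * g) * g⁻¹ := by group
        _ = 1 := by rw [h]; group
    obtain ⟨q', hq', hqv⟩ := Cfsg.Agent.Lead.XS.exists_q Q z (g⁻¹ * z * g) hzg hv2 hv1 cen comm
    have hq'z : q' * z * q'⁻¹ = z := by
      rw [← hzc q' hq']; group
    have hq'v : q' * (g⁻¹ * z * g) * q'⁻¹ = z * (g⁻¹ * z * g) := by
      rw [hqv]; group
    refine Cfsg.Agent.Lead.XS.index_six z u hz2 hu2 hz1 hu1 hgz hzu _ hV q ?_ ?_
      (g * q' * g⁻¹) ?_ ?_
    · rw [← hzc q hq]; group
    · rw [hqu, hzu]; group
    · rw [hu]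
      calc g * q' * g⁻¹ * (g * z * g⁻¹) * (g * q' * g⁻¹)⁻¹
          = g * (q' * z * q'⁻¹) * g⁻¹ := by group
        _ = g * z * g⁻¹ := by rw [hq'z]
    · rw [hu]
      calc g * q' * g⁻¹ * z * (g * q' * g⁻¹)⁻¹
          = g * (q' * (g⁻¹ * z * g) * q'⁻¹) * g⁻¹ := by group
        _ = g * (z * (g⁻¹ * z * g)) * g⁻¹ := by rw [hq'v]
        _ = g * z * g⁻¹ * z := by group
  · exact And.intro hL1 (And.intro hL2 (And.intro hL3 (fun K hK hQK =>
      Cfsg.Agent.Lead.XS.large_of Q hL1 z hzQ hz1 hz2 hzc cen hCall hnorm g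
        (by rw [← hu]; exact hx) (by rw [← hu]; exact hgz) K hK hQK)))

end Cfsg.Agent.S5422
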