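import Cfsg.Statements.S5430
import Cfsg.Agent.Lead.XS8
import Cfsg.Agent.Helper1.Fusion

set_option autoImplicit false
open Cfsg

namespace Cfsg.Agent.S5430

/-- Let Q be a large extraspecial 2-subgroup of the finite group G (extraspecial; centralizer equal to its centre; normal in the centralizer of its centre; normalizing no non-trivial subgroup of odd order) with centre generated by z, an involution, of width w ≥ 2 (order 2^(2w+1)); let g be an element outside the centralizer H of z with g z g⁻¹ in Q; write V for the subgroup generated by z and g z g⁻¹, X for the subgroup generated by Q and g Q g⁻¹, R for the subgroup generated by the centralizer of z in g Q g⁻¹ and the centralizer of g z g⁻¹ in Q, and E for the intersection of Q and g Q g⁻¹. Then R is the centralizer of V in X and is the largest normal 2-subgroup of X, and X/R is isomorphic to the symmetric group of degree 3; moreover the normalizer of V is the product of X and the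 centralizer of V in H, X is normal in it, and modulo R it is the direct product of X/R and of the centralizer of V in H modulo R. -/
theorem result {G : Type*} [Group G] [Finite G] (Q : Subgroup G) (hQ : Cfsg.IsLargeExtraspecial Q) (z : G) (hz : ((Subgroup.center ↥Q).map Q.subtype) = Subgroup.zpowers z) (hz2 : orderOf z = 2) (w : ℕ) (hw : 2 ≤ w) (hcard : Nat.card ↥Q = 2 ^ (2 * w + 1)) (g : G) (hgH : g ∉ Subgroup.centralizer ({z} : Set G)) (hgQ : g * z * g⁻¹ ∈ Q) (V X R E : Subgroup G) (hV : V = Subgroup.closure ({z, g * z * g⁻¹} : Set G)) (hX : X = Q ⊔ (Q).map (MulAut.conj g).toMonoidHom) (hR : R = ((Q).map (MulAut.conj g).toMonoidHom ⊓ Subgroup.centralizer ({z} : Set G)) ⊔ (Q ⊓ Subgroup.centralizer ({g * z * g⁻¹} : Set G))) (hE : E = Q ⊓ (Q).map (MulAut.conj g).toMonoidHom) : R = X ⊓ Subgroup.centralizer (V : Set G) ∧ R = (Cfsg.pCore 2 ↥X).map X.subtype ∧ (∃ h : (R.subgroupOf X).Normal, Nonempty (↥X ⧸ R.subgroupOf X ≃* Equiv.Perm (Fin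 3))) ∧ Subgroup.normalizer (V : Set G) = X ⊔ (Subgroup.centralizer ({z} : Set G) ⊓ Subgroup.centralizer (V : Set G)) ∧ (∀ y ∈ Subgroup.normalizer (V : Set G), ∀ x ∈ X, y * x * y⁻¹ ∈ X) ∧ R ≤ Subgroup.centralizer ({z} : Set G) ⊓ Subgroup.centralizer (V : Set G) ∧ (∀ x ∈ X, ∀ c ∈ Subgroup.centralizer ({z} : Set G) ⊓ Subgroup.centralizer (V : Set G), x * c * x⁻¹ * c⁻¹ ∈ R) ∧ X ⊓ (Subgroup.centralizer ({z} : Set G) ⊓ Subgroup.centralizer (V : Set G)) = R := by
  classical
  subst hV hX hE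
  obtain ⟨hE', hL2, hL3, _⟩ := hQ
  have hz1 : z ≠ 1 := by
    intro h
    rw [h, orderOf_one] at hz2
    omega
  have hzZ : z ∈ (Subgroup.center ↥Q).map Q.subtype := by
    rw [hz]; exact Subgroup.mem_zpowers z
  have F := Cfsg.Agent.Lead.XS.facts2_of Q hE' hL2 hL3 z hzZ hz1
  have F' := Cfsg.Agent.Lead.XS.facts2_map Q z F g
  have F0 := F
  obtain ⟨⟨hzQ, hzz, _, hzc, cen, comm, hC⟩, hnorm, sq⟩ := F0
  have F0' := F'
  obtain ⟨⟨huQ', huu, hu1, huc, _, _, _⟩, _, _⟩ := F0'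
  have hzg : g⁻¹ * z * g ∈ Q :=
    Cfsg.Agent.Lead.XS.main_gen Q hE' z hzQ hz1 hzz hzc cen hC hnorm g hgQ
  have hzQ' : z ∈ Q.map (MulAut.conj g).toMonoidHom :=
    (Cfsg.Agent.Lead.XS.mem_map_conj Q g z).mpr hzg
  have huz : g * z * g⁻¹ ≠ z := by
    intro h
    apply hgH
    rw [Cfsg.Agent.Lead.XS.mem_cs]
    calc z * g = (g * z * g⁻¹) * g := by rw [h]
      _ = g * z := by group
  have hzu : z * (g * z * g⁻¹) = (g * z * g⁻¹) * z := hzc _ hgQ
  have H1 : ∀ y : G, y * z * y⁻¹ = g * z * g⁻¹ → ∀ s ∈ Q,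
      y * s * y⁻¹ ∈ Q.map (MulAut.conj g).toMonoidHom := by
    intro y hy s hs
    rw [Cfsg.Agent.Lead.XS.mem_map_conj]
    have h1 : (g⁻¹ * y) * z = z * (g⁻¹ * y) := by
      calc (g⁻¹ * y) * z = g⁻¹ * (y * z * y⁻¹) * y := by group
        _ = g⁻¹ * (g * z * g⁻¹) * y := by rw [hy]
        _ = z * (g⁻¹ * y) := by group
    have h2 := hnorm (g⁻¹ * y) h1 s hs
    have e : g⁻¹ * (y * s * y⁻¹) * g = (g⁻¹ * y) * s * (g⁻¹ * y)⁻¹ := by group
    rw [e]
    exact h2
  have H2 : ∀ y : G, y * (g * z * g⁻¹) * y⁻¹ = z →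
      ∀ s ∈ Q.map (MulAut.conj g).toMonoidHom, y * s * y⁻¹ ∈ Q := by
    intro y hy s hs
    have hs' := (Cfsg.Agent.Lead.XS.mem_map_conj Q g s).mp hs
    have h1 : (y * g) * z = z * (y * g) := by
      calc (y * g) * z = (y * (g * z * g⁻¹) * y⁻¹) * (y * g) := by group
        _ = z * (y * g) := by rw [hy]
    have h2 := hnorm (y * g) h1 _ hs'
    have e : (y * g) * (g⁻¹ * s * g) * (y * g)⁻¹ = y * s * y⁻¹ := by group
    rw [e] at h2
    exact h2
  obtain ⟨P1, P2, P3, P4, P5, P6, P7, P8⟩ :=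
    Cfsg.Agent.Lead.XS.pair_struct Q (Q.map (MulAut.conj g).toMonoidHom) z (g * z * g⁻¹)
      F F' hgQ hzQ' huz
  obtain ⟨q, hq, q', hq', c1, c2, c5, c6, sQ, sQ', hqq, hq'q', h3, nR, nV, pF, pG⟩ :=
    Cfsg.Agent.Lead.XS.pair_more Q (Q.map (MulAut.conj g).toMonoidHom) z (g * z * g⁻¹)
      F F' hgQ hzQ' huz H1 H2
  have hR' : R = Cfsg.Agent.Lead.XS.pairR Q (Q.map (MulAut.conj g).toMonoidHom) z
      (g * z * g⁻¹) := hR
  rw [← hR'] at sQ sQ' hqq hq'q' h3 nR pG
  rw [← hR] at P3 P4 P5 P6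
  have hVmem := Cfsg.Agent.Lead.XS.four_closure z (g * z * g⁻¹) hzz huu hzu
  have hzV : z ∈ Subgroup.closure ({z, g * z * g⁻¹} : Set G) :=
    (hVmem z).mpr (Or.inr (Or.inl rfl))
  have huV : g * z * g⁻¹ ∈ Subgroup.closure ({z, g * z * g⁻¹} : Set G) :=
    (hVmem _).mpr (Or.inr (Or.inr (Or.inl rfl)))
  have hRX : R ≤ Q ⊔ Q.map (MulAut.conj g).toMonoidHom := by
    rw [hR]
    exact sup_le (inf_le_left.trans le_sup_right) (inf_le_left.trans le_sup_left)
  have hRc : ∀ r ∈ R, r * z = z * r ∧ r * (g * z * g⁻¹) = (g * z * g⁻¹) * r :=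
    fun r hr => ⟨(P3 z hzV).2 r hr, (P3 _ huV).2 r hr⟩
  obtain ⟨S1, S2, S3, S4⟩ := Cfsg.Agent.Lead.XS.s3_quot (Q ⊔ Q.map (MulAut.conj g).toMonoidHom) R
    z (g * z * g⁻¹) q q'
    ((le_sup_left : Q ≤ Q ⊔ Q.map (MulAut.conj g).toMonoidHom) hq)
    ((le_sup_right : Q.map (MulAut.conj g).toMonoidHom ≤ Q ⊔ Q.map (MulAut.conj g).toMonoidHom) hq')
    hz1 hu1 huz hzz huu hzu c1 c2 c5 c6 hRc nR Q (Q.map (MulAut.conj g).toMonoidHom) rfl
    sQ sQ' hqq hq'q' h3 nV
  have hRcent : R ≤ Subgroup.centralizer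
      ((Subgroup.closure ({z, g * z * g⁻¹} : Set G) : Subgroup G) : Set G) := by
    intro r hr
    rw [Subgroup.mem_centralizer_iff]
    intro v hv
    exact ((P3 v hv).2 r hr).symm
  have hXcent : ∀ x ∈ Q ⊔ Q.map (MulAut.conj g).toMonoidHom,
      x ∈ Subgroup.centralizer
        ((Subgroup.closure ({z, g * z * g⁻¹} : Set G) : Subgroup G) : Set G) → x ∈ R := by
    intro x hxX hxc
    rw [Subgroup.mem_centralizer_iff] at hxc
    exact S1 x hxX (hxc z hzV).symm (hxc _ huV).symm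
  have hR6 : R ≤ Subgroup.centralizer ({z} : Set G) ⊓ Subgroup.centralizer
      ((Subgroup.closure ({z, g * z * g⁻¹} : Set G) : Subgroup G) : Set G) :=
    le_inf (fun r hr => Cfsg.Agent.Lead.XS.mem_cs.mpr ((P3 z hzV).2 r hr).symm) hRcent
  refine ⟨?_, ?_, S2, ?_, ?_, hR6, ?_, ?_⟩
  · exact le_antisymm (le_inf hRX hRcent)
      (fun x hx => hXcent x (Subgroup.mem_inf.mp hx).1 (Subgroup.mem_inf.mp hx).2)
  · apply le_antisymm ?_ S3
    intro r hr
    have hp : IsPGroup 2 ↥R := by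
      intro x
      refine ⟨2, Subtype.ext ?_⟩
      have h1 := (P6 x.1 x.2 x.1 x.2).2
      have h2 := P1 _ h1
      rw [Subgroup.coe_pow]
      have e : (2 : ℕ) ^ 2 = 2 + 2 := by norm_num
      rw [e, pow_add]
      exact h2
    obtain ⟨hN, _⟩ := S2
    have hp' : IsPGroup 2 ↥(R.subgroupOf (Q ⊔ Q.map (MulAut.conj g).toMonoidHom)) :=
      hp.comap_subtype
    have h4 := Cfsg.Agent.Helper26.le_pCore hN hp'
    exact ⟨⟨r, hRX hr⟩, h4 (Subgroup.mem_subgroupOf.mpr hr), rfl⟩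
  · apply le_antisymm
    · intro y hy
      have hyV : ∀ v ∈ Subgroup.closure ({z, g * z * g⁻¹} : Set G),
          y * v * y⁻¹ ∈ Subgroup.closure ({z, g * z * g⁻¹} : Set G) :=
        fun v hv => (Subgroup.mem_normalizer_iff.mp hy v).mp hv
      have ha1 : y * z * y⁻¹ = z ∨ y * z * y⁻¹ = g * z * g⁻¹ ∨
          y * z * y⁻¹ = g * z * g⁻¹ * z := by
        rcases (hVmem _).mp (hyV z hzV) with h | h
        · exfalso
          apply hz1
          calc z = y⁻¹ * (y * z * y⁻¹) * y := by group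
            _ = 1 := by rw [h]; group
        · exact h
      have hb1 : y * (g * z * g⁻¹) * y⁻¹ = z ∨ y * (g * z * g⁻¹) * y⁻¹ = g * z * g⁻¹ ∨
          y * (g * z * g⁻¹) * y⁻¹ = g * z * g⁻¹ * z := by
        rcases (hVmem _).mp (hyV _ huV) with h | h
        · exfalso
          apply hu1
          calc g * z * g⁻¹ = y⁻¹ * (y * (g * z * g⁻¹) * y⁻¹) * y := by group
            _ = 1 := by rw [h]; group
        · exact h
      have hne : y * (g * z * g⁻¹) * y⁻¹ ≠ y * z * y⁻¹ := by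
        intro h
        apply huz
        calc g * z * g⁻¹ = y⁻¹ * (y * (g * z * g⁻¹) * y⁻¹) * y := by group
          _ = y⁻¹ * (y * z * y⁻¹) * y := by rw [h]
          _ = z := by group
      obtain ⟨x, hx, hxz, hxu⟩ := S4 _ _ ha1 hb1 hne
      have cz : z * (x⁻¹ * y) = (x⁻¹ * y) * z := by
        calc z * (x⁻¹ * y) = x⁻¹ * (x * z * x⁻¹) * y := by group
          _ = x⁻¹ * (y * z * y⁻¹) * y := by rw [hxz]
          _ = (x⁻¹ * y) * z := by group
      have cu : (g * z * g⁻¹) * (x⁻¹ * y) = (x⁻¹ * y) * (g * z * g⁻¹) := by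
        calc (g * z * g⁻¹) * (x⁻¹ * y) = x⁻¹ * (x * (g * z * g⁻¹) * x⁻¹) * y := by group
          _ = x⁻¹ * (y * (g * z * g⁻¹) * y⁻¹) * y := by rw [hxu]
          _ = (x⁻¹ * y) * (g * z * g⁻¹) := by group
      have hc : x⁻¹ * y ∈ Subgroup.centralizer ({z} : Set G) ⊓ Subgroup.centralizer
          ((Subgroup.closure ({z, g * z * g⁻¹} : Set G) : Subgroup G) : Set G) := by
        refine Subgroup.mem_inf.mpr ⟨Cfsg.Agent.Lead.XS.mem_cs.mpr cz, ?_⟩
        rw [Subgroup.mem_centralizer_iff]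
        intro v hv
        rcases (hVmem v).mp hv with h | h | h | h
        · rw [h, one_mul, mul_one]
        · rw [h]; exact cz
        · rw [h]; exact cu
        · rw [h]
          calc g * z * g⁻¹ * z * (x⁻¹ * y) = g * z * g⁻¹ * (z * (x⁻¹ * y)) := by group
            _ = g * z * g⁻¹ * ((x⁻¹ * y) * z) := by rw [cz]
            _ = (g * z * g⁻¹ * (x⁻¹ * y)) * z := by group
            _ = ((x⁻¹ * y) * (g * z * g⁻¹)) * z := by rw [cu]
            _ = (x⁻¹ * y) * (g * z * g⁻¹ * z) := by group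
      have e : y = x * (x⁻¹ * y) := by group
      rw [e]
      exact Subgroup.mul_mem_sup hx hc
    · apply sup_le
      · intro x hx
        refine Cfsg.Agent.Helper1.mem_normalizer_of_conj_mem _ x (fun v hv => ?_)
        have h4 := nV x⁻¹ (Subgroup.inv_mem _ hx) v hv
        rw [inv_inv] at h4
        exact h4
      · intro c hc
        obtain ⟨_, hcV⟩ := Subgroup.mem_inf.mp hc
        rw [Subgroup.mem_centralizer_iff] at hcV
        refine Cfsg.Agent.Helper1.mem_normalizer_of_conj_mem _ c (fun v hv => ?_)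
        have e : c⁻¹ * v * c = v := by
          calc c⁻¹ * v * c = c⁻¹ * (v * c) := by group
            _ = c⁻¹ * (c * v) := by rw [hcV v hv]
            _ = v := by group
        rw [e]
        exact hv
  · intro y hy x hx
    exact pF y (fun v hv => (Subgroup.mem_normalizer_iff.mp hy v).mp hv) x hx
  · intro x hx c hc
    obtain ⟨hcz, hcV⟩ := Subgroup.mem_inf.mp hc
    rw [Cfsg.Agent.Lead.XS.mem_cs] at hcz
    rw [Subgroup.mem_centralizer_iff] at hcV
    exact pG x hx c hcz.symm (hcV _ huV).symm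
  · exact le_antisymm
      (fun x hx => hXcent x (Subgroup.mem_inf.mp hx).1
        (Subgroup.mem_inf.mp (Subgroup.mem_inf.mp hx).2).2)
      (le_inf hRX hR6)

end Cfsg.Agent.S5430
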