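import Cfsg.Statements.S5431
import Cfsg.Agent.Lead.XS7

set_option autoImplicit false
open Cfsg

namespace Cfsg.Agent.S5431

/-- Let Q be a large extraspecial 2-subgroup of the finite group G (extraspecial; centralizer equal to its centre; normal in the centralizer of its centre; normalizing no non-trivial subgroup of odd order) with centre generated by z, an involution, of width w ≥ 2 (order 2^(2w+1)); let g be an element outside the centralizer H of z with g z g⁻¹ in Q; write V for the subgroup generated by z and g z g⁻¹, X for the subgroup generated by Q and g Q g⁻¹, R for the subgroup generated by the centralizer of z in g Q g⁻¹ and the centralizer of g z g⁻¹ in Q, and E for the intersection of Q and g Q g⁻¹. Then V is the centre of R, E lies in the second centre of R, R is nilpotent of class at most 3, E and R/E are elementary abelian, R/E is the direct product of the images of the centralizer of g z g⁻¹ in Q and of the centralizer of z in g Q g⁻¹ (R is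 their product and they meet in E), and the commutator subgroup of X and E lies in V. -/
theorem result {G : Type*} [Group G] [Finite G] (Q : Subgroup G) (hQ : Cfsg.IsLargeExtraspecial Q) (z : G) (hz : ((Subgroup.center ↥Q).map Q.subtype) = Subgroup.zpowers z) (hz2 : orderOf z = 2) (w : ℕ) (hw : 2 ≤ w) (hcard : Nat.card ↥Q = 2 ^ (2 * w + 1)) (g : G) (hgH : g ∉ Subgroup.centralizer ({z} : Set G)) (hgQ : g * z * g⁻¹ ∈ Q) (V X R E : Subgroup G) (hV : V = Subgroup.closure ({z, g * z * g⁻¹} : Set G)) (hX : X = Q ⊔ (Q).map (MulAut.conj g).toMonoidHom) (hR : R = ((Q).map (MulAut.conj g).toMonoidHom ⊓ Subgroup.centralizer ({z} : Set G)) ⊔ (Q ⊓ Subgroup.centralizer ({g * z * g⁻¹} : Set G))) (hE : E = Q ⊓ (Q).map (MulAut.conj g).toMonoidHom) : (Subgroup.center ↥R).map R.subtype = V ∧ E ≤ (Subgroup.upperCentralSeries ↥R 2).map R.subtype ∧ Subgroup.upperCentralSeries ↥R 3 = ⊤ ∧ Cfsg.IsElementaryAbelian 2 E ∧ (∀ x ∈ R, ∀ y ∈ R, x * y * x⁻¹ * y⁻¹ ∈ E ∧ x ^ 2 ∈ E) ∧ ((Q).map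 (MulAut.conj g).toMonoidHom ⊓ Subgroup.centralizer ({z} : Set G)) ⊓ (Q ⊓ Subgroup.centralizer ({g * z * g⁻¹} : Set G)) = E ∧ ⁅X, E⁆ ≤ V := by
  classical
  subst hV hX hE
  obtain ⟨hE', hL2, hL3, _⟩ := hQ
  have hz1 : z ≠ 1 := by
    intro h
    rw [h, orderOf_one] at hz2
    omega
  have hzZ : z ∈ (Subgroup.center ↥Q).map Q.subtype := by
    rw [hz]; exact Subgroup.mem_zpowers z
  have F := Cfsg.Agent.Lead.XS.facts2_of Q hE' hL2 hL3 z hzZ hz1
  have F' := Cfsg.Agent.Lead.XS.facts2_map Q z F g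
  have hzg : g⁻¹ * z * g ∈ Q := by
    obtain ⟨⟨hzQ, hz2', hz1', hzc, cen, comm, hC⟩, hnorm, sq⟩ := F
    exact Cfsg.Agent.Lead.XS.main_gen Q hE' z hzQ hz1 hz2' hzc cen hC hnorm g hgQ
  have hzQ' : z ∈ Q.map (MulAut.conj g).toMonoidHom :=
    (Cfsg.Agent.Lead.XS.mem_map_conj Q g z).mpr hzg
  have huz : g * z * g⁻¹ ≠ z := by
    intro h
    apply hgH
    rw [Cfsg.Agent.Lead.XS.mem_cs]
    calc z * g = (g * z * g⁻¹) * g := by rw [h]
      _ = g * z := by group
  obtain ⟨P1, P2, P3, P4, P5, P6, P7, P8⟩ :=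
    Cfsg.Agent.Lead.XS.pair_struct Q (Q.map (MulAut.conj g).toMonoidHom) z (g * z * g⁻¹)
      F F' hgQ hzQ' huz
  rw [← hR] at P3 P4 P5 P6
  have Z2 : ∀ e : ↥R, (e : G) ∈ Q ⊓ (Q).map (MulAut.conj g).toMonoidHom →
      e ∈ Subgroup.upperCentralSeries ↥R 2 := by
    intro e he
    rw [show (2 : ℕ) = 1 + 1 from rfl, Subgroup.mem_upperCentralSeries_succ_iff]
    intro y
    rw [Subgroup.upperCentralSeries_one, Subgroup.mem_center_iff]
    intro r
    apply Subtype.ext
    have h1 := P5 (e : G) he (y : G) y.2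
    have h2 := (P3 _ h1).2 (r : G) r.2
    exact h2
  refine ⟨?_, ?_, ?_, ?_, ?_, ?_, ?_⟩
  · ext x
    constructor
    · rintro ⟨c, hc, rfl⟩
      apply P4
      intro r hr
      have h := Subgroup.mem_center_iff.mp hc ⟨r, hr⟩
      exact (congrArg Subtype.val h).symm
    · intro hx
      obtain ⟨hxR, hxc⟩ := P3 x hx
      refine ⟨⟨x, hxR⟩, ?_, rfl⟩
      rw [SetLike.mem_coe, Subgroup.mem_center_iff]
      intro r
      exact Subtype.ext (hxc r.1 r.2)
  · intro e he
    have he' : e ∈ ((Q).map (MulAut.conj g).toMonoidHom ⊓ Subgroup.centralizer ({z} : Set G)) ⊓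
        (Q ⊓ Subgroup.centralizer ({g * z * g⁻¹} : Set G)) := by
      rw [P8]; exact he
    have heR : e ∈ R := by
      rw [hR]
      exact (le_sup_left : ((Q).map (MulAut.conj g).toMonoidHom ⊓
        Subgroup.centralizer ({z} : Set G)) ≤ _) (Subgroup.mem_inf.mp he').1
    exact ⟨⟨e, heR⟩, Z2 ⟨e, heR⟩ he, rfl⟩
  · rw [eq_top_iff]
    intro x _
    rw [show (3 : ℕ) = 2 + 1 from rfl, Subgroup.mem_upperCentralSeries_succ_iff]
    intro y
    exact Z2 _ (P6 x.1 x.2 y.1 y.2).1
  · exact ⟨⟨⟨fun a b => Subtype.ext (P2 a.1 a.2 b.1 b.2)⟩⟩,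
      fun a ha => by rw [pow_two]; exact P1 a ha⟩
  · exact P6
  · exact P8
  · rw [Subgroup.commutator_le]
    intro x hx e he
    exact P7 x hx e he

end Cfsg.Agent.S5431
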