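import Cfsg.Statements.S5433
import Cfsg.Agent.Helper28.Basic

set_option autoImplicit false
open Cfsg

namespace Cfsg.Agent.S5433

open Cfsg.Agent.Helper28

theorem result {G : Type*} [Group G] [Finite G] (Q : Subgroup G) (hQ : Cfsg.IsLargeExtraspecial Q) (L : Subgroup G) [L.Normal] (hQL : Q ≤ L) : L ⊔ Subgroup.normalizer (Q : Set G) = ⊤ := by
  have : Fact (Nat.Prime 2) := ⟨Nat.prime_two⟩
  obtain ⟨hE, hCQ, hCZ, -⟩ := hQ
  have hQ2 : IsPGroup 2 Q := hE.1.1
  have hZcard : Nat.card ((Subgroup.center Q).map Q.subtype) = 2 := by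
    rw [card_center_map]; exact hE.2
  obtain ⟨T, hT⟩ := (hQ2.comap_subtype (K := L)).exists_le_sylow
  set T' : Subgroup G := (T : Subgroup L).map L.subtype with hT'
  have hQT' : Q ≤ T' := by
    intro q hq
    exact ⟨⟨q, hQL hq⟩, hT (show (⟨q, hQL hq⟩ : L) ∈ Q.comap L.subtype from hq), rfl⟩
  have hfr : Subgroup.normalizer (T' : Set G) ⊔ L = ⊤ := Sylow.normalizer_sup_eq_top T
  have hT'2 : IsPGroup 2 T' := T.isPGroup'.map L.subtype
  obtain ⟨z, hzZ, hz1⟩ : ∃ z ∈ (Subgroup.center Q).map Q.subtype, z ≠ 1 := by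
    by_contra h
    push Not at h
    have hbot : (Subgroup.center Q).map Q.subtype = ⊥ := (Subgroup.eq_bot_iff_forall _).mpr h
    rw [hbot] at hZcard
    simp at hZcard
  have hzT' : z ∈ T' := hQT' ((mem_center_map_iff Q z).mp hzZ).1
  have : Nontrivial T' := ⟨⟨⟨z, hzT'⟩, 1, fun h => hz1 (congrArg Subtype.val h)⟩⟩
  have hcn : Nontrivial (Subgroup.center T') := hT'2.center_nontrivial
  obtain ⟨⟨t, htc⟩, ht1⟩ := exists_ne (1 : Subgroup.center T')
  have htc' : ∀ s ∈ T', s * (t : G) = (t : G) * s := by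
    intro s hs
    have := Subgroup.mem_center_iff.mp htc ⟨s, hs⟩
    exact congrArg Subtype.val this
  have ht1' : (t : G) ≠ 1 := by
    intro h
    apply ht1
    apply Subtype.ext
    apply Subtype.ext
    exact h
  -- central elements of T' lie in Z
  have central_in_Z : ∀ u ∈ T', (∀ s ∈ T', s * u = u * s) →
      u ∈ (Subgroup.center Q).map Q.subtype := by
    intro u _ hu
    rw [← hCQ, Subgroup.mem_centralizer_iff]
    intro q hq
    exact hu q (hQT' hq)
  have htZ : (t : G) ∈ (Subgroup.center Q).map Q.subtype := central_in_Z _ t.2 htc'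
  have hNT : Subgroup.normalizer (T' : Set G) ≤ Subgroup.normalizer (Q : Set G) := by
    intro n hn
    apply hCZ
    have hn1 : n * (t : G) * n⁻¹ ∈ T' := (Subgroup.mem_normalizer_iff.mp hn _).mp t.2
    have hn2 : ∀ s ∈ T', s * (n * (t : G) * n⁻¹) = (n * (t : G) * n⁻¹) * s := by
      intro s hs
      have hs' : n⁻¹ * s * n ∈ T' := (Subgroup.mem_normalizer_iff''.mp hn s).mp hs
      have := htc' _ hs'
      calc s * (n * (t : G) * n⁻¹) = n * ((n⁻¹ * s * n) * (t : G)) * n⁻¹ := by group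
        _ = n * ((t : G) * (n⁻¹ * s * n)) * n⁻¹ := by rw [this]
        _ = (n * (t : G) * n⁻¹) * s := by group
    have hn3 : n * (t : G) * n⁻¹ ∈ (Subgroup.center Q).map Q.subtype := central_in_Z _ hn1 hn2
    have hn4 : n * (t : G) * n⁻¹ ≠ 1 := by
      intro h
      apply ht1'
      calc (t : G) = n⁻¹ * (n * (t : G) * n⁻¹) * n := by group
        _ = 1 := by rw [h]; group
    have hn5 : n * (t : G) * n⁻¹ = (t : G) := eq_of_card_two hZcard hn3 htZ hn4 ht1'
    rw [Subgroup.mem_centralizer_iff]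
    intro u hu
    by_cases hu1 : u = 1
    · rw [hu1, one_mul, mul_one]
    · have hut : u = (t : G) := eq_of_card_two hZcard hu htZ hu1 ht1'
      rw [hut]
      calc (t : G) * n = (n * (t : G) * n⁻¹) * n := by rw [hn5]
        _ = n * (t : G) := by group
  rw [eq_top_iff, ← hfr, sup_comm]
  exact sup_le_sup_left hNT L

end Cfsg.Agent.S5433
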