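import Cfsg.Statements.S5435
import Mathlib
import Cfsg.Agent.Helper18.ThompsonTr
import Cfsg.Agent.Helper9.Recog

set_option autoImplicit false
open Cfsg

namespace Cfsg.Agent.S5435

/-- Let L be a finite non-abelian simple group with an involution z whose centralizer R is a Sylow 2-subgroup of L whose Frattini subgroup is the subgroup generated by z. Then R is dihedral of order 8. -/
theorem result {L : Type*} [Group L] [Finite L] [IsSimpleGroup L] (hL : ¬ IsMulCommutative L) (z : L) (hz : orderOf z = 2) (R : Sylow 2 L) (hR : (R : Subgroup L) = Subgroup.centralizer ({z} : Set L)) (hΦ : (frattini ↥(R : Subgroup L)).map (R : Subgroup L).subtype = Subgroup.zpowers z) : Nonempty (↥(R : Subgroup L) ≃* DihedralGroup 4) := by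
  classical
  have : Fact (Nat.Prime 2) := ⟨Nat.prime_two⟩
  have hz2 : z * z = 1 := by rw [← pow_two, ← hz]; exact pow_orderOf_eq_one z
  have hz1 : z ≠ 1 := by intro h; rw [h, orderOf_one] at hz; omega
  have hmem : ∀ x : L, x ∈ (R : Subgroup L) ↔ x * z = z * x := by
    intro x
    rw [hR, Subgroup.mem_centralizer_iff]
    constructor
    · intro h; exact (h z rfl).symm
    · intro h y hy; rw [Set.mem_singleton_iff.mp hy]; exact h.symm
  have hzR : z ∈ (R : Subgroup L) := (hmem z).mpr rfl
  have hzp : ∀ x : L, x ∈ Subgroup.zpowers z → x = 1 ∨ x = z := by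
    intro x hx
    obtain ⟨n, hn⟩ := hx
    have hn' : z ^ n = x := hn
    rw [← hn', ← zpow_mod_orderOf, hz, Nat.cast_ofNat]
    have h1 : 0 ≤ n % 2 := Int.emod_nonneg _ (by norm_num)
    have h2 : n % 2 < 2 := Int.emod_lt_of_pos _ (by norm_num)
    obtain h | h : n % 2 = 0 ∨ n % 2 = 1 := by omega
    · left; rw [h, zpow_zero]
    · right; rw [h, zpow_one]
  have hR2 : IsPGroup 2 (R : Subgroup L) := R.isPGroup'
  -- Frattini facts
  have hFmem : ∀ x : (R : Subgroup L), x ∈ frattini (R : Subgroup L) →
      (x : L) = 1 ∨ (x : L) = z := by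
    intro x hx
    apply hzp
    rw [← hΦ]
    exact Subgroup.mem_map_of_mem _ hx
  have hzF : (⟨z, hzR⟩ : (R : Subgroup L)) ∈ frattini (R : Subgroup L) := by
    have h1 : z ∈ (frattini ↥(R : Subgroup L)).map (R : Subgroup L).subtype := by
      rw [hΦ]; exact Subgroup.mem_zpowers z
    obtain ⟨w, hw, hw2⟩ := h1
    have h2 : w = ⟨z, hzR⟩ := Subtype.ext hw2
    rw [← h2]; exact hw
  have hFall : ∀ x : (R : Subgroup L),
      (∀ M : Subgroup (R : Subgroup L), M.index = 2 → x ∈ M) → (x : L) = 1 ∨ (x : L) = z := by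
    intro x hx
    apply hFmem
    unfold frattini Order.radical
    simp only [Subgroup.mem_iInf]
    intro M hM
    exact hx M (Cfsg.Agent.Helper9.index_two_of_isCoatom hR2 M hM)
  have hsq : ∀ x : L, x ∈ (R : Subgroup L) → x * x = 1 ∨ x * x = z := by
    intro x hx
    have h1 := hFall (⟨x, hx⟩ * ⟨x, hx⟩) (fun M hM => by
      have h2 := Subgroup.sq_mem_of_index_two hM (⟨x, hx⟩ : (R : Subgroup L))
      rwa [pow_two] at h2)
    exact h1
  have hzc : ∀ x : L, x ∈ (R : Subgroup L) → x * z * x⁻¹ = z := by
    intro x hx; rw [(hmem x).mp hx]; group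
  have hcomm : ∀ x y : L, x ∈ (R : Subgroup L) → y ∈ (R : Subgroup L) →
      x * y * x⁻¹ * y⁻¹ = 1 ∨ x * y * x⁻¹ * y⁻¹ = z := by
    intro x y hx hy
    have e : x * y * x⁻¹ * y⁻¹
        = ((x * y) * (x * y)) * (y⁻¹ * (x⁻¹ * x⁻¹) * y) * (y⁻¹ * y⁻¹) := by group
    have hZ : ∀ w : L, w ∈ (R : Subgroup L) → w * w ∈ Subgroup.zpowers z := by
      intro w hw
      rcases hsq w hw with h | h
      · rw [h]; exact Subgroup.one_mem _
      · rw [h]; exact Subgroup.mem_zpowers z
    apply hzp
    rw [e]
    refine Subgroup.mul_mem _ (Subgroup.mul_mem _ (hZ _ (mul_mem hx hy)) ?_) (hZ _ (inv_mem hy))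
    rcases hsq x⁻¹ (inv_mem hx) with h | h
    · rw [h]
      have h1 : y⁻¹ * 1 * y = 1 := by group
      rw [h1]; exact Subgroup.one_mem _
    · rw [h]
      have h1 : y⁻¹ * z * y = z := by
        have h2 := hzc y⁻¹ (inv_mem hy)
        rw [inv_inv] at h2
        exact h2
      rw [h1]; exact Subgroup.mem_zpowers z
  -- the normalizer of R is R
  have hN : ∀ k : L, k ∈ Subgroup.normalizer ((R : Subgroup L) : Set L) → k ∈ (R : Subgroup L) := by
    intro k hk
    rw [hmem]
    have hchar := (frattini_characteristic (G := (R : Subgroup L))).fixed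
      (Subgroup.normalizerMonoidHom (R : Subgroup L) ⟨k, hk⟩)
    have h1 : (Subgroup.normalizerMonoidHom (R : Subgroup L) ⟨k, hk⟩) ⟨z, hzR⟩
        ∈ frattini (R : Subgroup L) := by
      have h0 : (⟨z, hzR⟩ : (R : Subgroup L)) ∈ (frattini (R : Subgroup L)).comap
          (Subgroup.normalizerMonoidHom (R : Subgroup L) ⟨k, hk⟩).toMonoidHom := by
        rw [hchar]; exact hzF
      exact h0
    have h2 := hFmem _ h1
    have h3 : (((Subgroup.normalizerMonoidHom (R : Subgroup L) ⟨k, hk⟩) ⟨z, hzR⟩ :
        (R : Subgroup L)) : L) = k * z * k⁻¹ := rfl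
    rw [h3] at h2
    rcases h2 with h | h
    · exfalso; apply hz1
      have h4 : z = k⁻¹ * (k * z * k⁻¹) * k := by group
      rw [h4, h]; group
    · calc k * z = (k * z * k⁻¹) * k := by group
        _ = z * k := by rw [h]
  -- T1: central involutions of R
  have hT1 : ∀ y : L, y ∈ (R : Subgroup L) → y * y = 1 →
      (∀ r ∈ (R : Subgroup L), r * y = y * r) → y = 1 ∨ y = z := by
    intro y hyR hy2 hyc
    apply hFall ⟨y, hyR⟩
    intro M hM
    by_contra hyM
    obtain ⟨ϕ, hϕ⟩ := Cfsg.Agent.Helper18.exists_signHom M hM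
    have h1 := Cfsg.Agent.Helper18.transfer_central_invol (R : Subgroup L) hR2 hN y hyR hy2 hyc ϕ
      ((hϕ _).2 hyM)
    have h2 := Cfsg.Agent.Helper18.transfer_eq_one_of_simple hL (R : Subgroup L) ϕ y
    rw [h2] at h1
    exact absurd h1 (by decide)
  -- T2: z is not isolated
  have hT2 : ∃ g : L, g⁻¹ * z * g ∈ (R : Subgroup L) ∧ g⁻¹ * z * g ≠ z := by
    by_contra hcon
    have hiso : ∀ g : L, g⁻¹ * z * g ∈ (R : Subgroup L) → g⁻¹ * z * g = z := by
      intro g hg; by_contra h; exact hcon ⟨g, hg, h⟩
    have hexp : ∀ u : L, u ∈ (R : Subgroup L) → u * u = 1 := by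
      intro u hu
      rcases hsq u hu with h | h
      · exact h
      · exfalso
        have hall : ∀ M : Subgroup (R : Subgroup L), M.index = 2 →
            (⟨u, hu⟩ : (R : Subgroup L)) ∈ M := by
          intro M hM
          by_contra huM
          obtain ⟨ϕ, hϕ⟩ := Cfsg.Agent.Helper18.exists_signHom M hM
          have h1 := Cfsg.Agent.Helper18.transfer_isolated (R : Subgroup L) z
            (fun x hx => (hmem x).mpr hx) hiso u hu h hz2 ϕ
          rw [Cfsg.Agent.Helper18.transfer_eq_one_of_simple hL, (hϕ _).2 huM] at h1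
          exact absurd h1 (by decide)
        rcases hFall _ hall with h' | h'
        · have h'' : u = 1 := h'
          rw [h'', one_mul] at h; exact hz1 h.symm
        · have h'' : u = z := h'
          rw [h'', hz2] at h; exact hz1 h.symm
    have hab : ∀ a b : L, a ∈ (R : Subgroup L) → b ∈ (R : Subgroup L) → a * b = b * a := by
      intro a b ha hb
      have ha' : a⁻¹ = a := inv_eq_of_mul_eq_one_left (hexp a ha)
      have hb' : b⁻¹ = b := inv_eq_of_mul_eq_one_left (hexp b hb)
      have hab' : (a * b)⁻¹ = a * b := inv_eq_of_mul_eq_one_left (hexp (a * b) (mul_mem ha hb))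
      calc a * b = (a * b)⁻¹ := hab'.symm
        _ = b * a := by rw [mul_inv_rev, ha', hb']
    have hRz : ∀ y : L, y ∈ (R : Subgroup L) → y = 1 ∨ y = z :=
      fun y hy => hT1 y hy (hexp y hy) (fun r hr => hab r y hr hy)
    have hco : IsCoatom (⊥ : Subgroup (R : Subgroup L)) := by
      constructor
      · intro h
        have h1 : (⟨z, hzR⟩ : (R : Subgroup L)) ∈ (⊥ : Subgroup (R : Subgroup L)) := by
          rw [h]; trivial
        rw [Subgroup.mem_bot] at h1
        exact hz1 (congrArg Subtype.val h1)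
      · intro K hK
        obtain ⟨x, hxK, hx⟩ := SetLike.exists_of_lt hK
        rw [Subgroup.mem_bot] at hx
        have hxz : (x : L) = z := by
          rcases hRz x x.2 with h | h
          · exact absurd (Subtype.ext h) hx
          · exact h
        rw [eq_top_iff]
        intro w _
        rcases hRz w w.2 with h | h
        · have h1 : w = 1 := Subtype.ext h
          rw [h1]; exact K.one_mem
        · have h1 : w = x := Subtype.ext (h.trans hxz.symm)
          rw [h1]; exact hxK
    have h1 := frattini_le_coatom hco hzF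
    rw [Subgroup.mem_bot] at h1
    exact hz1 (congrArg Subtype.val h1)
  -- Step 3
  obtain ⟨g, hgR, hgz⟩ := hT2
  obtain ⟨t, ht⟩ : ∃ t : L, t = g⁻¹ * z * g := ⟨_, rfl⟩
  rw [← ht] at hgR hgz
  have ht2 : t * t = 1 := by
    rw [ht]
    calc g⁻¹ * z * g * (g⁻¹ * z * g) = g⁻¹ * (z * z) * g := by group
      _ = 1 := by rw [hz2]; group
  have ht1 : t ≠ 1 := by
    intro h; apply hz1
    have h1 : z = g * t * g⁻¹ := by rw [ht]; group
    rw [h1, h]; group
  have htinv : t⁻¹ = t := inv_eq_of_mul_eq_one_left ht2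
  have hsqt : ∀ d : L, d * t = t * d → d * d = 1 ∨ d * d = t := by
    intro d hd
    have h1 : g * d * g⁻¹ ∈ (R : Subgroup L) := by
      rw [hmem]
      have h2 : z = g * t * g⁻¹ := by rw [ht]; group
      rw [h2]
      calc g * d * g⁻¹ * (g * t * g⁻¹) = g * (d * t) * g⁻¹ := by group
        _ = g * (t * d) * g⁻¹ := by rw [hd]
        _ = g * t * g⁻¹ * (g * d * g⁻¹) := by group
    rcases hsq _ h1 with h | h
    · left
      calc d * d = g⁻¹ * (g * d * g⁻¹ * (g * d * g⁻¹)) * g := by group
        _ = 1 := by rw [h]; group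
    · right
      calc d * d = g⁻¹ * (g * d * g⁻¹ * (g * d * g⁻¹)) * g := by group
        _ = t := by rw [h, ht]
  have hD2 : ∀ d : L, d ∈ (R : Subgroup L) → d * t = t * d → d * d = 1 := by
    intro d hd hdt
    rcases hsq d hd with h | h
    · exact h
    · rcases hsqt d hdt with h' | h'
      · exact h'
      · exfalso; exact hgz (h'.symm.trans h)
  have hDab : ∀ d e : L, d ∈ (R : Subgroup L) → d * t = t * d → e ∈ (R : Subgroup L) →
      e * t = t * e → d * e = e * d := by
    intro d e hd hdt he het
    have hd' : d⁻¹ = d := inv_eq_of_mul_eq_one_left (hD2 d hd hdt)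
    have he' : e⁻¹ = e := inv_eq_of_mul_eq_one_left (hD2 e he het)
    have hde' : (d * e)⁻¹ = d * e := inv_eq_of_mul_eq_one_left
      (hD2 (d * e) (mul_mem hd he) (by rw [mul_assoc, het, ← mul_assoc, hdt, mul_assoc]))
    calc d * e = (d * e)⁻¹ := hde'.symm
      _ = e * d := by rw [mul_inv_rev, hd', he']
  have hnc : ∃ r₀ : L, r₀ ∈ (R : Subgroup L) ∧ r₀ * t ≠ t * r₀ := by
    by_contra hcon
    have h1 : ∀ r ∈ (R : Subgroup L), r * t = t * r := by
      intro r hr; by_contra h; exact hcon ⟨r, hr, h⟩
    rcases hT1 t hgR ht2 h1 with h | h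
    · exact ht1 h
    · exact hgz h
  obtain ⟨r₀, hr₀, hr₀t⟩ := hnc
  have hr₀c : r₀ * t * r₀⁻¹ = z * t := by
    rcases hcomm r₀ t hr₀ hgR with h | h
    · exfalso; apply hr₀t
      calc r₀ * t = (r₀ * t * r₀⁻¹ * t⁻¹) * t * r₀ := by group
        _ = t * r₀ := by rw [h, one_mul]
    · calc r₀ * t * r₀⁻¹ = (r₀ * t * r₀⁻¹ * t⁻¹) * t := by group
        _ = z * t := by rw [h]
  obtain ⟨c, hcR, hc2, hct⟩ : ∃ c : L, c ∈ (R : Subgroup L) ∧ c * c = z ∧
      c * t * c⁻¹ = z * t := by
    rcases hsq r₀ hr₀ with h | h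
    · refine ⟨r₀ * t, mul_mem hr₀ hgR, ?_, ?_⟩
      · calc r₀ * t * (r₀ * t) = (r₀ * t * r₀⁻¹) * (r₀ * r₀) * t := by group
          _ = z := by rw [hr₀c, h, mul_one, mul_assoc, ht2, mul_one]
      · calc r₀ * t * t * (r₀ * t)⁻¹ = r₀ * t * r₀⁻¹ := by group
          _ = z * t := hr₀c
    · exact ⟨r₀, hr₀, h, hr₀c⟩
  have hzt : z * t = t * z := ((hmem t).mp hgR).symm
  have hzcc : z * c = c * z := ((hmem c).mp hcR).symm
  have hc4 : c ^ 4 = 1 := by
    have h1 : c ^ 4 = (c * c) * (c * c) := by
      rw [show (4 : ℕ) = 2 + 2 from rfl, pow_add, pow_two]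
    rw [h1, hc2, hz2]
  have hcord : orderOf c = 4 := by
    have h1 := orderOf_eq_prime_pow (x := c) (p := 2) (n := 1)
      (by rw [pow_one, pow_two, hc2]; exact hz1) (by norm_num; exact hc4)
    simpa using h1
  have hcinv : c⁻¹ = z * c := by
    apply inv_eq_of_mul_eq_one_right
    rw [← mul_assoc, ← hzcc, mul_assoc, hc2, hz2]
  have hct' : c * t = z * t * c := by
    calc c * t = (c * t * c⁻¹) * c := by group
      _ = z * t * c := by rw [hct]
  have htc : t * c * t⁻¹ = c⁻¹ := by
    rw [hcinv, htinv]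
    calc t * c * t = t * (c * t) := by group
      _ = t * (z * t * c) := by rw [hct']
      _ = (t * z) * t * c := by group
      _ = (z * t) * t * c := by rw [hzt]
      _ = z * (t * t) * c := by group
      _ = z * c := by rw [ht2, mul_one]
  have htnot : t ∉ Subgroup.zpowers c := by
    intro h
    obtain ⟨n, hn⟩ := h
    have hn' : c ^ n = t := hn
    have h1 : c * t = t * c := by
      rw [← hn']
      exact (Commute.zpow_right (Commute.refl c) n).eq
    have h2 : c * t * c⁻¹ = t := by rw [h1]; group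
    rw [hct] at h2
    apply hz1
    calc z = (z * t) * t⁻¹ := by group
      _ = 1 := by rw [h2]; group
  -- structure of R
  have hA : ∀ x : L, x ∈ (R : Subgroup L) → x * t = t * x ∨ (x * c) * t = t * (x * c) := by
    intro x hx
    rcases hcomm x t hx hgR with h | h
    · left
      calc x * t = (x * t * x⁻¹ * t⁻¹) * t * x := by group
        _ = t * x := by rw [h, one_mul]
    · right
      have h2 : x * t = z * t * x := by
        calc x * t = (x * t * x⁻¹ * t⁻¹) * t * x := by group
          _ = z * t * x := by rw [h]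
      have hxz : x * z = z * x := (hmem x).mp hx
      calc x * c * t = x * (c * t) := by group
        _ = x * (z * t * c) := by rw [hct']
        _ = (x * z) * t * c := by group
        _ = z * (x * t) * c := by rw [hxz]; group
        _ = z * (z * t * x) * c := by rw [h2]
        _ = (z * z) * t * (x * c) := by group
        _ = t * (x * c) := by rw [hz2, one_mul]
  have hB : ∀ d : L, d ∈ (R : Subgroup L) → d * t = t * d → d * c = c * d → d = 1 ∨ d = z := by
    intro d hd hdt hdc
    apply hT1 d hd (hD2 d hd hdt)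
    intro r hr
    rcases hA r hr with h | h
    · exact hDab r d hr h hd hdt
    · have h3 := hDab (r * c) d (mul_mem hr hcR) h hd hdt
      calc r * d = r * (c * d * c⁻¹) := by rw [← hdc]; group
        _ = (r * c * d) * c⁻¹ := by group
        _ = (d * (r * c)) * c⁻¹ := by rw [h3]
        _ = d * r := by group
  have hDmem : ∀ d : L, d ∈ (R : Subgroup L) → d * t = t * d →
      d = 1 ∨ d = z ∨ d = t ∨ d = z * t := by
    intro d hd hdt
    rcases hcomm d c hd hcR with h | h
    · have hdc : d * c = c * d := by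
        calc d * c = (d * c * d⁻¹ * c⁻¹) * c * d := by group
          _ = c * d := by rw [h, one_mul]
      rcases hB d hd hdt hdc with h' | h'
      · left; exact h'
      · right; left; exact h'
    · have hdc : d * c = z * c * d := by
        calc d * c = (d * c * d⁻¹ * c⁻¹) * c * d := by group
          _ = z * c * d := by rw [h]
      have hd't : (d * t) * t = t * (d * t) := by rw [← mul_assoc, hdt]
      have hd'c : (d * t) * c = c * (d * t) := by
        have h2 : t * c = z * c * t := by
          calc t * c = (t * c * t⁻¹) * t := by group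
            _ = z * c * t := by rw [htc, hcinv]
        calc d * t * c = d * (t * c) := by group
          _ = d * (z * c * t) := by rw [h2]
          _ = (d * z) * c * t := by group
          _ = z * (d * c) * t := by rw [(hmem d).mp hd]; group
          _ = z * (z * c * d) * t := by rw [hdc]
          _ = (z * z) * c * (d * t) := by group
          _ = c * (d * t) := by rw [hz2, one_mul]
      rcases hB (d * t) (mul_mem hd hgR) hd't hd'c with h' | h'
      · right; right; left
        calc d = (d * t) * t⁻¹ := by group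
          _ = t := by rw [h', one_mul, htinv]
      · right; right; right
        calc d = (d * t) * t⁻¹ := by group
          _ = z * t := by rw [h', htinv]
  have hcard_le : Nat.card (R : Subgroup L) ≤ 8 := by
    obtain ⟨V, hV⟩ : ∃ V : Finset L, V = {1, z, t, z * t} := ⟨_, rfl⟩
    have hsub : ((R : Subgroup L) : Set L) ⊆ ↑(V ∪ V.image (fun d => d * c⁻¹)) := by
      intro x hx
      rw [Finset.coe_union, Set.mem_union]
      rcases hA x hx with h | h
      · left
        rw [Finset.mem_coe, hV]
        simp only [Finset.mem_insert, Finset.mem_singleton]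
        exact hDmem x hx h
      · right
        rw [Finset.mem_coe, Finset.mem_image]
        refine ⟨x * c, ?_, by group⟩
        rw [hV]
        simp only [Finset.mem_insert, Finset.mem_singleton]
        exact hDmem (x * c) (mul_mem hx hcR) h
    have h1 : Nat.card (R : Subgroup L) = Set.ncard ((R : Subgroup L) : Set L) := rfl
    rw [h1]
    calc Set.ncard ((R : Subgroup L) : Set L)
        ≤ Set.ncard (↑(V ∪ V.image (fun d => d * c⁻¹)) : Set L) :=
          Set.ncard_le_ncard hsub (Finset.finite_toSet _)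
      _ = (V ∪ V.image (fun d => d * c⁻¹)).card := Set.ncard_coe_finset _
      _ ≤ V.card + (V.image (fun d => d * c⁻¹)).card := Finset.card_union_le _ _
      _ ≤ 4 + 4 := Nat.add_le_add (by rw [hV]; exact Finset.card_le_four)
          ((Finset.card_image_le).trans (by rw [hV]; exact Finset.card_le_four))
  obtain ⟨c', hc'⟩ : ∃ c' : (R : Subgroup L), c' = ⟨c, hcR⟩ := ⟨_, rfl⟩
  obtain ⟨t', ht'⟩ : ∃ t' : (R : Subgroup L), t' = ⟨t, hgR⟩ := ⟨_, rfl⟩
  have ho : orderOf c' = 4 := by
    rw [hc', ← hcord]
    exact Subgroup.orderOf_mk c hcR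
  have hnot' : t' ∉ Subgroup.zpowers c' := by
    intro h
    obtain ⟨n, hn⟩ := h
    have hn' : c' ^ n = t' := hn
    apply htnot
    refine ⟨n, ?_⟩
    have h1 := congrArg Subtype.val hn'
    rw [hc', ht'] at h1
    simpa using h1
  have hcard : Nat.card (R : Subgroup L) = 8 := by
    have hdvd : 4 ∣ Nat.card (R : Subgroup L) := by rw [← ho]; exact orderOf_dvd_natCard c'
    have hne4 : Nat.card (R : Subgroup L) ≠ 4 := by
      intro h4
      have h1 : Subgroup.zpowers c' = ⊤ := by
        apply Subgroup.eq_top_of_card_eq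
        rw [Nat.card_zpowers, ho, h4]
      apply hnot'
      rw [h1]; trivial
    have hpos : 0 < Nat.card (R : Subgroup L) := Nat.card_pos
    obtain ⟨k, hk⟩ := hdvd
    have hk12 : k = 1 ∨ k = 2 := by omega
    omega
  have hb : t' * t' = 1 := by rw [ht']; exact Subtype.ext ht2
  have hab : t' * c' * t'⁻¹ = c'⁻¹ := by rw [ht', hc']; exact Subtype.ext htc
  exact Cfsg.Agent.Helper9.dihedral_equiv_of 4 c' t' ho hb hab hnot' (by rw [hcard])
end Cfsg.Agent.S5435
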