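import Cfsg.Statements.S5437

set_option autoImplicit false
open Cfsg

namespace Cfsg.Agent.S5437

variable {G : Type*} [Group G]

lemma mem_conj_map (H : Subgroup G) (g x : G) :
    x ∈ H.map (MulAut.conj g).toMonoidHom ↔ g⁻¹ * x * g ∈ H := by
  rw [Subgroup.mem_map]
  constructor
  · rintro ⟨y, hy, rfl⟩
    have : g⁻¹ * ((MulAut.conj g).toMonoidHom y) * g = y := by
      show g⁻¹ * (g * y * g⁻¹) * g = y
      group
    rw [this]; exact hy
  · intro h
    refine ⟨g⁻¹ * x * g, h, ?_⟩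
    simp [MulAut.conj_apply, mul_assoc]

lemma smul_mk_eq_iff (H : Subgroup G) (g x : G) :
    x • (QuotientGroup.mk g : G ⧸ H) = QuotientGroup.mk g ↔ g⁻¹ * x * g ∈ H := by
  rw [MulAction.Quotient.smul_mk, QuotientGroup.eq]
  have h1 : (x • g)⁻¹ * g = (g⁻¹ * x * g)⁻¹ := by
    simp [smul_eq_mul, mul_assoc]
  rw [h1, inv_mem_iff]

theorem result {G : Type*} [Group G] [Finite G] (I : Set G) (hI : ∀ x ∈ I, orderOf x = 2) (hIc : ∀ g : G, ∀ x ∈ I, g * x * g⁻¹ ∈ I) (H : Subgroup G) : ((∀ x ∈ I, x ∈ H → (∀ g : G, g * x * g⁻¹ ∈ H → ∃ h ∈ H, h * x * h⁻¹ = g * x * g⁻¹) ∧ Subgroup.centralizer ({x} : Set G) ≤ H) ↔ (∀ g : G, g ∉ H → ∀ x ∈ I, ¬ (x ∈ H ∧ x ∈ (H : Subgroup G).map (MulAut.conj g).toMonoidHom))) ∧ ((∀ g : G, g ∉ H → ∀ x ∈ I, ¬ (x ∈ H ∧ x ∈ (H : Subgroup G).map (MulAut.conj g).toMonoidHom)) ↔ ∀ x ∈ I, x ∈ H → ∃! c : G ⧸ H, x • c = c) := by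
  refine ⟨⟨?_, ?_⟩, ⟨?_, ?_⟩⟩
  · intro h1 g hg x hx ⟨hxH, hxmap⟩
    rw [mem_conj_map] at hxmap
    obtain ⟨hfus, hcen⟩ := h1 x hx hxH
    have h2 : g⁻¹ * x * g⁻¹⁻¹ ∈ H := by rw [inv_inv]; exact hxmap
    obtain ⟨h, hh, hhx⟩ := hfus g⁻¹ h2
    rw [inv_inv] at hhx
    have h3 : g * h ∈ Subgroup.centralizer ({x} : Set G) := by
      rw [Subgroup.mem_centralizer_iff]
      intro y hy
      rw [Set.mem_singleton_iff] at hy
      subst hy
      calc y * (g * h) = g * (g⁻¹ * y * g) * h := by group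
        _ = g * (h * y * h⁻¹) * h := by rw [hhx]
        _ = g * h * y := by group
    have h4 := hcen h3
    apply hg
    have : g = (g * h) * h⁻¹ := by group
    rw [this]
    exact H.mul_mem h4 (H.inv_mem hh)
  · intro h2 x hx hxH
    constructor
    · intro g hgx
      have hgH : g ∈ H := by
        by_contra hg
        have hg' : g⁻¹ ∉ H := fun h => hg (by simpa using H.inv_mem h)
        apply h2 g⁻¹ hg' x hx
        refine ⟨hxH, ?_⟩
        rw [mem_conj_map, inv_inv]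
        exact hgx
      exact ⟨g, hgH, rfl⟩
    · intro c hc
      rw [Subgroup.mem_centralizer_iff] at hc
      have hcx := hc x (Set.mem_singleton x)
      by_contra hcH
      apply h2 c hcH x hx
      refine ⟨hxH, ?_⟩
      rw [mem_conj_map]
      have : c⁻¹ * x * c = x := by
        calc c⁻¹ * x * c = c⁻¹ * (x * c) := by group
          _ = c⁻¹ * (c * x) := by rw [hcx]
          _ = x := by group
      rw [this]; exact hxH
  · intro h2 x hx hxH
    refine ⟨QuotientGroup.mk 1, ?_, ?_⟩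
    · show x • (QuotientGroup.mk 1 : G ⧸ H) = QuotientGroup.mk 1
      rw [smul_mk_eq_iff]
      simpa using hxH
    · intro c hc
      induction c using QuotientGroup.induction_on with
      | H g =>
        have hc' : x • (QuotientGroup.mk g : G ⧸ H) = QuotientGroup.mk g := hc
        rw [smul_mk_eq_iff] at hc'
        have hgH : g ∈ H := by
          by_contra hg
          apply h2 g hg x hx
          exact ⟨hxH, (mem_conj_map H g x).mpr hc'⟩
        rw [QuotientGroup.eq]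
        simpa using hgH
  · intro h3 g hg x hx ⟨hxH, hxmap⟩
    rw [mem_conj_map] at hxmap
    obtain ⟨c, -, huniq⟩ := h3 x hx hxH
    have e1 : (QuotientGroup.mk g : G ⧸ H) = c := huniq _ ((smul_mk_eq_iff H g x).mpr hxmap)
    have e2 : (QuotientGroup.mk 1 : G ⧸ H) = c :=
      huniq _ ((smul_mk_eq_iff H 1 x).mpr (by simpa using hxH))
    have e3 : (QuotientGroup.mk 1 : G ⧸ H) = QuotientGroup.mk g := e2.trans e1.symm
    rw [QuotientGroup.eq] at e3
    apply hg
    simpa using e3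

end Cfsg.Agent.S5437
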