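import Cfsg.Statements.S5438

set_option autoImplicit false
open Cfsg

namespace Cfsg.Agent.S5438

variable {G : Type*} [Group G]

lemma orderOf_conj' (g x : G) : orderOf (g * x * g⁻¹) = orderOf x :=
  (MulAut.conj g).orderOf_eq x

lemma smul_mk_eq_iff (H : Subgroup G) (g x : G) :
    x • (QuotientGroup.mk g : G ⧸ H) = QuotientGroup.mk g ↔ g⁻¹ * x * g ∈ H := by
  rw [MulAction.Quotient.smul_mk, QuotientGroup.eq]
  have h1 : (x • g)⁻¹ * g = (g⁻¹ * x * g)⁻¹ := by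
    simp [smul_eq_mul, mul_assoc]
  rw [h1, inv_mem_iff]

/-- The cyclic group generated by an element of 2-power order is a 2-group. -/
lemma isPGroup_zpowers {K : Type*} [Group K] (y : K) (hy : ∃ k : ℕ, orderOf y = 2 ^ k) :
    IsPGroup 2 (Subgroup.zpowers y) := by
  obtain ⟨k, hk⟩ := hy
  have hyk : y ^ 2 ^ k = 1 := by rw [← hk]; exact pow_orderOf_eq_one y
  intro ⟨g, hg⟩
  refine ⟨k, ?_⟩
  rw [Subgroup.mem_zpowers_iff] at hg
  obtain ⟨i, rfl⟩ := hg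
  apply Subtype.ext
  show (y ^ i) ^ 2 ^ k = 1
  rw [← zpow_natCast, ← zpow_mul, mul_comm, zpow_mul, zpow_natCast, hyk, one_zpow]

/-- Sylow conjugation inside a finite group: two elements of 2-power order can be conjugated
into a common 2-subgroup. -/
lemma common_two_subgroup {K : Type*} [Group K] [Finite K] (y₁ y₂ : K)
    (h₁ : ∃ k : ℕ, orderOf y₁ = 2 ^ k) (h₂ : ∃ k : ℕ, orderOf y₂ = 2 ^ k) :
    ∃ (c : K) (R : Subgroup K), IsPGroup 2 R ∧ c * y₁ * c⁻¹ ∈ R ∧ y₂ ∈ R := by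
  have : Fact (Nat.Prime 2) := ⟨Nat.prime_two⟩
  obtain ⟨R₁, hR₁⟩ := (isPGroup_zpowers y₁ h₁).exists_le_sylow
  obtain ⟨R₂, hR₂⟩ := (isPGroup_zpowers y₂ h₂).exists_le_sylow
  obtain ⟨c, hc⟩ := MulAction.exists_smul_eq K R₁ R₂
  refine ⟨c, (R₂ : Subgroup K), R₂.isPGroup', ?_, hR₂ (Subgroup.mem_zpowers y₂)⟩
  have hy₁ : y₁ ∈ (R₁ : Subgroup K) := hR₁ (Subgroup.mem_zpowers y₁)
  have : c * y₁ * c⁻¹ ∈ ((c • R₁ : Sylow 2 K) : Subgroup K) := by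
    rw [Sylow.coe_subgroup_smul]
    rw [Subgroup.mem_pointwise_smul_iff_inv_smul_mem]
    rw [MulAut.smul_def, ← map_inv, MulAut.conj_apply]
    have e : c⁻¹ * (c * y₁ * c⁻¹) * c⁻¹⁻¹ = y₁ := by group
    rw [e]; exact hy₁
  rw [hc] at this
  exact this

theorem result {G : Type*} [Group G] [Finite G] (z : G) (hz : Cfsg.IsTwoCentralInvolution z) (H : Subgroup G) (hzH : z ∈ H) (hfix : ∀ g : G, g⁻¹ * z * g ∈ H → g ∈ H) : Odd H.index ∧ ∀ x ∈ H, (∃ k : ℕ, orderOf x = 2 ^ k) → ∀ g : G, g * x * g⁻¹ ∈ H → ∃ h ∈ H, h * x * h⁻¹ = g * x * g⁻¹ := by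
  have : Fact (Nat.Prime 2) := ⟨Nat.prime_two⟩
  obtain ⟨hz2, P, hzP, hcen⟩ := hz
  have hzz : z * z = 1 := by
    have := pow_orderOf_eq_one z
    rw [hz2, pow_two] at this; exact this
  -- P ≤ H
  have hPH : (P : Subgroup G) ≤ H := by
    intro s hs
    apply hfix
    have h1 : s * z = z * s := hcen s hs
    have : s⁻¹ * z * s = z := by
      calc s⁻¹ * z * s = s⁻¹ * (z * s) := by group
        _ = s⁻¹ * (s * z) := by rw [h1]
        _ = z := by group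
    rw [this]; exact hzH
  -- odd index
  have hodd : Odd H.index := by
    have h1 : (P : Subgroup G).relIndex H * H.index = (P : Subgroup G).index :=
      Subgroup.relIndex_mul_index hPH
    have h2 : ¬ 2 ∣ (P : Subgroup G).index := P.not_dvd_index
    rw [← Nat.not_even_iff_odd, even_iff_two_dvd]
    intro h3
    exact h2 (h1 ▸ Dvd.dvd.mul_left h3 _)
  refine ⟨hodd, ?_⟩
  -- conjugates of z by elements `k` have the property: a⁻¹ (k z k⁻¹) a ∈ H → k⁻¹ a ∈ H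
  have hfix' : ∀ k a : G, a⁻¹ * (k * z * k⁻¹) * a ∈ H → k⁻¹ * a ∈ H := by
    intro k a h
    apply hfix
    have e : (k⁻¹ * a)⁻¹ * z * (k⁻¹ * a) = a⁻¹ * (k * z * k⁻¹) * a := by group
    rw [e]; exact h
  -- Claim A
  have claimA : ∀ y ∈ H, (∃ k : ℕ, orderOf y = 2 ^ k) → ∃ h ∈ H, Commute (h * z * h⁻¹) y := by
    intro y hy hyo
    have hyo' : ∃ k : ℕ, orderOf (⟨y, hy⟩ : H) = 2 ^ k := by
      obtain ⟨k, hk⟩ := hyo
      refine ⟨k, ?_⟩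
      rw [← hk]
      exact (Subgroup.orderOf_mk y hy)
    obtain ⟨Q, hQ⟩ := (isPGroup_zpowers (⟨y, hy⟩ : H) hyo').exists_le_sylow
    obtain ⟨h, hh⟩ := MulAction.exists_smul_eq H Q (P.subtype hPH)
    have hyQ : (⟨y, hy⟩ : H) ∈ (Q : Subgroup H) := hQ (Subgroup.mem_zpowers _)
    have h1 : h * ⟨y, hy⟩ * h⁻¹ ∈ ((h • Q : Sylow 2 H) : Subgroup H) := by
      rw [Sylow.coe_subgroup_smul]
      rw [Subgroup.mem_pointwise_smul_iff_inv_smul_mem]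
      rw [MulAut.smul_def, ← map_inv, MulAut.conj_apply]
      have e : h⁻¹ * (h * ⟨y, hy⟩ * h⁻¹) * h⁻¹⁻¹ = ⟨y, hy⟩ := by group
      rw [e]; exact hyQ
    rw [hh, Sylow.coe_subtype, Subgroup.mem_subgroupOf] at h1
    have h2 : (h : G) * y * (h : G)⁻¹ ∈ (P : Subgroup G) := h1
    have h3 := hcen _ h2
    refine ⟨(h : G)⁻¹, H.inv_mem h.2, ?_⟩
    unfold Commute SemiconjBy
    rw [inv_inv]
    calc (h : G)⁻¹ * z * (h : G) * y = (h : G)⁻¹ * (z * ((h : G) * y * (h : G)⁻¹)) * (h : G) := by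
          group
      _ = (h : G)⁻¹ * (((h : G) * y * (h : G)⁻¹) * z) * (h : G) := by rw [h3]
      _ = y * ((h : G)⁻¹ * z * (h : G)) := by group
  -- Claim B
  have claimB : ∀ R : Subgroup G, IsPGroup 2 R → ∃ a : G, ∀ r ∈ R, a⁻¹ * r * a ∈ H := by
    intro R hR
    have hcard : ¬ 2 ∣ Nat.card (G ⧸ H) := by
      have : Nat.card (G ⧸ H) = H.index := rfl
      rw [this]
      intro h
      exact (Nat.not_even_iff_odd.mpr hodd) (even_iff_two_dvd.mpr h)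
    obtain ⟨c, hc⟩ := hR.nonempty_fixed_point_of_prime_not_dvd_card (G ⧸ H) hcard
    induction c using QuotientGroup.induction_on with
    | H a =>
      refine ⟨a, fun r hr => ?_⟩
      have := hc ⟨r, hr⟩
      rw [← smul_mk_eq_iff]
      exact this
  intro x hxH hxo g hgx
  set C := Subgroup.centralizer ({x} : Set G) with hC
  have hxo' : ∃ k : ℕ, orderOf (g * x * g⁻¹) = 2 ^ k := by
    obtain ⟨k, hk⟩ := hxo
    exact ⟨k, by rw [← hk]; exact orderOf_conj' g x⟩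
  obtain ⟨h₁, hh₁, hc₁⟩ := claimA x hxH hxo
  obtain ⟨h₂, hh₂, hc₂⟩ := claimA (g * x * g⁻¹) hgx hxo'
  -- z₁ = h₁ z h₁⁻¹, z₂ = (g⁻¹ h₂) z (g⁻¹ h₂)⁻¹ both in C
  have hz₁C : h₁ * z * h₁⁻¹ ∈ C := by
    rw [hC, Subgroup.mem_centralizer_iff]
    intro y hy
    rw [Set.mem_singleton_iff] at hy
    subst hy
    exact hc₁.eq.symm
  have hz₂C : (g⁻¹ * h₂) * z * (g⁻¹ * h₂)⁻¹ ∈ C := by
    rw [hC, Subgroup.mem_centralizer_iff]
    intro y hy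
    rw [Set.mem_singleton_iff] at hy
    subst hy
    have h := hc₂.eq
    calc y * (g⁻¹ * h₂ * z * (g⁻¹ * h₂)⁻¹) = g⁻¹ * ((g * y * g⁻¹) * (h₂ * z * h₂⁻¹)) * g := by
          group
      _ = g⁻¹ * ((h₂ * z * h₂⁻¹) * (g * y * g⁻¹)) * g := by rw [h]
      _ = g⁻¹ * h₂ * z * (g⁻¹ * h₂)⁻¹ * y := by group
  have ord_conj : ∀ k : G, ∃ j : ℕ, orderOf (k * z * k⁻¹) = 2 ^ j := by
    intro k
    exact ⟨1, by rw [orderOf_conj', hz2, pow_one]⟩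
  have ho₁ : ∃ j : ℕ, orderOf (⟨h₁ * z * h₁⁻¹, hz₁C⟩ : C) = 2 ^ j := by
    obtain ⟨j, hj⟩ := ord_conj h₁
    exact ⟨j, by rw [← hj]; exact Subgroup.orderOf_mk _ _⟩
  have ho₂ : ∃ j : ℕ, orderOf (⟨(g⁻¹ * h₂) * z * (g⁻¹ * h₂)⁻¹, hz₂C⟩ : C) = 2 ^ j := by
    obtain ⟨j, hj⟩ := ord_conj (g⁻¹ * h₂)
    exact ⟨j, by rw [← hj]; exact Subgroup.orderOf_mk _ _⟩
  obtain ⟨c, R, hR, hcR, hzR⟩ := common_two_subgroup _ _ ho₁ ho₂
  obtain ⟨a, ha⟩ := claimB (R.map C.subtype) (hR.map C.subtype)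
  have m₁ : (c : G) * (h₁ * z * h₁⁻¹) * (c : G)⁻¹ ∈ R.map C.subtype :=
    Subgroup.mem_map.mpr ⟨_, hcR, rfl⟩
  have m₂ : (g⁻¹ * h₂) * z * (g⁻¹ * h₂)⁻¹ ∈ R.map C.subtype :=
    Subgroup.mem_map.mpr ⟨_, hzR, rfl⟩
  have k₁ : ((c : G) * h₁)⁻¹ * a ∈ H := by
    apply hfix'
    have e : (c : G) * h₁ * z * ((c : G) * h₁)⁻¹ = (c : G) * (h₁ * z * h₁⁻¹) * (c : G)⁻¹ := by
      group
    rw [e]
    exact ha _ m₁
  have k₂ : (g⁻¹ * h₂)⁻¹ * a ∈ H := hfix' _ _ (ha _ m₂)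
  -- g * c ∈ H
  have hgc : g * (c : G) ∈ H := by
    have e : g * (c : G) = h₂ * ((g⁻¹ * h₂)⁻¹ * a) * (((c : G) * h₁)⁻¹ * a)⁻¹ * h₁⁻¹ := by group
    rw [e]
    exact H.mul_mem (H.mul_mem (H.mul_mem hh₂ k₂) (H.inv_mem k₁)) (H.inv_mem hh₁)
  refine ⟨g * (c : G), hgc, ?_⟩
  have hcx : x * (c : G) = (c : G) * x := by
    have h' : (c : G) ∈ Subgroup.centralizer ({x} : Set G) := c.2
    exact (Subgroup.mem_centralizer_iff.mp h') x (Set.mem_singleton x)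
  calc g * (c : G) * x * (g * (c : G))⁻¹ = g * ((c : G) * x) * (c : G)⁻¹ * g⁻¹ := by group
    _ = g * (x * (c : G)) * (c : G)⁻¹ * g⁻¹ := by rw [hcx]
    _ = g * x * g⁻¹ := by group

end Cfsg.Agent.S5438
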