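import Cfsg.Statements.S5439

set_option autoImplicit false
open Cfsg

namespace Cfsg.Agent.S5439

variable {G : Type*} [Group G]

lemma inv_of_sq {g : G} (h : g * g = 1) : g⁻¹ = g := inv_eq_of_mul_eq_one_left h

lemma conj_sq (e y : G) (he : e * e = 1) : (y * e * y⁻¹) * (y * e * y⁻¹) = 1 := by
  calc (y * e * y⁻¹) * (y * e * y⁻¹) = y * (e * e) * y⁻¹ := by group
    _ = 1 := by rw [he]; group

lemma smul_mk_eq_iff (H : Subgroup G) (g x : G) :
    x • (QuotientGroup.mk g : G ⧸ H) = QuotientGroup.mk g ↔ g⁻¹ * x * g ∈ H := by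
  rw [MulAction.Quotient.smul_mk, QuotientGroup.eq]
  have h1 : (x • g)⁻¹ * g = (g⁻¹ * x * g)⁻¹ := by
    simp [smul_eq_mul, mul_assoc]
  rw [h1, inv_mem_iff]

/-- semiconjugation of powers of `a * b` by the involution `a` -/
lemma semi (a b : G) (ha : a * a = 1) (hb : b * b = 1) (n : ℕ) :
    a * (a * b) ^ n = ((a * b) ^ n)⁻¹ * a := by
  have h : SemiconjBy a (a * b) (a * b)⁻¹ := by
    unfold SemiconjBy
    rw [mul_inv_rev, inv_of_sq ha, inv_of_sq hb, ← mul_assoc, ha, one_mul, mul_assoc, ha, mul_one]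
  have := h.pow_right n
  unfold SemiconjBy at this
  rw [this, inv_pow]

lemma semi' (a b : G) (ha : a * a = 1) (hb : b * b = 1) (n : ℕ) :
    b * (a * b) ^ n = ((a * b) ^ n)⁻¹ * b := by
  have h : SemiconjBy b (a * b) (a * b)⁻¹ := by
    unfold SemiconjBy
    rw [mul_inv_rev, inv_of_sq ha, inv_of_sq hb, mul_assoc]
  have := h.pow_right n
  unfold SemiconjBy at this
  rw [this, inv_pow]

/-- The dihedral lemma: two non-conjugate involutions in a finite group. -/
lemma dihedral [Finite G] (a b : G) (ha : a * a = 1) (hb : b * b = 1) (hab : ¬ IsConj a b) :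
    ∃ w : G, w ≠ 1 ∧ w * w = 1 ∧ a * w = w * a ∧ b * w = w * b ∧
      (IsConj a (a * w) ∨ IsConj b (a * w)) := by
  set r := a * b with hr
  have hNpos : 0 < orderOf r := orderOf_pos r
  rcases Nat.even_or_odd (orderOf r) with hev | hodd
  · obtain ⟨m, hm⟩ := hev
    have hm0 : 0 < m := by omega
    have hlt : m < orderOf r := by omega
    have hw1 : r ^ m ≠ 1 := pow_ne_one_of_lt_orderOf hm0.ne' hlt
    have hww : r ^ m * r ^ m = 1 := by
      rw [← pow_add, ← hm]; exact pow_orderOf_eq_one r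
    have hwinv : (r ^ m)⁻¹ = r ^ m := inv_of_sq hww
    have haw : a * r ^ m = r ^ m * a := by
      rw [semi a b ha hb m, hwinv]
    have hbw : b * r ^ m = r ^ m * b := by
      rw [semi' a b ha hb m, hwinv]
    refine ⟨r ^ m, hw1, hww, haw, hbw, ?_⟩
    rcases Nat.even_or_odd m with hme | hmo
    · left
      obtain ⟨i, hi⟩ := hme
      rw [isConj_iff]
      refine ⟨(r ^ i)⁻¹, ?_⟩
      rw [inv_inv, ← semi a b ha hb i, mul_assoc, ← pow_add, ← hi]
    · right
      obtain ⟨i, hi⟩ := hmo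
      rw [isConj_iff]
      refine ⟨(r ^ i)⁻¹, ?_⟩
      have hbr : b = a * r := by rw [hr, ← mul_assoc, ha, one_mul]
      rw [inv_inv]
      calc (r ^ i)⁻¹ * b * r ^ i = ((r ^ i)⁻¹ * a) * r * r ^ i := by rw [hbr]; group
        _ = (a * r ^ i) * r * r ^ i := by rw [semi a b ha hb i]
        _ = a * (r ^ i * r * r ^ i) := by group
        _ = a * r ^ m := by
            congr 1
            rw [← pow_succ, ← pow_add, hi]
            congr 1
            ring
  · exfalso
    obtain ⟨k, hk⟩ := hodd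
    apply hab
    rw [isConj_iff]
    refine ⟨(r ^ (k + 1))⁻¹, ?_⟩
    rw [inv_inv, ← semi a b ha hb (k + 1), mul_assoc, ← pow_add]
    have h2 : k + 1 + (k + 1) = orderOf r + 1 := by omega
    rw [h2, pow_succ, pow_orderOf_eq_one, one_mul, ← mul_assoc, ha, one_mul]

theorem result {G : Type*} [Group G] [Finite G] (I J : Set G) (a₀ b₀ : G) (ha₀ : orderOf a₀ = 2) (hb₀ : orderOf b₀ = 2) (hI : I = {x | IsConj a₀ x}) (hJ : J = {x | IsConj b₀ x}) (hIJ : I ≠ J) (H : Subgroup G) (hfix : ∀ x ∈ I ∪ J, ∃! c : G ⧸ H, x • c = c) (hcent : ∀ a ∈ I, a ∈ H → ∀ b ∈ I ∪ J, b ∈ H → a ≠ b → a * b = b * a → Subgroup.centralizer ({a * b} : Set G) ≤ H) : H = ⊤ := by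
  have ha₀2 : a₀ * a₀ = 1 := by
    have := pow_orderOf_eq_one a₀
    rw [ha₀, pow_two] at this; exact this
  have hb₀2 : b₀ * b₀ = 1 := by
    have := pow_orderOf_eq_one b₀
    rw [hb₀, pow_two] at this; exact this
  have hnc : ¬ IsConj a₀ b₀ := by
    intro h
    apply hIJ
    rw [hI, hJ]
    ext x
    show IsConj a₀ x ↔ IsConj b₀ x
    exact ⟨fun hx => h.symm.trans hx, fun hx => h.trans hx⟩
  have memI : ∀ x, x ∈ I ↔ IsConj a₀ x := fun x => by rw [hI]; rfl
  have memJ : ∀ x, x ∈ J ↔ IsConj b₀ x := fun x => by rw [hJ]; rfl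
  have sqI : ∀ x ∈ I, x * x = 1 := by
    intro x hx
    rw [memI, isConj_iff] at hx
    obtain ⟨c, rfl⟩ := hx
    exact conj_sq a₀ c ha₀2
  have sqJ : ∀ x ∈ J, x * x = 1 := by
    intro x hx
    rw [memJ, isConj_iff] at hx
    obtain ⟨c, rfl⟩ := hx
    exact conj_sq b₀ c hb₀2
  have conjI : ∀ x ∈ I, ∀ c : G, c * x * c⁻¹ ∈ I := by
    intro x hx c
    rw [memI] at hx ⊢
    exact hx.trans (isConj_iff.mpr ⟨c, rfl⟩)
  have conjJ : ∀ x ∈ J, ∀ c : G, c * x * c⁻¹ ∈ J := by
    intro x hx c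
    rw [memJ] at hx ⊢
    exact hx.trans (isConj_iff.mpr ⟨c, rfl⟩)
  have conjIJ : ∀ x ∈ I ∪ J, ∀ c : G, c * x * c⁻¹ ∈ I ∪ J := by
    intro x hx c
    rcases hx with hx | hx
    · exact Or.inl (conjI x hx c)
    · exact Or.inr (conjJ x hx c)
  -- key claim
  have key : ∀ a ∈ I, ∀ b ∈ J, ∀ c : G ⧸ H, a • c = c → b • c = c := by
    intro a haI b hbJ c hc
    induction c using QuotientGroup.induction_on with
    | H g =>
      have hc' : a • (QuotientGroup.mk g : G ⧸ H) = QuotientGroup.mk g := hc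
      have hnab : ¬ IsConj a b := by
        intro h
        apply hnc
        exact ((memI a).mp haI).trans (h.trans ((memJ b).mp hbJ).symm)
      obtain ⟨w, hw1, hww, haw, hbw, hconj⟩ := dihedral a b (sqI a haI) (sqJ b hbJ) hnab
      have hawIJ : a * w ∈ I ∪ J := by
        rcases hconj with h | h
        · left; rw [memI]; exact ((memI a).mp haI).trans h
        · right; rw [memJ]; exact ((memJ b).mp hbJ).trans h
      -- w fixes the coset
      obtain ⟨c₁, -, huniq⟩ := hfix a (Or.inl haI)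
      have hwc : w • (QuotientGroup.mk g : G ⧸ H) = QuotientGroup.mk g := by
        have h1 : a • (w • (QuotientGroup.mk g : G ⧸ H)) = w • (QuotientGroup.mk g : G ⧸ H) := by
          rw [smul_smul, haw, ← smul_smul, hc']
        exact (huniq _ h1).trans (huniq _ hc').symm
      have hawc : (a * w) • (QuotientGroup.mk g : G ⧸ H) = QuotientGroup.mk g := by
        rw [← smul_smul, hwc, hc']
      rw [smul_mk_eq_iff] at hc' hawc ⊢
      have ha'I : g⁻¹ * a * g ∈ I := by
        have := conjI a haI g⁻¹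
        rwa [inv_inv] at this
      have hb'IJ : g⁻¹ * (a * w) * g ∈ I ∪ J := by
        have := conjIJ (a * w) hawIJ g⁻¹
        rwa [inv_inv] at this
      have hne : g⁻¹ * a * g ≠ g⁻¹ * (a * w) * g := by
        intro h
        apply hw1
        have h2 : a = a * w := by
          calc a = g * (g⁻¹ * a * g) * g⁻¹ := by group
            _ = g * (g⁻¹ * (a * w) * g) * g⁻¹ := by rw [h]
            _ = a * w := by group
        calc w = a * (a * w) := by rw [← mul_assoc, sqI a haI, one_mul]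
          _ = a * a := by rw [← h2]
          _ = 1 := sqI a haI
      have hcomm : g⁻¹ * a * g * (g⁻¹ * (a * w) * g) = g⁻¹ * (a * w) * g * (g⁻¹ * a * g) := by
        calc g⁻¹ * a * g * (g⁻¹ * (a * w) * g) = g⁻¹ * (a * (a * w)) * g := by group
          _ = g⁻¹ * (a * (w * a)) * g := by rw [haw]
          _ = g⁻¹ * (a * w) * g * (g⁻¹ * a * g) := by group
      have hle := hcent _ ha'I hc' _ hb'IJ hawc hne hcomm
      apply hle
      rw [Subgroup.mem_centralizer_iff]
      intro y hy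
      rw [Set.mem_singleton_iff] at hy
      subst hy
      have hprod : g⁻¹ * a * g * (g⁻¹ * (a * w) * g) = g⁻¹ * w * g := by
        calc g⁻¹ * a * g * (g⁻¹ * (a * w) * g) = g⁻¹ * ((a * a) * w) * g := by group
          _ = g⁻¹ * w * g := by rw [sqI a haI, one_mul]
      rw [hprod]
      calc g⁻¹ * w * g * (g⁻¹ * b * g) = g⁻¹ * (w * b) * g := by group
        _ = g⁻¹ * (b * w) * g := by rw [hbw]
        _ = g⁻¹ * b * g * (g⁻¹ * w * g) := by group
  -- common fixed coset
  have hb₀J : b₀ ∈ J := (memJ b₀).mpr (IsConj.refl b₀)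
  have ha₀I : a₀ ∈ I := (memI a₀).mpr (IsConj.refl a₀)
  obtain ⟨c₀, hc₀, huniq₀⟩ := hfix b₀ (Or.inr hb₀J)
  have allI : ∀ a ∈ I, ∀ c : G ⧸ H, a • c = c → c = c₀ := by
    intro a haI c hc
    exact huniq₀ c (key a haI b₀ hb₀J c hc)
  have fixI : ∀ a ∈ I, a • c₀ = c₀ := by
    intro a haI
    obtain ⟨c, hc, -⟩ := hfix a (Or.inl haI)
    have := allI a haI c hc
    rwa [this] at hc
  have hG : ∀ g : G, g • c₀ = c₀ := by
    intro g
    have h1 : (g * a₀ * g⁻¹) • (g • c₀) = g • c₀ := by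
      rw [smul_smul]
      have : g * a₀ * g⁻¹ * g = g * a₀ := by group
      rw [this, ← smul_smul, fixI a₀ ha₀I]
    exact allI _ (conjI a₀ ha₀I g) _ h1
  rw [eq_top_iff]
  intro y _
  induction c₀ using QuotientGroup.induction_on with
  | H g₀ =>
    have h := hG (g₀ * y * g₀⁻¹)
    rw [smul_mk_eq_iff] at h
    have e : g₀⁻¹ * (g₀ * y * g₀⁻¹) * g₀ = y := by group
    rwa [e] at h

end Cfsg.Agent.S5439
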