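import Cfsg.Statements.S5459
import Cfsg.Agent.Helper28.Basic

set_option autoImplicit false
open Cfsg

namespace Cfsg.Agent.S5459

open Cfsg.Agent.Helper28
open scoped commutatorElement

section General
variable {L : Type*} [Group L]

/-- An endomorphism of a perfect group that is trivial modulo the centre is the identity. -/
theorem perfect_fix (hP : commutator L = ⊤) (σ : L →* L)
    (hσ : ∀ l, σ l * l⁻¹ ∈ Subgroup.center L) (l : L) : σ l = l := by
  have hc : ∀ x w, σ x * w * (σ x)⁻¹ = x * w * x⁻¹ := by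
    intro x w
    have ha := Subgroup.mem_center_iff.mp (hσ x) (x * w * x⁻¹)
    calc σ x * w * (σ x)⁻¹ = (σ x * x⁻¹ * (x * w * x⁻¹)) * (σ x * x⁻¹)⁻¹ := by group
      _ = (x * w * x⁻¹ * (σ x * x⁻¹)) * (σ x * x⁻¹)⁻¹ := by rw [ha]
      _ = x * w * x⁻¹ := by group
  have key : ∀ x y : L, σ ⁅x, y⁆ = ⁅x, y⁆ := by
    intro x y
    rw [commutatorElement_def, map_mul, map_mul, map_mul, map_inv, map_inv]
    calc σ x * σ y * (σ x)⁻¹ * (σ y)⁻¹ = x * σ y * x⁻¹ * (σ y)⁻¹ := by rw [hc]
      _ = x * (σ y * x⁻¹ * (σ y)⁻¹) := by group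
      _ = x * (y * x⁻¹ * y⁻¹) := by rw [hc]
      _ = _ := by group
  have hle : commutator L ≤ MonoidHom.eqLocus σ (MonoidHom.id L) := by
    rw [commutator_eq_closure, Subgroup.closure_le]
    rintro g ⟨x, y, rfl⟩
    exact key x y
  have hl : l ∈ MonoidHom.eqLocus σ (MonoidHom.id L) := hle (by rw [hP]; exact Subgroup.mem_top l)
  exact hl

/-- A normal subgroup of a quasisimple group is central or everything. -/
theorem qs_normal (hL : Cfsg.IsQuasisimple L) (N : Subgroup L) [hN : N.Normal] :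
    N ≤ Subgroup.center L ∨ N = ⊤ := by
  obtain ⟨hperf, hsimple⟩ := hL
  have hmapN : (N.map (QuotientGroup.mk' (Subgroup.center L))).Normal :=
    hN.map _ (QuotientGroup.mk'_surjective _)
  rcases hmapN.eq_bot_or_eq_top with h | h
  · left
    rw [Subgroup.map_eq_bot_iff, QuotientGroup.ker_mk'] at h
    exact h
  · right
    rw [eq_top_iff, ← hperf.commutator_eq_top, commutator_def, Subgroup.commutator_le]
    intro x _ y _
    have hx : QuotientGroup.mk' (Subgroup.center L) x ∈
        N.map (QuotientGroup.mk' (Subgroup.center L)) := by rw [h]; exact Subgroup.mem_top _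
    obtain ⟨n, hn, hnx⟩ := hx
    have hz : n⁻¹ * x ∈ Subgroup.center L := QuotientGroup.eq.mp hnx
    have hzc := Subgroup.mem_center_iff.mp hz
    have hxy : ⁅x, y⁆ = n * (y * n⁻¹ * y⁻¹) := by
      rw [commutatorElement_def]
      calc x * y * x⁻¹ * y⁻¹ = n * ((n⁻¹ * x) * y) * (n⁻¹ * x)⁻¹ * n⁻¹ * y⁻¹ := by group
        _ = n * (y * (n⁻¹ * x)) * (n⁻¹ * x)⁻¹ * n⁻¹ * y⁻¹ := by rw [← hzc y]
        _ = _ := by group
    rw [hxy]
    exact N.mul_mem hn (hN.conj_mem _ (N.inv_mem hn) y)

end General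

section Main
variable {G : Type*} [Group G]

/-- conjugation as a map on the class of `d` -/
def cj (d : G) (g : G) (x : conjugatesOf d) : conjugatesOf d :=
  ⟨g * x.1 * g⁻¹, by
    have hx : IsConj d x.1 := x.2
    obtain ⟨c, hc⟩ := isConj_iff.mp hx
    exact isConj_iff.mpr ⟨g * c, by rw [← hc]; group⟩⟩

theorem cj_val (d g : G) (x : conjugatesOf d) : (cj d g x : G) = g * x.1 * g⁻¹ := rfl

theorem cj_mul (d g h : G) (x : conjugatesOf d) : cj d (g * h) x = cj d g (cj d h x) := by
  apply Subtype.ext; simp only [cj_val]; group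

theorem cj_one (d : G) (x : conjugatesOf d) : cj d 1 x = x := by
  apply Subtype.ext; simp [cj_val]

/-- conjugation as a graph homomorphism of the commuting graph -/
def cjHom (d g : G) : commutingGraph (conjugatesOf d) →g commutingGraph (conjugatesOf d) where
  toFun := cj d g
  map_rel' := by
    intro a b hab
    unfold commutingGraph at hab ⊢
    rw [SimpleGraph.fromRel_adj] at hab ⊢
    obtain ⟨hne, hc⟩ := hab
    refine ⟨?_, ?_⟩
    · intro h
      apply hne
      have h1 := congrArg Subtype.val h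
      simp only [cj_val] at h1
      apply Subtype.ext
      have h2 : g⁻¹ * (g * a.1 * g⁻¹) * g = g⁻¹ * (g * b.1 * g⁻¹) * g := by rw [h1]
      simpa [mul_assoc] using h2
    · have hcomm : ∀ u v : G, Commute u v → Commute (g * u * g⁻¹) (g * v * g⁻¹) := by
        intro u v huv
        show g * u * g⁻¹ * (g * v * g⁻¹) = g * v * g⁻¹ * (g * u * g⁻¹)
        have huv' : u * v = v * u := huv
        calc g * u * g⁻¹ * (g * v * g⁻¹) = g * (u * v) * g⁻¹ := by group
          _ = g * (v * u) * g⁻¹ := by rw [huv']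
          _ = _ := by group
      rcases hc with hc | hc
      · left; exact hcomm _ _ hc
      · right; exact hcomm _ _ hc

/-- the base vertex -/
def d0 (d : G) : conjugatesOf d := ⟨d, IsConj.refl d⟩

/-- the subgroup of elements moving `d` inside its connected component -/
def Nsub (d : G) : Subgroup G where
  carrier := {g | (commutingGraph (conjugatesOf d)).Reachable (d0 d) (cj d g (d0 d))}
  mul_mem' := by
    intro g h hg hh
    have h1 := SimpleGraph.Reachable.map (cjHom d g) hh
    have h2 : (cjHom d g) (cj d h (d0 d)) = cj d (g * h) (d0 d) := (cj_mul d g h _).symm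
    have h3 : (cjHom d g) (d0 d) = cj d g (d0 d) := rfl
    rw [h2, h3] at h1
    exact hg.trans h1
  one_mem' := by
    show (commutingGraph (conjugatesOf d)).Reachable (d0 d) (cj d 1 (d0 d))
    rw [cj_one]
  inv_mem' := by
    intro g hg
    have h1 := SimpleGraph.Reachable.map (cjHom d g⁻¹) hg
    have h2 : (cjHom d g⁻¹) (cj d g (d0 d)) = d0 d := by
      show cj d g⁻¹ (cj d g (d0 d)) = d0 d
      rw [← cj_mul, inv_mul_cancel, cj_one]
    have h3 : (cjHom d g⁻¹) (d0 d) = cj d g⁻¹ (d0 d) := rfl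
    rw [h2, h3] at h1
    exact h1.symm

theorem mem_Nsub_iff (d g : G) : g ∈ Nsub d ↔
    (commutingGraph (conjugatesOf d)).Reachable (d0 d) (cj d g (d0 d)) := Iff.rfl

theorem mem_Nsub_of_reachable (d : G) (a : conjugatesOf d)
    (h : (commutingGraph (conjugatesOf d)).Reachable (d0 d) a) : (a : G) ∈ Nsub d := by
  rw [mem_Nsub_iff]
  have h1 := SimpleGraph.Reachable.map (cjHom d a) h
  have h2 : (cjHom d (a : G)) a = a := by
    apply Subtype.ext
    show (a : G) * a * (a : G)⁻¹ = a
    group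
  have h3 : (cjHom d (a : G)) (d0 d) = cj d a (d0 d) := rfl
  rw [h2, h3] at h1
  exact h.trans h1.symm

theorem conj_inv {Z : Subgroup G} [hZ : Z.Normal] {d : G} (hinv : ∀ c ∈ Z, d * c * d⁻¹ = c⁻¹)
    (x : conjugatesOf d) : ∀ c ∈ Z, (x : G) * c * (x : G)⁻¹ = c⁻¹ := by
  intro c hc
  have hx : IsConj d x.1 := x.2
  obtain ⟨g, hg⟩ := isConj_iff.mp hx
  rw [← hg]
  have h1 := hinv (g⁻¹ * c * g) (hZ.conj_mem' c hc g)
  calc g * d * g⁻¹ * c * (g * d * g⁻¹)⁻¹ = g * (d * (g⁻¹ * c * g) * d⁻¹) * g⁻¹ := by group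
    _ = g * (g⁻¹ * c * g)⁻¹ * g⁻¹ := by rw [h1]
    _ = c⁻¹ := by group

theorem exists_fourth_root (Z : Subgroup G) (hodd : Odd (Nat.card Z)) {z : G} (hz : z ∈ Z) :
    ∃ v ∈ Z, z * (v * v * v * v) = 1 := by
  obtain ⟨m, hm⟩ := hodd
  have h1 : z ^ (2 * m + 1) = 1 := by
    rw [← hm]
    exact orderOf_dvd_iff_pow_eq_one.mp (Subgroup.orderOf_dvd_natCard Z hz)
  refine ⟨z ^ (m * (m + 1)), Z.pow_mem hz _, ?_⟩
  have h2 : z * (z ^ (m * (m + 1)) * z ^ (m * (m + 1)) * z ^ (m * (m + 1)) * z ^ (m * (m + 1)))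
      = (z ^ (2 * m + 1)) ^ (2 * m + 1) := by
    rw [← pow_mul, ← pow_add, ← pow_add, ← pow_add, ← pow_succ']
    congr 1
    ring
  rw [h2, h1, one_pow]

theorem lift_comm (y c v z : G) (h1 : y * v * y⁻¹ = v⁻¹) (h2 : c * v * c⁻¹ = v⁻¹)
    (h3 : y * c * y⁻¹ * c⁻¹ = z) (h4 : z * v = v * z) (h5 : z * (v * v * v * v) = 1) :
    y * (v⁻¹ * c * v) = (v⁻¹ * c * v) * y := by
  have e1 : y * v⁻¹ = v * y := by
    calc y * v⁻¹ = (y * v * y⁻¹)⁻¹ * y := by group
      _ = v * y := by rw [h1]; group
  have e1' : y * v = v⁻¹ * y := by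
    calc y * v = (y * v * y⁻¹) * y := by group
      _ = v⁻¹ * y := by rw [h1]
  have e2 : c * v⁻¹ = v * c := by
    calc c * v⁻¹ = (c * v * c⁻¹)⁻¹ * c := by group
      _ = v * c := by rw [h2]; group
  have e2' : c * v = v⁻¹ * c := by
    calc c * v = (c * v * c⁻¹) * c := by group
      _ = v⁻¹ * c := by rw [h2]
  have e3 : y * c = z * c * y := by
    rw [← h3]; group
  have e5 : z * v * v = v⁻¹ * v⁻¹ := by
    have h6 : z * v * v * (v * v) = 1 := by rw [← h5]; simp only [mul_assoc]
    rw [mul_eq_one_iff_eq_inv] at h6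
    rw [h6, mul_inv_rev]
  calc y * (v⁻¹ * c * v) = (y * v⁻¹) * c * v := by group
    _ = (v * y) * c * v := by rw [e1]
    _ = v * (y * c) * v := by group
    _ = v * (z * c * y) * v := by rw [e3]
    _ = v * z * c * (y * v) := by group
    _ = v * z * c * (v⁻¹ * y) := by rw [e1']
    _ = v * z * (c * v⁻¹) * y := by group
    _ = v * z * (v * c) * y := by rw [e2]
    _ = (v * z) * v * c * y := by group
    _ = (z * v) * v * c * y := by rw [h4]
    _ = (z * v * v) * c * y := by group
    _ = (v⁻¹ * v⁻¹) * c * y := by rw [e5]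
    _ = v⁻¹ * (v⁻¹ * c) * y := by group
    _ = v⁻¹ * (c * v) * y := by rw [e2']
    _ = _ := by group

theorem lift_reach (Z : Subgroup G) [hZ : Z.Normal] (hodd : Odd (Nat.card Z))
    (hZc : ∀ a ∈ Z, ∀ b ∈ Z, a * b = b * a) (d : G)
    (hinv : ∀ c ∈ Z, d * c * d⁻¹ = c⁻¹)
    (xb : conjugatesOf (QuotientGroup.mk d : G ⧸ Z))
    (h : (commutingGraph (conjugatesOf (QuotientGroup.mk d : G ⧸ Z))).Reachable
      ⟨QuotientGroup.mk d, IsConj.refl _⟩ xb) :
    ∃ y : conjugatesOf d, (QuotientGroup.mk (y : G) : G ⧸ Z) = xb ∧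
      (commutingGraph (conjugatesOf d)).Reachable (d0 d) y := by
  rw [SimpleGraph.reachable_iff_reflTransGen] at h
  induction h with
  | refl => exact ⟨d0 d, rfl, SimpleGraph.Reachable.refl _⟩
  | @tail bb cb hab hbc ih =>
    obtain ⟨y, hy, hry⟩ := ih
    unfold commutingGraph at hbc
    rw [SimpleGraph.fromRel_adj] at hbc
    obtain ⟨hne, hcomm⟩ := hbc
    have hcomm' : (bb : G ⧸ Z) * cb = cb * bb := by
      rcases hcomm with h | h
      · exact h
      · exact h.symm
    have hcb : IsConj (QuotientGroup.mk d : G ⧸ Z) cb.1 := cb.2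
    obtain ⟨q, hq⟩ := isConj_iff.mp hcb
    obtain ⟨g, rfl⟩ := QuotientGroup.mk_surjective q
    have hc0mk : (QuotientGroup.mk (g * d * g⁻¹) : G ⧸ Z) = cb := by rw [← hq]; rfl
    have hc0D : IsConj d (g * d * g⁻¹) := isConj_iff.mpr ⟨g, rfl⟩
    have hzZ : (y : G) * (g * d * g⁻¹) * (y : G)⁻¹ * (g * d * g⁻¹)⁻¹ ∈ Z := by
      rw [← QuotientGroup.eq_one_iff]
      rw [QuotientGroup.mk_mul, QuotientGroup.mk_mul, QuotientGroup.mk_mul, QuotientGroup.mk_inv,
        QuotientGroup.mk_inv, hy, hc0mk, hcomm']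
      group
    obtain ⟨v, hvZ, hv⟩ := exists_fourth_root Z hodd hzZ
    have hcomm2 := lift_comm (y : G) (g * d * g⁻¹) v _ (conj_inv hinv y v hvZ)
      (conj_inv hinv ⟨g * d * g⁻¹, hc0D⟩ v hvZ) rfl (hZc _ hzZ _ hvZ) hv
    let c' : conjugatesOf d := ⟨v⁻¹ * (g * d * g⁻¹) * v, isConj_iff.mpr ⟨v⁻¹ * g, by group⟩⟩
    have hc'mk : (QuotientGroup.mk (c' : G) : G ⧸ Z) = cb := by
      show (QuotientGroup.mk (v⁻¹ * (g * d * g⁻¹) * v) : G ⧸ Z) = cb
      rw [QuotientGroup.mk_mul, QuotientGroup.mk_mul, hc0mk, QuotientGroup.mk_inv,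
        (QuotientGroup.eq_one_iff v).mpr hvZ]
      group
    refine ⟨c', hc'mk, hry.trans (SimpleGraph.Adj.reachable ?_)⟩
    unfold commutingGraph
    rw [SimpleGraph.fromRel_adj]
    refine ⟨?_, Or.inl hcomm2⟩
    intro heq
    apply hne
    apply Subtype.ext
    rw [← hy, ← hc'mk, heq]

end Main

/-- Let G be a finite group with a quasisimple normal subgroup L and an involution d such that G is generated by L and d, the centre of L has odd order, and d inverts every element of the centre of L. If the commuting graph on the conjugacy class of the image of d in G modulo the centre of L is connected, then the commuting graph on the conjugacy class of d is connected. -/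
theorem result {G : Type*} [Group G] [Finite G] (L : Subgroup G) [L.Normal] (hL : Cfsg.IsQuasisimple ↥L) (d : G) (hd : orderOf d = 2) (hgen : L ⊔ Subgroup.zpowers d = ⊤) (hodd : Odd (Nat.card ↥(Subgroup.center ↥L))) (hinv : ∀ c ∈ (Subgroup.center ↥L).map L.subtype, d * c * d⁻¹ = c⁻¹) [hn : ((Subgroup.center ↥L).map L.subtype).Normal] (hconn : (Cfsg.commutingGraph (conjugatesOf (QuotientGroup.mk d : G ⧸ (Subgroup.center ↥L).map L.subtype))).Connected) : (Cfsg.commutingGraph (conjugatesOf d)).Connected := by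
  have hLn : L.Normal := inferInstance
  have hoddZ : Odd (Nat.card ((Subgroup.center ↥L).map L.subtype)) := by
    rw [card_center_map]; exact hodd
  have hZL : (Subgroup.center ↥L).map L.subtype ≤ L :=
    fun x hx => ((mem_center_map_iff L x).mp hx).1
  have hZcL : ∀ a ∈ (Subgroup.center ↥L).map L.subtype, ∀ b ∈ L, b * a = a * b :=
    fun a ha b hb => ((mem_center_map_iff L a).mp ha).2 b hb
  have hZc : ∀ a ∈ (Subgroup.center ↥L).map L.subtype,
      ∀ b ∈ (Subgroup.center ↥L).map L.subtype, a * b = b * a :=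
    fun a ha b hb => (hZcL a ha b (hZL hb)).symm
  suffices hN : Nsub d = ⊤ by
    rw [SimpleGraph.connected_iff_exists_forall_reachable]
    refine ⟨d0 d, fun w => ?_⟩
    have hw : IsConj d w.1 := w.2
    obtain ⟨g, hg⟩ := isConj_iff.mp hw
    have hgN : g ∈ Nsub d := by rw [hN]; exact Subgroup.mem_top g
    have hcj : cj d g (d0 d) = w := Subtype.ext hg
    rw [← hcj]
    exact hgN
  have hdN : d ∈ Nsub d := mem_Nsub_of_reachable d (d0 d) (SimpleGraph.Reachable.refl _)
  have hD : ∀ x : conjugatesOf d, (x : G) ∈ Nsub d ⊔ (Subgroup.center ↥L).map L.subtype := by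
    intro x
    have hxb : IsConj (QuotientGroup.mk d : G ⧸ (Subgroup.center ↥L).map L.subtype)
        (QuotientGroup.mk (x : G)) := by
      have hx : IsConj d x.1 := x.2
      obtain ⟨g, hg⟩ := isConj_iff.mp hx
      exact isConj_iff.mpr ⟨QuotientGroup.mk g, by rw [← hg]; rfl⟩
    obtain ⟨y, hy, hry⟩ := lift_reach _ hoddZ hZc d hinv ⟨_, hxb⟩ (hconn.preconnected _ _)
    have hyN := mem_Nsub_of_reachable d y hry
    have hyx : (y : G)⁻¹ * x ∈ (Subgroup.center ↥L).map L.subtype := QuotientGroup.eq.mp hy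
    have hxe : (x : G) = y * ((y : G)⁻¹ * x) := by group
    rw [hxe]
    exact Subgroup.mul_mem_sup hyN hyx
  -- the normal closure of d
  have hKle : Subgroup.normalClosure {d} ≤ Nsub d ⊔ (Subgroup.center ↥L).map L.subtype := by
    unfold Subgroup.normalClosure
    rw [Subgroup.closure_le]
    intro x hx
    rw [Group.mem_conjugatesOfSet_iff] at hx
    obtain ⟨a, ha, hax⟩ := hx
    rw [Set.mem_singleton_iff] at ha
    subst ha
    exact hD ⟨x, hax⟩
  have hKn : (Subgroup.normalClosure {d}).Normal := Subgroup.normalClosure_normal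
  have hdK : d ∈ Subgroup.normalClosure {d} := Subgroup.subset_normalClosure (Set.mem_singleton d)
  rcases qs_normal hL ((Subgroup.normalClosure {d}).subgroupOf L) with hcase | hcase
  · -- d centralises L
    let σ : ↥L →* ↥L :=
      { toFun := fun l => ⟨d * l * d⁻¹, hLn.conj_mem _ l.2 d⟩
        map_one' := by apply Subtype.ext; simp
        map_mul' := fun a b => by
          apply Subtype.ext
          show d * (a * b : G) * d⁻¹ = (d * a * d⁻¹) * (d * b * d⁻¹)
          group }
    have hσ : ∀ l : ↥L, σ l * l⁻¹ ∈ Subgroup.center ↥L := by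
      intro l
      apply hcase
      rw [Subgroup.mem_subgroupOf]
      show d * (l : G) * d⁻¹ * (l : G)⁻¹ ∈ Subgroup.normalClosure {d}
      have h1 : (l : G) * d⁻¹ * (l : G)⁻¹ ∈ Subgroup.normalClosure {d} :=
        hKn.conj_mem _ (Subgroup.inv_mem _ hdK) _
      have h2 : d * (l : G) * d⁻¹ * (l : G)⁻¹ = d * ((l : G) * d⁻¹ * (l : G)⁻¹) := by group
      rw [h2]
      exact Subgroup.mul_mem _ hdK h1
    have hfix : ∀ l ∈ L, d * l * d⁻¹ = l := by
      intro l hl
      have h1 := perfect_fix hL.1.commutator_eq_top σ hσ ⟨l, hl⟩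
      exact congrArg Subtype.val h1
    have hcent : ∀ g : G, g * d * g⁻¹ = d := by
      intro g
      have hg : g ∈ Subgroup.centralizer ({d} : Set G) := by
        have htop : (⊤ : Subgroup G) ≤ Subgroup.centralizer ({d} : Set G) := by
          rw [← hgen, sup_le_iff]
          refine ⟨?_, ?_⟩
          · intro l hl
            rw [Subgroup.mem_centralizer_iff]
            intro h hh
            rw [Set.mem_singleton_iff] at hh
            subst hh
            have h1 := hfix l hl
            calc h * l = (h * l * h⁻¹) * h := by group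
              _ = l * h := by rw [h1]
          · rw [Subgroup.zpowers_le]
            rw [Subgroup.mem_centralizer_iff]
            intro h hh
            rw [Set.mem_singleton_iff] at hh
            subst hh
            rfl
        exact htop (Subgroup.mem_top g)
      rw [Subgroup.mem_centralizer_iff] at hg
      have h1 := hg d (Set.mem_singleton d)
      calc g * d * g⁻¹ = (d * g) * g⁻¹ := by rw [h1]
        _ = d := by group
    rw [eq_top_iff]
    intro g _
    rw [mem_Nsub_iff]
    have h1 : cj d g (d0 d) = d0 d := Subtype.ext (hcent g)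
    rw [h1]
  · -- L ≤ normal closure of d
    rw [Subgroup.subgroupOf_eq_top] at hcase
    have hKtop : Subgroup.normalClosure {d} = ⊤ := by
      rw [eq_top_iff, ← hgen, sup_le_iff]
      exact ⟨hcase, (Subgroup.zpowers_le).mpr hdK⟩
    have hNZ : ∀ g : G, ∃ n ∈ Nsub d, ∃ z ∈ (Subgroup.center ↥L).map L.subtype, n * z = g := by
      intro g
      have hg : g ∈ Nsub d ⊔ (Subgroup.center ↥L).map L.subtype :=
        hKle (by rw [hKtop]; exact Subgroup.mem_top g)
      exact Subgroup.mem_sup_of_normal_right.mp hg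
    have hNLn : ((Nsub d).subgroupOf L).Normal := by
      constructor
      intro n hn l
      rw [Subgroup.mem_subgroupOf] at hn ⊢
      obtain ⟨n', hn', z, hz, hnz⟩ := hNZ (l : G)
      have hzc := hZcL z hz (n : G) n.2
      show (l : G) * (n : G) * (l : G)⁻¹ ∈ Nsub d
      have h1 : (l : G) * (n : G) * (l : G)⁻¹ = n' * (n : G) * n'⁻¹ := by
        rw [← hnz]
        calc n' * z * (n : G) * (n' * z)⁻¹ = n' * (z * (n : G)) * z⁻¹ * n'⁻¹ := by group
          _ = n' * ((n : G) * z) * z⁻¹ * n'⁻¹ := by rw [hzc]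
          _ = _ := by group
      rw [h1]
      exact Subgroup.mul_mem _ (Subgroup.mul_mem _ hn' hn) (Subgroup.inv_mem _ hn')
    rcases qs_normal hL ((Nsub d).subgroupOf L) with hc2 | hc2
    · exfalso
      have hall : ∀ l : ↥L, l ∈ Subgroup.center ↥L := by
        intro l
        obtain ⟨n', hn', z, hz, hnz⟩ := hNZ (l : G)
        have hzL : z ∈ L := hZL hz
        have hn'L : n' ∈ L := by
          have h1 : n' = (l : G) * z⁻¹ := by rw [← hnz]; group
          rw [h1]
          exact L.mul_mem l.2 (L.inv_mem hzL)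
        have h2 : (⟨n', hn'L⟩ : ↥L) ∈ Subgroup.center ↥L := hc2 (by
          rw [Subgroup.mem_subgroupOf]; exact hn')
        have h3 : (⟨z, hzL⟩ : ↥L) ∈ Subgroup.center ↥L := by
          obtain ⟨w, hw, hwz⟩ := hz
          have h4 : w = ⟨z, hzL⟩ := Subtype.ext hwz
          rw [← h4]; exact hw
        have h5 : l = ⟨n', hn'L⟩ * ⟨z, hzL⟩ := Subtype.ext hnz.symm
        rw [h5]
        exact Subgroup.mul_mem _ h2 h3
      have hsimple := hL.2
      obtain ⟨a, b, hab⟩ := hsimple.toNontrivial.exists_pair_ne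
      apply hab
      have hone : ∀ q : ↥L ⧸ Subgroup.center ↥L, q = 1 := by
        intro q
        obtain ⟨l, rfl⟩ := QuotientGroup.mk_surjective q
        exact (QuotientGroup.eq_one_iff l).mpr (hall l)
      rw [hone a, hone b]
    · rw [Subgroup.subgroupOf_eq_top] at hc2
      rw [eq_top_iff, ← hgen, sup_le_iff]
      exact ⟨hc2, (Subgroup.zpowers_le).mpr hdN⟩

end Cfsg.Agent.S5459
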