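import Cfsg.Statements.S5541

set_option autoImplicit false
open Cfsg

namespace Cfsg.Agent.S5541

section
variable {H : Type*} [Group H] {U : Type*} [AddCommGroup U] [Module ℝ U]

theorem rho_cancel (ρ : Representation ℝ H U) (g : H) (v : U) : ρ g (ρ g⁻¹ v) = v := by
  have h : ρ g * ρ g⁻¹ = 1 := by rw [← map_mul, mul_inv_cancel, map_one]
  calc ρ g (ρ g⁻¹ v) = (ρ g * ρ g⁻¹) v := rfl
    _ = v := by rw [h]; rfl

theorem B_inj (ρ : Representation ℝ H U)
    (hirr : ∀ W : Submodule ℝ U, (∀ g : H, W.map (ρ g) ≤ W) → W = ⊥ ∨ W = ⊤)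
    (B : LinearMap.BilinForm ℝ U) (hB0 : B ≠ 0)
    (hBi : ∀ (g : H) (u v : U), B (ρ g u) (ρ g v) = B u v) : Function.Injective B := by
  rw [← LinearMap.ker_eq_bot]
  have hinv : ∀ g : H, (LinearMap.ker B).map (ρ g) ≤ LinearMap.ker B := by
    intro g x hx
    rw [Submodule.mem_map] at hx
    obtain ⟨y, hy, rfl⟩ := hx
    rw [LinearMap.mem_ker] at hy ⊢
    ext v
    have h : B (ρ g y) (ρ g (ρ g⁻¹ v)) = B y (ρ g⁻¹ v) := hBi g y _
    rw [rho_cancel] at h
    rw [h, hy]; rfl
  rcases hirr (LinearMap.ker B) hinv with h | h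
  · exact h
  · exfalso; apply hB0
    exact LinearMap.ker_eq_top.mp h

theorem exists_prod [FiniteDimensional ℝ U] (ρ : Representation ℝ H U)
    (B : LinearMap.BilinForm ℝ U) (hinj : Function.Injective B)
    (hBi : ∀ (g : H) (u v : U), B (ρ g u) (ρ g v) = B u v)
    (t : U →ₗ[ℝ] U →ₗ[ℝ] U →ₗ[ℝ] ℝ)
    (hti : ∀ (g : H) (u v w : U), t (ρ g u) (ρ g v) (ρ g w) = t u v w) :
    ∃ m : U →ₗ[ℝ] U →ₗ[ℝ] U, (∀ u v, B (m u v) = t u v) ∧
      ∀ (g : H) (u v : U), m (ρ g u) (ρ g v) = ρ g (m u v) := by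
  let e : U ≃ₗ[ℝ] (U →ₗ[ℝ] ℝ) :=
    LinearMap.linearEquivOfInjective B hinj (Subspace.dual_finrank_eq).symm
  have he : ∀ u, e u = B u := fun u => rfl
  let m : U →ₗ[ℝ] U →ₗ[ℝ] U := t.compr₂ (e.symm : (U →ₗ[ℝ] ℝ) →ₗ[ℝ] U)
  have hm : ∀ u v, B (m u v) = t u v := by
    intro u v
    show B (e.symm (t u v)) = t u v
    rw [← he, LinearEquiv.apply_symm_apply]
  refine ⟨m, hm, ?_⟩
  intro g u v
  apply hinj
  ext w
  have h1 : B (m (ρ g u) (ρ g v)) (ρ g (ρ g⁻¹ w)) = B (ρ g (m u v)) (ρ g (ρ g⁻¹ w)) := by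
    rw [hm, hti, hBi, hm]
  rw [rho_cancel] at h1
  exact h1

theorem inv_of_equiv (ρ : Representation ℝ H U) (B : LinearMap.BilinForm ℝ U)
    (hBi : ∀ (g : H) (u v : U), B (ρ g u) (ρ g v) = B u v)
    (m : U →ₗ[ℝ] U →ₗ[ℝ] U) (hme : ∀ (g : H) (u v : U), m (ρ g u) (ρ g v) = ρ g (m u v))
    (g : H) (u v w : U) : (m.compr₂ B) (ρ g u) (ρ g v) (ρ g w) = (m.compr₂ B) u v w := by
  show B (m (ρ g u) (ρ g v)) (ρ g w) = B (m u v) w
  rw [hme, hBi]

end

/-- Let ρ be a representation of a group H on a finite-dimensional real vector space U whose only ρ-invariant subspaces are the zero subspace and U, and suppose U carries a non-zero ρ-invariant symmetric bilinear form. Then the following are equivalent: (1) there is a non-zero ρ-equivariant commutative bilinear product on U of which every ρ-equivariant bilinear product is a scalar multiple; (2) there is a non-zero ρ-invariant trilinear form on U that is symmetric under all permutations of its arguments and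 of which every ρ-invariant trilinear form is a scalar multiple. -/
theorem result {H : Type*} [Group H] {U : Type*} [AddCommGroup U] [Module ℝ U] [FiniteDimensional ℝ U] (ρ : Representation ℝ H U) (hirr : ∀ W : Submodule ℝ U, (∀ g : H, W.map (ρ g) ≤ W) → W = ⊥ ∨ W = ⊤) (B : LinearMap.BilinForm ℝ U) (hB0 : B ≠ 0) (hBs : ∀ u v, B u v = B v u) (hBi : ∀ (g : H) (u v : U), B (ρ g u) (ρ g v) = B u v) : (∃ m : U →ₗ[ℝ] U →ₗ[ℝ] U, m ≠ 0 ∧ (∀ u v, m u v = m v u) ∧ (∀ (g : H) (u v : U), m (ρ g u) (ρ g v) = ρ g (m u v)) ∧ ∀ m' : U →ₗ[ℝ] U →ₗ[ℝ] U, (∀ (g : H) (u v : U), m' (ρ g u) (ρ g v) = ρ g (m' u v)) → ∃ c : ℝ, m' = c • m) ↔ (∃ t : U →ₗ[ℝ] U →ₗ[ℝ] U →ₗ[ℝ] ℝ, t ≠ 0 ∧ (∀ u v w, t u v w = t v u w ∧ t u v w = t u w v) ∧ (∀ (g : H) (u v w : U), t (ρ g u) (ρ g v) (ρ g w) = t u v w) ∧ ∀ t' : U →ₗ[ℝ] U →ₗ[ℝ] U →ₗ[ℝ] ℝ, (∀ (g : H) (u v w : U), t' (ρ g u) (ρ g v) (ρ g w) = t' u v w) → ∃ c : ℝ, t' = c • t) := by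
  have hinj := B_inj ρ hirr B hB0 hBi
  constructor
  · rintro ⟨m, hm0, hmc, hme, hmu⟩
    have ht : ∀ u v w, (m.compr₂ B) u v w = B (m u v) w := fun u v w => rfl
    have hkey : ∀ t' : U →ₗ[ℝ] U →ₗ[ℝ] U →ₗ[ℝ] ℝ,
        (∀ (g : H) (u v w : U), t' (ρ g u) (ρ g v) (ρ g w) = t' u v w) →
        ∃ c : ℝ, t' = c • (m.compr₂ B) := by
      intro t' ht'
      obtain ⟨m', hm', hm'e⟩ := exists_prod ρ B hinj hBi t' ht'
      obtain ⟨c, hc⟩ := hmu m' hm'e
      refine ⟨c, ?_⟩
      ext u v w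
      rw [← hm', hc]
      simp [ht]
    obtain ⟨u0, v0, hne⟩ : ∃ u v, m u v ≠ 0 := by
      by_contra hcon
      push Not at hcon
      apply hm0
      ext u v
      simp [hcon u v]
    obtain ⟨w0, hw0⟩ : ∃ w, B (m u0 v0) w ≠ 0 := by
      by_contra hcon
      push Not at hcon
      apply hne
      apply hinj
      ext w
      simp [hcon w]
    refine ⟨m.compr₂ B, ?_, ?_, inv_of_equiv ρ B hBi m hme, hkey⟩
    · intro h0
      apply hw0
      rw [← ht, h0]; rfl
    · let t' : U →ₗ[ℝ] U →ₗ[ℝ] U →ₗ[ℝ] ℝ :=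
        { toFun := fun u => (m.compr₂ B u).flip
          map_add' := fun a b => by ext; simp
          map_smul' := fun c a => by ext; simp }
      have ht' : ∀ u v w, t' u v w = B (m u w) v := fun u v w => rfl
      obtain ⟨c, hc⟩ := hkey t' (by
        intro g u v w
        rw [ht', ht', hme, hBi])
      have hrel : ∀ u v w, B (m u w) v = c * B (m u v) w := by
        intro u v w
        rw [← ht', hc]
        rfl
      have hcc : c * c = 1 := by
        have h1 := hrel u0 w0 v0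
        have h2 := hrel u0 v0 w0
        rw [h2] at h1
        have h3 : (c * c - 1) * B (m u0 v0) w0 = 0 := by linarith
        rcases mul_eq_zero.mp h3 with h | h
        · linarith
        · exact absurd h hw0
      have hc1 : c = 1 := by
        have h3 : (c - 1) * (c + 1) = 0 := by linarith
        rcases mul_eq_zero.mp h3 with h | h
        · linarith
        · exfalso
          have hcm : c = -1 := by linarith
          have hanti : ∀ u v w, B (m u w) v = - B (m u v) w := by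
            intro u v w; rw [hrel, hcm]; ring
          have hsym : ∀ u v w, B (m u v) w = B (m v u) w := by
            intro u v w; rw [hmc]
          apply hw0
          have e1 := hanti u0 v0 w0
          have e2 : B (m u0 w0) v0 = B (m w0 u0) v0 := hsym _ _ _
          have e3 := hanti w0 u0 v0
          have e4 : B (m w0 v0) u0 = B (m v0 w0) u0 := hsym _ _ _
          have e5 := hanti v0 w0 u0
          have e6 : B (m v0 u0) w0 = B (m u0 v0) w0 := hsym _ _ _
          linarith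
      intro u v w
      refine ⟨?_, ?_⟩
      · rw [ht, ht, hmc]
      · rw [ht, ht]
        have h := hrel u w v
        rw [hc1, one_mul] at h
        exact h
  · rintro ⟨t, ht0, hts, hti, htu⟩
    obtain ⟨m, hm, hme⟩ := exists_prod ρ B hinj hBi t hti
    refine ⟨m, ?_, ?_, hme, ?_⟩
    · intro h0
      apply ht0
      ext u v w
      rw [← hm, h0]
      simp
    · intro u v
      apply hinj
      ext w
      rw [hm, hm]
      exact (hts u v w).1
    · intro m' hm'e
      obtain ⟨c, hc⟩ := htu (m'.compr₂ B) (inv_of_equiv ρ B hBi m' hm'e)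
      refine ⟨c, ?_⟩
      ext u v
      apply hinj
      ext w
      have h : (m'.compr₂ B) u v w = (c • t) u v w := by rw [hc]
      show B (m' u v) w = B ((c • m) u v) w
      calc B (m' u v) w = (c • t) u v w := h
        _ = c * t u v w := rfl
        _ = c * B (m u v) w := by rw [hm]
        _ = B ((c • m) u v) w := by simp

end Cfsg.Agent.S5541
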