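import Cfsg.Statements.S5543

set_option autoImplicit false
open Cfsg

namespace Cfsg.Agent.S5543

open Cfsg.Axial

/-- Let V be a finite-dimensional real vector space with a commutative bilinear product and a positive-definite symmetric bilinear form that associates with the product and satisfies the Norton inequality (the Majorana setting of the definitions). Let X be a group of linear automorphisms of V in which every element squares to the identity, and suppose every non-identity element x of X is a Majorana involution with an axial vector a(x) of squared length 1, such that for any two distinct non-identity x, y the product a(x) ∘ a(y) equals (1/8)(a(x) + a(y) − a(xy)) (the dihedral subalgebra of type 2A whose third axis belongs to the involution xy). Then X has order at most 4. -/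
theorem result {V : Type*} [AddCommGroup V] [Module ℝ V] [FiniteDimensional ℝ V] (mul : V →ₗ[ℝ] V →ₗ[ℝ] V) (B : LinearMap.BilinForm ℝ V) (hV : Cfsg.Axial.IsMajoranaAmbient mul B) (X : Subgroup (V ≃ₗ[ℝ] V)) (hX : ∀ x ∈ X, x * x = 1) (ax : (V ≃ₗ[ℝ] V) → V) (hax : ∀ x ∈ X, x ≠ 1 → Cfsg.Axial.IsMajoranaPair mul B x (ax x)) (h1 : ∀ x ∈ X, x ≠ 1 → B (ax x) (ax x) = 1) (h2A : ∀ x ∈ X, ∀ y ∈ X, x ≠ 1 → y ≠ 1 → x ≠ y → mul (ax x) (ax y) = (1 / 8 : ℝ) • (ax x + ax y - ax (x * y))) : Nat.card ↥X ≤ 4 := by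
  by_contra hcard
  push Not at hcard
  have hfin : Finite ↥X := Nat.finite_of_card_ne_zero (by omega)
  letI := Fintype.ofFinite ↥X
  classical
  have hcard' : 4 < (Finset.univ : Finset ↥X).card := by
    rw [Finset.card_univ, ← Nat.card_eq_fintype_card]; exact hcard
  obtain ⟨x1, -, hx1⟩ := Finset.exists_mem_notMem_of_card_lt_card (s := {(1 : ↥X)})
    (t := Finset.univ) (by rw [Finset.card_singleton]; omega)
  obtain ⟨x2, -, hx2⟩ := Finset.exists_mem_notMem_of_card_lt_card (s := {(1 : ↥X), x1})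
    (t := Finset.univ) (lt_of_le_of_lt Finset.card_le_two (by omega))
  obtain ⟨x3, -, hx3⟩ := Finset.exists_mem_notMem_of_card_lt_card
    (s := {(1 : ↥X), x1, x2, x1 * x2}) (t := Finset.univ)
    (lt_of_le_of_lt Finset.card_le_four hcard')
  simp only [Finset.mem_insert, Finset.mem_singleton, not_or] at hx1 hx2 hx3
  obtain ⟨h21, h2x1⟩ := hx2
  obtain ⟨h31, h3x1, h3x2, h3x12⟩ := hx3
  -- group facts in X
  have hsq : ∀ x : ↥X, x * x = 1 := fun x => Subtype.ext (hX x x.2)
  have hcomm : ∀ x y : ↥X, x * y = y * x := by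
    intro x y
    have h := hsq (x * y)
    calc x * y = x * (x * y * (x * y)) * y := by rw [h, mul_one]
      _ = (x * x) * (y * x) * (y * y) := by group
      _ = y * x := by rw [hsq, hsq, one_mul, mul_one]
  obtain ⟨a, ha⟩ : ∃ a : ↥X → V, ∀ x, a x = ax (x : V ≃ₗ[ℝ] V) := ⟨_, fun _ => rfl⟩
  have L1 : ∀ x y : ↥X, x ≠ 1 → y ≠ 1 → x ≠ y →
      mul (a x) (a y) = (1 / 8 : ℝ) • (a x + a y - a (x * y)) := by
    intro x y hx hy hxy
    rw [ha, ha, ha]
    exact h2A x x.2 y y.2 (fun h => hx (Subtype.ext h)) (fun h => hy (Subtype.ext h))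
      (fun h => hxy (Subtype.ext h))
  have L2 : ∀ x y : ↥X, x ≠ 1 → y ≠ 1 → x ≠ y →
      mul (a x) (a (x * y)) = (1 / 8 : ℝ) • (a x + a (x * y) - a y) := by
    intro x y hx hy hxy
    have h := L1 x (x * y) hx (fun h => hxy (by
      calc x = x * (y * y) := by rw [hsq, mul_one]
        _ = (x * y) * y := by group
        _ = y := by rw [h, one_mul])) (fun h => hy (by
      have h' : x * 1 = x * y := by rw [mul_one]; exact h
      exact (mul_left_cancel h').symm))
    have e : x * (x * y) = y := by rw [← mul_assoc, hsq, one_mul]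
    rw [e] at h
    exact h
  have L3 : ∀ x y : ↥X, x ≠ 1 → y ≠ 1 → x ≠ y →
      mul (a x) (a y - a (x * y)) = (1 / 4 : ℝ) • (a y - a (x * y)) := by
    intro x y hx hy hxy
    rw [map_sub, L1 x y hx hy hxy, L2 x y hx hy hxy]
    module
  have hS : (1 / 4 : ℝ) ∈ majoranaSpectrum := by unfold majoranaSpectrum; simp
  have hlaw : monsterLaw (1 / 4 : ℝ) (1 / 32) (1 / 4) (1 / 4) = {1, 0} := by
    unfold monsterLaw
    norm_num
  have haxis : ∀ x : ↥X, x ≠ 1 → a x ≠ 0 ∧ mul (a x) (a x) = a x ∧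
      ∀ u ∈ eigen mul (a x) (1 / 4), ∀ v ∈ eigen mul (a x) (1 / 4),
        mul u v ∈ eigenSum mul (a x) {1, 0} := by
    intro x hx
    rw [ha]
    obtain ⟨-, -, ⟨⟨hne, hid, -, hfus⟩, -⟩, -⟩ := hax x x.2 (fun h => hx (Subtype.ext h))
    refine ⟨hne, hid, ?_⟩
    intro u hu v hv
    have h := hfus (1 / 4) hS (1 / 4) hS u hu v hv
    rw [hlaw] at h
    exact h
  -- the three eigenvectors
  have n23 : x2 ≠ x3 := fun h => h3x2 h.symm
  have n13 : x1 ≠ x3 := fun h => h3x1 h.symm
  have n12 : x1 ≠ x2 := fun h => h2x1 h.symm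
  have mne : ∀ x y : ↥X, x ≠ y → x * y ≠ 1 := by
    intro x y hxy h
    apply hxy
    calc x = x * (y * y) := by rw [hsq, mul_one]
      _ = (x * y) * y := by group
      _ = y := by rw [h, one_mul]
  have m23 : x2 * x3 ≠ 1 := mne _ _ n23
  have m13 : x1 * x3 ≠ 1 := mne _ _ n13
  have m12 : x1 * x2 ≠ 1 := mne _ _ n12
  have m1_23 : x1 ≠ x2 * x3 := by
    intro h
    apply h3x12
    calc x3 = (x2 * x2) * x3 := by rw [hsq, one_mul]
      _ = x2 * (x2 * x3) := by group
      _ = x2 * x1 := by rw [← h]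
      _ = x1 * x2 := hcomm _ _
  have m2_13 : x2 ≠ x1 * x3 := by
    intro h
    apply h3x12
    calc x3 = (x1 * x1) * x3 := by rw [hsq, one_mul]
      _ = x1 * (x1 * x3) := by group
      _ = x1 * x2 := by rw [← h]
  have m12_13 : x1 * x2 ≠ x1 * x3 := fun h => n23 (mul_left_cancel h)
  have m123 : x1 * (x2 * x3) ≠ 1 := mne _ _ m1_23
  have mlast : x2 * x3 ≠ x1 * (x2 * x3) := by
    intro h
    apply hx1
    have h' : 1 * (x2 * x3) = x1 * (x2 * x3) := by rw [one_mul]; exact h
    exact (mul_right_cancel h').symm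
  have e2 := L3 x1 x2 hx1 h21 n12
  have e3 := L3 x1 x3 hx1 h31 n13
  have ew := L3 x1 (x2 * x3) hx1 m23 m1_23
  have p1 := L1 x2 x3 h21 h31 n23
  have p2 := L1 x2 (x1 * x3) h21 m13 m2_13
  have p3 := L1 (x1 * x2) x3 m12 h31 (fun h => h3x12 h.symm)
  have p4 := L1 (x1 * x2) (x1 * x3) m12 m13 m12_13
  have q2 : x2 * (x1 * x3) = x1 * (x2 * x3) := by rw [← mul_assoc, hcomm x2 x1, mul_assoc]
  have q3 : (x1 * x2) * x3 = x1 * (x2 * x3) := mul_assoc _ _ _
  have q4 : (x1 * x2) * (x1 * x3) = x2 * x3 := by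
    calc (x1 * x2) * (x1 * x3) = (x2 * x1) * (x1 * x3) := by rw [hcomm x1 x2]
      _ = x2 * (x1 * x1) * x3 := by group
      _ = x2 * x3 := by rw [hsq, mul_one]
  rw [q2] at p2
  rw [q3] at p3
  rw [q4] at p4
  have hprod : mul (a x2 - a (x1 * x2)) (a x3 - a (x1 * x3))
      = (1 / 4 : ℝ) • (a (x1 * (x2 * x3)) - a (x2 * x3)) := by
    simp only [map_sub, LinearMap.sub_apply]
    rw [p1, p2, p3, p4]
    module
  obtain ⟨hne1, hid1, hfus1⟩ := haxis x1 hx1
  obtain ⟨hne23, hid23, -⟩ := haxis (x2 * x3) m23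
  have hu2 : a x2 - a (x1 * x2) ∈ eigen mul (a x1) (1 / 4) := by
    unfold eigen; rw [Module.End.mem_eigenspace_iff]; exact e2
  have hu3 : a x3 - a (x1 * x3) ∈ eigen mul (a x1) (1 / 4) := by
    unfold eigen; rw [Module.End.mem_eigenspace_iff]; exact e3
  have hw : a (x2 * x3) - a (x1 * (x2 * x3)) ∈ eigen mul (a x1) (1 / 4) := by
    unfold eigen; rw [Module.End.mem_eigenspace_iff]; exact ew
  have hf := hfus1 _ hu2 _ hu3
  rw [hprod] at hf
  have hdisj : Disjoint (eigen mul (a x1) (1 / 4)) (eigenSum mul (a x1) {1, 0}) := by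
    have hind := Module.End.eigenspaces_iSupIndep (mul (a x1))
    refine (hind (1 / 4)).mono_right ?_
    unfold eigenSum eigen
    apply iSup₂_le
    intro c hc
    have hc' : c ≠ 1 / 4 := by
      rcases hc with rfl | rfl <;> norm_num
    exact le_iSup₂_of_le c hc' le_rfl
  have hw' : (1 / 4 : ℝ) • (a (x1 * (x2 * x3)) - a (x2 * x3)) ∈ eigen mul (a x1) (1 / 4) := by
    have h : (1 / 4 : ℝ) • (a (x1 * (x2 * x3)) - a (x2 * x3))
        = (-(1 / 4) : ℝ) • (a (x2 * x3) - a (x1 * (x2 * x3))) := by module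
    rw [h]
    exact Submodule.smul_mem _ _ hw
  have hzero := Submodule.disjoint_def.mp hdisj _ hw' hf
  have heq : a (x1 * (x2 * x3)) = a (x2 * x3) := by
    have h4 : (1 / 4 : ℝ) ≠ 0 := by norm_num
    have h := (smul_eq_zero.mp hzero).resolve_left h4
    exact sub_eq_zero.mp h
  have pK := L1 (x2 * x3) (x1 * (x2 * x3)) m23 m123 mlast
  have qK : (x2 * x3) * (x1 * (x2 * x3)) = x1 := by
    calc (x2 * x3) * (x1 * (x2 * x3)) = (x2 * x3) * ((x2 * x3) * x1) := by
          rw [hcomm x1 (x2 * x3)]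
      _ = ((x2 * x3) * (x2 * x3)) * x1 := by group
      _ = x1 := by rw [hsq, one_mul]
  rw [qK, heq, hid23] at pK
  have ha1 : a x1 = (-6 : ℝ) • a (x2 * x3) := by
    have h : a x1 = (2 : ℝ) • a (x2 * x3)
        - (8 : ℝ) • ((1 / 8 : ℝ) • (a (x2 * x3) + a (x2 * x3) - a x1)) := by module
    rw [← pK] at h
    rw [h]; module
  rw [ha1] at hid1
  simp only [map_smul, LinearMap.smul_apply] at hid1
  rw [hid23] at hid1
  apply hne23
  have h42 : (42 : ℝ) • a (x2 * x3) = 0 := by
    have h := sub_eq_zero.mpr hid1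
    rw [← h]; module
  exact (smul_eq_zero.mp h42).resolve_left (by norm_num)

end Cfsg.Agent.S5543
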