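import Cfsg.Statements.S5546
import Mathlib

set_option autoImplicit false
open Cfsg

namespace Cfsg.Agent.S5546

open Cfsg.Spor

/-- the vector `8 e_j` -/
def e8v (j : GolayPt) : GolayPt → ℤ := fun i => if i = j then 8 else 0

theorem e8v_mem (j : GolayPt) : e8v j ∈ leechSet := by
  refine mem_leechSet_of_const_mod_four (e8v j) 0 0 (by decide)
    (fun i => by unfold e8v; split_ifs <;> decide) ?_
  have h : ∑ i, e8v j i = 8 := by simp [e8v]
  rw [h]; decide

/-- `8 e_j` as a lattice vector -/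
def e8 (j : GolayPt) : leechLattice := ⟨e8v j, AddSubgroup.subset_closure (e8v_mem j)⟩

theorem e8_apply (j i : GolayPt) : ((e8 j : leechLattice) : GolayPt → ℤ) i = if i = j then 8 else 0 :=
  rfl

/-- an automorphism as an additive map -/
def toAdd (g : Equiv.Perm leechLattice) (hg : g ∈ Co0) : leechLattice →+ leechLattice :=
  AddMonoidHom.mk' g hg.1

theorem toAdd_apply (g : Equiv.Perm leechLattice) (hg : g ∈ Co0) (x : leechLattice) :
    toAdd g hg x = g x := rfl

theorem eight_smul (x : leechLattice) :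
    (8 : ℤ) • x = ∑ j, ((x : GolayPt → ℤ) j) • e8 j := by
  apply Subtype.ext
  funext i
  rw [AddSubgroup.coe_zsmul, AddSubgroup.val_finsetSum, Finset.sum_apply]
  simp [e8_apply, mul_comm]

/-- the integer matrix of `8 g` -/
def Mz (g : Equiv.Perm leechLattice) : Matrix GolayPt GolayPt ℤ :=
  Matrix.of fun i j => ((g (e8 j) : leechLattice) : GolayPt → ℤ) i

theorem Mz_apply (g : Equiv.Perm leechLattice) (i j : GolayPt) :
    Mz g i j = ((g (e8 j) : leechLattice) : GolayPt → ℤ) i := rfl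

theorem key (g : Equiv.Perm leechLattice) (hg : g ∈ Co0) (x : leechLattice) (i : GolayPt) :
    ∑ j, Mz g i j * (x : GolayPt → ℤ) j = 8 * ((g x : leechLattice) : GolayPt → ℤ) i := by
  have h := congrArg (toAdd g hg) (eight_smul x)
  rw [map_zsmul, map_sum] at h
  simp only [map_zsmul, toAdd_apply] at h
  have h2 := congrArg (fun v : leechLattice => (v : GolayPt → ℤ) i) h
  simp only [AddSubgroup.coe_zsmul, AddSubgroup.val_finsetSum, Finset.sum_apply, Pi.smul_apply,
    smul_eq_mul] at h2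
  rw [h2]
  exact Finset.sum_congr rfl (fun j _ => by rw [Mz_apply, mul_comm])

theorem Mz_mul (g h : Equiv.Perm leechLattice) (hg : g ∈ Co0) :
    Mz g * Mz h = (8 : ℤ) • Mz (g * h) := by
  ext i k
  rw [Matrix.mul_apply, Matrix.smul_apply, smul_eq_mul, Mz_apply (g * h), Equiv.Perm.mul_apply,
    ← key g hg (h (e8 k)) i]
  rfl

theorem Mz_one : Mz 1 = (8 : ℤ) • (1 : Matrix GolayPt GolayPt ℤ) := by
  ext i j
  rw [Mz_apply, Equiv.Perm.one_apply, e8_apply, Matrix.smul_apply, Matrix.one_apply]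
  split_ifs <;> simp

/-- the matrix of `g` modulo 13 -/
def Nm (g : Equiv.Perm leechLattice) : Matrix GolayPt GolayPt (ZMod 13) :=
  Matrix.of fun i j => (5 : ZMod 13) * ((Mz g i j : ℤ) : ZMod 13)

theorem Nm_apply (g : Equiv.Perm leechLattice) (i j : GolayPt) :
    Nm g i j = (5 : ZMod 13) * ((Mz g i j : ℤ) : ZMod 13) := rfl

theorem Nm_mul (g h : Equiv.Perm leechLattice) (hg : g ∈ Co0) :
    Nm g * Nm h = Nm (g * h) := by
  ext i k
  have h1 := congrFun (congrFun (Mz_mul g h hg) i) k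
  rw [Matrix.mul_apply, Matrix.smul_apply, smul_eq_mul] at h1
  have h2 := congrArg (fun z : ℤ => (z : ZMod 13)) h1
  simp only [Int.cast_sum, Int.cast_mul] at h2
  rw [Matrix.mul_apply, Nm_apply]
  simp only [Nm_apply]
  have h3 : ∀ a b : ZMod 13, (5 : ZMod 13) * a * ((5 : ZMod 13) * b)
      = (5 : ZMod 13) * (5 : ZMod 13) * (a * b) := by intro a b; ring
  simp only [h3, ← Finset.mul_sum]
  rw [h2]
  have h4 : (5 : ZMod 13) * (5 : ZMod 13) * (((8 : ℤ) : ZMod 13) * ((Mz (g * h) i k : ℤ) : ZMod 13))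
      = (5 : ZMod 13) * ((Mz (g * h) i k : ℤ) : ZMod 13) := by
    have h5 : (5 : ZMod 13) * (((8 : ℤ) : ZMod 13)) = 1 := by decide
    calc _ = (5 : ZMod 13) * ((5 : ZMod 13) * (((8 : ℤ) : ZMod 13))) * ((Mz (g * h) i k : ℤ) : ZMod 13) := by ring
      _ = _ := by rw [h5, mul_one]
  exact h4

theorem Nm_one : Nm 1 = 1 := by
  ext i j
  rw [Nm_apply, Mz_one, Matrix.smul_apply, Matrix.one_apply, Matrix.one_apply]
  split_ifs <;> simp
  decide

theorem two_u : e8 none + e8 (some 0) = (2 : ℤ) • leechU := by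
  apply Subtype.ext
  funext i
  rw [AddSubgroup.coe_add, AddSubgroup.coe_zsmul]
  simp only [Pi.add_apply, Pi.smul_apply, e8_apply, smul_eq_mul]
  show _ = 2 * vecU i
  unfold vecU
  by_cases h1 : i = none
  · subst h1; simp
  · by_cases h2 : i = some 0
    · subst h2; simp
    · simp [h1, h2]

theorem Mz_u (g : Equiv.Perm leechLattice) (hg : g ∈ Co2) (i : GolayPt) :
    Mz g i none + Mz g i (some 0) = if i = none ∨ i = some 0 then 8 else 0 := by
  have hfix : g leechU = leechU := hg.2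
  have h := congrArg (toAdd g hg.1) two_u
  rw [map_add, map_zsmul, toAdd_apply, toAdd_apply, toAdd_apply, hfix] at h
  have h2 := congrArg (fun v : leechLattice => (v : GolayPt → ℤ) i) h
  simp only [AddSubgroup.coe_add, AddSubgroup.coe_zsmul, Pi.add_apply, Pi.smul_apply,
    smul_eq_mul] at h2
  rw [Mz_apply, Mz_apply, h2]
  show 2 * vecU i = _
  unfold vecU
  split_ifs <;> norm_num

theorem Nm_u (g : Equiv.Perm leechLattice) (hg : g ∈ Co2) (i : GolayPt) :
    Nm g i none + Nm g i (some 0) = if i = none ∨ i = some 0 then 1 else 0 := by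
  rw [Nm_apply, Nm_apply, ← mul_add, ← Int.cast_add, Mz_u g hg]
  split_ifs
  · decide
  · simp

/-- the matrix of `g` on the quotient by the fixed vector -/
def Am (g : Equiv.Perm leechLattice) : Matrix (ZMod 23) (ZMod 23) (ZMod 13) :=
  Matrix.of fun k j => Nm g (some k) (some j) - (if k = 0 then Nm g none (some j) else 0)

theorem Am_apply (g : Equiv.Perm leechLattice) (k j : ZMod 23) :
    Am g k j = Nm g (some k) (some j) - (if k = 0 then Nm g none (some j) else 0) := rfl

theorem Am_mul (g h : Equiv.Perm leechLattice) (hg : g ∈ Co2) : Am g * Am h = Am (g * h) := by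
  ext k l
  rw [Matrix.mul_apply, Am_apply (g * h), ← Nm_mul g h hg.1, Matrix.mul_apply, Matrix.mul_apply,
    Fintype.sum_option, Fintype.sum_option]
  simp only [Am_apply]
  have hu1 := Nm_u g hg (some k)
  have hu2 := Nm_u g hg none
  by_cases hk : k = 0
  · subst hk
    simp only [if_true, mul_sub, sub_mul, Finset.sum_sub_distrib, mul_ite, mul_zero,
      Finset.sum_ite_eq', Finset.mem_univ] at hu1 hu2 ⊢
    simp only [or_true, true_or, if_true] at hu1 hu2
    linear_combination (-(Nm h none (some l))) * hu1 + (Nm h none (some l)) * hu2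
  · have hk' : ¬ ((some k : GolayPt) = none ∨ (some k : GolayPt) = some 0) := by
      simp [hk]
    simp only [hk, if_false, sub_zero, mul_sub, Finset.sum_sub_distrib, mul_ite, mul_zero,
      Finset.sum_ite_eq', Finset.mem_univ, if_true] at hu1 ⊢
    rw [if_neg hk'] at hu1
    linear_combination (-(Nm h none (some l))) * hu1

theorem Am_one : Am 1 = 1 := by
  ext k j
  rw [Am_apply, Nm_one, Matrix.one_apply, Matrix.one_apply, Matrix.one_apply]
  simp

/-- the homomorphism to matrices -/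
def fHom : ↥Co2 →* Matrix (ZMod 23) (ZMod 23) (ZMod 13) where
  toFun g := Am g.1
  map_one' := Am_one
  map_mul' g h := (Am_mul g.1 h.1 g.2).symm

theorem int1_aux : ∀ c ∈ Finset.Icc (-8 : ℤ) 8, (c - 8) % 13 = 0 → c = 8 ∨ c = -5 := by
  decide

theorem int39 : ∀ a ∈ Finset.Icc (-8 : ℤ) 8, ∀ b ∈ Finset.Icc (-8 : ℤ) 8,
    a ^ 2 + b ^ 2 ≠ 39 := by decide +kernel

theorem int2_aux : ∀ a ∈ Finset.Icc (-8 : ℤ) 8, ∀ b ∈ Finset.Icc (-8 : ℤ) 8,
    a ^ 2 + b ^ 2 = 64 → (b - a - 8) % 13 = 0 → (a = 0 ∧ b = 8) ∨ (a = -8 ∧ b = 0) := by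
  decide +kernel

theorem bound8 (a : ℤ) (ha : a ^ 2 ≤ 64) : a ∈ Finset.Icc (-8 : ℤ) 8 := by
  rw [Finset.mem_Icc]
  constructor <;> nlinarith

theorem small0 (a : ℤ) (ha : a ^ 2 ≤ 64) (h0 : ((a : ℤ) : ZMod 13) = 0) : a = 0 := by
  rw [ZMod.intCast_zmod_eq_zero_iff_dvd] at h0
  have h := bound8 a ha
  rw [Finset.mem_Icc] at h
  omega

theorem int1 (a b c : ℤ) (h : a ^ 2 + b ^ 2 + c ^ 2 = 64) (hc : ((c : ℤ) : ZMod 13) = 8) :
    a = 0 ∧ b = 0 ∧ c = 8 := by
  have hc8 : c ∈ Finset.Icc (-8 : ℤ) 8 := bound8 c (by nlinarith [sq_nonneg a, sq_nonneg b])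
  have ha8 : a ∈ Finset.Icc (-8 : ℤ) 8 := bound8 a (by nlinarith [sq_nonneg c, sq_nonneg b])
  have hb8 : b ∈ Finset.Icc (-8 : ℤ) 8 := bound8 b (by nlinarith [sq_nonneg a, sq_nonneg c])
  have h13 : (c - 8) % 13 = 0 := by
    have h1 : (((c - 8 : ℤ)) : ZMod 13) = 0 := by rw [Int.cast_sub, hc]; simp
    rw [ZMod.intCast_zmod_eq_zero_iff_dvd] at h1
    omega
  rcases int1_aux c hc8 h13 with rfl | rfl
  · have h2 : a ^ 2 = 0 := by nlinarith [sq_nonneg a, sq_nonneg b]
    have h3 : b ^ 2 = 0 := by nlinarith [sq_nonneg a, sq_nonneg b]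
    exact ⟨pow_eq_zero_iff (by norm_num) |>.mp h2, pow_eq_zero_iff (by norm_num) |>.mp h3, rfl⟩
  · exfalso
    exact int39 a ha8 b hb8 (by linarith)

theorem int2 (a b : ℤ) (h : a ^ 2 + b ^ 2 = 64)
    (hc : ((b : ℤ) : ZMod 13) - ((a : ℤ) : ZMod 13) = 8) :
    (a = 0 ∧ b = 8) ∨ (a = -8 ∧ b = 0) := by
  have ha8 : a ∈ Finset.Icc (-8 : ℤ) 8 := bound8 a (by nlinarith [sq_nonneg b])
  have hb8 : b ∈ Finset.Icc (-8 : ℤ) 8 := bound8 b (by nlinarith [sq_nonneg a])
  have h13 : (b - a - 8) % 13 = 0 := by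
    have h1 : (((b - a - 8 : ℤ)) : ZMod 13) = 0 := by
      rw [Int.cast_sub, Int.cast_sub, hc]; simp
    rw [ZMod.intCast_zmod_eq_zero_iff_dvd] at h1
    omega
  exact int2_aux a ha8 b hb8 h h13

theorem sqNorm_e8 (j : GolayPt) : sqNorm ((e8 j : leechLattice) : GolayPt → ℤ) = 64 := by
  show sqNorm (e8v j) = 64
  simp [sqNorm, e8v, ite_pow]

theorem sqNorm_g (g : Equiv.Perm leechLattice) (hg : g ∈ Co0) (j : GolayPt) :
    sqNorm ((g (e8 j) : leechLattice) : GolayPt → ℤ) = 64 := by
  rw [hg.2, sqNorm_e8]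

theorem coord_le (y : GolayPt → ℤ) (h : sqNorm y = 64) (i : GolayPt) : y i ^ 2 ≤ 64 := by
  rw [← h]
  exact Finset.single_le_sum (f := fun i => y i ^ 2) (fun i _ => sq_nonneg (y i))
    (Finset.mem_univ i)


theorem col_cong (g : Equiv.Perm leechLattice) (h : Am g = 1) (j k : ZMod 23) :
    ((Mz g (some k) (some j) : ℤ) : ZMod 13)
      - (if k = 0 then ((Mz g none (some j) : ℤ) : ZMod 13) else 0)
      = if k = j then 8 else 0 := by
  have h1 := congrFun (congrFun h k) j
  rw [Am_apply, Nm_apply, Nm_apply, Matrix.one_apply] at h1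
  have h8 : ∀ a c b : ZMod 13, 5 * a - 5 * c = b → a - c = 8 * b := by decide +kernel
  have h8' : ∀ a b : ZMod 13, 5 * a = b → a = 8 * b := by decide +kernel
  by_cases hk : k = 0
  · simp only [hk, if_true] at h1 ⊢
    rw [h8 _ _ _ h1]; split_ifs <;> simp
  · simp only [hk, if_false, sub_zero] at h1 ⊢
    rw [h8' _ _ h1]; split_ifs <;> simp

theorem fix_ne (g : Equiv.Perm leechLattice) (hg : g ∈ Co2) (h : Am g = 1) (j : ZMod 23)
    (hj : j ≠ 0) : g (e8 (some j)) = e8 (some j) := by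
  have hn : sqNorm ((g (e8 (some j)) : leechLattice) : GolayPt → ℤ) = 64 := sqNorm_g g hg.1 _
  have hA := fun k => col_cong g h j k
  simp only [Mz_apply] at hA
  apply Subtype.ext
  generalize ((g (e8 (some j)) : leechLattice) : GolayPt → ℤ) = y at hn hA ⊢
  have hb := coord_le y hn
  have hz : ∀ k : ZMod 23, k ≠ 0 → k ≠ j → y (some k) = 0 := by
    intro k hk0 hkj
    have h1 := hA k
    rw [if_neg hk0, if_neg hkj, sub_zero] at h1
    exact small0 _ (hb _) h1
  have hsum : sqNorm y = y none ^ 2 + (y (some 0) ^ 2 + y (some j) ^ 2) := by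
    unfold sqNorm
    rw [Fintype.sum_option]
    congr 1
    apply Finset.sum_eq_add (0 : ZMod 23) j (Ne.symm hj)
    · intro c _ hc
      rw [hz c hc.1 hc.2]; norm_num
    · intro h; exact absurd (Finset.mem_univ _) h
    · intro h; exact absurd (Finset.mem_univ _) h
  have hAj := hA j
  rw [if_neg hj, if_pos rfl, sub_zero] at hAj
  obtain ⟨h1, h2, h3⟩ := int1 (y none) (y (some 0)) (y (some j))
    (by rw [← hn, hsum]; ring) hAj
  show y = e8v (some j)
  funext i
  unfold e8v
  cases i with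
  | none => rw [h1]; simp
  | some k =>
    by_cases hkj : k = j
    · rw [hkj, h3]; simp
    · by_cases hk0 : k = 0
      · rw [hk0, h2, if_neg]; intro h; exact hj (Option.some.inj h).symm
      · rw [hz k hk0 hkj, if_neg]; intro h; exact hkj (Option.some.inj h)

theorem fix_zero (g : Equiv.Perm leechLattice) (hg : g ∈ Co2) (h : Am g = 1) :
    g (e8 (some 0)) = e8 (some 0) := by
  have hn : sqNorm ((g (e8 (some 0)) : leechLattice) : GolayPt → ℤ) = 64 := sqNorm_g g hg.1 _
  have hA := fun k => col_cong g h 0 k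
  have hu := Mz_u g hg none
  rw [if_pos (Or.inl rfl)] at hu
  have hz2 := coord_le _ (sqNorm_g g hg.1 none) none
  simp only [Mz_apply] at hA hu
  apply Subtype.ext
  generalize ((g (e8 (some 0)) : leechLattice) : GolayPt → ℤ) = y at hn hA hu ⊢
  have hb := coord_le y hn
  have hz : ∀ k : ZMod 23, k ≠ 0 → y (some k) = 0 := by
    intro k hk0
    have h1 := hA k
    rw [if_neg hk0, if_neg hk0, sub_zero] at h1
    exact small0 _ (hb _) h1
  have hsum : sqNorm y = y none ^ 2 + y (some 0) ^ 2 := by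
    unfold sqNorm
    rw [Fintype.sum_option]
    congr 1
    apply Finset.sum_eq_single (0 : ZMod 23)
    · intro c _ hc; rw [hz c hc]; norm_num
    · intro h; exact absurd (Finset.mem_univ _) h
  have hA0 := hA 0
  rw [if_pos rfl, if_pos rfl] at hA0
  rcases int2 (y none) (y (some 0)) (by rw [← hn, hsum]) hA0 with ⟨h1, h2⟩ | ⟨h1, h2⟩
  · show y = e8v (some 0)
    funext i
    unfold e8v
    cases i with
    | none => rw [h1]; simp
    | some k =>
      by_cases hk0 : k = 0
      · rw [hk0, h2]; simp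
      · rw [hz k hk0, if_neg]; intro h; exact hk0 (Option.some.inj h)
  · exfalso
    have h16 : ((g (e8 none) : leechLattice) : GolayPt → ℤ) none = 16 := by linarith
    rw [h16] at hz2
    norm_num at hz2

theorem fix_none (g : Equiv.Perm leechLattice) (hg : g ∈ Co2) (h : Am g = 1) :
    g (e8 none) = e8 none := by
  apply Subtype.ext
  funext i
  have hu := Mz_u g hg i
  rw [Mz_apply, Mz_apply, fix_zero g hg h, e8_apply] at hu
  rw [e8_apply]
  by_cases h1 : i = none
  · subst h1
    simp at hu ⊢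
    exact hu
  · by_cases h2 : i = some 0
    · subst h2
      simp at hu ⊢
      exact hu
    · simp [h1, h2] at hu ⊢
      exact hu

theorem eq_one_of_Am (g : Equiv.Perm leechLattice) (hg : g ∈ Co2) (h : Am g = 1) : g = 1 := by
  have hfix : ∀ i : GolayPt, g (e8 i) = e8 i := by
    intro i
    cases i with
    | none => exact fix_none g hg h
    | some j =>
      by_cases hj : j = 0
      · rw [hj]; exact fix_zero g hg h
      · exact fix_ne g hg h j hj
  have hM : Mz g = Mz 1 := by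
    ext i j
    rw [Mz_apply, Mz_apply, hfix j]; rfl
  apply Equiv.ext
  intro x
  apply Subtype.ext
  funext i
  have k1 := key g hg.1 x i
  have k2 := key 1 (one_mem _) x i
  rw [hM] at k1
  rw [k1] at k2
  exact mul_left_cancel₀ (by norm_num) k2

theorem fHom_inj : Function.Injective fHom.toHomUnits := by
  rw [injective_iff_map_eq_one]
  intro a ha
  have h2 : Am a.1 = 1 := congrArg Units.val ha
  exact Subtype.ext (eq_one_of_Am a.1 a.2 h2)


/-- The second Conway group (the stabilizer in the Leech lattice automorphism group of the short vector fixed in the definitions) is isomorphic to a subgroup of the general linear group of degree 23 over the field with 13 elements: there is an injective homomorphism into it. -/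
theorem result : ∃ f : ↥Cfsg.Spor.Co2 →* GL (Fin 23) (ZMod 13), Function.Injective f := by
  let e : ZMod 23 ≃ Fin 23 := Equiv.refl (Fin 23)
  let φ : GL (ZMod 23) (ZMod 13) ≃* GL (Fin 23) (ZMod 13) :=
    Units.mapEquiv (Matrix.reindexAlgEquiv (ZMod 13) (ZMod 13) e).toMulEquiv
  exact ⟨φ.toMonoidHom.comp fHom.toHomUnits, φ.injective.comp fHom_inj⟩


end Cfsg.Agent.S5546
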