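import Cfsg.Statements.S5548
import Cfsg.Agent.Helper28.M24Act
import Cfsg.Agent.S5393

set_option autoImplicit false
open Cfsg

namespace Cfsg.Agent.S5548

open Cfsg.Agent.Helper28.Code Cfsg.Agent.Helper28.Leech Cfsg.Agent.Helper28.Octads
open Cfsg.Agent.Helper28.M24Act
open scoped Pointwise

/-- invariance of a subspace under the automorphisms of the code -/
def Inv (W : Submodule (ZMod 2) (GolayPt → ZMod 2)) : Prop :=
  ∀ σ ∈ M24, ∀ w ∈ W, (fun p => w (σ.symm p)) ∈ W

/-- the span of the all-ones word -/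
abbrev J : Submodule (ZMod 2) (GolayPt → ZMod 2) :=
  Submodule.span (ZMod 2) {fun _ => (1 : ZMod 2)}

theorem mem_J (w : GolayPt → ZMod 2) : w ∈ J ↔ w = 0 ∨ w = 1 := by
  rw [Submodule.mem_span_singleton]
  constructor
  · rintro ⟨a, rfl⟩
    rcases zmod2_cases a with rfl | rfl
    · left; simp
    · right; funext p; simp
  · rintro (rfl | rfl)
    · exact ⟨0, by simp⟩
    · exact ⟨1, by funext p; simp⟩

theorem inv_inf {W : Submodule (ZMod 2) (GolayPt → ZMod 2)} (hW : Inv W) :
    Inv (W ⊓ golayCode) :=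
  fun σ hσ w hw => ⟨hW σ hσ w hw.1, act_mem hσ hw.2⟩

theorem inv_sup {W : Submodule (ZMod 2) (GolayPt → ZMod 2)} (hW : Inv W) :
    Inv (W ⊔ golayCode) := by
  intro σ hσ w hw
  obtain ⟨a, ha, c, hc, rfl⟩ := Submodule.mem_sup.mp hw
  exact Submodule.mem_sup.mpr ⟨_, hW σ hσ a ha, _, act_mem hσ hc, rfl⟩

theorem inv_supJ {W : Submodule (ZMod 2) (GolayPt → ZMod 2)} (hW : Inv W) :
    Inv (W ⊔ J) := by
  intro σ hσ w hw
  obtain ⟨a, ha, c, hc, rfl⟩ := Submodule.mem_sup.mp hw
  refine Submodule.mem_sup.mpr ⟨_, hW σ hσ a ha, c, hc, ?_⟩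
  rcases (mem_J c).mp hc with rfl | rfl <;> rfl

theorem perm_single (σ : Equiv.Perm GolayPt) (a : GolayPt) :
    (fun p => ofSet {a} (σ.symm p)) = ofSet {σ a} := by
  rw [perm_ofSet, Finset.smul_finset_singleton]; rfl

/-- **Claim A**: an invariant subspace of the code is zero, the all-ones line, or the code. -/
theorem claimA {W : Submodule (ZMod 2) (GolayPt → ZMod 2)} (hW : Inv W)
    (hWC : W ≤ golayCode) : W = ⊥ ∨ W = J ∨ W = golayCode := by
  have h1 : (fun _ => (1 : ZMod 2)) ∈ W ⊔ J :=
    Submodule.mem_sup_right (Submodule.subset_span rfl)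
  have hJC : J ≤ golayCode := by
    rw [Submodule.span_le]; rintro w rfl; exact one_mem
  rcases Cfsg.Agent.S5393.result.2 (W ⊔ J) h1 (sup_le hWC hJC) (inv_supJ hW) with h | h
  · have hWJ : W ≤ J := by
      have h' : W ≤ W ⊔ J := le_sup_left
      rwa [h] at h'
    by_cases h0 : W = ⊥
    · exact Or.inl h0
    · right; left
      apply le_antisymm hWJ
      obtain ⟨w, hw, hw0⟩ := (Submodule.ne_bot_iff W).mp h0
      rcases (mem_J w).mp (hWJ hw) with rfl | rfl
      · exact absurd rfl hw0
      · rw [Submodule.span_le]; rintro x rfl; exact hw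
  · right; right
    have key : ∀ o ∈ octads, ofSet o ∈ W ∨ ofSet o + 1 ∈ W := by
      intro o ho
      have hoC : ofSet o ∈ W ⊔ J := by rw [h]; exact ((mem_oct o).mp ho).1
      obtain ⟨a, ha, c, hc, hac⟩ := Submodule.mem_sup.mp hoC
      rcases (mem_J c).mp hc with rfl | rfl
      · left; rw [← hac, add_zero]; exact ha
      · right; rw [← hac, add_assoc, add_self, add_zero]; exact ha
    have hoct : ∃ o ∈ octads, ofSet o ∈ W := by
      obtain ⟨T, hT4⟩ : ∃ T : Finset GolayPt, T.card = 4 := by
        obtain ⟨T, -, hT⟩ := Finset.exists_subset_card_eq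
          (s := (Finset.univ : Finset GolayPt)) (n := 4)
          (by rw [Finset.card_univ, card_pts]; norm_num)
        exact ⟨T, hT⟩
      obtain ⟨F, hF6, hTF, hF4, hFd, hFC, hFm, hFcov⟩ := gsextet T hT4
      have hc5 : (F.erase T).card = 5 := by rw [Finset.card_erase_of_mem hTF, hF6]
      obtain ⟨S1, hS1⟩ : (F.erase T).Nonempty := by rw [← Finset.card_pos]; omega
      obtain ⟨S2, hS2⟩ : ((F.erase T).erase S1).Nonempty := by
        rw [← Finset.card_pos, Finset.card_erase_of_mem hS1]; omega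
      have hS1' := Finset.mem_erase.mp hS1
      have hS2' := Finset.mem_erase.mp hS2
      have hS2'' := Finset.mem_erase.mp hS2'.2
      have o1 := union_mem_octads hF4 hFd hFC hTF hS1'.2 (Ne.symm hS1'.1)
      have o2 := union_mem_octads hF4 hFd hFC hTF hS2''.2 (Ne.symm hS2''.1)
      have o3 := union_mem_octads hF4 hFd hFC hS1'.2 hS2''.2 (Ne.symm hS2'.1)
      have e : ofSet (T ∪ S1) + ofSet (T ∪ S2) = ofSet (S1 ∪ S2) := by
        rw [ofSet_union (hFd T hTF S1 hS1'.2 (Ne.symm hS1'.1)),
          ofSet_union (hFd T hTF S2 hS2''.2 (Ne.symm hS2''.1)),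
          ofSet_union (hFd S1 hS1'.2 S2 hS2''.2 (Ne.symm hS2'.1)),
          add_add_add_comm, add_self, zero_add]
      rcases key _ o1 with k1 | k1
      · exact ⟨_, o1, k1⟩
      rcases key _ o2 with k2 | k2
      · exact ⟨_, o2, k2⟩
      refine ⟨_, o3, ?_⟩
      have h3 := W.add_mem k1 k2
      rw [add_add_add_comm, add_self, add_zero, e] at h3
      exact h3
    obtain ⟨o, ho, hoW⟩ := hoct
    apply le_antisymm hWC
    rw [← span_octads card_pts golayCode Cfsg.Agent.Helper3.golayCode_finrank golay_H2,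
      Submodule.span_le]
    rintro c ⟨hc, hc8⟩
    have hco : support₂ c ∈ octads :=
      (mem_oct _).mpr ⟨by rw [ofSet_supp]; exact hc, by rw [← norm_eq]; exact hc8⟩
    obtain ⟨g, hg, hgo⟩ := Cfsg.Agent.Helper12.M24_trans_octads ho hco
    have h2 := hW g hg _ hoW
    rw [perm_ofSet, hgo, ofSet_supp] at h2
    exact h2

theorem trans4' {p q r s p' q' r' s' : GolayPt} (hpq : p ≠ q) (hpr : p ≠ r) (hps : p ≠ s)
    (hqr : q ≠ r) (hqs : q ≠ s) (hrs : r ≠ s) (hpq' : p' ≠ q') (hpr' : p' ≠ r')
    (hps' : p' ≠ s') (hqr' : q' ≠ r') (hqs' : q' ≠ s') (hrs' : r' ≠ s') :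
    ∃ g ∈ M24, g p = p' ∧ g q = q' ∧ g r = r' ∧ g s = s' := by
  obtain ⟨g1, hg1, e1, f1, k1, l1⟩ := Cfsg.Agent.Helper12.M24_trans4 hpq hpr hps hqr hqs hrs
  obtain ⟨g2, hg2, e2, f2, k2, l2⟩ :=
    Cfsg.Agent.Helper12.M24_trans4 hpq' hpr' hps' hqr' hqs' hrs'
  refine ⟨g2 * g1⁻¹, mul_mem hg2 (inv_mem hg1), ?_, ?_, ?_, ?_⟩
  · rw [← e1]; simp [e2]
  · rw [← f1]; simp [f2]
  · rw [← k1]; simp [k2]
  · rw [← l1]; simp [l2]

theorem smul_eq_self_of_fix (σ : Equiv.Perm GolayPt) (S : Finset GolayPt)
    (h : ∀ x ∈ S, σ x = x) : σ • S = S := by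
  ext y
  rw [Finset.mem_smul_finset]
  constructor
  · rintro ⟨x, hx, rfl⟩; rw [Equiv.Perm.smul_def, h x hx]; exact hx
  · intro hy; exact ⟨y, hy, h y hy⟩

/-- a set of at most three points is stabilized by an element moving a given outside point
to another -/
theorem fixS (S : Finset GolayPt) (hS : S.card ≤ 3) (d e : GolayPt) (hd : d ∉ S)
    (he : e ∉ S) : ∃ σ ∈ M24, σ • S = S ∧ σ d = e := by
  by_cases hde : d = e
  · exact ⟨1, one_mem _, one_smul _ _, by rw [hde]; rfl⟩
  have h : S.card = 0 ∨ S.card = 1 ∨ S.card = 2 ∨ S.card = 3 := by omega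
  rcases h with h | h | h | h
  · rw [Finset.card_eq_zero] at h
    subst h
    obtain ⟨g, hg, hgd⟩ := Cfsg.Agent.Helper12.M24_trans_pt d e
    exact ⟨g, hg, Finset.smul_finset_empty _, hgd⟩
  · obtain ⟨a, rfl⟩ := Finset.card_eq_one.mp h
    simp only [Finset.mem_singleton] at hd he
    obtain ⟨g, hg, h1, h2⟩ := Cfsg.Agent.Helper12.M24_trans2' (p := a) (q := d) (p' := a)
      (q' := e) (Ne.symm hd) (Ne.symm he)
    refine ⟨g, hg, smul_eq_self_of_fix g _ ?_, h2⟩
    intro x hx
    rw [Finset.mem_singleton] at hx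
    rw [hx, h1]
  · obtain ⟨a, b, hab, rfl⟩ := Finset.card_eq_two.mp h
    simp only [Finset.mem_insert, Finset.mem_singleton, not_or] at hd he
    obtain ⟨g, hg, h1, h2, h3⟩ := Cfsg.Agent.Helper12.M24_trans3' (p := a) (q := b) (r := d)
      (p' := a) (q' := b) (r' := e) hab (Ne.symm hd.1) (Ne.symm hd.2) hab (Ne.symm he.1)
      (Ne.symm he.2)
    refine ⟨g, hg, smul_eq_self_of_fix g _ ?_, h3⟩
    intro x hx
    simp only [Finset.mem_insert, Finset.mem_singleton] at hx
    rcases hx with rfl | rfl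
    · exact h1
    · exact h2
  · obtain ⟨a, b, c, hab, hac, hbc, rfl⟩ := Finset.card_eq_three.mp h
    simp only [Finset.mem_insert, Finset.mem_singleton, not_or] at hd he
    obtain ⟨g, hg, h1, h2, h3, h4⟩ := trans4' (p := a) (q := b) (r := c) (s := d)
      (p' := a) (q' := b) (r' := c) (s' := e) hab hac (Ne.symm hd.1) hbc (Ne.symm hd.2.1)
      (Ne.symm hd.2.2) hab hac (Ne.symm he.1) hbc (Ne.symm he.2.1) (Ne.symm he.2.2)
    refine ⟨g, hg, smul_eq_self_of_fix g _ ?_, h4⟩
    intro x hx
    simp only [Finset.mem_insert, Finset.mem_singleton] at hx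
    rcases hx with rfl | rfl | rfl
    · exact h1
    · exact h2
    · exact h3

theorem pairs_of_pair {W : Submodule (ZMod 2) (GolayPt → ZMod 2)} (hW : Inv W)
    {i j : GolayPt} (hij : i ≠ j) (hp : ofSet {i} + ofSet {j} ∈ W) :
    ∀ a b : GolayPt, ofSet {a} + ofSet {b} ∈ W := by
  intro a b
  by_cases hab : a = b
  · rw [hab, add_self]; exact W.zero_mem
  obtain ⟨g, hg, hgi, hgj⟩ := Cfsg.Agent.Helper12.M24_trans2' hij hab
  have h4 := hW g hg _ hp
  have ee : (fun p => (ofSet {i} + ofSet {j} : GolayPt → ZMod 2) (g.symm p))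
      = (fun p => ofSet {i} (g.symm p)) + (fun p => ofSet {j} (g.symm p)) := rfl
  rw [ee, perm_single, perm_single, hgi, hgj] at h4
  exact h4

theorem pairs_of_leader {W : Submodule (ZMod 2) (GolayPt → ZMod 2)} (hW : Inv W)
    (L : Finset GolayPt) (h1 : 1 ≤ L.card) (h4 : L.card ≤ 4) (hL : ofSet L ∈ W) :
    ∀ i j : GolayPt, ofSet {i} + ofSet {j} ∈ W := by
  obtain ⟨d, hd⟩ : L.Nonempty := by rw [← Finset.card_pos]; omega
  obtain ⟨e, -, he⟩ : ∃ e ∈ (Finset.univ : Finset GolayPt), e ∉ L :=
    Finset.exists_mem_notMem_of_card_lt_card (by rw [Finset.card_univ, card_pts]; omega)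
  have hde : d ≠ e := by rintro rfl; exact he hd
  have heL : e ∉ L.erase d := fun h => he (Finset.mem_of_mem_erase h)
  obtain ⟨σ, hσ, hσS, hσd⟩ := fixS (L.erase d) (by rw [Finset.card_erase_of_mem hd]; omega)
    d e (Finset.notMem_erase d L) heL
  have hLd : ofSet L = ofSet (L.erase d) + ofSet {d} := by
    rw [← ofSet_union (Finset.disjoint_singleton_right.mpr (Finset.notMem_erase d L)),
      Finset.union_comm, ← Finset.insert_eq, Finset.insert_erase hd]
  have h2 := hW σ hσ _ hL
  have hσL : (fun p => ofSet L (σ.symm p)) = ofSet (L.erase d) + ofSet {e} := by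
    have e1 : (fun p => ofSet L (σ.symm p))
        = (fun p => ofSet (L.erase d) (σ.symm p)) + (fun p => ofSet {d} (σ.symm p)) := by
      rw [hLd]; rfl
    rw [e1, perm_ofSet, perm_single, hσS, hσd]
  have h3 := W.add_mem h2 hL
  rw [hσL] at h3
  rw [hLd, add_add_add_comm, add_self, zero_add] at h3
  exact pairs_of_pair hW (Ne.symm hde) h3

/-- the even-weight words -/
def evenSub : Submodule (ZMod 2) (GolayPt → ZMod 2) where
  carrier := {w | ∑ p, w p = 0}
  add_mem' := by
    intro a b ha hb
    simp only [Set.mem_ofPred_eq, Pi.add_apply, Finset.sum_add_distrib] at *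
    rw [ha, hb, add_zero]
  zero_mem' := by simp
  smul_mem' := by
    intro c x hx
    simp only [Set.mem_ofPred_eq, Pi.smul_apply, smul_eq_mul, ← Finset.mul_sum] at *
    rw [hx, mul_zero]

theorem mem_even (w : GolayPt → ZMod 2) : w ∈ evenSub ↔ ∑ p, w p = 0 := Iff.rfl

theorem sum_ofSet (s : Finset GolayPt) : ∑ p, ofSet s p = (s.card : ZMod 2) := by
  simp [ofSet]

theorem code_le_even : golayCode ≤ evenSub := by
  intro c hc
  rw [mem_even, ← ofSet_supp c, sum_ofSet]
  have h := weights (support₂ c) (by rw [ofSet_supp]; exact hc)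
  rcases h with h | h | h | h | h <;> rw [h] <;> decide

theorem even_le_of_pairs {W : Submodule (ZMod 2) (GolayPt → ZMod 2)}
    (hp : ∀ i j : GolayPt, ofSet {i} + ofSet {j} ∈ W) : evenSub ≤ W := by
  intro w hw
  rw [mem_even] at hw
  have e : w = ∑ p, w p • (ofSet {p} + ofSet {(none : GolayPt)}) := by
    funext q
    rw [Finset.sum_apply]
    simp only [Pi.smul_apply, Pi.add_apply, smul_eq_mul, mul_add, Finset.sum_add_distrib,
      ← Finset.sum_mul, hw, zero_mul, add_zero]
    simp [ofSet]
  rw [e]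
  exact Submodule.sum_mem _ (fun p _ => W.smul_mem _ (hp p none))

theorem eq_even_or_top {W : Submodule (ZMod 2) (GolayPt → ZMod 2)} (h : evenSub ≤ W) :
    W = evenSub ∨ W = ⊤ := by
  by_cases h' : W ≤ evenSub
  · exact Or.inl (le_antisymm h' h)
  · right
    obtain ⟨w0, hw0, hw0E⟩ := SetLike.not_le_iff_exists.mp h'
    rw [eq_top_iff]
    intro v _
    rcases zmod2_cases (∑ p, v p) with hv | hv
    · exact h hv
    · have h1 : ∑ p, w0 p = 1 := by
        rcases zmod2_cases (∑ p, w0 p) with h | h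
        · exact absurd h hw0E
        · exact h
      have h3 : v + w0 ∈ evenSub := by
        rw [mem_even]
        simp only [Pi.add_apply, Finset.sum_add_distrib, hv, h1]
        decide
      have h2 := W.add_mem (h h3) hw0
      rwa [add_assoc, add_self, add_zero] at h2

/-- **Claim B**: an invariant subspace containing the code is the code, the even-weight
words, or everything. -/
theorem claimB {W : Submodule (ZMod 2) (GolayPt → ZMod 2)} (hW : Inv W)
    (hC : golayCode ≤ W) : W = golayCode ∨ W = evenSub ∨ W = ⊤ := by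
  by_cases h : W ≤ golayCode
  · exact Or.inl (le_antisymm h hC)
  · right
    obtain ⟨w, hw, hwC⟩ := SetLike.not_le_iff_exists.mp h
    obtain ⟨L, hL, h1, h4⟩ := exists_leader w hwC
    have hLW : ofSet L ∈ W := by
      have h2 := W.add_mem (hC hL) hw
      rwa [sub_add_cancel] at h2
    exact eq_even_or_top (even_le_of_pairs (pairs_of_leader hW L h1 h4 hLW))

theorem octad_not_J {o : Finset GolayPt} (ho : o.card = 8) : ofSet o ∉ J := by
  intro h
  have hs := supp_ofSet o
  rcases (mem_J _).mp h with h | h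
  · rw [h, ← ofSet_empty, supp_ofSet] at hs
    rw [← hs] at ho
    simp at ho
  · rw [h, ← ofSet_univ, supp_ofSet] at hs
    rw [← hs, Finset.card_univ, card_pts] at ho
    omega

/-- **Claim C**: an invariant subspace cannot meet the code inside the all-ones line and
together with the code span the even-weight words. -/
theorem claimC {W : Submodule (ZMod 2) (GolayPt → ZMod 2)} (hW : Inv W)
    (h1 : W ⊓ golayCode ≤ J) (h2 : evenSub ≤ W ⊔ golayCode) : False := by
  have step1 : ∀ i j : GolayPt, i ≠ j →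
      ofSet {i} + ofSet {j} ∈ W ∨ ofSet {i} + ofSet {j} + 1 ∈ W := by
    intro i j hij
    have hE : ofSet {i} + ofSet {j} ∈ evenSub := by
      rw [mem_even]
      simp only [Pi.add_apply, Finset.sum_add_distrib, sum_ofSet, Finset.card_singleton]
      decide
    obtain ⟨w, hw, c, hc, hwc⟩ := Submodule.mem_sup.mp (h2 hE)
    have hw' : w = ofSet {i} + ofSet {j} + c := by
      rw [← hwc, add_assoc, add_self, add_zero]
    by_cases hcJ : c = 0 ∨ c = 1
    · rcases hcJ with rfl | rfl
      · left; rw [← hwc, add_zero]; exact hw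
      · right; rw [← hw']; exact hw
    · exfalso
      push Not at hcJ
      have hwt := weights (support₂ c) (by rw [ofSet_supp]; exact hc)
      have hn0 : (support₂ c).card ≠ 0 := by
        intro h; apply hcJ.1; rw [← ofSet_supp c, Finset.card_eq_zero.mp h, ofSet_empty]
      have hn24 : (support₂ c).card ≠ 24 := by
        intro h; apply hcJ.2
        have h' : support₂ c = Finset.univ := Finset.eq_univ_of_card _ (by rw [h, card_pts])
        rw [← ofSet_supp c, h', ofSet_univ]
      have hp2 : ({i, j} : Finset GolayPt).card ≤ 2 := Finset.card_le_two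
      have hA : 6 ≤ ((support₂ c) \ {i, j}).card := by
        have := Finset.le_card_sdiff {i, j} (support₂ c)
        omega
      have hB : 6 ≤ ((support₂ c)ᶜ \ {i, j}).card := by
        have := Finset.le_card_sdiff {i, j} (support₂ c)ᶜ
        have h3 := Finset.card_compl (support₂ c)
        rw [card_pts] at h3
        omega
      obtain ⟨x, hx⟩ : ((support₂ c) \ {i, j}).Nonempty := by rw [← Finset.card_pos]; omega
      obtain ⟨z, hz⟩ : (((support₂ c) \ {i, j}).erase x).Nonempty := by
        rw [← Finset.card_pos, Finset.card_erase_of_mem hx]; omega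
      obtain ⟨y, hy⟩ : ((support₂ c)ᶜ \ {i, j}).Nonempty := by rw [← Finset.card_pos]; omega
      simp only [Finset.mem_sdiff, Finset.mem_insert, Finset.mem_singleton, not_or,
        Finset.mem_erase, Finset.mem_compl] at hx hz hy
      have hxy : x ≠ y := by rintro rfl; exact hy.1 hx.1
      obtain ⟨σ, hσ, hσi, hσj, hσx, hσz⟩ := trans4' (p := i) (q := j) (r := x) (s := z)
        (p' := i) (q' := j) (r' := x) (s' := y) hij (Ne.symm hx.2.1) (Ne.symm hz.2.2.1)
        (Ne.symm hx.2.2) (Ne.symm hz.2.2.2) (Ne.symm hz.1) hij (Ne.symm hx.2.1)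
        (Ne.symm hy.2.1) (Ne.symm hx.2.2) (Ne.symm hy.2.2) hxy
      have hv := W.add_mem (hW σ hσ w hw) hw
      have ev : (fun p => w (σ.symm p)) + w = (fun p => c (σ.symm p)) + c := by
        have e1 : (fun p => w (σ.symm p)) = (fun p => ofSet {i} (σ.symm p))
            + (fun p => ofSet {j} (σ.symm p)) + (fun p => c (σ.symm p)) := by
          rw [hw']; rfl
        rw [e1, perm_single, perm_single, hσi, hσj]
        conv_lhs => rw [hw']
        rw [add_add_add_comm, add_self, zero_add]
      rw [ev] at hv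
      have hvJ := h1 ⟨hv, golayCode.add_mem (act_mem hσ hc) hc⟩
      have hsx : σ.symm x = x := by rw [Equiv.symm_apply_eq]; exact hσx.symm
      have hsy : σ.symm y = z := by rw [Equiv.symm_apply_eq]; exact hσz.symm
      have cx : c x = 1 := (mem_supp' c x).mp hx.1
      have cz : c z = 1 := (mem_supp' c z).mp hz.2.1
      have cy : c y = 0 := by by_contra h; exact hy.1 ((mem_supp c y).mpr h)
      rcases (mem_J _).mp hvJ with h | h
      · have h5 := congrFun h y
        simp only [Pi.add_apply, hsy, cz, cy, Pi.zero_apply] at h5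
        exact absurd h5 (by decide)
      · have h5 := congrFun h x
        simp only [Pi.add_apply, hsx, cx, Pi.one_apply] at h5
        exact absurd h5 (by decide)
  have step2 : ∃ i j : GolayPt, i ≠ j ∧ ofSet {i} + ofSet {j} ∈ W := by
    have h01 : (none : GolayPt) ≠ some 0 := by simp
    have h02 : (none : GolayPt) ≠ some 1 := by simp
    have h12 : (some 0 : GolayPt) ≠ some 1 := by decide
    rcases step1 _ _ h01 with h | h
    · exact ⟨_, _, h01, h⟩
    rcases step1 _ _ h02 with h' | h'
    · exact ⟨_, _, h02, h'⟩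
    refine ⟨_, _, h12, ?_⟩
    have h3 := W.add_mem h h'
    have e : ofSet {(none : GolayPt)} + ofSet {(some 0 : GolayPt)} + 1
        + (ofSet {(none : GolayPt)} + ofSet {(some 1 : GolayPt)} + 1)
        = ofSet {(some 0 : GolayPt)} + ofSet {(some 1 : GolayPt)} := by
      rw [add_add_add_comm, add_self, add_zero, add_add_add_comm, add_self, zero_add]
    rwa [e] at h3
  obtain ⟨i, j, hij, hp⟩ := step2
  have hEW := even_le_of_pairs (pairs_of_pair hW hij hp)
  have hCW : golayCode ≤ W := code_le_even.trans hEW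
  have ho := Cfsg.Agent.Helper12.OA_mem (by norm_num : 0 < 759)
  rw [mem_oct] at ho
  exact octad_not_J ho.2 (h1 ⟨hCW ho.1, ho.1⟩)

/-- For the automorphism group of the length-24 binary Golay code of the definitions (the Mathieu group of degree 24) acting on binary words of length 24 by permuting coordinates, the only invariant subspaces of the space of all words are: zero, the span of the all-ones word, the code itself, the even-weight words, and the whole space. (So the permutation module has a unique composition series.) -/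
theorem result (W : Submodule (ZMod 2) (Cfsg.GolayPt → ZMod 2)) (hW : ∀ σ ∈ Cfsg.M24, ∀ w ∈ W, (fun p => w (σ.symm p)) ∈ W) : W = ⊥ ∨ W = Submodule.span (ZMod 2) {fun _ => (1 : ZMod 2)} ∨ W = Cfsg.golayCode ∨ (W : Set (Cfsg.GolayPt → ZMod 2)) = {w | ∑ p, w p = 0} ∨ W = ⊤ := by
  have hI : Inv W := hW
  by_cases hCW : golayCode ≤ W
  · rcases claimB hI hCW with h | h | h
    · exact Or.inr (Or.inr (Or.inl h))
    · exact Or.inr (Or.inr (Or.inr (Or.inl (by rw [h]; rfl))))
    · exact Or.inr (Or.inr (Or.inr (Or.inr h)))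
  by_cases hWC : W ≤ golayCode
  · rcases claimA hI hWC with h | h | h
    · exact Or.inl h
    · exact Or.inr (Or.inl h)
    · exact Or.inr (Or.inr (Or.inl h))
  exfalso
  have h1 : W ⊓ golayCode ≤ J := by
    rcases claimA (inv_inf hI) inf_le_right with h | h | h
    · rw [h]; exact bot_le
    · rw [h]
    · exact absurd (by rw [← h]; exact inf_le_left) hCW
  have h2 : evenSub ≤ W ⊔ golayCode := by
    rcases claimB (inv_sup hI) le_sup_right with h | h | h
    · exact absurd (by rw [← h]; exact le_sup_left) hWC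
    · rw [h]
    · rw [h]; exact le_top
  exact claimC hI h1 h2

end Cfsg.Agent.S5548
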