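import Cfsg.Statements.S5550
import Cfsg.Agent.Helper28.M24Act

set_option autoImplicit false
open Cfsg

namespace Cfsg.Agent.S5550

open Cfsg.Agent.Helper28.Code Cfsg.Agent.Helper28.Leech Cfsg.Agent.Helper28.Octads
open Cfsg.Agent.Helper28.M24Act
open scoped Pointwise

/-- a set of points whose stabilizer in `M24` fixes the code word `u` and has the required
transitivity -/
theorem exists_set (u : GolayPt → ZMod 2) (hu : u ∈ golayCode) :
    ∃ U : Finset GolayPt, Trans U ∧ 5 ≤ U.card ∧ (U = Finset.univ ∨ 5 ≤ Uᶜ.card) ∧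
      (∀ σ : Equiv.Perm GolayPt, σ • U = U → (fun p => u (σ.symm p)) = u) := by
  have hwt := weights (support₂ u) (by rw [ofSet_supp]; exact hu)
  rcases hwt with h | h | h | h | h
  · refine ⟨Finset.univ, trans_univ, by rw [Finset.card_univ, card_pts]; norm_num, Or.inl rfl,
      fun σ _ => ?_⟩
    have hu0 : u = 0 := by rw [← ofSet_supp u, Finset.card_eq_zero.mp h, ofSet_empty]
    rw [hu0]; rfl
  · refine ⟨support₂ u, trans_octad ((mem_oct _).mpr ⟨by rw [ofSet_supp]; exact hu, h⟩),
      by omega, Or.inr (by rw [Finset.card_compl, card_pts, h]; norm_num), fun σ hσ => ?_⟩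
    rw [← ofSet_supp u, perm_ofSet, hσ]
  · refine ⟨support₂ u, trans_dodecad ((mem_dod _).mpr ⟨by rw [ofSet_supp]; exact hu, h⟩),
      by omega, Or.inr (by rw [Finset.card_compl, card_pts, h]; norm_num), fun σ hσ => ?_⟩
    rw [← ofSet_supp u, perm_ofSet, hσ]
  · have hV : (support₂ u)ᶜ ∈ octads := by
      rw [mem_oct, ofSet_compl, ofSet_supp, Finset.card_compl, card_pts, h]
      exact ⟨golayCode.add_mem one_mem hu, rfl⟩
    have hV8 := ((mem_oct _).mp hV).2
    refine ⟨(support₂ u)ᶜ, trans_octad hV, by omega,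
      Or.inr (by rw [compl_compl, h]; norm_num), fun σ hσ => ?_⟩
    have hu1 : u = 1 + ofSet (support₂ u)ᶜ := by
      rw [← ofSet_compl, compl_compl, ofSet_supp]
    have e : (fun p => u (σ.symm p)) = 1 + (fun p => ofSet (support₂ u)ᶜ (σ.symm p)) := by
      funext p
      conv_lhs => rw [hu1]
      rfl
    rw [e, perm_ofSet, hσ, ← hu1]
  · refine ⟨Finset.univ, trans_univ, by rw [Finset.card_univ, card_pts]; norm_num, Or.inl rfl,
      fun σ _ => ?_⟩
    have hs : support₂ u = Finset.univ := by
      rw [← Finset.card_eq_iff_eq_univ, card_pts]; exact h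
    have hu1 : u = 1 := by rw [← ofSet_supp u, hs, ofSet_univ]
    rw [hu1]; rfl

/-- Let u be a word of the length-24 binary Golay code of the definitions (possibly zero or all-ones) and w any binary word of length 24 outside the code. Then some automorphism of the code (a coordinate permutation preserving it) fixes u but moves w to a word not congruent to w modulo the code: the stabilizer of a codeword fixes no non-zero element of the quotient of the space of all words by the code. -/
theorem result (u : (Cfsg.GolayPt → ZMod 2)) (hu : u ∈ Cfsg.golayCode) (w : (Cfsg.GolayPt → ZMod 2)) (hw : w ∉ Cfsg.golayCode) : ∃ σ ∈ Cfsg.M24, (fun p => u (σ.symm p)) = u ∧ (fun p => w (σ.symm p)) - w ∉ Cfsg.golayCode := by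
  obtain ⟨U, hT, hU5, hUc, hfix⟩ := exists_set u hu
  obtain ⟨σ, hσ, hσU, hσw⟩ := exists_move_word hT hU5 hUc w hw
  exact ⟨σ, hσ, hfix σ hσU, hσw⟩

end Cfsg.Agent.S5550
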