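import Cfsg.Statements.S5594
import Cfsg.Agent.Helper3.GolayLemmas
import Cfsg.Agent.Helper28.LeechGolay
import Cfsg.Agent.S0432
import Cfsg.Agent.S0433

set_option autoImplicit false
open Cfsg

namespace Cfsg.Agent.S5594

open Cfsg.Agent.Helper28.Code Cfsg.Agent.Helper28.Leech

/-- the dodecad of squares -/
def sqSet : Finset GolayPt := support₂ (qrWord 0)

theorem sqSet_mem : sqSet ∈ supports (golayCode : Set (GolayPt → ZMod 2)) :=
  ⟨qrWord 0, Submodule.subset_span (Or.inl ⟨0, rfl⟩), rfl⟩

theorem projInv_sq : ∀ i : GolayPt, projInv (projInv i) = i := by decide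

theorem projInv_swap : ∀ i : GolayPt, (projInv i ∈ sqSet ↔ ¬ (i ∈ sqSet)) := by decide

/-- the underlying map of an automorphism of order four -/
def gFun (v : leechLattice) : leechLattice :=
  ⟨fun i => if i ∈ sqSet then -(v : GolayPt → ℤ) (projInv i) else (v : GolayPt → ℤ) (projInv i),
    Cfsg.Agent.S0433.result sqSet sqSet_mem (fun i => (v : GolayPt → ℤ) (projInv i))
      (Cfsg.Agent.S0432.result projInv Cfsg.Agent.Helper3.projInv_mem_M24 _ v.2)⟩

theorem gFun_apply (v : leechLattice) (i : GolayPt) :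
    (gFun v : GolayPt → ℤ) i
      = if i ∈ sqSet then -(v : GolayPt → ℤ) (projInv i) else (v : GolayPt → ℤ) (projInv i) := rfl

theorem gFun_gFun (v : leechLattice) : gFun (gFun v) = -v := by
  apply Subtype.ext
  funext i
  rw [gFun_apply, gFun_apply, projInv_sq]
  have h := projInv_swap i
  show _ = -((v : GolayPt → ℤ) i)
  by_cases hi : i ∈ sqSet
  · have h2 : ¬ (projInv i ∈ sqSet) := fun h3 => (h.mp h3) hi
    rw [if_pos hi, if_neg h2]
  · have h2 : projInv i ∈ sqSet := h.mpr hi
    rw [if_neg hi, if_pos h2]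

theorem gFun_add (v w : leechLattice) : gFun (v + w) = gFun v + gFun w := by
  apply Subtype.ext
  funext i
  show (gFun (v + w) : GolayPt → ℤ) i = (gFun v : GolayPt → ℤ) i + (gFun w : GolayPt → ℤ) i
  rw [gFun_apply, gFun_apply, gFun_apply]
  show (if i ∈ sqSet then -((v : GolayPt → ℤ) (projInv i) + (w : GolayPt → ℤ) (projInv i))
    else (v : GolayPt → ℤ) (projInv i) + (w : GolayPt → ℤ) (projInv i)) = _
  by_cases hi : i ∈ sqSet
  · rw [if_pos hi, if_pos hi, if_pos hi]; ring
  · rw [if_neg hi, if_neg hi, if_neg hi]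

theorem gFun_neg (v : leechLattice) : gFun (-v) = -gFun v := by
  apply Subtype.ext
  funext i
  show (gFun (-v) : GolayPt → ℤ) i = -((gFun v : GolayPt → ℤ) i)
  rw [gFun_apply, gFun_apply]
  show (if i ∈ sqSet then -(-(v : GolayPt → ℤ) (projInv i)) else -(v : GolayPt → ℤ) (projInv i)) = _
  by_cases hi : i ∈ sqSet
  · rw [if_pos hi, if_pos hi]
  · rw [if_neg hi, if_neg hi]

theorem gFun_norm (v : leechLattice) :
    sqNorm ((gFun v : leechLattice) : GolayPt → ℤ) = sqNorm (v : GolayPt → ℤ) := by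
  unfold sqNorm
  rw [← Equiv.sum_comp projInv (fun i => (v : GolayPt → ℤ) i ^ 2)]
  apply Finset.sum_congr rfl
  intro i _
  rw [gFun_apply]
  by_cases hi : i ∈ sqSet
  · rw [if_pos hi]; ring
  · rw [if_neg hi]

/-- an automorphism squaring to negation -/
def gPerm : Equiv.Perm leechLattice where
  toFun := gFun
  invFun := fun v => -gFun v
  left_inv := fun v => by
    show -gFun (gFun v) = v
    rw [gFun_gFun, neg_neg]
  right_inv := fun v => by
    show gFun (-gFun v) = v
    rw [gFun_neg, gFun_gFun, neg_neg]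

theorem gPerm_mem : gPerm ∈ Co0 := ⟨gFun_add, gFun_norm⟩

/-- negation -/
def negPerm : Equiv.Perm leechLattice where
  toFun := fun v => -v
  invFun := fun v => -v
  left_inv := fun v => neg_neg v
  right_inv := fun v => neg_neg v

theorem negPerm_mem : negPerm ∈ Co0 :=
  ⟨fun v w => neg_add v w, fun v => sqNorm_neg (v : GolayPt → ℤ)⟩

theorem map_neg_of_mem {f : Equiv.Perm leechLattice} (hf : f ∈ Co0) (v : leechLattice) :
    f (-v) = -f v := by
  have h0 : f 0 = 0 := by
    have h := hf.1 0 0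
    rw [add_zero] at h
    exact left_eq_add.mp h
  have h := hf.1 v (-v)
  rw [add_neg_cancel, h0] at h
  exact (neg_eq_of_add_eq_zero_right h.symm).symm

/-- a nonzero lattice vector -/
def v0 : leechLattice :=
  ⟨fun i => if i = none then 8 else 0, by
    rw [mem_leechLattice_iff, mem_leechSet_iff]
    refine ⟨0, ?_, ?_, ?_⟩
    · intro i
      by_cases hi : i = none
      · rw [if_pos hi]; decide
      · rw [if_neg hi]
    · rw [Finset.sum_ite_eq' Finset.univ none (fun _ => (8 : ℤ))]
      simp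
    · have hr : res (fun i : GolayPt => if i = none then (8 : ℤ) else 0) 0 = Finset.univ := by
        ext i
        rw [mem_res]
        by_cases hi : i = none
        · simp [hi]; decide
        · simp [hi]
      rw [hr, ofSet_univ]; exact one_mem⟩

/-- The automorphism group of the Leech lattice contains the negation map, and the subgroup of order 2 it generates has no complement: the automorphism group is a non-split extension of its quotient by that subgroup (it is not the direct product of a group of order 2 with the first Conway group). -/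
theorem result :
    ∃ n : ↥Cfsg.Co0, (∀ v : ↥Cfsg.leechLattice, ((n • v : ↥Cfsg.leechLattice) : Cfsg.GolayPt → ℤ) = -(v : Cfsg.GolayPt → ℤ)) ∧
    ∀ K : Subgroup ↥Cfsg.Co0, ¬ (Subgroup.zpowers n).IsComplement' K := by
  refine ⟨⟨negPerm, negPerm_mem⟩, fun v => rfl, ?_⟩
  intro K hK
  have hn2 : (⟨negPerm, negPerm_mem⟩ : Co0) * ⟨negPerm, negPerm_mem⟩ = 1 := by
    apply Subtype.ext
    apply Equiv.ext
    intro v
    show -(-v) = v
    exact neg_neg v
  have hcomm : ∀ f : Co0, (⟨negPerm, negPerm_mem⟩ : Co0) * f = f * ⟨negPerm, negPerm_mem⟩ := by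
    intro f
    apply Subtype.ext
    apply Equiv.ext
    intro v
    show -((f : Equiv.Perm leechLattice) v) = (f : Equiv.Perm leechLattice) (-v)
    rw [map_neg_of_mem f.2]
  have hg2 : (⟨gPerm, gPerm_mem⟩ : Co0) * ⟨gPerm, gPerm_mem⟩ = ⟨negPerm, negPerm_mem⟩ := by
    apply Subtype.ext
    apply Equiv.ext
    intro v
    show gFun (gFun v) = -v
    exact gFun_gFun v
  obtain ⟨⟨a, k⟩, hak⟩ := hK.2 ⟨gPerm, gPerm_mem⟩
  have hak' : (a : Co0) * (k : Co0) = ⟨gPerm, gPerm_mem⟩ := hak
  obtain ⟨j, hj⟩ := Subgroup.mem_zpowers_iff.mp a.2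
  have ha2 : (a : Co0) * (a : Co0) = 1 := by
    rw [← hj, ← zpow_add, ← two_mul, zpow_mul, zpow_two, hn2, one_zpow]
  have hac : (a : Co0) * (k : Co0) = (k : Co0) * (a : Co0) := by
    rw [← hj]
    have hc : Commute (⟨negPerm, negPerm_mem⟩ : Co0) (k : Co0) := hcomm _
    exact (hc.zpow_left j)
  have hk2 : (k : Co0) * (k : Co0) = ⟨negPerm, negPerm_mem⟩ := by
    rw [← hg2, ← hak']
    calc (k : Co0) * (k : Co0) = ((a : Co0) * (a : Co0)) * ((k : Co0) * (k : Co0)) := by
          rw [ha2, one_mul]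
      _ = (a : Co0) * ((a : Co0) * (k : Co0)) * (k : Co0) := by group
      _ = (a : Co0) * ((k : Co0) * (a : Co0)) * (k : Co0) := by rw [hac]
      _ = (a : Co0) * (k : Co0) * ((a : Co0) * (k : Co0)) := by group
  have hnK : (⟨negPerm, negPerm_mem⟩ : Co0) ∈ K := by
    rw [← hk2]; exact K.mul_mem k.2 k.2
  have hnZ : (⟨negPerm, negPerm_mem⟩ : Co0) ∈ Subgroup.zpowers (⟨negPerm, negPerm_mem⟩ : Co0) :=
    Subgroup.mem_zpowers _
  have hbot : (⟨negPerm, negPerm_mem⟩ : Co0) ∈ (⊥ : Subgroup Co0) := by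
    rw [← hK.disjoint.eq_bot]
    exact ⟨hnZ, hnK⟩
  rw [Subgroup.mem_bot] at hbot
  have h1 : negPerm v0 = v0 := by
    have h2 := congrArg (fun f : Co0 => (f : Equiv.Perm leechLattice) v0) hbot
    exact h2
  have h3 : (-(v0 : leechLattice) : GolayPt → ℤ) none = (v0 : GolayPt → ℤ) none := by
    have h4 := congrArg (fun v : leechLattice => (v : GolayPt → ℤ) none) h1
    exact h4
  have h5 : (v0 : GolayPt → ℤ) none = 8 := rfl
  have h6 : (-(v0 : leechLattice) : GolayPt → ℤ) none = -8 := by
    show -((v0 : GolayPt → ℤ) none) = -8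
    rw [h5]
  rw [h5, h6] at h3
  norm_num at h3

end Cfsg.Agent.S5594
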