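import Cfsg.Statements.S5599
import Cfsg.Agent.Helper28.CoAut
import Cfsg.Agent.S5548

set_option autoImplicit false
open scoped Pointwise
open Cfsg

namespace Cfsg.Agent.S5599

open Cfsg.Spor Cfsg.Agent.Helper28.Code Cfsg.Agent.Helper28.Leech
open scoped Pointwise

theorem mem_M22 (x : Equiv.Perm GolayPt) :
    x ∈ M22 ↔ (x ∈ M24 ∧ x none = none) ∧ x (some 0) = some 0 := Iff.rfl

theorem pair_cases {b : Equiv.Perm GolayPt}
    (hb : b • ({none, some 0} : Finset GolayPt) = {none, some 0}) :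
    (b none = none ∧ b (some 0) = some 0) ∨ (b none = some 0 ∧ b (some 0) = none) := by
  have h1 : b none ∈ ({none, some 0} : Finset GolayPt) := by
    rw [← hb]; exact Finset.smul_mem_smul_finset (by simp)
  have h2 : b (some 0) ∈ ({none, some 0} : Finset GolayPt) := by
    rw [← hb]; exact Finset.smul_mem_smul_finset (by simp)
  have hne : b none ≠ b (some 0) := fun h => by
    have := b.injective h
    simp at this
  simp only [Finset.mem_insert, Finset.mem_singleton] at h1 h2
  rcases h1 with h1 | h1 <;> rcases h2 with h2 | h2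
  · exact absurd (h1.trans h2.symm) hne
  · exact Or.inl ⟨h1, h2⟩
  · exact Or.inr ⟨h1, h2⟩
  · exact absurd (h1.trans h2.symm) hne

/-- In the automorphism group of the length-24 code, the two-point Mathieu group (permutations of the code's group fixing the extra point and the residue 0) has index 2 in the setwise stabiliser of that pair of points, and an element of the code's group interchanging the two points normalises the two-point group and induces on it, by conjugation, an automorphism that is not inner. -/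
theorem result (g : Equiv.Perm Cfsg.GolayPt) (hg : g ∈ Cfsg.M24) (h₁ : g none = some 0) (h₂ : g (some 0) = none) : Cfsg.Spor.M22.relIndex (Cfsg.M24 ⊓ MulAction.stabilizer (Equiv.Perm Cfsg.GolayPt) ({none, some 0} : Finset Cfsg.GolayPt)) = 2 ∧ (∀ x ∈ Cfsg.Spor.M22, g * x * g⁻¹ ∈ Cfsg.Spor.M22) ∧ ¬ ∃ h ∈ Cfsg.Spor.M22, ∀ x ∈ Cfsg.Spor.M22, g * x * g⁻¹ = h * x * h⁻¹ := by
  have hgi1 : g⁻¹ none = some 0 := by rw [← h₂]; simp
  have hgi2 : g⁻¹ (some 0) = none := by rw [← h₁]; simp
  refine ⟨?_, ?_, ?_⟩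
  · -- index two
    have hgK : g ∈ M24 ⊓ MulAction.stabilizer (Equiv.Perm GolayPt)
        ({none, some 0} : Finset GolayPt) := by
      refine ⟨hg, ?_⟩
      show g • ({none, some 0} : Finset GolayPt) = {none, some 0}
      rw [Finset.smul_finset_insert, Finset.smul_finset_singleton]
      show ({g none, g (some 0)} : Finset GolayPt) = {none, some 0}
      rw [h₁, h₂, Finset.pair_comm]
    show (M22.subgroupOf _).index = 2
    rw [Subgroup.index_eq_two_iff]
    refine ⟨⟨g, hgK⟩, fun b => ?_⟩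
    have hbM : (b : Equiv.Perm GolayPt) ∈ M24 := b.2.1
    have hb : (b : Equiv.Perm GolayPt) • ({none, some 0} : Finset GolayPt) = {none, some 0} := b.2.2
    rw [Subgroup.mem_subgroupOf, Subgroup.mem_subgroupOf, mem_M22, mem_M22]
    rcases pair_cases hb with ⟨e1, e2⟩ | ⟨e1, e2⟩
    · right
      refine ⟨⟨⟨hbM, e1⟩, e2⟩, ?_⟩
      rintro ⟨⟨-, h3⟩, -⟩
      have h4 : (b : Equiv.Perm GolayPt) (g none) = none := h3
      rw [h₁, e2] at h4
      simp at h4
    · left
      refine ⟨⟨⟨mul_mem hbM hg, ?_⟩, ?_⟩, ?_⟩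
      · show (b : Equiv.Perm GolayPt) (g none) = none
        rw [h₁, e2]
      · show (b : Equiv.Perm GolayPt) (g (some 0)) = some 0
        rw [h₂, e1]
      · rintro ⟨⟨-, h3⟩, -⟩
        rw [e1] at h3
        simp at h3
  · intro x hx
    rw [mem_M22] at hx ⊢
    obtain ⟨⟨hxM, hx1⟩, hx2⟩ := hx
    refine ⟨⟨mul_mem (mul_mem hg hxM) (inv_mem hg), ?_⟩, ?_⟩
    · show g (x (g⁻¹ none)) = none
      rw [hgi1, hx2, h₂]
    · show g (x (g⁻¹ (some 0))) = some 0
      rw [hgi2, hx1, h₁]
  · rintro ⟨h, hh, hall⟩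
    rw [mem_M22] at hh
    obtain ⟨⟨hhM, hh1⟩, hh2⟩ := hh
    have hhi1 : h⁻¹ none = none := by
      conv_lhs => rw [← hh1]
      simp
    have hhi2 : h⁻¹ (some 0) = some 0 := by
      conv_lhs => rw [← hh2]
      simp
    -- c = h⁻¹ g commutes with M22
    have hc : h⁻¹ * g ∈ M24 := mul_mem (inv_mem hhM) hg
    have hc1 : (h⁻¹ * g) none = some 0 := by
      show h⁻¹ (g none) = some 0
      rw [h₁, hhi2]
    have hc2 : (h⁻¹ * g) (some 0) = none := by
      show h⁻¹ (g (some 0)) = none
      rw [h₂, hhi1]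
    have hcomm : ∀ x ∈ M22, (h⁻¹ * g) * x = x * (h⁻¹ * g) := by
      intro x hx
      have h3 := hall x hx
      calc (h⁻¹ * g) * x = h⁻¹ * (g * x * g⁻¹) * g := by group
        _ = h⁻¹ * (h * x * h⁻¹) * g := by rw [h3]
        _ = x * (h⁻¹ * g) := by group
    have hfix : ∀ q : GolayPt, q ≠ none → q ≠ some 0 → (h⁻¹ * g) q = q := by
      intro q hq1 hq2
      by_contra hne
      have hq'1 : (h⁻¹ * g) q ≠ none := by
        intro e
        rw [← hc2] at e
        exact hq2 ((h⁻¹ * g).injective e)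
      have hq'2 : (h⁻¹ * g) q ≠ some 0 := by
        intro e
        rw [← hc1] at e
        exact hq1 ((h⁻¹ * g).injective e)
      obtain ⟨r, -, hr⟩ : ∃ r ∈ (Finset.univ : Finset GolayPt),
          r ∉ ({none, some 0, q, (h⁻¹ * g) q} : Finset GolayPt) := by
        apply Finset.exists_mem_notMem_of_card_lt_card
        have h4 : ({none, some 0, q, (h⁻¹ * g) q} : Finset GolayPt).card ≤ 4 :=
          Finset.card_le_four
        rw [Finset.card_univ, card_pts]
        omega
      simp only [Finset.mem_insert, Finset.mem_singleton, not_or] at hr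
      obtain ⟨x, hxM, e1, e2, e3, e4⟩ := Cfsg.Agent.S5548.trans4' (p := none) (q := some 0)
        (r := q) (s := (h⁻¹ * g) q) (p' := none) (q' := some 0) (r' := q) (s' := r)
        (by simp) (Ne.symm hq1) (Ne.symm hq'1) (Ne.symm hq2) (Ne.symm hq'2) (Ne.symm hne)
        (by simp) (Ne.symm hq1) (Ne.symm hr.1) (Ne.symm hq2) (Ne.symm hr.2.1)
        (Ne.symm hr.2.2.1)
      have hxM22 : x ∈ M22 := ⟨⟨hxM, e1⟩, e2⟩
      have h5 := congrArg (fun τ : Equiv.Perm GolayPt => τ q) (hcomm x hxM22)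
      have h6 : (h⁻¹ * g) (x q) = x ((h⁻¹ * g) q) := h5
      rw [e3, e4] at h6
      exact hr.2.2.2 h6.symm
    obtain ⟨o, hoC, ho8, hno, h0o⟩ := exists_octad_sep (some 0) none (by simp)
    have ho : o ∈ octads := (Cfsg.Agent.Helper28.Octads.mem_oct o).mpr ⟨hoC, ho8⟩
    have ho' : (h⁻¹ * g) • o ∈ octads := (Cfsg.Agent.Helper12.smul_mem_octads hc).mpr ho
    have hsub : o.erase none ⊆ (h⁻¹ * g) • o ∩ o := by
      intro p hp
      rw [Finset.mem_erase] at hp
      rw [Finset.mem_inter]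
      refine ⟨?_, hp.2⟩
      have hp0 : p ≠ some 0 := by rintro rfl; exact h0o hp.2
      have h7 : (h⁻¹ * g) • p ∈ (h⁻¹ * g) • o := Finset.smul_mem_smul_finset hp.2
      rw [Equiv.Perm.smul_def, hfix p hp.1 hp0] at h7
      exact h7
    have h5 : 5 ≤ ((h⁻¹ * g) • o ∩ o).card := by
      have h8 := Finset.card_le_card hsub
      rw [Finset.card_erase_of_mem hno, ho8] at h8
      omega
    have heq := Cfsg.Agent.Helper3.octad_eq_of_inter ho' ho h5
    have h9 : (h⁻¹ * g) • (none : GolayPt) ∈ (h⁻¹ * g) • o := Finset.smul_mem_smul_finset hno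
    rw [heq, Equiv.Perm.smul_def, hc1] at h9
    exact h0o h9

end Cfsg.Agent.S5599
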