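import Cfsg.Statements.S5600
import Cfsg.Agent.Helper28.SixPts

set_option autoImplicit false
open scoped Pointwise
open Cfsg

namespace Cfsg.Agent.S5600

open Cfsg.Agent.Helper3 Cfsg.Agent.Helper28.SixPts

/-- Although the group of the length-24 code is only 5-transitive on the 24 points, it induces the full symmetric group on every 6-element subset: every permutation of a 6-set E is the restriction of an element of the group mapping E to itself. The pointwise stabiliser of E has order 16 when E lies in an octad and order 3 otherwise; in the latter case the setwise stabiliser of E has order 2160. -/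
theorem result (E : Finset Cfsg.GolayPt) (hE : E.card = 6) : (∀ σ : Equiv.Perm ↥E, ∃ g ∈ Cfsg.M24, ∀ p : ↥E, g p = σ p) ∧ ((∃ o ∈ Cfsg.octads, E ⊆ o) → Nat.card {g : Equiv.Perm Cfsg.GolayPt // g ∈ Cfsg.M24 ∧ ∀ p ∈ E, g p = p} = 16) ∧ ((¬ ∃ o ∈ Cfsg.octads, E ⊆ o) → Nat.card {g : Equiv.Perm Cfsg.GolayPt // g ∈ Cfsg.M24 ∧ ∀ p ∈ E, g p = p} = 3 ∧ Nat.card ↥(MulAction.stabilizer Cfsg.M24 E) = 2160) := by
  obtain ⟨x, a, hx, ha, hcover, hne⟩ := exists_frame hE
  obtain ⟨g, hg, hgx⟩ := exists_map_base5 x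
  obtain ⟨hb, hoct⟩ := octad_iff ha hcover hx hne hg hgx
  have hcard := card_fix ha hcover hx hg hgx
  refine ⟨induce hE, fun h => ?_, fun h => ?_⟩
  · rw [hcard, card_stab5 (hoct.mp h)]
  · have hb6 : g⁻¹ a ∈ ptSet orb6 := by
      rcases trich (g⁻¹ a) with ⟨h1, -, -⟩ | ⟨-, h2, -⟩ | ⟨-, -, h3⟩
      · exact absurd h1 hb
      · exact absurd (hoct.mpr h2) h
      · exact h3
    have h3 := card_stab6 hb6
    refine ⟨by rw [hcard, h3], ?_⟩
    rw [card_setwise hE, hcard, h3]

end Cfsg.Agent.S5600
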