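import Cfsg.Statements.S5601
import Cfsg.Agent.Helper28.Ord3Fix

set_option autoImplicit false
open scoped Pointwise
open Cfsg

namespace Cfsg.Agent.S5601

open Cfsg.Agent.Helper12 Cfsg.Agent.Helper28.Ord3 Cfsg.Agent.Helper28.Ord3Fix
  Cfsg.Agent.Helper28.ClassTools

/-- the points fixed by the subgroup generated by an element -/
theorem fixset_zpowers (x : ↥M24) :
    {p : GolayPt | ∀ y ∈ Subgroup.zpowers x, ((y : ↥M24) : Equiv.Perm GolayPt) p = p}
      = ↑(Finset.univ.filter fun p => (x : Equiv.Perm GolayPt) p = p) := by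
  ext p
  simp only [Set.mem_ofPred_eq, Finset.coe_filter, Finset.mem_univ, true_and]
  constructor
  · intro h
    exact h x (Subgroup.mem_zpowers x)
  · intro h y hy
    have hx : x ∈ MulAction.stabilizer ↥M24 p := by
      rw [MulAction.mem_stabilizer_iff]
      exact h
    have := (Subgroup.zpowers_le.2 hx) hy
    rw [MulAction.mem_stabilizer_iff] at this
    exact this

theorem ncard_fixset_zpowers (x : ↥M24) :
    {p : GolayPt | ∀ y ∈ Subgroup.zpowers x, ((y : ↥M24) : Equiv.Perm GolayPt) p = p}.ncard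
      = (Finset.univ.filter fun p => (x : Equiv.Perm GolayPt) p = p).card := by
  rw [fixset_zpowers, Set.ncard_coe_finset]

/-- a subgroup of order 3 is generated by an element of order 3 -/
theorem exists_gen (X : Subgroup ↥M24) (hX : Nat.card X = 3) :
    ∃ x : ↥M24, orderOf (x : Equiv.Perm GolayPt) = 3 ∧ X = Subgroup.zpowers x := by
  have : Finite X := Nat.finite_of_card_ne_zero (by rw [hX]; norm_num)
  have hne : X ≠ ⊥ := by
    intro h
    rw [h, Subgroup.card_bot] at hX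
    exact absurd hX (by norm_num)
  obtain ⟨a, ha⟩ := (Subgroup.ne_bot_iff_exists_ne_one (H := X)).1 hne
  obtain ⟨x, hx, hx1⟩ : ∃ x : ↥M24, x ∈ X ∧ x ≠ 1 :=
    ⟨(a : ↥M24), a.2, fun h => ha (Subtype.ext h)⟩
  have hle : Subgroup.zpowers x ≤ X := Subgroup.zpowers_le.2 hx
  have hord : orderOf x = 3 := by
    have h1 : orderOf x ∣ 3 := by
      rw [← hX, ← Nat.card_zpowers]
      exact Subgroup.card_dvd_of_le hle
    rcases (Nat.dvd_prime (by norm_num : Nat.Prime 3)).1 h1 with h | h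
    · exact absurd (orderOf_eq_one_iff.1 h) hx1
    · exact h
  refine ⟨x, ?_, ?_⟩
  · rw [Subgroup.orderOf_coe]; exact hord
  · symm
    apply Subgroup.eq_of_le_of_card_ge hle
    rw [Nat.card_zpowers, hord, hX]

theorem card_zpowers_of {g : Equiv.Perm GolayPt} (hg : g ∈ M24) (h3 : orderOf g = 3) :
    Nat.card (Subgroup.zpowers (⟨g, hg⟩ : ↥M24)) = 3 := by
  rw [Nat.card_zpowers, ← Subgroup.orderOf_coe]
  exact h3

theorem conj_zpowers (k x : ↥M24) :
    MulAut.conj k • Subgroup.zpowers x = Subgroup.zpowers (k * x * k⁻¹) := by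
  have h : MulAut.conj k • Subgroup.zpowers x
      = (Subgroup.zpowers x).map (MulAut.conj k).toMonoidHom := rfl
  rw [h, MonoidHom.map_zpowers]
  rfl

/-- two elements of order 3 with the same number of fixed points are conjugate -/
theorem conj_of_card {x y : Equiv.Perm GolayPt} (hx : x ∈ M24) (hy : y ∈ M24)
    (h3x : orderOf x = 3) (h3y : orderOf y = 3)
    (h : (Finset.univ.filter fun p => x p = p).card = (Finset.univ.filter fun p => y p = p).card) :
    ∃ k ∈ M24, k * x * k⁻¹ = y := by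
  have key : ∀ h0 : Equiv.Perm GolayPt, (∃ k ∈ M24, k * x * k⁻¹ = h0) →
      (∃ k ∈ M24, k * y * k⁻¹ = h0) → ∃ k ∈ M24, k * x * k⁻¹ = y := by
    rintro h0 ⟨k, hk, e⟩ ⟨k', hk', e'⟩
    refine ⟨k'⁻¹ * k, mul_mem (inv_mem hk') hk, ?_⟩
    have : y = k'⁻¹ * h0 * k' := by rw [← e']; group
    rw [this, ← e]; group
  by_cases hfx : ∀ p, x p ≠ p
  · have hfy : ∀ p, y p ≠ p := by
      have h0 : (Finset.univ.filter fun p => x p = p).card = 0 := by
        rw [Finset.card_eq_zero, Finset.filter_eq_empty_iff]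
        intro p _; exact hfx p
      rw [h0] at h
      have := h.symm
      rw [Finset.card_eq_zero, Finset.filter_eq_empty_iff] at this
      intro p; exact this (Finset.mem_univ p)
    exact key hB (conj_hB hx h3x hfx) (conj_hB hy h3y hfy)
  · have hfy : ¬ ∀ p, y p ≠ p := by
      intro hfy
      have h0 : (Finset.univ.filter fun p => y p = p).card = 0 := by
        rw [Finset.card_eq_zero, Finset.filter_eq_empty_iff]
        intro p _; exact hfy p
      rw [h0] at h
      rw [Finset.card_eq_zero, Finset.filter_eq_empty_iff] at h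
      exact hfx (fun p => h (Finset.mem_univ p))
    exact key hA (conj_hA hx h3x hfx) (conj_hA hy h3y hfy)

/-- The group of the length-24 code has exactly two conjugacy classes of subgroups of order 3: a subgroup of order 3 fixes either exactly 6 of the 24 points or none of them, both cases occur, and two subgroups of order 3 with the same number of fixed points are conjugate. -/
theorem result : (∀ X : Subgroup ↥Cfsg.M24, Nat.card X = 3 → {p : Cfsg.GolayPt | ∀ x ∈ X, ((x : ↥Cfsg.M24) : Equiv.Perm Cfsg.GolayPt) p = p}.ncard = 6 ∨ {p : Cfsg.GolayPt | ∀ x ∈ X, ((x : ↥Cfsg.M24) : Equiv.Perm Cfsg.GolayPt) p = p}.ncard = 0) ∧ (∃ X : Subgroup ↥Cfsg.M24, Nat.card X = 3 ∧ {p : Cfsg.GolayPt | ∀ x ∈ X, ((x : ↥Cfsg.M24) : Equiv.Perm Cfsg.GolayPt) p = p}.ncard = 6) ∧ (∃ X : Subgroup ↥Cfsg.M24, Nat.card X = 3 ∧ {p : Cfsg.GolayPt | ∀ x ∈ X, ((x : ↥Cfsg.M24) : Equiv.Perm Cfsg.GolayPt) p = p}.ncard = 0) ∧ ∀ X Y : Subgroup ↥Cfsg.M24, Nat.card X = 3 → Nat.card Y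 = 3 → {p : Cfsg.GolayPt | ∀ x ∈ X, ((x : ↥Cfsg.M24) : Equiv.Perm Cfsg.GolayPt) p = p}.ncard = {p : Cfsg.GolayPt | ∀ x ∈ Y, ((x : ↥Cfsg.M24) : Equiv.Perm Cfsg.GolayPt) p = p}.ncard → ∃ k : ↥Cfsg.M24, MulAut.conj k • X = Y := by
  refine ⟨?_, ?_, ?_, ?_⟩
  · intro X hX
    obtain ⟨x, hx3, rfl⟩ := exists_gen X hX
    rw [ncard_fixset_zpowers]
    exact ord3_card_fix x.2 hx3
  · refine ⟨Subgroup.zpowers (⟨hA, hA_mem⟩ : ↥M24),
      card_zpowers_of hA_mem (order_of_cube hA_cube hA_ne), ?_⟩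
    rw [ncard_fixset_zpowers]
    exact hA_card_fix
  · refine ⟨Subgroup.zpowers (⟨hB, hB_mem⟩ : ↥M24),
      card_zpowers_of hB_mem (order_of_cube hB_cube hB_ne), ?_⟩
    rw [ncard_fixset_zpowers]
    exact hB_card_fix
  · intro X Y hX hY h
    obtain ⟨x, hx3, rfl⟩ := exists_gen X hX
    obtain ⟨y, hy3, rfl⟩ := exists_gen Y hY
    rw [ncard_fixset_zpowers, ncard_fixset_zpowers] at h
    obtain ⟨k, hk, e⟩ := conj_of_card x.2 y.2 hx3 hy3 h
    refine ⟨⟨k, hk⟩, ?_⟩
    rw [conj_zpowers]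
    congr 1
    exact Subtype.ext e

end Cfsg.Agent.S5601
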