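import Cfsg.Statements.S5602
import Cfsg.Agent.Helper28.Ord3Fix

set_option autoImplicit false
open scoped Pointwise
open Cfsg

namespace Cfsg.Agent.S5602

open Cfsg.Agent.Helper12 Cfsg.Agent.Helper28.Sext Cfsg.Agent.Helper28.Trio
  Cfsg.Agent.Helper28.Ord3 Cfsg.Agent.Helper28.Ord3Fix

/-- An element of order 3 of the group of the length-24 code having exactly 6 fixed points maps to themselves exactly 21 octads, exactly 15 trios, exactly 16 sextets and exactly 20 dodecads. -/
theorem result (g : Equiv.Perm Cfsg.GolayPt) (hg : g ∈ Cfsg.M24) (h₃ : orderOf g = 3) (h₆ : (Finset.univ.filter fun p => g p = p).card = 6) : {o : Finset Cfsg.GolayPt | o ∈ Cfsg.octads ∧ g • o = o}.ncard = 21 ∧ {T : Finset (Finset Cfsg.GolayPt) | T ∈ Cfsg.trios ∧ g • T = T}.ncard = 15 ∧ {S : Finset (Finset Cfsg.GolayPt) | S ∈ Cfsg.sextets ∧ g • S = S}.ncard = 16 ∧ {d : Finset Cfsg.GolayPt | d ∈ Cfsg.dodecads ∧ g • d = d}.ncard = 20 := by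
  have hf : ¬ ∀ p, g p ≠ p := by
    intro h
    rw [Finset.card_eq_zero.2 (Finset.filter_eq_empty_iff.2 (fun p _ => h p))] at h₆
    exact absurd h₆ (by norm_num)
  obtain ⟨k, hk, e⟩ := conj_hA hg h₃ hf
  obtain ⟨h1, h2, h3, h4⟩ := hA_counts
  exact ⟨ncard_conj (octads : Set (Finset GolayPt)) e (fun _ => smul_mem_octads hk) h1,
    ncard_conj (trios : Set (Finset (Finset GolayPt))) e (fun _ => smul_trio_iff hk) h2,
    ncard_conj (sextets : Set (Finset (Finset GolayPt))) e (fun _ => smul_sextet_iff hk) h3,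
    ncard_conj (dodecads : Set (Finset GolayPt)) e (fun _ => smul_mem_dodecads hk) h4⟩

end Cfsg.Agent.S5602
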