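import Cfsg.Statements.S5607
import Cfsg.Agent.Helper28.CentB

set_option autoImplicit false
open scoped Pointwise
open Cfsg

namespace Cfsg.Agent.S5607

open Cfsg.Agent.Helper12 Cfsg.Agent.Helper28.InvClass Cfsg.Agent.Helper28.ClassTools
  Cfsg.Agent.Helper28.CentB Cfsg.Agent.Helper28.Sext

theorem to_CB {k c : Equiv.Perm GolayPt} (hk : k ∈ M24) (hc : c ∈ M24)
    (hcomm : c * (k⁻¹ * gB * k) = (k⁻¹ * gB * k) * c) : k * c * k⁻¹ ∈ CB := by
  refine mem_CB.2 ⟨mul_mem (mul_mem hk hc) (inv_mem hk), ?_⟩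
  calc k * c * k⁻¹ * gB = k * (c * (k⁻¹ * gB * k)) * k⁻¹ := by group
    _ = k * ((k⁻¹ * gB * k) * c) * k⁻¹ := by rw [hcomm]
    _ = gB * (k * c * k⁻¹) := by group

theorem of_CB {k d : Equiv.Perm GolayPt} (hk : k ∈ M24) (hd : d ∈ CB) :
    k⁻¹ * d * k ∈ M24 ∧ (k⁻¹ * d * k) * (k⁻¹ * gB * k) = (k⁻¹ * gB * k) * (k⁻¹ * d * k) := by
  obtain ⟨hM, hcomm⟩ := mem_CB.1 hd
  refine ⟨mul_mem (mul_mem (inv_mem hk) hM) hk, ?_⟩
  calc (k⁻¹ * d * k) * (k⁻¹ * gB * k) = k⁻¹ * (d * gB) * k := by group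
    _ = k⁻¹ * (gB * d) * k := by rw [hcomm]
    _ = (k⁻¹ * gB * k) * (k⁻¹ * d * k) := by group

/-- For a fixed-point-free involution t of the group of the length-24 code: its centraliser in that group has order 7680, is transitive on the 24 points, and is contained, together with t, in the stabiliser of some sextet. -/
theorem result (t : Equiv.Perm Cfsg.GolayPt) (ht : t ∈ Cfsg.M24) (h₂ : orderOf t = 2) (h₀ : ∀ p, t p ≠ p) : Nat.card {c : Equiv.Perm Cfsg.GolayPt // c ∈ Cfsg.M24 ∧ c * t = t * c} = 7680 ∧ (∀ p q : Cfsg.GolayPt, ∃ c ∈ Cfsg.M24, c * t = t * c ∧ c p = q) ∧ ∃ S ∈ Cfsg.sextets, t • S = S ∧ ∀ c ∈ Cfsg.M24, c * t = t * c → c • S = S := by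
  obtain ⟨k, hk, e⟩ := conj_gB ht h₂ h₀
  have ht' : t = k⁻¹ * gB * k := by rw [← e]; group
  subst ht'
  refine ⟨?_, ?_, ?_⟩
  · rw [← card_CB]
    apply Nat.card_congr
    exact { toFun := fun c => ⟨k * c.1 * k⁻¹, to_CB hk c.2.1 c.2.2⟩
            invFun := fun d => ⟨k⁻¹ * d.1 * k, of_CB hk d.2⟩
            left_inv := fun c => by
              apply Subtype.ext
              show k⁻¹ * (k * c.1 * k⁻¹) * k = c.1
              group
            right_inv := fun d => by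
              apply Subtype.ext
              show k * (k⁻¹ * d.1 * k) * k⁻¹ = d.1
              group }
  · intro p q
    obtain ⟨c0, hc0, e0⟩ := CB_trans (k p) (k q)
    obtain ⟨h1, h2⟩ := of_CB hk hc0
    refine ⟨k⁻¹ * c0 * k, h1, h2, ?_⟩
    rw [Equiv.Perm.mul_apply, Equiv.Perm.mul_apply, e0]
    simp
  · have hgB : gB ∈ CB := mem_CB.2 ⟨gB_mem, rfl⟩
    refine ⟨k⁻¹ • sx 1673, smul_sextet (inv_mem hk) (sx_mem (by norm_num)), ?_, ?_⟩
    · rw [← mul_smul]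
      have : k⁻¹ * gB * k * k⁻¹ = k⁻¹ * gB := by group
      rw [this, mul_smul, CB_sx hgB]
    · intro c hc hcomm
      have h1 := CB_sx (to_CB hk hc hcomm)
      rw [← mul_smul]
      have : c * k⁻¹ = k⁻¹ * (k * c * k⁻¹) := by group
      rw [this, mul_smul, h1]

end Cfsg.Agent.S5607
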