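import Cfsg.Statements.S5609
import Cfsg.Agent.Helper28.Octads

set_option autoImplicit false
open scoped Pointwise
open Cfsg

namespace Cfsg.Agent.S5609

open Cfsg.Agent.Helper28.Octads in
theorem adj_iff (a b : Cfsg.octads) :
    (Cfsg.blockGraph Cfsg.octads).Adj a b ↔ Disjoint (a : Finset Cfsg.GolayPt) b := by
  unfold Cfsg.blockGraph
  rw [SimpleGraph.fromRel_adj]
  constructor
  · rintro ⟨_, h' | h'⟩
    · exact h'
    · exact h'.symm
  · intro h
    refine ⟨?_, Or.inl h⟩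
    intro hab
    rw [hab, Finset.disjoint_self_iff_empty] at h
    have h8 := ((mem_oct _).mp b.2).2
    rw [h] at h8
    simp at h8

open Cfsg.Agent.Helper28.Octads in
theorem trichotomy (a b : Cfsg.octads) (hne : a ≠ b) :
    (((a : Finset Cfsg.GolayPt) ∩ b).card = 0 ∧ (Cfsg.blockGraph Cfsg.octads).Adj a b) ∨
    (((a : Finset Cfsg.GolayPt) ∩ b).card = 4 ∧ ¬ (Cfsg.blockGraph Cfsg.octads).Adj a b ∧
      ∃ c, (Cfsg.blockGraph Cfsg.octads).Adj a c ∧ (Cfsg.blockGraph Cfsg.octads).Adj c b) ∨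
    (((a : Finset Cfsg.GolayPt) ∩ b).card = 2 ∧ ¬ (Cfsg.blockGraph Cfsg.octads).Adj a b ∧
      (¬ ∃ c, (Cfsg.blockGraph Cfsg.octads).Adj a c ∧ (Cfsg.blockGraph Cfsg.octads).Adj c b) ∧
      ∃ c d, (Cfsg.blockGraph Cfsg.octads).Adj a c ∧ (Cfsg.blockGraph Cfsg.octads).Adj c d ∧
        (Cfsg.blockGraph Cfsg.octads).Adj d b) := by
  have hne' : (a : Finset Cfsg.GolayPt) ≠ b := fun h => hne (Subtype.ext h)
  rcases octad_inter a.2 b.2 hne' with h | h | h
  · left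
    refine ⟨h, ?_⟩
    rw [adj_iff, Finset.disjoint_iff_inter_eq_empty, ← Finset.card_eq_zero]
    exact h
  · right; right
    refine ⟨h, ?_, ?_, ?_⟩
    · rw [adj_iff, Finset.disjoint_iff_inter_eq_empty, ← Finset.card_eq_zero]
      omega
    · rintro ⟨c, hc1, hc2⟩
      rw [adj_iff] at hc1 hc2
      exact no_common_nbr a.2 b.2 c.2 h hc1 hc2.symm
    · obtain ⟨A, hA, B, hB, h1, h2, h3⟩ := path3 a.2 b.2 h
      refine ⟨⟨A, hA⟩, ⟨B, hB⟩, ?_, ?_, ?_⟩
      · rw [adj_iff]; exact h1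
      · rw [adj_iff]; exact h2
      · rw [adj_iff]; exact h3
  · right; left
    refine ⟨h, ?_, ?_⟩
    · rw [adj_iff, Finset.disjoint_iff_inter_eq_empty, ← Finset.card_eq_zero]
      omega
    · obtain ⟨A, hA, h1, h2⟩ := common_nbr a.2 b.2 h
      refine ⟨⟨A, hA⟩, ?_, ?_⟩
      · rw [adj_iff]; exact h1
      · rw [adj_iff]; exact h2.symm

theorem reach (a b : Cfsg.octads) : (Cfsg.blockGraph Cfsg.octads).Reachable a b := by
  by_cases hne : a = b
  · rw [hne]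
  · rcases trichotomy a b hne with ⟨_, h⟩ | ⟨_, _, c, h1, h2⟩ | ⟨_, _, _, c, d, h1, h2, h3⟩
    · exact h.reachable
    · exact h1.reachable.trans h2.reachable
    · exact (h1.reachable.trans h2.reachable).trans h3.reachable

theorem mid_of_length_two {V : Type*} {G : SimpleGraph V} {u v : V} (p : G.Walk u v)
    (hp : p.length = 2) : ∃ c, G.Adj u c ∧ G.Adj c v := by
  cases p with
  | nil => simp at hp
  | cons h q =>
    cases q with
    | nil => simp at hp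
    | cons h' r =>
      cases r with
      | nil => exact ⟨_, h, h'⟩
      | cons h'' r' => simp at hp

/-- In the graph on the 759 octads of the length-24 code in which two octads are adjacent when they are disjoint, the graph is connected (of diameter 3) and two distinct octads are at distance 1, 2 or 3 exactly when they meet in 0, 4 or 2 points respectively. -/
theorem result (o o' : Finset Cfsg.GolayPt) (ho : o ∈ Cfsg.octads) (ho' : o' ∈ Cfsg.octads) (hne : o ≠ o') : (Cfsg.blockGraph Cfsg.octads).Connected ∧ ((Cfsg.blockGraph Cfsg.octads).dist ⟨o, ho⟩ ⟨o', ho'⟩ = 1 ↔ (o ∩ o').card = 0) ∧ ((Cfsg.blockGraph Cfsg.octads).dist ⟨o, ho⟩ ⟨o', ho'⟩ = 2 ↔ (o ∩ o').card = 4) ∧ ((Cfsg.blockGraph Cfsg.octads).dist ⟨o, ho⟩ ⟨o', ho'⟩ = 3 ↔ (o ∩ o').card = 2) := by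
  have hne' : (⟨o, ho⟩ : Cfsg.octads) ≠ ⟨o', ho'⟩ := fun h => hne (Subtype.mk.inj h)
  have hr := reach ⟨o, ho⟩ ⟨o', ho'⟩
  have hd0 : (Cfsg.blockGraph Cfsg.octads).dist ⟨o, ho⟩ ⟨o', ho'⟩ ≠ 0 := by
    rw [Ne, hr.dist_eq_zero_iff]; exact hne'
  have hconn : (Cfsg.blockGraph Cfsg.octads).Connected := by
    haveI : Nonempty Cfsg.octads := ⟨⟨o, ho⟩⟩
    exact ⟨fun a b => reach a b⟩
  have main : ((o ∩ o').card = 0 ∧ (Cfsg.blockGraph Cfsg.octads).dist ⟨o, ho⟩ ⟨o', ho'⟩ = 1) ∨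
      ((o ∩ o').card = 4 ∧ (Cfsg.blockGraph Cfsg.octads).dist ⟨o, ho⟩ ⟨o', ho'⟩ = 2) ∨
      ((o ∩ o').card = 2 ∧ (Cfsg.blockGraph Cfsg.octads).dist ⟨o, ho⟩ ⟨o', ho'⟩ = 3) := by
    rcases trichotomy ⟨o, ho⟩ ⟨o', ho'⟩ hne' with ⟨hI, h⟩ | ⟨hI, hn, c, h1, h2⟩ |
      ⟨hI, hn, hn2, c, d, h1, h2, h3⟩
    · left
      exact ⟨hI, SimpleGraph.dist_eq_one_iff_adj.mpr h⟩
    · right; left
      refine ⟨hI, ?_⟩
      have hle := SimpleGraph.dist_le (SimpleGraph.Walk.cons h1 (SimpleGraph.Walk.cons h2 SimpleGraph.Walk.nil))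
      simp only [SimpleGraph.Walk.length_cons, SimpleGraph.Walk.length_nil] at hle
      have h1' : (Cfsg.blockGraph Cfsg.octads).dist ⟨o, ho⟩ ⟨o', ho'⟩ ≠ 1 := by
        rw [Ne, SimpleGraph.dist_eq_one_iff_adj]; exact hn
      omega
    · right; right
      refine ⟨hI, ?_⟩
      have hle := SimpleGraph.dist_le (SimpleGraph.Walk.cons h1 (SimpleGraph.Walk.cons h2
        (SimpleGraph.Walk.cons h3 SimpleGraph.Walk.nil)))
      simp only [SimpleGraph.Walk.length_cons, SimpleGraph.Walk.length_nil] at hle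
      have h1' : (Cfsg.blockGraph Cfsg.octads).dist ⟨o, ho⟩ ⟨o', ho'⟩ ≠ 1 := by
        rw [Ne, SimpleGraph.dist_eq_one_iff_adj]; exact hn
      have h2' : (Cfsg.blockGraph Cfsg.octads).dist ⟨o, ho⟩ ⟨o', ho'⟩ ≠ 2 := by
        intro h
        obtain ⟨p, hp⟩ := hr.exists_walk_length_eq_dist
        exact hn2 (mid_of_length_two p (hp.trans h))
      omega
  refine ⟨hconn, ?_, ?_, ?_⟩ <;> omega

end Cfsg.Agent.S5609
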