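import Cfsg.Statements.S5610
import Cfsg.Agent.Helper28.Trio
import Cfsg.Agent.Helper28.OctOrbits
import Cfsg.Agent.Helper28.S5610Data

set_option autoImplicit false
open scoped Pointwise
open Cfsg

namespace Cfsg.Agent.S5610

open Cfsg.Agent.Helper12 Cfsg.Agent.Helper28 Cfsg.Agent.Helper28.Sext Cfsg.Agent.Helper28.Trio
open Cfsg.Agent.Helper28.OctOrbits Cfsg.Agent.Helper28.S5610Data

def w7 (c : ℕ) : ℕ := Nat.pow 7 c
def wid (v : ℕ) : ℕ := v

theorem t_img : trImgOK O8G tIM 3 = true := by decide +kernel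
theorem t_cert : certI (trAct tIM) 3 tPA tTA tRT tRK 3795 = true := by decide +kernel
def tRoot (c : ℕ) : ℕ := bif Nat.beq c 5764803 then 0 else bif Nat.beq c 2499 then 15 else 16
theorem t_root : allB 3795 (fun k => Nat.beq (get24 tRT k)
    (tRoot (inv2c w7 wid 3 (trm k) 1 (fun _ => get24 OA 0)))) = true := by decide +kernel
theorem t_cnt : cntB 3795 (fun k => Nat.beq (get24 tRT k) 0) = 15 ∧
    cntB 3795 (fun k => Nat.beq (get24 tRT k) 16) = 420 ∧
    cntB 3795 (fun k => Nat.beq (get24 tRT k) 15) = 3360 := by decide +kernel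
theorem t_all : allB 3795 (fun k => Nat.beq (get24 tRT k) 0 || Nat.beq (get24 tRT k) 16 ||
    Nat.beq (get24 tRT k) 15) = true := by decide +kernel

theorem s_img : sxImgOK O8G sIM 3 = true := by decide +kernel
theorem s_cert : certI (sxAct sIM) 3 sPA sTA sRT sRK 1771 = true := by decide +kernel
def sRoot (c : ℕ) : ℕ := bif Nat.beq c 4806 then 0 else bif Nat.beq c 378 then 4 else 16
theorem s_root : allB 1771 (fun k => Nat.beq (get24 sRT k)
    (sRoot (inv2c w7 wid 6 (sxm k) 1 (fun _ => get24 OA 0)))) = true := by decide +kernel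
theorem s_cnt : cntB 1771 (fun k => Nat.beq (get24 sRT k) 0) = 35 ∧
    cntB 1771 (fun k => Nat.beq (get24 sRT k) 16) = 840 ∧
    cntB 1771 (fun k => Nat.beq (get24 sRT k) 4) = 896 := by decide +kernel
theorem s_all : allB 1771 (fun k => Nat.beq (get24 sRT k) 0 || Nat.beq (get24 sRT k) 16 ||
    Nat.beq (get24 sRT k) 4) = true := by decide +kernel

/-- the generators of the stabilizer of the first octad, as elements of the group -/
def gen (j : ℕ) : ↥M24 := ⟨genOf O8G O8Q 3 O8_sys j, genOf_mem_M24 O8G O8Q 3 O8_sys O8_m24 j⟩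

theorem gen_mem (j : ℕ) : gen j ∈ MulAction.stabilizer ↥M24 O0 :=
  genOf_fix O8G O8Q 3 O8_sys O8_fix j

theorem or3 {a b c : Bool} (h : (a || b || c) = true) : a = true ∨ b = true ∨ c = true := by
  cases a <;> cases b <;> cases c <;> simp_all

theorem trios_O0 : ∃ X₁ ∈ trios, ∃ X₂ ∈ trios, ∃ X₃ ∈ trios,
    (MulAction.orbit ↥(MulAction.stabilizer ↥M24 O0) X₁).ncard = 15 ∧
    (MulAction.orbit ↥(MulAction.stabilizer ↥M24 O0) X₂).ncard = 420 ∧
    (MulAction.orbit ↥(MulAction.stabilizer ↥M24 O0) X₃).ncard = 3360 ∧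
    trios = MulAction.orbit ↥(MulAction.stabilizer ↥M24 O0) X₁ ∪
      MulAction.orbit ↥(MulAction.stabilizer ↥M24 O0) X₂ ∪
      MulAction.orbit ↥(MulAction.stabilizer ↥M24 O0) X₃ := by
  have hcert := orbit_certI (MulAction.stabilizer ↥M24 O0) tr gen (trAct tIM) 3
    (fun j _ => gen_mem j) 3795
    (fun j hj m hm => (tr_smul O8G O8Q 3 O8_sys O8_m24 tIM t_img hj hm).1) tPA tTA tRT tRK t_cert
  have hsep := sep_of_inv (MulAction.stabilizer ↥M24 O0) tr 3795 trios
    (fun g _ x hx => smul_trio g.2 hx)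
    (fun k hk => tr_mem hk) (fun x hx => tr_complete hx)
    (fun T => inv2 w7 wid T {O0})
    (fun g hg x _ => inv2_left (B := {O0}) (g := (g : Equiv.Perm GolayPt))
      (by rw [Finset.smul_finset_singleton]; congr 1) w7 wid x)
    (fun k => inv2c w7 wid 3 (trm k) 1 (fun _ => get24 OA 0))
    (fun k hk => by rw [← fam_one]; exact inv2_fam w7 wid (tr_injOn hk) (injOn_one _))
    (fun k => get24 tRT k) tRoot (fun k hk => Nat.eq_of_beq_eq_true (allB_spec t_root k hk))
  exact three_orbits (MulAction.stabilizer ↥M24 O0) tr 3795 trios (fun k hk => tr_mem hk)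
    (fun x hx => tr_complete hx) tr_inj (fun k => get24 tRT k) hcert hsep 0 16 15 15 420 3360
    (by norm_num) (by norm_num) (by norm_num) (by decide +kernel) (by decide +kernel)
    (by decide +kernel) t_cnt.1 t_cnt.2.1 t_cnt.2.2
    (fun k hk => by
      have := or3 (allB_spec t_all k hk)
      simpa only [Nat.beq_eq] using this)

theorem sextets_O0 : ∃ X₁ ∈ sextets, ∃ X₂ ∈ sextets, ∃ X₃ ∈ sextets,
    (MulAction.orbit ↥(MulAction.stabilizer ↥M24 O0) X₁).ncard = 35 ∧
    (MulAction.orbit ↥(MulAction.stabilizer ↥M24 O0) X₂).ncard = 840 ∧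
    (MulAction.orbit ↥(MulAction.stabilizer ↥M24 O0) X₃).ncard = 896 ∧
    sextets = MulAction.orbit ↥(MulAction.stabilizer ↥M24 O0) X₁ ∪
      MulAction.orbit ↥(MulAction.stabilizer ↥M24 O0) X₂ ∪
      MulAction.orbit ↥(MulAction.stabilizer ↥M24 O0) X₃ := by
  have hcert := orbit_certI (MulAction.stabilizer ↥M24 O0) sx gen (sxAct sIM) 3
    (fun j _ => gen_mem j) 1771
    (fun j hj m hm => (sx_smul O8G O8Q 3 O8_sys O8_m24 sIM s_img hj hm).1) sPA sTA sRT sRK s_cert
  have hsep := sep_of_inv (MulAction.stabilizer ↥M24 O0) sx 1771 sextets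
    (fun g _ x hx => smul_sextet g.2 hx)
    (fun k hk => sx_mem hk) (fun x hx => sx_complete hx)
    (fun T => inv2 w7 wid T {O0})
    (fun g hg x _ => inv2_left (B := {O0}) (g := (g : Equiv.Perm GolayPt))
      (by rw [Finset.smul_finset_singleton]; congr 1) w7 wid x)
    (fun k => inv2c w7 wid 6 (sxm k) 1 (fun _ => get24 OA 0))
    (fun k hk => by rw [← fam_one]; exact inv2_fam w7 wid (sx_injOn hk) (injOn_one _))
    (fun k => get24 sRT k) sRoot (fun k hk => Nat.eq_of_beq_eq_true (allB_spec s_root k hk))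
  exact three_orbits (MulAction.stabilizer ↥M24 O0) sx 1771 sextets (fun k hk => sx_mem hk)
    (fun x hx => sx_complete hx) sx_inj (fun k => get24 sRT k) hcert hsep 0 16 4 35 840 896
    (by norm_num) (by norm_num) (by norm_num) (by decide +kernel) (by decide +kernel)
    (by decide +kernel) s_cnt.1 s_cnt.2.1 s_cnt.2.2
    (fun k hk => by
      have := or3 (allB_spec s_all k hk)
      simpa only [Nat.beq_eq] using this)

/-- The stabiliser of an octad in the group of the length-24 code has exactly three orbits on the 3795 trios, of sizes 15, 420 and 3360, and exactly three orbits on the 1771 sextets, of sizes 35, 840 and 896. -/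
theorem result (o : Finset Cfsg.GolayPt) (ho : o ∈ Cfsg.octads) : (∃ X₁ ∈ Cfsg.trios, ∃ X₂ ∈ Cfsg.trios, ∃ X₃ ∈ Cfsg.trios, (MulAction.orbit ↥(MulAction.stabilizer Cfsg.M24 o) X₁).ncard = 15 ∧ (MulAction.orbit ↥(MulAction.stabilizer Cfsg.M24 o) X₂).ncard = 420 ∧ (MulAction.orbit ↥(MulAction.stabilizer Cfsg.M24 o) X₃).ncard = 3360 ∧ Cfsg.trios = MulAction.orbit ↥(MulAction.stabilizer Cfsg.M24 o) X₁ ∪ MulAction.orbit ↥(MulAction.stabilizer Cfsg.M24 o) X₂ ∪ MulAction.orbit ↥(MulAction.stabilizer Cfsg.M24 o) X₃) ∧ (∃ Y₁ ∈ Cfsg.sextets, ∃ Y₂ ∈ Cfsg.sextets, ∃ Y₃ ∈ Cfsg.sextets, (MulAction.orbit ↥(MulAction.stabilizer Cfsg.M24 o) Y₁).ncard = 35 ∧ (MulAction.orbit ↥(MulAction.stabilizer Cfsg.M24 o) Y₂).ncard = 840 ∧ (MulAction.orbit ↥(MulAction.stabilizer Cfsg.M24 o) Y₃).ncard = 896 ∧ Cfsg.sextets = MulAction.orbit ↥(MulAction.stabilizer Cfsg.M24 o) Y₁ ∪ MulAction.orbit ↥(MulAction.stabilizer Cfsg.M24 o) Y₂ ∪ MulAction.orbit ↥(MulAction.stabilizer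 Cfsg.M24 o) Y₃) := by
  obtain ⟨g0, hg0, rfl⟩ := M24_trans_octads O0_mem ho
  exact ⟨transport3 (G := ↥M24) trios (fun g b hb => smul_trio g.2 hb) O0 ⟨g0, hg0⟩ 15 420 3360
      trios_O0,
    transport3 (G := ↥M24) sextets (fun g b hb => smul_sextet g.2 hb) O0 ⟨g0, hg0⟩ 35 840 896
      sextets_O0⟩

end Cfsg.Agent.S5610
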