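import Cfsg.Statements.S5614
import Cfsg.Agent.Helper28.SymSix

set_option autoImplicit false
open scoped Pointwise
open Cfsg

namespace Cfsg.Agent.S5614

open Cfsg.Agent.Helper28.Code Cfsg.Agent.Helper28.Octads Cfsg.Agent.Helper28.M24Act
open Cfsg.Agent.Helper28.SymSix
open scoped Pointwise

/-- In the group of the length-24 code, the joint stabiliser of two octads meeting in exactly two points is isomorphic to the symmetric group of degree 6. -/
theorem result (o o' : Finset Cfsg.GolayPt) (ho : o ∈ Cfsg.octads) (ho' : o' ∈ Cfsg.octads) (h₂ : (o ∩ o').card = 2) : Nonempty (↥(MulAction.stabilizer Cfsg.M24 o ⊓ MulAction.stabilizer Cfsg.M24 o') ≃* Equiv.Perm (Fin 6)) := by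
  have hX : (o \ o').card = 6 := by
    have h1 := Finset.card_sdiff_add_card_inter o o'
    have h8 := ((mem_oct o).mp ho).2
    omega
  have hK : ∀ k ∈ MulAction.stabilizer M24 o ⊓ MulAction.stabilizer M24 o',
      ((k : M24) : Equiv.Perm GolayPt) • (o \ o') = o \ o' := by
    rintro k ⟨hk1, hk2⟩
    have e1 : ((k : M24) : Equiv.Perm GolayPt) • o = o := hk1
    have e2 : ((k : M24) : Equiv.Perm GolayPt) • o' = o' := hk2
    rw [Finset.smul_finset_sdiff, e1, e2]
  have hd : symmDiff o o' ∈ dodecads := by
    rw [mem_dod]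
    refine ⟨symmDiff_mem ((mem_oct o).mp ho).1 ((mem_oct o').mp ho').1, ?_⟩
    have e := card_symmDiff o o'
    have h8 := ((mem_oct o).mp ho).2
    have h8' := ((mem_oct o').mp ho').2
    omega
  have hinj : Function.Injective (restr (o \ o') _ hK) := by
    rw [injective_iff_map_eq_one]
    intro k hk
    apply Subtype.ext
    show (k : M24) = 1
    apply eq_one_of_fix_five hd (X := o \ o')
      (by intro p hp; rw [Finset.mem_symmDiff]; exact Or.inl (Finset.mem_sdiff.mp hp))
      (by omega)
    · have e1 : ((k : M24) : Equiv.Perm GolayPt) • o = o := k.2.1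
      have e2 : ((k : M24) : Equiv.Perm GolayPt) • o' = o' := k.2.2
      rw [Finset.smul_finset_symmDiff, e1, e2]
    · intro p hp
      have h := congrArg (fun τ : Equiv.Perm ↥(o \ o') => ((τ ⟨p, hp⟩ : ↥(o \ o')) : GolayPt)) hk
      exact h
  have hcard := (Cfsg.Agent.Helper28.OctOrbits.card_stab_two_octads ho ho').2.2 h₂
  exact iso_of_bijective hX _ (bijective_of_card hX _ hinj hcard)

end Cfsg.Agent.S5614
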