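import Cfsg.Statements.S5615
import Cfsg.Agent.Helper28.SxStab
import Cfsg.Agent.Helper28.S5615Data
import Cfsg.Agent.S5610
import Cfsg.Agent.S1553

set_option autoImplicit false
open scoped Pointwise
open Cfsg

namespace Cfsg.Agent.S5615

open Cfsg.Agent.Helper12 Cfsg.Agent.Helper28 Cfsg.Agent.Helper28.Sext Cfsg.Agent.Helper28.Trio
open Cfsg.Agent.Helper28.SxStab Cfsg.Agent.Helper28.OctOrbits Cfsg.Agent.Helper28.S5610Data
open Cfsg.Agent.Helper28.S5615Data

/-! ### The trios through the first octad -/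

def memB (k : ℕ) : Bool := anyB 3 (fun i => Nat.beq (trm k i) (get24 OA 0))

theorem k_mem : allB 3795 (fun k => bif memB k then Nat.blt k 15 else Nat.ble 15 k) = true := by
  decide +kernel

theorem mem_iff {k : ℕ} (hk : k < 3795) : O0 ∈ tr k ↔ k < 15 := by
  have h := allB_spec k_mem k hk
  have hm : O0 ∈ tr k ↔ memB k = true := by
    rw [memB, anyB_iff, tr, mem_fam]
    constructor
    · rintro ⟨i, hi, e⟩
      exact ⟨i, hi, by rw [Nat.beq_eq]; exact (ofMask_inj (get24_lt _ _) (trm_lt _ _) e).symm⟩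
    · rintro ⟨i, hi, e⟩
      rw [Nat.beq_eq] at e
      exact ⟨i, hi, by rw [e]⟩
  rw [hm]
  cases hb : memB k with
  | true =>
    rw [hb, cond_true, Nat.blt_eq] at h
    exact ⟨fun _ => h, fun _ => rfl⟩
  | false =>
    rw [hb, cond_false, Nat.ble_eq] at h
    exact ⟨fun h' => absurd h' (by decide), fun h' => absurd h' (by omega)⟩

theorem count_O0 : {T : Finset (Finset GolayPt) | T ∈ trios ∧ O0 ∈ T}.ncard = 15 := by
  have h : cntB 3795 (fun k => Nat.blt k 15) = 15 := by decide +kernel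
  rw [← h]
  apply ncard_eq_cnt tr 3795 tr_inj
  intro T
  constructor
  · rintro ⟨hT, hO⟩
    obtain ⟨k, hk, rfl⟩ := tr_complete hT
    exact ⟨k, hk, by rw [Nat.blt_eq]; exact (mem_iff hk).1 hO, rfl⟩
  · rintro ⟨k, hk, hc, rfl⟩
    rw [Nat.blt_eq] at hc
    exact ⟨tr_mem hk, (mem_iff hk).2 hc⟩

/-- pairs of trios through the first octad -/
def pdec (c : ℕ) : Finset (Finset GolayPt) × Finset (Finset GolayPt) := (tr (c / 15), tr (c % 15))

def pact (j c : ℕ) : ℕ :=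
  Nat.add (Nat.mul 15 (trAct tIM j (Nat.div c 15))) (trAct tIM j (Nat.mod c 15))

theorem k_lt15 : allB 3 (fun j => allB 15 (fun b => Nat.blt (trAct tIM j b) 15)) = true := by
  decide +kernel
theorem p_cert : certI pact 3 pPA pTA pRT pRK 225 = true := by decide +kernel
theorem p_root : allB 225 (fun c => Nat.beq (get24 pRT c)
    (bif Nat.beq (Nat.div c 15) (Nat.mod c 15) then 0 else 1)) = true := by decide +kernel

theorem pact_spec {j : ℕ} (hj : j < 3) {c : ℕ} (hc : c < 225) :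
    genOf O8G O8Q 3 O8_sys j • pdec c = pdec (pact j c) := by
  have ha : c / 15 < 15 := by omega
  have hb : c % 15 < 15 := by omega
  have h1 := (tr_smul O8G O8Q 3 O8_sys O8_m24 tIM Cfsg.Agent.S5610.t_img hj
    (k := c / 15) (by omega)).1
  have h2 := (tr_smul O8G O8Q 3 O8_sys O8_m24 tIM Cfsg.Agent.S5610.t_img hj
    (k := c % 15) (by omega)).1
  have h3 := allB_spec (allB_spec k_lt15 j hj) (c % 15) hb
  rw [Nat.blt_eq] at h3
  have e1 : pact j c / 15 = trAct tIM j (c / 15) := by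
    show (15 * trAct tIM j (c / 15) + trAct tIM j (c % 15)) / 15 = _
    omega
  have e2 : pact j c % 15 = trAct tIM j (c % 15) := by
    show (15 * trAct tIM j (c / 15) + trAct tIM j (c % 15)) % 15 = _
    omega
  rw [pdec, pdec, e1, e2, Prod.smul_mk, h1, h2]

theorem pair_trans {a b a' b' : ℕ} (ha : a < 15) (hb : b < 15) (ha' : a' < 15) (hb' : b' < 15)
    (hab : a ≠ b) (hab' : a' ≠ b') :
    ∃ g ∈ M24, g • O0 = O0 ∧ g • tr a = tr a' ∧ g • tr b = tr b' := by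
  have hcert := orbit_certI (M24 ⊓ MulAction.stabilizer (Equiv.Perm GolayPt) O0) pdec
    (genOf O8G O8Q 3 O8_sys) pact 3
    (fun j _ => ⟨genOf_mem_M24 O8G O8Q 3 O8_sys O8_m24 j,
      MulAction.mem_stabilizer_iff.2 (genOf_fix O8G O8Q 3 O8_sys O8_fix j)⟩) 225
    (fun j hj m hm => pact_spec hj hm) pPA pTA pRT pRK p_cert
  have key : ∀ a b : ℕ, a < 15 → b < 15 → a ≠ b →
      ∃ g ∈ M24 ⊓ MulAction.stabilizer (Equiv.Perm GolayPt) O0, g • pdec 1 = (tr a, tr b) := by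
    intro a b ha hb hab
    have hc : 15 * a + b < 225 := by omega
    obtain ⟨g, hg, e⟩ := hcert (15 * a + b) hc
    have hr := Nat.eq_of_beq_eq_true (allB_spec p_root (15 * a + b) hc)
    have e1 : (15 * a + b) / 15 = a := by omega
    have e2 : (15 * a + b) % 15 = b := by omega
    have hne : Nat.beq (Nat.div (15 * a + b) 15) (Nat.mod (15 * a + b) 15) = false := by
      rw [Bool.eq_false_iff]
      intro h
      rw [Nat.beq_eq] at h
      have h' : (15 * a + b) / 15 = (15 * a + b) % 15 := h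
      omega
    rw [hne, cond_false] at hr
    rw [hr] at e
    refine ⟨g, hg, ?_⟩
    rw [e, pdec, e1, e2]
  obtain ⟨g1, ⟨hg1, hg1'⟩, e1⟩ := key a b ha hb hab
  obtain ⟨g2, ⟨hg2, hg2'⟩, e2⟩ := key a' b' ha' hb' hab'
  have f1 : g1 • O0 = O0 := MulAction.mem_stabilizer_iff.1 hg1'
  have f2 : g2 • O0 = O0 := MulAction.mem_stabilizer_iff.1 hg2'
  have e3 : (g2 * g1⁻¹) • (tr a, tr b) = (tr a', tr b') := by
    rw [mul_smul, ← e1, inv_smul_smul, e2]
  rw [Prod.smul_mk, Prod.mk.injEq] at e3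
  refine ⟨g2 * g1⁻¹, mul_mem hg2 (inv_mem hg1), ?_, e3.1, e3.2⟩
  rw [mul_smul, inv_smul_eq_iff.2 f1.symm, f2]

theorem two_trans_O0 {T₁ T₂ T₁' T₂' : Finset (Finset GolayPt)} (h1 : T₁ ∈ trios) (h2 : T₂ ∈ trios)
    (h1' : T₁' ∈ trios) (h2' : T₂' ∈ trios) (m1 : O0 ∈ T₁) (m2 : O0 ∈ T₂) (m1' : O0 ∈ T₁')
    (m2' : O0 ∈ T₂') (hne : T₁ ≠ T₂) (hne' : T₁' ≠ T₂') :
    ∃ g ∈ M24, g • O0 = O0 ∧ g • T₁ = T₁' ∧ g • T₂ = T₂' := by
  obtain ⟨a, ha, rfl⟩ := tr_complete h1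
  obtain ⟨b, hb, rfl⟩ := tr_complete h2
  obtain ⟨a', ha', rfl⟩ := tr_complete h1'
  obtain ⟨b', hb', rfl⟩ := tr_complete h2'
  exact pair_trans ((mem_iff ha).1 m1) ((mem_iff hb).1 m2) ((mem_iff ha').1 m1')
    ((mem_iff hb').1 m2') (fun h => hne (by rw [h])) (fun h => hne' (by rw [h]))

/-! ### General octads -/

theorem mem_smul_trio (g : Equiv.Perm GolayPt) (o : Finset GolayPt)
    (T : Finset (Finset GolayPt)) : g • o ∈ T ↔ o ∈ g⁻¹ • T := by
  exact Finset.mem_inv_smul_finset_iff.symm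

theorem count (o : Finset GolayPt) (ho : o ∈ octads) :
    {T : Finset (Finset GolayPt) | T ∈ trios ∧ o ∈ T}.ncard = 15 := by
  obtain ⟨g0, hg0, rfl⟩ := M24_trans_octads O0_mem ho
  rw [← count_O0]
  apply ncard_transport g0
  intro b
  show (b ∈ trios ∧ g0 • O0 ∈ b) ↔ (g0⁻¹ • b ∈ trios ∧ O0 ∈ g0⁻¹ • b)
  rw [smul_trio_iff (inv_mem hg0), mem_smul_trio]

theorem two_trans (o : Finset GolayPt) (ho : o ∈ octads)
    {T₁ T₂ T₁' T₂' : Finset (Finset GolayPt)} (h1 : T₁ ∈ trios) (h2 : T₂ ∈ trios)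
    (h1' : T₁' ∈ trios) (h2' : T₂' ∈ trios) (m1 : o ∈ T₁) (m2 : o ∈ T₂) (m1' : o ∈ T₁')
    (m2' : o ∈ T₂') (hne : T₁ ≠ T₂) (hne' : T₁' ≠ T₂') :
    ∃ g ∈ M24, g • o = o ∧ g • T₁ = T₁' ∧ g • T₂ = T₂' := by
  obtain ⟨g0, hg0, rfl⟩ := M24_trans_octads O0_mem ho
  have hi := inv_mem hg0
  obtain ⟨g, hg, e, f1, f2⟩ := two_trans_O0 ((smul_trio_iff hi).2 h1) ((smul_trio_iff hi).2 h2)
    ((smul_trio_iff hi).2 h1') ((smul_trio_iff hi).2 h2') ((mem_smul_trio _ _ _).1 m1)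
    ((mem_smul_trio _ _ _).1 m2) ((mem_smul_trio _ _ _).1 m1') ((mem_smul_trio _ _ _).1 m2')
    (fun h => hne (MulAction.injective _ h)) (fun h => hne' (MulAction.injective _ h))
  refine ⟨g0 * g * g0⁻¹, mul_mem (mul_mem hg0 hg) hi, ?_, ?_, ?_⟩
  · rw [mul_smul, inv_smul_smul, mul_smul, e]
  · rw [mul_smul, mul_smul, f1, smul_inv_smul]
  · rw [mul_smul, mul_smul, f2, smul_inv_smul]

/-- the stabilizer of an octad is transitive on the trios through it -/
theorem trans1 (o : Finset GolayPt) (ho : o ∈ octads) {T T' : Finset (Finset GolayPt)}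
    (hT : T ∈ trios) (hT' : T' ∈ trios) (m : o ∈ T) (m' : o ∈ T') :
    ∃ g ∈ M24, g • o = o ∧ g • T = T' := by
  have hc : 1 < T.card := by rw [hT.1]; norm_num
  have hc' : 1 < T'.card := by rw [hT'.1]; norm_num
  obtain ⟨a, ha, hne⟩ := Finset.exists_mem_ne hc o
  obtain ⟨a', ha', hne'⟩ := Finset.exists_mem_ne hc' o
  have hd : Disjoint o a := hT.2.2 o m a ha hne.symm
  have hd' : Disjoint o a' := hT'.2.2 o m' a' ha' hne'.symm
  obtain ⟨g, hg, e, f⟩ := stab_trans_octads ho (hT.2.1 a ha) (hT'.2.1 a' ha')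
    (by rw [Finset.disjoint_iff_inter_eq_empty.1 hd, Finset.disjoint_iff_inter_eq_empty.1 hd'])
  refine ⟨g, hg, e, ?_⟩
  apply trio_unique (smul_trio hg hT) hT' (o := o) (o' := a') _ _ m' ha' hne'.symm
  · rw [← e]; exact Finset.smul_mem_smul_finset m
  · rw [← f]; exact Finset.smul_mem_smul_finset ha

theorem smul_eq_of_fix {o : Finset GolayPt} {g : Equiv.Perm GolayPt}
    (h1 : ∀ x ∈ o, g x = x) : g • o = o := by
  ext y
  constructor
  · intro hy
    obtain ⟨p, hp, rfl⟩ := Finset.mem_smul_finset.1 hy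
    have := h1 p hp
    rw [Equiv.Perm.smul_def, this]; exact hp
  · intro hy
    exact Finset.mem_smul_finset.2 ⟨y, hy, h1 y hy⟩

theorem mem_N {o : Finset GolayPt} {g : Equiv.Perm GolayPt} :
    g ∈ M24 ⊓ fixingSubgroup (Equiv.Perm GolayPt) (o : Set GolayPt) ↔
      g ∈ M24 ∧ ∀ x ∈ o, g x = x := by
  rw [Subgroup.mem_inf, mem_fixingSubgroup_iff]
  rfl

/-- the trios through an octad, as a set acted on by the pointwise stabilizer of the octad -/
def trSub (o : Finset GolayPt) :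
    SubMulAction ↥(M24 ⊓ fixingSubgroup (Equiv.Perm GolayPt) (o : Set GolayPt))
      (Finset (Finset GolayPt)) where
  carrier := {T | T ∈ trios ∧ o ∈ T}
  smul_mem' := fun e T hT => by
    have he := mem_N.1 e.2
    refine ⟨smul_trio he.1 hT.1, ?_⟩
    have h1 : (e : Equiv.Perm GolayPt) • o = o := smul_eq_of_fix he.2
    have h2 : (e : Equiv.Perm GolayPt) • o ∈ (e : Equiv.Perm GolayPt) • T :=
      Finset.smul_mem_smul_finset hT.2
    rw [h1] at h2
    exact h2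

/-- the pointwise stabilizer of an octad fixes some trio through the octad -/
theorem exists_fixed (o : Finset GolayPt) (ho : o ∈ octads) :
    ∃ T ∈ trios, o ∈ T ∧ ∀ e ∈ M24, (∀ x ∈ o, e x = x) → e • T = T := by
  have : Fact (Nat.Prime 2) := ⟨Nat.prime_two⟩
  have hE : IsPGroup 2 ↥(M24 ⊓ fixingSubgroup (Equiv.Perm GolayPt) (o : Set GolayPt)) :=
    IsPGroup.of_card (n := 4) (by rw [(Cfsg.Agent.Helper3.octad_fix o ho).1]; norm_num)
  have hcard : Nat.card ↥(trSub o) = 15 := by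
    rw [← count o ho]
    exact Nat.card_coe_set_eq _
  obtain ⟨⟨T, hT⟩, hfix⟩ := hE.nonempty_fixed_point_of_prime_not_dvd_card ↥(trSub o)
    (by rw [hcard]; norm_num)
  refine ⟨T, hT.1, hT.2, ?_⟩
  intro e he hfixo
  have h := hfix ⟨e, mem_N.2 ⟨he, hfixo⟩⟩
  exact congrArg Subtype.val h

theorem fix_of_pointwise (o : Finset GolayPt) (ho : o ∈ octads) {g : Equiv.Perm GolayPt}
    (hg : g ∈ M24) (hfix : ∀ p ∈ o, g p = p) {T : Finset (Finset GolayPt)} (hT : T ∈ trios)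
    (m : o ∈ T) : g • T = T := by
  obtain ⟨T0, hT0, m0, h0⟩ := exists_fixed o ho
  obtain ⟨s, hs, e, f⟩ := trans1 o ho hT0 hT m0 m
  have h1 : (s⁻¹ * g * s) • T0 = T0 := by
    apply h0 _ (mul_mem (mul_mem (inv_mem hs) hg) hs)
    intro x hx
    have hsx : s x ∈ o := by
      have := Finset.smul_mem_smul_finset (a := s) hx
      rw [e] at this
      exact this
    rw [Equiv.Perm.mul_apply, Equiv.Perm.mul_apply, hfix _ hsx]
    simp
  rw [← f]
  calc g • s • T0 = s • (s⁻¹ * g * s) • T0 := by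
        rw [← mul_smul, ← mul_smul]; congr 1; group
    _ = s • T0 := by rw [h1]

/-- the elements of the stabilizer of an octad fixing all trios through the octad -/
def Ker (o : Finset GolayPt) : Subgroup ↥(MulAction.stabilizer ↥M24 o) where
  carrier := {s | ∀ T ∈ trios, o ∈ T → ((s : ↥M24) : Equiv.Perm GolayPt) • T = T}
  one_mem' := fun T _ _ => one_smul _ T
  mul_mem' := fun {a b} ha hb T hT m => by
    show (((a : ↥M24) : Equiv.Perm GolayPt) * ((b : ↥M24) : Equiv.Perm GolayPt)) • T = T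
    rw [mul_smul, hb T hT m, ha T hT m]
  inv_mem' := fun {a} ha T hT m => by
    show (((a : ↥M24) : Equiv.Perm GolayPt))⁻¹ • T = T
    rw [inv_smul_eq_iff, ha T hT m]

theorem Ker_normal (o : Finset GolayPt) : (Ker o).Normal := by
  constructor
  intro k hk s T hT m
  show (((s : ↥M24) : Equiv.Perm GolayPt) * ((k : ↥M24) : Equiv.Perm GolayPt) *
    (((s : ↥M24) : Equiv.Perm GolayPt))⁻¹) • T = T
  have hs : ((s : ↥M24) : Equiv.Perm GolayPt) • o = o := s.2
  have h1 : (((s : ↥M24) : Equiv.Perm GolayPt))⁻¹ • T ∈ trios :=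
    (smul_trio_iff (inv_mem s.1.2)).2 hT
  have h2 : o ∈ (((s : ↥M24) : Equiv.Perm GolayPt))⁻¹ • T := by
    rw [← mem_smul_trio, hs]; exact m
  rw [mul_smul, mul_smul, hk _ h1 h2, smul_inv_smul]

theorem pointwise_of_fix (o : Finset GolayPt) (ho : o ∈ octads) {g : Equiv.Perm GolayPt}
    (hg : g ∈ M24) (hgo : g • o = o) (hfix : ∀ T ∈ trios, o ∈ T → g • T = T) :
    ∀ p ∈ o, g p = p := by
  have h8 : o.card = 8 := ((Octads.mem_oct o).1 ho).2
  have hsimple : IsSimpleGroup ↥(alternatingGroup ↥o) := by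
    apply alternatingGroup.isSimpleGroup
    rw [Nat.card_eq_fintype_card, Fintype.card_coe, h8]; norm_num
  have hrange := Cfsg.Agent.S1553.range_eq o ho
  have hmemA : ∀ s, Cfsg.Agent.S1553.phi o s ∈ alternatingGroup ↥o := by
    intro s
    rw [← hrange]
    exact ⟨s, rfl⟩
  have hsurj : Function.Surjective
      ((Cfsg.Agent.S1553.phi o).codRestrict (alternatingGroup ↥o) hmemA) := by
    rintro ⟨e, he⟩
    rw [← hrange] at he
    obtain ⟨s, rfl⟩ := he
    exact ⟨s, rfl⟩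
  have hnorm := (Ker_normal o).map _ hsurj
  have hpt : ∀ s : ↥(MulAction.stabilizer ↥M24 o), Cfsg.Agent.S1553.phi o s = 1 →
      ∀ p ∈ o, ((s : ↥M24) : Equiv.Perm GolayPt) p = p := by
    intro s hs p hp
    have := congrArg (fun e : Equiv.Perm ↥o => ((e ⟨p, hp⟩ : ↥o) : GolayPt)) hs
    exact this
  rcases hnorm.eq_bot_or_eq_top with h | h
  · have hmem : (Cfsg.Agent.S1553.phi o).codRestrict (alternatingGroup ↥o) hmemA
        ⟨⟨g, hg⟩, hgo⟩ ∈ (Ker o).map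
          ((Cfsg.Agent.S1553.phi o).codRestrict (alternatingGroup ↥o) hmemA) :=
      Subgroup.mem_map_of_mem _ (show (⟨⟨g, hg⟩, hgo⟩ : ↥(MulAction.stabilizer ↥M24 o)) ∈ Ker o
        from hfix)
    rw [h, Subgroup.mem_bot] at hmem
    have h1 : Cfsg.Agent.S1553.phi o ⟨⟨g, hg⟩, hgo⟩ = 1 := congrArg Subtype.val hmem
    exact hpt _ h1
  · exfalso
    have h15 := count o ho
    have hone : 1 < {T : Finset (Finset GolayPt) | T ∈ trios ∧ o ∈ T}.ncard := by
      rw [h15]; norm_num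
    obtain ⟨T₁, T₂, ⟨hT₁, m₁⟩, ⟨hT₂, m₂⟩, hne⟩ :=
      (Set.one_lt_ncard_iff (Set.finite_of_ncard_pos (by omega))).1 hone
    obtain ⟨s, hs, e, f⟩ := trans1 o ho hT₁ hT₂ m₁ m₂
    have hmem : (Cfsg.Agent.S1553.phi o).codRestrict (alternatingGroup ↥o) hmemA
        ⟨⟨s, hs⟩, e⟩ ∈ (Ker o).map
          ((Cfsg.Agent.S1553.phi o).codRestrict (alternatingGroup ↥o) hmemA) := by
      rw [h]; exact Subgroup.mem_top _
    obtain ⟨k, hk, hk'⟩ := hmem
    have h1 : Cfsg.Agent.S1553.phi o (k⁻¹ * ⟨⟨s, hs⟩, e⟩) = 1 := by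
      have h2 : Cfsg.Agent.S1553.phi o k = Cfsg.Agent.S1553.phi o ⟨⟨s, hs⟩, e⟩ :=
        congrArg Subtype.val hk'
      rw [map_mul, map_inv, h2, inv_mul_cancel]
    have h3 := hpt _ h1
    have h4 : (((k : ↥M24) : Equiv.Perm GolayPt)⁻¹ * s) • T₁ = T₁ :=
      fix_of_pointwise o ho (mul_mem (inv_mem k.1.2) hs) h3 hT₁ m₁
    rw [mul_smul, f, inv_smul_eq_iff] at h4
    have h5 := hk T₁ hT₁ m₁
    rw [h5] at h4
    exact hne h4.symm

/-- An octad of the length-24 code lies in exactly 15 trios; the stabiliser of the octad in the code's group acts doubly transitively on these 15 trios, and the kernel of this action is the pointwise stabiliser of the octad. -/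
theorem result (o : Finset Cfsg.GolayPt) (ho : o ∈ Cfsg.octads) : {T : Finset (Finset Cfsg.GolayPt) | T ∈ Cfsg.trios ∧ o ∈ T}.ncard = 15 ∧ (∀ T₁ T₂ T₁' T₂' : Finset (Finset Cfsg.GolayPt), T₁ ∈ Cfsg.trios → T₂ ∈ Cfsg.trios → T₁' ∈ Cfsg.trios → T₂' ∈ Cfsg.trios → o ∈ T₁ → o ∈ T₂ → o ∈ T₁' → o ∈ T₂' → T₁ ≠ T₂ → T₁' ≠ T₂' → ∃ g ∈ Cfsg.M24, g • o = o ∧ g • T₁ = T₁' ∧ g • T₂ = T₂') ∧ ∀ g ∈ Cfsg.M24, g • o = o → ((∀ T ∈ Cfsg.trios, o ∈ T → g • T = T) ↔ ∀ p ∈ o, g p = p) := by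
  refine ⟨count o ho, ?_, ?_⟩
  · intro T₁ T₂ T₁' T₂' h1 h2 h1' h2' m1 m2 m1' m2' hne hne'
    exact two_trans o ho h1 h2 h1' h2' m1 m2 m1' m2' hne hne'
  · intro g hg hgo
    exact ⟨fun h => pointwise_of_fix o ho hg hgo h,
      fun h T hT m => fix_of_pointwise o ho hg h hT m⟩

end Cfsg.Agent.S5615
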