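import Cfsg.Statements.S5616
import Cfsg.Agent.Helper28.SxStab
import Cfsg.Agent.Helper28.S5616Data

set_option autoImplicit false
open scoped Pointwise
open Cfsg

namespace Cfsg.Agent.S5616

open Cfsg.Agent.Helper12 Cfsg.Agent.Helper28 Cfsg.Agent.Helper28.Sext Cfsg.Agent.Helper28.Trio
open Cfsg.Agent.Helper28.SxStab Cfsg.Agent.Helper28.S5616Data

/-- the set of the first three points -/
abbrev Y0 : Finset GolayPt := ofMask 7

def w1 (c : ℕ) : ℕ := bif Nat.beq c 0 then 0 else 1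

theorem filter_card_eq (S : Finset (Finset GolayPt)) (Y : Finset GolayPt) :
    (S.filter fun t => (t ∩ Y).Nonempty).card = inv2 w1 wid S {Y} := by
  unfold inv2
  rw [Finset.card_filter]
  apply Finset.sum_congr rfl
  intro t _
  rw [Finset.sum_singleton]
  show _ = w1 (t ∩ Y).card
  unfold w1
  by_cases h : (t ∩ Y).Nonempty
  · rw [if_pos h]
    have h1 : (t ∩ Y).card ≠ 0 := Finset.card_ne_zero.2 h
    have h2 : Nat.beq (t ∩ Y).card 0 = false := by
      rw [Bool.eq_false_iff]; intro hc; rw [Nat.beq_eq] at hc; exact h1 hc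
    rw [h2]; rfl
  · rw [if_neg h]
    have h1 : (t ∩ Y).card = 0 := by
      rw [Finset.card_eq_zero]; exact Finset.not_nonempty_iff_eq_empty.1 h
    rw [h1]; rfl

theorem pt_ne {i j : ℕ} (hi : i < 24) (hj : j < 24) (hij : i ≠ j) : pt i ≠ pt j := by
  intro h
  have := congrArg idx h
  rw [idx_pt hi, idx_pt hj] at this
  exact hij this

theorem Y0_eq : Y0 = {pt 0, pt 1, pt 2} := by
  have h : (7 : ℕ) = ((1 <<< 0) ||| (1 <<< 1)) ||| (1 <<< 2) := by decide
  show ofMask 7 = _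
  rw [h, ofMask_or, ofMask_or, ofMask_one_shiftLeft (by norm_num), ofMask_one_shiftLeft (by norm_num),
    ofMask_one_shiftLeft (by norm_num)]
  ext x
  simp only [Finset.mem_union, Finset.mem_singleton, Finset.mem_insert]
  tauto

theorem exists_smul_Y0 (Y : Finset GolayPt) (hY : Y.card = 3) : ∃ g ∈ M24, g • Y0 = Y := by
  obtain ⟨p, q, r, hpq, hpr, hqr, rfl⟩ := Finset.card_eq_three.1 hY
  obtain ⟨g, hg, e0, e1, e2⟩ := M24_trans3' (p := pt 0) (q := pt 1) (r := pt 2)
    (pt_ne (by norm_num) (by norm_num) (by norm_num))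
    (pt_ne (by norm_num) (by norm_num) (by norm_num))
    (pt_ne (by norm_num) (by norm_num) (by norm_num)) hpq hpr hqr
  refine ⟨g, hg, ?_⟩
  rw [Y0_eq, Finset.smul_finset_insert, Finset.smul_finset_insert, Finset.smul_finset_singleton,
    Equiv.Perm.smul_def, Equiv.Perm.smul_def, Equiv.Perm.smul_def, e0, e1, e2]

theorem yg_sys : sysOK ygG ygQ 2 = true := by decide +kernel
theorem yg_m24 : sysM24 ygG 2 = true := by decide +kernel
theorem yg_fix : fixOK ygG 2 7 = true := by decide +kernel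
theorem s_img : sxImgOK ygG sIM 2 = true := by decide +kernel
theorem s_cert : certI (sxAct sIM) 2 sPA sTA sRT sRK 1771 = true := by decide +kernel
def sRoot (c : ℕ) : ℕ := bif Nat.beq c 1 then 0 else bif Nat.beq c 2 then 2 else 9

/-- the number of tetrads of the `k`-th sextet meeting the first three points -/
def code (k : ℕ) : ℕ := inv2c w1 wid 6 (sxm k) 1 (fun _ => 7)

theorem s_root : allB 1771 (fun k => Nat.beq (get24 sRT k) (sRoot (code k))) = true := by
  decide +kernel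
theorem s_cnt : cntB 1771 (fun k => Nat.beq (code k) 1) = 21 ∧
    cntB 1771 (fun k => Nat.beq (code k) 2) = 630 ∧
    cntB 1771 (fun k => Nat.beq (code k) 3) = 1120 := by decide +kernel

theorem code_eq {k : ℕ} (hk : k < 1771) :
    ((sx k).filter fun t => (t ∩ Y0).Nonempty).card = code k := by
  rw [filter_card_eq, ← fam_one]
  exact inv2_fam w1 wid (sx_injOn hk) (injOn_one _)

theorem count_Y0 (c : ℕ) :
    {S : Finset (Finset GolayPt) | S ∈ sextets ∧
      (S.filter fun t => (t ∩ Y0).Nonempty).card = c}.ncard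
      = cntB 1771 (fun k => Nat.beq (code k) c) := by
  apply ncard_eq_cnt sx 1771 sx_inj
  intro S
  constructor
  · rintro ⟨hS, hc⟩
    obtain ⟨k, hk, rfl⟩ := sx_complete hS
    rw [code_eq hk] at hc
    exact ⟨k, hk, by rw [Nat.beq_eq]; exact hc, rfl⟩
  · rintro ⟨k, hk, hc, rfl⟩
    rw [Nat.beq_eq] at hc
    exact ⟨sx_mem hk, by rw [code_eq hk]; exact hc⟩

theorem filter_smul (g : Equiv.Perm GolayPt) (S : Finset (Finset GolayPt)) (Y : Finset GolayPt) :
    ((g • S).filter fun t => (t ∩ g • Y).Nonempty).card =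
      (S.filter fun t => (t ∩ Y).Nonempty).card := by
  rw [filter_card_eq, filter_card_eq, ← Finset.smul_finset_singleton]
  exact inv2_smul g w1 wid S {Y}

theorem count_transport {g0 : Equiv.Perm GolayPt} (hg0 : g0 ∈ M24) (c : ℕ) :
    {S : Finset (Finset GolayPt) | S ∈ sextets ∧
      (S.filter fun t => (t ∩ g0 • Y0).Nonempty).card = c}.ncard =
    {S : Finset (Finset GolayPt) | S ∈ sextets ∧
      (S.filter fun t => (t ∩ Y0).Nonempty).card = c}.ncard := by
  apply ncard_transport g0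
  intro b
  show (b ∈ sextets ∧ (b.filter fun t => (t ∩ g0 • Y0).Nonempty).card = c) ↔
    (g0⁻¹ • b ∈ sextets ∧ ((g0⁻¹ • b).filter fun t => (t ∩ Y0).Nonempty).card = c)
  rw [smul_sextet_iff (inv_mem hg0)]
  have := filter_smul g0 (g0⁻¹ • b) Y0
  rw [smul_inv_smul] at this
  rw [this]

theorem trans_Y0 {S S' : Finset (Finset GolayPt)} (hS : S ∈ sextets) (hS' : S' ∈ sextets)
    (h : (S.filter fun t => (t ∩ Y0).Nonempty).card = (S'.filter fun t => (t ∩ Y0).Nonempty).card) :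
    ∃ g ∈ M24, g • Y0 = Y0 ∧ g • S = S' := by
  obtain ⟨k, hk, rfl⟩ := sx_complete hS
  obtain ⟨l, hl, rfl⟩ := sx_complete hS'
  rw [code_eq hk, code_eq hl] at h
  have hcert := orbit_certI (M24 ⊓ MulAction.stabilizer (Equiv.Perm GolayPt) Y0) sx
    (genOf ygG ygQ 2 yg_sys) (sxAct sIM) 2
    (fun j _ => ⟨genOf_mem_M24 ygG ygQ 2 yg_sys yg_m24 j,
      MulAction.mem_stabilizer_iff.2 (genOf_fix ygG ygQ 2 yg_sys yg_fix j)⟩) 1771
    (fun j hj m hm => (sx_smul ygG ygQ 2 yg_sys yg_m24 sIM s_img hj hm).1) sPA sTA sRT sRK s_cert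
  obtain ⟨g1, ⟨hg1, hg1'⟩, e1⟩ := hcert k hk
  obtain ⟨g2, ⟨hg2, hg2'⟩, e2⟩ := hcert l hl
  have hrk := Nat.eq_of_beq_eq_true (allB_spec s_root k hk)
  have hrl := Nat.eq_of_beq_eq_true (allB_spec s_root l hl)
  rw [hrk, h] at e1
  rw [hrl] at e2
  have f1 : g1 • Y0 = Y0 := MulAction.mem_stabilizer_iff.1 hg1'
  have f2 : g2 • Y0 = Y0 := MulAction.mem_stabilizer_iff.1 hg2'
  refine ⟨g2 * g1⁻¹, mul_mem hg2 (inv_mem hg1), ?_, ?_⟩
  · rw [mul_smul, inv_smul_eq_iff.2 f1.symm, f2]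
  · rw [mul_smul, ← e1, inv_smul_smul, e2]

/-- Let Y be a set of 3 of the 24 points. The sextets of the length-24 code whose tetrads meeting Y number 1, 2 or 3 are respectively 21, 630 and 1120 in number, and two sextets with the same number of tetrads meeting Y are conjugate under the setwise stabiliser of Y in the code's group. -/
theorem result (Y : Finset Cfsg.GolayPt) (hY : Y.card = 3) : {S : Finset (Finset Cfsg.GolayPt) | S ∈ Cfsg.sextets ∧ (S.filter fun t => (t ∩ Y).Nonempty).card = 1}.ncard = 21 ∧ {S : Finset (Finset Cfsg.GolayPt) | S ∈ Cfsg.sextets ∧ (S.filter fun t => (t ∩ Y).Nonempty).card = 2}.ncard = 630 ∧ {S : Finset (Finset Cfsg.GolayPt) | S ∈ Cfsg.sextets ∧ (S.filter fun t => (t ∩ Y).Nonempty).card = 3}.ncard = 1120 ∧ ∀ S S' : Finset (Finset Cfsg.GolayPt), S ∈ Cfsg.sextets → S' ∈ Cfsg.sextets → (S.filter fun t => (t ∩ Y).Nonempty).card = (S'.filter fun t => (t ∩ Y).Nonempty).card → ∃ g ∈ Cfsg.M24, g • Y = Y ∧ g • S = S' :=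 by
  obtain ⟨g0, hg0, rfl⟩ := exists_smul_Y0 Y hY
  refine ⟨?_, ?_, ?_, ?_⟩
  · rw [count_transport hg0, count_Y0, s_cnt.1]
  · rw [count_transport hg0, count_Y0, s_cnt.2.1]
  · rw [count_transport hg0, count_Y0, s_cnt.2.2]
  · intro S S' hS hS' h
    have h1 := filter_smul g0 (g0⁻¹ • S) Y0
    have h2 := filter_smul g0 (g0⁻¹ • S') Y0
    rw [smul_inv_smul] at h1 h2
    rw [h1, h2] at h
    obtain ⟨g, hg, e, f⟩ := trans_Y0 ((smul_sextet_iff (inv_mem hg0)).2 hS)
      ((smul_sextet_iff (inv_mem hg0)).2 hS') h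
    refine ⟨g0 * g * g0⁻¹, mul_mem (mul_mem hg0 hg) (inv_mem hg0), ?_, ?_⟩
    · rw [mul_smul, inv_smul_smul, mul_smul, e]
    · rw [mul_smul, mul_smul, f, smul_inv_smul]

end Cfsg.Agent.S5616
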