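import Cfsg.Statements.S5617
import Cfsg.Agent.Helper28.SxStab
import Cfsg.Agent.Helper28.S5617Data

set_option autoImplicit false
open scoped Pointwise
open Cfsg

namespace Cfsg.Agent.S5617

open Cfsg.Agent.Helper12 Cfsg.Agent.Helper28 Cfsg.Agent.Helper28.Sext Cfsg.Agent.Helper28.Trio
open Cfsg.Agent.Helper28.SxStab Cfsg.Agent.Helper28.S5617Data

/-- the first dodecad -/
abbrev d0 : Finset GolayPt := ofMask (get24 DA 0)

/-- the first dodecad and its complement -/
abbrev P0 : Finset (Finset GolayPt) := {d0, Finset.univ \ d0}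

/-- the masks of the first dodecad and of its complement -/
def pm (i : ℕ) : ℕ := bif Nat.beq i 0 then get24 DA 0 else Nat.xor (get24 DA 0) 16777215

theorem smul_pair (g : Equiv.Perm GolayPt) (d : Finset GolayPt) :
    g • ({d, Finset.univ \ d} : Finset (Finset GolayPt)) = {g • d, Finset.univ \ g • d} := by
  rw [show ({d, Finset.univ \ d} : Finset (Finset GolayPt)) = insert d {Finset.univ \ d} from rfl,
    Finset.smul_finset_insert, Finset.smul_finset_singleton, Finset.smul_finset_sdiff,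
    Finset.smul_finset_univ]

theorem P0_eq : P0 = fam 2 pm := by
  ext t
  rw [mem_fam]
  simp only [P0, Finset.mem_insert, Finset.mem_singleton]
  constructor
  · rintro (rfl | rfl)
    · exact ⟨0, by norm_num, rfl⟩
    · refine ⟨1, by norm_num, ?_⟩
      rw [← Finset.compl_eq_univ_sdiff]
      exact (ofMask_compl _).symm
  · rintro ⟨i, hi, rfl⟩
    have : i = 0 ∨ i = 1 := by omega
    rcases this with rfl | rfl
    · left; rfl
    · right
      rw [← Finset.compl_eq_univ_sdiff]
      exact ofMask_compl _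

theorem pm_ne : Nat.beq (pm 0) (pm 1) = false := by decide +kernel

theorem pm_injOn : Set.InjOn (fun i => ofMask (pm i)) ((Finset.range 2 : Finset ℕ) : Set ℕ) := by
  intro i hi j hj e
  simp only [Finset.coe_range, Set.mem_Iio] at hi hj
  have hlt : ∀ i, pm i < 2 ^ 24 := by
    intro i
    unfold pm
    cases Nat.beq i 0
    · exact Nat.xor_lt_two_pow (get24_lt _ _) (by norm_num)
    · exact get24_lt _ _
  have e' := ofMask_inj (hlt i) (hlt j) e
  have hne : pm 0 ≠ pm 1 := by
    intro h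
    have := pm_ne
    rw [h] at this
    have h2 : Nat.beq (pm 1) (pm 1) = true := by rw [Nat.beq_eq]
    rw [h2] at this
    exact absurd this (by decide)
  have : i = 0 ∨ i = 1 := by omega
  have : j = 0 ∨ j = 1 := by omega
  rcases ‹i = 0 ∨ i = 1› with rfl | rfl <;> rcases ‹j = 0 ∨ j = 1› with rfl | rfl
  · rfl
  · exact absurd e' hne
  · exact absurd e'.symm hne
  · rfl

theorem s_img : sxImgOK M12G sIM 2 = true := by decide +kernel
theorem s_cert : certI (sxAct sIM) 2 sPA sTA sRT sRK 1771 = true := by decide +kernel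
def sRoot (c : ℕ) : ℕ := bif Nat.beq c 2100 then 0 else bif Nat.beq c 5196 then 3 else 4
theorem s_root : allB 1771 (fun k => Nat.beq (get24 sRT k)
    (sRoot (inv2c w7 wid 2 pm 6 (sxm k)))) = true := by decide +kernel
theorem s_cnt : cntB 1771 (fun k => Nat.beq (get24 sRT k) 4) = 396 ∧
    cntB 1771 (fun k => Nat.beq (get24 sRT k) 3) = 495 ∧
    cntB 1771 (fun k => Nat.beq (get24 sRT k) 0) = 880 := by decide +kernel
theorem s_all : allB 1771 (fun k => Nat.beq (get24 sRT k) 4 || Nat.beq (get24 sRT k) 3 ||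
    Nat.beq (get24 sRT k) 0) = true := by decide +kernel

/-- the generators of the stabilizer of the first dodecad, as elements of the group -/
def gen (j : ℕ) : ↥M24 := ⟨genOf M12G M12Q 2 M12_sys j, genOf_mem_M24 M12G M12Q 2 M12_sys M12_m24 j⟩

theorem gen_mem (j : ℕ) : gen j ∈ MulAction.stabilizer ↥M24 P0 := by
  show genOf M12G M12Q 2 M12_sys j • P0 = P0
  rw [smul_pair, genOf_fix M12G M12Q 2 M12_sys M12_fix j]

theorem sextets_P0 : ∃ X₁ ∈ sextets, ∃ X₂ ∈ sextets, ∃ X₃ ∈ sextets,
    (MulAction.orbit ↥(MulAction.stabilizer ↥M24 P0) X₁).ncard = 396 ∧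
    (MulAction.orbit ↥(MulAction.stabilizer ↥M24 P0) X₂).ncard = 495 ∧
    (MulAction.orbit ↥(MulAction.stabilizer ↥M24 P0) X₃).ncard = 880 ∧
    sextets = MulAction.orbit ↥(MulAction.stabilizer ↥M24 P0) X₁ ∪
      MulAction.orbit ↥(MulAction.stabilizer ↥M24 P0) X₂ ∪
      MulAction.orbit ↥(MulAction.stabilizer ↥M24 P0) X₃ := by
  have hcert := orbit_certI (MulAction.stabilizer ↥M24 P0) sx gen (sxAct sIM) 2
    (fun j _ => gen_mem j) 1771
    (fun j hj m hm => (sx_smul M12G M12Q 2 M12_sys M12_m24 sIM s_img hj hm).1) sPA sTA sRT sRK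
    s_cert
  have hsep := sep_of_inv (MulAction.stabilizer ↥M24 P0) sx 1771 sextets
    (fun g _ x hx => smul_sextet g.2 hx)
    (fun k hk => sx_mem hk) (fun x hx => sx_complete hx)
    (fun S => inv2 w7 wid P0 S)
    (fun g hg x _ => inv2_right (A := P0) (g := (g : Equiv.Perm GolayPt)) hg w7 wid x)
    (fun k => inv2c w7 wid 2 pm 6 (sxm k))
    (fun k hk => by rw [P0_eq]; exact inv2_fam w7 wid pm_injOn (sx_injOn hk))
    (fun k => get24 sRT k) sRoot (fun k hk => Nat.eq_of_beq_eq_true (allB_spec s_root k hk))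
  exact three_orbits (MulAction.stabilizer ↥M24 P0) sx 1771 sextets (fun k hk => sx_mem hk)
    (fun x hx => sx_complete hx) sx_inj (fun k => get24 sRT k) hcert hsep 4 3 0 396 495 880
    (by norm_num) (by norm_num) (by norm_num) (by decide +kernel) (by decide +kernel)
    (by decide +kernel) s_cnt.1 s_cnt.2.1 s_cnt.2.2
    (fun k hk => by
      have := or3 (allB_spec s_all k hk)
      simpa only [Nat.beq_eq] using this)

/-- The setwise stabiliser, in the group of the length-24 code, of a complementary pair of dodecads has exactly three orbits on the 1771 sextets, of sizes 396, 495 and 880. -/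
theorem result (d : Finset Cfsg.GolayPt) (hd : d ∈ Cfsg.dodecads) : ∃ X₁ ∈ Cfsg.sextets, ∃ X₂ ∈ Cfsg.sextets, ∃ X₃ ∈ Cfsg.sextets, (MulAction.orbit ↥(MulAction.stabilizer Cfsg.M24 ({d, Finset.univ \ d} : Finset (Finset Cfsg.GolayPt))) X₁).ncard = 396 ∧ (MulAction.orbit ↥(MulAction.stabilizer Cfsg.M24 ({d, Finset.univ \ d} : Finset (Finset Cfsg.GolayPt))) X₂).ncard = 495 ∧ (MulAction.orbit ↥(MulAction.stabilizer Cfsg.M24 ({d, Finset.univ \ d} : Finset (Finset Cfsg.GolayPt))) X₃).ncard = 880 ∧ Cfsg.sextets = MulAction.orbit ↥(MulAction.stabilizer Cfsg.M24 ({d, Finset.univ \ d} : Finset (Finset Cfsg.GolayPt))) X₁ ∪ MulAction.orbit ↥(MulAction.stabilizer Cfsg.M24 ({d, Finset.univ \ d} : Finset (Finset Cfsg.GolayPt))) X₂ ∪ MulAction.orbit ↥(MulAction.stabilizer Cfsg.M24 ({d, Finset.univ \ d} : Finset (Finset Cfsg.GolayPt))) X₃ := by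
  obtain ⟨g0, hg0, rfl⟩ := M24_trans_dodecads (DA_mem (by norm_num : 0 < 2576)) hd
  have h := transport3 (G := ↥M24) sextets (fun g b hb => smul_sextet g.2 hb) P0 ⟨g0, hg0⟩
    396 495 880 sextets_P0
  have e : (⟨g0, hg0⟩ : ↥M24) • P0 = {g0 • d0, Finset.univ \ g0 • d0} := smul_pair g0 d0
  rw [e] at h
  exact h

end Cfsg.Agent.S5617
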