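import Cfsg.Statements.S5618
import Cfsg.Agent.Helper28.SymSix

set_option autoImplicit false
open scoped Pointwise
open Cfsg

namespace Cfsg.Agent.S5618

open Cfsg.Agent.Helper28.SymSix
open scoped Pointwise

/-- For a dodecad d of the length-24 code and a hexad C on it (a 6-point intersection of d with an octad): the joint stabiliser of d and C in the code's group is isomorphic to the symmetric group of degree 6, and it acts faithfully both on the six points of C and on the six points of d outside C. -/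
theorem result (d : Finset Cfsg.GolayPt) (hd : d ∈ Cfsg.dodecads) (C : Finset Cfsg.GolayPt) (hC : C ∈ Cfsg.hexadsOn d) : Nonempty (↥(MulAction.stabilizer Cfsg.M24 d ⊓ MulAction.stabilizer Cfsg.M24 C) ≃* Equiv.Perm (Fin 6)) ∧ (∀ g ∈ MulAction.stabilizer Cfsg.M24 d ⊓ MulAction.stabilizer Cfsg.M24 C, (∀ p ∈ C, ((g : ↥Cfsg.M24) : Equiv.Perm Cfsg.GolayPt) p = p) → g = 1) ∧ ∀ g ∈ MulAction.stabilizer Cfsg.M24 d ⊓ MulAction.stabilizer Cfsg.M24 C, (∀ p ∈ d \ C, ((g : ↥Cfsg.M24) : Equiv.Perm Cfsg.GolayPt) p = p) → g = 1 := by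
  obtain ⟨hC6, o, ho, hoC⟩ := hC
  have hCd : C ⊆ d := by rw [← hoC]; exact Finset.inter_subset_right
  have hCo : C ⊆ o := by rw [← hoC]; exact Finset.inter_subset_left
  have hd12 : d.card = 12 := hd.2
  have hdC : (d \ C).card = 6 := by rw [Finset.card_sdiff_of_subset hCd, hd12, hC6]
  have fix1 : ∀ g ∈ MulAction.stabilizer M24 d ⊓ MulAction.stabilizer M24 C,
      (∀ p ∈ C, ((g : ↥M24) : Equiv.Perm GolayPt) p = p) → g = 1 := by
    intro g hg hfix
    exact eq_one_of_fix_five hd hCd (by omega) hg.1 hfix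
  have fix2 : ∀ g ∈ MulAction.stabilizer M24 d ⊓ MulAction.stabilizer M24 C,
      (∀ p ∈ d \ C, ((g : ↥M24) : Equiv.Perm GolayPt) p = p) → g = 1 := by
    intro g hg hfix
    exact eq_one_of_fix_five hd Finset.sdiff_subset (by omega) hg.1 hfix
  refine ⟨?_, fix1, fix2⟩
  have hK : ∀ k ∈ MulAction.stabilizer M24 d ⊓ MulAction.stabilizer M24 C,
      ((k : M24) : Equiv.Perm GolayPt) • C = C := fun k hk => hk.2
  have hinj : Function.Injective (restr C _ hK) := by
    rw [injective_iff_map_eq_one]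
    intro k hk
    apply Subtype.ext
    apply fix1 k.1 k.2
    intro p hp
    exact congrArg (fun τ : Equiv.Perm ↥C => ((τ ⟨p, hp⟩ : ↥C) : GolayPt)) hk
  have hsurj : Function.Surjective (restr C _ hK) := by
    intro σ
    obtain ⟨x, a, hx, ha, hcover, hne⟩ := Cfsg.Agent.Helper28.SixPts.exists_frame hC6
    let y : Fin 5 ↪ GolayPt := ⟨fun i => (σ ⟨x i, hx i⟩ : GolayPt), fun i j hij => by
      have h1 : σ ⟨x i, hx i⟩ = σ ⟨x j, hx j⟩ := Subtype.ext hij
      exact x.injective (congrArg Subtype.val (σ.injective h1))⟩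
    obtain ⟨g, hg, -⟩ := Cfsg.Agent.Helper3.sharp_five d hd x y (fun i => hCd (hx i))
      (fun i => hCd (σ ⟨x i, hx i⟩).2)
    have hgd : ((g : M24) : Equiv.Perm GolayPt) • d = d := g.2
    have hgo : ((g : M24) : Equiv.Perm GolayPt) • o = o := by
      apply Cfsg.Agent.Helper3.octad_eq_of_inter
        (Cfsg.Agent.Helper3.smul_mem_octads (g : M24).2 ho) ho
      have hsub : Finset.univ.map y ⊆ ((g : M24) : Equiv.Perm GolayPt) • o ∩ o := by
        intro p hp
        obtain ⟨i, -, rfl⟩ := Finset.mem_map.mp hp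
        rw [Finset.mem_inter]
        refine ⟨?_, hCo (σ ⟨x i, hx i⟩).2⟩
        rw [← hg i]
        exact Finset.smul_mem_smul_finset (hCo (hx i))
      calc 5 = (Finset.univ.map y).card := by simp
        _ ≤ _ := Finset.card_le_card hsub
    have hgC : ((g : M24) : Equiv.Perm GolayPt) • C = C := by
      rw [← hoC, Finset.smul_finset_inter, hgo, hgd]
    refine ⟨⟨(g : M24), g.2, hgC⟩, ?_⟩
    generalize hψ : restr C _ hK ⟨(g : M24), g.2, hgC⟩ = ψ
    have hψx : ∀ i, ψ ⟨x i, hx i⟩ = σ ⟨x i, hx i⟩ := by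
      intro i
      rw [← hψ]
      exact Subtype.ext (hg i)
    have hψa : ψ ⟨a, ha⟩ = σ ⟨a, ha⟩ := by
      have key : σ.symm (ψ ⟨a, ha⟩) = ⟨a, ha⟩ := by
        rcases hcover (σ.symm (ψ ⟨a, ha⟩) : ↥C).1 (σ.symm (ψ ⟨a, ha⟩) : ↥C).2 with h | ⟨i, h⟩
        · exact Subtype.ext h
        · exfalso
          have h1 : σ.symm (ψ ⟨a, ha⟩) = ⟨x i, hx i⟩ := Subtype.ext h
          have h2 : ψ ⟨a, ha⟩ = σ ⟨x i, hx i⟩ := by rw [← h1]; simp
          rw [← hψx i] at h2
          exact hne i (congrArg Subtype.val (ψ.injective h2)).symm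
      calc ψ ⟨a, ha⟩ = σ (σ.symm (ψ ⟨a, ha⟩)) := (σ.apply_symm_apply _).symm
        _ = σ ⟨a, ha⟩ := by rw [key]
    apply Equiv.ext
    intro p
    rcases hcover p.1 p.2 with h | ⟨i, h⟩
    · have hp : p = ⟨a, ha⟩ := Subtype.ext h
      rw [hp, hψa]
    · have hp : p = ⟨x i, hx i⟩ := Subtype.ext h
      rw [hp, hψx i]
  exact iso_of_bijective hC6 _ ⟨hinj, hsurj⟩

end Cfsg.Agent.S5618
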