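import Cfsg.Statements.S5619
import Mathlib
import Cfsg.Agent.S1600
import Cfsg.Agent.Helper28.M9

set_option autoImplicit false
open scoped Pointwise
open Cfsg

namespace Cfsg.Agent.S5619


/-- In the group of the length-24 code, the subgroup fixing a dodecad setwise and three of its points individually (a group of order 72) has a normal Sylow 3-subgroup that is elementary abelian of order 9, and its Sylow 2-subgroups are quaternion of order 8. -/
theorem result (d : Finset Cfsg.GolayPt) (hd : d ∈ Cfsg.dodecads) (p q r : Cfsg.GolayPt) (hp : p ∈ d) (hq : q ∈ d) (hr : r ∈ d) (hpq : p ≠ q) (hpr : p ≠ r) (hqr : q ≠ r) : (∀ Q : Sylow 3 ↥(MulAction.stabilizer Cfsg.M24 d ⊓ MulAction.stabilizer Cfsg.M24 p ⊓ MulAction.stabilizer Cfsg.M24 q ⊓ MulAction.stabilizer Cfsg.M24 r), (Q : Subgroup ↥(MulAction.stabilizer Cfsg.M24 d ⊓ MulAction.stabilizer Cfsg.M24 p ⊓ MulAction.stabilizer Cfsg.M24 q ⊓ MulAction.stabilizer Cfsg.M24 r)).Normal ∧ Nat.card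 ↥Q = 9 ∧ ∀ x ∈ (Q : Subgroup ↥(MulAction.stabilizer Cfsg.M24 d ⊓ MulAction.stabilizer Cfsg.M24 p ⊓ MulAction.stabilizer Cfsg.M24 q ⊓ MulAction.stabilizer Cfsg.M24 r)), x ^ 3 = 1) ∧ ∀ P : Sylow 2 ↥(MulAction.stabilizer Cfsg.M24 d ⊓ MulAction.stabilizer Cfsg.M24 p ⊓ MulAction.stabilizer Cfsg.M24 q ⊓ MulAction.stabilizer Cfsg.M24 r), Nonempty (↥P ≃* QuaternionGroup 2) := by
  -- two more points of the dodecad
  have hcard : 1 < (((d.erase p).erase q).erase r).card := by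
    rw [Finset.card_erase_of_mem, Finset.card_erase_of_mem, Finset.card_erase_of_mem hp, hd.2]
    · norm_num
    · exact Finset.mem_erase.mpr ⟨hpq.symm, hq⟩
    · exact Finset.mem_erase.mpr ⟨hqr.symm, Finset.mem_erase.mpr ⟨hpr.symm, hr⟩⟩
  obtain ⟨s, hs, t, ht, hst⟩ := Finset.one_lt_card.mp hcard
  simp only [Finset.mem_erase] at hs ht
  obtain ⟨hsr, hsq, hsp, hsd⟩ := hs
  obtain ⟨htr, htq, htp, htd⟩ := ht
  have hinj : Function.Injective (![p, q, r, s, t] : Fin 5 → GolayPt) := by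
    intro i j hij
    fin_cases i <;> fin_cases j <;> simp_all
  obtain ⟨k, hk, hkd, hkx⟩ := Cfsg.Agent.Helper3.flag_five hd ⟨![p, q, r, s, t], hinj⟩
    (by
      intro i
      fin_cases i
      · exact hp
      · exact hq
      · exact hr
      · exact hsd
      · exact htd)
  rw [Cfsg.Agent.S1600.dStd_eq_ofMask] at hkd
  have h0 : k (Cfsg.Agent.Helper12.pt 0) = p := by
    rw [← Cfsg.Agent.S1600.pt_eq0]; exact hkx 0
  have h1 : k (Cfsg.Agent.Helper12.pt 1) = q := by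
    rw [← Cfsg.Agent.S1600.pt_eq1]; exact hkx 1
  have h2 : k (Cfsg.Agent.Helper12.pt 2) = r := by
    rw [← Cfsg.Agent.S1600.pt_eq2]; exact hkx 2
  exact Cfsg.Agent.Helper28.QuatTools.sylow_of_struct
    (Cfsg.Agent.Helper28.M9.struct_of d p q r k hk hkd h0 h1 h2)

end Cfsg.Agent.S5619
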