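import Cfsg.Statements.S5622
import Cfsg.Agent.Helper28.Code

set_option autoImplicit false
open Cfsg

namespace Cfsg.Agent.S5622

/-- Let C be a self-dual binary code of length 24 with minimum weight at least 8 (a 12-dimensional subspace of the 24-dimensional space over the field with two elements, any two of whose words have dot product zero, with no non-zero word of weight below 8 — an abstract extended binary Golay code). Then the minimum weight of C is exactly 8, and the supports of the words of weight 8 (the octads) form a Steiner system S(5, 8, 24) on the 24 coordinates: every 5 coordinates lie in the support of exactly one word of weight 8. -/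
theorem result (C : Submodule (ZMod 2) (Fin 24 → ZMod 2)) (hdim : Module.finrank (ZMod 2) C = 12) (horth : ∀ v ∈ C, ∀ w ∈ C, ∑ i, v i * w i = 0) (hmin : ∀ w ∈ C, w ≠ 0 → 8 ≤ hammingNorm w) : (∃ w ∈ C, hammingNorm w = 8) ∧ Cfsg.IsSteinerSystem 5 8 (Cfsg.wordsOfWeight (C : Set (Fin 24 → ZMod 2)) 8) := by

  constructor
  · obtain ⟨s, -, hs⟩ := Finset.exists_subset_card_eq (s := (Finset.univ : Finset (Fin 24)))
      (n := 5) (by simp)
    obtain ⟨c, hc, h8, -⟩ := Cfsg.Agent.Helper28.Code.exists_octad (Fintype.card_fin 24) C hdim hmin s hs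
    exact ⟨c, hc, h8⟩
  · refine ⟨fun b hb => hb.2, fun s hs => ?_⟩
    obtain ⟨c, hc, h8, hsc⟩ := Cfsg.Agent.Helper28.Code.exists_octad (Fintype.card_fin 24) C hdim hmin s hs
    refine ⟨support₂ c, ⟨⟨⟨c, hc, rfl⟩, by rw [← Cfsg.Agent.Helper28.Code.norm_eq]; exact h8⟩,
      hsc⟩, ?_⟩
    rintro b' ⟨⟨⟨c', hc', rfl⟩, hb'8⟩, hsb'⟩
    by_contra hne
    have hcc : c' ≠ c := fun h => hne (by rw [h])
    have h1 := hmin (c' - c) (C.sub_mem hc' hc) (sub_ne_zero.mpr hcc)
    rw [Cfsg.Agent.Helper28.Code.sub_eq_add] at h1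
    have h2 := Cfsg.Agent.Helper28.Code.norm_add c' c
    have h3 : 5 ≤ (support₂ c' ∩ support₂ c).card := by
      rw [← hs]; exact Finset.card_le_card (Finset.subset_inter hsb' hsc)
    rw [Cfsg.Agent.Helper28.Code.norm_eq c', hb'8] at h2
    omega

end Cfsg.Agent.S5622
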