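import Cfsg.Statements.S5623
import Cfsg.Agent.Helper28.Code

set_option autoImplicit false
open Cfsg

namespace Cfsg.Agent.S5623

/-- Let C be a self-dual binary code of length 24 with minimum weight at least 8 (a 12-dimensional subspace of the 24-dimensional space over the field with two elements, any two of whose words have dot product zero, with no non-zero word of weight below 8 — an abstract extended binary Golay code). Then every coset w + C of C in the ambient space contains either exactly one word of weight at most 4, which then has weight at most 3, or exactly six words of weight at most 4, all of weight exactly 4 and with pairwise disjoint supports (a sextet). -/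
theorem result (C : Submodule (ZMod 2) (Fin 24 → ZMod 2)) (hdim : Module.finrank (ZMod 2) C = 12) (horth : ∀ v ∈ C, ∀ w ∈ C, ∑ i, v i * w i = 0) (hmin : ∀ w ∈ C, w ≠ 0 → 8 ≤ hammingNorm w) (w : Fin 24 → ZMod 2) : (∃ u : Fin 24 → ZMod 2, {u : Fin 24 → ZMod 2 | u - w ∈ C ∧ hammingNorm u ≤ 4} = {u} ∧ hammingNorm u ≤ 3) ∨ ({u : Fin 24 → ZMod 2 | u - w ∈ C ∧ hammingNorm u ≤ 4}.ncard = 6 ∧ ∀ u ∈ {u : Fin 24 → ZMod 2 | u - w ∈ C ∧ hammingNorm u ≤ 4}, hammingNorm u = 4 ∧ ∀ u' ∈ {u : Fin 24 → ZMod 2 | u - w ∈ C ∧ hammingNorm u ≤ 4}, u ≠ u' → Disjoint (Finset.univ.filter fun i => u i ≠ 0) (Finset.univ.filter fun i => u' i ≠ 0)) := by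

  rcases Cfsg.Agent.Helper28.Code.coset_leaders (Fintype.card_fin 24) C hdim hmin w with
    ⟨u, hu, huniq⟩ | ⟨F, hF6, hF4, hFmem⟩
  · left
    refine ⟨u, ?_, hu⟩
    ext u'
    rw [Set.mem_setOf_eq, Set.mem_singleton_iff]
    exact huniq u'
  · right
    have hset : {u : Fin 24 → ZMod 2 | u - w ∈ C ∧ hammingNorm u ≤ 4}
        = (F : Set (Fin 24 → ZMod 2)) := by
      ext u'
      rw [Set.mem_setOf_eq, Finset.mem_coe]
      exact hFmem u'
    rw [hset]
    refine ⟨by rw [Set.ncard_coe_finset, hF6], ?_⟩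
    intro u hu
    rw [Finset.mem_coe] at hu
    refine ⟨hF4 u hu, ?_⟩
    intro u' hu' hne
    rw [Finset.mem_coe] at hu'
    have h1 := ((hFmem u).mpr hu).1
    have h2 := ((hFmem u').mpr hu').1
    have h3 : u - u' ∈ C := by
      have h4 : u - u' = (u - w) - (u' - w) := by abel
      rw [h4]; exact C.sub_mem h1 h2
    exact (Cfsg.Agent.Helper28.Code.k1 C hmin (by rw [hF4 u hu]) (by rw [hF4 u' hu']) hne h3).2.2

end Cfsg.Agent.S5623
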