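import Cfsg.Statements.S5625

set_option autoImplicit false
open Cfsg

namespace Cfsg.Agent.S5625

section
variable {α : Type*} [Fintype α] [DecidableEq α]

/-- number of blocks (in the finset `Bf`) containing `S` -/
def lam (Bf : Finset (Finset α)) (S : Finset α) : ℕ := (Bf.filter (fun b => S ⊆ b)).card

/-- One step of the standard recursion for the block-intersection numbers of a design. -/
theorem step (Bf : Finset (Finset α)) (n k : ℕ) (hα : Fintype.card α = n)
    (hk : ∀ b ∈ Bf, b.card = k) (i L : ℕ)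
    (h : ∀ S' : Finset α, S'.card = i + 1 → lam Bf S' = L) (S : Finset α) (hS : S.card = i) :
    lam Bf S * (k - i) = (n - i) * L := by
  have key := Finset.sum_card_bipartiteAbove_eq_sum_card_bipartiteBelow (s := Sᶜ)
    (t := Bf.filter (fun b => S ⊆ b)) (fun (x : α) (b : Finset α) => x ∈ b)
  have h1 : ∀ x ∈ Sᶜ, ((Bf.filter (fun b => S ⊆ b)).bipartiteAbove
      (fun (x : α) (b : Finset α) => x ∈ b) x).card = L := by
    intro x hx
    rw [Finset.mem_compl] at hx
    rw [← h (insert x S) (by rw [Finset.card_insert_of_notMem hx, hS])]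
    unfold lam Finset.bipartiteAbove
    congr 1
    ext b
    simp only [Finset.mem_filter, Finset.insert_subset_iff]
    tauto
  have h2 : ∀ b ∈ Bf.filter (fun b => S ⊆ b), ((Sᶜ).bipartiteBelow
      (fun (x : α) (b : Finset α) => x ∈ b) b).card = k - i := by
    intro b hb
    rw [Finset.mem_filter] at hb
    have h3 : (Sᶜ).bipartiteBelow (fun (x : α) (b : Finset α) => x ∈ b) b = b \ S := by
      unfold Finset.bipartiteBelow
      ext x
      simp only [Finset.mem_filter, Finset.mem_compl, Finset.mem_sdiff]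
      tauto
    rw [h3, Finset.card_sdiff_of_subset hb.2, hk b hb.1, hS]
  rw [Finset.sum_congr rfl h1, Finset.sum_congr rfl h2, Finset.sum_const, Finset.sum_const,
    Finset.card_compl, hα, hS, smul_eq_mul, smul_eq_mul] at key
  unfold lam
  exact key.symm

omit [Fintype α] in
theorem binom_count (Bf : Finset (Finset α)) (Y : Finset α) (j : ℕ) :
    ∑ blk ∈ Bf, (blk ∩ Y).card.choose j = ∑ Z ∈ Y.powersetCard j, lam Bf Z := by
  have key := Finset.sum_card_bipartiteAbove_eq_sum_card_bipartiteBelow (s := Y.powersetCard j)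
    (t := Bf) (fun (Z : Finset α) (b : Finset α) => Z ⊆ b)
  have h0 : ∑ Z ∈ Y.powersetCard j, lam Bf Z = ∑ Z ∈ Y.powersetCard j,
      (Bf.bipartiteAbove (fun (Z : Finset α) (b : Finset α) => Z ⊆ b) Z).card := rfl
  rw [h0, key]
  apply Finset.sum_congr rfl
  intro blk _
  rw [← Finset.card_powersetCard]
  congr 1
  ext Z
  simp only [Finset.bipartiteBelow, Finset.mem_filter, Finset.mem_powersetCard,
    Finset.subset_inter_iff]
  tauto

end

/-- In any Steiner system S(5, 8, 24) and for any set Y of three points, the blocks meeting Y in exactly 3, 2, 1 and 0 points number 21, 168, 360 and 210 respectively (so there are 759 blocks in all). -/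
theorem result (α : Type*) [Fintype α] [DecidableEq α] (hα : Fintype.card α = 24) (B : Set (Finset α)) (hB : Cfsg.IsSteinerSystem 5 8 B) (Y : Finset α) (hY : Y.card = 3) : {b : Finset α | b ∈ B ∧ (b ∩ Y).card = 3}.ncard = 21 ∧ {b : Finset α | b ∈ B ∧ (b ∩ Y).card = 2}.ncard = 168 ∧ {b : Finset α | b ∈ B ∧ (b ∩ Y).card = 1}.ncard = 360 ∧ {b : Finset α | b ∈ B ∧ (b ∩ Y).card = 0}.ncard = 210 := by
  classical
  obtain ⟨hB8, hB5⟩ := hB
  set Bf : Finset (Finset α) := (Set.toFinite B).toFinset with hBf
  have hmem : ∀ b, b ∈ Bf ↔ b ∈ B := fun b => Set.Finite.mem_toFinset _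
  have hk : ∀ b ∈ Bf, b.card = 8 := fun b hb => hB8 b ((hmem b).mp hb)
  have l5 : ∀ S : Finset α, S.card = 4 + 1 → lam Bf S = 1 := by
    intro S hS
    obtain ⟨b, ⟨hb1, hb2⟩, hbu⟩ := hB5 S hS
    unfold lam
    rw [Finset.card_eq_one]
    refine ⟨b, ?_⟩
    ext b'
    simp only [Finset.mem_filter, Finset.mem_singleton, hmem]
    constructor
    · intro h; exact hbu b' h
    · rintro rfl; exact ⟨hb1, hb2⟩
  have l4 : ∀ S : Finset α, S.card = 3 + 1 → lam Bf S = 5 := by
    intro S hS
    have := step Bf 24 8 hα hk 4 1 l5 S hS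
    omega
  have l3 : ∀ S : Finset α, S.card = 2 + 1 → lam Bf S = 21 := by
    intro S hS
    have := step Bf 24 8 hα hk 3 5 l4 S hS
    omega
  have l2 : ∀ S : Finset α, S.card = 1 + 1 → lam Bf S = 77 := by
    intro S hS
    have := step Bf 24 8 hα hk 2 21 l3 S hS
    omega
  have l1 : ∀ S : Finset α, S.card = 0 + 1 → lam Bf S = 253 := by
    intro S hS
    have := step Bf 24 8 hα hk 1 77 l2 S hS
    omega
  have l0 : ∀ S : Finset α, S.card = 0 → lam Bf S = 759 := by
    intro S hS
    have := step Bf 24 8 hα hk 0 253 l1 S hS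
    omega
  have hset : ∀ k, {b : Finset α | b ∈ B ∧ (b ∩ Y).card = k}.ncard
      = (Bf.filter (fun blk => (blk ∩ Y).card = k)).card := by
    intro k
    rw [← Set.ncard_coe_finset]
    congr 1
    ext b
    simp [hmem]
  have hfib : ∀ j, ∑ blk ∈ Bf, (blk ∩ Y).card.choose j
      = ∑ k ∈ Finset.range 4, (Bf.filter (fun blk => (blk ∩ Y).card = k)).card * k.choose j := by
    intro j
    rw [← Finset.sum_fiberwise_of_maps_to (g := fun blk => (blk ∩ Y).card) (t := Finset.range 4)]
    · apply Finset.sum_congr rfl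
      intro k _
      rw [Finset.card_eq_sum_ones, Finset.sum_mul]
      apply Finset.sum_congr rfl
      intro blk hblk
      rw [Finset.mem_filter] at hblk
      rw [hblk.2, one_mul]
    · intro blk _
      rw [Finset.mem_range]
      have : (blk ∩ Y).card ≤ Y.card := Finset.card_le_card Finset.inter_subset_right
      omega
  have hsum : ∀ j L, (∀ S : Finset α, S.card = j → lam Bf S = L) →
      ∑ k ∈ Finset.range 4, (Bf.filter (fun blk => (blk ∩ Y).card = k)).card * k.choose j
        = (Nat.choose 3 j) * L := by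
    intro j L hL
    rw [← hfib, binom_count, Finset.sum_congr rfl
      (fun Z hZ => hL Z (Finset.mem_powersetCard.mp hZ).2), Finset.sum_const,
      Finset.card_powersetCard, hY, smul_eq_mul]
  have e0 := hsum 0 759 l0
  have e1 := hsum 1 253 l1
  have e2 := hsum 2 77 l2
  have e3 := hsum 3 21 l3
  simp only [Finset.sum_range_succ, Finset.sum_range_zero] at e0 e1 e2 e3
  rw [hset, hset, hset, hset]
  generalize (Bf.filter (fun blk => (blk ∩ Y).card = 0)).card = N0 at *
  generalize (Bf.filter (fun blk => (blk ∩ Y).card = 1)).card = N1 at *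
  generalize (Bf.filter (fun blk => (blk ∩ Y).card = 2)).card = N2 at *
  generalize (Bf.filter (fun blk => (blk ∩ Y).card = 3)).card = N3 at *
  norm_num [Nat.choose] at e0 e1 e2 e3
  refine ⟨?_, ?_, ?_, ?_⟩ <;> omega

end Cfsg.Agent.S5625
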