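import Cfsg.Statements.S5626
import Cfsg.Agent.Helper28.HypG

set_option autoImplicit false
open Cfsg

namespace Cfsg.Agent.S5626


/-- Uniqueness of the projective plane of order 4: any two Steiner systems S(2, 5, 21) (21 points, lines of 5 points, two points on exactly one line) are isomorphic. -/
theorem result {α β : Type*} [Fintype α] [DecidableEq α] [Fintype β] [DecidableEq β] (hα : Fintype.card α = 21) (hβ : Fintype.card β = 21) {L : Set (Finset α)} {L' : Set (Finset β)} (hL : Cfsg.IsSteinerSystem 2 5 L) (hL' : Cfsg.IsSteinerSystem 2 5 L') : Cfsg.SetSystemIso L L' := by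
  classical
  obtain ⟨O, hO⟩ := Helper28.Hyp.exists_hyperoval hα hL
  obtain ⟨O', hO'⟩ := Helper28.Hyp.exists_hyperoval hβ hL'
  have hcard : O.card = O'.card := by
    rw [(Helper28.Hyp.mem_Arcs.mp hO).1, (Helper28.Hyp.mem_Arcs.mp hO').1]
  obtain ⟨b0, hb0⟩ : O'.Nonempty := by
    rw [← Finset.card_pos, (Helper28.Hyp.mem_Arcs.mp hO').1]
    norm_num
  obtain ⟨e0⟩ : Nonempty (↥O ≃ ↥O') := ⟨Finset.equivOfCardEq hcard⟩
  obtain ⟨φ, hφdef⟩ : ∃ φ : α → β, ∀ a (ha : a ∈ O), φ a = (e0 ⟨a, ha⟩ : β) :=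
    ⟨fun x => if h : x ∈ O then (e0 ⟨x, h⟩ : β) else b0, fun a ha => dif_pos ha⟩
  have hφ : ∀ a ∈ O, φ a ∈ O' := by
    intro a ha
    rw [hφdef a ha]
    exact (e0 ⟨a, ha⟩).2
  have hinj : ∀ a ∈ O, ∀ b ∈ O, φ a = φ b → a = b := by
    intro a ha b hb h
    rw [hφdef a ha, hφdef b hb] at h
    have h2 := e0.injective (Subtype.ext h)
    exact congrArg Subtype.val h2
  obtain ⟨e, -, hel⟩ := Helper28.Hyp.ext_exists hα hL hO hβ hL' hO' hφ hinj
  exact ⟨e, Helper28.Hyp.iso_of_ext hL hL' hel⟩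

end Cfsg.Agent.S5626
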