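import Cfsg.Statements.S5627
import Cfsg.Agent.Helper28.HypD

set_option autoImplicit false
open Cfsg

namespace Cfsg.Agent.S5627


/-- In a projective plane of order 4 (a Steiner system S(2, 5, 21)), call a set of points independent when no line meets it in more than two points. There are exactly 2520 independent 4-sets and exactly 168 independent 6-sets (hyperovals), and every independent 4-set lies in exactly one hyperoval. -/
theorem result {α : Type*} [Fintype α] [DecidableEq α] (hα : Fintype.card α = 21) (L : Set (Finset α)) (hL : Cfsg.IsSteinerSystem 2 5 L) : {S : Finset α | (S.card = 4 ∧ ∀ l ∈ L, (l ∩ S).card ≤ 2)}.ncard = 2520 ∧ {H : Finset α | (H.card = 6 ∧ ∀ l ∈ L, (l ∩ H).card ≤ 2)}.ncard = 168 ∧ ∀ S : Finset α, (S.card = 4 ∧ ∀ l ∈ L, (l ∩ S).card ≤ 2) → ∃! H : Finset α, (H.card = 6 ∧ ∀ l ∈ L, (l ∩ H).card ≤ 2) ∧ S ⊆ H := by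
  have e4 : {S : Finset α | (S.card = 4 ∧ ∀ l ∈ L, (l ∩ S).card ≤ 2)}
      = ↑(Helper28.Hyp.Arcs L 4) := by
    ext S
    rw [Finset.mem_coe, Helper28.Hyp.mem_Arcs]
    rfl
  have e6 : {H : Finset α | (H.card = 6 ∧ ∀ l ∈ L, (l ∩ H).card ≤ 2)}
      = ↑(Helper28.Hyp.Arcs L 6) := by
    ext S
    rw [Finset.mem_coe, Helper28.Hyp.mem_Arcs]
    rfl
  refine ⟨?_, ?_, ?_⟩
  · rw [e4, Set.ncard_coe_finset]
    exact Helper28.Hyp.card_arcs4 hα hL
  · rw [e6, Set.ncard_coe_finset]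
    exact Helper28.Hyp.card_arcs6 hα hL
  · intro S hS
    obtain ⟨H, ⟨hH, hSH⟩, huniq⟩ :=
      Helper28.Hyp.unique_hyperoval hα hL (Helper28.Hyp.mem_Arcs.mpr hS)
    refine ⟨H, ⟨Helper28.Hyp.mem_Arcs.mp hH, hSH⟩, ?_⟩
    rintro H' ⟨hH', hSH'⟩
    exact huniq H' ⟨Helper28.Hyp.mem_Arcs.mpr hH', hSH'⟩

end Cfsg.Agent.S5627
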