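import Cfsg.Statements.S5628
import Cfsg.Agent.Helper28.HypH

set_option autoImplicit false
open Cfsg

namespace Cfsg.Agent.S5628


/-- In a projective plane of order 4 (a Steiner system S(2, 5, 21)), every permutation of the six points of a hyperoval (a 6-set met by no line in more than two points) is the restriction of exactly one automorphism of the plane. In particular the stabiliser of a hyperoval in the automorphism group is isomorphic to the symmetric group of degree 6 acting faithfully on the hyperoval. -/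
theorem result {α : Type*} [Fintype α] [DecidableEq α] (hα : Fintype.card α = 21) (L : Set (Finset α)) (hL : Cfsg.IsSteinerSystem 2 5 L) (H : Finset α) (hH : (H.card = 6 ∧ ∀ l ∈ L, (l ∩ H).card ≤ 2)) (σ : Equiv.Perm ↥H) : ∃! g : Equiv.Perm α, g ∈ Cfsg.setSystemAut L ∧ ∀ p : ↥H, g p = σ p := by
  classical
  have hO : H ∈ Helper28.Hyp.Arcs L 6 := Helper28.Hyp.mem_Arcs.mpr hH
  obtain ⟨φ, hφdef⟩ : ∃ φ : α → α, ∀ a (ha : a ∈ H), φ a = (σ ⟨a, ha⟩ : α) :=
    ⟨fun x => if h : x ∈ H then (σ ⟨x, h⟩ : α) else x, fun a ha => dif_pos ha⟩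
  have hφ : ∀ a ∈ H, φ a ∈ H := by
    intro a ha
    rw [hφdef a ha]
    exact (σ ⟨a, ha⟩).2
  have hinj : ∀ a ∈ H, ∀ b ∈ H, φ a = φ b → a = b := by
    intro a ha b hb h
    rw [hφdef a ha, hφdef b hb] at h
    have h2 := σ.injective (Subtype.ext h)
    exact congrArg Subtype.val h2
  obtain ⟨e, he, hel⟩ := Helper28.Hyp.ext_exists hα hL hO hα hL hO hφ hinj
  refine ⟨e, ⟨?_, fun p => (he p p.2).trans (hφdef p p.2)⟩, ?_⟩
  · exact Helper28.Hyp.mem_aut_iff.mpr (Helper28.Hyp.iso_of_ext hL hL hel)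
  · rintro g ⟨hg, hgσ⟩
    exact Helper28.Hyp.ext_unique hα hL hO hα hL hO hφ hinj
      (fun a ha => (hgσ ⟨a, ha⟩).trans (hφdef a ha).symm)
      (fun l hl => Helper28.Hyp.aut_image hg hl) he hel

end Cfsg.Agent.S5628
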