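import Cfsg.Statements.S5632

set_option autoImplicit false
open Cfsg

namespace Cfsg.Agent.S5632

open Matrix

variable {F : Type*} [Field F] {n : ℕ}

lemma tmat_mulVec (v φ x : Fin n → F) :
    (1 + Matrix.vecMulVec v φ) *ᵥ x = x + (φ ⬝ᵥ x) • v := by
  rw [Matrix.add_mulVec, Matrix.one_mulVec, Matrix.vecMulVec_mulVec]
  congr 1
  ext i
  simp [mul_comm]

lemma tmat_det (v φ : Fin n → F) (h : φ ⬝ᵥ v = 0) : (1 + Matrix.vecMulVec v φ).det = 1 := by
  rw [Matrix.vecMulVec_eq (ι := Unit), Matrix.det_one_add_replicateCol_mul_replicateRow, h,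
    add_zero]

lemma exists_transv (v φ : Fin n → F) (h : φ ⬝ᵥ v = 0) :
    ∃ g : Matrix.GeneralLinearGroup (Fin n) F, g ∈ Cfsg.Geo.specialLinear (Fin n) F ∧
      ∀ x, (g : Matrix (Fin n) (Fin n) F) *ᵥ x = x + (φ ⬝ᵥ x) • v := by
  have hdet := tmat_det v φ h
  refine ⟨Matrix.GeneralLinearGroup.mkOfDetNeZero (1 + Matrix.vecMulVec v φ)
    (by rw [hdet]; exact one_ne_zero), ?_, ?_⟩
  · unfold Cfsg.Geo.specialLinear
    rw [MonoidHom.mem_ker]
    ext
    rw [Matrix.GeneralLinearGroup.val_det_apply]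
    exact hdet
  · intro x
    exact tmat_mulVec v φ x

lemma dual_vec (f : (Fin n → F) →ₗ[F] F) : ∃ φ : Fin n → F, ∀ x, φ ⬝ᵥ x = f x := by
  refine ⟨fun j => f (Pi.single j 1), fun x => ?_⟩
  rw [LinearMap.pi_apply_eq_sum_univ f x]
  simp only [dotProduct, smul_eq_mul]
  apply Finset.sum_congr rfl
  intro i _
  rw [mul_comm]
  congr 2
  ext j
  simp [Pi.single_apply, eq_comm]

lemma mem_stab (W : Submodule F (Fin n → F)) (g : Matrix.GeneralLinearGroup (Fin n) F) :
    g ∈ Cfsg.Geo.subspaceStabilizer W ↔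
      ∀ x, x ∈ W ↔ (g : Matrix (Fin n) (Fin n) F) *ᵥ x ∈ W := Iff.rfl

/-- an element of SL not stabilising a proper nonzero subspace -/
lemma exists_not_stab (W : Submodule F (Fin n → F)) (hW0 : W ≠ ⊥) (hW1 : W ≠ ⊤) :
    ∃ g : Matrix.GeneralLinearGroup (Fin n) F, g ∈ Cfsg.Geo.specialLinear (Fin n) F ∧
      g ∉ Cfsg.Geo.subspaceStabilizer W := by
  obtain ⟨w, hwW, hw0⟩ := (Submodule.ne_bot_iff W).mp hW0
  obtain ⟨v, hvW⟩ : ∃ v, v ∉ W := by
    by_contra h
    push Not at h
    exact hW1 (eq_top_iff.mpr fun x _ => h x)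
  have hwv : w ∉ Submodule.span F {v} := by
    intro hmem
    rw [Submodule.mem_span_singleton] at hmem
    obtain ⟨c, hc⟩ := hmem
    have hc0 : c ≠ 0 := by
      rintro rfl
      rw [zero_smul] at hc
      exact hw0 hc.symm
    apply hvW
    have : v = c⁻¹ • w := by rw [← hc, smul_smul, inv_mul_cancel₀ hc0, one_smul]
    rw [this]
    exact W.smul_mem _ hwW
  obtain ⟨f, hfw, hfv⟩ := Submodule.exists_le_ker_of_notMem hwv
  obtain ⟨φ, hφ⟩ := dual_vec f
  have hφv : φ ⬝ᵥ v = 0 := by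
    rw [hφ]
    exact hfv (Submodule.mem_span_singleton_self v)
  obtain ⟨g, hgS, hg⟩ := exists_transv v φ hφv
  refine ⟨g, hgS, ?_⟩
  intro hstab
  rw [mem_stab] at hstab
  have h1 := (hstab w).mp hwW
  rw [hg, hφ] at h1
  have h2 : f w • v ∈ W := by
    have := W.sub_mem h1 hwW
    rwa [add_sub_cancel_left] at this
  apply hvW
  have : v = (f w)⁻¹ • (f w • v) := by rw [smul_smul, inv_mul_cancel₀ hfw, one_smul]
  rw [this]
  exact W.smul_mem _ h2

theorem result {F : Type*} [Field F] [Fintype F] (n : ℕ) (W U : Submodule F (Fin n → F)) (hW0 : W ≠ ⊥) (hWU : W < U) (hdim : Module.finrank F W + Module.finrank F U = n) : ∃ K : Subgroup (Matrix.GeneralLinearGroup (Fin n) F), Cfsg.Geo.subspaceStabilizer W ⊓ Cfsg.Geo.subspaceStabilizer U ⊓ Cfsg.Geo.specialLinear (Fin n) F < K ∧ K < Cfsg.Geo.specialLinear (Fin n) F := by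
  have hWtop : W ≠ ⊤ := by
    rintro rfl
    exact absurd hWU (not_lt_of_ge le_top)
  have hUtop : U ≠ ⊤ := by
    rintro rfl
    have h1 : Module.finrank F (⊤ : Submodule F (Fin n → F)) = n := by simp
    have h2 : 0 < Module.finrank F W := by
      rw [Module.finrank_pos_iff_exists_ne_zero]
      obtain ⟨w, hwW, hw0⟩ := (Submodule.ne_bot_iff W).mp hW0
      exact ⟨⟨w, hwW⟩, fun h => hw0 (congrArg Subtype.val h)⟩
    omega
  refine ⟨Cfsg.Geo.subspaceStabilizer W ⊓ Cfsg.Geo.specialLinear (Fin n) F, ?_, ?_⟩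
  · rw [SetLike.lt_iff_le_and_exists]
    refine ⟨fun g hg => ⟨hg.1.1, hg.2⟩, ?_⟩
    obtain ⟨u, huU, huW⟩ := SetLike.exists_of_lt hWU
    obtain ⟨v, hvU⟩ : ∃ v, v ∉ U := by
      by_contra h
      push Not at h
      exact hUtop (eq_top_iff.mpr fun x _ => h x)
    have hu : u ∉ W ⊔ Submodule.span F {v} := by
      intro hmem
      rw [Submodule.mem_sup] at hmem
      obtain ⟨w, hwW, y, hy, hsum⟩ := hmem
      rw [Submodule.mem_span_singleton] at hy
      obtain ⟨c, rfl⟩ := hy
      by_cases hc0 : c = 0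
      · subst hc0
        rw [zero_smul, add_zero] at hsum
        exact huW (hsum ▸ hwW)
      · apply hvU
        have h3 : c • v ∈ U := by
          have : c • v = u - w := by rw [← hsum, add_sub_cancel_left]
          rw [this]
          exact U.sub_mem huU (hWU.le hwW)
        have : v = c⁻¹ • (c • v) := by rw [smul_smul, inv_mul_cancel₀ hc0, one_smul]
        rw [this]
        exact U.smul_mem _ h3
    obtain ⟨f, hfu, hfker⟩ := Submodule.exists_le_ker_of_notMem hu
    obtain ⟨φ, hφ⟩ := dual_vec f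
    have hfW : ∀ x ∈ W, f x = 0 := fun x hx => hfker (Submodule.mem_sup_left hx)
    have hfv : f v = 0 := hfker (Submodule.mem_sup_right (Submodule.mem_span_singleton_self v))
    have hφv : φ ⬝ᵥ v = 0 := by rw [hφ]; exact hfv
    obtain ⟨g, hgS, hg⟩ := exists_transv v φ hφv
    refine ⟨g, ⟨?_, hgS⟩, ?_⟩
    · refine (mem_stab W g).mpr ?_
      intro x
      rw [hg, hφ]
      constructor
      · intro hx
        rw [hfW x hx, zero_smul, add_zero]
        exact hx
      · intro hx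
        have h0 : f (x + f x • v) = 0 := hfW _ hx
        rw [map_add, map_smul, hfv, smul_zero, add_zero] at h0
        rw [h0, zero_smul, add_zero] at hx
        exact hx
    · intro hmem
      have hstabU := (mem_stab U g).mp hmem.1.2
      have h1 := (hstabU u).mp huU
      rw [hg, hφ] at h1
      have h2 : f u • v ∈ U := by
        have := U.sub_mem h1 huU
        rwa [add_sub_cancel_left] at this
      apply hvU
      have : v = (f u)⁻¹ • (f u • v) := by rw [smul_smul, inv_mul_cancel₀ hfu, one_smul]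
      rw [this]
      exact U.smul_mem _ h2
  · rw [SetLike.lt_iff_le_and_exists]
    refine ⟨fun g hg => hg.2, ?_⟩
    obtain ⟨g, hgS, hgW⟩ := exists_not_stab W hW0 hWtop
    exact ⟨g, hgS, fun h => hgW h.1⟩

end Cfsg.Agent.S5632
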