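import Cfsg.Statements.S5635
-- import your own Cfsg.Agent.* helpers here

set_option autoImplicit false
open Cfsg

namespace Cfsg.Agent.S5635


open Matrix

section gen

variable {F : Type*} [Field F] [Fintype F] {n t m : ℕ}

/-- the sum of the other members -/
def Dhat (D : Fin t → Submodule F (Fin n → F)) (i : Fin t) : Submodule F (Fin n → F) :=
  ⨆ (j : Fin t) (_ : j ≠ i), D j

theorem le_Dhat (D : Fin t → Submodule F (Fin n → F)) {k i : Fin t} (hk : k ≠ i) :
    D k ≤ Dhat D i := by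
  unfold Dhat
  exact le_iSup₂_of_le k hk le_rfl

open Classical in
/-- the number of non-zero components, as a scalar -/
noncomputable def Phi (D : Fin t → Submodule F (Fin n → F)) (x : Fin n → F) : F :=
  ∑ i, if x ∈ Dhat D i then 0 else 1

/-- the stabilizer of a function on vectors -/
def phiStab (Q : (Fin n → F) → F) : Subgroup (GL (Fin n) F) where
  carrier := {g | ∀ v, Q ((g : Matrix (Fin n) (Fin n) F) *ᵥ v) = Q v}
  mul_mem' := fun {a b} ha hb v => by
    rw [Units.val_mul, ← Matrix.mulVec_mulVec, ha, hb]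
  one_mem' := fun v => by simp
  inv_mem' := fun {a} ha v => by
    have h := ha ((a⁻¹ : GL (Fin n) F) *ᵥ v)
    rw [Matrix.mulVec_mulVec, ← Units.val_mul, mul_inv_cancel, Units.val_one,
      Matrix.one_mulVec] at h
    exact h.symm

theorem stab_pres (D : Fin t → Submodule F (Fin n → F)) (g : GL (Fin n) F)
    (hg : g ∈ Cfsg.Geo.decompositionStabilizer D) : g ∈ phiStab (Phi D) := by
  obtain ⟨σ, hσ⟩ := hg
  intro x
  have hmap : ∀ i, (Dhat D i).map (Matrix.toLin' (g : Matrix (Fin n) (Fin n) F)) =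
      Dhat D (σ i) := by
    intro i
    unfold Dhat
    simp only [Submodule.map_iSup, hσ]
    apply le_antisymm
    · refine iSup₂_le fun j hj => ?_
      exact le_iSup₂_of_le (σ j) (fun h => hj (σ.injective h)) le_rfl
    · refine iSup₂_le fun j hj => ?_
      refine le_iSup₂_of_le (σ.symm j)
        (fun h => hj (by rw [← h, Equiv.apply_symm_apply])) ?_
      rw [Equiv.apply_symm_apply]
  have key : ∀ i, ((g : Matrix (Fin n) (Fin n) F) *ᵥ x ∈ Dhat D (σ i)) ↔ x ∈ Dhat D i := by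
    intro i
    rw [← hmap i]
    constructor
    · rintro ⟨w, hw, hwx⟩
      rw [Matrix.toLin'_apply] at hwx
      have e : w = x := by
        have h1 := congrArg
          (fun z => ((g⁻¹ : GL (Fin n) F) : Matrix (Fin n) (Fin n) F) *ᵥ z) hwx
        simp only [Matrix.mulVec_mulVec, ← Units.val_mul, inv_mul_cancel, Units.val_one,
          Matrix.one_mulVec] at h1
        exact h1
      rw [← e]; exact hw
    · intro hx
      exact ⟨x, hx, Matrix.toLin'_apply _ _⟩
  unfold Phi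
  rw [← Equiv.sum_comp σ]
  refine Finset.sum_congr rfl fun i _ => ?_
  classical
  rw [if_congr (key i) rfl rfl]

/-- the vector representing a linear functional -/
def lvec (l : (Fin n → F) →ₗ[F] F) : Fin n → F := fun k => l (fun j => if k = j then 1 else 0)

theorem lvec_dot (l : (Fin n → F) →ₗ[F] F) (x : Fin n → F) : lvec l ⬝ᵥ x = l x := by
  rw [LinearMap.pi_apply_eq_sum_univ l x]
  simp only [dotProduct, lvec, smul_eq_mul]
  exact Finset.sum_congr rfl fun i _ => mul_comm _ _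

/-- the matrix of `x ↦ x + l x • u` -/
def MM (l : (Fin n → F) →ₗ[F] F) (u : Fin n → F) : Matrix (Fin n) (Fin n) F :=
  1 + Matrix.vecMulVec u (lvec l)

theorem MM_mulVec (l : (Fin n → F) →ₗ[F] F) (u x : Fin n → F) :
    MM l u *ᵥ x = x + l x • u := by
  rw [MM, Matrix.add_mulVec, Matrix.one_mulVec, Matrix.vecMulVec_mulVec, op_smul_eq_smul,
    lvec_dot]

theorem MM_det (l : (Fin n → F) →ₗ[F] F) (u : Fin n → F) : (MM l u).det = 1 + l u := by
  rw [MM, Matrix.vecMulVec_eq Unit, Matrix.det_one_add_replicateCol_mul_replicateRow, lvec_dot]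

/-- as a unit -/
noncomputable def gU (l : (Fin n → F) →ₗ[F] F) (u : Fin n → F) (h : 1 + l u ≠ 0) :
    GL (Fin n) F :=
  Matrix.GeneralLinearGroup.mkOfDetNeZero (MM l u) (by rw [MM_det]; exact h)

theorem gU_val (l : (Fin n → F) →ₗ[F] F) (u : Fin n → F) (h : 1 + l u ≠ 0) :
    ((gU l u h : GL (Fin n) F) : Matrix (Fin n) (Fin n) F) = MM l u := rfl

theorem gU_apply (l : (Fin n → F) →ₗ[F] F) (u : Fin n → F) (h : 1 + l u ≠ 0) (x : Fin n → F) :
    ((gU l u h : GL (Fin n) F) : Matrix (Fin n) (Fin n) F) *ᵥ x = x + l x • u := by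
  rw [gU_val, MM_mulVec]

theorem mem_SL_iff (g : GL (Fin n) F) :
    g ∈ Cfsg.Geo.specialLinear (Fin n) F ↔ (g : Matrix (Fin n) (Fin n) F).det = 1 := by
  constructor
  · intro h
    have h1 := congrArg Units.val (MonoidHom.mem_ker.mp h)
    rwa [Matrix.GeneralLinearGroup.val_det_apply] at h1
  · intro h
    apply MonoidHom.mem_ker.mpr
    apply Units.ext
    rw [Matrix.GeneralLinearGroup.val_det_apply, h]
    rfl

theorem not_stab (D : Fin t → Submodule F (Fin n → F)) (g : GL (Fin n) F) (e : Fin n → F)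
    (i₁ i₂ i₃ : Fin t) (he : e ∈ D i₁) (h23 : i₂ ≠ i₃)
    (h2 : (g : Matrix (Fin n) (Fin n) F) *ᵥ e ∉ Dhat D i₂)
    (h3 : (g : Matrix (Fin n) (Fin n) F) *ᵥ e ∉ Dhat D i₃) :
    g ∉ Cfsg.Geo.decompositionStabilizer D := by
  rintro ⟨σ, hσ⟩
  have hm : (g : Matrix (Fin n) (Fin n) F) *ᵥ e ∈ D (σ i₁) := by
    rw [← hσ i₁]
    exact ⟨e, he, Matrix.toLin'_apply _ _⟩
  have j2 : σ i₁ = i₂ := by
    by_contra hne
    exact h2 (le_Dhat D hne hm)
  have j3 : σ i₁ = i₃ := by
    by_contra hne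
    exact h3 (le_Dhat D hne hm)
  exact h23 (j2.symm.trans j3)

/-- the collected basis of a decomposition -/
noncomputable def cB (D : Fin t → Submodule F (Fin n → F)) (hD : Cfsg.Geo.IsMDecomposition m D) :
    Module.Basis (Σ _ : Fin t, Fin m) F (Fin n → F) :=
  (DirectSum.isInternal_submodule_of_iSupIndep_of_iSup_eq_top
    hD.indep hD.iSup_eq_top).collectedBasis
    (fun i => Module.finBasisOfFinrankEq F (D i) (hD.finrank_eq i))

theorem cB_mem (D : Fin t → Submodule F (Fin n → F)) (hD : Cfsg.Geo.IsMDecomposition m D)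
    (p : Σ _ : Fin t, Fin m) : cB D hD p ∈ D p.1 :=
  DirectSum.IsInternal.collectedBasis_mem _ _ p

theorem cB_repr_ne (D : Fin t → Submodule F (Fin n → F)) (hD : Cfsg.Geo.IsMDecomposition m D)
    {x : Fin n → F} {k i : Fin t} (hki : k ≠ i) (j : Fin m) (hx : x ∈ D k) :
    (cB D hD).repr x ⟨i, j⟩ = 0 :=
  DirectSum.IsInternal.collectedBasis_repr_of_mem_ne _ _ hki hx

theorem mem_Dhat_iff (D : Fin t → Submodule F (Fin n → F))
    (hD : Cfsg.Geo.IsMDecomposition m D) (i : Fin t) (x : Fin n → F) :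
    x ∈ Dhat D i ↔ ∀ j : Fin m, (cB D hD).repr x ⟨i, j⟩ = 0 := by
  constructor
  · intro hx j
    have hle : Dhat D i ≤ LinearMap.ker ((cB D hD).coord ⟨i, j⟩) := by
      unfold Dhat
      refine iSup₂_le fun k hk y hy => ?_
      rw [LinearMap.mem_ker, Module.Basis.coord_apply]
      exact cB_repr_ne D hD hk j hy
    have h1 := hle hx
    rwa [LinearMap.mem_ker, Module.Basis.coord_apply] at h1
  · intro h
    rw [← (cB D hD).sum_repr x]
    refine Submodule.sum_mem _ fun p _ => ?_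
    obtain ⟨k, l⟩ := p
    by_cases hk : k = i
    · subst hk
      rw [h l, zero_smul]
      exact Submodule.zero_mem _
    · exact Submodule.smul_mem _ _ (le_Dhat D hk (cB_mem D hD ⟨k, l⟩))

theorem repr_gU {κ : Type} (B : Module.Basis κ F (Fin n → F)) (l : (Fin n → F) →ₗ[F] F)
    (u : Fin n → F) (h : 1 + l u ≠ 0) (x : Fin n → F) (p : κ) :
    B.repr ((gU l u h : Matrix (Fin n) (Fin n) F) *ᵥ x) p = B.repr x p + l x * B.repr u p := by
  rw [gU_apply, map_add, map_smul, Finsupp.add_apply, Finsupp.smul_apply, smul_eq_mul]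

/-- sum of the `j`-th basis vectors over `I` -/
noncomputable def uS (B : Module.Basis (Σ _ : Fin t, Fin m) F (Fin n → F)) (j : Fin m)
    (I : Finset (Fin t)) : Fin n → F := ∑ i ∈ I, B ⟨i, j⟩

/-- sum of the `j`-th coordinate functionals over `I` -/
noncomputable def lS (B : Module.Basis (Σ _ : Fin t, Fin m) F (Fin n → F)) (j : Fin m)
    (I : Finset (Fin t)) : (Fin n → F) →ₗ[F] F := ∑ i ∈ I, B.coord ⟨i, j⟩

theorem lS_apply (B : Module.Basis (Σ _ : Fin t, Fin m) F (Fin n → F)) (j : Fin m)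
    (I : Finset (Fin t)) (x : Fin n → F) : lS B j I x = ∑ i ∈ I, B.repr x ⟨i, j⟩ := by
  simp only [lS, LinearMap.coe_sum, Finset.sum_apply, Module.Basis.coord_apply]

theorem repr_uS (B : Module.Basis (Σ _ : Fin t, Fin m) F (Fin n → F)) (j : Fin m)
    (I : Finset (Fin t)) (k : Fin t) (j' : Fin m) :
    B.repr (uS B j I) ⟨k, j'⟩ = if j = j' ∧ k ∈ I then 1 else 0 := by
  classical
  simp only [uS, map_sum, Finsupp.coe_finsetSum, Finset.sum_apply, Module.Basis.repr_self,
    Finsupp.single_apply]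
  by_cases hj : j = j'
  · subst hj
    simp only [Sigma.mk.injEq, heq_eq_eq, and_true, true_and]
    rw [Finset.sum_ite_eq']
  · have : ∀ i : Fin t, ((⟨i, j⟩ : Σ _ : Fin t, Fin m) = ⟨k, j'⟩) ↔ False := by
      intro i
      simp only [Sigma.mk.injEq, heq_eq_eq, iff_false, not_and]
      exact fun _ => hj
    simp only [this, if_false, Finset.sum_const_zero, hj, false_and]

theorem repr_basis (B : Module.Basis (Σ _ : Fin t, Fin m) F (Fin n → F)) (i k : Fin t)
    (j j' : Fin m) : B.repr (B ⟨i, j⟩) ⟨k, j'⟩ = if i = k ∧ j = j' then 1 else 0 := by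
  classical
  rw [Module.Basis.repr_self, Finsupp.single_apply]
  simp only [Sigma.mk.injEq, heq_eq_eq]

theorem lS_basis (B : Module.Basis (Σ _ : Fin t, Fin m) F (Fin n → F)) (j : Fin m)
    (I : Finset (Fin t)) (i : Fin t) (j' : Fin m) :
    lS B j I (B ⟨i, j'⟩) = if j' = j ∧ i ∈ I then 1 else 0 := by
  classical
  rw [lS_apply]
  simp only [repr_basis]
  by_cases hj : j' = j
  · subst hj
    simp only [and_true, true_and]
    rw [Finset.sum_ite_eq]
  · simp only [hj, and_false, false_and, if_false, Finset.sum_const_zero]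

theorem lS_uS (B : Module.Basis (Σ _ : Fin t, Fin m) F (Fin n → F)) (j j' : Fin m)
    (I J : Finset (Fin t)) :
    lS B j I (uS B j' J) = ∑ i ∈ I, if j' = j ∧ i ∈ J then 1 else 0 := by
  rw [lS_apply]
  exact Finset.sum_congr rfl fun i _ => repr_uS B j' J i j

end gen

section powsum

variable {F : Type*} [Field F] {κ : Type} [DecidableEq κ] [Fintype κ]

theorem pow_sum_lemma (k : ℕ) (I : Finset κ) (c : κ → F) (L : F)
    (h : ∑ i ∈ I, (c i + L) ^ k = ∑ i ∈ I, (c i) ^ k) :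
    ∑ i, (c i + L * (if i ∈ I then 1 else 0)) ^ k = ∑ i, (c i) ^ k := by
  have h1 : ∀ i, (c i + L * (if i ∈ I then 1 else 0)) ^ k =
      (c i) ^ k + (if i ∈ I then (c i + L) ^ k - (c i) ^ k else 0) := by
    intro i
    split_ifs
    · rw [mul_one]; ring
    · rw [mul_zero, add_zero, add_zero]
  rw [Finset.sum_congr rfl (fun i _ => h1 i), Finset.sum_add_distrib, Finset.sum_ite_mem,
    Finset.univ_inter, Finset.sum_sub_distrib, h, sub_self, add_zero]

theorem key1 (h2 : (2 : F) = 0) (I : Finset κ) (hI : I.card = 4) (c : κ → F) :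
    ∑ i ∈ I, (c i + ∑ k ∈ I, c k) ^ 1 = ∑ i ∈ I, (c i) ^ 1 := by
  simp only [pow_one, Finset.sum_add_distrib, Finset.sum_const, hI, nsmul_eq_mul]
  push_cast
  linear_combination (2 * ∑ k ∈ I, c k) * h2

theorem key2 (h3 : (3 : F) = 0) (I : Finset κ) (hI : I.card = 4) (c : κ → F) :
    ∑ i ∈ I, (c i + ∑ k ∈ I, c k) ^ 2 = ∑ i ∈ I, (c i) ^ 2 := by
  obtain ⟨L, hL⟩ : ∃ L, L = ∑ k ∈ I, c k := ⟨_, rfl⟩
  rw [← hL]
  have e : ∑ i ∈ I, (c i + L) ^ 2 = ∑ i ∈ I, (c i) ^ 2 + 2 * L * ∑ i ∈ I, c i + 4 * L ^ 2 := by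
    rw [Finset.mul_sum, ← Finset.sum_add_distrib]
    have h4 : (4 : F) * L ^ 2 = ∑ _i ∈ I, L ^ 2 := by
      rw [Finset.sum_const, hI, nsmul_eq_mul]; push_cast; ring
    rw [h4, ← Finset.sum_add_distrib]
    exact Finset.sum_congr rfl fun i _ => by ring
  rw [e, ← hL]
  linear_combination (2 * L ^ 2) * h3

theorem key3 (h2 : (2 : F) = 0) (I : Finset κ) (hI : I.card = 4) (c : κ → F) :
    ∑ i ∈ I, (c i + ∑ k ∈ I, c k) ^ 3 = ∑ i ∈ I, (c i) ^ 3 := by
  obtain ⟨L, hL⟩ : ∃ L, L = ∑ k ∈ I, c k := ⟨_, rfl⟩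
  rw [← hL]
  have e : ∑ i ∈ I, (c i + L) ^ 3 = ∑ i ∈ I, (c i) ^ 3 + 3 * L * ∑ i ∈ I, (c i) ^ 2 +
      3 * L ^ 2 * ∑ i ∈ I, c i + 4 * L ^ 3 := by
    rw [Finset.mul_sum, Finset.mul_sum, ← Finset.sum_add_distrib, ← Finset.sum_add_distrib]
    have h4 : (4 : F) * L ^ 3 = ∑ _i ∈ I, L ^ 3 := by
      rw [Finset.sum_const, hI, nsmul_eq_mul]; push_cast; ring
    rw [h4, ← Finset.sum_add_distrib]
    exact Finset.sum_congr rfl fun i _ => by ring
  have hsq : ∑ i ∈ I, (c i) ^ 2 = L ^ 2 := by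
    haveI : CharP F 2 := CharTwo.of_one_ne_zero_of_two_eq_zero one_ne_zero h2
    haveI : ExpChar F 2 := ExpChar.prime Nat.prime_two
    rw [hL, sum_pow_char 2]
  rw [e, hsq, ← hL]
  linear_combination (5 * L ^ 3) * h2

end powsum

section cases

variable {F : Type*} [Field F] [Fintype F] {n t m : ℕ}

theorem two_elts (hq : Fintype.card F = 2) (z : F) : z = 0 ∨ z = 1 := by
  classical
  by_cases hz : z = 0
  · exact Or.inl hz
  · right
    have h1 : Fintype.card Fˣ = 1 := by rw [Fintype.card_units, hq]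
    have h2 : Subsingleton Fˣ := Fintype.card_le_one_iff_subsingleton.mp h1.le
    have := congrArg Units.val (Subsingleton.elim (Units.mk0 z hz) 1)
    simpa using this

theorem t_eq (D : Fin t → Submodule F (Fin n → F))
    (h : Cfsg.Geo.IsMDecomposition m D) : n = t * m := by
  have h1 := Module.finrank_eq_card_basis (cB D h)
  rw [Module.finrank_fintype_fun_eq_card, Fintype.card_sigma] at h1
  simpa using h1

theorem exists_not_pres (D : Fin t → Submodule F (Fin n → F))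
    (hD : Cfsg.Geo.IsMDecomposition m D) :
    ∃ g : GL (Fin n) F, g ∈ Cfsg.Geo.specialLinear (Fin n) F ∧ g ∉ phiStab (Phi D) := by
  classical
  have ht := hD.two_le
  have hm := hD.pos
  obtain ⟨i₁, i₂, j₀, h12⟩ : ∃ (i₁ i₂ : Fin t) (_ : Fin m), i₁ ≠ i₂ :=
    ⟨⟨0, by omega⟩, ⟨1, by omega⟩, ⟨0, hm⟩, by intro h; simp [Fin.ext_iff] at h⟩
  have hlu : (cB D hD).coord ⟨i₁, j₀⟩ (cB D hD ⟨i₂, j₀⟩) = 0 := by
    rw [Module.Basis.coord_apply, repr_basis, if_neg]
    exact fun h => h12 h.1.symm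
  have hne : (1 : F) + (cB D hD).coord ⟨i₁, j₀⟩ (cB D hD ⟨i₂, j₀⟩) ≠ 0 := by
    rw [hlu, add_zero]; exact one_ne_zero
  refine ⟨gU ((cB D hD).coord ⟨i₁, j₀⟩) (cB D hD ⟨i₂, j₀⟩) hne, ?_, ?_⟩
  · rw [mem_SL_iff, gU_val, MM_det, hlu, add_zero]
  · intro hmem
    have h1 := hmem (cB D hD ⟨i₁, j₀⟩)
    rw [gU_apply, Module.Basis.coord_apply, repr_basis, if_pos ⟨rfl, rfl⟩, one_smul] at h1
    have e1 : Phi D (cB D hD ⟨i₁, j₀⟩) = 1 := by
      unfold Phi
      have hterm : ∀ i, (if cB D hD ⟨i₁, j₀⟩ ∈ Dhat D i then (0 : F) else 1) =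
          if i = i₁ then 1 else 0 := by
        intro i
        by_cases hi : i = i₁
        · subst hi
          rw [if_pos rfl, if_neg]
          intro hx
          have h3 := (mem_Dhat_iff D hD i _).mp hx j₀
          rw [repr_basis, if_pos ⟨rfl, rfl⟩] at h3
          exact one_ne_zero h3
        · rw [if_neg hi, if_pos]
          exact le_Dhat D (Ne.symm hi) (cB_mem D hD ⟨i₁, j₀⟩)
      rw [Finset.sum_congr rfl (fun i _ => hterm i), Finset.sum_ite_eq']
      simp
    have e2 : Phi D (cB D hD ⟨i₁, j₀⟩ + cB D hD ⟨i₂, j₀⟩) = 2 := by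
      unfold Phi
      have hterm : ∀ i, (if cB D hD ⟨i₁, j₀⟩ + cB D hD ⟨i₂, j₀⟩ ∈ Dhat D i then (0 : F) else 1) =
          (if i = i₁ then 1 else 0) + (if i = i₂ then 1 else 0) := by
        intro i
        by_cases hi1 : i = i₁
        · subst hi1
          rw [if_pos rfl, if_neg h12, add_zero, if_neg]
          intro hx
          have h3 := (mem_Dhat_iff D hD i _).mp hx j₀
          rw [map_add, Finsupp.add_apply, repr_basis, repr_basis, if_pos ⟨rfl, rfl⟩,
            if_neg (fun h => h12 h.1.symm), add_zero] at h3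
          exact one_ne_zero h3
        · by_cases hi2 : i = i₂
          · subst hi2
            rw [if_neg hi1, if_pos rfl, zero_add, if_neg]
            intro hx
            have h3 := (mem_Dhat_iff D hD i _).mp hx j₀
            rw [map_add, Finsupp.add_apply, repr_basis, repr_basis,
              if_neg (fun h => hi1 h.1.symm), if_pos ⟨rfl, rfl⟩, zero_add] at h3
            exact one_ne_zero h3
          · rw [if_neg hi1, if_neg hi2, add_zero, if_pos]
            exact (Dhat D i).add_mem (le_Dhat D (Ne.symm hi1) (cB_mem D hD ⟨i₁, j₀⟩))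
              (le_Dhat D (Ne.symm hi2) (cB_mem D hD ⟨i₂, j₀⟩))
      rw [Finset.sum_congr rfl (fun i _ => hterm i), Finset.sum_add_distrib,
        Finset.sum_ite_eq', Finset.sum_ite_eq']
      simp
      norm_num
    rw [e1, e2] at h1
    exact one_ne_zero (α := F) (by linear_combination h1)

/-- an initial segment of indices -/
def Iseg (k s : ℕ) (h : s + k ≤ t) : Finset (Fin t) :=
  Finset.univ.map ⟨fun j : Fin k => (⟨j.val + s, by omega⟩ : Fin t),
    fun a b hab => Fin.ext (by simpa [Fin.ext_iff] using hab)⟩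

theorem Iseg_card (k s : ℕ) (h : s + k ≤ t) : (Iseg k s h).card = k := by
  rw [Iseg, Finset.card_map, Finset.card_univ, Fintype.card_fin]

theorem mem_Iseg (k s : ℕ) (h : s + k ≤ t) (i : Fin t) :
    i ∈ Iseg k s h ↔ s ≤ i.val ∧ i.val < s + k := by
  rw [Iseg, Finset.mem_map]
  constructor
  · rintro ⟨j, -, rfl⟩
    show s ≤ j.val + s ∧ j.val + s < s + k
    constructor <;> omega
  · rintro ⟨h1, h2⟩
    refine ⟨⟨i.val - s, by omega⟩, Finset.mem_univ _, ?_⟩
    apply Fin.ext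
    show i.val - s + s = i.val
    omega

theorem Phi_eq1 (D : Fin t → Submodule F (Fin n → F)) (hD : Cfsg.Geo.IsMDecomposition 1 D)
    (x : Fin n → F) :
    Phi D x = ∑ i, ((cB D hD).repr x ⟨i, 0⟩) ^ (Fintype.card F - 1) := by
  unfold Phi
  have hq : 1 < Fintype.card F := Fintype.one_lt_card
  refine Finset.sum_congr rfl fun i _ => ?_
  by_cases h : (cB D hD).repr x ⟨i, 0⟩ = 0
  · have hx : x ∈ Dhat D i := (mem_Dhat_iff D hD i x).mpr (Fin.forall_fin_one.mpr h)
    rw [if_pos hx, h, zero_pow (by omega)]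
  · have hx : x ∉ Dhat D i :=
      fun hx => h (Fin.forall_fin_one.mp ((mem_Dhat_iff D hD i x).mp hx))
    rw [if_neg hx, FiniteField.pow_card_sub_one_eq_one _ h]

theorem case1 (D : Fin t → Submodule F (Fin n → F)) (hD : Cfsg.Geo.IsMDecomposition 1 D)
    (ht : 8 ≤ t) (hq : Fintype.card F = 2 ∨ Fintype.card F = 3 ∨ Fintype.card F = 4) :
    ∃ g : GL (Fin n) F, g ∈ Cfsg.Geo.specialLinear (Fin n) F ∧ g ∈ phiStab (Phi D) ∧
      g ∉ Cfsg.Geo.decompositionStabilizer D := by
  classical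
  have hcard : ((Fintype.card F : ℕ) : F) = 0 := Nat.cast_card_eq_zero F
  have h24 : (24 : F) = 0 := by
    rcases hq with h | h | h
    · rw [h] at hcard; push_cast at hcard; linear_combination 12 * hcard
    · rw [h] at hcard; push_cast at hcard; linear_combination 8 * hcard
    · rw [h] at hcard; push_cast at hcard; linear_combination 6 * hcard
  have hkey : ∀ (I : Finset (Fin t)), I.card = 4 → ∀ c : Fin t → F,
      ∑ i ∈ I, (c i + ∑ k ∈ I, c k) ^ (Fintype.card F - 1) =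
        ∑ i ∈ I, (c i) ^ (Fintype.card F - 1) := by
    intro I hI c
    rcases hq with h | h | h
    · rw [h] at hcard ⊢
      exact key1 (by exact_mod_cast hcard) I hI c
    · rw [h] at hcard ⊢
      exact key2 (by exact_mod_cast hcard) I hI c
    · rw [h] at hcard ⊢
      have h2 : (2 : F) = 0 := by
        have h4 : (2 : F) * 2 = 0 := by push_cast at hcard; linear_combination hcard
        exact mul_self_eq_zero.mp h4
      exact key3 h2 I hI c
  have hlu : ∀ I : Finset (Fin t), I.card = 4 →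
      lS (cB D hD) 0 I (uS (cB D hD) 0 I) = 4 := by
    intro I hI
    rw [lS_uS, Finset.sum_congr rfl (fun i hi => if_pos ⟨rfl, hi⟩), Finset.sum_const, hI,
      nsmul_eq_mul]
    push_cast
    ring
  have h5 : (1 : F) + 4 ≠ 0 := by
    intro h
    exact one_ne_zero (α := F) (by linear_combination 5 * h - h24)
  have hinv : ∀ (I : Finset (Fin t)) (_ : I.card = 4)
      (h : 1 + lS (cB D hD) 0 I (uS (cB D hD) 0 I) ≠ 0),
      gU (lS (cB D hD) 0 I) (uS (cB D hD) 0 I) h ∈ phiStab (Phi D) := by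
    intro I hI h x
    rw [Phi_eq1 D hD, Phi_eq1 D hD]
    simp only [repr_gU, repr_uS, true_and]
    rw [lS_apply]
    exact pow_sum_lemma _ I (fun i => (cB D hD).repr x ⟨i, 0⟩) _ (hkey I hI _)
  have hI1 := Iseg_card (t := t) 4 0 (by omega)
  have hI2 := Iseg_card (t := t) 4 4 (by omega)
  have hne1 : 1 + lS (cB D hD) 0 (Iseg 4 0 (by omega)) (uS (cB D hD) 0 (Iseg 4 0 (by omega))) ≠ 0 := by
    rw [hlu _ hI1]; exact h5
  have hne2 : 1 + lS (cB D hD) 0 (Iseg 4 4 (by omega)) (uS (cB D hD) 0 (Iseg 4 4 (by omega))) ≠ 0 := by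
    rw [hlu _ hI2]; exact h5
  refine ⟨gU _ _ hne1 * gU _ _ hne2, ?_, ?_, ?_⟩
  · rw [mem_SL_iff, Units.val_mul, Matrix.det_mul, gU_val, gU_val, MM_det, MM_det, hlu _ hI1,
      hlu _ hI2]
    linear_combination h24
  · exact Subgroup.mul_mem _ (hinv _ hI1 hne1) (hinv _ hI2 hne2)
  · have m0 : (⟨0, by omega⟩ : Fin t) ∈ Iseg (t := t) 4 0 (by omega) := by
      rw [mem_Iseg]; constructor <;> simp
    have m1 : (⟨1, by omega⟩ : Fin t) ∈ Iseg (t := t) 4 0 (by omega) := by
      rw [mem_Iseg]; constructor <;> simp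
    have m2 : (⟨2, by omega⟩ : Fin t) ∈ Iseg (t := t) 4 0 (by omega) := by
      rw [mem_Iseg]; constructor <;> simp
    have n0 : (⟨0, by omega⟩ : Fin t) ∉ Iseg (t := t) 4 4 (by omega) := by
      rw [mem_Iseg]; simp
    have h01 : (⟨0, by omega⟩ : Fin t) ≠ ⟨1, by omega⟩ := by
      intro h; simp [Fin.ext_iff] at h
    have h02 : (⟨0, by omega⟩ : Fin t) ≠ ⟨2, by omega⟩ := by
      intro h; simp [Fin.ext_iff] at h
    have h12 : (⟨1, by omega⟩ : Fin t) ≠ ⟨2, by omega⟩ := by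
      intro h; simp [Fin.ext_iff] at h
    have hact : ((gU _ _ hne1 * gU _ _ hne2 : GL (Fin n) F) : Matrix (Fin n) (Fin n) F) *ᵥ
        (cB D hD ⟨⟨0, by omega⟩, 0⟩) =
        cB D hD ⟨⟨0, by omega⟩, 0⟩ + uS (cB D hD) 0 (Iseg 4 0 (by omega)) := by
      have hin : ((gU _ _ hne2 : GL (Fin n) F) : Matrix (Fin n) (Fin n) F) *ᵥ
          (cB D hD ⟨⟨0, by omega⟩, 0⟩) = cB D hD ⟨⟨0, by omega⟩, 0⟩ := by
        rw [gU_apply, lS_basis, if_neg (fun h => n0 h.2), zero_smul, add_zero]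
      rw [Units.val_mul, ← Matrix.mulVec_mulVec, hin, gU_apply, lS_basis, if_pos ⟨rfl, m0⟩,
        one_smul]
    apply not_stab D _ (cB D hD ⟨⟨0, by omega⟩, 0⟩) ⟨0, by omega⟩ ⟨1, by omega⟩ ⟨2, by omega⟩
      (cB_mem D hD ⟨⟨0, by omega⟩, 0⟩) h12
    · rw [hact]
      intro hx
      have h3 := (mem_Dhat_iff D hD _ _).mp hx 0
      rw [map_add, Finsupp.add_apply, repr_basis, repr_uS, if_neg (fun h => h01 h.1),
        if_pos ⟨rfl, m1⟩, zero_add] at h3
      exact one_ne_zero h3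
    · rw [hact]
      intro hx
      have h3 := (mem_Dhat_iff D hD _ _).mp hx 0
      rw [map_add, Finsupp.add_apply, repr_basis, repr_uS, if_neg (fun h => h02 h.1),
        if_pos ⟨rfl, m2⟩, zero_add] at h3
      exact one_ne_zero h3

theorem quad_sum_lemma {κ : Type} [DecidableEq κ] [Fintype κ] (I : Finset κ) (a b : κ → F)
    (L : F) (h : L * ∑ i ∈ I, (1 + b i) = 0) :
    ∑ i, ((a i + L * (if i ∈ I then 1 else 0)) + b i +
      (a i + L * (if i ∈ I then 1 else 0)) * b i) = ∑ i, (a i + b i + a i * b i) := by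
  have h1 : ∀ i, ((a i + L * (if i ∈ I then 1 else 0)) + b i +
      (a i + L * (if i ∈ I then 1 else 0)) * b i) =
      (a i + b i + a i * b i) + (if i ∈ I then L * (1 + b i) else 0) := by
    intro i
    split_ifs <;> ring
  rw [Finset.sum_congr rfl (fun i _ => h1 i), Finset.sum_add_distrib, Finset.sum_ite_mem,
    Finset.univ_inter, ← Finset.mul_sum, h, add_zero]

theorem case2 (D : Fin t → Submodule F (Fin n → F)) (hD : Cfsg.Geo.IsMDecomposition 2 D)
    (ht : 3 ≤ t) (hq : Fintype.card F = 2) :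
    ∃ g : GL (Fin n) F, g ∈ Cfsg.Geo.specialLinear (Fin n) F ∧ g ∈ phiStab (Phi D) ∧
      g ∉ Cfsg.Geo.decompositionStabilizer D := by
  classical
  have h2 : (2 : F) = 0 := by
    have hcard : ((Fintype.card F : ℕ) : F) = 0 := Nat.cast_card_eq_zero F
    rw [hq] at hcard
    exact_mod_cast hcard
  have hPhi : ∀ x, Phi D x = ∑ i, ((cB D hD).repr x ⟨i, 0⟩ + (cB D hD).repr x ⟨i, 1⟩ +
      (cB D hD).repr x ⟨i, 0⟩ * (cB D hD).repr x ⟨i, 1⟩) := by
    intro x
    unfold Phi
    refine Finset.sum_congr rfl fun i _ => ?_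
    rcases two_elts hq ((cB D hD).repr x ⟨i, 0⟩) with ha | ha <;>
      rcases two_elts hq ((cB D hD).repr x ⟨i, 1⟩) with hb | hb
    · have hx : x ∈ Dhat D i :=
        (mem_Dhat_iff D hD i x).mpr (Fin.forall_fin_two.mpr ⟨ha, hb⟩)
      rw [if_pos hx, ha, hb]; ring
    · have hx : x ∉ Dhat D i := fun hx => by
        have h3 := (mem_Dhat_iff D hD i x).mp hx 1
        rw [hb] at h3
        exact one_ne_zero h3
      rw [if_neg hx, ha, hb]; ring
    · have hx : x ∉ Dhat D i := fun hx => by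
        have h3 := (mem_Dhat_iff D hD i x).mp hx 0
        rw [ha] at h3
        exact one_ne_zero h3
      rw [if_neg hx, ha, hb]; ring
    · have hx : x ∉ Dhat D i := fun hx => by
        have h3 := (mem_Dhat_iff D hD i x).mp hx 0
        rw [ha] at h3
        exact one_ne_zero h3
      rw [if_neg hx, ha, hb]; linear_combination -h2
  have hI := Iseg_card (t := t) 3 0 (by omega)
  have h01f : ¬ ((0 : Fin 2) = 1) := by decide
  have h10f : ¬ ((1 : Fin 2) = 0) := by decide
  have hlu : lS (cB D hD) 1 (Iseg 3 0 (by omega)) (uS (cB D hD) 0 (Iseg 3 0 (by omega))) = 0 := by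
    rw [lS_uS]
    exact Finset.sum_eq_zero fun i _ => if_neg (fun h => h01f h.1)
  have hne : 1 + lS (cB D hD) 1 (Iseg 3 0 (by omega)) (uS (cB D hD) 0 (Iseg 3 0 (by omega))) ≠ 0 := by
    rw [hlu, add_zero]; exact one_ne_zero
  refine ⟨gU _ _ hne, ?_, ?_, ?_⟩
  · rw [mem_SL_iff, gU_val, MM_det, hlu, add_zero]
  · intro x
    rw [hPhi, hPhi]
    simp only [repr_gU, repr_uS, true_and, h01f, false_and, if_false, mul_zero, add_zero]
    apply quad_sum_lemma
    rw [Finset.sum_add_distrib, Finset.sum_const, hI, nsmul_eq_mul, ← lS_apply]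
    rcases two_elts hq (lS (cB D hD) 1 (Iseg 3 0 (by omega)) x) with hL | hL
    · rw [hL]; ring
    · rw [hL]; push_cast; linear_combination 2 * h2
  · have m0 : (⟨0, by omega⟩ : Fin t) ∈ Iseg (t := t) 3 0 (by omega) := by
      rw [mem_Iseg]; constructor <;> simp
    have m1 : (⟨1, by omega⟩ : Fin t) ∈ Iseg (t := t) 3 0 (by omega) := by
      rw [mem_Iseg]; constructor <;> simp
    have h01 : (⟨0, by omega⟩ : Fin t) ≠ ⟨1, by omega⟩ := by
      intro h; simp [Fin.ext_iff] at h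
    have hact : ((gU _ _ hne : GL (Fin n) F) : Matrix (Fin n) (Fin n) F) *ᵥ
        (cB D hD ⟨⟨0, by omega⟩, 1⟩) =
        cB D hD ⟨⟨0, by omega⟩, 1⟩ + uS (cB D hD) 0 (Iseg 3 0 (by omega)) := by
      rw [gU_apply, lS_basis, if_pos ⟨rfl, m0⟩, one_smul]
    apply not_stab D _ (cB D hD ⟨⟨0, by omega⟩, 1⟩) ⟨0, by omega⟩ ⟨0, by omega⟩ ⟨1, by omega⟩
      (cB_mem D hD ⟨⟨0, by omega⟩, 1⟩) h01
    · rw [hact]
      intro hx
      have h3 := (mem_Dhat_iff D hD _ _).mp hx 0
      rw [map_add, Finsupp.add_apply, repr_basis, repr_uS, if_neg (fun h => h10f h.2),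
        if_pos ⟨rfl, m0⟩, zero_add] at h3
      exact one_ne_zero h3
    · rw [hact]
      intro hx
      have h3 := (mem_Dhat_iff D hD _ _).mp hx 0
      rw [map_add, Finsupp.add_apply, repr_basis, repr_uS, if_neg (fun h => h10f h.2),
        if_pos ⟨rfl, m1⟩, zero_add] at h3
      exact one_ne_zero h3

end cases

/-- For a finite field F with q elements and n ≥ 13, let D be a decomposition of F^n into t ≥ 2 independent subspaces of equal dimension m spanning F^n, where m = 1 and q ≤ 4, or m = 2 and q = 2. Then the elements of SL_n(F) permuting the members of D form a subgroup that is not maximal: some subgroup lies strictly between it and SL_n(F). -/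
theorem result {F : Type*} [Field F] [Fintype F] (n : ℕ) (hn : 13 ≤ n) {t : ℕ} (m : ℕ) (D : Fin t → Submodule F (Fin n → F)) (hD : Cfsg.Geo.IsMDecomposition m D) (h : (m = 1 ∧ Fintype.card F ≤ 4) ∨ (m = 2 ∧ Fintype.card F = 2)) : ∃ K : Subgroup (Matrix.GeneralLinearGroup (Fin n) F), Cfsg.Geo.decompositionStabilizer D ⊓ Cfsg.Geo.specialLinear (Fin n) F < K ∧ K < Cfsg.Geo.specialLinear (Fin n) F := by
  classical
  have hcard := t_eq D hD
  obtain ⟨g₂, hg₂SL, hg₂⟩ := exists_not_pres D hD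
  have hex : ∃ g : GL (Fin n) F, g ∈ Cfsg.Geo.specialLinear (Fin n) F ∧ g ∈ phiStab (Phi D) ∧
      g ∉ Cfsg.Geo.decompositionStabilizer D := by
    rcases h with ⟨hm, hq⟩ | ⟨hm, hq⟩
    · subst hm
      have hq2 : 1 < Fintype.card F := Fintype.one_lt_card
      exact case1 D hD (by omega) (by omega)
    · subst hm
      exact case2 D hD (by omega) hq
  obtain ⟨g₁, hg₁SL, hg₁P, hg₁⟩ := hex
  refine ⟨phiStab (Phi D) ⊓ Cfsg.Geo.specialLinear (Fin n) F, ?_, ?_⟩
  · rw [SetLike.lt_iff_le_and_exists]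
    exact ⟨fun g hg => ⟨stab_pres D g hg.1, hg.2⟩, g₁, ⟨hg₁P, hg₁SL⟩, fun hmem => hg₁ hmem.1⟩
  · rw [SetLike.lt_iff_le_and_exists]
    exact ⟨inf_le_right, g₂, hg₂SL, fun hmem => hg₂ hmem.1⟩

end Cfsg.Agent.S5635
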