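import Cfsg.Statements.S5638
-- import your own Cfsg.Agent.* helpers here

set_option autoImplicit false
open Cfsg

namespace Cfsg.Agent.S5638


open Matrix
open scoped Kronecker

section

variable {F : Type*} [Field F] [Fintype F]

theorem two_elts (hq : Fintype.card F = 2) (z : F) : z = 0 ∨ z = 1 := by
  classical
  by_cases hz : z = 0
  · exact Or.inl hz
  · right
    have h1 : Fintype.card Fˣ = 1 := by rw [Fintype.card_units, hq]
    have h2 : Subsingleton Fˣ := Fintype.card_le_one_iff_subsingleton.mp h1.le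
    have := congrArg Units.val (Subsingleton.elim (Units.mk0 z hz) 1)
    simpa using this

theorem one_add_one (hq : Fintype.card F = 2) : (1 : F) + 1 = 0 := by
  rcases two_elts hq ((1 : F) + 1) with h | h
  · exact h
  · exfalso; exact one_ne_zero (α := F) (by linear_combination h)

theorem mat_add_self (hq : Fintype.card F = 2) {ι : Type} (M : Matrix ι ι F) : M + M = 0 := by
  ext i j
  have := one_add_one hq
  simp only [Matrix.add_apply, Matrix.zero_apply]
  linear_combination M i j * this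

/-- the matrix of order three -/
def AA : Matrix (Fin 2) (Fin 2) F := !![1, 1; 1, 0]

theorem conjA (hq : Fintype.card F = 2) (X : Matrix (Fin 2) (Fin 2) F) (hX : X.det ≠ 0) :
    X * AA = AA * X ∨ X * AA = (AA + 1) * X := by
  have h2 := one_add_one hq
  have h2' : (2 : F) = 0 := by rw [← one_add_one_eq_two]; exact h2
  have hdet : X.det = 1 := (two_elts hq _).resolve_left hX
  rw [Matrix.det_fin_two] at hdet
  have key : (X 0 1 = X 1 0 ∧ X 0 0 = X 0 1 + X 1 1) ∨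
      (X 1 1 = X 0 0 ∧ X 1 0 = X 0 0 + X 0 1) := by
    rcases two_elts hq (X 0 0) with ha | ha <;> rcases two_elts hq (X 0 1) with hb | hb <;>
    rcases two_elts hq (X 1 0) with hc | hc <;> rcases two_elts hq (X 1 1) with hd | hd <;>
    rw [ha, hb, hc, hd] at hdet ⊢ <;> simp [h2] at hdet ⊢
  rcases key with ⟨hb, ha⟩ | ⟨hd, hc⟩
  · left
    ext i j
    fin_cases i <;> fin_cases j <;> simp [AA, Matrix.mul_apply, Fin.sum_univ_two, ha, hb]
  · right
    ext i j
    fin_cases i <;> fin_cases j <;>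
      simp [AA, Matrix.mul_apply, Fin.sum_univ_two, hd, hc, h2] <;> ring

theorem conj_mem (hq : Fintype.card F = 2) (a : GL (Fin 2) F) (N : Matrix (Fin 2) (Fin 2) F)
    (hN : N = AA ∨ N = AA + 1) :
    (a : Matrix (Fin 2) (Fin 2) F) * N * ((a⁻¹ : GL (Fin 2) F) : Matrix (Fin 2) (Fin 2) F) = AA ∨
    (a : Matrix (Fin 2) (Fin 2) F) * N * ((a⁻¹ : GL (Fin 2) F) : Matrix (Fin 2) (Fin 2) F) =
      AA + 1 := by
  have hinv : (a : Matrix (Fin 2) (Fin 2) F) * ((a⁻¹ : GL (Fin 2) F) : Matrix (Fin 2) (Fin 2) F)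
      = 1 := by rw [← Units.val_mul, mul_inv_cancel, Units.val_one]
  have hdet : (a : Matrix (Fin 2) (Fin 2) F).det ≠ 0 := Matrix.det_ne_zero_of_right_inverse hinv
  have hA : (a : Matrix (Fin 2) (Fin 2) F) * AA *
      ((a⁻¹ : GL (Fin 2) F) : Matrix (Fin 2) (Fin 2) F) = AA ∨
      (a : Matrix (Fin 2) (Fin 2) F) * AA *
      ((a⁻¹ : GL (Fin 2) F) : Matrix (Fin 2) (Fin 2) F) = AA + 1 := by
    rcases conjA hq _ hdet with h | h
    · left; rw [h, mul_assoc, hinv, mul_one]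
    · right; rw [h, mul_assoc, hinv, mul_one]
  rcases hN with rfl | rfl
  · exact hA
  · rw [mul_add, add_mul, mul_one, hinv]
    rcases hA with h | h
    · right; rw [h]
    · left; rw [h, add_assoc, mat_add_self hq, add_zero]

/-- normalizer of a set of matrices -/
def matNorm {ι : Type} [Fintype ι] [DecidableEq ι] (S : Set (Matrix ι ι F)) :
    Subgroup (GL ι F) where
  carrier := {g | ∀ k : Matrix ι ι F,
    k ∈ S ↔ (g : Matrix ι ι F) * k * ((g⁻¹ : GL ι F) : Matrix ι ι F) ∈ S}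
  mul_mem' {a b} ha hb := by
    intro k
    rw [hb k, ha, Units.val_mul, _root_.mul_inv_rev, Units.val_mul]
    constructor <;> intro h <;> simpa [mul_assoc] using h
  one_mem' := by
    intro k
    simp
  inv_mem' {a} ha := by
    intro k
    have h := ha (((a⁻¹ : GL ι F) : Matrix ι ι F) * k * (a : Matrix ι ι F))
    rw [inv_inv]
    rw [h]
    constructor <;> intro h' <;>
      simpa [mul_assoc, ← Units.val_mul] using h'

theorem mem_matNorm_of {ι : Type} [Fintype ι] [DecidableEq ι] (S : Set (Matrix ι ι F))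
    (g : GL ι F)
    (h1 : ∀ M ∈ S, (g : Matrix ι ι F) * M * ((g⁻¹ : GL ι F) : Matrix ι ι F) ∈ S)
    (h2 : ∀ M ∈ S, ((g⁻¹ : GL ι F) : Matrix ι ι F) * M * (g : Matrix ι ι F) ∈ S) :
    g ∈ matNorm S := by
  intro k
  constructor
  · exact h1 k
  · intro h
    have h3 := h2 _ h
    have h4 : ((g⁻¹ : GL ι F) : Matrix ι ι F) *
        ((g : Matrix ι ι F) * k * ((g⁻¹ : GL ι F) : Matrix ι ι F)) * (g : Matrix ι ι F) = k := by
      rw [← mul_assoc, ← mul_assoc, ← Units.val_mul, inv_mul_cancel, Units.val_one, one_mul,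
        mul_assoc, ← Units.val_mul, inv_mul_cancel, Units.val_one, mul_one]
    rw [h4] at h3
    exact h3

/-- the two generators of the field of order four -/
def SS (n₂ : ℕ) : Set (Matrix (Fin 2 × Fin n₂) (Fin 2 × Fin n₂) F) :=
  {M | M = AA ⊗ₖ (1 : Matrix (Fin n₂) (Fin n₂) F) ∨
    M = (AA + 1) ⊗ₖ (1 : Matrix (Fin n₂) (Fin n₂) F)}

theorem kron_conj (hq : Fintype.card F = 2) {n₂ : ℕ} (a : GL (Fin 2) F) (b : GL (Fin n₂) F)
    (g : GL (Fin 2 × Fin n₂) F)
    (hg : (g : Matrix (Fin 2 × Fin n₂) (Fin 2 × Fin n₂) F) =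
      (a : Matrix (Fin 2) (Fin 2) F) ⊗ₖ (b : Matrix (Fin n₂) (Fin n₂) F))
    (M : Matrix (Fin 2 × Fin n₂) (Fin 2 × Fin n₂) F) (hM : M ∈ SS n₂) :
    (g : Matrix (Fin 2 × Fin n₂) (Fin 2 × Fin n₂) F) * M *
      ((g⁻¹ : GL (Fin 2 × Fin n₂) F) : Matrix (Fin 2 × Fin n₂) (Fin 2 × Fin n₂) F) ∈ SS n₂ := by
  have hinv : ((g⁻¹ : GL (Fin 2 × Fin n₂) F) : Matrix (Fin 2 × Fin n₂) (Fin 2 × Fin n₂) F) =
      ((a⁻¹ : GL (Fin 2) F) : Matrix (Fin 2) (Fin 2) F) ⊗ₖ
        ((b⁻¹ : GL (Fin n₂) F) : Matrix (Fin n₂) (Fin n₂) F) := by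
    rw [Matrix.coe_units_inv, hg]
    apply Matrix.inv_eq_right_inv
    rw [← Matrix.mul_kronecker_mul, ← Units.val_mul, ← Units.val_mul, mul_inv_cancel,
      mul_inv_cancel, Units.val_one, Units.val_one, Matrix.one_kronecker_one]
  have hb : (b : Matrix (Fin n₂) (Fin n₂) F) * 1 *
      ((b⁻¹ : GL (Fin n₂) F) : Matrix (Fin n₂) (Fin n₂) F) = 1 := by
    rw [mul_one, ← Units.val_mul, mul_inv_cancel, Units.val_one]
  have key : ∀ N : Matrix (Fin 2) (Fin 2) F, N = AA ∨ N = AA + 1 →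
      (g : Matrix (Fin 2 × Fin n₂) (Fin 2 × Fin n₂) F) * (N ⊗ₖ (1 : Matrix (Fin n₂) (Fin n₂) F)) *
      ((g⁻¹ : GL (Fin 2 × Fin n₂) F) : Matrix (Fin 2 × Fin n₂) (Fin 2 × Fin n₂) F) ∈ SS n₂ := by
    intro N hN
    rw [hinv, hg, ← Matrix.mul_kronecker_mul, ← Matrix.mul_kronecker_mul, hb]
    rcases conj_mem hq a N hN with h | h
    · rw [h]; exact Or.inl rfl
    · rw [h]; exact Or.inr rfl
  rcases hM with rfl | rfl
  · exact key _ (Or.inl rfl)
  · exact key _ (Or.inr rfl)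

theorem kron_le (hq : Fintype.card F = 2) (n₂ : ℕ) :
    Cfsg.Geo.kroneckerSubgroup 2 n₂ F ≤ matNorm (SS n₂) := by
  intro g hg
  have hg' := (Cfsg.Geo.kroneckerSubgroup 2 n₂ F).inv_mem hg
  obtain ⟨a, b, hab⟩ := hg
  obtain ⟨a', b', hab'⟩ := hg'
  apply mem_matNorm_of
  · exact fun M hM => kron_conj hq a b g hab M hM
  · intro M hM
    have := kron_conj hq a' b' g⁻¹ hab' M hM
    rw [inv_inv] at this
    exact this

end

section elems

variable {F : Type*} [Field F] [Fintype F] (hq : Fintype.card F = 2) {n₂ : ℕ} (i0 i1 : Fin n₂)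
  (h01 : i0 ≠ i1)

/-- a field-linear transvection -/
def UU : Matrix (Fin 2 × Fin n₂) (Fin 2 × Fin n₂) F :=
  1 + (AA : Matrix (Fin 2) (Fin 2) F) ⊗ₖ (Matrix.single i0 i1 (1 : F))

include hq h01 in
theorem UU_sq : UU (F := F) i0 i1 * UU i0 i1 = 1 := by
  unfold UU
  simp only [mul_add, add_mul, one_mul, mul_one]
  rw [← Matrix.mul_kronecker_mul,
    Matrix.single_mul_single_of_ne (1 : F) i0 i1 i0 (Ne.symm h01) 1, Matrix.kronecker_zero,
    add_zero, add_assoc, mat_add_self hq, add_zero]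

/-- as a unit -/
def uGL : GL (Fin 2 × Fin n₂) F :=
  ⟨UU i0 i1, UU i0 i1, UU_sq hq i0 i1 h01, UU_sq hq i0 i1 h01⟩

theorem UU_comm (N : Matrix (Fin 2) (Fin 2) F) (hN : N = AA ∨ N = AA + 1) :
    UU (F := F) i0 i1 * (N ⊗ₖ (1 : Matrix (Fin n₂) (Fin n₂) F)) =
      (N ⊗ₖ (1 : Matrix (Fin n₂) (Fin n₂) F)) * UU i0 i1 := by
  have hc : AA * N = N * AA := by
    rcases hN with rfl | rfl
    · rfl
    · rw [mul_add, add_mul, mul_one, one_mul]
  unfold UU
  rw [add_mul, mul_add, one_mul, mul_one, ← Matrix.mul_kronecker_mul,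
    ← Matrix.mul_kronecker_mul, hc, mul_one, one_mul]

include hq h01 in
theorem uGL_mem : uGL hq i0 i1 h01 ∈ matNorm (SS (F := F) n₂) := by
  have key : ∀ M ∈ SS (F := F) n₂, UU i0 i1 * M * UU i0 i1 ∈ SS (F := F) n₂ := by
    intro M hM
    have hc : UU (F := F) i0 i1 * M = M * UU i0 i1 := by
      rcases hM with rfl | rfl
      · exact UU_comm i0 i1 _ (Or.inl rfl)
      · exact UU_comm i0 i1 _ (Or.inr rfl)
    rw [hc, mul_assoc, UU_sq hq i0 i1 h01, mul_one]
    exact hM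
  exact mem_matNorm_of _ _ key key

include hq h01 in
theorem uGL_not_mem : uGL hq i0 i1 h01 ∉ Cfsg.Geo.kroneckerSubgroup 2 n₂ F := by
  rintro ⟨a, b, hab⟩
  have hab' : UU (F := F) i0 i1 = (a : Matrix (Fin 2) (Fin 2) F) ⊗ₖ
      (b : Matrix (Fin n₂) (Fin n₂) F) := hab
  have e1 := congrFun (congrFun hab' (0, i0)) (0, i0)
  have e2 := congrFun (congrFun hab' (0, i0)) (1, i0)
  have e3 := congrFun (congrFun hab' (0, i0)) (1, i1)
  simp [UU, AA, h01, Ne.symm h01] at e1 e2 e3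
  rcases e2 with h | h
  · rw [h, zero_mul] at e3; exact one_ne_zero e3
  · rw [h, mul_zero] at e1; exact one_ne_zero e1

/-- an elementary transvection -/
def VV : Matrix (Fin 2 × Fin n₂) (Fin 2 × Fin n₂) F :=
  1 + Matrix.single ((0 : Fin 2), i0) ((0 : Fin 2), i1) (1 : F)

include hq h01 in
theorem VV_sq : VV (F := F) i0 i1 * VV i0 i1 = 1 := by
  unfold VV
  have hne : ((0 : Fin 2), i1) ≠ ((0 : Fin 2), i0) := by
    intro h; exact h01 (Prod.ext_iff.mp h).2.symm
  simp only [mul_add, add_mul, one_mul, mul_one]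
  rw [Matrix.single_mul_single_of_ne (1 : F) _ _ _ hne 1, add_zero,
    add_assoc, mat_add_self hq, add_zero]

/-- as a unit -/
def vGL : GL (Fin 2 × Fin n₂) F :=
  ⟨VV i0 i1, VV i0 i1, VV_sq hq i0 i1 h01, VV_sq hq i0 i1 h01⟩

include hq h01 in
theorem vGL_not_mem : vGL hq i0 i1 h01 ∉ matNorm (SS (F := F) n₂) := by
  intro hmem
  have h1 : VV (F := F) i0 i1 * (AA ⊗ₖ (1 : Matrix (Fin n₂) (Fin n₂) F)) * VV i0 i1 ∈
      SS (F := F) n₂ := (hmem _).mp (Or.inl rfl)
  have h2 : ∃ N : Matrix (Fin 2) (Fin 2) F,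
      VV (F := F) i0 i1 * (AA ⊗ₖ (1 : Matrix (Fin n₂) (Fin n₂) F)) =
        (N ⊗ₖ (1 : Matrix (Fin n₂) (Fin n₂) F)) * VV i0 i1 := by
    have hc : ∀ M M' : Matrix (Fin 2 × Fin n₂) (Fin 2 × Fin n₂) F,
        VV (F := F) i0 i1 * M * VV i0 i1 = M' → VV (F := F) i0 i1 * M = M' * VV i0 i1 := by
      intro M M' h
      rw [← h, mul_assoc (VV i0 i1 * M), VV_sq hq i0 i1 h01, mul_one]
    rcases h1 with h | h
    · exact ⟨AA, hc _ _ h⟩
    · exact ⟨AA + 1, hc _ _ h⟩
  obtain ⟨N, hN⟩ := h2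
  have e := congrFun (congrFun hN (0, i0)) (1, i1)
  simp [VV, AA, Matrix.add_mul, Matrix.mul_add, h01] at e

end elems

/-- Over the field with 2 elements, for n = 2 n₂ ≥ 13, the stabiliser in SL_n of a tensor decomposition with factors of dimensions 2 and n₂ (the conjugate by any P of the Kronecker-product subgroup transported along any bijection Fin n ≃ Fin 2 × Fin n₂, intersected with SL_n) is not a maximal subgroup: some subgroup lies strictly between it and SL_n. -/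
theorem result {F : Type*} [Field F] [Fintype F] (n : ℕ) (hn : 13 ≤ n) (hq : Fintype.card F = 2) (n₂ : ℕ) (e : Fin n ≃ Fin 2 × Fin n₂) (P : Matrix.GeneralLinearGroup (Fin n) F) : ∃ K : Subgroup (Matrix.GeneralLinearGroup (Fin n) F), Cfsg.Geo.tensorProductSubgroup 2 n₂ e P ⊓ Cfsg.Geo.specialLinear (Fin n) F < K ∧ K < Cfsg.Geo.specialLinear (Fin n) F := by
  classical
  have hn2 : n = 2 * n₂ := by
    have h := Fintype.card_congr e
    simpa using h
  have h0 : 0 < n₂ := by omega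
  have h1 : 1 < n₂ := by omega
  have h01 : (⟨0, h0⟩ : Fin n₂) ≠ ⟨1, h1⟩ := by
    intro h; simp [Fin.ext_iff] at h
  have hSL : Cfsg.Geo.specialLinear (Fin n) F = ⊤ := by
    rw [Subgroup.eq_top_iff']
    intro g
    have h1 : Fintype.card Fˣ = 1 := by rw [Fintype.card_units, hq]
    have h2 : Subsingleton Fˣ := Fintype.card_le_one_iff_subsingleton.mp h1.le
    exact MonoidHom.mem_ker.mpr (Subsingleton.elim _ _)
  rw [hSL, inf_top_eq]
  refine ⟨((matNorm (SS n₂)).map (Cfsg.Geo.glReindex e.symm).toMonoidHom).map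
    (MulAut.conj P).toMonoidHom, ?_, ?_⟩
  · unfold Cfsg.Geo.tensorProductSubgroup
    refine lt_of_le_of_ne (Subgroup.map_mono (Subgroup.map_mono (kron_le hq n₂))) ?_
    intro h
    have h' := Subgroup.map_injective (Cfsg.Geo.glReindex e.symm).injective
      (Subgroup.map_injective (MulAut.conj P).injective h)
    exact uGL_not_mem hq _ _ h01 (h' ▸ uGL_mem hq _ _ h01)
  · rw [lt_top_iff_ne_top]
    intro h
    have hv : (MulAut.conj P) ((Cfsg.Geo.glReindex e.symm) (vGL hq _ _ h01)) ∈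
        ((matNorm (SS n₂)).map (Cfsg.Geo.glReindex e.symm).toMonoidHom).map
          (MulAut.conj P).toMonoidHom := by
      rw [h]; exact Subgroup.mem_top _
    obtain ⟨y, ⟨x, hx, rfl⟩, hy⟩ := hv
    have hxv := (Cfsg.Geo.glReindex e.symm).injective ((MulAut.conj P).injective hy)
    exact vGL_not_mem hq _ _ h01 (hxv ▸ hx)

end Cfsg.Agent.S5638
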