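import Cfsg.Statements.S5639
import Mathlib
import Cfsg.Agent.Helper16.SubfC

set_option autoImplicit false
open Cfsg

namespace Cfsg.Agent.S5639

open Matrix Cfsg.Agent.Helper16 Cfsg.Agent.S5043
open scoped Pointwise

theorem gl_mem_sl {F : Type*} [Field F] {n : ℕ} (g : GL (Fin n) F) :
    g ∈ Cfsg.Geo.specialLinear (Fin n) F ↔ (g : Matrix (Fin n) (Fin n) F).det = 1 := by
  unfold Cfsg.Geo.specialLinear
  rw [MonoidHom.mem_ker]
  constructor
  · intro h
    have := congrArg Units.val h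
    simpa using this
  · intro h
    apply Units.ext
    simpa using h

theorem scalars_normal' {F : Type*} [Field F] {n : ℕ} :
    (Cfsg.Geo.scalars (Fin n) F).Normal := by
  constructor
  intro z hz g
  rw [Cfsg.Geo.mem_scalars_iff] at hz ⊢
  obtain ⟨c, hc⟩ := hz
  refine ⟨c, ?_⟩
  rw [Units.val_mul, Units.val_mul, hc, Matrix.mul_smul, Matrix.mul_one, Matrix.smul_mul,
    ← Units.val_mul, mul_inv_cancel, Units.val_one]

/-- a criterion for membership in the subfield group (after helper6's `S5660.mem_sfg`) -/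
theorem mem_sfg' {F : Type*} [Field F] {n : ℕ} (F₀ : Subfield F) (P A : GL (Fin n) F) (c : F)
    (hc : c ≠ 0) (X : Matrix (Fin n) (Fin n) F) (hX : ∀ i j, X i j ∈ F₀)
    (hA : (A : Matrix (Fin n) (Fin n) F) * (P : Matrix (Fin n) (Fin n) F)
      = c • ((P : Matrix (Fin n) (Fin n) F) * X)) :
    A ∈ Cfsg.Geo.subfieldSubgroup F₀ P := by
  classical
  have hdA : (A : Matrix (Fin n) (Fin n) F).det
      * ((A⁻¹ : GL (Fin n) F) : Matrix (Fin n) (Fin n) F).det = 1 := by
    rw [← Matrix.det_mul, ← Units.val_mul, mul_inv_cancel, Units.val_one, Matrix.det_one]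
  have hdP : (P : Matrix (Fin n) (Fin n) F).det
      * ((P⁻¹ : GL (Fin n) F) : Matrix (Fin n) (Fin n) F).det = 1 := by
    rw [← Matrix.det_mul, ← Units.val_mul, mul_inv_cancel, Units.val_one, Matrix.det_one]
  have hdet : X.det ≠ 0 := by
    intro h0
    have h1 := congrArg Matrix.det hA
    rw [Matrix.det_mul, Matrix.det_smul, Matrix.det_mul, h0, mul_zero, mul_zero] at h1
    rcases mul_eq_zero.mp h1 with h2 | h2
    · rw [h2, zero_mul] at hdA
      exact zero_ne_one hdA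
    · rw [h2, zero_mul] at hdP
      exact zero_ne_one hdP
  obtain ⟨X₀, hX₀⟩ : ∃ X₀ : Matrix (Fin n) (Fin n) F₀, ∀ i j, (X₀ i j : F) = X i j :=
    ⟨fun i j => ⟨X i j, hX i j⟩, fun i j => rfl⟩
  have hmap : (F₀.subtype : F₀ →+* F).mapMatrix X₀ = X := by
    ext i j
    exact hX₀ i j
  have hdet₀ : X₀.det ≠ 0 := by
    intro h0
    apply hdet
    rw [← hmap, ← RingHom.map_det, h0, map_zero]
  obtain ⟨G₀, hG₀⟩ : ∃ G₀ : GL (Fin n) F₀, (G₀ : Matrix (Fin n) (Fin n) F₀) = X₀ :=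
    ⟨Matrix.GeneralLinearGroup.mkOfDetNeZero X₀ hdet₀, rfl⟩
  obtain ⟨Z, hZ⟩ : ∃ Z : GL (Fin n) F, (Z : Matrix (Fin n) (Fin n) F) = c • 1 :=
    ⟨Matrix.GeneralLinearGroup.mkOfDetNeZero (c • (1 : Matrix (Fin n) (Fin n) F)) (by
      rw [Matrix.det_smul, Matrix.det_one, mul_one]
      exact pow_ne_zero _ hc), rfl⟩
  have hG : ((Matrix.GeneralLinearGroup.map (F₀.subtype : F₀ →+* F) G₀ : GL (Fin n) F) :
      Matrix (Fin n) (Fin n) F) = X := by
    rw [← hmap, ← hG₀]
    rfl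
  unfold Cfsg.Geo.subfieldSubgroup
  rw [Subgroup.mem_map]
  refine ⟨Matrix.GeneralLinearGroup.map (F₀.subtype : F₀ →+* F) G₀ * Z,
    Subgroup.mul_mem_sup (MonoidHom.mem_range.mpr ⟨G₀, rfl⟩) ?_, ?_⟩
  · rw [Cfsg.Geo.mem_scalars_iff]
    exact ⟨Units.mk0 c hc, hZ⟩
  · have e : (MulAut.conj P).toMonoidHom
        (Matrix.GeneralLinearGroup.map (F₀.subtype : F₀ →+* F) G₀ * Z)
        = P * (Matrix.GeneralLinearGroup.map (F₀.subtype : F₀ →+* F) G₀ * Z) * P⁻¹ := rfl
    rw [e, mul_inv_eq_iff_eq_mul]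
    apply Units.ext
    rw [Units.val_mul, Units.val_mul, Units.val_mul, hZ, hG, hA, Matrix.mul_smul,
      Matrix.mul_one, Matrix.mul_smul]

/-- an elementary transvection with an irrational entry is not in the standard subfield group -/
theorem tv_not_sfg {F : Type*} [Field F] {n : ℕ} (F₀ : Subfield F) (P : GL (Fin n) F)
    (i0 i1 : Fin n) (h01 : i0 ≠ i1) (μ : F) (hμ : μ ∉ F₀) :
    P * Matrix.SpecialLinearGroup.toGL (tv (Pi.single i0 1) (Pi.single i1 1) μ) * P⁻¹
      ∉ Cfsg.Geo.subfieldSubgroup F₀ P := by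
  classical
  intro hmem
  unfold Cfsg.Geo.subfieldSubgroup at hmem
  rw [Subgroup.mem_map] at hmem
  obtain ⟨k, hk, hkeq⟩ := hmem
  have e : (MulAut.conj P).toMonoidHom k = P * k * P⁻¹ := rfl
  rw [e] at hkeq
  have hk2 : k = Matrix.SpecialLinearGroup.toGL (tv (Pi.single i0 1) (Pi.single i1 1) μ) :=
    mul_left_cancel (mul_right_cancel hkeq)
  haveI : (Cfsg.Geo.scalars (Fin n) F).Normal := scalars_normal'
  have hk' : k ∈ (((Matrix.GeneralLinearGroup.map (F₀.subtype : F₀ →+* F)).range :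
      Subgroup (GL (Fin n) F)) : Set (GL (Fin n) F))
      * ((Cfsg.Geo.scalars (Fin n) F : Subgroup (GL (Fin n) F)) : Set (GL (Fin n) F)) := by
    rw [← Subgroup.mul_normal]
    exact hk
  obtain ⟨x, hx, z, hz, hxz⟩ := Set.mem_mul.mp hk'
  obtain ⟨G₀, rfl⟩ := MonoidHom.mem_range.mp hx
  obtain ⟨c, hc⟩ := (Cfsg.Geo.mem_scalars_iff z).mp hz
  have h10 : (Pi.single i1 (1 : F) : Fin n → F) ⬝ᵥ (Pi.single i0 (1 : F) : Fin n → F) = 0 := by
    rw [dotProduct_single_one, Pi.single_eq_of_ne h01]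
  have hent : ∀ i j, (1 + μ • Matrix.vecMulVec (Pi.single i0 (1 : F) : Fin n → F)
      (Pi.single i1 (1 : F) : Fin n → F)) i j = (c : F) * ((G₀ : Matrix (Fin n) (Fin n) F₀) i j : F) := by
    intro i j
    have h1 := congrArg (fun t : GL (Fin n) F => (t : Matrix (Fin n) (Fin n) F) i j)
      (hxz.trans hk2)
    have h2 : ((Matrix.SpecialLinearGroup.toGL (tv (Pi.single i0 1) (Pi.single i1 1) μ) :
        GL (Fin n) F) : Matrix (Fin n) (Fin n) F)
        = 1 + μ • Matrix.vecMulVec (Pi.single i0 (1 : F) : Fin n → F)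
          (Pi.single i1 (1 : F) : Fin n → F) := by
      rw [← tv_coe _ _ h10 μ]
      rfl
    have h3 : ((Matrix.GeneralLinearGroup.map (F₀.subtype : F₀ →+* F) G₀ * z : GL (Fin n) F) :
        Matrix (Fin n) (Fin n) F) i j = (c : F) * ((G₀ : Matrix (Fin n) (Fin n) F₀) i j : F) := by
      rw [Units.val_mul, hc, Matrix.mul_smul, Matrix.mul_one, Matrix.smul_apply, smul_eq_mul]
      rfl
    rw [← h2, ← h3]
    exact h1.symm
  have e11 := hent i1 i1
  have e01 := hent i0 i1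
  rw [Matrix.add_apply, Matrix.smul_apply, Matrix.vecMulVec_apply, Matrix.one_apply_eq,
    Pi.single_eq_of_ne h01.symm, zero_mul, smul_zero, add_zero] at e11
  rw [Matrix.add_apply, Matrix.smul_apply, Matrix.vecMulVec_apply, Matrix.one_apply_ne h01,
    Pi.single_eq_same, Pi.single_eq_same, mul_one, smul_eq_mul, mul_one, zero_add] at e01
  have hx11 : ((G₀ : Matrix (Fin n) (Fin n) F₀) i1 i1 : F) ≠ 0 := by
    intro h
    rw [h, mul_zero] at e11
    exact one_ne_zero e11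
  have hcF : (c : F) ∈ F₀ := by
    have h5 : (c : F) = ((G₀ : Matrix (Fin n) (Fin n) F₀) i1 i1 : F)⁻¹ := by
      field_simp
      exact e11.symm
    rw [h5]
    exact F₀.inv_mem ((G₀ : Matrix (Fin n) (Fin n) F₀) i1 i1).2
  apply hμ
  rw [e01]
  exact F₀.mul_mem hcF ((G₀ : Matrix (Fin n) (Fin n) F₀) i0 i1).2

/-- For a finite field F, a subfield F₀ with |F| = |F₀| ^ r for a prime r, and n ≥ 13, the subfield group (the conjugate by any P of the product of GL_n(F₀) with the non-zero scalars of F, intersected with SL_n(F)) is a maximal subgroup of SL_n(F). -/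
theorem result {F : Type*} [Field F] [Fintype F] (n : ℕ) (hn : 13 ≤ n) (F₀ : Subfield F) (r : ℕ) (hr : r.Prime) (hcard : Fintype.card F = Nat.card F₀ ^ r) (P : Matrix.GeneralLinearGroup (Fin n) F) : Cfsg.Geo.IsMaximalIn (Cfsg.Geo.specialLinear (Fin n) F) (Cfsg.Geo.subfieldSubgroup F₀ P ⊓ Cfsg.Geo.specialLinear (Fin n) F) := by
  classical
  have hcjS : ∀ A : Matrix.SpecialLinearGroup (Fin n) F,
      P * Matrix.SpecialLinearGroup.toGL A * P⁻¹ ∈ Cfsg.Geo.specialLinear (Fin n) F := by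
    intro A
    rw [gl_mem_sl, Units.val_mul, Units.val_mul, Matrix.det_mul, Matrix.det_mul]
    have h1 : (P : Matrix (Fin n) (Fin n) F).det
        * ((P⁻¹ : GL (Fin n) F) : Matrix (Fin n) (Fin n) F).det = 1 := by
      rw [← Matrix.det_mul, ← Units.val_mul, mul_inv_cancel, Units.val_one, Matrix.det_one]
    have h2 : ((Matrix.SpecialLinearGroup.toGL A : GL (Fin n) F) :
        Matrix (Fin n) (Fin n) F).det = 1 := A.2
    rw [h2, mul_one, h1]
  have hM0 : ∀ A : Matrix.SpecialLinearGroup (Fin n) F,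
      (∃ c : F, c ≠ 0 ∧ ∀ i j, c * (A : Matrix (Fin n) (Fin n) F) i j ∈ F₀) →
      P * Matrix.SpecialLinearGroup.toGL A * P⁻¹ ∈ Cfsg.Geo.subfieldSubgroup F₀ P := by
    rintro A ⟨c, hc, hA⟩
    apply mem_sfg' F₀ P _ c⁻¹ (inv_ne_zero hc) (c • (A : Matrix (Fin n) (Fin n) F))
      (fun i j => by rw [Matrix.smul_apply, smul_eq_mul]; exact hA i j)
    rw [Units.val_mul, Units.val_mul, Matrix.mul_assoc, ← Units.val_mul P⁻¹ P, inv_mul_cancel,
      Units.val_one, Matrix.mul_one, Matrix.mul_smul, smul_smul, inv_mul_cancel₀ hc, one_smul]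
    rfl
  have hsurj : ∀ g ∈ Cfsg.Geo.specialLinear (Fin n) F,
      ∃ A : Matrix.SpecialLinearGroup (Fin n) F,
        P * Matrix.SpecialLinearGroup.toGL A * P⁻¹ = g := by
    intro g hg
    have hdet : ((P⁻¹ * g * P : GL (Fin n) F) : Matrix (Fin n) (Fin n) F).det = 1 := by
      rw [Units.val_mul, Units.val_mul, Matrix.det_mul, Matrix.det_mul, (gl_mem_sl g).1 hg,
        mul_one, ← Matrix.det_mul, ← Units.val_mul, inv_mul_cancel, Units.val_one,
        Matrix.det_one]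
    refine ⟨⟨((P⁻¹ * g * P : GL (Fin n) F) : Matrix (Fin n) (Fin n) F), hdet⟩, ?_⟩
    have e : Matrix.SpecialLinearGroup.toGL (⟨((P⁻¹ * g * P : GL (Fin n) F) :
        Matrix (Fin n) (Fin n) F), hdet⟩ : Matrix.SpecialLinearGroup (Fin n) F)
        = P⁻¹ * g * P := Units.ext rfl
    rw [e]
    group
  constructor
  · refine lt_of_le_of_ne inf_le_right ?_
    intro heq
    obtain ⟨μ, hμ⟩ : ∃ μ : F, μ ∉ F₀ := by
      by_contra hall
      push Not at hall
      have h1 : Nat.card F₀ = Fintype.card F := by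
        rw [← Nat.card_eq_fintype_card]
        exact Nat.card_congr (Equiv.subtypeUnivEquiv hall)
      rw [h1] at hcard
      have h2 : 1 < Fintype.card F := Fintype.one_lt_card
      have h3 : Fintype.card F ^ 1 < Fintype.card F ^ r :=
        Nat.pow_lt_pow_right h2 hr.one_lt
      rw [pow_one] at h3
      omega
    obtain ⟨i0, i1, h01⟩ : ∃ i0 i1 : Fin n, i0 ≠ i1 :=
      ⟨⟨0, by omega⟩, ⟨1, by omega⟩, by simp [Fin.ext_iff]⟩
    have h1 : P * Matrix.SpecialLinearGroup.toGL (tv (Pi.single i0 1) (Pi.single i1 1) μ) * P⁻¹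
        ∈ Cfsg.Geo.subfieldSubgroup F₀ P ⊓ Cfsg.Geo.specialLinear (Fin n) F := by
      rw [heq]
      exact hcjS _
    exact tv_not_sfg F₀ P i0 i1 h01 μ hμ h1.1
  · intro K hNK hKS
    obtain ⟨H, hH⟩ : ∃ H : Subgroup (Matrix.SpecialLinearGroup (Fin n) F),
        ∀ A, A ∈ H ↔ P * Matrix.SpecialLinearGroup.toGL A * P⁻¹ ∈ K :=
      ⟨(K.comap (MulAut.conj P).toMonoidHom).comap Matrix.SpecialLinearGroup.toGL,
        fun A => Iff.rfl⟩
    rcases subfield_core (by omega) F₀ r hr hcard H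
      (fun A hA => (hH A).2 (hNK ⟨hM0 A hA, hcjS A⟩)) with h | h
    · left
      apply le_antisymm _ hNK
      intro g hg
      obtain ⟨A, rfl⟩ := hsurj g (hKS hg)
      exact ⟨hM0 A (h A ((hH A).2 hg)), hKS hg⟩
    · right
      apply le_antisymm hKS
      intro g hg
      obtain ⟨A, rfl⟩ := hsurj g hg
      have hAH : A ∈ H := by
        rw [h]
        trivial
      exact (hH A).1 hAH

end Cfsg.Agent.S5639
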