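import Mathlib
import Cfsg.Statements.S5645
import Cfsg.Agent.Helper6.PSpSimple
import Cfsg.Agent.Helper6.SpFrames
import Cfsg.Agent.S5646

set_option autoImplicit false
open Cfsg

namespace Cfsg.Agent.S5645

open Matrix Cfsg.Agent.Helper6 Cfsg.Agent.S5646

variable {F : Type*} [Field F] {m : ℕ}

theorem core_ti (W : Submodule F (Fin m ⊕ Fin m → F))
    (hW : Cfsg.Geo.IsTotallySingularFor (Cfsg.sympForm m F) W)
    (M : Subgroup (Matrix.symplecticGroup (Fin m) F))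
    (hP : ∀ A : Matrix.symplecticGroup (Fin m) F,
      (∀ v, v ∈ W ↔ (A : Matrix (Fin m ⊕ Fin m) (Fin m ⊕ Fin m) F) *ᵥ v ∈ W) → A ∈ M)
    (hex : ∃ A ∈ M, ¬ (∀ v, v ∈ W ↔ (A : Matrix (Fin m ⊕ Fin m) (Fin m ⊕ Fin m) F) *ᵥ v ∈ W)) :
    M = ⊤ := by
  classical
  obtain ⟨Wp, hWp⟩ : ∃ Wp, Wp = (sfB m F).orthogonal W := ⟨_, rfl⟩
  have memWp : ∀ b, b ∈ Wp ↔ ∀ w ∈ W, Cfsg.sympForm m F w b = 0 := by
    intro b; rw [hWp]; exact LinearMap.BilinForm.mem_orthogonal_iff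
  have hWle : ∀ w ∈ W, w ∈ Wp := fun w hw => (memWp w).2 (fun w' hw' => hW w' hw' w hw)
  have hdp : ∀ v, (∀ b ∈ Wp, Cfsg.sympForm m F b v = 0) → v ∈ W := by
    intro v hv
    have h1 : v ∈ (sfB m F).orthogonal ((sfB m F).orthogonal W) := by
      rw [LinearMap.BilinForm.mem_orthogonal_iff]
      intro b hb
      exact hv b (by rw [hWp]; exact hb)
    rwa [LinearMap.BilinForm.orthogonal_orthogonal (sfB_nondeg m) (sfB_alt m).isRefl] at h1
  have hS1 : ∀ x ∈ Wp, x ∈ dirs M := by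
    intro x hx c
    apply hP
    apply stab_of
    · intro v hv
      rw [tvS_mulVec, (memWp x).1 hx v hv, mul_zero, zero_smul, add_zero]; exact hv
    · intro v hv
      rw [tvS_inv, tvS_mulVec, (memWp x).1 hx v hv, mul_zero, zero_smul, add_zero]; exact hv
  have hT2 : ∃ u, u ∉ Wp ∧ u ∈ dirs M := by
    obtain ⟨h, hhM, hhP⟩ := hex
    by_contra hcon
    push Not at hcon
    have h1 : ∀ x ∈ Wp, (h : Matrix (Fin m ⊕ Fin m) (Fin m ⊕ Fin m) F) *ᵥ x ∈ Wp := by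
      intro x hx
      by_contra hn
      exact hcon _ hn (dirs_conj M h hhM x (hS1 x hx))
    have h2 : ∀ x ∈ Wp, ((h⁻¹ : Matrix.symplecticGroup (Fin m) F) :
        Matrix (Fin m ⊕ Fin m) (Fin m ⊕ Fin m) F) *ᵥ x ∈ Wp := by
      intro x hx
      by_contra hn
      exact hcon _ hn (dirs_conj M h⁻¹ (M.inv_mem hhM) x (hS1 x hx))
    apply hhP
    apply stab_of
    · intro w hw
      apply hdp
      intro b hb
      have e : Cfsg.sympForm m F b ((h : Matrix (Fin m ⊕ Fin m) (Fin m ⊕ Fin m) F) *ᵥ w)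
          = Cfsg.sympForm m F (((h⁻¹ : Matrix.symplecticGroup (Fin m) F) :
              Matrix (Fin m ⊕ Fin m) (Fin m ⊕ Fin m) F) *ᵥ b) w := by
        conv_lhs => rw [← sp_mulVec_inv h b]
        rw [sp_preserves]
      rw [e, sf_swap, (memWp _).1 (h2 b hb) w hw, neg_zero]
    · intro w hw
      apply hdp
      intro b hb
      have e : Cfsg.sympForm m F b (((h⁻¹ : Matrix.symplecticGroup (Fin m) F) :
              Matrix (Fin m ⊕ Fin m) (Fin m ⊕ Fin m) F) *ᵥ w)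
          = Cfsg.sympForm m F ((h : Matrix (Fin m ⊕ Fin m) (Fin m ⊕ Fin m) F) *ᵥ b) w := by
        conv_rhs => rw [← sp_mulVec_inv h w]
        rw [sp_preserves]
      rw [e, sf_swap, (memWp _).1 (h1 b hb) w hw, neg_zero]
  obtain ⟨u, huWp, huS⟩ := hT2
  have hT3 : ∀ x ∈ Wp, u + x ∈ dirs M := by
    have step : ∀ y, y ∈ dirs M → ∀ x ∈ Wp, Cfsg.sympForm m F y x ≠ 0 → y + x ∈ dirs M := by
      intro y hy x hx hne
      have := dirs_move M x y (hS1 x hx) hy (Cfsg.sympForm m F y x)⁻¹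
      rwa [inv_mul_cancel₀ hne, one_smul] at this
    intro x hx
    by_cases hne : Cfsg.sympForm m F u x = 0
    · have hw' : ∃ w ∈ W, Cfsg.sympForm m F w u ≠ 0 := by
        by_contra hc
        push Not at hc
        exact huWp ((memWp u).2 hc)
      obtain ⟨w, hw, hwu⟩ := hw'
      have huw : Cfsg.sympForm m F u w ≠ 0 := by rw [sf_swap]; exact neg_ne_zero.mpr hwu
      have hxw : Cfsg.sympForm m F x w = 0 := by rw [sf_swap, (memWp x).1 hx w hw, neg_zero]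
      have s1 : u + (x - w) ∈ dirs M := by
        apply step u huS (x - w) (Wp.sub_mem hx (hWle w hw))
        rw [sf_sub_right, hne, zero_sub]; exact neg_ne_zero.mpr huw
      have s2 : u + (x - w) + w ∈ dirs M := by
        apply step _ s1 w (hWle w hw)
        rw [sf_add_left, sf_sub_left, hxw, sf_self, sub_zero, add_zero]; exact huw
      have e : u + (x - w) + w = u + x := by abel
      rwa [e] at s2
    · exact step u huS x hx hne
  apply top_of_dirs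
  intro v
  by_cases hv : v ∈ Wp
  · exact hS1 v hv
  have hu1 : ∃ w ∈ W, Cfsg.sympForm m F w u ≠ 0 := by
    by_contra hc
    push Not at hc
    exact huWp ((memWp u).2 hc)
  have hv1 : ∃ w ∈ W, Cfsg.sympForm m F w v ≠ 0 := by
    by_contra hc
    push Not at hc
    exact hv ((memWp v).2 hc)
  obtain ⟨w₁, hw₁, hw₁u⟩ := hu1
  obtain ⟨w₂, hw₂, hw₂v⟩ := hv1
  have hz0 : ∃ z ∈ W, Cfsg.sympForm m F z u ≠ 0 ∧ Cfsg.sympForm m F z v ≠ 0 := by
    by_cases c1 : Cfsg.sympForm m F w₁ v = 0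
    · by_cases c2 : Cfsg.sympForm m F w₂ u = 0
      · refine ⟨w₁ + w₂, W.add_mem hw₁ hw₂, ?_, ?_⟩
        · rw [sf_add_left, c2, add_zero]; exact hw₁u
        · rw [sf_add_left, c1, zero_add]; exact hw₂v
      · exact ⟨w₂, hw₂, c2, hw₂v⟩
    · exact ⟨w₁, hw₁, hw₁u, c1⟩
  obtain ⟨z₀, hz₀, hz₀u, hz₀v⟩ := hz0
  obtain ⟨z, hz⟩ : ∃ z : W, (z : Fin m ⊕ Fin m → F) = (Cfsg.sympForm m F z₀ v)⁻¹ • z₀ :=
    ⟨⟨_, W.smul_mem _ hz₀⟩, rfl⟩
  have hzv : Cfsg.sympForm m F (z : Fin m ⊕ Fin m → F) v = 1 := by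
    rw [hz, sf_smul_left, inv_mul_cancel₀ hz₀v]
  have hzu : Cfsg.sympForm m F (z : Fin m ⊕ Fin m → F) u ≠ 0 := by
    rw [hz, sf_smul_left]; exact mul_ne_zero (inv_ne_zero hz₀v) hz₀u
  obtain ⟨fu, hfu⟩ : ∃ fu : W →ₗ[F] F, ∀ w : W, fu w = Cfsg.sympForm m F (w : Fin m ⊕ Fin m → F) u :=
    ⟨((sfB m F).flip u).comp W.subtype, fun w => rfl⟩
  obtain ⟨fv, hfv⟩ : ∃ fv : W →ₗ[F] F, ∀ w : W, fv w = Cfsg.sympForm m F (w : Fin m ⊕ Fin m → F) v :=
    ⟨((sfB m F).flip v).comp W.subtype, fun w => rfl⟩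
  obtain ⟨αL, hαL⟩ : ∃ αL : W →ₗ[F] W, ∀ w : W, αL w = w + (fu w - fv w) • z :=
    ⟨LinearMap.id + (fu - fv).smulRight z, fun w => rfl⟩
  have hinjα : Function.Injective αL := by
    rw [injective_iff_map_eq_zero]
    intro w hw
    rw [hαL] at hw
    have e1 : fv w + (fu w - fv w) * fv z = 0 := by
      have := congrArg fv hw
      rwa [map_add, map_smul, smul_eq_mul, map_zero] at this
    rw [hfv z, hzv, mul_one] at e1
    have e2 : fu w = 0 := by linear_combination e1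
    have e3 : fu w + (fu w - fv w) * fu z = 0 := by
      have := congrArg fu hw
      rwa [map_add, map_smul, smul_eq_mul, map_zero] at this
    rw [e2, zero_add, zero_sub] at e3
    have e4 : fv w = 0 := by
      rcases mul_eq_zero.mp e3 with h | h
      · exact neg_eq_zero.mp h
      · rw [hfu z] at h; exact absurd h hzu
    rw [e2, e4, sub_zero, zero_smul, add_zero] at hw
    exact hw
  obtain ⟨α, hα⟩ : ∃ α : W ≃ₗ[F] W, ∀ w, α w = αL w :=
    ⟨LinearEquiv.ofInjectiveEndo αL hinjα, fun w => rfl⟩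
  obtain ⟨g, hg1, hg2⟩ := Cfsg.Agent.S0749.result (sfB m F) (sfB_nondeg m) (sfB_alt m) W W α
    (fun x x' => by rw [sfB_apply, sfB_apply, hW _ (α x).2 _ (α x').2, hW _ x.2 _ x'.2])
  obtain ⟨A, hA⟩ := sp_of_isometry m g hg1
  have hAW : ∀ w : W, (A : Matrix (Fin m ⊕ Fin m) (Fin m ⊕ Fin m) F) *ᵥ (w : Fin m ⊕ Fin m → F)
      = ((α w : W) : Fin m ⊕ Fin m → F) := fun w => by rw [hA, hg2]
  have hAst : ∀ v, v ∈ W ↔ (A : Matrix (Fin m ⊕ Fin m) (Fin m ⊕ Fin m) F) *ᵥ v ∈ W := by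
    apply stab_of
    · intro w hw
      have := hAW ⟨w, hw⟩
      rw [this]; exact (α ⟨w, hw⟩).2
    · intro w hw
      have h1 := hAW (α.symm ⟨w, hw⟩)
      rw [LinearEquiv.apply_symm_apply] at h1
      have h2 := sp_inv_mulVec A ((α.symm ⟨w, hw⟩ : W) : Fin m ⊕ Fin m → F)
      rw [h1] at h2
      rw [h2]; exact (α.symm ⟨w, hw⟩).2
  have hAM : A ∈ M := hP A hAst
  have hx : ((A⁻¹ : Matrix.symplecticGroup (Fin m) F) :
      Matrix (Fin m ⊕ Fin m) (Fin m ⊕ Fin m) F) *ᵥ v - u ∈ Wp := by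
    rw [memWp]
    intro w hw
    rw [sf_sub_right]
    have e1 : Cfsg.sympForm m F w (((A⁻¹ : Matrix.symplecticGroup (Fin m) F) :
        Matrix (Fin m ⊕ Fin m) (Fin m ⊕ Fin m) F) *ᵥ v)
        = Cfsg.sympForm m F ((A : Matrix (Fin m ⊕ Fin m) (Fin m ⊕ Fin m) F) *ᵥ w) v := by
      conv_rhs => rw [← sp_mulVec_inv A v]
      rw [sp_preserves]
    rw [e1, hAW ⟨w, hw⟩, hα, hαL, Submodule.coe_add, Submodule.coe_smul, sf_add_left,
      sf_smul_left, hzv, hfu, hfv]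
    ring
  have h3 := hT3 _ hx
  rw [add_sub_cancel] at h3
  have h4 := dirs_conj M A hAM _ h3
  rwa [sp_mulVec_inv] at h4

/-- For a finite field F and m ≥ 7, in the symplectic group Sp_2m(F) of the standard alternating form on F^(2m) (as a subgroup of GL_2m(F)), the stabiliser of any non-zero subspace on which the form vanishes identically is a maximal subgroup. -/
theorem result {F : Type*} [Field F] [Fintype F] (m : ℕ) (hm : 7 ≤ m) (W : Submodule F (Fin m ⊕ Fin m → F)) (hW0 : W ≠ ⊥) (hW : Cfsg.Geo.IsTotallySingularFor (Cfsg.sympForm m F) W) : Cfsg.Geo.IsMaximalIn (Cfsg.spGL m F) (Cfsg.Geo.subspaceStabilizer W ⊓ Cfsg.spGL m F) := by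
  classical
  apply Cfsg.Agent.S5646.maximal_of_core
  · obtain ⟨a, ha, ha0⟩ := (Submodule.ne_bot_iff W).mp hW0
    obtain ⟨v, hv⟩ := Cfsg.Agent.S0768.nondeg a ha0
    refine ⟨Cfsg.Agent.Helper6.tvS v 1, fun hst => ?_⟩
    have h1 := (hst a).1 ha
    rw [Cfsg.Agent.Helper6.tvS_mulVec, one_mul] at h1
    have h2 : Cfsg.sympForm m F a v • v ∈ W := (Submodule.add_mem_iff_right W ha).mp h1
    have h3 : v ∈ W := by
      have := W.smul_mem (Cfsg.sympForm m F a v)⁻¹ h2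
      rwa [smul_smul, inv_mul_cancel₀ hv, one_smul] at this
    exact hv (hW a ha v h3)
  · intro M hP hex
    exact core_ti W hW M hP hex

end Cfsg.Agent.S5645
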