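import Cfsg.Statements.S5648
-- import your own Cfsg.Agent.* helpers here
import Cfsg.Agent.Helper6.Symp

set_option autoImplicit false
open Cfsg

namespace Cfsg.Agent.S5648


open Cfsg.Agent.Helper6 Matrix

section

variable {F : Type*} [Field F] [Fintype F] {m : ℕ}

theorem two_elts (hq : Fintype.card F = 2) (z : F) : z = 0 ∨ z = 1 := by
  classical
  by_cases hz : z = 0
  · exact Or.inl hz
  · right
    have h1 : Fintype.card Fˣ = 1 := by rw [Fintype.card_units, hq]
    have h2 : Subsingleton Fˣ := Fintype.card_le_one_iff_subsingleton.mp h1.le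
    have := congrArg Units.val (Subsingleton.elim (Units.mk0 z hz) 1)
    simpa using this

theorem one_add_one (hq : Fintype.card F = 2) : (1 : F) + 1 = 0 := by
  rcases two_elts hq ((1 : F) + 1) with h | h
  · exact h
  · exfalso; exact one_ne_zero (α := F) (by linear_combination h)

theorem add_self' (hq : Fintype.card F = 2) (x : F) : x + x = 0 := by
  have := one_add_one hq
  linear_combination x * this

theorem sf_symm (hq : Fintype.card F = 2) (u v : Fin m ⊕ Fin m → F) :
    Cfsg.sympForm m F u v = Cfsg.sympForm m F v u := by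
  have h := sf_swap u v
  have h2 := add_self' hq (Cfsg.sympForm m F v u)
  linear_combination h - h2

theorem sf_zero_right' (u : Fin m ⊕ Fin m → F) : Cfsg.sympForm m F u 0 = 0 := by
  simp [Cfsg.sympForm]

theorem sf_smul_left' (c : F) (u v : Fin m ⊕ Fin m → F) :
    Cfsg.sympForm m F (c • u) v = c * Cfsg.sympForm m F u v := by
  simp [Cfsg.sympForm, smul_dotProduct]

theorem local_basis (hq : Fintype.card F = 2) (W : Submodule F (Fin m ⊕ Fin m → F))
    (hfin : Module.finrank F W = 2)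
    (hnd : Cfsg.Geo.IsNondegenerateOn (Cfsg.sympForm m F) W) :
    ∃ a b : Fin m ⊕ Fin m → F, a ∈ W ∧ b ∈ W ∧ Cfsg.sympForm m F a b = 1 ∧
      ∀ w ∈ W, ∃ x y : F, w = x • a + y • b := by
  have hnt : Nontrivial W := Module.nontrivial_of_finrank_pos (R := F) (by rw [hfin]; norm_num)
  obtain ⟨⟨a, ha⟩, ha0⟩ := exists_ne (0 : W)
  have ha0' : a ≠ 0 := fun h => ha0 (Subtype.ext h)
  obtain ⟨-, b, hb, hab⟩ := hnd a ha ha0'
  have hab1 : Cfsg.sympForm m F a b = 1 := (two_elts hq _).resolve_left hab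
  have hba1 : Cfsg.sympForm m F b a = 1 := by rw [sf_symm hq, hab1]
  refine ⟨a, b, ha, hb, hab1, ?_⟩
  have hli : LinearIndependent F ![a, b] := by
    rw [LinearIndependent.pair_iff]
    intro s t hst
    have h1 := congrArg (fun z => Cfsg.sympForm m F a z) hst
    have h2 := congrArg (fun z => Cfsg.sympForm m F b z) hst
    simp only [sf_add_right, sf_smul_right, sf_self, hab1, hba1, sf_zero_right'] at h1 h2
    constructor
    · simpa using h2
    · simpa using h1
  have hspan : Submodule.span F (Set.range ![a, b]) = W := by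
    apply Submodule.eq_of_le_of_finrank_eq
    · rw [Submodule.span_le]
      rintro _ ⟨j, rfl⟩
      fin_cases j
      · exact ha
      · exact hb
    · rw [finrank_span_eq_card hli, Fintype.card_fin, hfin]
  intro w hw
  rw [← hspan, Submodule.mem_span_range_iff_exists_fun] at hw
  obtain ⟨c, hc⟩ := hw
  refine ⟨c 0, c 1, ?_⟩
  rw [← hc, Fin.sum_univ_two]
  rfl

theorem t_eq {ι : Type} [Fintype ι] [DecidableEq ι] {t k : ℕ} (D : Fin t → Submodule F (ι → F))
    (h : Cfsg.Geo.IsMDecomposition k D) : Fintype.card ι = t * k := by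
  have hint : DirectSum.IsInternal D :=
    DirectSum.isInternal_submodule_of_iSupIndep_of_iSup_eq_top h.indep h.iSup_eq_top
  have h1 := Module.finrank_eq_card_basis
    (hint.collectedBasis (fun i => Module.finBasis F (D i)))
  rw [Module.finrank_fintype_fun_eq_card, Fintype.card_sigma] at h1
  simp [h.finrank_eq] at h1
  exact h1

open Classical in
/-- indicator of a non-zero component in `D i` -/
noncomputable def Nf {t : ℕ} (D : Fin t → Submodule F (Fin m ⊕ Fin m → F)) (i : Fin t)
    (v : Fin m ⊕ Fin m → F) : F :=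
  if ∃ w ∈ D i, Cfsg.sympForm m F v w ≠ 0 then 1 else 0

/-- the quadratic form: number of non-zero components -/
noncomputable def Qf {t : ℕ} (D : Fin t → Submodule F (Fin m ⊕ Fin m → F))
    (v : Fin m ⊕ Fin m → F) : F := ∑ i, Nf D i v

/-- the stabilizer of a function on vectors -/
def qStab (Q : (Fin m ⊕ Fin m → F) → F) : Subgroup (GL (Fin m ⊕ Fin m) F) where
  carrier := {g | ∀ v, Q ((g : Matrix (Fin m ⊕ Fin m) (Fin m ⊕ Fin m) F) *ᵥ v) = Q v}
  mul_mem' := fun {a b} ha hb v => by
    rw [Units.val_mul, ← Matrix.mulVec_mulVec, ha, hb]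
  one_mem' := fun v => by simp
  inv_mem' := fun {a} ha v => by
    have h := ha ((a⁻¹ : GL (Fin m ⊕ Fin m) F) *ᵥ v)
    rw [Matrix.mulVec_mulVec, ← Units.val_mul, mul_inv_cancel, Units.val_one,
      Matrix.one_mulVec] at h
    exact h.symm

theorem stab_pres {t : ℕ} (D : Fin t → Submodule F (Fin m ⊕ Fin m → F))
    (g : GL (Fin m ⊕ Fin m) F) (hg : g ∈ Cfsg.Geo.decompositionStabilizer D)
    (hs : g ∈ Cfsg.spGL m F) : g ∈ qStab (Qf D) := by
  obtain ⟨σ, hσ⟩ := hg
  have hs' : ∀ u v, Cfsg.sympForm m F ((g : Matrix (Fin m ⊕ Fin m) (Fin m ⊕ Fin m) F) *ᵥ u)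
      ((g : Matrix (Fin m ⊕ Fin m) (Fin m ⊕ Fin m) F) *ᵥ v) = Cfsg.sympForm m F u v := hs
  intro v
  have key : ∀ i, Nf D (σ i) ((g : Matrix (Fin m ⊕ Fin m) (Fin m ⊕ Fin m) F) *ᵥ v) =
      Nf D i v := by
    intro i
    have hiff : (∃ w ∈ D (σ i), Cfsg.sympForm m F
        ((g : Matrix (Fin m ⊕ Fin m) (Fin m ⊕ Fin m) F) *ᵥ v) w ≠ 0) ↔
        (∃ w ∈ D i, Cfsg.sympForm m F v w ≠ 0) := by
      constructor
      · rintro ⟨w, hw, hne⟩
        rw [← hσ i] at hw
        obtain ⟨w', hw', rfl⟩ := hw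
        refine ⟨w', hw', ?_⟩
        rw [Matrix.toLin'_apply, hs'] at hne
        exact hne
      · rintro ⟨w', hw', hne⟩
        refine ⟨(g : Matrix (Fin m ⊕ Fin m) (Fin m ⊕ Fin m) F) *ᵥ w', ?_, ?_⟩
        · rw [← hσ i]
          exact ⟨w', hw', Matrix.toLin'_apply _ _⟩
        · rw [hs']; exact hne
    unfold Nf
    classical
    rw [if_congr hiff rfl rfl]
  unfold Qf
  rw [← Equiv.sum_comp σ]
  exact Finset.sum_congr rfl (fun i _ => key i)

theorem tv_sq (hq : Fintype.card F = 2) (w : Fin m ⊕ Fin m → F) :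
    Cfsg.sympTransvection m w (1 : F) * Cfsg.sympTransvection m w 1 = 1 := by
  apply Matrix.toLin'.injective
  apply LinearMap.ext
  intro x
  simp only [Matrix.toLin'_mul, LinearMap.comp_apply, Matrix.toLin'_apply, Matrix.toLin'_one,
    LinearMap.id_coe, id_eq, tv_mulVec, sf_add_left, sf_smul_left', sf_self, one_mul, mul_zero,
    add_zero]
  rw [add_assoc, ← add_smul, add_self' hq, zero_smul, add_zero]

/-- the transvection as an element of the general linear group -/
noncomputable def tvGL (hq : Fintype.card F = 2) (w : Fin m ⊕ Fin m → F) :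
    GL (Fin m ⊕ Fin m) F :=
  ⟨Cfsg.sympTransvection m w 1, Cfsg.sympTransvection m w 1, tv_sq hq w, tv_sq hq w⟩

theorem tvGL_mem (hq : Fintype.card F = 2) (w : Fin m ⊕ Fin m → F) :
    tvGL hq w ∈ Cfsg.spGL m F :=
  fun u v => sp_preserves ⟨_, Cfsg.Agent.S0764.result m w 1⟩ u v

theorem tvGL_apply (hq : Fintype.card F = 2) (w x : Fin m ⊕ Fin m → F) :
    ((tvGL hq w : GL (Fin m ⊕ Fin m) F) : Matrix (Fin m ⊕ Fin m) (Fin m ⊕ Fin m) F) *ᵥ x =
      x + Cfsg.sympForm m F x w • w := by
  show Cfsg.sympTransvection m w 1 *ᵥ x = _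
  rw [tv_mulVec, one_mul]

end

section main

variable {F : Type*} [Field F] [Fintype F] {m : ℕ} (hq : Fintype.card F = 2) {t : ℕ}
  (D : Fin t → Submodule F (Fin m ⊕ Fin m → F)) (a b : Fin t → (Fin m ⊕ Fin m → F))
  (ha : ∀ i, a i ∈ D i) (hb : ∀ i, b i ∈ D i) (hab : ∀ i, Cfsg.sympForm m F (a i) (b i) = 1)
  (hspan : ∀ i, ∀ w ∈ D i, ∃ x y : F, w = x • a i + y • b i)
  (horth : ∀ i j, i ≠ j → Cfsg.Geo.AreOrthogonalFor (Cfsg.sympForm m F) (D i) (D j))

include ha horth in
theorem haa (k i : Fin t) : Cfsg.sympForm m F (a k) (a i) = 0 := by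
  by_cases h : k = i
  · subst h; exact sf_self _
  · exact horth k i h _ (ha k) _ (ha i)

include hb horth in
theorem hbb (k i : Fin t) : Cfsg.sympForm m F (b k) (b i) = 0 := by
  by_cases h : k = i
  · subst h; exact sf_self _
  · exact horth k i h _ (hb k) _ (hb i)

include ha hb hab horth in
theorem hab' (k i : Fin t) : Cfsg.sympForm m F (a k) (b i) = if k = i then 1 else 0 := by
  by_cases h : k = i
  · subst h; rw [if_pos rfl]; exact hab k
  · rw [if_neg h]; exact horth k i h _ (ha k) _ (hb i)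

include hq ha hb hab horth in
theorem hba' (k i : Fin t) : Cfsg.sympForm m F (b k) (a i) = if k = i then 1 else 0 := by
  rw [sf_symm hq, hab' D a b ha hb hab horth i k]
  by_cases h : k = i
  · subst h; simp
  · rw [if_neg h, if_neg (Ne.symm h)]

include hq ha hb hspan in
theorem Nf_eq (i : Fin t) (v : Fin m ⊕ Fin m → F) :
    Nf D i v = Cfsg.sympForm m F v (a i) + Cfsg.sympForm m F v (b i) +
      Cfsg.sympForm m F v (a i) * Cfsg.sympForm m F v (b i) := by
  unfold Nf
  rcases two_elts hq (Cfsg.sympForm m F v (a i)) with hx | hx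
  · rcases two_elts hq (Cfsg.sympForm m F v (b i)) with hy | hy
    · rw [if_neg, hx, hy]
      · ring
      · rintro ⟨w, hw, hne⟩
        obtain ⟨x, y, rfl⟩ := hspan i w hw
        apply hne
        rw [sf_add_right, sf_smul_right, sf_smul_right, hx, hy]
        ring
    · rw [if_pos ⟨b i, hb i, by rw [hy]; exact one_ne_zero⟩, hx, hy]
      ring
  · rw [if_pos ⟨a i, ha i, by rw [hx]; exact one_ne_zero⟩, hx]
    rcases two_elts hq (Cfsg.sympForm m F v (b i)) with hy | hy
    · rw [hy]; ring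
    · rw [hy]
      have := one_add_one hq
      linear_combination -this

include hq ha hb hab hspan horth in
theorem Q_shift (k : Fin t) (v : Fin m ⊕ Fin m → F) :
    Qf D (v + a k) = Qf D v + 1 + Cfsg.sympForm m F v (a k) := by
  unfold Qf
  have h : ∀ i, Nf D i (v + a k) =
      Nf D i v + (if k = i then 1 + Cfsg.sympForm m F v (a i) else 0) := by
    intro i
    rw [Nf_eq hq D a b ha hb hspan i (v + a k), Nf_eq hq D a b ha hb hspan i v, sf_add_left,
      sf_add_left, haa D a ha horth k i, hab' D a b ha hb hab horth k i]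
    split_ifs <;> ring
  rw [Finset.sum_congr rfl (fun i _ => h i), Finset.sum_add_distrib, Finset.sum_ite_eq]
  simp only [Finset.mem_univ, if_true]
  ring

include hq ha hb hab hspan horth in
theorem tv3_mem (i₁ i₂ i₃ : Fin t) :
    tvGL hq (a i₁ + a i₂ + a i₃) ∈ qStab (Qf D) := by
  intro v
  rw [tvGL_apply]
  rcases two_elts hq (Cfsg.sympForm m F v (a i₁ + a i₂ + a i₃)) with h | h
  · rw [h, zero_smul, add_zero]
  · rw [h, one_smul]
    have e3 : Qf D (v + (a i₁ + a i₂ + a i₃)) = Qf D v + 1 + Cfsg.sympForm m F v (a i₁) + 1 +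
        Cfsg.sympForm m F v (a i₂) + 1 + Cfsg.sympForm m F v (a i₃) := by
      rw [← add_assoc, ← add_assoc, Q_shift hq D a b ha hb hab hspan horth,
        Q_shift hq D a b ha hb hab hspan horth, Q_shift hq D a b ha hb hab hspan horth,
        sf_add_left, sf_add_left, sf_add_left, haa D a ha horth, haa D a ha horth,
        haa D a ha horth]
      ring
    rw [sf_add_right, sf_add_right] at h
    have h2 := one_add_one hq
    linear_combination e3 + h + 2 * h2

include hq ha hb hab hspan horth in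
theorem tv2_not_mem (i₁ i₂ : Fin t) (h12 : i₁ ≠ i₂) :
    tvGL hq (a i₁ + a i₂) ∉ qStab (Qf D) := by
  intro hmem
  have h := hmem (b i₁)
  rw [tvGL_apply, sf_add_right, hba' hq D a b ha hb hab horth, hba' hq D a b ha hb hab horth,
    if_pos rfl, if_neg h12, add_zero, one_smul, ← add_assoc,
    Q_shift hq D a b ha hb hab hspan horth, Q_shift hq D a b ha hb hab hspan horth,
    sf_add_left, haa D a ha horth, hba' hq D a b ha hb hab horth,
    hba' hq D a b ha hb hab horth, if_pos rfl, if_neg h12] at h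
  have h2 := one_add_one hq
  exact one_ne_zero (α := F) (by linear_combination h - h2)

include hq ha hb hab horth in
theorem tv3_not_stab (i₁ i₂ i₃ : Fin t) (h12 : i₁ ≠ i₂) (h13 : i₁ ≠ i₃) (h23 : i₂ ≠ i₃) :
    tvGL hq (a i₁ + a i₂ + a i₃) ∉ Cfsg.Geo.decompositionStabilizer D := by
  rintro ⟨σ, hσ⟩
  have hu : (tvGL hq (a i₁ + a i₂ + a i₃) : Matrix (Fin m ⊕ Fin m) (Fin m ⊕ Fin m) F) *ᵥ b i₁ ∈
      D (σ i₁) := by
    rw [← hσ i₁]
    exact ⟨b i₁, hb i₁, Matrix.toLin'_apply _ _⟩
  rw [tvGL_apply, sf_add_right, sf_add_right, hba' hq D a b ha hb hab horth,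
    hba' hq D a b ha hb hab horth, hba' hq D a b ha hb hab horth, if_pos rfl, if_neg h12,
    if_neg h13, add_zero, add_zero, one_smul] at hu
  have e2 : Cfsg.sympForm m F (b i₁ + (a i₁ + a i₂ + a i₃)) (b i₂) = 1 := by
    rw [sf_add_left, sf_add_left, sf_add_left, hbb D b hb horth, hab' D a b ha hb hab horth,
      hab' D a b ha hb hab horth, hab' D a b ha hb hab horth, if_neg h12, if_pos rfl,
      if_neg (Ne.symm h23)]
    ring
  have e3 : Cfsg.sympForm m F (b i₁ + (a i₁ + a i₂ + a i₃)) (b i₃) = 1 := by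
    rw [sf_add_left, sf_add_left, sf_add_left, hbb D b hb horth, hab' D a b ha hb hab horth,
      hab' D a b ha hb hab horth, hab' D a b ha hb hab horth, if_neg h13, if_neg h23,
      if_pos rfl]
    ring
  have j2 : σ i₁ = i₂ := by
    by_contra hne
    have := horth (σ i₁) i₂ hne _ hu _ (hb i₂)
    rw [e2] at this
    exact one_ne_zero this
  have j3 : σ i₁ = i₃ := by
    by_contra hne
    have := horth (σ i₁) i₃ hne _ hu _ (hb i₃)
    rw [e3] at this
    exact one_ne_zero this
  exact h23 (j2.symm.trans j3)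

end main

/-- Over the field with 2 elements and for m ≥ 7, let D be a decomposition of F^(2m) into t pairwise orthogonal non-degenerate 2-dimensional subspaces for the standard alternating form (t = m ≥ 2). Then the elements of Sp_2m(2) permuting the members of D form a subgroup that is not maximal: some subgroup lies strictly between it and Sp_2m(2). -/
theorem result {F : Type*} [Field F] [Fintype F] (m : ℕ) (hm : 7 ≤ m) (hq : Fintype.card F = 2) {t : ℕ} (D : Fin t → Submodule F (Fin m ⊕ Fin m → F)) (hD : Cfsg.Geo.IsNondegenerateMDecomposition (Cfsg.sympForm m F) 2 D) : ∃ K : Subgroup (Matrix.GeneralLinearGroup (Fin m ⊕ Fin m) F), Cfsg.Geo.decompositionStabilizer D ⊓ Cfsg.spGL m F < K ∧ K < Cfsg.spGL m F := by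
  have ht : 3 ≤ t := by
    have h := t_eq D hD.decomp
    rw [Fintype.card_sum, Fintype.card_fin] at h
    omega
  have hloc : ∀ i, ∃ a b : Fin m ⊕ Fin m → F, a ∈ D i ∧ b ∈ D i ∧ Cfsg.sympForm m F a b = 1 ∧
      ∀ w ∈ D i, ∃ x y : F, w = x • a + y • b :=
    fun i => local_basis hq (D i) (hD.decomp.finrank_eq i) (hD.nondegenerate i)
  choose a b ha hb hab hspan using hloc
  have horth := hD.orthogonal
  have h12 : (⟨0, by omega⟩ : Fin t) ≠ ⟨1, by omega⟩ := by
    intro h; simp [Fin.ext_iff] at h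
  have h13 : (⟨0, by omega⟩ : Fin t) ≠ ⟨2, by omega⟩ := by
    intro h; simp [Fin.ext_iff] at h
  have h23 : (⟨1, by omega⟩ : Fin t) ≠ ⟨2, by omega⟩ := by
    intro h; simp [Fin.ext_iff] at h
  refine ⟨qStab (Qf D) ⊓ Cfsg.spGL m F, ?_, ?_⟩
  · rw [SetLike.lt_iff_le_and_exists]
    refine ⟨fun g hg => ⟨stab_pres D g hg.1 hg.2, hg.2⟩, tvGL hq (a ⟨0, by omega⟩ + a ⟨1, by omega⟩ + a ⟨2, by omega⟩),
      ⟨tv3_mem hq D a b ha hb hab hspan horth _ _ _, tvGL_mem hq _⟩, fun hmem => ?_⟩
    exact tv3_not_stab hq D a b ha hb hab horth _ _ _ h12 h13 h23 hmem.1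
  · rw [SetLike.lt_iff_le_and_exists]
    exact ⟨inf_le_right, tvGL hq (a ⟨0, by omega⟩ + a ⟨1, by omega⟩), tvGL_mem hq _,
      fun hmem => tv2_not_mem hq D a b ha hb hab hspan horth _ _ h12 hmem.1⟩

end Cfsg.Agent.S5648
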