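import Mathlib
import Cfsg.Statements.S5650
import Cfsg.Agent.Helper6.SpSub
import Cfsg.Agent.Helper16.FrobK

set_option autoImplicit false
open Cfsg

namespace Cfsg.Agent.S5650


open Matrix Cfsg.Agent.Helper6 Cfsg.Agent.S5646 Cfsg.Agent.S5647 Cfsg.Agent.S5649 Cfsg.Agent.H6SpSub

section step4

variable {F : Type*} [Field F] [Fintype F] {m : ℕ}
variable {F₀ : Subfield F} {ζ : F} {PG : (GL (Fin m ⊕ Fin m) F)} {Q : (Matrix (Fin m ⊕ Fin m) (Fin m ⊕ Fin m) F)}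

set_option maxHeartbeats 1000000 in
theorem no_full (R : RatP F₀ ζ (PG : (Matrix (Fin m ⊕ Fin m) (Fin m ⊕ Fin m) F)) Q) (hm : 7 ≤ m) (M : Subgroup (Matrix.symplecticGroup (Fin m) F))
    (hM : ∀ A : (Matrix.symplecticGroup (Fin m) F), ((toGHom m F A : ↥(Cfsg.spGL m F)) : (GL (Fin m ⊕ Fin m) F)) ∈ Cfsg.Geo.subfieldSubgroup F₀ PG →
      A ∈ M)
    (hR : PropR F₀ (PG : (Matrix (Fin m ⊕ Fin m) (Fin m ⊕ Fin m) F)) M) (g₀ : (Matrix.symplecticGroup (Fin m) F)) (hg₀ : g₀ ∈ M)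
    (hg₀n : ((toGHom m F g₀ : ↥(Cfsg.spGL m F)) : (GL (Fin m ⊕ Fin m) F)) ∉ Cfsg.Geo.subfieldSubgroup F₀ PG) :
    False := by
  classical
  have hz0 := R.z0
  have hK : ∀ w, IsRat F₀ (PG : (Matrix (Fin m ⊕ Fin m) (Fin m ⊕ Fin m) F)) w → ∀ s ∈ F₀, tvS w (ζ * s) ∈ M :=
    fun w hw s hs => hM _ (rat_mem_sfg F₀ PG _ (fun x hx => R.tv_rat w hw s hs x hx))
  have hKc : ∀ w, IsRat F₀ (PG : (Matrix (Fin m ⊕ Fin m) (Fin m ⊕ Fin m) F)) w →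
      ((toGHom m F (tvS w ζ) : ↥(Cfsg.spGL m F)) : (GL (Fin m ⊕ Fin m) F)) ∈ Cfsg.Geo.subfieldSubgroup F₀ PG := by
    intro w hw
    apply rat_mem_sfg
    intro x hx
    have := R.tv_rat w hw 1 F₀.one_mem x hx
    rwa [mul_one] at this
  obtain ⟨p, hp⟩ := CharP.exists F
  haveI := hp
  have hpp : p.Prime := CharP.char_is_prime F p
  haveI : Fact p.Prime := ⟨hpp⟩
  obtain ⟨j₀⟩ : Nonempty (Fin m ⊕ Fin m) := ⟨Sum.inl ⟨0, by omega⟩⟩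
  obtain ⟨u₁, hu₁def⟩ : ∃ u₁ : (Fin m ⊕ Fin m → F), u₁ = (PG : (Matrix (Fin m ⊕ Fin m) (Fin m ⊕ Fin m) F)) *ᵥ Pi.single j₀ 1 := ⟨_, rfl⟩
  have hu₁ : IsRat F₀ (PG : (Matrix (Fin m ⊕ Fin m) (Fin m ⊕ Fin m) F)) u₁ := by
    rw [hu₁def]
    exact isRat_col F₀ _ j₀
  have hu₁0 : u₁ ≠ 0 := by
    rw [hu₁def]
    exact R.col_ne_zero j₀
  obtain ⟨a, hadef⟩ : ∃ a : (Fin m ⊕ Fin m → F), a = (g₀ : (Matrix (Fin m ⊕ Fin m) (Fin m ⊕ Fin m) F)) *ᵥ u₁ := ⟨_, rfl⟩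
  have ht₁M : tvS u₁ ζ ∈ M := hM _ (hKc u₁ hu₁)
  have hTM : tvS a ζ ∈ M := by
    have h2 := M.mul_mem (M.mul_mem hg₀ ht₁M) (M.inv_mem hg₀)
    rwa [tvS_conj, ← hadef] at h2
  have hcen := R.cen M hK hR
  have hpt := R.pt hm M hK hR
  have hfull : ∀ u : (Fin m ⊕ Fin m → F), IsRat F₀ (PG : (Matrix (Fin m ⊕ Fin m) (Fin m ⊕ Fin m) F)) u → u ≠ 0 → Cfsg.sympForm m F a u ≠ 0 := by
    intro u hu hu0 h0
    apply hg₀n
    apply hpt g₀ hg₀ u₁ hu₁ hu₁0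
    rw [← hadef]
    exact hcen a ζ hz0 hTM u hu hu0 h0
  obtain ⟨z₁, hz₁, hz₁u₁⟩ := R.dual1 u₁ hu₁ hu₁0
  obtain ⟨u₂, hu₂, hu₂0, hu₂L⟩ := R.perpL [u₁, z₁] (by
    intro v hv
    simp only [List.mem_cons, List.not_mem_nil, or_false] at hv
    rcases hv with rfl | rfl
    · exact hu₁
    · exact hz₁) (by simp only [List.length_cons, List.length_nil]; omega)
  have hu₂u₁ : Cfsg.sympForm m F u₂ u₁ = 0 := hu₂L u₁ (by simp)
  have hu₂z₁ : Cfsg.sympForm m F u₂ z₁ = 0 := hu₂L z₁ (by simp)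
  have hu₁u₂ : Cfsg.sympForm m F u₁ u₂ = 0 := by rw [sf_swap, hu₂u₁, neg_zero]
  have hz₁u₂ : Cfsg.sympForm m F z₁ u₂ = 0 := by rw [sf_swap, hu₂z₁, neg_zero]
  have ht₂M : tvS u₂ ζ ∈ M := hM _ (hKc u₂ hu₂)
  obtain ⟨ℓ, hℓ⟩ : ∃ ℓ : Submodule F (Fin m ⊕ Fin m → F), ℓ = Submodule.span F {u₁, u₂} := ⟨_, rfl⟩
  obtain ⟨W, hW⟩ : ∃ W : Submodule F (Fin m ⊕ Fin m → F), W = Submodule.span F {a, u₁, u₂} := ⟨_, rfl⟩
  have hu₁ℓ : u₁ ∈ ℓ := by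
    rw [hℓ]
    exact Submodule.subset_span (by simp)
  have hu₂ℓ : u₂ ∈ ℓ := by
    rw [hℓ]
    exact Submodule.subset_span (by simp)
  have haW : a ∈ W := by
    rw [hW]
    exact Submodule.subset_span (by simp)
  have hu₁W : u₁ ∈ W := by
    rw [hW]
    exact Submodule.subset_span (by simp)
  have hu₂W : u₂ ∈ W := by
    rw [hW]
    exact Submodule.subset_span (by simp)
  have hℓiso : ∀ x ∈ ℓ, ∀ y ∈ ℓ, Cfsg.sympForm m F x y = 0 := by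
    intro x hx y hy
    rw [hℓ, Submodule.mem_span_pair] at hx hy
    obtain ⟨α, β, rfl⟩ := hx
    obtain ⟨γ, δ, rfl⟩ := hy
    simp only [sf_add_left, sf_add_right, sf_smul_left, sf_smul_right, sf_self, hu₁u₂, hu₂u₁,
      mul_zero, add_zero]
  have htvW : ∀ w ∈ W, ∀ c : F, tvS w c ∈ fixW W := by
    intro w hw c v
    rw [tvS_inv, tvS_mulVec, tvS_mulVec, add_sub_cancel_left, add_sub_cancel_left]
    exact ⟨W.smul_mem _ hw, W.smul_mem _ hw⟩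
  obtain ⟨X, hX⟩ : ∃ X : Subgroup (Matrix.symplecticGroup (Fin m) F), X = M ⊓ fixW W := ⟨_, rfl⟩
  have hTX : tvS a ζ ∈ X := by
    rw [hX]
    exact ⟨hTM, htvW a haW ζ⟩
  have ht₁X : tvS u₁ ζ ∈ X := by
    rw [hX]
    exact ⟨ht₁M, htvW u₁ hu₁W ζ⟩
  have ht₂X : tvS u₂ ζ ∈ X := by
    rw [hX]
    exact ⟨ht₂M, htvW u₂ hu₂W ζ⟩
  have hXM : ∀ x ∈ X, x ∈ M := by
    intro x hx
    rw [hX] at hx
    exact hx.1
  have hXW : ∀ x ∈ X, ∀ v : (Fin m ⊕ Fin m → F), (x : (Matrix (Fin m ⊕ Fin m) (Fin m ⊕ Fin m) F)) *ᵥ v - v ∈ W := by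
    intro x hx v
    rw [hX] at hx
    exact (hx.2 v).1
  have P1 : ∀ s ∈ X,
      ((toGHom m F s : ↥(Cfsg.spGL m F)) : (GL (Fin m ⊕ Fin m) F)) ∈ Cfsg.Geo.subfieldSubgroup F₀ PG →
      ∀ v : (Fin m ⊕ Fin m → F), (s : (Matrix (Fin m ⊕ Fin m) (Fin m ⊕ Fin m) F)) *ᵥ v - v ∈ ℓ := by
    intro s hsX hsK
    obtain ⟨c, hc⟩ := sfg_rat F₀ PG _ hsK
    have hrat : ∀ w, IsRat F₀ (PG : (Matrix (Fin m ⊕ Fin m) (Fin m ⊕ Fin m) F)) w → (s : (Matrix (Fin m ⊕ Fin m) (Fin m ⊕ Fin m) F)) *ᵥ w - w ∈ ℓ := by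
      intro w hw
      obtain ⟨w', hw', hcw⟩ := hc w hw
      have hcw' : (s : (Matrix (Fin m ⊕ Fin m) (Fin m ⊕ Fin m) F)) *ᵥ w = c • w' := hcw
      have h1 := hXW s hsX w
      rw [hW, Submodule.mem_span_triple] at h1
      obtain ⟨α, β, γ, h2⟩ := h1
      have hα : α = 0 := by
        by_contra hα0
        obtain ⟨e, he, he0, heL⟩ := R.perpL [w, w', u₁, u₂] (by
          intro v hv
          simp only [List.mem_cons, List.not_mem_nil, or_false] at hv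
          rcases hv with rfl | rfl | rfl | rfl
          · exact hw
          · exact hw'
          · exact hu₁
          · exact hu₂) (by simp only [List.length_cons, List.length_nil]; omega)
        have h3 := congrArg (fun z => Cfsg.sympForm m F e z) h2
        simp only [sf_add_right, sf_smul_right, sf_sub_right, hcw', heL w (by simp),
          heL w' (by simp), heL u₁ (by simp), heL u₂ (by simp), mul_zero, add_zero,
          sub_zero] at h3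
        rcases mul_eq_zero.mp h3 with h4 | h4
        · exact hα0 h4
        · apply hfull e he he0
          rw [sf_swap, h4, neg_zero]
      rw [← h2, hα, zero_smul, zero_add, hℓ, Submodule.mem_span_pair]
      exact ⟨β, γ, rfl⟩
    intro v
    rw [R.expand v, Matrix.mulVec_sum, ← Finset.sum_sub_distrib]
    apply Submodule.sum_mem
    intro j _
    rw [Matrix.mulVec_smul, ← smul_sub]
    exact ℓ.smul_mem _ (hrat _ (isRat_col F₀ _ j))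
  have fixℓ : ∀ s : (Matrix.symplecticGroup (Fin m) F), (∀ v : (Fin m ⊕ Fin m → F), (s : (Matrix (Fin m ⊕ Fin m) (Fin m ⊕ Fin m) F)) *ᵥ v - v ∈ ℓ) → ∀ e ∈ ℓ, (s : (Matrix (Fin m ⊕ Fin m) (Fin m ⊕ Fin m) F)) *ᵥ e = e := by
    intro s hs e he
    have h1 : (s : (Matrix (Fin m ⊕ Fin m) (Fin m ⊕ Fin m) F)) *ᵥ e - e = 0 := by
      by_contra hne
      obtain ⟨v, hv⟩ := S0768.nondeg _ hne
      apply hv
      have h2 := sp_preserves s v e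
      obtain ⟨n₁, hn₁⟩ : ∃ n₁ : (Fin m ⊕ Fin m → F), n₁ = (s : (Matrix (Fin m ⊕ Fin m) (Fin m ⊕ Fin m) F)) *ᵥ v - v := ⟨_, rfl⟩
      obtain ⟨n₂, hn₂⟩ : ∃ n₂ : (Fin m ⊕ Fin m → F), n₂ = (s : (Matrix (Fin m ⊕ Fin m) (Fin m ⊕ Fin m) F)) *ᵥ e - e := ⟨_, rfl⟩
      have e1 : (s : (Matrix (Fin m ⊕ Fin m) (Fin m ⊕ Fin m) F)) *ᵥ v = v + n₁ := by
        rw [hn₁]
        abel
      have e2 : (s : (Matrix (Fin m ⊕ Fin m) (Fin m ⊕ Fin m) F)) *ᵥ e = e + n₂ := by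
        rw [hn₂]
        abel
      have hn₁ℓ : n₁ ∈ ℓ := by
        rw [hn₁]
        exact hs v
      have hn₂ℓ : n₂ ∈ ℓ := by
        rw [hn₂]
        exact hs e
      rw [e1, e2, sf_add_left, sf_add_right, sf_add_right] at h2
      simp only [hℓiso n₁ hn₁ℓ e he, hℓiso n₁ hn₁ℓ n₂ hn₂ℓ, add_zero] at h2
      rw [← hn₂, sf_swap]
      have h3 : Cfsg.sympForm m F v n₂ = 0 := by linear_combination h2
      rw [h3, neg_zero]
    exact sub_eq_zero.mp h1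
  obtain ⟨Kc, hKc'⟩ : ∃ Kc : Subgroup (Matrix.symplecticGroup (Fin m) F), ∀ A, A ∈ Kc ↔
      ((toGHom m F A : ↥(Cfsg.spGL m F)) : (GL (Fin m ⊕ Fin m) F)) ∈ Cfsg.Geo.subfieldSubgroup F₀ PG :=
    ⟨(Cfsg.Geo.subfieldSubgroup F₀ PG).comap ((Cfsg.spGL m F).subtype.comp (toGHom m F)),
      fun A => Iff.rfl⟩
  obtain ⟨PX, hPX⟩ : ∃ PX : Subgroup ↥X, ∀ s : ↥X, s ∈ PX ↔ (s : (Matrix.symplecticGroup (Fin m) F)) ∈ Kc :=
    ⟨Kc.comap X.subtype, fun s => Iff.rfl⟩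
  have PX1 : ∀ s : ↥X, s ∈ PX → ∀ v : (Fin m ⊕ Fin m → F), ((s : (Matrix.symplecticGroup (Fin m) F)) : (Matrix (Fin m ⊕ Fin m) (Fin m ⊕ Fin m) F)) *ᵥ v - v ∈ ℓ :=
    fun s hs => P1 s.1 s.2 ((hKc' _).mp ((hPX s).mp hs))
  have PXfix : ∀ s : ↥X, s ∈ PX → ∀ e ∈ ℓ, ((s : (Matrix.symplecticGroup (Fin m) F)) : (Matrix (Fin m ⊕ Fin m) (Fin m ⊕ Fin m) F)) *ᵥ e = e :=
    fun s hs => fixℓ s.1 (PX1 s hs)
  have hpg : IsPGroup p PX := by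
    intro ⟨s, hs⟩
    have hpow : ∀ (k : ℕ) (v : (Fin m ⊕ Fin m → F)), (((s : (Matrix.symplecticGroup (Fin m) F)) ^ k : (Matrix.symplecticGroup (Fin m) F)) : (Matrix (Fin m ⊕ Fin m) (Fin m ⊕ Fin m) F)) *ᵥ v
        = v + (k : F) • (((s : (Matrix.symplecticGroup (Fin m) F)) : (Matrix (Fin m ⊕ Fin m) (Fin m ⊕ Fin m) F)) *ᵥ v - v) := by
      intro k v
      induction k with
      | zero => rw [pow_zero, sp_coe_one, Matrix.one_mulVec, Nat.cast_zero, zero_smul, add_zero]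
      | succ k ih =>
        rw [pow_succ', sp_coe_mul, ← Matrix.mulVec_mulVec, ih, Matrix.mulVec_add,
          Matrix.mulVec_smul, PXfix s hs _ (PX1 s hs v), Nat.cast_succ]
        module
    have key : (s : (Matrix.symplecticGroup (Fin m) F)) ^ p = 1 := by
      apply sp_ext
      intro v
      rw [hpow p v, CharP.cast_eq_zero F p, zero_smul, add_zero, sp_coe_one, Matrix.one_mulVec]
    have key2 : s ^ p = 1 := Subtype.ext (by rw [Subgroup.coe_pow, key]; rfl)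
    refine ⟨1, ?_⟩
    rw [pow_one]
    exact Subtype.ext (by rw [Subgroup.coe_pow]; exact key2)
  have hcomm : ∀ s ∈ PX, ∀ s' ∈ PX, s * s' = s' * s := by
    intro s hs s' hs'
    apply Subtype.ext
    apply sp_ext
    intro v
    rw [Subgroup.coe_mul, Subgroup.coe_mul, sp_coe_mul, sp_coe_mul, ← Matrix.mulVec_mulVec,
      ← Matrix.mulVec_mulVec]
    have e1 : ((s' : (Matrix.symplecticGroup (Fin m) F)) : (Matrix (Fin m ⊕ Fin m) (Fin m ⊕ Fin m) F)) *ᵥ v = v + (((s' : (Matrix.symplecticGroup (Fin m) F)) : (Matrix (Fin m ⊕ Fin m) (Fin m ⊕ Fin m) F)) *ᵥ v - v) := by abel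
    have e2 : ((s : (Matrix.symplecticGroup (Fin m) F)) : (Matrix (Fin m ⊕ Fin m) (Fin m ⊕ Fin m) F)) *ᵥ v = v + (((s : (Matrix.symplecticGroup (Fin m) F)) : (Matrix (Fin m ⊕ Fin m) (Fin m ⊕ Fin m) F)) *ᵥ v - v) := by abel
    conv_lhs => rw [e1, Matrix.mulVec_add, PXfix s hs _ (PX1 s' hs' v)]
    conv_rhs => rw [e2, Matrix.mulVec_add, PXfix s' hs' _ (PX1 s hs v)]
    abel
  obtain ⟨t₁', ht₁'⟩ : ∃ t₁' : ↥X, (t₁' : (Matrix.symplecticGroup (Fin m) F)) = tvS u₁ ζ := ⟨⟨tvS u₁ ζ, ht₁X⟩, rfl⟩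
  have ht₁'P : t₁' ∈ PX := by
    rw [hPX, hKc', ht₁']
    exact hKc u₁ hu₁
  have hN : ∀ g : ↥X, (∀ s ∈ PX, g * s * g⁻¹ ∈ PX) → g ∈ PX := by
    intro g hg
    have h1 := hg t₁' ht₁'P
    have h2 := PX1 _ h1
    have e : ((g * t₁' * g⁻¹ : ↥X) : (Matrix.symplecticGroup (Fin m) F)) = tvS (((g : (Matrix.symplecticGroup (Fin m) F)) : (Matrix (Fin m ⊕ Fin m) (Fin m ⊕ Fin m) F)) *ᵥ u₁) ζ := by
      rw [Subgroup.coe_mul, Subgroup.coe_mul, Subgroup.coe_inv, ht₁', tvS_conj]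
    obtain ⟨b, hb⟩ : ∃ b : (Fin m ⊕ Fin m → F), b = ((g : (Matrix.symplecticGroup (Fin m) F)) : (Matrix (Fin m ⊕ Fin m) (Fin m ⊕ Fin m) F)) *ᵥ u₁ := ⟨_, rfl⟩
    rw [← hb] at e
    rw [e] at h2
    have hb0 : b ≠ 0 := by
      intro h0
      apply hu₁0
      have h3 := sp_inv_mulVec (g : (Matrix.symplecticGroup (Fin m) F)) u₁
      rw [← hb, h0, Matrix.mulVec_zero] at h3
      exact h3.symm
    obtain ⟨v, hv⟩ := S0768.nondeg b hb0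
    have h3 := h2 v
    rw [tvS_mulVec, add_sub_cancel_left] at h3
    have hbℓ : b ∈ ℓ := by
      have hne : ζ * Cfsg.sympForm m F v b ≠ 0 := by
        apply mul_ne_zero hz0
        rw [sf_swap]
        exact neg_ne_zero.mpr hv
      have := ℓ.smul_mem (ζ * Cfsg.sympForm m F v b)⁻¹ h3
      rwa [smul_smul, inv_mul_cancel₀ hne, one_smul] at this
    have hbu₁ : Cfsg.sympForm m F b u₁ = 0 := hℓiso b hbℓ u₁ hu₁ℓ
    have hTb : tvS b ζ ∈ M := by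
      rw [← e]
      exact hXM _ (g * t₁' * g⁻¹).2
    obtain ⟨t, v', hv', htv'⟩ := hcen b ζ hz0 hTb u₁ hu₁ hu₁0 hbu₁
    have h4 : ∃ (t : F) (v : (Fin m ⊕ Fin m → F)), IsRat F₀ (PG : (Matrix (Fin m ⊕ Fin m) (Fin m ⊕ Fin m) F)) v ∧ ((g : (Matrix.symplecticGroup (Fin m) F)) : (Matrix (Fin m ⊕ Fin m) (Fin m ⊕ Fin m) F)) *ᵥ u₁ = t • v :=
      ⟨t, v', hv', by rw [← hb]; exact htv'⟩
    exact (hPX g).mpr ((hKc' _).mpr (hpt (g : (Matrix.symplecticGroup (Fin m) F)) (hXM _ g.2) u₁ hu₁ hu₁0 h4))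
  have hC : ∀ s ∈ PX, s ≠ 1 → ∀ g : ↥X, g * s * g⁻¹ = s → g ∈ PX := by
    intro s hs hs1 g hgs
    have hsK := (hKc' _).mp ((hPX s).mp hs)
    have hsfix : ((s : (Matrix.symplecticGroup (Fin m) F)) : (Matrix (Fin m ⊕ Fin m) (Fin m ⊕ Fin m) F)) *ᵥ u₁ = u₁ := PXfix s hs u₁ hu₁ℓ
    have hsrat := R.sfg_fix (s : (Matrix.symplecticGroup (Fin m) F)) hsK u₁ hu₁ hu₁0 hsfix
    have h1 : ∃ w₀, IsRat F₀ (PG : (Matrix (Fin m ⊕ Fin m) (Fin m ⊕ Fin m) F)) w₀ ∧ ((s : (Matrix.symplecticGroup (Fin m) F)) : (Matrix (Fin m ⊕ Fin m) (Fin m ⊕ Fin m) F)) *ᵥ w₀ ≠ w₀ := by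
      by_contra hcon
      push Not at hcon
      apply hs1
      apply Subtype.ext
      apply sp_ext
      intro v
      rw [Subgroup.coe_one, sp_coe_one, Matrix.one_mulVec]
      conv_rhs => rw [R.expand v]
      conv_lhs => rw [R.expand v]
      rw [Matrix.mulVec_sum]
      apply Finset.sum_congr rfl
      intro j _
      rw [Matrix.mulVec_smul, hcon _ (isRat_col F₀ _ j)]
    obtain ⟨w₀, hw₀, hsw₀⟩ := h1
    obtain ⟨b, hb⟩ : ∃ b : (Fin m ⊕ Fin m → F), b = ((s : (Matrix.symplecticGroup (Fin m) F)) : (Matrix (Fin m ⊕ Fin m) (Fin m ⊕ Fin m) F)) *ᵥ w₀ - w₀ := ⟨_, rfl⟩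
    have hbr : IsRat F₀ (PG : (Matrix (Fin m ⊕ Fin m) (Fin m ⊕ Fin m) F)) b := by
      rw [hb]
      exact isRat_sub (hsrat w₀ hw₀) hw₀
    have hb0 : b ≠ 0 := by
      rw [hb]
      exact sub_ne_zero.mpr hsw₀
    have hbℓ : b ∈ ℓ := by
      rw [hb]
      exact PX1 s hs w₀
    have h2 : g * s = s * g := by
      calc g * s = (g * s * g⁻¹) * g := by group
        _ = s * g := by rw [hgs]
    have hcomm' : (g : (Matrix.symplecticGroup (Fin m) F)) * (s : (Matrix.symplecticGroup (Fin m) F)) = (s : (Matrix.symplecticGroup (Fin m) F)) * (g : (Matrix.symplecticGroup (Fin m) F)) := by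
      rw [← Subgroup.coe_mul, ← Subgroup.coe_mul, h2]
    have hgb : ((g : (Matrix.symplecticGroup (Fin m) F)) : (Matrix (Fin m ⊕ Fin m) (Fin m ⊕ Fin m) F)) *ᵥ b ∈ ℓ := by
      have e : ((g : (Matrix.symplecticGroup (Fin m) F)) : (Matrix (Fin m ⊕ Fin m) (Fin m ⊕ Fin m) F)) *ᵥ b
          = ((s : (Matrix.symplecticGroup (Fin m) F)) : (Matrix (Fin m ⊕ Fin m) (Fin m ⊕ Fin m) F)) *ᵥ (((g : (Matrix.symplecticGroup (Fin m) F)) : (Matrix (Fin m ⊕ Fin m) (Fin m ⊕ Fin m) F)) *ᵥ w₀) - ((g : (Matrix.symplecticGroup (Fin m) F)) : (Matrix (Fin m ⊕ Fin m) (Fin m ⊕ Fin m) F)) *ᵥ w₀ := by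
        rw [hb, Matrix.mulVec_sub, Matrix.mulVec_mulVec, Matrix.mulVec_mulVec, ← sp_coe_mul,
          ← sp_coe_mul, hcomm']
      rw [e]
      exact PX1 s hs _
    have hgbu₁ : Cfsg.sympForm m F (((g : (Matrix.symplecticGroup (Fin m) F)) : (Matrix (Fin m ⊕ Fin m) (Fin m ⊕ Fin m) F)) *ᵥ b) u₁ = 0 := hℓiso _ hgb u₁ hu₁ℓ
    have hTb : tvS (((g : (Matrix.symplecticGroup (Fin m) F)) : (Matrix (Fin m ⊕ Fin m) (Fin m ⊕ Fin m) F)) *ᵥ b) ζ ∈ M := by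
      have h1 : tvS b ζ ∈ M := by
        have := hK b hbr 1 F₀.one_mem
        rwa [mul_one] at this
      have h2 := M.mul_mem (M.mul_mem (hXM _ g.2) h1) (M.inv_mem (hXM _ g.2))
      rwa [tvS_conj] at h2
    have h4 := hcen _ ζ hz0 hTb u₁ hu₁ hu₁0 hgbu₁
    exact (hPX g).mpr ((hKc' _).mpr (hpt (g : (Matrix.symplecticGroup (Fin m) F)) (hXM _ g.2) b hbr hb0 h4))
  obtain ⟨K', hK'1, hK'2⟩ := Cfsg.Agent.Helper16.frob_kernel p PX hpg hcomm hN hC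
  have hQ : ∀ x : ↥X, x ∉ K' → ∀ v : (Fin m ⊕ Fin m → F),
      ((x : (Matrix.symplecticGroup (Fin m) F)) : (Matrix (Fin m ⊕ Fin m) (Fin m ⊕ Fin m) F)) *ᵥ (((x : (Matrix.symplecticGroup (Fin m) F)) : (Matrix (Fin m ⊕ Fin m) (Fin m ⊕ Fin m) F)) *ᵥ v - v) = ((x : (Matrix.symplecticGroup (Fin m) F)) : (Matrix (Fin m ⊕ Fin m) (Fin m ⊕ Fin m) F)) *ᵥ v - v := by
    intro x hx v
    obtain ⟨g, s, hs, hxg⟩ := hK'2 x hx
    have e : (x : (Matrix.symplecticGroup (Fin m) F)) = (g : (Matrix.symplecticGroup (Fin m) F)) * (s : (Matrix.symplecticGroup (Fin m) F)) * ((g : (Matrix.symplecticGroup (Fin m) F)))⁻¹ := by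
      rw [hxg, Subgroup.coe_mul, Subgroup.coe_mul, Subgroup.coe_inv]
    obtain ⟨n, hn⟩ : ∃ n : (Fin m ⊕ Fin m → F), n = ((s : (Matrix.symplecticGroup (Fin m) F)) : (Matrix (Fin m ⊕ Fin m) (Fin m ⊕ Fin m) F)) *ᵥ ((((g : (Matrix.symplecticGroup (Fin m) F))⁻¹ : (Matrix.symplecticGroup (Fin m) F)) : (Matrix (Fin m ⊕ Fin m) (Fin m ⊕ Fin m) F)) *ᵥ v)
        - (((g : (Matrix.symplecticGroup (Fin m) F))⁻¹ : (Matrix.symplecticGroup (Fin m) F)) : (Matrix (Fin m ⊕ Fin m) (Fin m ⊕ Fin m) F)) *ᵥ v := ⟨_, rfl⟩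
    have hnℓ : n ∈ ℓ := by
      rw [hn]
      exact PX1 s hs _
    have e1 : ((x : (Matrix.symplecticGroup (Fin m) F)) : (Matrix (Fin m ⊕ Fin m) (Fin m ⊕ Fin m) F)) *ᵥ v - v = ((g : (Matrix.symplecticGroup (Fin m) F)) : (Matrix (Fin m ⊕ Fin m) (Fin m ⊕ Fin m) F)) *ᵥ n := by
      rw [e, hn, sp_coe_mul, sp_coe_mul, ← Matrix.mulVec_mulVec, ← Matrix.mulVec_mulVec,
        Matrix.mulVec_sub, sp_mulVec_inv]
    rw [e1, e, sp_coe_mul, sp_coe_mul, ← Matrix.mulVec_mulVec, ← Matrix.mulVec_mulVec,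
      sp_inv_mulVec, PXfix s hs n hnℓ]
  have hbad : ∀ ui : (Fin m ⊕ Fin m → F), IsRat F₀ (PG : (Matrix (Fin m ⊕ Fin m) (Fin m ⊕ Fin m) F)) ui → ui ≠ 0 →
      ∀ (hX' : tvS ui ζ * tvS a ζ ∈ X), (⟨tvS ui ζ * tvS a ζ, hX'⟩ : ↥X) ∈ K' := by
    intro ui hui hui0 hX'
    by_contra hnot
    have h1 : ((tvS ui ζ * tvS a ζ : (Matrix.symplecticGroup (Fin m) F)) : (Matrix (Fin m ⊕ Fin m) (Fin m ⊕ Fin m) F)) *ᵥ (((tvS ui ζ * tvS a ζ : (Matrix.symplecticGroup (Fin m) F)) : (Matrix (Fin m ⊕ Fin m) (Fin m ⊕ Fin m) F)) *ᵥ ui - ui)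
        = ((tvS ui ζ * tvS a ζ : (Matrix.symplecticGroup (Fin m) F)) : (Matrix (Fin m ⊕ Fin m) (Fin m ⊕ Fin m) F)) *ᵥ ui - ui := hQ _ hnot ui
    obtain ⟨κ, hκdef⟩ : ∃ κ, κ = Cfsg.sympForm m F a ui := ⟨_, rfl⟩
    have hκ0 : κ ≠ 0 := by
      rw [hκdef]
      exact hfull ui hui hui0
    have hua : Cfsg.sympForm m F ui a = -κ := by
      rw [hκdef]
      exact sf_swap ui a
    have ey : ∀ z : (Fin m ⊕ Fin m → F), ((tvS ui ζ * tvS a ζ : (Matrix.symplecticGroup (Fin m) F)) : (Matrix (Fin m ⊕ Fin m) (Fin m ⊕ Fin m) F)) *ᵥ z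
        = z + (ζ * Cfsg.sympForm m F z a) • a + (ζ * (Cfsg.sympForm m F z ui + ζ * Cfsg.sympForm m F z a * κ)) • ui := by
      intro z
      rw [sp_coe_mul, ← Matrix.mulVec_mulVec, tvS_mulVec, tvS_mulVec, sf_add_left, sf_smul_left,
        ← hκdef]
    have e1 : ((tvS ui ζ * tvS a ζ : (Matrix.symplecticGroup (Fin m) F)) : (Matrix (Fin m ⊕ Fin m) (Fin m ⊕ Fin m) F)) *ᵥ ui - ui
        = (-(ζ * κ)) • a + (-(ζ ^ 2 * κ ^ 2)) • ui := by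
      rw [ey, hua, sf_self]
      module
    rw [e1] at h1
    have h2 := congrArg (fun z => Cfsg.sympForm m F z ui) h1
    rw [ey] at h2
    simp only [sf_add_left, sf_smul_left, sf_self, hua, ← hκdef, mul_zero, add_zero,
      zero_add] at h2
    have h3 : ζ ^ 3 * κ ^ 4 = 0 := by linear_combination h2
    exact mul_ne_zero (pow_ne_zero 3 hz0) (pow_ne_zero 4 hκ0) h3
  have hX1 : tvS u₁ ζ * tvS a ζ ∈ X := X.mul_mem ht₁X hTX
  have hX2 : tvS u₂ ζ * tvS a ζ ∈ X := X.mul_mem ht₂X hTX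
  have hk1 := hbad u₁ hu₁ hu₁0 hX1
  have hk2 := hbad u₂ hu₂ hu₂0 hX2
  have hk3 := K'.mul_mem hk1 (K'.inv_mem hk2)
  have e : (⟨tvS u₁ ζ * tvS a ζ, hX1⟩ : ↥X) * (⟨tvS u₂ ζ * tvS a ζ, hX2⟩ : ↥X)⁻¹
      = ⟨tvS u₁ ζ * (tvS u₂ ζ)⁻¹, X.mul_mem ht₁X (X.inv_mem ht₂X)⟩ := by
    apply Subtype.ext
    show tvS u₁ ζ * tvS a ζ * (tvS u₂ ζ * tvS a ζ)⁻¹ = tvS u₁ ζ * (tvS u₂ ζ)⁻¹
    group
  rw [e] at hk3
  have hP3 : (⟨tvS u₁ ζ * (tvS u₂ ζ)⁻¹, X.mul_mem ht₁X (X.inv_mem ht₂X)⟩ : ↥X) ∈ PX :=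
    (hPX _).mpr (Kc.mul_mem ((hKc' _).mpr (hKc u₁ hu₁))
      (Kc.inv_mem ((hKc' _).mpr (hKc u₂ hu₂))))
  have h5 : (⟨tvS u₁ ζ * (tvS u₂ ζ)⁻¹, X.mul_mem ht₁X (X.inv_mem ht₂X)⟩ : ↥X) ∈ K' ⊓ PX :=
    ⟨hk3, hP3⟩
  rw [hK'1, Subgroup.mem_bot] at h5
  have h6 : tvS u₁ ζ * (tvS u₂ ζ)⁻¹ = 1 := congrArg Subtype.val h5
  have h7 : tvS u₁ ζ = tvS u₂ ζ := mul_inv_eq_one.mp h6
  have h8 := congrArg (fun A : (Matrix.symplecticGroup (Fin m) F) => (A : (Matrix (Fin m ⊕ Fin m) (Fin m ⊕ Fin m) F)) *ᵥ z₁) h7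
  simp only [tvS_mulVec, hz₁u₂, mul_zero, zero_smul, add_zero] at h8
  rw [hz₁u₁, one_smul] at h8
  apply hu₁0
  have h9 := congrArg (fun t => t - z₁) h8
  simpa using h9

end step4
/-- For a finite field F, a subfield F₀ with |F| = |F₀| ^ r for a prime r, and m ≥ 7, let P be an invertible matrix and ζ a non-zero scalar such that ζ times the standard alternating form takes values in F₀ on the F₀-span of the columns of P. Then the elements of Sp_2m(F) lying in the subfield group of P (the conjugate by P of the product of GL_2m(F₀) with the scalars) form a maximal subgroup of Sp_2m(F). -/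
theorem result {F : Type*} [Field F] [Fintype F] (m : ℕ) (hm : 7 ≤ m) (F₀ : Subfield F) (r : ℕ) (hr : r.Prime) (hcard : Fintype.card F = Nat.card F₀ ^ r) (P : Matrix.GeneralLinearGroup (Fin m ⊕ Fin m) F) (ζ : F) (hζ : ζ ≠ 0) (hP : Cfsg.Geo.IsFormRationalStructure (Cfsg.sympForm m F) F₀ ζ P) : Cfsg.Geo.IsMaximalIn (Cfsg.spGL m F) (Cfsg.Geo.subfieldSubgroup F₀ P ⊓ Cfsg.spGL m F) := by
  classical
  obtain ⟨Qm, hQm⟩ : ∃ Qm : Matrix (Fin m ⊕ Fin m) (Fin m ⊕ Fin m) F,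
      Qm = ((P⁻¹ : GL (Fin m ⊕ Fin m) F) : Matrix (Fin m ⊕ Fin m) (Fin m ⊕ Fin m) F) :=
    ⟨_, rfl⟩
  have R : RatP F₀ ζ (P : Matrix (Fin m ⊕ Fin m) (Fin m ⊕ Fin m) F) Qm := by
    refine ⟨hζ, ?_, ?_, ?_⟩
    · intro v
      rw [hQm]
      exact gl_mulVec_inv' P v
    · intro v
      rw [hQm]
      exact gl_inv_mulVec' P v
    · rintro x y ⟨u, hu, rfl⟩ ⟨w, hw, rfl⟩
      exact hP u w hu hw
  have hω : ∃ ω : F, ω ∉ F₀ := by
    by_contra hcon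
    push Not at hcon
    have h1 : Nat.card F₀ = Fintype.card F := by
      rw [← Nat.card_eq_fintype_card]
      exact Nat.card_congr (Equiv.subtypeUnivEquiv hcon)
    rw [h1] at hcard
    have h2 : 1 < Fintype.card F := Fintype.one_lt_card
    have h3 : Fintype.card F ^ 1 < Fintype.card F ^ r := Nat.pow_lt_pow_right h2 hr.one_lt
    rw [pow_one, ← hcard] at h3
    exact lt_irrefl _ h3
  obtain ⟨ω, hω⟩ := hω
  apply Cfsg.Agent.S5647.maximal_of_core'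
  · exact R.exists_not_sfg (by omega) ω hω
  · intro M hM ⟨g₀, hg₀M, hg₀⟩
    have hK : ∀ w, IsRat F₀ (P : Matrix (Fin m ⊕ Fin m) (Fin m ⊕ Fin m) F) w →
        ∀ s ∈ F₀, tvS w (ζ * s) ∈ M :=
      fun w hw s hs => hM _ (rat_mem_sfg F₀ P _ (fun x hx => R.tv_rat w hw s hs x hx))
    by_cases hR : PropR F₀ (P : Matrix (Fin m ⊕ Fin m) (Fin m ⊕ Fin m) F) M
    · exact (no_full R hm M hM hR g₀ hg₀M hg₀).elim
    · unfold PropR at hR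
      push Not at hR
      obtain ⟨u, hu, hu0, y, hy, ψ, hyu, hyψ, x₀, hx₀, hx₀u, hlam⟩ := hR
      exact R.top_of_notR hm r hr hcard M hK u hu hu0 y hy ψ hyu hyψ x₀ hx₀ hx₀u hlam

end Cfsg.Agent.S5650
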