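import Mathlib
import Cfsg.Statements.S5652
import Cfsg.Agent.Helper6.PSpSimple
import Cfsg.Agent.Helper6.SpFrames
import Cfsg.Agent.S5646
import Cfsg.Agent.S5647
import Cfsg.Agent.S5649

set_option autoImplicit false
open Cfsg

namespace Cfsg.Agent.S5652

open Matrix Cfsg.Agent.Helper6 Cfsg.Agent.S5646 Cfsg.Agent.S5647 Cfsg.Agent.S5649

variable {F : Type*} [Field F] {m : ℕ}

theorem finrank_V : Module.finrank F (Fin m ⊕ Fin m → F) = 2 * m := by
  rw [Module.finrank_fintype_fun_eq_card, Fintype.card_sum, Fintype.card_fin]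
  ring

theorem exists_pair (hm : 1 ≤ m) :
    ∃ u v : Fin m ⊕ Fin m → F, Cfsg.sympForm m F u v ≠ 0 := by
  classical
  have hu : (Pi.single (Sum.inl ⟨0, by omega⟩) 1 : Fin m ⊕ Fin m → F) ≠ 0 := by
    intro h
    have h1 := congrFun h (Sum.inl ⟨0, by omega⟩)
    simp at h1
  obtain ⟨x, hx⟩ := S0768.nondeg _ hu
  exact ⟨_, x, hx⟩

theorem sepw (u z : Fin m ⊕ Fin m → F) (hu : u ≠ 0) (hz : ∀ c : F, z ≠ c • u) :
    ∃ y, Cfsg.sympForm m F u y = 0 ∧ Cfsg.sympForm m F z y ≠ 0 := by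
  obtain ⟨x₁, hx₁⟩ := S0768.nondeg u hu
  have hz' : z - (Cfsg.sympForm m F z x₁ / Cfsg.sympForm m F u x₁) • u ≠ 0 :=
    fun h => hz _ (sub_eq_zero.mp h)
  obtain ⟨x₂, hx₂⟩ := S0768.nondeg _ hz'
  refine ⟨x₂ - (Cfsg.sympForm m F u x₂ / Cfsg.sympForm m F u x₁) • x₁, ?_, ?_⟩
  · have e : Cfsg.sympForm m F u x₂ / Cfsg.sympForm m F u x₁ * Cfsg.sympForm m F u x₁
        = Cfsg.sympForm m F u x₂ := by field_simp
    rw [sf_sub_right, sf_smul_right, e, sub_self]
  · rw [sf_sub_left, sf_smul_left] at hx₂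
    rw [sf_sub_right, sf_smul_right]
    have e : Cfsg.sympForm m F z x₂
          - Cfsg.sympForm m F u x₂ / Cfsg.sympForm m F u x₁ * Cfsg.sympForm m F z x₁
        = Cfsg.sympForm m F z x₂
          - Cfsg.sympForm m F z x₁ / Cfsg.sympForm m F u x₁ * Cfsg.sympForm m F u x₂ := by
      ring
    rw [e]
    exact hx₂

theorem e1w (b v : Fin m ⊕ Fin m → F) (hb : b ≠ 0) (hv : ∀ c : F, v ≠ c • b) :
    ∃ w, Cfsg.sympForm m F b w = 1 ∧ Cfsg.sympForm m F v w = 1 := by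
  have hv0 : v ≠ 0 := by
    intro h
    apply hv 0
    rw [h, zero_smul]
  have hb' : ∀ c : F, b ≠ c • v := by
    intro c h
    have hc : c ≠ 0 := by
      rintro rfl
      rw [zero_smul] at h
      exact hb h
    apply hv c⁻¹
    rw [h, smul_smul, inv_mul_cancel₀ hc, one_smul]
  obtain ⟨y₁, h11, h12⟩ := sepw b v hb hv
  obtain ⟨y₂, h21, h22⟩ := sepw v b hv0 hb'
  refine ⟨(Cfsg.sympForm m F v y₁)⁻¹ • y₁ + (Cfsg.sympForm m F b y₂)⁻¹ • y₂, ?_, ?_⟩
  · rw [sf_add_right, sf_smul_right, sf_smul_right, h11, mul_zero, zero_add,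
      inv_mul_cancel₀ h22]
  · rw [sf_add_right, sf_smul_right, sf_smul_right, h21, mul_zero, add_zero,
      inv_mul_cancel₀ h12]

theorem ti_finrank (K : Submodule F (Fin m ⊕ Fin m → F))
    (hK : ∀ x ∈ K, ∀ y ∈ K, Cfsg.sympForm m F x y = 0) : Module.finrank F K ≤ m := by
  have h1 : K ≤ (sfB m F).orthogonal K := by
    intro x hx
    rw [LinearMap.BilinForm.mem_orthogonal_iff]
    intro y hy
    exact hK y hy x hx
  have h2 := Submodule.finrank_mono h1
  rw [LinearMap.BilinForm.finrank_orthogonal (sfB_nondeg m), finrank_V] at h2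
  omega

theorem sq_inj (h2 : (2 : F) = 0) (s t : F) (h : s ^ 2 = t ^ 2) : s = t := by
  have h1 : (s - t) ^ 2 = 0 := by linear_combination h + (t ^ 2 - s * t) * h2
  exact sub_eq_zero.mp ((pow_eq_zero_iff (by norm_num)).mp h1)

theorem sq_surj [Finite F] (h2 : (2 : F) = 0) (t : F) : ∃ s : F, s ^ 2 = t := by
  have hinj : Function.Injective (fun s : F => s ^ 2) := fun s t h => sq_inj h2 s t h
  exact (Finite.injective_iff_surjective.mp hinj) t

section quad

variable {Q : (Fin m ⊕ Fin m → F) → F}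

theorem q_add (hpol : ∀ u v, QuadraticMap.polar Q u v = Cfsg.sympForm m F u v)
    (x y : Fin m ⊕ Fin m → F) : Q (x + y) = Q x + Q y + Cfsg.sympForm m F x y := by
  have h := hpol x y
  unfold QuadraticMap.polar at h
  linear_combination h

theorem q_tv (hQ : Cfsg.Geo.IsNondegenerateQuadraticForm Q)
    (hpol : ∀ u v, QuadraticMap.polar Q u v = Cfsg.sympForm m F u v)
    (v : Fin m ⊕ Fin m → F) (c : F) (x : Fin m ⊕ Fin m → F) :
    Q ((tvS v c : Matrix (Fin m ⊕ Fin m) (Fin m ⊕ Fin m) F) *ᵥ x)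
      = Q x + (Cfsg.sympForm m F x v) ^ 2 * (c ^ 2 * Q v + c) := by
  rw [tvS_mulVec, q_add hpol, hQ.smul, sf_smul_right]
  ring

theorem e2w (hpol : ∀ u v, QuadraticMap.polar Q u v = Cfsg.sympForm m F u v) (hm : 4 ≤ m)
    (b v w : Fin m ⊕ Fin m → F) :
    ∃ w₃, Cfsg.sympForm m F w₃ b = 0 ∧ Cfsg.sympForm m F w₃ v = 0 ∧
      Cfsg.sympForm m F w₃ w = 0 ∧ Q w₃ ≠ 0 := by
  by_contra hcon
  push Not at hcon
  have hK : ∀ x ∈ cut (cut (cut (⊤ : Submodule F (Fin m ⊕ Fin m → F)) b) v) w, Q x = 0 := by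
    intro x hx
    rw [mem_cut, mem_cut, mem_cut] at hx
    exact hcon x hx.1.1.2 hx.1.2 hx.2
  have hti : ∀ x ∈ cut (cut (cut (⊤ : Submodule F (Fin m ⊕ Fin m → F)) b) v) w,
      ∀ y ∈ cut (cut (cut (⊤ : Submodule F (Fin m ⊕ Fin m → F)) b) v) w,
      Cfsg.sympForm m F x y = 0 := by
    intro x hx y hy
    have h := q_add hpol x y
    rw [hK x hx, hK y hy, hK _ (Submodule.add_mem _ hx hy)] at h
    linear_combination -h
  have h1 := ti_finrank _ hti
  have h3 := cut_finrank (cut (cut (⊤ : Submodule F (Fin m ⊕ Fin m → F)) b) v) w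
  have h4 := cut_finrank (cut (⊤ : Submodule F (Fin m ⊕ Fin m → F)) b) v
  have h5 := cut_finrank (⊤ : Submodule F (Fin m ⊕ Fin m → F)) b
  rw [finrank_top, finrank_V] at h5
  omega

theorem exists_rel [Finite F] (h2 : (2 : F) = 0) (hQ : Cfsg.Geo.IsNondegenerateQuadraticForm Q)
    (hpol : ∀ u v, QuadraticMap.polar Q u v = Cfsg.sympForm m F u v)
    (g : Matrix.symplecticGroup (Fin m) F) :
    ∃ a, ∀ x, Q ((g : Matrix (Fin m ⊕ Fin m) (Fin m ⊕ Fin m) F) *ᵥ x)
      = Q x + (Cfsg.sympForm m F x a) ^ 2 := by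
  choose sq hsq using sq_surj (F := F) h2
  obtain ⟨D, hD⟩ : ∃ D : (Fin m ⊕ Fin m → F) → F,
      ∀ x, D x = Q ((g : Matrix (Fin m ⊕ Fin m) (Fin m ⊕ Fin m) F) *ᵥ x) + Q x :=
    ⟨_, fun x => rfl⟩
  have hDadd : ∀ x y, D (x + y) = D x + D y := by
    intro x y
    rw [hD, hD, hD, Matrix.mulVec_add, q_add hpol, q_add hpol, sp_preserves]
    linear_combination (Cfsg.sympForm m F x y) * h2
  have hDsmul : ∀ (c : F) x, D (c • x) = c ^ 2 * D x := by
    intro c x
    rw [hD, hD, Matrix.mulVec_smul, hQ.smul, hQ.smul]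
    ring
  obtain ⟨L, hL⟩ : ∃ L : (Fin m ⊕ Fin m → F) →ₗ[F] F, ∀ x, L x = sq (D x) :=
    ⟨{ toFun := fun x => sq (D x)
       map_add' := fun x y => by
         show sq (D (x + y)) = sq (D x) + sq (D y)
         apply sq_inj h2
         rw [hsq, hDadd]
         have ha := hsq (D x)
         have hb := hsq (D y)
         linear_combination -ha - hb - sq (D x) * sq (D y) * h2
       map_smul' := fun c x => by
         show sq (D (c • x)) = c * sq (D x)
         apply sq_inj h2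
         rw [hsq, hDsmul, mul_pow, hsq] }, fun x => rfl⟩
  obtain ⟨a, ha⟩ : ∃ a, ∀ x, Cfsg.sympForm m F a x = L x :=
    ⟨((sfB m F).toDual (sfB_nondeg m)).symm L, fun x =>
      LinearMap.BilinForm.apply_toDual_symm_apply (hB := sfB_nondeg m) L x⟩
  refine ⟨a, fun x => ?_⟩
  have h1 : D x = (L x) ^ 2 := by rw [hL, hsq]
  have h3 : Cfsg.sympForm m F x a = -L x := by rw [sf_swap, ha]
  rw [h3, neg_sq, ← h1, hD]
  linear_combination (-Q x) * h2

theorem simil_iff (hm : 1 ≤ m) (hQ : Cfsg.Geo.IsNondegenerateQuadraticForm Q)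
    (hpol : ∀ u v, QuadraticMap.polar Q u v = Cfsg.sympForm m F u v)
    (A : Matrix.symplecticGroup (Fin m) F) :
    ((toGHom m F A : ↥(Cfsg.spGL m F)) : GL (Fin m ⊕ Fin m) F) ∈
        Cfsg.Geo.quadSimilarityGroup Q ↔
      ∀ x, Q ((A : Matrix (Fin m ⊕ Fin m) (Fin m ⊕ Fin m) F) *ᵥ x) = Q x := by
  constructor
  · rintro ⟨c, hc⟩
    have hc' : ∀ x, Q ((A : Matrix (Fin m ⊕ Fin m) (Fin m ⊕ Fin m) F) *ᵥ x) = (c : F) * Q x := hc
    obtain ⟨u, v, huv⟩ := exists_pair (F := F) hm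
    have h1 := q_add hpol ((A : Matrix (Fin m ⊕ Fin m) (Fin m ⊕ Fin m) F) *ᵥ u)
      ((A : Matrix (Fin m ⊕ Fin m) (Fin m ⊕ Fin m) F) *ᵥ v)
    rw [← Matrix.mulVec_add, hc', hc', hc', sp_preserves, q_add hpol] at h1
    have h3 : ((c : F) - 1) * Cfsg.sympForm m F u v = 0 := by linear_combination h1
    have hc1 : (c : F) = 1 := by
      rcases mul_eq_zero.mp h3 with h | h
      · exact sub_eq_zero.mp h
      · exact absurd h huv
    intro x
    rw [hc', hc1, one_mul]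
  · intro h
    exact ⟨1, fun x => by
      rw [Units.val_one, one_mul]
      exact h x⟩

theorem core_quad [Finite F] (h2 : (2 : F) = 0) (hm : 4 ≤ m)
    (hQ : Cfsg.Geo.IsNondegenerateQuadraticForm Q)
    (hpol : ∀ u v, QuadraticMap.polar Q u v = Cfsg.sympForm m F u v)
    (M : Subgroup (Matrix.symplecticGroup (Fin m) F))
    (hP : ∀ A : Matrix.symplecticGroup (Fin m) F,
      (∀ x, Q ((A : Matrix (Fin m ⊕ Fin m) (Fin m ⊕ Fin m) F) *ᵥ x) = Q x) → A ∈ M)
    (hex : ∃ g ∈ M, ¬ ∀ x, Q ((g : Matrix (Fin m ⊕ Fin m) (Fin m ⊕ Fin m) F) *ᵥ x) = Q x) :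
    M = ⊤ := by
  obtain ⟨g, hgM, hg⟩ := hex
  obtain ⟨b, hb⟩ := exists_rel h2 hQ hpol g
  have hb0 : b ≠ 0 := by
    rintro rfl
    apply hg
    intro x
    rw [hb x, S0768.sf_zero_right]
    ring
  have hneg : ∀ t : F, -t = t := by
    intro t
    linear_combination (-t) * h2
  have K0 : ∀ w, Q w ≠ 0 → tvS w (Q w)⁻¹ ∈ M := by
    intro w hw
    apply hP
    intro x
    rw [q_tv hQ hpol]
    have e1 : ((Q w)⁻¹) ^ 2 * Q w = (Q w)⁻¹ := by
      rw [sq, mul_assoc, inv_mul_cancel₀ hw, mul_one]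
    have e : ((Q w)⁻¹) ^ 2 * Q w + (Q w)⁻¹ = 0 := by
      rw [e1]
      linear_combination (Q w)⁻¹ * h2
    rw [e, mul_zero, add_zero]
  have K3 : ∀ (ga : Matrix.symplecticGroup (Fin m) F) (a : Fin m ⊕ Fin m → F), ga ∈ M →
      (∀ x, Q ((ga : Matrix (Fin m ⊕ Fin m) (Fin m ⊕ Fin m) F) *ᵥ x)
        = Q x + (Cfsg.sympForm m F x a) ^ 2) →
      ∀ v, Q v + (Cfsg.sympForm m F v a) ^ 2 ≠ 0 →
        tvS v (Q v + (Cfsg.sympForm m F v a) ^ 2)⁻¹ ∈ M := by
    intro ga a hga hrel v hv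
    have hQv := hrel v
    have h1 : tvS ((ga : Matrix (Fin m ⊕ Fin m) (Fin m ⊕ Fin m) F) *ᵥ v)
        (Q v + (Cfsg.sympForm m F v a) ^ 2)⁻¹ ∈ M := by
      rw [← hQv]
      exact K0 _ (by rw [hQv]; exact hv)
    have h3 := M.mul_mem (M.mul_mem (M.inv_mem hga) h1) hga
    have e1 := tvS_conj ga⁻¹ ((ga : Matrix (Fin m ⊕ Fin m) (Fin m ⊕ Fin m) F) *ᵥ v)
      (Q v + (Cfsg.sympForm m F v a) ^ 2)⁻¹
    rw [inv_inv, sp_inv_mulVec] at e1
    rw [e1] at h3
    exact h3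
  have K2 : ∀ w, Q w + (Cfsg.sympForm m F w b) ^ 2 ≠ 0 → ∀ v,
      Q v + (Cfsg.sympForm m F v
        ((Cfsg.sympForm m F b w / (Q w + (Cfsg.sympForm m F w b) ^ 2)) • w)) ^ 2 ≠ 0 →
      tvS v (Q v + (Cfsg.sympForm m F v
        ((Cfsg.sympForm m F b w / (Q w + (Cfsg.sympForm m F w b) ^ 2)) • w)) ^ 2)⁻¹ ∈ M := by
    intro w hw v hv
    have h1 := K3 g b hgM hb w hw
    apply K3 (tvS w (Q w + (Cfsg.sympForm m F w b) ^ 2)⁻¹) _ h1 _ v hv
    intro x
    have e1 : (Q w + (Cfsg.sympForm m F w b) ^ 2)⁻¹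
        = ((Q w + (Cfsg.sympForm m F w b) ^ 2)⁻¹) ^ 2 * (Q w + (Cfsg.sympForm m F w b) ^ 2) := by
      have hD := inv_mul_cancel₀ hw
      linear_combination (-(Q w + (Cfsg.sympForm m F w b) ^ 2)⁻¹) * hD
    rw [q_tv hQ hpol, sf_smul_right, sf_swap b w]
    linear_combination (Cfsg.sympForm m F x w) ^ 2 * e1
      + ((Cfsg.sympForm m F x w) ^ 2 * ((Q w + (Cfsg.sympForm m F w b) ^ 2)⁻¹) ^ 2 * Q w) * h2
  have hind : ∀ v, (∀ l : F, v ≠ l • b) → v ∈ dirs M := by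
    intro v hv c
    by_cases hc : c = 0
    · rw [hc, tvS_zero]
      exact M.one_mem
    obtain ⟨s, hs⟩ := sq_surj h2 (c⁻¹ + Q v)
    by_cases hs0 : s = 0
    · have hQv : Q v = c⁻¹ := by
        rw [hs0] at hs
        linear_combination -hs - c⁻¹ * h2
      have hQv0 : Q v ≠ 0 := by
        rw [hQv]
        exact inv_ne_zero hc
      have h := K0 v hQv0
      rw [hQv, inv_inv] at h
      exact h
    · obtain ⟨w₀, hw₀b, hw₀v⟩ := e1w b v hb0 hv
      obtain ⟨w₃, h3b, h3v, h3w, hQ3⟩ := e2w hpol hm b v w₀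
      obtain ⟨δ, hδ⟩ := sq_surj h2 ((s⁻¹ + 1 + Q w₀) / Q w₃)
      obtain ⟨w, hwdef⟩ : ∃ w, w = w₀ + δ • w₃ := ⟨_, rfl⟩
      have hw₀3 : Cfsg.sympForm m F w₀ w₃ = 0 := by rw [sf_swap, h3w, neg_zero]
      have hb3 : Cfsg.sympForm m F b w₃ = 0 := by rw [sf_swap, h3b, neg_zero]
      have hv3 : Cfsg.sympForm m F v w₃ = 0 := by rw [sf_swap, h3v, neg_zero]
      have hQw : Q w = s⁻¹ + 1 := by
        have e : (s⁻¹ + 1 + Q w₀) / Q w₃ * Q w₃ = s⁻¹ + 1 + Q w₀ := by field_simp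
        rw [hwdef, q_add hpol, hQ.smul, sf_smul_right, hw₀3, hδ, e]
        linear_combination (Q w₀) * h2
      have hbw : Cfsg.sympForm m F b w = 1 := by
        rw [hwdef, sf_add_right, sf_smul_right, hw₀b, hb3, mul_zero, add_zero]
      have hvw : Cfsg.sympForm m F v w = 1 := by
        rw [hwdef, sf_add_right, sf_smul_right, hw₀v, hv3, mul_zero, add_zero]
      have hwb : Cfsg.sympForm m F w b = 1 := by rw [sf_swap, hbw, hneg]
      have hden : Q w + (Cfsg.sympForm m F w b) ^ 2 = s⁻¹ := by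
        rw [hQw, hwb]
        linear_combination h2
      have hden0 : Q w + (Cfsg.sympForm m F w b) ^ 2 ≠ 0 := by
        rw [hden]
        exact inv_ne_zero hs0
      have hcoef : Cfsg.sympForm m F b w / (Q w + (Cfsg.sympForm m F w b) ^ 2) = s := by
        rw [hden, hbw, one_div, inv_inv]
      have h := K2 w hden0 v
      rw [hcoef, sf_smul_right, hvw, mul_one] at h
      have e : Q v + s ^ 2 = c⁻¹ := by
        rw [hs]
        linear_combination (Q v) * h2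
      rw [e, inv_inv] at h
      exact h (inv_ne_zero hc)
  have hbdir : b ∈ dirs M := by
    obtain ⟨y, hy⟩ := S0768.nondeg b hb0
    have hyb : Cfsg.sympForm m F y b ≠ 0 := by
      rw [sf_swap]
      exact neg_ne_zero.mpr hy
    have hy_ind : ∀ l : F, y ≠ l • b := by
      intro l h
      apply hy
      rw [h, sf_smul_right, sf_self, mul_zero]
    have hx_ind : ∀ l : F, b + y ≠ l • b := by
      intro l h
      apply hy_ind (l - 1)
      rw [sub_smul, one_smul, ← h]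
      abel
    have h := dirs_move M (b + y) y (hind _ hx_ind) (hind _ hy_ind) (Cfsg.sympForm m F y b)⁻¹
    rw [sf_add_right, sf_self, add_zero, inv_mul_cancel₀ hyb, one_smul] at h
    have e : y + (b + y) = b := by
      have h5 : y + y = 0 := by rw [← two_smul F y, h2, zero_smul]
      rw [add_comm b y, ← add_assoc, h5, zero_add]
    rwa [e] at h
  apply top_of_dirs
  intro v
  by_cases hv : ∃ l : F, v = l • b
  · obtain ⟨l, rfl⟩ := hv
    intro c
    rw [tvS_smul]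
    exact hbdir _
  · push Not at hv
    exact hind v hv

theorem exists_noniso (hm : 2 ≤ m) (h2 : (2 : F) = 0)
    (hQ : Cfsg.Geo.IsNondegenerateQuadraticForm Q)
    (hpol : ∀ u v, QuadraticMap.polar Q u v = Cfsg.sympForm m F u v) :
    ∃ A : Matrix.symplecticGroup (Fin m) F,
      ¬ ∀ x, Q ((A : Matrix (Fin m ⊕ Fin m) (Fin m ⊕ Fin m) F) *ᵥ x) = Q x := by
  classical
  obtain ⟨x, hx0⟩ : ∃ x : Fin m ⊕ Fin m → F, x ≠ 0 :=
    ⟨Pi.single (Sum.inl ⟨0, by omega⟩) 1, fun h => by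
      have h1 := congrFun h (Sum.inl ⟨0, by omega⟩)
      simp at h1⟩
  have hfr : 2 ≤ Module.finrank F (cut (⊤ : Submodule F (Fin m ⊕ Fin m → F)) x) := by
    have h5 := cut_finrank (⊤ : Submodule F (Fin m ⊕ Fin m → F)) x
    rw [finrank_top, finrank_V] at h5
    omega
  obtain ⟨y, hyK, hyne⟩ := exists_not_smul _ hfr x
  rw [mem_cut] at hyK
  obtain ⟨v, hv0, hQv⟩ : ∃ v, v ≠ 0 ∧ Q v ≠ 1 := by
    by_cases h1 : Q x = 1
    · by_cases h3 : Q y = 1
      · refine ⟨y + x, ?_, ?_⟩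
        · intro h
          apply hyne (-1)
          rw [neg_one_smul]
          exact eq_neg_of_add_eq_zero_left h
        · rw [q_add hpol, h1, h3, hyK.2]
          intro h
          have h4 : (1 : F) = 0 := by linear_combination h
          exact one_ne_zero h4
      · exact ⟨y, fun h => hyne 0 (by rw [h, zero_smul]), h3⟩
    · exact ⟨x, hx0, h1⟩
  obtain ⟨z, hz⟩ := S0768.nondeg v hv0
  refine ⟨tvS v 1, fun h => ?_⟩
  have h1 := h z
  rw [q_tv hQ hpol] at h1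
  have h3 : (Cfsg.sympForm m F z v) ^ 2 * (Q v + 1) = 0 := by linear_combination h1
  rcases mul_eq_zero.mp h3 with h4 | h4
  · have h5 : Cfsg.sympForm m F z v = 0 := (pow_eq_zero_iff (by norm_num)).mp h4
    apply hz
    rw [sf_swap, h5, neg_zero]
  · apply hQv
    linear_combination h4 - h2

end quad

/-- For a finite field F of characteristic two and m ≥ 7, let Q be a non-degenerate quadratic form on F^(2m) whose polar form is the standard alternating form. Then the elements of Sp_2m(F) that are similarities of Q (they are exactly the isometries of Q) form a maximal subgroup of Sp_2m(F). -/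
theorem result {F : Type*} [Field F] [Fintype F] (m : ℕ) (hm : 7 ≤ m) (heven : ¬ Odd (Fintype.card F)) (Q : (Fin m ⊕ Fin m → F) → F) (hQ : Cfsg.Geo.IsNondegenerateQuadraticForm Q) (hpol : ∀ u v, QuadraticMap.polar Q u v = Cfsg.sympForm m F u v) : Cfsg.Geo.IsMaximalIn (Cfsg.spGL m F) (Cfsg.Geo.quadSimilarityGroup Q ⊓ Cfsg.spGL m F) := by
  classical
  have h2 : (2 : F) = 0 := by
    have hch : ringChar F = 2 := FiniteField.even_card_iff_char_two.mpr
      (Nat.even_iff.mp (Nat.not_odd_iff_even.mp heven))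
    haveI : CharP F 2 := hch ▸ ringChar.charP F
    exact_mod_cast CharP.cast_eq_zero F 2
  apply maximal_of_core'
  · obtain ⟨A, hA⟩ := exists_noniso (by omega) h2 hQ hpol
    exact ⟨A, fun hmem => hA ((simil_iff (by omega) hQ hpol A).1 hmem)⟩
  · intro M hP hbad
    apply core_quad h2 (by omega) hQ hpol M
    · intro A hA
      exact hP A ((simil_iff (by omega) hQ hpol A).2 hA)
    · obtain ⟨A, hAM, hAn⟩ := hbad
      exact ⟨A, hAM, fun h => hAn ((simil_iff (by omega) hQ hpol A).2 h)⟩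

end Cfsg.Agent.S5652
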