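import Cfsg.Statements.S5656
-- import your own Cfsg.Agent.* helpers here

set_option autoImplicit false
open Cfsg

namespace Cfsg.Agent.S5656


open Matrix

section herm

variable {F : Type*} [Field F] [Fintype F] {n : ℕ}

theorem two_zero (hF : Fintype.card F = 4) : (2 : F) = 0 := by
  have h4 : ((Fintype.card F : ℕ) : F) = 0 := Nat.cast_card_eq_zero F
  rw [hF] at h4
  have h : (2 : F) * 2 = 0 := by
    have e : ((4 : ℕ) : F) = 2 * 2 := by norm_num
    rw [← e]; exact h4
  exact mul_self_eq_zero.mp h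

theorem exists_omega (hF : Fintype.card F = 4) :
    ∃ ω : F, ω ≠ 0 ∧ ω ≠ 1 ∧ ω ^ 2 = ω + 1 := by
  classical
  have h2 := two_zero hF
  have hlt : ({0, 1} : Finset F).card < (Finset.univ : Finset F).card := by
    have := Finset.card_le_two (a := (0 : F)) (b := 1)
    rw [Finset.card_univ, hF]; omega
  obtain ⟨ω, -, hω⟩ := Finset.exists_mem_notMem_of_card_lt_card hlt
  simp only [Finset.mem_insert, Finset.mem_singleton, not_or] at hω
  refine ⟨ω, hω.1, hω.2, ?_⟩
  have h3 : ω ^ 3 = 1 := by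
    have := FiniteField.pow_card_sub_one_eq_one ω hω.1
    rwa [hF] at this
  have hfac : (ω - 1) * (ω ^ 2 + ω + 1) = 0 := by linear_combination h3
  rcases mul_eq_zero.mp hfac with h | h
  · exact absurd (sub_eq_zero.mp h) hω.2
  · linear_combination h - (ω + 1) * h2

theorem add_self4 (hF : Fintype.card F = 4) (x : F) : x + x = 0 := by
  have := two_zero hF
  linear_combination x * this

theorem pow_four (hF : Fintype.card F = 4) (x : F) : x ^ 4 = x := by
  have := FiniteField.pow_card x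
  rwa [hF] at this

theorem pow_three (hF : Fintype.card F = 4) (x : F) (hx : x ≠ 0) : x ^ 3 = 1 := by
  have := FiniteField.pow_card_sub_one_eq_one x hx
  rwa [hF] at this

theorem add_sq4 (hF : Fintype.card F = 4) (x y : F) : (x + y) ^ 2 = x ^ 2 + y ^ 2 := by
  have := two_zero hF
  linear_combination (x * y) * this

theorem h_add_left (u u' v : Fin n → F) :
    Cfsg.hermForm n F 2 (u + u') v = Cfsg.hermForm n F 2 u v + Cfsg.hermForm n F 2 u' v := by
  simp [Cfsg.hermForm, add_mul, Finset.sum_add_distrib]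

theorem h_smul_left (c : F) (u v : Fin n → F) :
    Cfsg.hermForm n F 2 (c • u) v = c * Cfsg.hermForm n F 2 u v := by
  simp [Cfsg.hermForm, Finset.mul_sum, mul_assoc]

theorem h_add_right (hF : Fintype.card F = 4) (u v v' : Fin n → F) :
    Cfsg.hermForm n F 2 u (v + v') = Cfsg.hermForm n F 2 u v + Cfsg.hermForm n F 2 u v' := by
  simp only [Cfsg.hermForm, Pi.add_apply, add_sq4 hF, mul_add, Finset.sum_add_distrib]

theorem h_smul_right (c : F) (u v : Fin n → F) :
    Cfsg.hermForm n F 2 u (c • v) = c ^ 2 * Cfsg.hermForm n F 2 u v := by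
  simp only [Cfsg.hermForm, Pi.smul_apply, smul_eq_mul, mul_pow, Finset.mul_sum]
  exact Finset.sum_congr rfl fun i _ => by ring

theorem h_zero_left (v : Fin n → F) : Cfsg.hermForm n F 2 0 v = 0 := by
  simp [Cfsg.hermForm]

theorem h_zero_right (u : Fin n → F) : Cfsg.hermForm n F 2 u 0 = 0 := by
  simp [Cfsg.hermForm]

theorem h_conj (hF : Fintype.card F = 4) (u v : Fin n → F) :
    Cfsg.hermForm n F 2 v u = (Cfsg.hermForm n F 2 u v) ^ 2 := by
  haveI : CharP F 2 := CharTwo.of_one_ne_zero_of_two_eq_zero one_ne_zero (two_zero hF)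
  haveI : ExpChar F 2 := ExpChar.prime Nat.prime_two
  simp only [Cfsg.hermForm]
  rw [sum_pow_char 2]
  refine Finset.sum_congr rfl fun i _ => ?_
  have h4 := pow_four hF (v i)
  rw [mul_pow, ← pow_mul]
  norm_num
  rw [h4, mul_comm]

theorem h_self01 (hF : Fintype.card F = 4) (v : Fin n → F) :
    Cfsg.hermForm n F 2 v v = 0 ∨ Cfsg.hermForm n F 2 v v = 1 := by
  have h := h_conj hF v v
  have h' : Cfsg.hermForm n F 2 v v * (Cfsg.hermForm n F 2 v v - 1) = 0 := by
    linear_combination -h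
  rcases mul_eq_zero.mp h' with h1 | h1
  · left; exact h1
  · right; exact sub_eq_zero.mp h1

/-- the unitary transvection with parameter one -/
def TT (u : Fin n → F) : Matrix (Fin n) (Fin n) F := Cfsg.unitaryTransvection n 2 u 1

theorem TT_mulVec (u x : Fin n → F) : TT u *ᵥ x = x + Cfsg.hermForm n F 2 x u • u := by
  rw [TT, Cfsg.unitaryTransvection, Matrix.add_mulVec, Matrix.one_mulVec, Matrix.smul_mulVec,
    Matrix.vecMulVec_mulVec, op_smul_eq_smul, one_smul]
  congr 2
  simp only [dotProduct, Cfsg.hermForm]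
  exact Finset.sum_congr rfl fun i _ => mul_comm _ _

theorem TT_sq (hF : Fintype.card F = 4) (u : Fin n → F) (hu : Cfsg.hermForm n F 2 u u = 0) :
    TT u * TT u = 1 := by
  apply Matrix.toLin'.injective
  apply LinearMap.ext
  intro x
  simp only [Matrix.toLin'_mul, LinearMap.comp_apply, Matrix.toLin'_apply, Matrix.toLin'_one,
    LinearMap.id_coe, id_eq, TT_mulVec, h_add_left, h_smul_left, hu, mul_zero, add_zero]
  rw [add_assoc, ← add_smul, add_self4 hF, zero_smul, add_zero]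

/-- the transvection as a unit -/
def tGL (hF : Fintype.card F = 4) (u : Fin n → F) (hu : Cfsg.hermForm n F 2 u u = 0) :
    GL (Fin n) F :=
  ⟨TT u, TT u, TT_sq hF u hu, TT_sq hF u hu⟩

theorem tGL_apply (hF : Fintype.card F = 4) (u : Fin n → F)
    (hu : Cfsg.hermForm n F 2 u u = 0) (x : Fin n → F) :
    ((tGL hF u hu : GL (Fin n) F) : Matrix (Fin n) (Fin n) F) *ᵥ x =
      x + Cfsg.hermForm n F 2 x u • u := TT_mulVec u x

theorem tGL_mem_GU (hF : Fintype.card F = 4) (u : Fin n → F)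
    (hu : Cfsg.hermForm n F 2 u u = 0) : tGL hF u hu ∈ Cfsg.GU n F 2 := by
  intro x y
  show Cfsg.hermForm n F 2 (TT u *ᵥ x) (TT u *ᵥ y) = Cfsg.hermForm n F 2 x y
  simp only [TT_mulVec, h_add_left, h_add_right hF, h_smul_left, h_smul_right, hu]
  rw [h_conj hF y u]
  linear_combination (Cfsg.hermForm n F 2 x u * (Cfsg.hermForm n F 2 y u) ^ 2) * two_zero hF

theorem tGL_mem_SL (hF : Fintype.card F = 4) (u : Fin n → F)
    (hu : Cfsg.hermForm n F 2 u u = 0) : tGL hF u hu ∈ Cfsg.Geo.specialLinear (Fin n) F := by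
  rw [Cfsg.Geo.specialLinear, MonoidHom.mem_ker]
  apply Units.ext
  rw [Matrix.GeneralLinearGroup.val_det_apply]
  show (TT u).det = 1
  have hdot : (fun j => u j ^ 2) ⬝ᵥ u = Cfsg.hermForm n F 2 u u := by
    simp only [dotProduct, Cfsg.hermForm]
    exact Finset.sum_congr rfl fun i _ => mul_comm _ _
  rw [TT, Cfsg.unitaryTransvection, one_smul, Matrix.vecMulVec_eq Unit,
    Matrix.det_one_add_replicateCol_mul_replicateRow, hdot, hu, add_zero]

theorem local_frame (hF : Fintype.card F = 4) (W : Submodule F (Fin n → F))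
    (hfin : Module.finrank F W = 2)
    (hnd : Cfsg.Geo.IsNondegenerateOn (Cfsg.hermForm n F 2) W) :
    ∃ a b : Fin n → F, a ∈ W ∧ b ∈ W ∧ Cfsg.hermForm n F 2 a a = 1 ∧
      Cfsg.hermForm n F 2 b b = 1 ∧ Cfsg.hermForm n F 2 a b = 0 ∧
      Cfsg.hermForm n F 2 b a = 0 ∧ ∀ w ∈ W, ∃ x y : F, w = x • a + y • b := by
  have h1 : ∃ a ∈ W, Cfsg.hermForm n F 2 a a = 1 := by
    by_contra hcon
    push Not at hcon
    have hiso : ∀ v ∈ W, Cfsg.hermForm n F 2 v v = 0 :=
      fun v hv => (h_self01 hF v).resolve_right (hcon v hv)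
    have hnt : Nontrivial W :=
      Module.nontrivial_of_finrank_pos (R := F) (by rw [hfin]; norm_num)
    obtain ⟨⟨w, hw⟩, hw0⟩ := exists_ne (0 : W)
    have hw0' : w ≠ 0 := fun h => hw0 (Subtype.ext h)
    obtain ⟨⟨x, hx, hxw⟩, -⟩ := hnd w hw hw0'
    obtain ⟨ω, hω0, hω1, hω⟩ := exists_omega hF
    have e1 := hiso (x + w) (W.add_mem hx hw)
    have e2 := hiso (x + ω • w) (W.add_mem hx (W.smul_mem ω hw))
    simp only [h_add_left, h_add_right hF, h_smul_left, h_smul_right, hiso x hx, hiso w hw,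
      h_conj hF x w] at e1 e2
    apply hxw
    linear_combination e2 - ω * e1 - Cfsg.hermForm n F 2 x w * hω
  obtain ⟨a, ha, haa⟩ := h1
  have ha0 : a ≠ 0 := by
    rintro rfl
    rw [h_zero_left] at haa
    exact zero_ne_one haa
  have hlt : Submodule.span F {a} < W := by
    refine lt_of_le_of_ne ((Submodule.span_singleton_le_iff_mem a W).mpr ha) ?_
    intro heq
    have := finrank_span_singleton (K := F) ha0
    rw [heq, hfin] at this
    omega
  obtain ⟨w, hw, hwn⟩ := SetLike.exists_of_lt hlt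
  obtain ⟨b, hb⟩ : ∃ b, b = w + Cfsg.hermForm n F 2 w a • a := ⟨_, rfl⟩
  have hbW : b ∈ W := by rw [hb]; exact W.add_mem hw (W.smul_mem _ ha)
  have hba : Cfsg.hermForm n F 2 b a = 0 := by
    rw [hb, h_add_left, h_smul_left, haa, mul_one]
    exact add_self4 hF _
  have hab : Cfsg.hermForm n F 2 a b = 0 := by
    rw [h_conj hF b a, hba]; ring
  have hb0 : b ≠ 0 := by
    intro h0
    apply hwn
    have hw' : w = (-(Cfsg.hermForm n F 2 w a)) • a := by
      rw [neg_smul]
      rw [hb] at h0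
      exact eq_neg_of_add_eq_zero_left h0
    rw [hw']
    exact Submodule.smul_mem _ _ (Submodule.mem_span_singleton_self a)
  have hli : LinearIndependent F ![a, b] := by
    rw [LinearIndependent.pair_iff]
    intro s t hst
    have e := congrArg (fun z => Cfsg.hermForm n F 2 z a) hst
    simp only [h_add_left, h_smul_left, haa, hba, h_zero_left, mul_one, mul_zero, add_zero] at e
    rw [e, zero_smul, zero_add] at hst
    exact ⟨e, (smul_eq_zero.mp hst).resolve_right hb0⟩
  have hspan : Submodule.span F (Set.range ![a, b]) = W := by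
    apply Submodule.eq_of_le_of_finrank_eq
    · rw [Submodule.span_le]
      rintro _ ⟨j, rfl⟩
      fin_cases j
      · exact ha
      · exact hbW
    · rw [finrank_span_eq_card hli, Fintype.card_fin, hfin]
  have hsp : ∀ w ∈ W, ∃ x y : F, w = x • a + y • b := by
    intro w hw
    rw [← hspan, Submodule.mem_span_range_iff_exists_fun] at hw
    obtain ⟨c, hc⟩ := hw
    refine ⟨c 0, c 1, ?_⟩
    rw [← hc, Fin.sum_univ_two]
    rfl
  have hbb : Cfsg.hermForm n F 2 b b = 1 := by
    refine (h_self01 hF b).resolve_left ?_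
    intro hb0'
    obtain ⟨⟨x, hx, hxb⟩, -⟩ := hnd b hbW hb0
    obtain ⟨s, r, rfl⟩ := hsp x hx
    apply hxb
    rw [h_add_left, h_smul_left, h_smul_left, hab, hb0']
    ring
  exact ⟨a, b, ha, hbW, haa, hbb, hab, hba, hsp⟩

end herm

section main

variable {F : Type*} [Field F] [Fintype F] {n : ℕ} (hF : Fintype.card F = 4) {t : ℕ}
  (D : Fin t → Submodule F (Fin n → F)) (a b : Fin t → (Fin n → F))
  (ha : ∀ i, a i ∈ D i) (hb : ∀ i, b i ∈ D i)
  (haa : ∀ i, Cfsg.hermForm n F 2 (a i) (a i) = 1)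
  (hbb : ∀ i, Cfsg.hermForm n F 2 (b i) (b i) = 1)
  (hab : ∀ i, Cfsg.hermForm n F 2 (a i) (b i) = 0)
  (hba : ∀ i, Cfsg.hermForm n F 2 (b i) (a i) = 0)
  (hspan : ∀ i, ∀ w ∈ D i, ∃ x y : F, w = x • a i + y • b i)
  (horth : ∀ i j, i ≠ j → Cfsg.Geo.AreOrthogonalFor (Cfsg.hermForm n F 2) (D i) (D j))

/-- the norm-one vectors lying in a member of the decomposition -/
def XX (D : Fin t → Submodule F (Fin n → F)) : Set (Fin n → F) :=
  {v | ∃ i, v ∈ D i ∧ Cfsg.hermForm n F 2 v v = 1}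

include ha haa horth in
theorem Haa (i j : Fin t) : Cfsg.hermForm n F 2 (a i) (a j) = if i = j then 1 else 0 := by
  by_cases h : i = j
  · subst h; rw [if_pos rfl]; exact haa i
  · rw [if_neg h]; exact horth i j h _ (ha i) _ (ha j)

include hb hbb horth in
theorem Hbb (i j : Fin t) : Cfsg.hermForm n F 2 (b i) (b j) = if i = j then 1 else 0 := by
  by_cases h : i = j
  · subst h; rw [if_pos rfl]; exact hbb i
  · rw [if_neg h]; exact horth i j h _ (hb i) _ (hb j)

include ha hb hab horth in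
theorem Hab (i j : Fin t) : Cfsg.hermForm n F 2 (a i) (b j) = 0 := by
  by_cases h : i = j
  · subst h; exact hab i
  · exact horth i j h _ (ha i) _ (hb j)

include ha hb hba horth in
theorem Hba (i j : Fin t) : Cfsg.hermForm n F 2 (b i) (a j) = 0 := by
  by_cases h : i = j
  · subst h; exact hba i
  · exact horth i j h _ (hb i) _ (ha j)

include hF haa hbb hab hba hspan in
theorem classify (i : Fin t) (v : Fin n → F) (hv : v ∈ D i)
    (hn : Cfsg.hermForm n F 2 v v = 1) : ∃ c : F, c ≠ 0 ∧ (v = c • a i ∨ v = c • b i) := by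
  obtain ⟨x, y, rfl⟩ := hspan i v hv
  have e : Cfsg.hermForm n F 2 (x • a i + y • b i) (x • a i + y • b i) = x ^ 3 + y ^ 3 := by
    simp only [h_add_left, h_add_right hF, h_smul_left, h_smul_right, haa, hbb, hab, hba]
    ring
  rw [e] at hn
  by_cases hx : x = 0
  · by_cases hy : y = 0
    · exfalso
      rw [hx, hy] at hn
      norm_num at hn
    · exact ⟨y, hy, Or.inr (by rw [hx, zero_smul, zero_add])⟩
  · by_cases hy : y = 0
    · exact ⟨x, hx, Or.inl (by rw [hy, zero_smul, add_zero])⟩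
    · exfalso
      rw [pow_three hF x hx, pow_three hF y hy] at hn
      have h2 := two_zero hF
      exact one_ne_zero (α := F) (by linear_combination -hn + h2)

theorem XX_smul (hF : Fintype.card F = 4) (D : Fin t → Submodule F (Fin n → F))
    (v : Fin n → F) (hv : v ∈ XX D) (c : F) (hc : c ≠ 0) : c • v ∈ XX D := by
  obtain ⟨i, hvi, hn⟩ := hv
  refine ⟨i, (D i).smul_mem c hvi, ?_⟩
  rw [h_smul_left, h_smul_right, hn, mul_one, ← pow_succ']
  exact pow_three hF c hc

include horth in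
theorem uniq (j i : Fin t) (v w : Fin n → F) (hv : v ∈ D j) (hw : w ∈ D i)
    (hne : Cfsg.hermForm n F 2 v w ≠ 0) : j = i := by
  by_contra h
  exact hne (horth j i h v hv w hw)

theorem stab_of_invol (X : Set (Fin n → F)) (g : GL (Fin n) F)
    (hg : (g : Matrix (Fin n) (Fin n) F) * (g : Matrix (Fin n) (Fin n) F) = 1)
    (hfwd : ∀ v ∈ X, (g : Matrix (Fin n) (Fin n) F) *ᵥ v ∈ X) :
    g ∈ Cfsg.stabilizing (Cfsg.glToMat (Fin n) F) X := by
  intro v
  constructor
  · exact hfwd v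
  · intro hv
    have h := hfwd _ hv
    have e : (g : Matrix (Fin n) (Fin n) F) *ᵥ (Cfsg.glToMat (Fin n) F g *ᵥ v) = v := by
      show (g : Matrix (Fin n) (Fin n) F) *ᵥ ((g : Matrix (Fin n) (Fin n) F) *ᵥ v) = v
      rw [Matrix.mulVec_mulVec, hg, Matrix.one_mulVec]
    rw [e] at h
    exact h

theorem stabD_le (D : Fin t → Submodule F (Fin n → F)) (g : GL (Fin n) F)
    (hg : g ∈ Cfsg.Geo.decompositionStabilizer D) (hu : g ∈ Cfsg.GU n F 2) :
    g ∈ Cfsg.stabilizing (Cfsg.glToMat (Fin n) F) (XX D) := by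
  obtain ⟨σ, hσ⟩ := hg
  have hu' : ∀ u v, Cfsg.hermForm n F 2 ((g : Matrix (Fin n) (Fin n) F) *ᵥ u)
      ((g : Matrix (Fin n) (Fin n) F) *ᵥ v) = Cfsg.hermForm n F 2 u v := hu
  intro v
  show v ∈ XX D ↔ (g : Matrix (Fin n) (Fin n) F) *ᵥ v ∈ XX D
  constructor
  · rintro ⟨i, hv, hn⟩
    refine ⟨σ i, ?_, ?_⟩
    · rw [← hσ i]
      exact ⟨v, hv, Matrix.toLin'_apply _ _⟩
    · rw [hu']; exact hn
  · rintro ⟨j, hv, hn⟩
    refine ⟨σ.symm j, ?_, ?_⟩
    · have hj : D j = D (σ (σ.symm j)) := by rw [Equiv.apply_symm_apply]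
      rw [hj, ← hσ (σ.symm j)] at hv
      obtain ⟨w, hw, hwv⟩ := hv
      rw [Matrix.toLin'_apply] at hwv
      have e : w = v := by
        have h1 := congrArg (fun z => ((g⁻¹ : GL (Fin n) F) : Matrix (Fin n) (Fin n) F) *ᵥ z) hwv
        simp only [Matrix.mulVec_mulVec, ← Units.val_mul, inv_mul_cancel, Units.val_one,
          Matrix.one_mulVec] at h1
        exact h1
      rw [← e]; exact hw
    · rw [hu'] at hn; exact hn

include hF ha haa horth in
theorem iso1 (i₁ i₂ : Fin t) (h12 : i₁ ≠ i₂) :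
    Cfsg.hermForm n F 2 (a i₁ + a i₂) (a i₁ + a i₂) = 0 := by
  simp only [h_add_left, h_add_right hF, Haa D a ha haa horth, if_pos, if_neg h12,
    if_neg (Ne.symm h12)]
  have h2 := two_zero hF
  linear_combination h2

include hF ha hb haa hbb hab hba horth in
theorem iso2 (i₁ i₂ : Fin t) (h12 : i₁ ≠ i₂) :
    Cfsg.hermForm n F 2 (a i₁ + b i₁ + a i₂ + b i₂) (a i₁ + b i₁ + a i₂ + b i₂) = 0 := by
  simp only [h_add_left, h_add_right hF, Haa D a ha haa horth, Hbb D b hb hbb horth,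
    Hab D a b ha hb hab horth, Hba D a b ha hb hba horth, if_pos, if_neg h12,
    if_neg (Ne.symm h12)]
  have h2 := two_zero hF
  linear_combination 2 * h2

include hF ha hb haa hbb hab hba hspan horth in
theorem T1_mem (i₁ i₂ : Fin t) (h12 : i₁ ≠ i₂) :
    tGL hF (a i₁ + a i₂) (iso1 hF D a ha haa horth i₁ i₂ h12) ∈
      Cfsg.stabilizing (Cfsg.glToMat (Fin n) F) (XX D) := by
  apply stab_of_invol _ _ (TT_sq hF _ (iso1 hF D a ha haa horth i₁ i₂ h12))
  rintro v ⟨i, hv, hn⟩
  obtain ⟨c, hc, rfl | rfl⟩ := classify hF D a b haa hbb hab hba hspan i v hv hn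
  · rw [Matrix.mulVec_smul]
    apply XX_smul hF D _ _ c hc
    rw [tGL_apply, h_add_right hF, Haa D a ha haa horth, Haa D a ha haa horth]
    by_cases h1 : i = i₁
    · subst h1
      rw [if_pos rfl, if_neg h12, add_zero, one_smul, ← add_assoc]
      have e : a i + a i + a i₂ = a i₂ := by
        have : a i + a i = 0 := by
          ext k; simp only [Pi.add_apply, Pi.zero_apply]; exact add_self4 hF _
        rw [this, zero_add]
      rw [e]
      exact ⟨i₂, ha i₂, haa i₂⟩
    · by_cases h2 : i = i₂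
      · subst h2
        rw [if_neg h1, if_pos rfl, zero_add, one_smul, add_comm (a i₁), ← add_assoc]
        have e : a i + a i + a i₁ = a i₁ := by
          have : a i + a i = 0 := by
            ext k; simp only [Pi.add_apply, Pi.zero_apply]; exact add_self4 hF _
          rw [this, zero_add]
        rw [e]
        exact ⟨i₁, ha i₁, haa i₁⟩
      · rw [if_neg h1, if_neg h2, add_zero, zero_smul, add_zero]
        exact ⟨i, ha i, haa i⟩
  · rw [Matrix.mulVec_smul]
    apply XX_smul hF D _ _ c hc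
    rw [tGL_apply, h_add_right hF, Hba D a b ha hb hba horth, Hba D a b ha hb hba horth,
      add_zero, zero_smul, add_zero]
    exact ⟨i, hb i, hbb i⟩

include hF ha hb haa hbb hba horth in
theorem T1_not_stab (i₁ i₂ : Fin t) (h12 : i₁ ≠ i₂) :
    tGL hF (a i₁ + a i₂) (iso1 hF D a ha haa horth i₁ i₂ h12) ∉
      Cfsg.Geo.decompositionStabilizer D := by
  rintro ⟨σ, hσ⟩
  have m1 : (tGL hF (a i₁ + a i₂) (iso1 hF D a ha haa horth i₁ i₂ h12) :
      Matrix (Fin n) (Fin n) F) *ᵥ a i₁ ∈ D (σ i₁) := by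
    rw [← hσ i₁]
    exact ⟨a i₁, ha i₁, Matrix.toLin'_apply _ _⟩
  have m2 : (tGL hF (a i₁ + a i₂) (iso1 hF D a ha haa horth i₁ i₂ h12) :
      Matrix (Fin n) (Fin n) F) *ᵥ b i₁ ∈ D (σ i₁) := by
    rw [← hσ i₁]
    exact ⟨b i₁, hb i₁, Matrix.toLin'_apply _ _⟩
  rw [tGL_apply, h_add_right hF, Haa D a ha haa horth, Haa D a ha haa horth, if_pos rfl,
    if_neg h12, add_zero, one_smul] at m1
  rw [tGL_apply, h_add_right hF, Hba D a b ha hb hba horth, Hba D a b ha hb hba horth,
    add_zero, zero_smul, add_zero] at m2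
  have j1 : σ i₁ = i₂ := by
    apply uniq D horth _ _ _ (a i₂) m1 (ha i₂)
    rw [h_add_left, h_add_left, Haa D a ha haa horth, Haa D a ha haa horth, if_neg h12,
      if_pos rfl]
    simp
  have j2 : σ i₁ = i₁ := by
    apply uniq D horth _ _ _ (b i₁) m2 (hb i₁)
    rw [hbb]
    exact one_ne_zero
  exact h12 (j2.symm.trans j1)

include hF ha hb haa hbb hab hba horth in
theorem T2_not_mem (i₁ i₂ : Fin t) (h12 : i₁ ≠ i₂) :
    tGL hF (a i₁ + b i₁ + a i₂ + b i₂)
      (iso2 hF D a b ha hb haa hbb hab hba horth i₁ i₂ h12) ∉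
      Cfsg.stabilizing (Cfsg.glToMat (Fin n) F) (XX D) := by
  intro hmem
  have h1 : (tGL hF (a i₁ + b i₁ + a i₂ + b i₂)
      (iso2 hF D a b ha hb haa hbb hab hba horth i₁ i₂ h12) :
      Matrix (Fin n) (Fin n) F) *ᵥ a i₁ ∈ XX D := (hmem (a i₁)).mp ⟨i₁, ha i₁, haa i₁⟩
  rw [tGL_apply] at h1
  simp only [h_add_right hF, Haa D a ha haa horth, Hab D a b ha hb hab horth, if_pos,
    if_neg h12, add_zero, one_smul] at h1
  obtain ⟨j, hz, -⟩ := h1
  have j1 : j = i₁ := by
    apply uniq D horth _ _ _ (b i₁) hz (hb i₁)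
    simp only [h_add_left, Hab D a b ha hb hab horth, Hbb D b hb hbb horth, if_pos,
      if_neg (Ne.symm h12)]
    simp
  have j2 : j = i₂ := by
    apply uniq D horth _ _ _ (a i₂) hz (ha i₂)
    simp only [h_add_left, Haa D a ha haa horth, Hba D a b ha hb hba horth, if_pos,
      if_neg h12]
    simp
  exact h12 (j1.symm.trans j2)

end main

/-- Let F be the field with 4 elements (q = 2) and n ≥ 13. Let D be a decomposition of F^n into t pairwise orthogonal 2-dimensional subspaces, each non-degenerate for the standard unitary form Σ u_i v_i². Then the elements of SU_n(2) permuting the members of D form a subgroup that is not maximal: some subgroup lies strictly between it and SU_n(2). -/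
theorem result {F : Type*} [Field F] [Fintype F] (n : ℕ) (hF : Fintype.card F = 4) (hn : 13 ≤ n) {t : ℕ} (D : Fin t → Submodule F (Fin n → F)) (hD : Cfsg.Geo.IsNondegenerateMDecomposition (Cfsg.hermForm n F 2) 2 D) : ∃ K : Subgroup (Matrix.GeneralLinearGroup (Fin n) F), Cfsg.Geo.decompositionStabilizer D ⊓ (Cfsg.GU n F 2 ⊓ Cfsg.Geo.specialLinear (Fin n) F) < K ∧ K < (Cfsg.GU n F 2 ⊓ Cfsg.Geo.specialLinear (Fin n) F) := by
  have ht : 2 ≤ t := hD.decomp.two_le
  have hloc : ∀ i, ∃ a b : Fin n → F, a ∈ D i ∧ b ∈ D i ∧ Cfsg.hermForm n F 2 a a = 1 ∧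
      Cfsg.hermForm n F 2 b b = 1 ∧ Cfsg.hermForm n F 2 a b = 0 ∧
      Cfsg.hermForm n F 2 b a = 0 ∧ ∀ w ∈ D i, ∃ x y : F, w = x • a + y • b :=
    fun i => local_frame hF (D i) (hD.decomp.finrank_eq i) (hD.nondegenerate i)
  choose a b ha hb haa hbb hab hba hspan using hloc
  have horth := hD.orthogonal
  have h12 : (⟨0, by omega⟩ : Fin t) ≠ ⟨1, by omega⟩ := by
    intro h; simp [Fin.ext_iff] at h
  refine ⟨Cfsg.stabilizing (Cfsg.glToMat (Fin n) F) (XX D) ⊓
    (Cfsg.GU n F 2 ⊓ Cfsg.Geo.specialLinear (Fin n) F), ?_, ?_⟩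
  · rw [SetLike.lt_iff_le_and_exists]
    refine ⟨fun g hg => ⟨stabD_le D g hg.1 hg.2.1, hg.2⟩,
      tGL hF (a ⟨0, by omega⟩ + a ⟨1, by omega⟩) (iso1 hF D a ha haa horth _ _ h12),
      ⟨T1_mem hF D a b ha hb haa hbb hab hba hspan horth _ _ h12,
        tGL_mem_GU hF _ _, tGL_mem_SL hF _ _⟩, fun hmem => ?_⟩
    exact T1_not_stab hF D a b ha hb haa hbb hba horth _ _ h12 hmem.1
  · rw [SetLike.lt_iff_le_and_exists]
    exact ⟨inf_le_right, tGL hF (a ⟨0, by omega⟩ + b ⟨0, by omega⟩ + a ⟨1, by omega⟩ +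
        b ⟨1, by omega⟩) (iso2 hF D a b ha hb haa hbb hab hba horth _ _ h12),
      ⟨tGL_mem_GU hF _ _, tGL_mem_SL hF _ _⟩,
      fun hmem => T2_not_mem hF D a b ha hb haa hbb hab hba horth _ _ h12 hmem.1⟩

end Cfsg.Agent.S5656
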