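import Mathlib
import Cfsg.Statements.S5657
import Cfsg.Agent.Helper6.UnitMax
import Cfsg.Agent.S5646

set_option autoImplicit false
open Cfsg

namespace Cfsg.Agent.S5657

open Matrix Cfsg.Agent.Helper3 Cfsg.Agent.Helper16 Cfsg.Agent.Helper6

variable {F : Type*} [Field F] [Fintype F] {n q : ℕ}

/-- a pair of complementary totally isotropic subspaces of dimension `k` -/
structure ULag (q k : ℕ) (X Y : Submodule F (Fin n → F)) : Prop where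
  tiX : ∀ u ∈ X, ∀ v ∈ X, Cfsg.hermForm n F q u v = 0
  tiY : ∀ u ∈ Y, ∀ v ∈ Y, Cfsg.hermForm n F q u v = 0
  dec : ∀ v, ∃ x ∈ X, ∃ y ∈ Y, x + y = v
  frX : Module.finrank F X = k
  frY : Module.finrank F Y = k

theorem ULag.symm {k : ℕ} {X Y : Submodule F (Fin n → F)} (L : ULag q k X Y) : ULag q k Y X :=
  ⟨L.tiY, L.tiX, fun v => by
    obtain ⟨x, hx, y, hy, h⟩ := L.dec v
    exact ⟨y, hy, x, hx, by rw [add_comm]; exact h⟩, L.frY, L.frX⟩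

theorem ULag.pair {k : ℕ} {X Y : Submodule F (Fin n → F)} (L : ULag q k X Y) (Φ : Frob F q)
    (x : Fin n → F) (hx : x ∈ X) (hx0 : x ≠ 0) : ∃ y ∈ Y, Cfsg.hermForm n F q x y ≠ 0 := by
  obtain ⟨w, hw⟩ := um_nondeg' Φ x hx0
  obtain ⟨x', hx', y', hy', rfl⟩ := L.dec w
  rw [uherm_add_right Φ, L.tiX x hx x' hx', zero_add] at hw
  exact ⟨y', hy', hw⟩

theorem ULag.disj {k : ℕ} {X Y : Submodule F (Fin n → F)} (L : ULag q k X Y) (Φ : Frob F q)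
    (v : Fin n → F) (h1 : v ∈ X) (h2 : v ∈ Y) : v = 0 := by
  by_contra h0
  obtain ⟨y, hy, hne⟩ := L.pair Φ v h1 h0
  exact hne (L.tiY v h2 y hy)

theorem ULag.sep {k : ℕ} {X Y : Submodule F (Fin n → F)} (L : ULag q k X Y) (Φ : Frob F q)
    (u w : Fin n → F) (hu : u ∈ X) (hw : w ∈ X) (hne : ∀ c : F, w ≠ c • u) :
    ∃ b ∈ Y, Cfsg.hermForm n F q b u = 0 ∧ Cfsg.hermForm n F q b w ≠ 0 := by
  by_cases hu0 : u = 0
  · have hw0 : w ≠ 0 := by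
      intro h
      apply hne 0
      rw [h, zero_smul]
    obtain ⟨y, hy, hne'⟩ := L.pair Φ w hw hw0
    exact ⟨y, hy, by rw [hu0, uherm_zero_right Φ], um_ne_symm Φ w y hne'⟩
  · obtain ⟨y₁, hy₁, h1⟩ := L.pair Φ u hu hu0
    have h1' := um_ne_symm Φ u y₁ h1
    obtain ⟨w', hw'def⟩ : ∃ w', w' = w
        - (Cfsg.hermForm n F q w y₁ / Cfsg.hermForm n F q u y₁) • u := ⟨_, rfl⟩
    have hw'X : w' ∈ X := by rw [hw'def]; exact X.sub_mem hw (X.smul_mem _ hu)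
    have hw'0 : w' ≠ 0 := by
      rw [hw'def]
      intro h
      exact hne _ (sub_eq_zero.mp h)
    have hw'y₁ : Cfsg.hermForm n F q w' y₁ = 0 := by
      rw [hw'def, uherm_sub_left, uherm_smul_left, div_mul_cancel₀ _ h1, sub_self]
    obtain ⟨y₂, hy₂, h2⟩ := L.pair Φ w' hw'X hw'0
    obtain ⟨b, hbdef⟩ : ∃ b, b = y₂
        - (Cfsg.hermForm n F q y₂ u / Cfsg.hermForm n F q y₁ u) • y₁ := ⟨_, rfl⟩
    have hbu : Cfsg.hermForm n F q b u = 0 := by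
      rw [hbdef, uherm_sub_left, uherm_smul_left, div_mul_cancel₀ _ h1', sub_self]
    have hub : Cfsg.hermForm n F q u b = 0 := um_symm Φ b u hbu
    refine ⟨b, by rw [hbdef]; exact Y.sub_mem hy₂ (Y.smul_mem _ hy₁), hbu, ?_⟩
    apply um_ne_symm Φ
    have e : Cfsg.hermForm n F q w' b = Cfsg.hermForm n F q w b := by
      rw [hw'def, uherm_sub_left, uherm_smul_left, hub, mul_zero, sub_zero]
    have e2 : Cfsg.hermForm n F q w' b = Cfsg.hermForm n F q w' y₂ := by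
      rw [hbdef, uherm_sub_right Φ, uherm_smul_right Φ, hw'y₁, mul_zero, sub_zero]
    rw [← e, e2]
    exact h2

theorem ULag.e3 {k : ℕ} {X Y : Submodule F (Fin n → F)} (L : ULag q k X Y) (Φ : Frob F q)
    (v x' : Fin n → F) (hv : v ∈ X) (hx' : x' ∈ X) (hv0 : v ≠ 0)
    (hne : ∀ c : F, x' ≠ c • v) :
    ∃ y ∈ Y, Cfsg.hermForm n F q v y = 1 ∧ Cfsg.hermForm n F q x' y = 1 := by
  have hne' : ∀ c : F, v ≠ c • x' := by
    intro c h
    have hc : c ≠ 0 := by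
      rintro rfl
      rw [zero_smul] at h
      exact hv0 h
    apply hne c⁻¹
    rw [h, smul_smul, inv_mul_cancel₀ hc, one_smul]
  obtain ⟨b₁, hb₁, h11, h12⟩ := L.sep Φ v x' hv hx' hne
  obtain ⟨b₂, hb₂, h21, h22⟩ := L.sep Φ x' v hx' hv hne'
  have h11' : Cfsg.hermForm n F q v b₁ = 0 := um_symm Φ b₁ v h11
  have h21' : Cfsg.hermForm n F q x' b₂ = 0 := um_symm Φ b₂ x' h21
  refine ⟨(Cfsg.hermForm n F q b₁ x')⁻¹ • b₁ + (Cfsg.hermForm n F q b₂ v)⁻¹ • b₂,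
    Y.add_mem (Y.smul_mem _ hb₁) (Y.smul_mem _ hb₂), ?_, ?_⟩
  · rw [uherm_add_right Φ, uherm_smul_right Φ, uherm_smul_right Φ, h11', mul_zero, zero_add,
      map_inv₀, uherm_conj Φ, inv_mul_cancel₀ (um_ne_symm Φ b₂ v h22)]
  · rw [uherm_add_right Φ, uherm_smul_right Φ, uherm_smul_right Φ, h21', mul_zero, add_zero,
      map_inv₀, uherm_conj Φ, inv_mul_cancel₀ (um_ne_symm Φ b₁ x' h12)]

/-- the hypothesis that `M` contains the Siegel elements of the pair `(X, Y)` -/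
def UHP (Φ : Frob F q) (M : Subgroup ↥(Cfsg.SU n F q)) (X Y : Submodule F (Fin n → F)) : Prop :=
  ∀ a ∈ X, ∀ b ∈ Y, Cfsg.hermForm n F q a b = 0 → uPp Φ M a b

theorem UHP.symm {Φ : Frob F q} {M : Subgroup ↥(Cfsg.SU n F q)}
    {X Y : Submodule F (Fin n → F)} (h : UHP Φ M X Y) : UHP Φ M Y X := by
  intro a ha b hb hab
  exact uPp_symm Φ M b a (h b hb a ha (um_symm Φ a b hab))

theorem ucaseA (hF : Fintype.card F = q ^ 2) (Φ : Frob F q) {k : ℕ} (hk : 5 ≤ k)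
    {X Y : Submodule F (Fin n → F)} (L : ULag q k X Y) (M : Subgroup ↥(Cfsg.SU n F q))
    (hHP : UHP Φ M X Y) (a₁ b₁ a₂ b₂ : Fin n → F) (ha₁ : a₁ ∈ X) (hb₁ : b₁ ∈ X) (ha₂ : a₂ ∈ Y)
    (hb₂ : b₂ ∈ Y) (hP : uPp Φ M (a₁ + a₂) (b₁ + b₂)) (ha₁0 : a₁ ≠ 0)
    (hne : ∀ c : F, b₁ ≠ c • a₁) : ∃ a ∈ X, a ≠ 0 ∧ a ∈ udirs Φ M := by
  obtain ⟨b, hbY, hba₁, hbb₁⟩ := L.sep Φ a₁ b₁ ha₁ hb₁ hne
  have hfr : 2 ≤ Module.finrank F (ucut q (ucut q (ucut q X a₂) b₂) b) := by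
    have h1 := ucut_finrank (q := q) X a₂
    have h2 := ucut_finrank (q := q) (ucut q X a₂) b₂
    have h3 := ucut_finrank (q := q) (ucut q (ucut q X a₂) b₂) b
    have h4 := L.frX
    omega
  obtain ⟨a, haK, hane⟩ := exists_not_smul' _ hfr a₁
  rw [mem_ucut, mem_ucut, mem_ucut] at haK
  obtain ⟨⟨⟨haX, haa₂⟩, hab₂⟩, hab⟩ := haK
  have ha0 : a ≠ 0 := by
    intro h
    apply hane 0
    rw [h, zero_smul]
  have haa' : Cfsg.hermForm n F q a (a₁ + a₂) = 0 := by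
    rw [uherm_add_right Φ, L.tiX a haX a₁ ha₁, haa₂, add_zero]
  have hab' : Cfsg.hermForm n F q a (b₁ + b₂) = 0 := by
    rw [uherm_add_right Φ, L.tiX a haX b₁ hb₁, hab₂, add_zero]
  have hba' : Cfsg.hermForm n F q b (a₁ + a₂) = 0 := by
    rw [uherm_add_right Φ, hba₁, L.tiY b hbY a₂ ha₂, add_zero]
  have hβ : Cfsg.hermForm n F q b (b₁ + b₂) ≠ 0 := by
    rw [uherm_add_right Φ, L.tiY b hbY b₂ hb₂, add_zero]
    exact hbb₁
  have hPaa' : uPp Φ M a (a₁ + a₂) :=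
    uPp_of_rel2 hF Φ M a b (a₁ + a₂) (b₁ + b₂) haa' hab' hba' hβ (hHP a haX b hbY hab) hP
  have hne2 : ∀ c : F, a₁ ≠ c • a := by
    intro c h
    have hc : c ≠ 0 := by
      rintro rfl
      rw [zero_smul] at h
      exact ha₁0 h
    apply hane c⁻¹
    rw [h, smul_smul, inv_mul_cancel₀ hc, one_smul]
  obtain ⟨b₃, hb₃Y, hb₃a, hb₃a₁⟩ := L.sep Φ a a₁ haX ha₁ hne2
  have hab₃ : Cfsg.hermForm n F q a b₃ = 0 := um_symm Φ b₃ a hb₃a
  have hβ' : Cfsg.hermForm n F q (a₁ + a₂) b₃ ≠ 0 := by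
    rw [uherm_add_left, L.tiY a₂ ha₂ b₃ hb₃Y, add_zero]
    exact um_ne_symm Φ b₃ a₁ hb₃a₁
  exact ⟨a, haX, ha0, udir_of_rel1 hF Φ M a (a₁ + a₂) b₃ (L.tiX a haX a haX) hPaa'.2.1
    (L.tiY b₃ hb₃Y b₃ hb₃Y) haa' hab₃ hβ' (fun c _ g hg => hPaa'.2.2.2 c g hg)
    (hHP a haX b₃ hb₃Y hab₃).2.2.2⟩

theorem ucaseC (hF : Fintype.card F = q ^ 2) (Φ : Frob F q) {k : ℕ} (hk : 5 ≤ k)
    {X Y : Submodule F (Fin n → F)} (L : ULag q k X Y) (M : Subgroup ↥(Cfsg.SU n F q))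
    (hHP : UHP Φ M X Y) (x₁ y₁ : Fin n → F) (hx₁ : x₁ ∈ X) (hy₁ : y₁ ∈ Y) (hx₁0 : x₁ ≠ 0)
    (hy₁0 : y₁ ≠ 0) (hxy : Cfsg.hermForm n F q x₁ y₁ = 0) (α β γ δ : F)
    (hP : uPp Φ M (α • x₁ + β • y₁) (γ • x₁ + δ • y₁)) (hnz : α * γ ≠ 0 ∨ β * δ ≠ 0) :
    ∃ v, v ≠ 0 ∧ (v ∈ X ∨ v ∈ Y) ∧ v ∈ udirs Φ M := by
  have hNx := L.tiX x₁ hx₁ x₁ hx₁
  have hNy := L.tiY y₁ hy₁ y₁ hy₁
  have hQ : ∀ c : F, ∀ t₁ t₂ : ↥(Cfsg.SU n F q),
      IsUt t₁ x₁ (c * Φ.φ α * γ - Φ.φ c * Φ.φ γ * α) →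
      IsUt t₂ y₁ (c * Φ.φ β * δ - Φ.φ c * Φ.φ δ * β) → t₁ * t₂ ∈ M := by
    intro c t₁ t₂ ht₁ ht₂
    obtain ⟨g, hg⟩ := exists_sg hF Φ (α • x₁ + β • y₁) (γ • x₁ + δ • y₁) hP.1 hP.2.1 hP.2.2.1 c
    obtain ⟨g₀, hg₀⟩ := exists_sg hF Φ x₁ y₁ hNx hNy hxy (c * Φ.φ α * δ - Φ.φ c * Φ.φ γ * β)
    have h1 := sg_prod Φ x₁ y₁ hNx hNy hxy α β γ δ c g g₀ t₁ t₂ hg hg₀ ht₁ ht₂
    have h2 : t₁ * t₂ = g₀⁻¹ * g := by rw [h1, mul_assoc, inv_mul_cancel_left]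
    rw [h2]
    exact M.mul_mem (M.inv_mem ((hHP x₁ hx₁ y₁ hy₁ hxy).2.2.2 _ g₀ hg₀)) (hP.2.2.2 c g hg)
  have hsolve : ∀ p r : F, p * r ≠ 0 → ∀ e : F, e + Φ.φ e = 0 →
      ∃ c : F, c * Φ.φ p * r - Φ.φ c * Φ.φ r * p = e := by
    intro p r hpr e he
    have hp0 : p ≠ 0 := left_ne_zero_of_mul hpr
    have hr0 : r ≠ 0 := right_ne_zero_of_mul hpr
    have hφp : Φ.φ p ≠ 0 := (map_ne_zero Φ.φ).mpr hp0
    obtain ⟨z, hz⟩ := exists_skew_sub hF Φ e he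
    refine ⟨z / (Φ.φ p * r), ?_⟩
    have e1 : z / (Φ.φ p * r) * Φ.φ p * r = z := by field_simp
    have e2 := congrArg Φ.φ e1
    rw [map_mul, map_mul, Φ.hφ2] at e2
    rw [e1]
    linear_combination hz - e2
  by_cases hβδ : β * δ = 0
  · have hαγ : α * γ ≠ 0 := hnz.resolve_right (not_not.mpr hβδ)
    refine ⟨x₁, hx₁0, Or.inl hx₁, hNx, ?_⟩
    intro e he t ht
    obtain ⟨c, hc⟩ := hsolve α γ hαγ e he
    have h0 : c * Φ.φ β * δ - Φ.φ c * Φ.φ δ * β = 0 := by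
      rcases mul_eq_zero.mp hβδ with h | h
      · rw [h, map_zero]; ring
      · rw [h, map_zero]; ring
    have h := hQ c t 1 (by rw [hc]; exact ht) (by rw [h0]; exact isUt_one y₁)
    rwa [mul_one] at h
  by_cases hαγ : α * γ = 0
  · refine ⟨y₁, hy₁0, Or.inr hy₁, hNy, ?_⟩
    intro e he t ht
    obtain ⟨c, hc⟩ := hsolve β δ hβδ e he
    have h0 : c * Φ.φ α * γ - Φ.φ c * Φ.φ γ * α = 0 := by
      rcases mul_eq_zero.mp hαγ with h | h
      · rw [h, map_zero]; ring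
      · rw [h, map_zero]; ring
    have h := hQ c 1 t (by rw [h0]; exact isUt_one x₁) (by rw [hc]; exact ht)
    rwa [one_mul] at h
  have hQ' : ∀ e : F, e + Φ.φ e = 0 → ∀ t₂ : ↥(Cfsg.SU n F q), IsUt t₂ y₁ e →
      ∃ (t₁ : ↥(Cfsg.SU n F q)) (s : F), IsUt t₁ x₁ s ∧ t₁ * t₂ ∈ M := by
    intro e he t₂ ht₂
    obtain ⟨c, hc⟩ := hsolve β δ hβδ e he
    have hs : (c * Φ.φ α * γ - Φ.φ c * Φ.φ γ * α)
        + Φ.φ (c * Φ.φ α * γ - Φ.φ c * Φ.φ γ * α) = 0 := by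
      simp only [map_sub, map_mul, Φ.hφ2]
      ring
    obtain ⟨t₁, ht₁⟩ := exists_ut Φ x₁ _ hNx hs
    exact ⟨t₁, _, ht₁, hQ c t₁ t₂ ht₁ (by rw [hc]; exact ht₂)⟩
  obtain ⟨x₀, hx₀X, hx₀⟩ := L.symm.pair Φ y₁ hy₁ hy₁0
  obtain ⟨x, hxdef⟩ : ∃ x, x = (Φ.φ (Cfsg.hermForm n F q y₁ x₀))⁻¹ • x₀ := ⟨_, rfl⟩
  have hxX : x ∈ X := by rw [hxdef]; exact X.smul_mem _ hx₀X
  have hy₁x : Cfsg.hermForm n F q y₁ x = 1 := by
    rw [hxdef, uherm_smul_right Φ, map_inv₀, Φ.hφ2, inv_mul_cancel₀ hx₀]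
  have hfr : 2 ≤ Module.finrank F (ucut q (ucut q Y x) x₁) := by
    have h1 := ucut_finrank (q := q) Y x
    have h3 := ucut_finrank (q := q) (ucut q Y x) x₁
    have h4 := L.frY
    omega
  obtain ⟨y, hyK, hyne⟩ := exists_not_smul' _ hfr y₁
  rw [mem_ucut, mem_ucut] at hyK
  obtain ⟨⟨hyY, hyx⟩, hyx₁⟩ := hyK
  have hy0 : y ≠ 0 := by
    intro h
    apply hyne 0
    rw [h, zero_smul]
  have hxy' : Cfsg.hermForm n F q x y = 0 := um_symm Φ y x hyx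
  have hx₁y : Cfsg.hermForm n F q x₁ y = 0 := um_symm Φ y x₁ hyx₁
  have hNxx := L.tiX x hxX x hxX
  have hNyy := L.tiY y hyY y hyY
  obtain ⟨gS, hgS⟩ := exists_sg hF Φ x y hNxx hNyy hxy' 1
  have hgSM : gS ∈ M := (hHP x hxX y hyY hxy').2.2.2 1 gS hgS
  have e1 : sact gS x₁ = x₁ := by
    rw [hgS x₁, L.tiX x₁ hx₁ x hxX, hx₁y, mul_zero, mul_zero, zero_smul, zero_smul, add_zero,
      sub_zero]
  have e2 : sact gS y₁ = y₁ + y := by
    rw [hgS y₁, hy₁x, L.tiY y₁ hy₁ y hyY, mul_zero, zero_smul, sub_zero, mul_one, one_smul]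
  have hyy₁ : Cfsg.hermForm n F q y y₁ = 0 := L.tiY y hyY y₁ hy₁
  obtain ⟨μ, hμ⟩ := exists_tr_one hF Φ
  have hPy : ∀ e : F, e + Φ.φ e = 0 → ∀ g : ↥(Cfsg.SU n F q),
      IsSg Φ g y (y₁ + μ • y) e → g ∈ M := by
    intro e he g hg
    obtain ⟨t₂, ht₂⟩ := exists_ut Φ y₁ e hNy he
    obtain ⟨t₁, s, ht₁, hmem⟩ := hQ' e he t₂ ht₂
    have hc1 : IsUt (gS * t₁ * gS⁻¹) x₁ s := by
      have := isUt_conj gS t₁ x₁ s ht₁
      rwa [e1] at this
    have hc2 : IsUt (gS * t₂ * gS⁻¹) (y₁ + y) e := by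
      have := isUt_conj gS t₂ y₁ e ht₂
      rwa [e2] at this
    have hc1' : gS * t₁ * gS⁻¹ = t₁ := isUt_unique _ _ x₁ s hc1 ht₁
    have h' : gS * (t₁ * t₂) * gS⁻¹ ∈ M := M.mul_mem (M.mul_mem hgSM hmem) (M.inv_mem hgSM)
    have e3 : gS * (t₁ * t₂) * gS⁻¹ = t₁ * (gS * t₂ * gS⁻¹) := by
      have : gS * (t₁ * t₂) * gS⁻¹ = (gS * t₁ * gS⁻¹) * (gS * t₂ * gS⁻¹) := by group
      rw [this, hc1']
    rw [e3] at h'
    have h'' := M.mul_mem (M.inv_mem hmem) h'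
    have e5 : (t₁ * t₂)⁻¹ * (t₁ * (gS * t₂ * gS⁻¹)) = t₂⁻¹ * (gS * t₂ * gS⁻¹) := by group
    rw [e5] at h''
    have e6 := ut_pair Φ y₁ y hNy hNyy hyy₁ e μ he hμ t₂⁻¹ (gS * t₂ * gS⁻¹) g
      (isUt_inv t₂ y₁ e hNy ht₂) hc2 hg
    rw [e6]
    exact h''
  have hne2 : ∀ c : F, y₁ ≠ c • y := by
    intro c h
    have hc : c ≠ 0 := by
      rintro rfl
      rw [zero_smul] at h
      exact hy₁0 h
    apply hyne c⁻¹
    rw [h, smul_smul, inv_mul_cancel₀ hc, one_smul]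
  obtain ⟨x₂, hx₂X, hx₂y, hx₂y₁⟩ := L.symm.sep Φ y y₁ hyY hy₁ hne2
  have hyx₂ : Cfsg.hermForm n F q y x₂ = 0 := um_symm Φ x₂ y hx₂y
  have hw : y₁ + μ • y ∈ Y := Y.add_mem hy₁ (Y.smul_mem _ hyY)
  have hβ' : Cfsg.hermForm n F q (y₁ + μ • y) x₂ ≠ 0 := by
    rw [uherm_add_left, uherm_smul_left, hyx₂, mul_zero, add_zero]
    exact um_ne_symm Φ x₂ y₁ hx₂y₁
  exact ⟨y, hy0, Or.inr hyY, udir_of_rel1 hF Φ M y (y₁ + μ • y) x₂ hNyy (L.tiY _ hw _ hw)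
    (L.tiX x₂ hx₂X x₂ hx₂X) (L.tiY y hyY _ hw) hyx₂ hβ' hPy
    (hHP.symm y hyY x₂ hx₂X hyx₂).2.2.2⟩

theorem ubad_pair (Φ : Frob F q) {k : ℕ} (hk : 3 ≤ k) {X Y : Submodule F (Fin n → F)}
    (L : ULag q k X Y) (g : ↥(Cfsg.SU n F q))
    (hgn : ¬ (((∀ x ∈ X, sact g x ∈ X) ∧ (∀ y ∈ Y, sact g y ∈ Y)) ∨
      ((∀ x ∈ X, sact g x ∈ Y) ∧ (∀ y ∈ Y, sact g y ∈ X)))) :
    ∃ x ∈ X, ∃ y ∈ Y, x ≠ 0 ∧ y ≠ 0 ∧ Cfsg.hermForm n F q x y = 0 ∧
      ¬ (sact g x ∈ X ∧ sact g y ∈ Y) ∧ ¬ (sact g x ∈ Y ∧ sact g y ∈ X) := by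
  by_contra hcon
  have hall : ∀ x ∈ X, ∀ y ∈ Y, x ≠ 0 → y ≠ 0 → Cfsg.hermForm n F q x y = 0 →
      (sact g x ∈ X ∧ sact g y ∈ Y) ∨ (sact g x ∈ Y ∧ sact g y ∈ X) := by
    intro x hx y hy hx0 hy0 hxy
    by_contra h
    rw [not_or] at h
    exact hcon ⟨x, hx, y, hy, hx0, hy0, hxy, h.1, h.2⟩
  have hexY : ∀ x ∈ X, ∃ y ∈ Y, y ≠ 0 ∧ Cfsg.hermForm n F q x y = 0 := by
    intro x hx
    have hfr : 1 ≤ Module.finrank F (ucut q Y x) := by
      have h1 := ucut_finrank (q := q) Y x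
      have h4 := L.frY
      omega
    obtain ⟨y, hyK, hy0⟩ := exists_ne_zero' _ hfr
    rw [mem_ucut] at hyK
    exact ⟨y, hyK.1, hy0, um_symm Φ y x hyK.2⟩
  have hexX : ∀ y ∈ Y, ∃ x ∈ X, x ≠ 0 ∧ Cfsg.hermForm n F q x y = 0 := by
    intro y hy
    have hfr : 1 ≤ Module.finrank F (ucut q X y) := by
      have h1 := ucut_finrank (q := q) X y
      have h4 := L.frX
      omega
    obtain ⟨x, hxK, hx0⟩ := exists_ne_zero' _ hfr
    rw [mem_ucut] at hxK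
    exact ⟨x, hxK.1, hx0, hxK.2⟩
  have hX : ∀ x ∈ X, sact g x ∈ X ∨ sact g x ∈ Y := by
    intro x hx
    by_cases hx0 : x = 0
    · left
      rw [hx0, sact_zero]
      exact X.zero_mem
    · obtain ⟨y, hy, hy0, hxy⟩ := hexY x hx
      rcases hall x hx y hy hx0 hy0 hxy with h | h
      · exact Or.inl h.1
      · exact Or.inr h.1
  have hY : ∀ y ∈ Y, sact g y ∈ X ∨ sact g y ∈ Y := by
    intro y hy
    by_cases hy0 : y = 0
    · left
      rw [hy0, sact_zero]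
      exact X.zero_mem
    · obtain ⟨x, hx, hx0, hxy⟩ := hexX y hy
      rcases hall x hx y hy hx0 hy0 hxy with h | h
      · exact Or.inr h.2
      · exact Or.inl h.2
  obtain ⟨f, hf⟩ : ∃ f : (Fin n → F) →ₗ[F] (Fin n → F), ∀ v, f v = sact g v :=
    ⟨Matrix.toLin' (g.1.1 : Matrix (Fin n) (Fin n) F), fun v => Matrix.toLin'_apply _ _⟩
  have hX' : X ≤ X.comap f ∨ X ≤ Y.comap f := by
    apply Cfsg.Agent.S5646.sub_union
    intro x hx
    rw [Submodule.mem_comap, Submodule.mem_comap, hf]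
    exact hX x hx
  have hY' : Y ≤ X.comap f ∨ Y ≤ Y.comap f := by
    apply Cfsg.Agent.S5646.sub_union
    intro y hy
    rw [Submodule.mem_comap, Submodule.mem_comap, hf]
    exact hY y hy
  have hmem : ∀ U W : Submodule F (Fin n → F), U ≤ W.comap f → ∀ x ∈ U, sact g x ∈ W := by
    intro U W h x hx
    have h1 := h hx
    rwa [Submodule.mem_comap, hf] at h1
  obtain ⟨x₀, hx₀, hx₀0⟩ : ∃ x ∈ X, x ≠ 0 := exists_ne_zero' X (by rw [L.frX]; omega)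
  obtain ⟨y₀, hy₀, hy₀0⟩ : ∃ y ∈ Y, y ≠ 0 := exists_ne_zero' Y (by rw [L.frY]; omega)
  rcases hX' with hXX | hXY
  · rcases hY' with hYX | hYY
    · obtain ⟨x, hx, hxe⟩ := su_exists_preimage g X X rfl (hmem X X hXX) (sact g y₀)
        (hmem Y X hYX y₀ hy₀)
      have hxy : x = y₀ := by
        have := congrArg (sact g⁻¹) hxe
        rwa [sact_inv_left, sact_inv_left] at this
      rw [hxy] at hx
      exact hy₀0 (L.disj Φ y₀ hx hy₀)
    · exact hgn (Or.inl ⟨hmem X X hXX, hmem Y Y hYY⟩)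
  · rcases hY' with hYX | hYY
    · exact hgn (Or.inr ⟨hmem X Y hXY, hmem Y X hYX⟩)
    · obtain ⟨y, hy, hye⟩ := su_exists_preimage g Y Y rfl (hmem Y Y hYY) (sact g x₀)
        (hmem X Y hXY x₀ hx₀)
      have hxy : y = x₀ := by
        have := congrArg (sact g⁻¹) hye
        rwa [sact_inv_left, sact_inv_left] at this
      rw [hxy] at hy
      exact hx₀0 (L.disj Φ x₀ hx₀ hy)

theorem ufind_dir (hF : Fintype.card F = q ^ 2) (Φ : Frob F q) {k : ℕ} (hk : 5 ≤ k)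
    {X Y : Submodule F (Fin n → F)} (L : ULag q k X Y) (M : Subgroup ↥(Cfsg.SU n F q))
    (hHP : UHP Φ M X Y) (g : ↥(Cfsg.SU n F q)) (hg : g ∈ M)
    (hgn : ¬ (((∀ x ∈ X, sact g x ∈ X) ∧ (∀ y ∈ Y, sact g y ∈ Y)) ∨
      ((∀ x ∈ X, sact g x ∈ Y) ∧ (∀ y ∈ Y, sact g y ∈ X)))) :
    ∃ v, v ≠ 0 ∧ (v ∈ X ∨ v ∈ Y) ∧ v ∈ udirs Φ M := by
  obtain ⟨x, hx, y, hy, hx0, hy0, hxy, hn1, hn2⟩ := ubad_pair Φ (by omega) L g hgn
  obtain ⟨a', ha'⟩ : ∃ a', a' = sact g x := ⟨_, rfl⟩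
  obtain ⟨b', hb'⟩ : ∃ b', b' = sact g y := ⟨_, rfl⟩
  rw [← ha', ← hb'] at hn1 hn2
  have hP : uPp Φ M a' b' := by
    rw [ha', hb']
    exact uPp_conj hF Φ M g hg x y (hHP x hx y hy hxy)
  have hind : ∀ s t : F, s • a' + t • b' = 0 → s = 0 ∧ t = 0 := by
    intro s t h
    have h1 : sact g (s • x + t • y) = 0 := by
      rw [sact_add, sact_smul, sact_smul, ← ha', ← hb']
      exact h
    have h3 : s • x + t • y = 0 := by
      have h4 := congrArg (sact g⁻¹) h1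
      rwa [sact_inv_left, sact_zero] at h4
    have h4 : s • x ∈ Y := by
      have h5 : s • x = -(t • y) := eq_neg_of_add_eq_zero_left h3
      rw [h5]
      exact Y.neg_mem (Y.smul_mem _ hy)
    have h5 := L.disj Φ _ (X.smul_mem s hx) h4
    have hs : s = 0 := by
      rcases smul_eq_zero.mp h5 with h | h
      · exact h
      · exact absurd h hx0
    rw [hs, zero_smul, zero_add] at h3
    rcases smul_eq_zero.mp h3 with h | h
    · exact ⟨hs, h⟩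
    · exact absurd h hy0
  obtain ⟨a₁, ha₁, a₂, ha₂, hae⟩ := L.dec a'
  obtain ⟨b₁, hb₁, b₂, hb₂, hbe⟩ := L.dec b'
  by_cases c1 : a₁ ≠ 0 ∧ ∀ c : F, b₁ ≠ c • a₁
  · obtain ⟨a, haX, ha0, had⟩ := ucaseA hF Φ hk L M hHP a₁ b₁ a₂ b₂ ha₁ hb₁ ha₂ hb₂
      (by rw [hae, hbe]; exact hP) c1.1 c1.2
    exact ⟨a, ha0, Or.inl haX, had⟩
  by_cases c3 : a₂ ≠ 0 ∧ ∀ c : F, b₂ ≠ c • a₂
  · obtain ⟨a, haY, ha0, had⟩ := ucaseA hF Φ hk L.symm M hHP.symm a₂ b₂ a₁ b₁ ha₂ hb₂ ha₁ hb₁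
      (by rw [add_comm a₂ a₁, add_comm b₂ b₁, hae, hbe]; exact hP) c3.1 c3.2
    exact ⟨a, ha0, Or.inr haY, had⟩
  obtain ⟨x₁, hx₁, α, γ, hα, hγ⟩ : ∃ x₁ ∈ X, ∃ α γ : F, a₁ = α • x₁ ∧ b₁ = γ • x₁ := by
    by_cases h : a₁ = 0
    · exact ⟨b₁, hb₁, 0, 1, by rw [h, zero_smul], by rw [one_smul]⟩
    · have h' : ¬ ∀ c : F, b₁ ≠ c • a₁ := fun h' => c1 ⟨h, h'⟩
      push Not at h'
      obtain ⟨c, hc⟩ := h'
      exact ⟨a₁, ha₁, 1, c, by rw [one_smul], hc⟩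
  obtain ⟨y₁, hy₁, β, δ, hβ, hδ⟩ : ∃ y₁ ∈ Y, ∃ β δ : F, a₂ = β • y₁ ∧ b₂ = δ • y₁ := by
    by_cases h : a₂ = 0
    · exact ⟨b₂, hb₂, 0, 1, by rw [h, zero_smul], by rw [one_smul]⟩
    · have h' : ¬ ∀ c : F, b₂ ≠ c • a₂ := fun h' => c3 ⟨h, h'⟩
      push Not at h'
      obtain ⟨c, hc⟩ := h'
      exact ⟨a₂, ha₂, 1, c, by rw [one_smul], hc⟩
  have hae' : a' = α • x₁ + β • y₁ := by rw [← hae, hα, hβ]
  have hbe' : b' = γ • x₁ + δ • y₁ := by rw [← hbe, hγ, hδ]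
  have ha'0 : a' ≠ 0 := by
    intro h
    have h3 := hind 1 0 (by rw [h, smul_zero, zero_smul, add_zero])
    exact one_ne_zero h3.1
  have hdet : α * δ - β * γ ≠ 0 := by
    intro h
    have e1 : δ • a' + (-β) • b' = 0 := by
      rw [hae', hbe']
      have e : δ • (α • x₁ + β • y₁) + (-β) • (γ • x₁ + δ • y₁) = (α * δ - β * γ) • x₁ := by
        module
      rw [e, h, zero_smul]
    have e2 : γ • a' + (-α) • b' = 0 := by
      rw [hae', hbe']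
      have e : γ • (α • x₁ + β • y₁) + (-α) • (γ • x₁ + δ • y₁)
          = (-(α * δ - β * γ)) • y₁ := by
        module
      rw [e, h, neg_zero, zero_smul]
    have h3 := hind _ _ e1
    have h4 := hind _ _ e2
    apply ha'0
    rw [hae', (neg_eq_zero.mp h4.2 : α = 0), (neg_eq_zero.mp h3.2 : β = 0), zero_smul,
      zero_smul, add_zero]
  have hx₁0 : x₁ ≠ 0 := by
    intro h
    have e1 : δ • a' + (-β) • b' = 0 := by
      rw [hae', hbe', h]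
      module
    have h3 := hind _ _ e1
    apply hdet
    rw [h3.1, (neg_eq_zero.mp h3.2 : β = 0)]
    ring
  have hy₁0 : y₁ ≠ 0 := by
    intro h
    have e2 : γ • a' + (-α) • b' = 0 := by
      rw [hae', hbe', h]
      module
    have h4 := hind _ _ e2
    apply hdet
    rw [h4.1, (neg_eq_zero.mp h4.2 : α = 0)]
    ring
  have hxy₁ : Cfsg.hermForm n F q x₁ y₁ = 0 := by
    have e1 : (α * δ - β * γ) • x₁ = δ • a' - β • b' := by
      rw [hae', hbe']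
      module
    have e2 : (α * δ - β * γ) • y₁ = α • b' - γ • a' := by
      rw [hae', hbe']
      module
    have hb'a' := um_symm Φ a' b' hP.2.2.1
    have h0 : Cfsg.hermForm n F q ((α * δ - β * γ) • x₁) ((α * δ - β * γ) • y₁) = 0 := by
      rw [e1, e2]
      simp only [uherm_sub_left, uherm_sub_right Φ, uherm_smul_left, uherm_smul_right Φ, hP.1,
        hP.2.1, hP.2.2.1, hb'a', mul_zero, sub_zero]
    rw [uherm_smul_left, uherm_smul_right Φ] at h0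
    rcases mul_eq_zero.mp h0 with h | h
    · exact absurd h hdet
    · rcases mul_eq_zero.mp h with h' | h'
      · exact absurd ((map_eq_zero Φ.φ).mp h') hdet
      · exact h'
  have hnz : α * γ ≠ 0 ∨ β * δ ≠ 0 := by
    by_contra hcon
    rw [not_or, not_not, not_not] at hcon
    obtain ⟨h1, h2'⟩ := hcon
    rcases mul_eq_zero.mp h1 with hα0 | hγ0
    · rcases mul_eq_zero.mp h2' with hβ0 | hδ0
      · apply hdet
        rw [hα0, hβ0]
        ring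
      · apply hn2
        rw [hae', hbe', hα0, hδ0, zero_smul, zero_smul, zero_add, add_zero]
        exact ⟨Y.smul_mem _ hy₁, X.smul_mem _ hx₁⟩
    · rcases mul_eq_zero.mp h2' with hβ0 | hδ0
      · apply hn1
        rw [hae', hbe', hγ0, hβ0, zero_smul, zero_smul, zero_add, add_zero]
        exact ⟨X.smul_mem _ hx₁, Y.smul_mem _ hy₁⟩
      · apply hdet
        rw [hγ0, hδ0]
        ring
  exact ucaseC hF Φ hk L M hHP x₁ y₁ hx₁ hy₁ hx₁0 hy₁0 hxy₁ α β γ δ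
    (by rw [← hae', ← hbe']; exact hP) hnz

theorem ufill (hF : Fintype.card F = q ^ 2) (Φ : Frob F q) {k : ℕ}
    {X Y : Submodule F (Fin n → F)} (L : ULag q k X Y) (M : Subgroup ↥(Cfsg.SU n F q))
    (hHP : UHP Φ M X Y) (v : Fin n → F) (hv : v ∈ X) (hv0 : v ≠ 0) (hvd : v ∈ udirs Φ M) :
    ∀ x ∈ X, x ∈ udirs Φ M := by
  intro x' hx'
  by_cases h : ∃ c : F, x' = c • v
  · obtain ⟨c, rfl⟩ := h
    exact udirs_smul Φ M v hvd c
  · push Not at h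
    obtain ⟨y, hyY, h1, h2⟩ := L.e3 Φ v x' hv hx' hv0 h
    have hperp : Cfsg.hermForm n F q (x' - v) y = 0 := by
      rw [uherm_sub_left, h1, h2, sub_self]
    have hxv : x' - v ∈ X := X.sub_mem hx' hv
    obtain ⟨g, hg⟩ := exists_sg hF Φ (x' - v) y (L.tiX _ hxv _ hxv) (L.tiY y hyY y hyY) hperp (-1)
    have hmem : g ∈ M := (hHP _ hxv y hyY hperp).2.2.2 (-1) g hg
    have h3 := udirs_conj Φ M g hmem v hvd
    rw [hg v, L.tiX v hv _ hxv, h1, map_neg, map_one] at h3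
    have e : v + (-1 * 0 : F) • y - (-1 * 1 : F) • (x' - v) = x' := by module
    rwa [e] at h3

theorem uswap (hF : Fintype.card F = q ^ 2) (Φ : Frob F q) {k : ℕ}
    {X Y : Submodule F (Fin n → F)} (L : ULag q k X Y) :
    ∃ s : ↥(Cfsg.SU n F q), (∀ x ∈ X, sact s x ∈ Y) ∧ (∀ y ∈ Y, sact s y ∈ X) := by
  classical
  obtain ⟨ε, hε0, hε⟩ := exists_skew hF Φ
  have hε' : Φ.φ ε = -ε := by linear_combination hε
  obtain ⟨δ, hδdef⟩ : ∃ δ : F, δ = -ε⁻¹ := ⟨_, rfl⟩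
  have hεδ : δ * ε = -1 := by
    rw [hδdef]
    field_simp
  have hδ : δ + Φ.φ δ = 0 := by
    rw [hδdef, map_neg, map_inv₀, hε', inv_neg]
    ring
  obtain ⟨bX⟩ : Nonempty (Module.Basis (Fin k) F X) := ⟨Module.finBasisOfFinrankEq F X L.frX⟩
  obtain ⟨x, hxdef⟩ : ∃ x : Fin k → (Fin n → F), ∀ i, x i = (bX i : Fin n → F) :=
    ⟨fun i => (bX i : Fin n → F), fun i => rfl⟩
  have hxX : ∀ i, x i ∈ X := fun i => by rw [hxdef]; exact (bX i).2
  have hXspan : X = Submodule.span F (Set.range x) := by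
    have h1 := congrArg (Submodule.map X.subtype) bX.span_eq
    rw [Submodule.map_span, Submodule.map_subtype_top, ← Set.range_comp] at h1
    have h2 : (⇑X.subtype ∘ ⇑bX) = x := by
      funext i
      rw [hxdef]
      rfl
    rw [h2] at h1
    exact h1.symm
  obtain ⟨Ψ, hΨ⟩ : ∃ Ψ : Y →ₗ[F] (Fin k → F), ∀ (y : Y) (j : Fin k),
      Ψ y j = Cfsg.hermForm n F q (y : Fin n → F) (x j) :=
    ⟨LinearMap.pi (fun j => (hL n q (x j)).domRestrict Y), fun y j => rfl⟩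
  have hΨinj : Function.Injective Ψ := by
    rw [injective_iff_map_eq_zero]
    intro y hy
    have h1 : ∀ j, Cfsg.hermForm n F q (y : Fin n → F) (x j) = 0 := by
      intro j
      rw [← hΨ, hy]
      rfl
    have h2 : X ≤ LinearMap.ker (hL n q (y : Fin n → F)) := by
      rw [hXspan, Submodule.span_le]
      rintro _ ⟨j, rfl⟩
      rw [SetLike.mem_coe, LinearMap.mem_ker, hL_apply]
      exact um_symm Φ _ _ (h1 j)
    have h3 : (y : Fin n → F) = 0 := by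
      apply um_nondeg Φ
      intro v
      obtain ⟨x', hx', y', hy', rfl⟩ := L.dec v
      rw [uherm_add_left, L.tiY y' hy' _ y.2, add_zero]
      have := h2 hx'
      rwa [LinearMap.mem_ker, hL_apply] at this
    exact Subtype.ext h3
  have hΨsurj : Function.Surjective Ψ := by
    have hfr : Module.finrank F Y = Module.finrank F (Fin k → F) := by
      rw [L.frY, Module.finrank_fin_fun]
    exact (LinearMap.injective_iff_surjective_of_finrank_eq_finrank hfr).mp hΨinj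
  obtain ⟨e, he⟩ : ∃ e : Y ≃ₗ[F] (Fin k → F), ∀ y, e y = Ψ y :=
    ⟨LinearEquiv.ofBijective Ψ ⟨hΨinj, hΨsurj⟩, fun y => rfl⟩
  obtain ⟨bY, hbY⟩ : ∃ bY : Module.Basis (Fin k) F Y, ∀ i, e (bY i) = Pi.single i 1 :=
    ⟨(Pi.basisFun F (Fin k)).map e.symm, fun i => by
      rw [Module.Basis.map_apply, LinearEquiv.apply_symm_apply, Pi.basisFun_apply]⟩
  obtain ⟨y, hydef⟩ : ∃ y : Fin k → (Fin n → F), ∀ i, y i = (bY i : Fin n → F) :=
    ⟨fun i => (bY i : Fin n → F), fun i => rfl⟩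
  have hyY : ∀ i, y i ∈ Y := fun i => by rw [hydef]; exact (bY i).2
  have hYspan : Y = Submodule.span F (Set.range y) := by
    have h1 := congrArg (Submodule.map Y.subtype) bY.span_eq
    rw [Submodule.map_span, Submodule.map_subtype_top, ← Set.range_comp] at h1
    have h2 : (⇑Y.subtype ∘ ⇑bY) = y := by
      funext i
      rw [hydef]
      rfl
    rw [h2] at h1
    exact h1.symm
  have hdual : ∀ i j, Cfsg.hermForm n F q (y i) (x j) = if j = i then 1 else 0 := by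
    intro i j
    rw [hydef, ← hΨ, ← he, hbY, Pi.single_apply]
  have hdual' : ∀ i j, Cfsg.hermForm n F q (x j) (y i) = if j = i then 1 else 0 := by
    intro i j
    rw [← uherm_conj Φ (y i) (x j), hdual]
    split_ifs <;> simp
  have hxx : ∀ i j, Cfsg.hermForm n F q (x i) (x j) = 0 :=
    fun i j => L.tiX _ (hxX i) _ (hxX j)
  have hyy : ∀ i j, Cfsg.hermForm n F q (y i) (y j) = 0 :=
    fun i j => L.tiY _ (hyY i) _ (hyY j)
  have key : ∀ m : ℕ, m ≤ k → ∃ s : ↥(Cfsg.SU n F q), ∀ i : Fin k,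
      (i.val < m → sact s (x i) = ε • y i ∧ sact s (y i) = δ • x i) ∧
      (m ≤ i.val → sact s (x i) = x i ∧ sact s (y i) = y i) := by
    intro m
    induction m with
    | zero =>
      intro _
      exact ⟨1, fun i => ⟨fun h => absurd h (Nat.not_lt_zero _),
        fun _ => ⟨sact_one _, sact_one _⟩⟩⟩
    | succ m ih =>
      intro hm
      obtain ⟨s, hs⟩ := ih (by omega)
      obtain ⟨g, hg1, hg2, hg3⟩ := exists_flip Φ (x ⟨m, by omega⟩) (y ⟨m, by omega⟩)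
        (hxx _ _) (hyy _ _) (by rw [hdual, if_pos rfl]) ε δ hε hδ hεδ
      refine ⟨s * g, fun i => ⟨fun hi => ?_, fun hi => ?_⟩⟩
      · by_cases him : i.val = m
        · have hi' : i = ⟨m, by omega⟩ := Fin.ext him
          rw [hi', sact_mul, sact_mul, hg1, hg2, sact_smul, sact_smul,
            ((hs ⟨m, by omega⟩).2 (le_refl m)).1, ((hs ⟨m, by omega⟩).2 (le_refl m)).2]
          exact ⟨rfl, rfl⟩
        · have hne : i ≠ ⟨m, by omega⟩ := fun h => him (congrArg Fin.val h)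
          rw [sact_mul, sact_mul,
            hg3 (x i) (hxx _ _) (by rw [hdual', if_neg hne]),
            hg3 (y i) (by rw [hdual, if_neg (Ne.symm hne)]) (hyy _ _)]
          exact (hs i).1 (by omega)
      · have hne : i ≠ ⟨m, by omega⟩ := fun h => by
          have := congrArg Fin.val h
          simp only at this
          omega
        rw [sact_mul, sact_mul,
          hg3 (x i) (hxx _ _) (by rw [hdual', if_neg hne]),
          hg3 (y i) (by rw [hdual, if_neg (Ne.symm hne)]) (hyy _ _)]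
        exact (hs i).2 (by omega)
  obtain ⟨s, hs⟩ := key k le_rfl
  obtain ⟨f, hf⟩ : ∃ f : (Fin n → F) →ₗ[F] (Fin n → F), ∀ v, f v = sact s v :=
    ⟨Matrix.toLin' (s.1.1 : Matrix (Fin n) (Fin n) F), fun v => Matrix.toLin'_apply _ _⟩
  refine ⟨s, ?_, ?_⟩
  · have h1 : X ≤ Y.comap f := by
      rw [hXspan, Submodule.span_le]
      rintro _ ⟨i, rfl⟩
      rw [SetLike.mem_coe, Submodule.mem_comap, hf, ((hs i).1 i.2).1]
      exact Y.smul_mem _ (hyY i)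
    intro x' hx'
    have := h1 hx'
    rwa [Submodule.mem_comap, hf] at this
  · have h1 : Y ≤ X.comap f := by
      rw [hYspan, Submodule.span_le]
      rintro _ ⟨i, rfl⟩
      rw [SetLike.mem_coe, Submodule.mem_comap, hf, ((hs i).1 i.2).2]
      exact X.smul_mem _ (hxX i)
    intro y' hy'
    have := h1 hy'
    rwa [Submodule.mem_comap, hf] at this

theorem ufinish (hF : Fintype.card F = q ^ 2) (Φ : Frob F q) (h32 : ¬ (n = 3 ∧ q = 2)) {k : ℕ}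
    {X Y : Submodule F (Fin n → F)} (L : ULag q k X Y) (M : Subgroup ↥(Cfsg.SU n F q))
    (hHP : UHP Φ M X Y) (s : ↥(Cfsg.SU n F q)) (hs : s ∈ M)
    (hsX : ∀ x ∈ X, sact s x ∈ Y) (hsY : ∀ y ∈ Y, sact s y ∈ X)
    (v : Fin n → F) (hv0 : v ≠ 0) (hv : v ∈ X ∨ v ∈ Y) (hvd : v ∈ udirs Φ M) : M = ⊤ := by
  have hsv0 : sact s v ≠ 0 := sact_ne_zero s v hv0
  have hsvd : sact s v ∈ udirs Φ M := udirs_conj Φ M s hs v hvd
  have hXY : (∀ x ∈ X, x ∈ udirs Φ M) ∧ (∀ y ∈ Y, y ∈ udirs Φ M) := by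
    rcases hv with hvX | hvY
    · exact ⟨ufill hF Φ L M hHP v hvX hv0 hvd,
        ufill hF Φ L.symm M hHP.symm _ (hsX v hvX) hsv0 hsvd⟩
    · exact ⟨ufill hF Φ L M hHP _ (hsY v hvY) hsv0 hsvd,
        ufill hF Φ L.symm M hHP.symm v hvY hv0 hvd⟩
  obtain ⟨hX, hY⟩ := hXY
  have claim1 : ∀ x ∈ X, ∀ y ∈ Y, Cfsg.hermForm n F q x y ≠ 0 →
      Cfsg.hermForm n F q (x + y) (x + y) = 0 → x + y ∈ udirs Φ M := by
    intro x hx y hy hne hiso
    have hyx : Cfsg.hermForm n F q y x ≠ 0 := um_ne_symm Φ x y hne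
    have hsum : Cfsg.hermForm n F q x y + Cfsg.hermForm n F q y x = 0 := by
      rw [uherm_add_left, uherm_add_right Φ, uherm_add_right Φ, L.tiX x hx x hx,
        L.tiY y hy y hy] at hiso
      linear_combination hiso
    have hφ : Φ.φ (Cfsg.hermForm n F q y x) = Cfsg.hermForm n F q x y := uherm_conj Φ y x
    have hc : (Cfsg.hermForm n F q y x)⁻¹ + Φ.φ (Cfsg.hermForm n F q y x)⁻¹ = 0 := by
      rw [map_inv₀, hφ]
      field_simp
      linear_combination hsum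
    have h := udirs_move Φ M x y (hX x hx) (hY y hy) (Cfsg.hermForm n F q y x)⁻¹ hc
    rw [inv_mul_cancel₀ hyx, one_smul, add_comm] at h
    exact h
  apply top_of_udirs hF Φ h32
  intro w hw
  obtain ⟨x, hx, y, hy, rfl⟩ := L.dec w
  by_cases hx0 : x = 0
  · rw [hx0, zero_add]
    exact hY y hy
  by_cases hxy : Cfsg.hermForm n F q x y = 0
  · obtain ⟨ε, hε0, hε⟩ := exists_skew hF Φ
    have hε' : Φ.φ ε = -ε := by linear_combination hε
    obtain ⟨y₀, hy₀, hne⟩ := L.pair Φ x hx hx0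
    obtain ⟨y', hy'def⟩ : ∃ y', y' = (Φ.φ (ε / Cfsg.hermForm n F q x y₀)) • y₀ := ⟨_, rfl⟩
    have hy'Y : y' ∈ Y := by rw [hy'def]; exact Y.smul_mem _ hy₀
    have hxy' : Cfsg.hermForm n F q x y' = ε := by
      rw [hy'def, uherm_smul_right Φ, Φ.hφ2, div_mul_cancel₀ _ hne]
    have hy'x : Cfsg.hermForm n F q y' x = -ε := by
      rw [← uherm_conj Φ x y', hxy', hε']
    have hiso' : Cfsg.hermForm n F q (x + y') (x + y') = 0 := by
      rw [uherm_add_left, uherm_add_right Φ, uherm_add_right Φ, L.tiX x hx x hx,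
        L.tiY y' hy'Y y' hy'Y, hxy', hy'x]
      ring
    have h1 := claim1 x hx y' hy'Y (by rw [hxy']; exact hε0) hiso'
    have h3 : Cfsg.hermForm n F q (x + y') (y - y') = -ε := by
      rw [uherm_add_left, uherm_sub_right Φ, uherm_sub_right Φ, hxy, hxy', L.tiY y' hy'Y y hy,
        L.tiY y' hy'Y y' hy'Y]
      ring
    have hc : (ε⁻¹) + Φ.φ (ε⁻¹) = 0 := by
      rw [map_inv₀, hε', inv_neg]
      ring
    have h := udirs_move Φ M (y - y') (x + y') (hY _ (Y.sub_mem hy hy'Y)) h1 (-ε⁻¹)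
      (by rw [map_neg]; linear_combination -hc)
    have e4 : -ε⁻¹ * -ε = 1 := by field_simp
    rw [h3, e4, one_smul] at h
    have e : x + y' + (y - y') = x + y := by abel
    rwa [e] at h
  · exact claim1 x hx y hy hxy hw

theorem ucore_lag (hF : Fintype.card F = q ^ 2) (Φ : Frob F q) (h32 : ¬ (n = 3 ∧ q = 2))
    {k : ℕ} (hk : 5 ≤ k) {X Y : Submodule F (Fin n → F)} (L : ULag q k X Y)
    (M : Subgroup ↥(Cfsg.SU n F q))
    (hH : ∀ A : ↥(Cfsg.SU n F q),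
      (((∀ x ∈ X, sact A x ∈ X) ∧ (∀ y ∈ Y, sact A y ∈ Y)) ∨
      ((∀ x ∈ X, sact A x ∈ Y) ∧ (∀ y ∈ Y, sact A y ∈ X))) → A ∈ M)
    (hbad : ∃ g ∈ M, ¬ (((∀ x ∈ X, sact g x ∈ X) ∧ (∀ y ∈ Y, sact g y ∈ Y)) ∨
      ((∀ x ∈ X, sact g x ∈ Y) ∧ (∀ y ∈ Y, sact g y ∈ X)))) : M = ⊤ := by
  have hHP : UHP Φ M X Y := by
    intro a ha b hb hab
    refine ⟨L.tiX a ha a ha, L.tiY b hb b hb, hab, ?_⟩
    intro c g hg
    apply hH
    left
    constructor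
    · intro x hx
      rw [hg x, L.tiX x hx a ha, mul_zero, zero_smul, add_zero]
      exact X.sub_mem hx (X.smul_mem _ ha)
    · intro y hy
      rw [hg y, L.tiY y hy b hb, mul_zero, zero_smul, sub_zero]
      exact Y.add_mem hy (Y.smul_mem _ hb)
  obtain ⟨g, hg, hgn⟩ := hbad
  obtain ⟨v, hv0, hv, hvd⟩ := ufind_dir hF Φ hk L M hHP g hg hgn
  obtain ⟨s, hsX, hsY⟩ := uswap hF Φ L
  exact ufinish hF Φ h32 L M hHP s (hH s (Or.inr ⟨hsX, hsY⟩)) hsX hsY v hv0 hv hvd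

theorem mem_H2u {D : Fin 2 → Submodule F (Fin n → F)} {k : ℕ}
    (hD : Cfsg.Geo.IsMDecomposition k D) (A : ↥(Cfsg.SU n F q))
    (h : ((∀ x ∈ D 0, sact A x ∈ D 0) ∧ (∀ y ∈ D 1, sact A y ∈ D 1)) ∨
      ((∀ x ∈ D 0, sact A x ∈ D 1) ∧ (∀ y ∈ D 1, sact A y ∈ D 0))) :
    Matrix.SpecialLinearGroup.toGL (A : Matrix.SpecialLinearGroup (Fin n) F) ∈
      Cfsg.Geo.decompositionStabilizer D := by
  rcases h with h | h
  · refine ⟨1, ?_⟩
    rw [Fin.forall_fin_two]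
    exact ⟨su_map_eq A _ _ rfl h.1, su_map_eq A _ _ rfl h.2⟩
  · refine ⟨Equiv.swap 0 1, ?_⟩
    rw [Fin.forall_fin_two, Equiv.swap_apply_left, Equiv.swap_apply_right]
    exact ⟨su_map_eq A _ _ (by rw [hD.finrank_eq, hD.finrank_eq]) h.1,
      su_map_eq A _ _ (by rw [hD.finrank_eq, hD.finrank_eq]) h.2⟩

theorem of_mem_H2u {D : Fin 2 → Submodule F (Fin n → F)} (A : ↥(Cfsg.SU n F q))
    (h : Matrix.SpecialLinearGroup.toGL (A : Matrix.SpecialLinearGroup (Fin n) F) ∈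
      Cfsg.Geo.decompositionStabilizer D) :
    ((∀ x ∈ D 0, sact A x ∈ D 0) ∧ (∀ y ∈ D 1, sact A y ∈ D 1)) ∨
      ((∀ x ∈ D 0, sact A x ∈ D 1) ∧ (∀ y ∈ D 1, sact A y ∈ D 0)) := by
  obtain ⟨σ, hσ⟩ := h
  have key : ∀ i, ∀ x ∈ D i, sact A x ∈ D (σ i) := by
    intro i x hx
    rw [← hσ i]
    exact ⟨x, hx, Matrix.toLin'_apply _ _⟩
  have h01 : ∀ i : Fin 2, i = 0 ∨ i = 1 := Fin.forall_fin_two.mpr ⟨Or.inl rfl, Or.inr rfl⟩
  rcases h01 (σ 0) with h0 | h0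
  · rcases h01 (σ 1) with h1 | h1
    · exact absurd (σ.injective (h0.trans h1.symm)) (by decide)
    · left
      exact ⟨fun x hx => h0 ▸ key 0 x hx, fun y hy => h1 ▸ key 1 y hy⟩
  · rcases h01 (σ 1) with h1 | h1
    · right
      exact ⟨fun x hx => h0 ▸ key 0 x hx, fun y hy => h1 ▸ key 1 y hy⟩
    · exact absurd (σ.injective (h0.trans h1.symm)) (by decide)

/-- Let F be the field with q² elements and n = 2k ≥ 13. Let D be a decomposition of F^n into two complementary subspaces of dimension k on each of which the standard unitary form vanishes identically. Then the elements of SU_n(q) preserving or interchanging the two subspaces form a maximal subgroup of SU_n(q). -/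
theorem result {F : Type*} [Field F] [Fintype F] (n q : ℕ) (hF : Fintype.card F = q ^ 2) (hn : 13 ≤ n) (k : ℕ) (hk : 2 * k = n) (D : Fin 2 → Submodule F (Fin n → F)) (hD : Cfsg.Geo.IsMDecomposition k D) (hts : ∀ i, Cfsg.Geo.IsTotallySingularFor (Cfsg.hermForm n F q) (D i)) : Cfsg.Geo.IsMaximalIn (Cfsg.GU n F q ⊓ Cfsg.Geo.specialLinear (Fin n) F) (Cfsg.Geo.decompositionStabilizer D ⊓ (Cfsg.GU n F q ⊓ Cfsg.Geo.specialLinear (Fin n) F)) := by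
  classical
  obtain ⟨Φ⟩ := Cfsg.Agent.Helper16.exists_Frob hF
  have hsup : D 0 ⊔ D 1 = ⊤ := by
    rw [eq_top_iff, ← hD.iSup_eq_top]
    apply iSup_le
    intro i
    rcases (Fin.forall_fin_two.mpr ⟨Or.inl rfl, Or.inr rfl⟩ : ∀ i : Fin 2, i = 0 ∨ i = 1) i
      with rfl | rfl
    · exact le_sup_left
    · exact le_sup_right
  have L : ULag q k (D 0) (D 1) :=
    ⟨hts 0, hts 1, fun v => by
      have hv : v ∈ D 0 ⊔ D 1 := by rw [hsup]; trivial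
      exact Submodule.mem_sup.mp hv, hD.finrank_eq 0, hD.finrank_eq 1⟩
  apply Cfsg.Agent.Helper6.maximal_of_core_su
  · obtain ⟨x, hx, hx0⟩ : ∃ x ∈ D 0, x ≠ 0 :=
      Cfsg.Agent.Helper6.exists_ne_zero' (D 0) (by rw [hD.finrank_eq]; omega)
    obtain ⟨y, hy, hxy⟩ := L.pair Φ x hx hx0
    have hyx : Cfsg.hermForm n F q y x ≠ 0 := Cfsg.Agent.Helper6.um_ne_symm Φ x y hxy
    obtain ⟨ε, hε0, hε⟩ := Cfsg.Agent.Helper16.exists_skew hF Φ
    obtain ⟨t, ht⟩ := Cfsg.Agent.Helper6.exists_ut Φ x ε (L.tiX x hx x hx) hε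
    refine ⟨t, fun hmem => ?_⟩
    have hcases := of_mem_H2u t hmem
    have hty : Cfsg.Agent.Helper16.sact t y = y + (ε * Cfsg.hermForm n F q y x) • x := ht y
    have hne : ε * Cfsg.hermForm n F q y x ≠ 0 := mul_ne_zero hε0 hyx
    rcases hcases with h | h
    · have h1 := h.2 y hy
      rw [hty] at h1
      have h3 : (ε * Cfsg.hermForm n F q y x) • x ∈ D 1 :=
        (Submodule.add_mem_iff_right (D 1) hy).mp h1
      have hx1 : x ∈ D 1 := by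
        have h4 := (D 1).smul_mem (ε * Cfsg.hermForm n F q y x)⁻¹ h3
        rwa [smul_smul, inv_mul_cancel₀ hne, one_smul] at h4
      exact hx0 (L.disj Φ x hx hx1)
    · have h1 := h.2 y hy
      rw [hty] at h1
      have hy0' : y ∈ D 0 := (Submodule.add_mem_iff_left (D 0) ((D 0).smul_mem _ hx)).mp h1
      have hy0 := L.disj Φ y hy0' hy
      rw [hy0, Cfsg.Agent.Helper16.uherm_zero_left] at hyx
      exact hyx rfl
  · intro M hP hbad
    apply ucore_lag hF Φ (by omega) (by omega : 5 ≤ k) L M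
    · intro A hA
      exact hP A (mem_H2u hD A hA)
    · obtain ⟨A, hAM, hAn⟩ := hbad
      exact ⟨A, hAM, fun h => hAn (mem_H2u hD A h)⟩

end Cfsg.Agent.S5657
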