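import Mathlib
import Cfsg.Statements.S5658
import Cfsg.Agent.Helper6.SuSubD

set_option autoImplicit false
open Cfsg

namespace Cfsg.Agent.S5658


open Matrix Cfsg.Agent.Helper3 Cfsg.Agent.Helper16 Cfsg.Agent.Helper6 Cfsg.Agent.S5643 Cfsg.Agent.S5660 Cfsg.Agent.H6SuSub

section step4

variable {F : Type*} [Field F] [Fintype F] {n q : ℕ}
variable {Φ : Frob F q} {F₀ : Subfield F} {ε : F} {PG : GL (Fin n) F} {Q : (Matrix (Fin n) (Fin n) F)}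

set_option maxHeartbeats 1000000 in
theorem no_full (R : RatU Φ F₀ ε (PG : Matrix (Fin n) (Fin n) F) Q) (hF : Fintype.card F = q ^ 2) (hn : 13 ≤ n)
    (M : Subgroup ↥(Cfsg.SU n F q))
    (hM : ∀ A : ↥(Cfsg.SU n F q), Matrix.SpecialLinearGroup.toGL (A : Matrix.SpecialLinearGroup (Fin n) F) ∈
      Cfsg.Geo.subfieldSubgroup F₀ PG → A ∈ M)
    (hR : PropRU F₀ (PG : Matrix (Fin n) (Fin n) F) M) (g₀ : ↥(Cfsg.SU n F q)) (hg₀ : g₀ ∈ M)
    (hg₀n : Matrix.SpecialLinearGroup.toGL (g₀ : Matrix.SpecialLinearGroup (Fin n) F) ∉ Cfsg.Geo.subfieldSubgroup F₀ PG) :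
    False := by
  classical
  have he0 := R.e0
  have hKr : ∀ g : ↥(Cfsg.SU n F q), (∀ x, IsRat F₀ (PG : Matrix (Fin n) (Fin n) F) x → IsRat F₀ (PG : Matrix (Fin n) (Fin n) F) (sact g x)) → g ∈ M :=
    fun g hg => hM g (rat_mem_sfg_u F₀ PG g hg)
  obtain ⟨p, hp⟩ := CharP.exists F
  haveI := hp
  have hpp : p.Prime := CharP.char_is_prime F p
  haveI : Fact p.Prime := ⟨hpp⟩
  obtain ⟨u₁, hu₁, hu₁0, hu₁u₁, -⟩ := R.perpLI [] (fun a ha => absurd ha List.not_mem_nil)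
    (by simp only [List.length_nil]; omega)
  obtain ⟨a, hadef⟩ : ∃ a : (Fin n → F), a = sact g₀ u₁ := ⟨_, rfl⟩
  have haa : Cfsg.hermForm n F q a a = 0 := by rw [hadef, sact_herm]; exact hu₁u₁
  obtain ⟨t₁, ht₁⟩ := exists_ut Φ u₁ ε hu₁u₁ R.es
  have ht₁K : Matrix.SpecialLinearGroup.toGL (t₁ : Matrix.SpecialLinearGroup (Fin n) F) ∈ Cfsg.Geo.subfieldSubgroup F₀ PG :=
    rat_mem_sfg_u F₀ PG t₁ (R.ut_rat u₁ hu₁ ε R.eF t₁ ht₁)
  have ht₁M : t₁ ∈ M := hM _ ht₁K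
  obtain ⟨Ta, hTadef⟩ : ∃ Ta : ↥(Cfsg.SU n F q), Ta = g₀ * t₁ * g₀⁻¹ := ⟨_, rfl⟩
  have hTa : IsUt Ta a ε := by
    rw [hTadef, hadef]
    exact isUt_conj g₀ t₁ u₁ ε ht₁
  have hTM : Ta ∈ M := by
    rw [hTadef]
    exact M.mul_mem (M.mul_mem hg₀ ht₁M) (M.inv_mem hg₀)
  have hcen := R.cen hF hn M hKr hR
  have hpt := R.pt hF hn M hKr hR
  have hfull : ∀ u : (Fin n → F), IsRat F₀ (PG : Matrix (Fin n) (Fin n) F) u → u ≠ 0 → Cfsg.hermForm n F q u u = 0 → Cfsg.hermForm n F q a u ≠ 0 := by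
    intro u hu hu0 huu h0
    apply hg₀n
    apply hpt g₀ hg₀ u₁ hu₁ hu₁0 hu₁u₁
    rw [← hadef]
    exact hcen a ε he0 R.es haa Ta hTa hTM u hu hu0 huu h0
  obtain ⟨z₁, hz₁, hz₁u₁⟩ := R.dual1 u₁ hu₁ hu₁0
  obtain ⟨u₂, hu₂, hu₂0, hu₂u₂, hu₂L⟩ := R.perpLI [u₁, z₁] (by
    intro v hv
    simp only [List.mem_cons, List.not_mem_nil, or_false] at hv
    rcases hv with rfl | rfl
    · exact hu₁
    · exact hz₁) (by simp only [List.length_cons, List.length_nil]; omega)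
  have hu₂u₁ : Cfsg.hermForm n F q u₂ u₁ = 0 := hu₂L u₁ (by simp)
  have hu₂z₁ : Cfsg.hermForm n F q u₂ z₁ = 0 := hu₂L z₁ (by simp)
  have hu₁u₂ : Cfsg.hermForm n F q u₁ u₂ = 0 := um_symm Φ _ _ hu₂u₁
  have hz₁u₂ : Cfsg.hermForm n F q z₁ u₂ = 0 := um_symm Φ _ _ hu₂z₁
  obtain ⟨t₂, ht₂⟩ := exists_ut Φ u₂ ε hu₂u₂ R.es
  have ht₂K : Matrix.SpecialLinearGroup.toGL (t₂ : Matrix.SpecialLinearGroup (Fin n) F) ∈ Cfsg.Geo.subfieldSubgroup F₀ PG :=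
    rat_mem_sfg_u F₀ PG t₂ (R.ut_rat u₂ hu₂ ε R.eF t₂ ht₂)
  have ht₂M : t₂ ∈ M := hM _ ht₂K
  obtain ⟨ℓ, hℓ⟩ : ∃ ℓ : Submodule F (Fin n → F), ℓ = Submodule.span F {u₁, u₂} := ⟨_, rfl⟩
  obtain ⟨W, hW⟩ : ∃ W : Submodule F (Fin n → F), W = Submodule.span F {a, u₁, u₂} := ⟨_, rfl⟩
  have hu₁ℓ : u₁ ∈ ℓ := by
    rw [hℓ]
    exact Submodule.subset_span (by simp)
  have hu₂ℓ : u₂ ∈ ℓ := by
    rw [hℓ]
    exact Submodule.subset_span (by simp)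
  have haW : a ∈ W := by
    rw [hW]
    exact Submodule.subset_span (by simp)
  have hu₁W : u₁ ∈ W := by
    rw [hW]
    exact Submodule.subset_span (by simp)
  have hu₂W : u₂ ∈ W := by
    rw [hW]
    exact Submodule.subset_span (by simp)
  have hℓiso : ∀ x ∈ ℓ, ∀ y ∈ ℓ, Cfsg.hermForm n F q x y = 0 := by
    intro x hx y hy
    rw [hℓ, Submodule.mem_span_pair] at hx hy
    obtain ⟨α, β, rfl⟩ := hx
    obtain ⟨γ, δ, rfl⟩ := hy
    simp only [uherm_add_left, uherm_add_right Φ, uherm_smul_left, uherm_smul_right Φ, hu₁u₁,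
      hu₂u₂, hu₁u₂, hu₂u₁, mul_zero, add_zero]
  have htvW : ∀ w ∈ W, ∀ (c : F) (g : ↥(Cfsg.SU n F q)), IsUt g w c → Cfsg.hermForm n F q w w = 0 → g ∈ fixW W := by
    intro w hw c g hg hww v
    have hgi := isUt_inv g w c hww hg
    rw [hg v, hgi v, add_sub_cancel_left, add_sub_cancel_left]
    exact ⟨W.smul_mem _ hw, W.smul_mem _ hw⟩
  obtain ⟨X, hX⟩ : ∃ X : Subgroup ↥(Cfsg.SU n F q), X = M ⊓ fixW W := ⟨_, rfl⟩
  have hTX : Ta ∈ X := by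
    rw [hX]
    exact ⟨hTM, htvW a haW ε Ta hTa haa⟩
  have ht₁X : t₁ ∈ X := by
    rw [hX]
    exact ⟨ht₁M, htvW u₁ hu₁W ε t₁ ht₁ hu₁u₁⟩
  have ht₂X : t₂ ∈ X := by
    rw [hX]
    exact ⟨ht₂M, htvW u₂ hu₂W ε t₂ ht₂ hu₂u₂⟩
  have hXM : ∀ x ∈ X, x ∈ M := by
    intro x hx
    rw [hX] at hx
    exact hx.1
  have hXW : ∀ x ∈ X, ∀ v : (Fin n → F), sact x v - v ∈ W := by
    intro x hx v
    rw [hX] at hx
    exact (hx.2 v).1
  have P1 : ∀ s ∈ X,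
      Matrix.SpecialLinearGroup.toGL (s : Matrix.SpecialLinearGroup (Fin n) F) ∈ Cfsg.Geo.subfieldSubgroup F₀ PG →
      ∀ v : (Fin n → F), sact s v - v ∈ ℓ := by
    intro s hsX hsK
    obtain ⟨c, hc⟩ := sfg_rat F₀ PG _ hsK
    have hrat : ∀ w, IsRat F₀ (PG : Matrix (Fin n) (Fin n) F) w → sact s w - w ∈ ℓ := by
      intro w hw
      obtain ⟨w', hw', hcw⟩ := hc w hw
      have hcw' : sact s w = c • w' := hcw
      have h1 := hXW s hsX w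
      rw [hW, Submodule.mem_span_triple] at h1
      obtain ⟨α, β, γ, h2⟩ := h1
      have hα : α = 0 := by
        by_contra hα0
        obtain ⟨e, he, he0', hee, heL⟩ := R.perpLI [w, w', u₁, u₂] (by
          intro v hv
          simp only [List.mem_cons, List.not_mem_nil, or_false] at hv
          rcases hv with rfl | rfl | rfl | rfl
          · exact hw
          · exact hw'
          · exact hu₁
          · exact hu₂) (by simp only [List.length_cons, List.length_nil]; omega)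
        have hwe : Cfsg.hermForm n F q w e = 0 := um_symm Φ _ _ (heL w (by simp))
        have hw'e : Cfsg.hermForm n F q w' e = 0 := um_symm Φ _ _ (heL w' (by simp))
        have hu₁e : Cfsg.hermForm n F q u₁ e = 0 := um_symm Φ _ _ (heL u₁ (by simp))
        have hu₂e : Cfsg.hermForm n F q u₂ e = 0 := um_symm Φ _ _ (heL u₂ (by simp))
        have h3 := congrArg (fun z => Cfsg.hermForm n F q z e) h2
        simp only [uherm_add_left, uherm_smul_left, uherm_sub_left, hcw', hwe, hw'e, hu₁e, hu₂e,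
          mul_zero, add_zero, sub_zero] at h3
        rcases mul_eq_zero.mp h3 with h4 | h4
        · exact hα0 h4
        · exact hfull e he he0' hee h4
      rw [← h2, hα, zero_smul, zero_add, hℓ, Submodule.mem_span_pair]
      exact ⟨β, γ, rfl⟩
    intro v
    rw [R.act_expand s v]
    exact Submodule.sum_mem _ (fun j _ => ℓ.smul_mem _ (hrat _ (isRat_col F₀ _ j)))
  have fixℓ : ∀ s : ↥(Cfsg.SU n F q), (∀ v : (Fin n → F), sact s v - v ∈ ℓ) → ∀ e ∈ ℓ, sact s e = e := by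
    intro s hs e he
    have h1 : sact s e - e = 0 := by
      apply um_nondeg Φ
      intro v
      have h2 := sact_herm s v e
      obtain ⟨n₁, hn₁⟩ : ∃ n₁ : (Fin n → F), n₁ = sact s v - v := ⟨_, rfl⟩
      obtain ⟨n₂, hn₂⟩ : ∃ n₂ : (Fin n → F), n₂ = sact s e - e := ⟨_, rfl⟩
      have e1 : sact s v = v + n₁ := by
        rw [hn₁]
        abel
      have e2 : sact s e = e + n₂ := by
        rw [hn₂]
        abel
      have hn₁ℓ : n₁ ∈ ℓ := by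
        rw [hn₁]
        exact hs v
      have hn₂ℓ : n₂ ∈ ℓ := by
        rw [hn₂]
        exact hs e
      rw [e1, e2, uherm_add_left, uherm_add_right Φ, uherm_add_right Φ] at h2
      rw [hℓiso n₁ hn₁ℓ e he, hℓiso n₁ hn₁ℓ n₂ hn₂ℓ] at h2
      rw [← hn₂]
      linear_combination h2
    exact sub_eq_zero.mp h1
  obtain ⟨Kc, hKc'⟩ : ∃ Kc : Subgroup ↥(Cfsg.SU n F q), ∀ A, A ∈ Kc ↔
      Matrix.SpecialLinearGroup.toGL (A : Matrix.SpecialLinearGroup (Fin n) F) ∈ Cfsg.Geo.subfieldSubgroup F₀ PG :=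
    ⟨(Cfsg.Geo.subfieldSubgroup F₀ PG).comap
      ((Matrix.SpecialLinearGroup.toGL).comp (Cfsg.SU n F q).subtype), fun A => Iff.rfl⟩
  obtain ⟨PX, hPX⟩ : ∃ PX : Subgroup ↥X, ∀ s : ↥X, s ∈ PX ↔ (s : ↥(Cfsg.SU n F q)) ∈ Kc :=
    ⟨Kc.comap X.subtype, fun s => Iff.rfl⟩
  have PX1 : ∀ s : ↥X, s ∈ PX → ∀ v : (Fin n → F), sact (s : ↥(Cfsg.SU n F q)) v - v ∈ ℓ :=
    fun s hs => P1 s.1 s.2 ((hKc' _).mp ((hPX s).mp hs))
  have PXfix : ∀ s : ↥X, s ∈ PX → ∀ e ∈ ℓ, sact (s : ↥(Cfsg.SU n F q)) e = e :=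
    fun s hs => fixℓ s.1 (PX1 s hs)
  have hpg : IsPGroup p PX := by
    intro ⟨s, hs⟩
    have hpow : ∀ (k : ℕ) (v : (Fin n → F)), sact ((s : ↥(Cfsg.SU n F q)) ^ k) v
        = v + (k : F) • (sact (s : ↥(Cfsg.SU n F q)) v - v) := by
      intro k v
      induction k with
      | zero => rw [pow_zero, sact_one, Nat.cast_zero, zero_smul, add_zero]
      | succ k ih =>
        rw [pow_succ', sact_mul, ih, sact_add, sact_smul, PXfix s hs _ (PX1 s hs v),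
          Nat.cast_succ]
        module
    have key : (s : ↥(Cfsg.SU n F q)) ^ p = 1 := by
      apply su_ext
      intro v
      rw [hpow p v, CharP.cast_eq_zero F p, zero_smul, add_zero, sact_one]
    have key2 : s ^ p = 1 := Subtype.ext (by rw [Subgroup.coe_pow, key]; rfl)
    refine ⟨1, ?_⟩
    rw [pow_one]
    exact Subtype.ext (by rw [Subgroup.coe_pow]; exact key2)
  have hcomm : ∀ s ∈ PX, ∀ s' ∈ PX, s * s' = s' * s := by
    intro s hs s' hs'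
    apply Subtype.ext
    apply su_ext
    intro v
    rw [Subgroup.coe_mul, Subgroup.coe_mul, sact_mul, sact_mul]
    have e1 : sact (s' : ↥(Cfsg.SU n F q)) v = v + (sact (s' : ↥(Cfsg.SU n F q)) v - v) := by abel
    have e2 : sact (s : ↥(Cfsg.SU n F q)) v = v + (sact (s : ↥(Cfsg.SU n F q)) v - v) := by abel
    conv_lhs => rw [e1, sact_add, PXfix s hs _ (PX1 s' hs' v)]
    conv_rhs => rw [e2, sact_add, PXfix s' hs' _ (PX1 s hs v)]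
    abel
  obtain ⟨t₁', ht₁'⟩ : ∃ t₁' : ↥X, (t₁' : ↥(Cfsg.SU n F q)) = t₁ := ⟨⟨t₁, ht₁X⟩, rfl⟩
  have ht₁'P : t₁' ∈ PX := by
    rw [hPX, hKc', ht₁']
    exact ht₁K
  have hN : ∀ g : ↥X, (∀ s ∈ PX, g * s * g⁻¹ ∈ PX) → g ∈ PX := by
    intro g hg
    have h1 := hg t₁' ht₁'P
    have h2 := PX1 _ h1
    obtain ⟨b, hb⟩ : ∃ b : (Fin n → F), b = sact (g : ↥(Cfsg.SU n F q)) u₁ := ⟨_, rfl⟩
    have e : IsUt ((g * t₁' * g⁻¹ : ↥X) : ↥(Cfsg.SU n F q)) b ε := by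
      rw [Subgroup.coe_mul, Subgroup.coe_mul, Subgroup.coe_inv, ht₁', hb]
      exact isUt_conj (g : ↥(Cfsg.SU n F q)) t₁ u₁ ε ht₁
    have hb0 : b ≠ 0 := by
      rw [hb]
      exact sact_ne_zero _ u₁ hu₁0
    have hbb : Cfsg.hermForm n F q b b = 0 := by
      rw [hb, sact_herm]
      exact hu₁u₁
    obtain ⟨v, hv⟩ := um_nondeg' Φ b hb0
    have hvb : Cfsg.hermForm n F q v b ≠ 0 := um_ne_symm Φ _ _ hv
    have h3 := h2 v
    rw [e v, add_sub_cancel_left] at h3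
    have hbℓ : b ∈ ℓ := by
      have hne : ε * Cfsg.hermForm n F q v b ≠ 0 := mul_ne_zero he0 hvb
      have h4 := ℓ.smul_mem (ε * Cfsg.hermForm n F q v b)⁻¹ h3
      rwa [smul_smul, inv_mul_cancel₀ hne, one_smul] at h4
    have hbu₁ : Cfsg.hermForm n F q b u₁ = 0 := hℓiso b hbℓ u₁ hu₁ℓ
    have hTb : ((g * t₁' * g⁻¹ : ↥X) : ↥(Cfsg.SU n F q)) ∈ M := hXM _ (g * t₁' * g⁻¹).2
    obtain ⟨t, v', hv', htv'⟩ := hcen b ε he0 R.es hbb _ e hTb u₁ hu₁ hu₁0 hu₁u₁ hbu₁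
    have h4 : ∃ (t : F) (v : (Fin n → F)), IsRat F₀ (PG : Matrix (Fin n) (Fin n) F) v ∧ sact (g : ↥(Cfsg.SU n F q)) u₁ = t • v :=
      ⟨t, v', hv', by rw [← hb]; exact htv'⟩
    exact (hPX g).mpr ((hKc' _).mpr (hpt (g : ↥(Cfsg.SU n F q)) (hXM _ g.2) u₁ hu₁ hu₁0 hu₁u₁ h4))
  have hC : ∀ s ∈ PX, s ≠ 1 → ∀ g : ↥X, g * s * g⁻¹ = s → g ∈ PX := by
    intro s hs hs1 g hgs
    have hsK := (hKc' _).mp ((hPX s).mp hs)
    have hsfix : sact (s : ↥(Cfsg.SU n F q)) u₁ = u₁ := PXfix s hs u₁ hu₁ℓ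
    have hsrat := R.sfg_fix (s : ↥(Cfsg.SU n F q)) hsK u₁ hu₁ hu₁0 hsfix
    have h1 : ∃ w₀, IsRat F₀ (PG : Matrix (Fin n) (Fin n) F) w₀ ∧ sact (s : ↥(Cfsg.SU n F q)) w₀ ≠ w₀ := by
      by_contra hcon
      push Not at hcon
      apply hs1
      apply Subtype.ext
      apply su_ext
      intro v
      rw [Subgroup.coe_one, sact_one]
      have e1 := R.act_expand (s : ↥(Cfsg.SU n F q)) v
      rw [Finset.sum_eq_zero (fun j _ => by
        rw [hcon _ (isRat_col F₀ _ j), sub_self, smul_zero])] at e1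
      exact sub_eq_zero.mp e1
    obtain ⟨w₀, hw₀, hsw₀⟩ := h1
    obtain ⟨b, hb⟩ : ∃ b : (Fin n → F), b = sact (s : ↥(Cfsg.SU n F q)) w₀ - w₀ := ⟨_, rfl⟩
    have hbr : IsRat F₀ (PG : Matrix (Fin n) (Fin n) F) b := by
      rw [hb]
      exact isRat_sub (hsrat w₀ hw₀) hw₀
    have hb0 : b ≠ 0 := by
      rw [hb]
      exact sub_ne_zero.mpr hsw₀
    have hbℓ : b ∈ ℓ := by
      rw [hb]
      exact PX1 s hs w₀
    have hbb : Cfsg.hermForm n F q b b = 0 := hℓiso b hbℓ b hbℓ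
    have h2 : g * s = s * g := by
      calc g * s = (g * s * g⁻¹) * g := by group
        _ = s * g := by rw [hgs]
    have hcomm' : (g : ↥(Cfsg.SU n F q)) * (s : ↥(Cfsg.SU n F q)) = (s : ↥(Cfsg.SU n F q)) * (g : ↥(Cfsg.SU n F q)) := by
      rw [← Subgroup.coe_mul, ← Subgroup.coe_mul, h2]
    have hgb : sact (g : ↥(Cfsg.SU n F q)) b ∈ ℓ := by
      have e1 : sact (g : ↥(Cfsg.SU n F q)) b = sact (s : ↥(Cfsg.SU n F q)) (sact (g : ↥(Cfsg.SU n F q)) w₀) - sact (g : ↥(Cfsg.SU n F q)) w₀ := by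
        rw [hb, sact_sub, ← sact_mul, ← sact_mul, hcomm']
      rw [e1]
      exact PX1 s hs _
    have hgbu₁ : Cfsg.hermForm n F q (sact (g : ↥(Cfsg.SU n F q)) b) u₁ = 0 := hℓiso _ hgb u₁ hu₁ℓ
    obtain ⟨tb, htb⟩ := exists_ut Φ b ε hbb R.es
    have htbM : tb ∈ M := hKr tb (R.ut_rat b hbr ε R.eF tb htb)
    have hTb := isUt_conj (g : ↥(Cfsg.SU n F q)) tb b ε htb
    have hTbM : (g : ↥(Cfsg.SU n F q)) * tb * (g : ↥(Cfsg.SU n F q))⁻¹ ∈ M :=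
      M.mul_mem (M.mul_mem (hXM _ g.2) htbM) (M.inv_mem (hXM _ g.2))
    have h4 := hcen _ ε he0 R.es (by rw [sact_herm]; exact hbb) _ hTb hTbM u₁ hu₁ hu₁0 hu₁u₁
      hgbu₁
    exact (hPX g).mpr ((hKc' _).mpr (hpt (g : ↥(Cfsg.SU n F q)) (hXM _ g.2) b hbr hb0 hbb h4))
  obtain ⟨K', hK'1, hK'2⟩ := Cfsg.Agent.Helper16.frob_kernel p PX hpg hcomm hN hC
  have hQ : ∀ x : ↥X, x ∉ K' → ∀ v : (Fin n → F),
      sact (x : ↥(Cfsg.SU n F q)) (sact (x : ↥(Cfsg.SU n F q)) v - v) = sact (x : ↥(Cfsg.SU n F q)) v - v := by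
    intro x hx v
    obtain ⟨g, s, hs, hxg⟩ := hK'2 x hx
    have e : (x : ↥(Cfsg.SU n F q)) = (g : ↥(Cfsg.SU n F q)) * (s : ↥(Cfsg.SU n F q)) * (g : ↥(Cfsg.SU n F q))⁻¹ := by
      rw [hxg, Subgroup.coe_mul, Subgroup.coe_mul, Subgroup.coe_inv]
    obtain ⟨n₀, hn₀⟩ : ∃ n₀ : (Fin n → F), n₀ = sact (s : ↥(Cfsg.SU n F q)) (sact (g : ↥(Cfsg.SU n F q))⁻¹ v) - sact (g : ↥(Cfsg.SU n F q))⁻¹ v :=
      ⟨_, rfl⟩
    have hnℓ : n₀ ∈ ℓ := by
      rw [hn₀]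
      exact PX1 s hs _
    have e1 : sact (x : ↥(Cfsg.SU n F q)) v - v = sact (g : ↥(Cfsg.SU n F q)) n₀ := by
      rw [e, hn₀, sact_mul, sact_mul, sact_sub, sact_inv_right]
    rw [e1, e, sact_mul, sact_mul, sact_inv_left, PXfix s hs n₀ hnℓ]
  have hbad : ∀ (ui : (Fin n → F)) (ti : ↥(Cfsg.SU n F q)), IsRat F₀ (PG : Matrix (Fin n) (Fin n) F) ui → ui ≠ 0 → Cfsg.hermForm n F q ui ui = 0 → IsUt ti ui ε →
      ∀ (hX' : ti * Ta ∈ X), (⟨ti * Ta, hX'⟩ : ↥X) ∈ K' := by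
    intro ui ti hui hui0 huiui hti hX'
    by_contra hnot
    have h1 : sact (ti * Ta) (sact (ti * Ta) ui - ui) = sact (ti * Ta) ui - ui := hQ _ hnot ui
    obtain ⟨κ, hκdef⟩ : ∃ κ, κ = Cfsg.hermForm n F q a ui := ⟨_, rfl⟩
    have hκ0 : κ ≠ 0 := by
      rw [hκdef]
      exact hfull ui hui hui0 huiui
    have hφκ0 : Φ.φ κ ≠ 0 := (map_ne_zero Φ.φ).mpr hκ0
    have hua : Cfsg.hermForm n F q ui a = Φ.φ κ := by rw [hκdef, uherm_conj Φ]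
    have ey : ∀ z : (Fin n → F), sact (ti * Ta) z
        = z + (ε * Cfsg.hermForm n F q z a) • a + (ε * (Cfsg.hermForm n F q z ui + ε * Cfsg.hermForm n F q z a * κ)) • ui := by
      intro z
      rw [sact_mul, hTa z, hti, uherm_add_left, uherm_smul_left, ← hκdef]
    have e1 : sact (ti * Ta) ui - ui = (ε * Φ.φ κ) • a + (ε ^ 2 * κ * Φ.φ κ) • ui := by
      rw [ey, hua, huiui]
      module
    rw [e1] at h1
    have h2 := congrArg (fun z => Cfsg.hermForm n F q z ui) h1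
    rw [ey] at h2
    simp only [uherm_add_left, uherm_smul_left, haa, huiui, hua, ← hκdef, mul_zero, add_zero,
      zero_add] at h2
    have h3 : ε ^ 3 * (κ * Φ.φ κ) ^ 2 = 0 := by linear_combination h2
    exact mul_ne_zero (pow_ne_zero 3 he0) (pow_ne_zero 2 (mul_ne_zero hκ0 hφκ0)) h3
  have hX1 : t₁ * Ta ∈ X := X.mul_mem ht₁X hTX
  have hX2 : t₂ * Ta ∈ X := X.mul_mem ht₂X hTX
  have hk1 := hbad u₁ t₁ hu₁ hu₁0 hu₁u₁ ht₁ hX1
  have hk2 := hbad u₂ t₂ hu₂ hu₂0 hu₂u₂ ht₂ hX2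
  have hk3 := K'.mul_mem hk1 (K'.inv_mem hk2)
  have e : (⟨t₁ * Ta, hX1⟩ : ↥X) * (⟨t₂ * Ta, hX2⟩ : ↥X)⁻¹
      = ⟨t₁ * t₂⁻¹, X.mul_mem ht₁X (X.inv_mem ht₂X)⟩ := by
    apply Subtype.ext
    show t₁ * Ta * (t₂ * Ta)⁻¹ = t₁ * t₂⁻¹
    group
  rw [e] at hk3
  have hP3 : (⟨t₁ * t₂⁻¹, X.mul_mem ht₁X (X.inv_mem ht₂X)⟩ : ↥X) ∈ PX :=
    (hPX _).mpr (Kc.mul_mem ((hKc' _).mpr ht₁K) (Kc.inv_mem ((hKc' _).mpr ht₂K)))
  have h5 : (⟨t₁ * t₂⁻¹, X.mul_mem ht₁X (X.inv_mem ht₂X)⟩ : ↥X) ∈ K' ⊓ PX := ⟨hk3, hP3⟩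
  rw [hK'1, Subgroup.mem_bot] at h5
  have h6 : t₁ * t₂⁻¹ = 1 := congrArg Subtype.val h5
  have h7 : t₁ = t₂ := mul_inv_eq_one.mp h6
  have h8 : sact t₁ z₁ = sact t₂ z₁ := by rw [h7]
  rw [ht₁ z₁, ht₂ z₁, hz₁u₁, hz₁u₂, mul_one, mul_zero, zero_smul, add_zero] at h8
  apply hu₁0
  have h9 : ε • u₁ = 0 := by
    have h10 := congrArg (fun t => t - z₁) h8
    simpa using h10
  rcases smul_eq_zero.mp h9 with h10 | h10
  · exact absurd h10 he0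
  · exact h10

end step4
/-- Let F be the field with q² elements, n ≥ 13, and F₀ a subfield with |F| = |F₀| ^ r for an odd prime r. Let P be an invertible matrix such that the standard unitary form takes values in F₀ on the F₀-span of the columns of P. Then the elements of SU_n(q) lying in the subfield group of P (the conjugate by P of the product of GL_n(F₀) with the scalars) form a maximal subgroup of SU_n(q). -/
theorem result {F : Type*} [Field F] [Fintype F] (n q : ℕ) (hF : Fintype.card F = q ^ 2) (hn : 13 ≤ n) (F₀ : Subfield F) (r : ℕ) (hr : r.Prime) (hro : Odd r) (hcard : Fintype.card F = Nat.card F₀ ^ r) (P : Matrix.GeneralLinearGroup (Fin n) F) (hP : Cfsg.Geo.IsFormRationalStructure (Cfsg.hermForm n F q) F₀ 1 P) : Cfsg.Geo.IsMaximalIn (Cfsg.GU n F q ⊓ Cfsg.Geo.specialLinear (Fin n) F) (Cfsg.Geo.subfieldSubgroup F₀ P ⊓ (Cfsg.GU n F q ⊓ Cfsg.Geo.specialLinear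 (Fin n) F)) := by
  classical
  obtain ⟨Φ⟩ := exists_Frob hF
  obtain ⟨ε, hε0, hεF, hεs, hstab, htr, hnm, c₁, hc₁s, hc₁⟩ :=
    field_facts hF Φ F₀ r hr hro hcard
  obtain ⟨Qm, hQm⟩ : ∃ Qm : Matrix (Fin n) (Fin n) F,
      Qm = ((P⁻¹ : GL (Fin n) F) : Matrix (Fin n) (Fin n) F) := ⟨_, rfl⟩
  have R : RatU Φ F₀ ε (P : Matrix (Fin n) (Fin n) F) Qm := by
    refine ⟨hε0, hεF, hεs, hstab, htr, hnm, ?_, ?_, ?_⟩
    · intro v
      rw [hQm]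
      exact gl_mulVec_inv P v
    · intro v
      rw [hQm]
      exact gl_inv_mulVec P v
    · rintro x y ⟨u, hu, rfl⟩ ⟨w, hw, rfl⟩
      have h := hP u w hu hw
      rwa [one_mul] at h
  apply maximal_of_core_su
  · exact R.exists_not_sfg hn c₁ hc₁s hc₁
  · intro M hM ⟨g₀, hg₀M, hg₀⟩
    have hKr : ∀ g : ↥(Cfsg.SU n F q), (∀ x, IsRat F₀ (P : Matrix (Fin n) (Fin n) F) x →
        IsRat F₀ (P : Matrix (Fin n) (Fin n) F) (sact g x)) → g ∈ M :=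
      fun g hg => hM g (rat_mem_sfg_u F₀ P g hg)
    by_cases hR : PropRU F₀ (P : Matrix (Fin n) (Fin n) F) M
    · exact (no_full R hF hn M hM hR g₀ hg₀M hg₀).elim
    · unfold PropRU at hR
      push Not at hR
      obtain ⟨u, hu, hu0, huu, y, hy, ψ, hyu, hyψ, x₀, hx₀, hx₀x₀, hx₀u, hlam⟩ := hR
      exact R.top_of_notR hF hn r hr hcard M hKr u hu hu0 huu y hy ψ hyu hyψ x₀ hx₀ hx₀x₀ hx₀u
        hlam

end Cfsg.Agent.S5658
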