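import Cfsg.Statements.S5671
-- import your own Cfsg.Agent.* helpers here
import Cfsg.Agent.S5656

set_option autoImplicit false
open Cfsg

namespace Cfsg.Agent.S5671

open Matrix
open scoped Kronecker

section uform
variable {F : Type*} [Field F] [Fintype F] {ι : Type} [Fintype ι] [DecidableEq ι]

theorem vec_add_self (hF : Fintype.card F = 4) {κ : Type*} (v : κ → F) : v + v = 0 := by
  funext i
  exact Cfsg.Agent.S5656.add_self4 hF (v i)

theorem uf_add_right (hF : Fintype.card F = 4) {f : (ι → F) → (ι → F) → F}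
    (hf : Cfsg.Geo.IsUnitaryFormPow 2 f) (v x y : ι → F) : f v (x + y) = f v x + f v y := by
  rw [hf.herm v (x + y), hf.add_left, Cfsg.Agent.S5656.add_sq4 hF, ← hf.herm, ← hf.herm]

theorem uf_smul_right {f : (ι → F) → (ι → F) → F}
    (hf : Cfsg.Geo.IsUnitaryFormPow 2 f) (c : F) (v x : ι → F) : f v (c • x) = c ^ 2 * f v x := by
  rw [hf.herm v (c • x), hf.smul_left, mul_pow, ← hf.herm]

theorem uf_zero_left {f : (ι → F) → (ι → F) → F}
    (hf : Cfsg.Geo.IsUnitaryFormPow 2 f) (v : ι → F) : f 0 v = 0 := by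
  have := hf.smul_left 0 0 v
  simpa using this

theorem uf_zero_right {f : (ι → F) → (ι → F) → F}
    (hf : Cfsg.Geo.IsUnitaryFormPow 2 f) (v : ι → F) : f v 0 = 0 := by
  rw [hf.herm, uf_zero_left hf, zero_pow two_ne_zero]

theorem uf_self01 {f : (ι → F) → (ι → F) → F}
    (hf : Cfsg.Geo.IsUnitaryFormPow 2 f) (v : ι → F) : f v v = 0 ∨ f v v = 1 := by
  have h := hf.herm v v
  have h' : f v v * (f v v - 1) = 0 := by linear_combination -h
  rcases mul_eq_zero.mp h' with h1 | h1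
  · left; exact h1
  · right; exact sub_eq_zero.mp h1

theorem uf_sum_left {f : (ι → F) → (ι → F) → F}
    (hf : Cfsg.Geo.IsUnitaryFormPow 2 f) {κ : Type*} (s : Finset κ) (c : κ → F) (v : κ → ι → F)
    (w : ι → F) : f (∑ k ∈ s, c k • v k) w = ∑ k ∈ s, c k * f (v k) w := by
  classical
  induction s using Finset.induction_on with
  | empty => simp [uf_zero_left hf]
  | insert a s ha ih => rw [Finset.sum_insert ha, Finset.sum_insert ha, hf.add_left, hf.smul_left, ih]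

theorem uf_sum_right (hF : Fintype.card F = 4) {f : (ι → F) → (ι → F) → F}
    (hf : Cfsg.Geo.IsUnitaryFormPow 2 f) {κ : Type*} (s : Finset κ) (c : κ → F) (v : κ → ι → F)
    (w : ι → F) : f w (∑ k ∈ s, c k • v k) = ∑ k ∈ s, c k ^ 2 * f w (v k) := by
  classical
  induction s using Finset.induction_on with
  | empty => simp [uf_zero_right hf]
  | insert a s ha ih =>
    rw [Finset.sum_insert ha, Finset.sum_insert ha, uf_add_right hF hf, uf_smul_right hf, ih]

theorem uf_gram (hF : Fintype.card F = 4) {f : (ι → F) → (ι → F) → F}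
    (hf : Cfsg.Geo.IsUnitaryFormPow 2 f) (x y : ι → F) :
    Cfsg.Geo.formOfGram (fun z : F => z ^ 2) (Cfsg.Geo.gramMatrix f) x y = f x y := by
  have hx : x = ∑ a, x a • (Pi.single a 1 : ι → F) := by
    funext j
    simp [Finset.sum_apply, Pi.single_apply]
  have hy : y = ∑ b, y b • (Pi.single b 1 : ι → F) := by
    funext j
    simp [Finset.sum_apply, Pi.single_apply]
  conv_rhs => rw [hx, uf_sum_left hf]
  unfold Cfsg.Geo.formOfGram Cfsg.Geo.gramMatrix
  refine Finset.sum_congr rfl fun a _ => ?_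
  conv_rhs => rw [hy, uf_sum_right hF hf, Finset.mul_sum]
  refine Finset.sum_congr rfl fun b _ => ?_
  ring

theorem uf_zero_of_isotropic (hF : Fintype.card F = 4) {f : (ι → F) → (ι → F) → F}
    (hf : Cfsg.Geo.IsUnitaryFormPow 2 f) (S : Submodule F (ι → F)) (h : ∀ v ∈ S, f v v = 0) :
    ∀ u ∈ S, ∀ v ∈ S, f u v = 0 := by
  obtain ⟨ω, hω0, hω1, hω2⟩ := Cfsg.Agent.S5656.exists_omega hF
  have h2 := Cfsg.Agent.S5656.two_zero hF
  have key : ∀ u ∈ S, ∀ v ∈ S, f u v + (f u v) ^ 2 = 0 := by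
    intro u hu v hv
    have := h (u + v) (S.add_mem hu hv)
    rw [hf.add_left, uf_add_right hF hf, uf_add_right hF hf, h u hu, h v hv, hf.herm v u] at this
    linear_combination this
  intro u hu v hv
  have e1 := key u hu v hv
  have e2 := key (ω • u) (S.smul_mem ω hu) v hv
  rw [hf.smul_left] at e2
  have e3 : f u v * (ω + ω ^ 2 * f u v) = 0 := by linear_combination e2
  have e4 : f u v = 0 ∨ ω + ω ^ 2 * f u v = 0 := mul_eq_zero.mp e3
  rcases e4 with e4 | e4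
  · exact e4
  · -- then t = ω / ω^2, and t + t^2 = 0 gives a contradiction
    have e5 : f u v * (1 + f u v) = 0 := by linear_combination e1
    rcases mul_eq_zero.mp e5 with e6 | e6
    · exact e6
    · exfalso
      have e7 : f u v = 1 := by linear_combination e6 - h2
      rw [e7, mul_one, hω2] at e4
      apply one_ne_zero (α := F)
      linear_combination e4 - ω * h2

/-- an orthonormal pair for a unitary form on a space of dimension at least two -/
theorem exists_on_pair (hF : Fintype.card F = 4) {f : (ι → F) → (ι → F) → F}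
    (hf : Cfsg.Geo.IsUnitaryFormPow 2 f) (i j : ι) (hij : i ≠ j) :
    ∃ w₁ w₂ : ι → F, f w₁ w₁ = 1 ∧ f w₂ w₂ = 1 ∧ f w₁ w₂ = 0 ∧ f w₂ w₁ = 0 := by
  classical
  have h2 := Cfsg.Agent.S5656.two_zero hF
  have hei : (Pi.single i 1 : ι → F) ≠ 0 := by
    intro h
    have := congrFun h i
    simp at this
  -- a non-isotropic vector
  obtain ⟨w₁, hw₁⟩ : ∃ w₁ : ι → F, f w₁ w₁ = 1 := by
    by_contra hcon
    push Not at hcon
    have hall : ∀ v ∈ (⊤ : Submodule F (ι → F)), f v v = 0 := by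
      intro v _
      rcases uf_self01 hf v with h | h
      · exact h
      · exact absurd h (hcon v)
    obtain ⟨x, hx⟩ := (hf.nondegenerate _ hei).1
    exact hx (uf_zero_of_isotropic hF hf ⊤ hall x trivial _ trivial)
  -- its orthogonal complement
  let W : Submodule F (ι → F) :=
    { carrier := {v | f v w₁ = 0}
      add_mem' := by
        intro a b ha hb
        show f (a + b) w₁ = 0
        rw [hf.add_left, ha, hb, add_zero]
      zero_mem' := uf_zero_left hf w₁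
      smul_mem' := by
        intro c a ha
        show f (c • a) w₁ = 0
        rw [hf.smul_left, ha, mul_zero] }
  have hproj : ∀ b : ι → F, b + f b w₁ • w₁ ∈ W := by
    intro b
    show f (b + f b w₁ • w₁) w₁ = 0
    rw [hf.add_left, hf.smul_left, hw₁, mul_one]
    exact Cfsg.Agent.S5656.add_self4 hF _
  obtain ⟨v₀, hv₀W, hv₀⟩ : ∃ v₀ ∈ W, v₀ ≠ 0 := by
    by_cases hi : (Pi.single i 1 : ι → F) + f (Pi.single i 1) w₁ • w₁ = 0
    · refine ⟨(Pi.single j 1 : ι → F) + f (Pi.single j 1) w₁ • w₁, hproj _, ?_⟩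
      intro hj
      have hii := congrFun hi i
      have hij' := congrFun hi j
      have hjj := congrFun hj j
      simp only [Pi.add_apply, Pi.smul_apply, smul_eq_mul, Pi.single_eq_same, Pi.zero_apply,
        Pi.single_apply, if_neg hij, if_neg (Ne.symm hij), zero_add] at hii hij' hjj
      rcases mul_eq_zero.mp hij' with h | h
      · rw [h, zero_mul, add_zero] at hii
        exact one_ne_zero hii
      · rw [h, mul_zero, add_zero] at hjj
        exact one_ne_zero hjj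
    · exact ⟨_, hproj _, hi⟩
  obtain ⟨w₂, hw₂W, hw₂⟩ : ∃ w₂ ∈ W, f w₂ w₂ = 1 := by
    by_contra hcon
    push Not at hcon
    have hall : ∀ v ∈ W, f v v = 0 := by
      intro v hv
      rcases uf_self01 hf v with h | h
      · exact h
      · exact absurd h (hcon v hv)
    have hz := uf_zero_of_isotropic hF hf W hall
    obtain ⟨x, hx⟩ := (hf.nondegenerate _ hv₀).2
    apply hx
    have hxdec : x = (x + f x w₁ • w₁) + f x w₁ • w₁ := by
      rw [add_assoc, vec_add_self hF, add_zero]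
    rw [hxdec, uf_add_right hF hf, hz v₀ hv₀W _ (hproj x), uf_smul_right hf]
    have : f v₀ w₁ = 0 := hv₀W
    rw [this, mul_zero, add_zero]
  have h21 : f w₂ w₁ = 0 := hw₂W
  exact ⟨w₁, w₂, hw₁, hw₂, by rw [hf.herm, h21, zero_pow two_ne_zero], h21⟩

end uform

section tensor
variable {F : Type*} [Field F] {n n₁ n₂ : ℕ}

/-- pure tensors as coordinate vectors -/
def ten (a : Fin n₁ → F) (y : Fin n₂ → F) : Fin n₁ × Fin n₂ → F := fun p => a p.1 * y p.2

theorem fog_kron (σ : F → F) (hσ : ∀ u v, σ (u * v) = σ u * σ v)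
    (G₁ : Matrix (Fin n₁) (Fin n₁) F) (G₂ : Matrix (Fin n₂) (Fin n₂) F)
    (a a' : Fin n₁ → F) (y y' : Fin n₂ → F) :
    Cfsg.Geo.formOfGram σ (G₁ ⊗ₖ G₂) (ten a y) (ten a' y')
      = Cfsg.Geo.formOfGram σ G₁ a a' * Cfsg.Geo.formOfGram σ G₂ y y' := by
  simp only [Cfsg.Geo.formOfGram, ten, Matrix.kroneckerMap_apply, Fintype.sum_prod_type, hσ]
  rw [Finset.sum_mul_sum]
  refine Finset.sum_congr rfl fun i _ => Finset.sum_congr rfl fun j _ => ?_
  rw [Finset.sum_mul_sum]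
  refine Finset.sum_congr rfl fun k _ => Finset.sum_congr rfl fun l _ => by ring

theorem kron_mulVec_ten (A : Matrix (Fin n₁) (Fin n₁) F) (B : Matrix (Fin n₂) (Fin n₂) F)
    (a : Fin n₁ → F) (y : Fin n₂ → F) : (A ⊗ₖ B) *ᵥ ten a y = ten (A *ᵥ a) (B *ᵥ y) := by
  funext p
  obtain ⟨i, j⟩ := p
  simp only [Matrix.mulVec, dotProduct, ten, Matrix.kroneckerMap_apply, Fintype.sum_prod_type]
  rw [Finset.sum_mul_sum]
  refine Finset.sum_congr rfl fun k _ => Finset.sum_congr rfl fun l _ => by ring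

/-- the image of a pure tensor in `F^n` -/
def tau (e : Fin n ≃ Fin n₁ × Fin n₂) (P : GL (Fin n) F) (a : Fin n₁ → F) (y : Fin n₂ → F) :
    Fin n → F := (P : Matrix (Fin n) (Fin n) F) *ᵥ (ten a y ∘ e)

theorem tau_add_left (e : Fin n ≃ Fin n₁ × Fin n₂) (P : GL (Fin n) F) (a a' : Fin n₁ → F)
    (y : Fin n₂ → F) : tau e P (a + a') y = tau e P a y + tau e P a' y := by
  unfold tau
  rw [← Matrix.mulVec_add]
  congr 1
  funext i
  simp [ten, add_mul]

theorem tau_add_right (e : Fin n ≃ Fin n₁ × Fin n₂) (P : GL (Fin n) F) (a : Fin n₁ → F)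
    (y y' : Fin n₂ → F) : tau e P a (y + y') = tau e P a y + tau e P a y' := by
  unfold tau
  rw [← Matrix.mulVec_add]
  congr 1
  funext i
  simp [ten, mul_add]

theorem tau_smul_left (e : Fin n ≃ Fin n₁ × Fin n₂) (P : GL (Fin n) F) (c : F) (a : Fin n₁ → F)
    (y : Fin n₂ → F) : tau e P (c • a) y = c • tau e P a y := by
  unfold tau
  rw [← Matrix.mulVec_smul]
  congr 1
  funext i
  simp [ten, mul_assoc]

theorem tau_smul_right (e : Fin n ≃ Fin n₁ × Fin n₂) (P : GL (Fin n) F) (c : F) (a : Fin n₁ → F)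
    (y : Fin n₂ → F) : tau e P a (c • y) = c • tau e P a y := by
  unfold tau
  rw [← Matrix.mulVec_smul]
  congr 1
  funext i
  simp [ten, mul_left_comm]

/-- the elements of the tensor product subgroup act on pure tensors factorwise -/
theorem kron_tau (e : Fin n ≃ Fin n₁ × Fin n₂) (P : GL (Fin n) F) (g : GL (Fin n) F)
    (hg : g ∈ Cfsg.Geo.tensorProductSubgroup n₁ n₂ e P) :
    ∃ (A : GL (Fin n₁) F) (B : GL (Fin n₂) F), ∀ (a : Fin n₁ → F) (y : Fin n₂ → F),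
      (g : Matrix (Fin n) (Fin n) F) *ᵥ tau e P a y
        = tau e P ((A : Matrix (Fin n₁) (Fin n₁) F) *ᵥ a) ((B : Matrix (Fin n₂) (Fin n₂) F) *ᵥ y) := by
  obtain ⟨g', ⟨M, ⟨A, B, hM⟩, rfl⟩, rfl⟩ := hg
  refine ⟨A, B, fun a y => ?_⟩
  have h1 : (((MulAut.conj P).toMonoidHom ((Cfsg.Geo.glReindex e.symm).toMonoidHom M) : GL (Fin n) F)
      : Matrix (Fin n) (Fin n) F)
      = (P : Matrix (Fin n) (Fin n) F) * (M : Matrix _ _ F).submatrix e e
        * ((P⁻¹ : GL (Fin n) F) : Matrix (Fin n) (Fin n) F) := rfl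
  rw [h1]
  unfold tau
  rw [Matrix.mulVec_mulVec, mul_assoc, mul_assoc, Units.inv_mul, mul_one, ← Matrix.mulVec_mulVec]
  congr 1
  rw [Matrix.submatrix_mulVec_equiv]
  have h2 : (ten a y ∘ e) ∘ e.symm = ten a y := by
    funext p; simp
  rw [h2, hM, kron_mulVec_ten]

end tensor

section classify
variable {F : Type*} [Field F] [Fintype F]

theorem classify2 (hF : Fintype.card F = 4) {f₁ : (Fin 2 → F) → (Fin 2 → F) → F}
    (hf₁ : Cfsg.Geo.IsUnitaryFormPow 2 f₁) (a₁ a₂ : Fin 2 → F) (h11 : f₁ a₁ a₁ = 1)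
    (h22 : f₁ a₂ a₂ = 1) (h12 : f₁ a₁ a₂ = 0) (h21 : f₁ a₂ a₁ = 0) (v : Fin 2 → F)
    (hv : f₁ v v ≠ 0) :
    (∃ x : F, x ≠ 0 ∧ v = x • a₁) ∨ (∃ x : F, x ≠ 0 ∧ v = x • a₂) := by
  classical
  have hli : LinearIndependent F ![a₁, a₂] := by
    rw [LinearIndependent.pair_iff]
    intro s t hst
    have e1 := congrArg (fun x => f₁ x a₁) hst
    have e2 := congrArg (fun x => f₁ x a₂) hst
    simp only [hf₁.add_left, hf₁.smul_left, h11, h22, h12, h21, uf_zero_left hf₁, mul_one, mul_zero,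
      add_zero, zero_add] at e1 e2
    exact ⟨e1, e2⟩
  have hspan := hli.span_eq_top_of_card_eq_finrank' (by simp)
  have hvs : v ∈ Submodule.span F (Set.range ![a₁, a₂]) := by rw [hspan]; trivial
  obtain ⟨c, hc⟩ := (Submodule.mem_span_range_iff_exists_fun F).1 hvs
  rw [Fin.sum_univ_two] at hc
  simp only [Matrix.cons_val_zero, Matrix.cons_val_one] at hc
  have hN : f₁ v v = c 0 ^ 3 + c 1 ^ 3 := by
    rw [← hc]
    simp only [hf₁.add_left, hf₁.smul_left, uf_add_right hF hf₁, uf_smul_right hf₁, h11, h22, h12,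
      h21]
    ring
  by_cases h0 : c 0 = 0
  · right
    refine ⟨c 1, ?_, ?_⟩
    · intro h1
      rw [hN, h0, h1] at hv
      simp at hv
    · rw [← hc, h0, zero_smul, zero_add]
  · by_cases h1 : c 1 = 0
    · left
      exact ⟨c 0, h0, by rw [← hc, h1, zero_smul, add_zero]⟩
    · exfalso
      apply hv
      rw [hN, Cfsg.Agent.S5656.pow_three hF _ h0, Cfsg.Agent.S5656.pow_three hF _ h1]
      have := Cfsg.Agent.S5656.two_zero hF
      linear_combination this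

end classify

/-- Let F be the field with 4 elements (q = 2) and n = 2 n₂ ≥ 13. Suppose the standard unitary form Σ u_i v_i² on F^n is similar, through P and e, to the tensor product of non-degenerate unitary forms f₁ on F^2 and f₂ on F^(n₂). Then the elements of SU_n(2) in the stabiliser of this tensor decomposition form a subgroup that is not maximal: some subgroup lies strictly between it and SU_n(2). -/
theorem result {F : Type*} [Field F] [Fintype F] (n : ℕ) (hF : Fintype.card F = 4) (hn : 13 ≤ n) (n₂ : ℕ) (e : Fin n ≃ Fin 2 × Fin n₂) (P : Matrix.GeneralLinearGroup (Fin n) F) (f₁ : (Fin 2 → F) → (Fin 2 → F) → F) (f₂ : (Fin n₂ → F) → (Fin n₂ → F) → F) (hf₁ : Cfsg.Geo.IsUnitaryFormPow 2 f₁) (hf₂ : Cfsg.Geo.IsUnitaryFormPow 2 f₂) (hT : Cfsg.Geo.IsTensorFormStructure (fun x : F => x ^ 2) (Cfsg.hermForm n F 2) f₁ f₂ e P) : ∃ K : Subgroup (Matrix.GeneralLinearGroup (Fin n) F), Cfsg.Geo.tensorProductSubgroup 2 n₂ e P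 ⊓ (Cfsg.GU n F 2 ⊓ Cfsg.Geo.specialLinear (Fin n) F) < K ∧ K < (Cfsg.GU n F 2 ⊓ Cfsg.Geo.specialLinear (Fin n) F) := by
  classical
  obtain ⟨c, hc0, hc⟩ := hT
  have hn2 : n = 2 * n₂ := by
    have h := Fintype.card_congr e
    simpa using h
  have h0 : 0 < n₂ := by omega
  have h1 : 1 < n₂ := by omega
  have h01 : (⟨0, h0⟩ : Fin n₂) ≠ ⟨1, h1⟩ := by
    intro h; simp [Fin.ext_iff] at h
  have h2F := Cfsg.Agent.S5656.two_zero hF
  obtain ⟨a₁, a₂, ha11, ha22, ha12, ha21⟩ := exists_on_pair hF hf₁ (0 : Fin 2) 1 (by decide)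
  obtain ⟨w₁, w₂, hw11, hw22, hw12, hw21⟩ := exists_on_pair hF hf₂ _ _ h01
  -- the form on pure tensors
  have hform0 : ∀ (a a' : Fin 2 → F) (y y' : Fin n₂ → F),
      Cfsg.hermForm n F 2 (tau e P a y) (tau e P a' y') = c * (f₁ a a' * f₂ y y') := by
    intro a a' y y'
    unfold tau
    rw [hc, fog_kron _ (fun u v => mul_pow u v 2), uf_gram hF hf₁, uf_gram hF hf₂]
  have hc1 : c = 1 := by
    have := hform0 a₁ a₁ w₁ w₁
    rw [ha11, hw11, mul_one, mul_one] at this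
    rcases Cfsg.Agent.S5656.h_self01 hF (tau e P a₁ w₁) with h | h
    · rw [h] at this; exact absurd this.symm hc0
    · rw [h] at this; exact this.symm
  have hform : ∀ (a a' : Fin 2 → F) (y y' : Fin n₂ → F),
      Cfsg.hermForm n F 2 (tau e P a y) (tau e P a' y') = f₁ a a' * f₂ y y' := by
    intro a a' y y'; rw [hform0, hc1, one_mul]
  -- the decomposition
  let tauL : (Fin 2 → F) → ((Fin n₂ → F) →ₗ[F] (Fin n → F)) := fun a =>
    { toFun := fun y => tau e P a y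
      map_add' := fun y y' => tau_add_right e P a y y'
      map_smul' := fun c y => tau_smul_right e P c a y }
  let D : Fin 2 → Submodule F (Fin n → F) := fun i => LinearMap.range (tauL (![a₁, a₂] i))
  -- part 1
  have hle : Cfsg.Geo.tensorProductSubgroup 2 n₂ e P ⊓ (Cfsg.GU n F 2 ⊓ Cfsg.Geo.specialLinear (Fin n) F)
      ≤ Cfsg.Geo.decompositionStabilizer D ⊓ (Cfsg.GU n F 2 ⊓ Cfsg.Geo.specialLinear (Fin n) F) := by
    rintro g ⟨hg1, hg2⟩
    refine ⟨?_, hg2⟩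
    obtain ⟨A, B, hAB⟩ := kron_tau e P g hg1
    have hGU : ∀ (a a' : Fin 2 → F) (y y' : Fin n₂ → F),
        f₁ ((A : Matrix (Fin 2) (Fin 2) F) *ᵥ a) ((A : Matrix (Fin 2) (Fin 2) F) *ᵥ a')
          * f₂ ((B : Matrix (Fin n₂) (Fin n₂) F) *ᵥ y) ((B : Matrix (Fin n₂) (Fin n₂) F) *ᵥ y')
          = f₁ a a' * f₂ y y' := by
      intro a a' y y'
      rw [← hform, ← hAB, ← hAB, ← hform]
      exact hg2.1 _ _
    have hμ : f₂ ((B : Matrix (Fin n₂) (Fin n₂) F) *ᵥ w₁) ((B : Matrix (Fin n₂) (Fin n₂) F) *ᵥ w₁) ≠ 0 := by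
      intro h0
      have := hGU a₁ a₁ w₁ w₁
      rw [h0, mul_zero, ha11, hw11, mul_one] at this
      exact zero_ne_one this
    have hN1 : f₁ ((A : Matrix (Fin 2) (Fin 2) F) *ᵥ a₁) ((A : Matrix (Fin 2) (Fin 2) F) *ᵥ a₁) ≠ 0 := by
      intro h0
      have := hGU a₁ a₁ w₁ w₁
      rw [h0, zero_mul, ha11, hw11, mul_one] at this
      exact zero_ne_one this
    have hN2 : f₁ ((A : Matrix (Fin 2) (Fin 2) F) *ᵥ a₂) ((A : Matrix (Fin 2) (Fin 2) F) *ᵥ a₂) ≠ 0 := by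
      intro h0
      have := hGU a₂ a₂ w₁ w₁
      rw [h0, zero_mul, ha22, hw11, mul_one] at this
      exact zero_ne_one this
    have hN12 : f₁ ((A : Matrix (Fin 2) (Fin 2) F) *ᵥ a₁) ((A : Matrix (Fin 2) (Fin 2) F) *ᵥ a₂) = 0 := by
      have := hGU a₁ a₂ w₁ w₁
      rw [ha12, zero_mul] at this
      rcases mul_eq_zero.mp this with h | h
      · exact h
      · exact absurd h hμ
    have hmap : ∀ (a b : Fin 2 → F) (x : F), x ≠ 0 → (A : Matrix (Fin 2) (Fin 2) F) *ᵥ a = x • b →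
        (LinearMap.range (tauL a)).map (Matrix.toLin' (g : Matrix (Fin n) (Fin n) F))
          = LinearMap.range (tauL b) := by
      intro a b x hx hab
      ext z
      constructor
      · rintro ⟨_, ⟨y, rfl⟩, rfl⟩
        refine ⟨x • ((B : Matrix (Fin n₂) (Fin n₂) F) *ᵥ y), ?_⟩
        show tau e P b (x • ((B : Matrix (Fin n₂) (Fin n₂) F) *ᵥ y))
          = Matrix.toLin' (g : Matrix (Fin n) (Fin n) F) (tau e P a y)
        rw [Matrix.toLin'_apply, hAB, hab, tau_smul_left, tau_smul_right]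
      · rintro ⟨y', rfl⟩
        refine ⟨tau e P a (((B⁻¹ : GL (Fin n₂) F) : Matrix (Fin n₂) (Fin n₂) F) *ᵥ (x⁻¹ • y')),
          ⟨_, rfl⟩, ?_⟩
        show Matrix.toLin' (g : Matrix (Fin n) (Fin n) F) (tau e P a _) = tau e P b y'
        rw [Matrix.toLin'_apply, hAB, hab, Matrix.mulVec_mulVec, ← Units.val_mul, mul_inv_cancel,
          Units.val_one, Matrix.one_mulVec, tau_smul_left, tau_smul_right, smul_smul,
          mul_inv_cancel₀ hx, one_smul]
    rcases classify2 hF hf₁ a₁ a₂ ha11 ha22 ha12 ha21 _ hN1 with ⟨x, hx0, hx⟩ | ⟨x, hx0, hx⟩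
    · rcases classify2 hF hf₁ a₁ a₂ ha11 ha22 ha12 ha21 _ hN2 with ⟨x', hx0', hx'⟩ | ⟨x', hx0', hx'⟩
      · exfalso
        rw [hx, hx', hf₁.smul_left, uf_smul_right hf₁, ha11, mul_one] at hN12
        exact mul_ne_zero hx0 (pow_ne_zero 2 hx0') hN12
      · exact ⟨1, Fin.forall_fin_two.2 ⟨hmap a₁ a₁ x hx0 hx, hmap a₂ a₂ x' hx0' hx'⟩⟩
    · rcases classify2 hF hf₁ a₁ a₂ ha11 ha22 ha12 ha21 _ hN2 with ⟨x', hx0', hx'⟩ | ⟨x', hx0', hx'⟩
      · refine ⟨Equiv.swap 0 1, Fin.forall_fin_two.2 ⟨?_, ?_⟩⟩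
        · rw [Equiv.swap_apply_left]; exact hmap a₁ a₂ x hx0 hx
        · rw [Equiv.swap_apply_right]; exact hmap a₂ a₁ x' hx0' hx'
      · exfalso
        rw [hx, hx', hf₁.smul_left, uf_smul_right hf₁, ha22, mul_one] at hN12
        exact mul_ne_zero hx0 (pow_ne_zero 2 hx0') hN12
  -- part 2
  have hu₂ : Cfsg.hermForm n F 2 (tau e P a₁ (w₁ + w₂)) (tau e P a₁ (w₁ + w₂)) = 0 := by
    rw [hform, ha11, one_mul, hf₂.add_left, uf_add_right hF hf₂, uf_add_right hF hf₂, hw11, hw22,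
      hw12, hw21]
    linear_combination h2F
  have ht₂tau : ∀ (a : Fin 2 → F) (y : Fin n₂ → F),
      ((Cfsg.Agent.S5656.tGL hF _ hu₂ : GL (Fin n) F) : Matrix (Fin n) (Fin n) F) *ᵥ tau e P a y
        = tau e P a y + (f₁ a a₁ * f₂ y (w₁ + w₂)) • tau e P a₁ (w₁ + w₂) := by
    intro a y; rw [Cfsg.Agent.S5656.tGL_apply, hform]
  have ht₂1 : ∀ y : Fin n₂ → F,
      ((Cfsg.Agent.S5656.tGL hF _ hu₂ : GL (Fin n) F) : Matrix (Fin n) (Fin n) F) *ᵥ tau e P a₁ y
        = tau e P a₁ (y + f₂ y (w₁ + w₂) • (w₁ + w₂)) := by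
    intro y; rw [ht₂tau, ha11, one_mul, tau_add_right e P a₁ y (f₂ y (w₁ + w₂) • (w₁ + w₂)),
      tau_smul_right]
  have ht₂2 : ∀ y : Fin n₂ → F,
      ((Cfsg.Agent.S5656.tGL hF _ hu₂ : GL (Fin n) F) : Matrix (Fin n) (Fin n) F) *ᵥ tau e P a₂ y
        = tau e P a₂ y := by
    intro y; rw [ht₂tau, ha21, zero_mul, zero_smul, add_zero]
  have ht₂inv : ∀ x : Fin n → F,
      ((Cfsg.Agent.S5656.tGL hF _ hu₂ : GL (Fin n) F) : Matrix (Fin n) (Fin n) F) *ᵥ
        (((Cfsg.Agent.S5656.tGL hF _ hu₂ : GL (Fin n) F) : Matrix (Fin n) (Fin n) F) *ᵥ x) = x := by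
    intro x
    rw [Matrix.mulVec_mulVec]
    have : ((Cfsg.Agent.S5656.tGL hF _ hu₂ : GL (Fin n) F) : Matrix (Fin n) (Fin n) F)
        * ((Cfsg.Agent.S5656.tGL hF _ hu₂ : GL (Fin n) F) : Matrix (Fin n) (Fin n) F) = 1 :=
      Cfsg.Agent.S5656.TT_sq hF _ hu₂
    rw [this, Matrix.one_mulVec]
  have ht₂K : Cfsg.Agent.S5656.tGL hF _ hu₂ ∈ Cfsg.Geo.decompositionStabilizer D
      ⊓ (Cfsg.GU n F 2 ⊓ Cfsg.Geo.specialLinear (Fin n) F) := by
    refine ⟨⟨1, Fin.forall_fin_two.2 ⟨?_, ?_⟩⟩, Cfsg.Agent.S5656.tGL_mem_GU hF _ hu₂,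
      Cfsg.Agent.S5656.tGL_mem_SL hF _ hu₂⟩
    · show (LinearMap.range (tauL a₁)).map (Matrix.toLin' _) = LinearMap.range (tauL a₁)
      apply le_antisymm
      · rintro _ ⟨_, ⟨y, rfl⟩, rfl⟩
        exact ⟨_, (ht₂1 y).symm⟩
      · rintro _ ⟨y, rfl⟩
        exact ⟨_, ⟨_, (ht₂1 y).symm⟩, ht₂inv _⟩
    · show (LinearMap.range (tauL a₂)).map (Matrix.toLin' _) = LinearMap.range (tauL a₂)
      apply le_antisymm
      · rintro _ ⟨_, ⟨y, rfl⟩, rfl⟩
        exact ⟨y, (ht₂2 y).symm⟩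
      · rintro _ ⟨y, rfl⟩
        exact ⟨tau e P a₂ y, ⟨y, rfl⟩, ht₂2 y⟩
  have ht₂T : Cfsg.Agent.S5656.tGL hF _ hu₂ ∉ Cfsg.Geo.tensorProductSubgroup 2 n₂ e P := by
    intro hmem
    obtain ⟨A, B, hAB⟩ := kron_tau e P _ hmem
    have h1 : ∀ y z : Fin n₂ → F, f₁ ((A : Matrix (Fin 2) (Fin 2) F) *ᵥ a₂) a₂
        * f₂ ((B : Matrix (Fin n₂) (Fin n₂) F) *ᵥ y) z = f₂ y z := by
      intro y z
      have := congrArg (fun v => Cfsg.hermForm n F 2 v (tau e P a₂ z)) (hAB a₂ y)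
      simp only [ht₂2, hform, ha22, one_mul] at this
      exact this.symm
    have hα0 : f₁ ((A : Matrix (Fin 2) (Fin 2) F) *ᵥ a₂) a₂ ≠ 0 := by
      intro h0
      have := h1 w₁ w₁
      rw [h0, zero_mul, hw11] at this
      exact zero_ne_one this
    have hB : ∀ y : Fin n₂ → F, (B : Matrix (Fin n₂) (Fin n₂) F) *ᵥ y
        = (f₁ ((A : Matrix (Fin 2) (Fin 2) F) *ᵥ a₂) a₂)⁻¹ • y := by
      intro y
      by_contra hne
      have hne' : (B : Matrix (Fin n₂) (Fin n₂) F) *ᵥ y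
          + (f₁ ((A : Matrix (Fin 2) (Fin 2) F) *ᵥ a₂) a₂)⁻¹ • y ≠ 0 := by
        intro h0
        apply hne
        have := congrArg (fun v => v + (f₁ ((A : Matrix (Fin 2) (Fin 2) F) *ᵥ a₂) a₂)⁻¹ • y) h0
        simp only [add_assoc, vec_add_self hF, add_zero, zero_add] at this
        exact this
      obtain ⟨z, hz⟩ := (hf₂.nondegenerate _ hne').2
      apply hz
      rw [hf₂.add_left, hf₂.smul_left]
      have e1 : f₂ ((B : Matrix (Fin n₂) (Fin n₂) F) *ᵥ y) z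
          = (f₁ ((A : Matrix (Fin 2) (Fin 2) F) *ᵥ a₂) a₂)⁻¹ * f₂ y z := by
        rw [← h1 y z, ← mul_assoc, inv_mul_cancel₀ hα0, one_mul]
      rw [e1]
      exact Cfsg.Agent.S5656.add_self4 hF _
    have h3 := hAB a₁ w₁
    rw [ht₂1, hB] at h3
    have hw : w₁ + f₂ w₁ (w₁ + w₂) • (w₁ + w₂) = w₂ := by
      rw [uf_add_right hF hf₂, hw11, hw12, add_zero, one_smul, ← add_assoc, vec_add_self hF, zero_add]
    rw [hw] at h3
    have := congrArg (fun v => Cfsg.hermForm n F 2 v (tau e P a₁ w₂)) h3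
    simp only [hform, ha11, hw22, mul_one, hf₂.smul_left, hw12, mul_zero] at this
    exact one_ne_zero this
  -- part 3
  have hu₃ : Cfsg.hermForm n F 2 (tau e P (a₁ + a₂) w₁) (tau e P (a₁ + a₂) w₁) = 0 := by
    rw [hform, hw11, mul_one, hf₁.add_left, uf_add_right hF hf₁, uf_add_right hF hf₁, ha11, ha22,
      ha12, ha21]
    linear_combination h2F
  have ht₃tau : ∀ (a : Fin 2 → F) (y : Fin n₂ → F),
      ((Cfsg.Agent.S5656.tGL hF _ hu₃ : GL (Fin n) F) : Matrix (Fin n) (Fin n) F) *ᵥ tau e P a y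
        = tau e P a y + (f₁ a (a₁ + a₂) * f₂ y w₁) • tau e P (a₁ + a₂) w₁ := by
    intro a y; rw [Cfsg.Agent.S5656.tGL_apply, hform]
  have ht₃1 : ((Cfsg.Agent.S5656.tGL hF _ hu₃ : GL (Fin n) F) : Matrix (Fin n) (Fin n) F)
      *ᵥ tau e P a₁ w₁ = tau e P a₂ w₁ := by
    rw [ht₃tau, uf_add_right hF hf₁, ha11, ha12, add_zero, hw11, mul_one, one_smul, tau_add_left,
      ← add_assoc, vec_add_self hF, zero_add]
  have ht₃2 : ((Cfsg.Agent.S5656.tGL hF _ hu₃ : GL (Fin n) F) : Matrix (Fin n) (Fin n) F)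
      *ᵥ tau e P a₁ w₂ = tau e P a₁ w₂ := by
    rw [ht₃tau, hw21, mul_zero, zero_smul, add_zero]
  have ht₃K : Cfsg.Agent.S5656.tGL hF _ hu₃ ∉ Cfsg.Geo.decompositionStabilizer D := by
    rintro ⟨σ, hσ⟩
    have h0 := hσ 0
    have m1 : tau e P a₂ w₁ ∈ D (σ 0) := by
      rw [← h0, ← ht₃1]; exact ⟨tau e P a₁ w₁, ⟨w₁, rfl⟩, rfl⟩
    have m2 : tau e P a₁ w₂ ∈ D (σ 0) := by
      rw [← h0]; exact ⟨tau e P a₁ w₂, ⟨w₂, rfl⟩, ht₃2⟩
    have hcase : σ 0 = 0 ∨ σ 0 = 1 := by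
      have : ∀ x : Fin 2, x = 0 ∨ x = 1 := by decide
      exact this _
    rcases hcase with hc | hc
    · rw [hc] at m1
      obtain ⟨y, hy⟩ := m1
      have hy' : tau e P a₁ y = tau e P a₂ w₁ := hy
      have := congrArg (fun v => Cfsg.hermForm n F 2 v (tau e P a₂ w₁)) hy'
      simp only [hform, ha12, ha22, hw11, zero_mul, mul_one] at this
      exact zero_ne_one this
    · rw [hc] at m2
      obtain ⟨y, hy⟩ := m2
      have hy' : tau e P a₂ y = tau e P a₁ w₂ := hy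
      have := congrArg (fun v => Cfsg.hermForm n F 2 v (tau e P a₁ w₂)) hy'
      simp only [hform, ha21, ha11, hw22, zero_mul, mul_one] at this
      exact zero_ne_one this
  refine ⟨Cfsg.Geo.decompositionStabilizer D ⊓ (Cfsg.GU n F 2 ⊓ Cfsg.Geo.specialLinear (Fin n) F),
    lt_of_le_of_ne hle ?_, lt_of_le_of_ne inf_le_right ?_⟩
  · intro h
    have := ht₂K
    rw [← h] at this
    exact ht₂T this.1
  · intro h
    have : Cfsg.Agent.S5656.tGL hF _ hu₃ ∈ Cfsg.Geo.decompositionStabilizer D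
        ⊓ (Cfsg.GU n F 2 ⊓ Cfsg.Geo.specialLinear (Fin n) F) := by
      rw [h]
      exact ⟨Cfsg.Agent.S5656.tGL_mem_GU hF _ hu₃, Cfsg.Agent.S5656.tGL_mem_SL hF _ hu₃⟩
    exact ht₃K this.1

end Cfsg.Agent.S5671
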