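import Cfsg.Statements.S5667
-- import your own Cfsg.Agent.* helpers here
import Cfsg.Agent.S5671
import Cfsg.Agent.S5648
import Cfsg.Agent.S0834

set_option autoImplicit false
open Cfsg

namespace Cfsg.Agent.S5667

open Matrix
open scoped Kronecker

section f3
variable {F : Type*} [Field F] [Fintype F]

theorem three_zero (hq : Fintype.card F = 3) : (3 : F) = 0 := by
  have h := FiniteField.cast_card_eq_zero F
  rw [hq] at h
  exact_mod_cast h

theorem elts3 (hq : Fintype.card F = 3) (x : F) : x = 0 ∨ x = 1 ∨ x = -1 := by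
  have h := FiniteField.pow_card x
  rw [hq] at h
  have h' : x * (x - 1) * (x + 1) = 0 := by linear_combination h
  rcases mul_eq_zero.mp h' with h1 | h1
  · rcases mul_eq_zero.mp h1 with h2 | h2
    · exact Or.inl h2
    · exact Or.inr (Or.inl (sub_eq_zero.mp h2))
  · exact Or.inr (Or.inr (eq_neg_of_add_eq_zero_left h1))

theorem two_ne (hq : Fintype.card F = 3) : (2 : F) ≠ 0 := by
  intro h
  have h3 := three_zero hq
  exact one_ne_zero (α := F) (by linear_combination h3 - h)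

theorem sq_one (hq : Fintype.card F = 3) {x : F} (hx : x ≠ 0) : x ^ 2 = 1 := by
  rcases elts3 hq x with h | h | h
  · exact absurd h hx
  · rw [h]; ring
  · rw [h]; ring

theorem pm_of_ne (hq : Fintype.card F = 3) (x y : F) (hx : x ≠ 0) (hy : y ≠ 0) :
    y = x ∨ y = -x := by
  rcases elts3 hq x with h | h | h <;> rcases elts3 hq y with h' | h' | h'
  all_goals first
    | exact absurd h hx
    | exact absurd h' hy
    | (left; rw [h, h']; done)
    | (right; rw [h, h']; first | done | ring)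

end f3

section bil
variable {F : Type*} [Field F] {ι : Type} [Fintype ι] [DecidableEq ι]

theorem bf_zero_left {f : (ι → F) → (ι → F) → F} (hf : Cfsg.Geo.IsBilinearForm f) (v : ι → F) :
    f 0 v = 0 := by
  have := hf.smul_left 0 0 v
  simpa using this

theorem bf_zero_right {f : (ι → F) → (ι → F) → F} (hf : Cfsg.Geo.IsBilinearForm f) (v : ι → F) :
    f v 0 = 0 := by
  have := hf.smul_right 0 v 0
  simpa using this

theorem bf_sum_left {f : (ι → F) → (ι → F) → F} (hf : Cfsg.Geo.IsBilinearForm f) {κ : Type*}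
    (s : Finset κ) (c : κ → F) (v : κ → ι → F) (w : ι → F) :
    f (∑ k ∈ s, c k • v k) w = ∑ k ∈ s, c k * f (v k) w := by
  classical
  induction s using Finset.induction_on with
  | empty => simp [bf_zero_left hf]
  | insert a s ha ih => rw [Finset.sum_insert ha, Finset.sum_insert ha, hf.add_left, hf.smul_left, ih]

theorem bf_sum_right {f : (ι → F) → (ι → F) → F} (hf : Cfsg.Geo.IsBilinearForm f) {κ : Type*}
    (s : Finset κ) (c : κ → F) (v : κ → ι → F) (w : ι → F) :
    f w (∑ k ∈ s, c k • v k) = ∑ k ∈ s, c k * f w (v k) := by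
  classical
  induction s using Finset.induction_on with
  | empty => simp [bf_zero_right hf]
  | insert a s ha ih =>
    rw [Finset.sum_insert ha, Finset.sum_insert ha, hf.add_right, hf.smul_right, ih]

theorem bf_gram {f : (ι → F) → (ι → F) → F} (hf : Cfsg.Geo.IsBilinearForm f) (x y : ι → F) :
    Cfsg.Geo.formOfGram id (Cfsg.Geo.gramMatrix f) x y = f x y := by
  have hx : x = ∑ a, x a • (Pi.single a 1 : ι → F) := by
    funext j
    simp [Finset.sum_apply, Pi.single_apply]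
  have hy : y = ∑ b, y b • (Pi.single b 1 : ι → F) := by
    funext j
    simp [Finset.sum_apply, Pi.single_apply]
  conv_rhs => rw [hx, bf_sum_left hf]
  unfold Cfsg.Geo.formOfGram Cfsg.Geo.gramMatrix
  refine Finset.sum_congr rfl fun a _ => ?_
  conv_rhs => rw [hy, bf_sum_right hf, Finset.mul_sum]
  refine Finset.sum_congr rfl fun b _ => ?_
  simp only [id]
  ring

end bil

section frame
variable {F : Type*} [Field F] [Fintype F]

theorem frame_aux (hq : Fintype.card F = 3) {f : (Fin 3 → F) → (Fin 3 → F) → F}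
    (hf : Cfsg.Geo.IsSymmetricForm f) (u₁ u₂ u₃ : Fin 3 → F) (ε : F) (hε : ε ≠ 0)
    (h1 : f u₁ u₁ = ε) (h2 : f u₂ u₂ = ε) (h3 : f u₃ u₃ = -ε) (h12 : f u₁ u₂ = 0)
    (h13 : f u₁ u₃ = 0) (h23 : f u₂ u₃ = 0) :
    ∃ (b : Fin 3 → Fin 3 → F) (δ : F), δ ≠ 0 ∧ ∀ i j, f (b i) (b j) = if i = j then δ else 0 := by
  have h3z := three_zero hq
  have h21 : f u₂ u₁ = 0 := by rw [hf.symm, h12]
  have h31 : f u₃ u₁ = 0 := by rw [hf.symm, h13]
  have h32 : f u₃ u₂ = 0 := by rw [hf.symm, h23]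
  have hbl := hf.bilinear
  have n11 : f (u₁ + u₂) (u₁ + u₂) = -ε := by
    simp only [hbl.add_left, hbl.add_right, h1, h2, h12, h21]
    linear_combination ε * h3z
  have n22 : f (u₁ + (-1 : F) • u₂) (u₁ + (-1 : F) • u₂) = -ε := by
    simp only [hbl.add_left, hbl.add_right, hbl.smul_left, hbl.smul_right, h1, h2, h12, h21]
    linear_combination ε * h3z
  have n12 : f (u₁ + u₂) (u₁ + (-1 : F) • u₂) = 0 := by
    simp only [hbl.add_left, hbl.add_right, hbl.smul_left, hbl.smul_right, h1, h2, h12, h21]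
    ring
  have n21 : f (u₁ + (-1 : F) • u₂) (u₁ + u₂) = 0 := by rw [hf.symm, n12]
  have n13 : f (u₁ + u₂) u₃ = 0 := by rw [hbl.add_left, h13, h23, add_zero]
  have n31 : f u₃ (u₁ + u₂) = 0 := by rw [hf.symm, n13]
  have n23 : f (u₁ + (-1 : F) • u₂) u₃ = 0 := by
    rw [hbl.add_left, hbl.smul_left, h13, h23, mul_zero, add_zero]
  have n32 : f u₃ (u₁ + (-1 : F) • u₂) = 0 := by rw [hf.symm, n23]
  refine ⟨![u₁ + u₂, u₁ + (-1 : F) • u₂, u₃], -ε, neg_ne_zero.mpr hε, ?_⟩
  intro i j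
  fin_cases i <;> fin_cases j
  · exact n11
  · exact n12
  · exact n13
  · exact n21
  · exact n22
  · exact n23
  · exact n31
  · exact n32
  · exact h3

theorem exists_frame (hq : Fintype.card F = 3) {f : (Fin 3 → F) → (Fin 3 → F) → F}
    (hf : Cfsg.Geo.IsSymmetricForm f) :
    ∃ (b : Fin 3 → Fin 3 → F) (δ : F), δ ≠ 0 ∧ ∀ i j, f (b i) (b j) = if i = j then δ else 0 := by
  classical
  have h2 := two_ne hq
  letI : Invertible (2 : F) := invertibleOfNonzero h2
  let B : LinearMap.BilinForm F (Fin 3 → F) :=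
    LinearMap.mk₂ F f hf.bilinear.add_left hf.bilinear.smul_left hf.bilinear.add_right
      hf.bilinear.smul_right
  have hBf : ∀ x y, B x y = f x y := fun x y => rfl
  have hS : B.IsSymm := ⟨fun x y => by rw [hBf, hBf]; exact hf.symm x y⟩
  have hN : B.Nondegenerate := by
    refine ⟨fun x hx => ?_, fun y hy => ?_⟩
    · by_contra hne
      obtain ⟨z, hz⟩ := (hf.nondegenerate x hne).2
      exact hz (hx z)
    · by_contra hne
      obtain ⟨z, hz⟩ := (hf.nondegenerate y hne).1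
      exact hz (hy z)
  obtain ⟨e, he⟩ := LinearMap.BilinForm.exists_orthogonal_basis (LinearMap.BilinForm.isSymm_iff.1 hS)
  have ho : ∀ i j, i ≠ j → f (e i) (e j) = 0 := fun i j hij => he hij
  have hd : ∀ i, f (e i) (e i) ≠ 0 := Cfsg.Agent.S0834.diag_ne_zero B hN e ho
  have hfr : Module.finrank F (Fin 3 → F) = 3 := by simp
  obtain ⟨i0, hi0⟩ : ∃ i : Fin (Module.finrank F (Fin 3 → F)), (i : ℕ) = 0 := ⟨⟨0, by omega⟩, rfl⟩
  obtain ⟨i1, hi1⟩ : ∃ i : Fin (Module.finrank F (Fin 3 → F)), (i : ℕ) = 1 := ⟨⟨1, by omega⟩, rfl⟩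
  obtain ⟨i2, hi2⟩ : ∃ i : Fin (Module.finrank F (Fin 3 → F)), (i : ℕ) = 2 := ⟨⟨2, by omega⟩, rfl⟩
  have h01 : i0 ≠ i1 := by intro hh; rw [hh] at hi0; omega
  have h02 : i0 ≠ i2 := by intro hh; rw [hh] at hi0; omega
  have h12 : i1 ≠ i2 := by intro hh; rw [hh] at hi1; omega
  have o01 := ho _ _ h01
  have o02 := ho _ _ h02
  have o12 := ho _ _ h12
  have o10 := ho _ _ h01.symm
  have o20 := ho _ _ h02.symm
  have o21 := ho _ _ h12.symm
  rcases pm_of_ne hq _ _ (hd i0) (hd i1) with h | h <;>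
    rcases pm_of_ne hq _ _ (hd i0) (hd i2) with h' | h'
  · refine ⟨![e i0, e i1, e i2], f (e i0) (e i0), hd i0, ?_⟩
    intro i j
    fin_cases i <;> fin_cases j
    · exact rfl
    · exact o01
    · exact o02
    · exact o10
    · exact h
    · exact o12
    · exact o20
    · exact o21
    · exact h'
  · exact frame_aux hq hf (e i0) (e i1) (e i2) (f (e i0) (e i0)) (hd i0) rfl h h' o01 o02 o12
  · exact frame_aux hq hf (e i0) (e i2) (e i1) (f (e i0) (e i0)) (hd i0) rfl h' h o02 o01 o21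
  · exact frame_aux hq hf (e i1) (e i2) (e i0) (f (e i1) (e i1)) (hd i1) rfl (by rw [h', h])
      (by rw [h, neg_neg]) o12 o10 o20

theorem frame_expand (hq : Fintype.card F = 3) {f : (Fin 3 → F) → (Fin 3 → F) → F}
    (hf : Cfsg.Geo.IsSymmetricForm f) (b : Fin 3 → Fin 3 → F) (δ : F) (hδ : δ ≠ 0)
    (hb : ∀ i j, f (b i) (b j) = if i = j then δ else 0) (y : Fin 3 → F) :
    y = ∑ j, (δ * f y (b j)) • b j := by
  classical
  have hδδ : δ * δ = 1 := by have := sq_one hq hδ; linear_combination this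
  have hli : LinearIndependent F b := by
    rw [Fintype.linearIndependent_iff]
    intro g hg k
    have h := congrArg (fun x => f x (b k)) hg
    simp only [bf_sum_left hf.bilinear, bf_zero_left hf.bilinear, hb, mul_ite, mul_zero,
      Finset.sum_ite_eq', Finset.mem_univ, if_true] at h
    exact (mul_eq_zero.mp h).resolve_right hδ
  have hspan := hli.span_eq_top_of_card_eq_finrank' (by simp)
  have hy : y ∈ Submodule.span F (Set.range b) := by rw [hspan]; trivial
  obtain ⟨c, hc⟩ := (Submodule.mem_span_range_iff_exists_fun F).1 hy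
  have hck : ∀ k, f y (b k) = c k * δ := by
    intro k
    rw [← hc, bf_sum_left hf.bilinear]
    simp only [hb, mul_ite, mul_zero, Finset.sum_ite_eq', Finset.mem_univ, if_true]
  conv_lhs => rw [← hc]
  refine Finset.sum_congr rfl fun j _ => ?_
  rw [hck j]
  congr 1
  linear_combination (-(c j)) * hδδ

theorem frame_classify (hq : Fintype.card F = 3) {f : (Fin 3 → F) → (Fin 3 → F) → F}
    (hf : Cfsg.Geo.IsSymmetricForm f) (b : Fin 3 → Fin 3 → F) (δ : F) (hδ : δ ≠ 0)
    (hb : ∀ i j, f (b i) (b j) = if i = j then δ else 0) (y : Fin 3 → F) (hy : f y y = δ) :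
    ∃ (j : Fin 3) (s : F), s ≠ 0 ∧ y = s • b j := by
  classical
  obtain ⟨c, rfl⟩ : ∃ c : Fin 3 → F, y = c 0 • b 0 + c 1 • b 1 + c 2 • b 2 :=
    ⟨fun j => δ * f y (b j), by
      have := frame_expand hq hf b δ hδ hb y
      rw [Fin.sum_univ_three] at this
      exact this⟩
  have hb' : ∀ i j, i ≠ j → f (b i) (b j) = 0 := fun i j h => by rw [hb, if_neg h]
  have hb'' : ∀ i, f (b i) (b i) = δ := fun i => by rw [hb, if_pos rfl]
  simp only [hf.bilinear.add_left, hf.bilinear.smul_left, hf.bilinear.add_right,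
    hf.bilinear.smul_right, hb'', hb' 0 1 (by decide), hb' 0 2 (by decide), hb' 1 0 (by decide),
    hb' 1 2 (by decide), hb' 2 0 (by decide), hb' 2 1 (by decide)] at hy
  have key : c 0 ^ 2 + c 1 ^ 2 + c 2 ^ 2 = 1 := by
    apply mul_left_cancel₀ hδ
    linear_combination hy
  have sq : ∀ j, c j = 0 ∨ c j ^ 2 = 1 := fun j => by
    by_cases h : c j = 0
    · exact Or.inl h
    · exact Or.inr (sq_one hq h)
  have hnz : ∀ j, c j ^ 2 = 1 → c j ≠ 0 := by
    intro j h h0
    rw [h0] at h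
    simp at h
  rcases sq 0 with h0 | h0 <;> rcases sq 1 with h1 | h1 <;> rcases sq 2 with h2 | h2
  · exfalso
    rw [h0, h1, h2] at key
    apply one_ne_zero (α := F)
    linear_combination -key
  · exact ⟨2, c 2, hnz 2 h2, by rw [h0, h1, zero_smul, zero_smul, zero_add, zero_add]⟩
  · exact ⟨1, c 1, hnz 1 h1, by rw [h0, h2, zero_smul, zero_smul, zero_add, add_zero]⟩
  · exfalso
    rw [h0, h1, h2] at key
    apply one_ne_zero (α := F)
    linear_combination key
  · exact ⟨0, c 0, hnz 0 h0, by rw [h1, h2, zero_smul, zero_smul, add_zero, add_zero]⟩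
  · exfalso
    rw [h0, h1, h2] at key
    apply one_ne_zero (α := F)
    linear_combination key
  · exfalso
    rw [h0, h1, h2] at key
    apply one_ne_zero (α := F)
    linear_combination key
  · exfalso
    rw [h0, h1, h2] at key
    exact two_ne hq (by linear_combination key)

theorem simil_one (hq : Fintype.card F = 3) {f : (Fin 3 → F) → (Fin 3 → F) → F}
    (hf : Cfsg.Geo.IsSymmetricForm f) (b : Fin 3 → Fin 3 → F) (δ : F) (hδ : δ ≠ 0)
    (hb : ∀ i j, f (b i) (b j) = if i = j then δ else 0)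
    (B : Matrix (Fin 3) (Fin 3) F) (lam : F) (hlam : lam ≠ 0)
    (hB : ∀ y y', f (B *ᵥ y) (B *ᵥ y') = lam * f y y') : lam = 1 := by
  classical
  have hδδ : δ * δ = 1 := by have := sq_one hq hδ; linear_combination this
  let M : Matrix (Fin 3) (Fin 3) F := fun j i => δ * f (B *ᵥ b i) (b j)
  have hMM : Mᵀ * M = lam • (1 : Matrix (Fin 3) (Fin 3) F) := by
    ext i k
    rw [Matrix.mul_apply]
    simp only [Matrix.transpose_apply, M, Matrix.smul_apply, Matrix.one_apply, smul_eq_mul]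
    have h1 : f (B *ᵥ b i) (B *ᵥ b k)
        = ∑ j, (δ * f (B *ᵥ b i) (b j)) * f (B *ᵥ b k) (b j) := by
      conv_lhs => rw [frame_expand hq hf b δ hδ hb (B *ᵥ b i)]
      rw [bf_sum_left hf.bilinear]
      refine Finset.sum_congr rfl fun j _ => ?_
      rw [hf.symm (b j)]
    have h2 := hB (b i) (b k)
    rw [hb] at h2
    calc ∑ j, δ * f (B *ᵥ b i) (b j) * (δ * f (B *ᵥ b k) (b j))
        = δ * ∑ j, (δ * f (B *ᵥ b i) (b j)) * f (B *ᵥ b k) (b j) := by
          rw [Finset.mul_sum]; exact Finset.sum_congr rfl fun j _ => by ring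
      _ = δ * (lam * if i = k then δ else 0) := by rw [← h1, h2]
      _ = lam * if i = k then 1 else 0 := by
          split_ifs
          · linear_combination lam * hδδ
          · ring
  have hdet : M.det ^ 2 = lam := by
    have h := congrArg Matrix.det hMM
    rw [Matrix.det_mul, Matrix.det_transpose, Matrix.det_smul, Matrix.det_one, Fintype.card_fin,
      mul_one] at h
    have h3 : lam ^ 3 = lam := by have := FiniteField.pow_card lam; rwa [hq] at this
    rw [h3] at h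
    rw [sq]; exact h
  rcases elts3 hq lam with h | h | h
  · exact absurd h hlam
  · exact h
  · exfalso
    rcases elts3 hq M.det with h' | h' | h'
    · rw [h', h] at hdet
      apply one_ne_zero (α := F)
      linear_combination hdet
    · rw [h', h] at hdet
      exact two_ne hq (by linear_combination hdet)
    · rw [h', h] at hdet
      exact two_ne hq (by linear_combination hdet)

end frame

section tensor
variable {F : Type*} [Field F] {ι : Type} [Fintype ι] [DecidableEq ι] {n₁ n₂ : ℕ}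

/-- the image of a pure tensor in `F^ι` -/
def tau (e : ι ≃ Fin n₁ × Fin n₂) (P : GL ι F) (a : Fin n₁ → F) (y : Fin n₂ → F) :
    ι → F := (P : Matrix ι ι F) *ᵥ (Cfsg.Agent.S5671.ten a y ∘ e)

theorem tau_add_left (e : ι ≃ Fin n₁ × Fin n₂) (P : GL ι F) (a a' : Fin n₁ → F)
    (y : Fin n₂ → F) : tau e P (a + a') y = tau e P a y + tau e P a' y := by
  unfold tau
  rw [← Matrix.mulVec_add]
  congr 1
  funext i
  simp [Cfsg.Agent.S5671.ten, add_mul]

theorem tau_add_right (e : ι ≃ Fin n₁ × Fin n₂) (P : GL ι F) (a : Fin n₁ → F)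
    (y y' : Fin n₂ → F) : tau e P a (y + y') = tau e P a y + tau e P a y' := by
  unfold tau
  rw [← Matrix.mulVec_add]
  congr 1
  funext i
  simp [Cfsg.Agent.S5671.ten, mul_add]

theorem tau_smul_left (e : ι ≃ Fin n₁ × Fin n₂) (P : GL ι F) (c : F) (a : Fin n₁ → F)
    (y : Fin n₂ → F) : tau e P (c • a) y = c • tau e P a y := by
  unfold tau
  rw [← Matrix.mulVec_smul]
  congr 1
  funext i
  simp [Cfsg.Agent.S5671.ten, mul_assoc]

theorem tau_smul_right (e : ι ≃ Fin n₁ × Fin n₂) (P : GL ι F) (c : F) (a : Fin n₁ → F)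
    (y : Fin n₂ → F) : tau e P a (c • y) = c • tau e P a y := by
  unfold tau
  rw [← Matrix.mulVec_smul]
  congr 1
  funext i
  simp [Cfsg.Agent.S5671.ten, mul_left_comm]

/-- the elements of the tensor product subgroup act on pure tensors factorwise -/
theorem kron_tau (e : ι ≃ Fin n₁ × Fin n₂) (P : GL ι F) (g : GL ι F)
    (hg : g ∈ Cfsg.Geo.tensorProductSubgroup n₁ n₂ e P) :
    ∃ (A : GL (Fin n₁) F) (B : GL (Fin n₂) F), ∀ (a : Fin n₁ → F) (y : Fin n₂ → F),
      (g : Matrix ι ι F) *ᵥ tau e P a y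
        = tau e P ((A : Matrix (Fin n₁) (Fin n₁) F) *ᵥ a) ((B : Matrix (Fin n₂) (Fin n₂) F) *ᵥ y) := by
  obtain ⟨g', ⟨M, ⟨A, B, hM⟩, rfl⟩, rfl⟩ := hg
  refine ⟨A, B, fun a y => ?_⟩
  have h1 : (((MulAut.conj P).toMonoidHom ((Cfsg.Geo.glReindex e.symm).toMonoidHom M) : GL ι F)
      : Matrix ι ι F)
      = (P : Matrix ι ι F) * (M : Matrix _ _ F).submatrix e e
        * ((P⁻¹ : GL ι F) : Matrix ι ι F) := rfl
  rw [h1]
  unfold tau
  rw [Matrix.mulVec_mulVec, mul_assoc, mul_assoc, Units.inv_mul, mul_one, ← Matrix.mulVec_mulVec]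
  congr 1
  rw [Matrix.submatrix_mulVec_equiv]
  have h2 : (Cfsg.Agent.S5671.ten a y ∘ e) ∘ e.symm = Cfsg.Agent.S5671.ten a y := by
    funext p; simp
  rw [h2, hM, Cfsg.Agent.S5671.kron_mulVec_ten]

end tensor

section tv
variable {F : Type*} [Field F] {m : ℕ}

theorem sf_smul_left (c : F) (u v : Fin m ⊕ Fin m → F) :
    Cfsg.sympForm m F (c • u) v = c * Cfsg.sympForm m F u v := by
  simp [Cfsg.sympForm, smul_dotProduct]

theorem tv_mul_neg (w : Fin m ⊕ Fin m → F) (c : F) :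
    Cfsg.sympTransvection m w c * Cfsg.sympTransvection m w (-c) = 1 := by
  apply Matrix.toLin'.injective
  apply LinearMap.ext
  intro x
  simp only [Matrix.toLin'_mul, LinearMap.comp_apply, Matrix.toLin'_apply, Matrix.toLin'_one,
    LinearMap.id_coe, id_eq, Cfsg.Agent.Helper6.tv_mulVec, Cfsg.Agent.Helper6.sf_add_left,
    sf_smul_left, Cfsg.Agent.Helper6.sf_self, mul_zero, add_zero]
  rw [add_assoc, ← add_smul]
  have : -c * Cfsg.sympForm m F x w + c * Cfsg.sympForm m F x w = 0 := by ring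
  rw [this, zero_smul, add_zero]

/-- the symplectic transvection as an element of the general linear group -/
noncomputable def tvG (w : Fin m ⊕ Fin m → F) (c : F) : GL (Fin m ⊕ Fin m) F :=
  ⟨Cfsg.sympTransvection m w c, Cfsg.sympTransvection m w (-c), tv_mul_neg w c, by
    have := tv_mul_neg w (-c)
    rwa [neg_neg] at this⟩

theorem tvG_mem (w : Fin m ⊕ Fin m → F) (c : F) : tvG w c ∈ Cfsg.spGL m F :=
  fun u v => Cfsg.Agent.Helper6.sp_preserves ⟨_, Cfsg.Agent.S0764.result m w c⟩ u v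

theorem tvG_apply (w : Fin m ⊕ Fin m → F) (c : F) (x : Fin m ⊕ Fin m → F) :
    ((tvG w c : GL (Fin m ⊕ Fin m) F) : Matrix (Fin m ⊕ Fin m) (Fin m ⊕ Fin m) F) *ᵥ x =
      x + (c * Cfsg.sympForm m F x w) • w :=
  Cfsg.Agent.Helper6.tv_mulVec w c x

end tv

/-- Over the field with 3 elements and for m ≥ 7, suppose the standard alternating form on F^(2m) is similar, through P and e, to the tensor product of a non-degenerate symplectic form f₁ on F^(n₁) and a non-degenerate symmetric bilinear form f₂ on F^3. Then the elements of Sp_2m(3) in the stabiliser of this tensor decomposition form a subgroup that is not maximal: some subgroup lies strictly between it and Sp_2m(3). -/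
theorem result {F : Type*} [Field F] [Fintype F] (m : ℕ) (hm : 7 ≤ m) (hq : Fintype.card F = 3) (n₁ : ℕ) (e : (Fin m ⊕ Fin m) ≃ Fin n₁ × Fin 3) (P : Matrix.GeneralLinearGroup (Fin m ⊕ Fin m) F) (f₁ : (Fin n₁ → F) → (Fin n₁ → F) → F) (f₂ : (Fin 3 → F) → (Fin 3 → F) → F) (hf₁ : Cfsg.Geo.IsSymplecticForm f₁) (hf₂ : Cfsg.Geo.IsSymmetricForm f₂) (hT : Cfsg.Geo.IsTensorFormStructure id (Cfsg.sympForm m F) f₁ f₂ e P) : ∃ K : Subgroup (Matrix.GeneralLinearGroup (Fin m ⊕ Fin m) F), Cfsg.Geo.tensorProductSubgroup n₁ 3 e P ⊓ Cfsg.spGL m F < K ∧ K < Cfsg.spGL m F := by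
  classical
  obtain ⟨c, hc0, hc⟩ := hT
  have hbl₁ := hf₁.bilinear
  have hbl₂ := hf₂.bilinear
  obtain ⟨b, δ, hδ, hb⟩ := exists_frame hq hf₂
  have hδδ : δ * δ = 1 := by have := sq_one hq hδ; linear_combination this
  have hb' : ∀ i j, i ≠ j → f₂ (b i) (b j) = 0 := fun i j h => by rw [hb, if_neg h]
  have hb'' : ∀ i, f₂ (b i) (b i) = δ := fun i => by rw [hb, if_pos rfl]
  -- the form on pure tensors
  have hform : ∀ (a a' : Fin n₁ → F) (y y' : Fin 3 → F),
      Cfsg.sympForm m F (tau e P a y) (tau e P a' y') = c * (f₁ a a' * f₂ y y') := by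
    intro a a' y y'
    unfold tau
    rw [hc, Cfsg.Agent.S5671.fog_kron _ (fun u v => rfl), bf_gram hbl₁, bf_gram hbl₂]
  have hcard : m + m = n₁ * 3 := by
    have h := Fintype.card_congr e
    simpa using h
  have hn₁ : 0 < n₁ := by omega
  obtain ⟨a₀, a₁, ha01⟩ : ∃ a₀ a₁ : Fin n₁ → F, f₁ a₀ a₁ = 1 := by
    have hne : (Pi.single (⟨0, hn₁⟩ : Fin n₁) (1 : F) : Fin n₁ → F) ≠ 0 := by
      intro h
      have := congrFun h ⟨0, hn₁⟩
      simp at this
    obtain ⟨x, hx⟩ := (hf₁.nondegenerate _ hne).2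
    exact ⟨(f₁ _ x)⁻¹ • (Pi.single (⟨0, hn₁⟩ : Fin n₁) (1 : F) : Fin n₁ → F), x, by
      rw [hbl₁.smul_left, inv_mul_cancel₀ hx]⟩
  have ha10 : f₁ a₁ a₀ = -1 := by rw [hf₁.skew, ha01]
  have ha00 : f₁ a₀ a₀ = 0 := hf₁.alternating a₀
  have ha11 : f₁ a₁ a₁ = 0 := hf₁.alternating a₁
  -- the decomposition
  let tauR : (Fin 3 → F) → ((Fin n₁ → F) →ₗ[F] (Fin m ⊕ Fin m → F)) := fun y =>
    { toFun := fun a => tau e P a y
      map_add' := fun a a' => tau_add_left e P a a' y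
      map_smul' := fun s a => tau_smul_left e P s a y }
  let D : Fin 3 → Submodule F (Fin m ⊕ Fin m → F) := fun i => LinearMap.range (tauR (b i))
  -- part 1
  have hle : Cfsg.Geo.tensorProductSubgroup n₁ 3 e P ⊓ Cfsg.spGL m F
      ≤ Cfsg.Geo.decompositionStabilizer D ⊓ Cfsg.spGL m F := by
    rintro g ⟨hg1, hg2⟩
    refine ⟨?_, hg2⟩
    obtain ⟨A, B, hAB⟩ := kron_tau e P g hg1
    have hGU : ∀ (a a' : Fin n₁ → F) (y y' : Fin 3 → F),
        f₁ ((A : Matrix (Fin n₁) (Fin n₁) F) *ᵥ a) ((A : Matrix (Fin n₁) (Fin n₁) F) *ᵥ a')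
          * f₂ ((B : Matrix (Fin 3) (Fin 3) F) *ᵥ y) ((B : Matrix (Fin 3) (Fin 3) F) *ᵥ y')
          = f₁ a a' * f₂ y y' := by
      intro a a' y y'
      have h : Cfsg.sympForm m F
          ((g : Matrix (Fin m ⊕ Fin m) (Fin m ⊕ Fin m) F) *ᵥ tau e P a y)
          ((g : Matrix (Fin m ⊕ Fin m) (Fin m ⊕ Fin m) F) *ᵥ tau e P a' y')
          = Cfsg.sympForm m F (tau e P a y) (tau e P a' y') := hg2 _ _
      rw [hAB, hAB, hform, hform] at h
      exact mul_left_cancel₀ hc0 h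
    obtain ⟨lam, hlam⟩ : ∃ lam : F, lam = f₁ ((A : Matrix (Fin n₁) (Fin n₁) F) *ᵥ a₀)
        ((A : Matrix (Fin n₁) (Fin n₁) F) *ᵥ a₁) := ⟨_, rfl⟩
    have hB : ∀ y y' : Fin 3 → F, lam * f₂ ((B : Matrix (Fin 3) (Fin 3) F) *ᵥ y)
        ((B : Matrix (Fin 3) (Fin 3) F) *ᵥ y') = f₂ y y' := by
      intro y y'
      have := hGU a₀ a₁ y y'
      rw [ha01, one_mul, ← hlam] at this
      exact this
    have hlam0 : lam ≠ 0 := by
      intro h0
      have := hB (b 0) (b 0)
      rw [h0, zero_mul, hb'' 0] at this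
      exact hδ this.symm
    have hlam2 : lam * lam = 1 := by have := sq_one hq hlam0; linear_combination this
    have hB' : ∀ y y' : Fin 3 → F, f₂ ((B : Matrix (Fin 3) (Fin 3) F) *ᵥ y)
        ((B : Matrix (Fin 3) (Fin 3) F) *ᵥ y') = lam * f₂ y y' := by
      intro y y'
      rw [← hB y y', ← mul_assoc, hlam2, one_mul]
    have hlam1 : lam = 1 := simil_one hq hf₂ b δ hδ hb _ lam hlam0 hB'
    have hcl : ∀ i, ∃ (j : Fin 3) (s : F), s ≠ 0 ∧ (B : Matrix (Fin 3) (Fin 3) F) *ᵥ b i = s • b j := by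
      intro i
      apply frame_classify hq hf₂ b δ hδ hb
      rw [hB', hlam1, one_mul, hb'' i]
    choose π s hs hπ using hcl
    have hinj : Function.Injective π := by
      intro i k hik
      by_contra hne
      have h := hB' (b i) (b k)
      rw [hπ i, hπ k, hik, hbl₂.smul_left, hbl₂.smul_right, hb'' (π k), hb' i k hne, mul_zero] at h
      exact mul_ne_zero (hs i) (mul_ne_zero (hs k) hδ) h
    have hbij : Function.Bijective π := Finite.injective_iff_bijective.mp hinj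
    refine ⟨Equiv.ofBijective π hbij, fun i => ?_⟩
    show (LinearMap.range (tauR (b i))).map
        (Matrix.toLin' (g : Matrix (Fin m ⊕ Fin m) (Fin m ⊕ Fin m) F))
        = LinearMap.range (tauR (b (π i)))
    ext z
    constructor
    · rintro ⟨_, ⟨a, rfl⟩, rfl⟩
      refine ⟨s i • ((A : Matrix (Fin n₁) (Fin n₁) F) *ᵥ a), ?_⟩
      show tau e P (s i • ((A : Matrix (Fin n₁) (Fin n₁) F) *ᵥ a)) (b (π i))
        = Matrix.toLin' (g : Matrix (Fin m ⊕ Fin m) (Fin m ⊕ Fin m) F) (tau e P a (b i))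
      rw [Matrix.toLin'_apply, hAB, hπ, tau_smul_left, tau_smul_right]
    · rintro ⟨a', rfl⟩
      refine ⟨tau e P (((A⁻¹ : GL (Fin n₁) F) : Matrix (Fin n₁) (Fin n₁) F) *ᵥ ((s i)⁻¹ • a')) (b i),
        ⟨_, rfl⟩, ?_⟩
      show Matrix.toLin' (g : Matrix (Fin m ⊕ Fin m) (Fin m ⊕ Fin m) F) (tau e P _ (b i))
        = tau e P a' (b (π i))
      rw [Matrix.toLin'_apply, hAB, hπ, Matrix.mulVec_mulVec, ← Units.val_mul, mul_inv_cancel,
        Units.val_one, Matrix.one_mulVec, tau_smul_left, tau_smul_right, smul_smul,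
        inv_mul_cancel₀ (hs i), one_smul]
  -- part 2
  have ht₂tau : ∀ (a : Fin n₁ → F) (y : Fin 3 → F),
      ((tvG (tau e P a₀ (b 0)) 1 : GL (Fin m ⊕ Fin m) F) : Matrix (Fin m ⊕ Fin m) (Fin m ⊕ Fin m) F)
        *ᵥ tau e P a y
        = tau e P a y + (c * (f₁ a a₀ * f₂ y (b 0))) • tau e P a₀ (b 0) := by
    intro a y; rw [tvG_apply, one_mul, hform]
  have ht₂0 : ∀ a : Fin n₁ → F,
      ((tvG (tau e P a₀ (b 0)) 1 : GL (Fin m ⊕ Fin m) F) : Matrix (Fin m ⊕ Fin m) (Fin m ⊕ Fin m) F)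
        *ᵥ tau e P a (b 0)
        = tau e P (a + (c * (f₁ a a₀ * δ)) • a₀) (b 0) := by
    intro a
    rw [ht₂tau, hb'' 0, tau_add_left e P a ((c * (f₁ a a₀ * δ)) • a₀) (b 0), tau_smul_left]
  have ht₂fix : ∀ i : Fin 3, i ≠ 0 → ∀ a : Fin n₁ → F,
      ((tvG (tau e P a₀ (b 0)) 1 : GL (Fin m ⊕ Fin m) F) : Matrix (Fin m ⊕ Fin m) (Fin m ⊕ Fin m) F)
        *ᵥ tau e P a (b i) = tau e P a (b i) := by
    intro i hi a
    rw [ht₂tau, hb' i 0 hi, mul_zero, mul_zero, zero_smul, add_zero]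
  have ht₂K : tvG (tau e P a₀ (b 0)) 1 ∈ Cfsg.Geo.decompositionStabilizer D ⊓ Cfsg.spGL m F := by
    refine ⟨⟨1, fun i => ?_⟩, tvG_mem _ _⟩
    show (LinearMap.range (tauR (b i))).map (Matrix.toLin' _) = LinearMap.range (tauR (b i))
    by_cases hi : i = 0
    · subst hi
      apply le_antisymm
      · rintro _ ⟨_, ⟨a, rfl⟩, rfl⟩
        exact ⟨_, (ht₂0 a).symm⟩
      · rintro _ ⟨a, rfl⟩
        refine ⟨_, ⟨a + (-(c * (f₁ a a₀ * δ))) • a₀, rfl⟩, ?_⟩
        show Matrix.toLin' _ (tau e P (a + (-(c * (f₁ a a₀ * δ))) • a₀) (b 0)) = tau e P a (b 0)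
        rw [Matrix.toLin'_apply, ht₂0, hbl₁.add_left, hbl₁.smul_left, ha00, mul_zero, add_zero,
          add_assoc, ← add_smul, neg_add_cancel, zero_smul, add_zero]
    · apply le_antisymm
      · rintro _ ⟨_, ⟨a, rfl⟩, rfl⟩
        exact ⟨a, (ht₂fix i hi a).symm⟩
      · rintro _ ⟨a, rfl⟩
        exact ⟨tau e P a (b i), ⟨a, rfl⟩, ht₂fix i hi a⟩
  have ht₂T : tvG (tau e P a₀ (b 0)) 1 ∉ Cfsg.Geo.tensorProductSubgroup n₁ 3 e P := by
    intro hmem
    obtain ⟨A, B, hAB⟩ := kron_tau e P _ hmem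
    have h1 : ∀ a a' : Fin n₁ → F, f₁ ((A : Matrix (Fin n₁) (Fin n₁) F) *ᵥ a) a'
        * f₂ ((B : Matrix (Fin 3) (Fin 3) F) *ᵥ b 1) (b 1) = f₁ a a' * δ := by
      intro a a'
      have := congrArg (fun v => Cfsg.sympForm m F v (tau e P a' (b 1))) (hAB a (b 1))
      simp only [ht₂fix 1 (by decide), hform, hb'' 1] at this
      exact (mul_left_cancel₀ hc0 this).symm
    obtain ⟨β, hβ⟩ : ∃ β : F, β = f₂ ((B : Matrix (Fin 3) (Fin 3) F) *ᵥ b 1) (b 1) := ⟨_, rfl⟩
    rw [← hβ] at h1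
    have hβ0 : β ≠ 0 := by
      intro h0
      have := h1 a₀ a₁
      rw [h0, mul_zero, ha01, one_mul] at this
      exact hδ this.symm
    have hA : ∀ a : Fin n₁ → F, (A : Matrix (Fin n₁) (Fin n₁) F) *ᵥ a = (δ * β⁻¹) • a := by
      intro a
      by_contra hne
      have hne' : (A : Matrix (Fin n₁) (Fin n₁) F) *ᵥ a + (-(δ * β⁻¹)) • a ≠ 0 := by
        intro h0
        apply hne
        have := congrArg (fun v => v + (δ * β⁻¹) • a) h0
        simp only [add_assoc, ← add_smul, neg_add_cancel, zero_smul, add_zero, zero_add] at this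
        exact this
      obtain ⟨z, hz⟩ := (hf₁.nondegenerate _ hne').2
      apply hz
      rw [hbl₁.add_left, hbl₁.smul_left]
      have e1 : f₁ ((A : Matrix (Fin n₁) (Fin n₁) F) *ᵥ a) z = f₁ a z * δ * β⁻¹ := by
        rw [← h1 a z, mul_assoc, mul_inv_cancel₀ hβ0, mul_one]
      rw [e1]
      ring
    have h3 := hAB a₁ (b 0)
    rw [ht₂0, hA, ha10] at h3
    have := congrArg (fun v => Cfsg.sympForm m F v (tau e P a₁ (b 0))) h3
    simp only [hform, hbl₁.add_left, hbl₁.smul_left, ha11, ha01, hb'' 0, mul_zero, zero_mul,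
      zero_add, mul_one] at this
    have hne : c * (c * (-1 * δ) * δ) ≠ 0 :=
      mul_ne_zero hc0 (mul_ne_zero (mul_ne_zero hc0 (mul_ne_zero (by simp) hδ)) hδ)
    exact hne this
  -- part 3
  have ht₃1 : ((tvG (tau e P a₀ (b 0 + b 1)) 1 : GL (Fin m ⊕ Fin m) F)
      : Matrix (Fin m ⊕ Fin m) (Fin m ⊕ Fin m) F) *ᵥ tau e P a₁ (b 0)
      = tau e P a₁ (b 0) + (-(c * δ)) • tau e P a₀ (b 0 + b 1) := by
    rw [tvG_apply, one_mul, hform, ha10, hbl₂.add_right, hb'' 0, hb' 0 1 (by decide), add_zero]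
    congr 2
    ring
  have ht₃K : tvG (tau e P a₀ (b 0 + b 1)) 1 ∉ Cfsg.Geo.decompositionStabilizer D := by
    rintro ⟨σ, hσ⟩
    have h0 := hσ 0
    have m1 : tau e P a₁ (b 0) + (-(c * δ)) • tau e P a₀ (b 0 + b 1) ∈ D (σ 0) := by
      rw [← h0, ← ht₃1]; exact ⟨tau e P a₁ (b 0), ⟨a₁, rfl⟩, rfl⟩
    obtain ⟨a'', ha''⟩ := m1
    have ha''' : tau e P a'' (b (σ 0)) = tau e P a₁ (b 0) + (-(c * δ)) • tau e P a₀ (b 0 + b 1) :=
      ha''
    have e0 := congrArg (fun v => Cfsg.sympForm m F v (tau e P a₁ (b 0))) ha'''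
    have e1 := congrArg (fun v => Cfsg.sympForm m F v (tau e P a₁ (b 1))) ha'''
    simp only [Cfsg.Agent.Helper6.sf_add_left, sf_smul_left, hform, ha11, ha01, hbl₂.add_left,
      hb'' 0, hb'' 1, hb' 0 1 (by decide), hb' 1 0 (by decide), zero_mul, mul_zero, zero_add,
      add_zero, one_mul] at e0 e1
    have hne : -(c * δ) * (c * δ) ≠ 0 :=
      mul_ne_zero (neg_ne_zero.mpr (mul_ne_zero hc0 hδ)) (mul_ne_zero hc0 hδ)
    have hs0 : σ 0 = 0 := by
      by_contra hh
      rw [hb' _ _ hh, mul_zero, mul_zero] at e0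
      exact hne e0.symm
    have hs1 : σ 0 = 1 := by
      by_contra hh
      rw [hb' _ _ hh, mul_zero, mul_zero] at e1
      exact hne e1.symm
    rw [hs0] at hs1
    exact absurd hs1 (by decide)
  refine ⟨Cfsg.Geo.decompositionStabilizer D ⊓ Cfsg.spGL m F,
    lt_of_le_of_ne hle ?_, lt_of_le_of_ne inf_le_right ?_⟩
  · intro h
    have := ht₂K
    rw [← h] at this
    exact ht₂T this.1
  · intro h
    have : tvG (tau e P a₀ (b 0 + b 1)) 1 ∈ Cfsg.Geo.decompositionStabilizer D ⊓ Cfsg.spGL m F := by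
      rw [h]
      exact tvG_mem _ _
    exact ht₃K this.1

end Cfsg.Agent.S5667
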