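import Cfsg.Statements.S5675
import Cfsg.Agent.Helper16.NDMax4

set_option autoImplicit false
open Cfsg

namespace Cfsg.Agent.S5675

/-- Let F be a finite field of odd order q, m ≥ 6, Q the standard quadratic form on F^(2m+1) and Ω the commutator subgroup of its isometry group. Let W be a non-zero subspace of even dimension on which the polar form of Q is non-degenerate; exclude the case q = 3, dim W = 2 with Q vanishing on some line of W (a plus-type plane). Then the elements of Ω stabilising W (equivalently, stabilising its orthogonal complement, of odd dimension) form a maximal subgroup of Ω. -/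
theorem result {F : Type*} [Field F] [Fintype F] (hodd : Odd (Fintype.card F)) (m : ℕ) (hm : 6 ≤ m) (W : Submodule F (Unit ⊕ (Fin m ⊕ Fin m) → F)) (hW0 : W ≠ ⊥) (hev : Even (Module.finrank F W)) (hW : Cfsg.Geo.IsNondegenerateOn (QuadraticMap.polar (Cfsg.quadFormOdd m F)) W) (hex : ¬ (Fintype.card F = 3 ∧ Module.finrank F W = 2 ∧ Cfsg.Geo.IsPlusTypeOn (Cfsg.quadFormOdd m F) W)) : Cfsg.Geo.IsMaximalIn (Cfsg.Geo.omegaGL (Cfsg.quadFormOdd m F)) (Cfsg.Geo.subspaceStabilizer W ⊓ Cfsg.Geo.omegaGL (Cfsg.quadFormOdd m F)) := by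
  have h2 : (2 : F) ≠ 0 := by
    intro h
    have h' := FiniteField.even_card_of_char_two (CharP.ringChar_of_prime_eq_zero Nat.prime_two h)
    rcases hodd with ⟨k, hk⟩
    omega
  have hcard : Fintype.card (Unit ⊕ (Fin m ⊕ Fin m)) = 2 * m + 1 := by
    simp only [Fintype.card_sum, Fintype.card_unit, Fintype.card_fin]
    omega
  have hco := Cfsg.Agent.Helper16.coe_qfOdd m F
  rw [← hco] at hW hex ⊢
  obtain ⟨kk, hkk⟩ := hev
  apply Cfsg.Agent.Helper16.nd_max (by rw [hcard]; omega)
    (Cfsg.Agent.Helper16.qfOdd m F) (Cfsg.Agent.Helper16.qfOdd_nondegenerate h2) W hW0 ?_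
    (Cfsg.Agent.Helper16.nd_of_nondegOn _ W hW) ?_ ?_
  · intro h
    rw [h, finrank_top, Module.finrank_fintype_fun_eq_card, hcard] at hkk
    omega
  · intro h
    rw [hcard] at h
    omega
  · rintro ⟨h1, U, hU2, hsing, hUW⟩
    rcases hUW with hU | hU
    · have hc3 : Fintype.card F = 3 := by
        have h4 := Fintype.one_lt_card (α := F)
        rcases hodd with ⟨k, hk⟩
        omega
      have hp := (Cfsg.Agent.Helper16.plus_plane_of_sing (Cfsg.Agent.Helper16.qfOdd m F)
        (Cfsg.Agent.Helper16.qfOdd_nondegenerate h2) W U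
        (Cfsg.Agent.Helper16.nd_of_nondegOn _ W hW) hU2 hsing (Or.inl hU)).2.1
      rw [hU] at hU2 hp
      exact hex ⟨hc3, hU2, hp⟩
    · rw [hU, Cfsg.Agent.Helper16.finrank_orth _ (Cfsg.Agent.Helper16.qfOdd_nondegenerate h2),
        Module.finrank_fintype_fun_eq_card, hcard] at hU2
      omega

end Cfsg.Agent.S5675
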