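import Cfsg.Statements.S5677
import Cfsg.Agent.Helper16.DecSwap

set_option autoImplicit false
open Cfsg

namespace Cfsg.Agent.S5677

/-- Let F be a finite field of odd order q, m ≥ 6, Q the standard quadratic form on F^(2m+1) and Ω the commutator subgroup of its isometry group. Let D be a decomposition of F^(2m+1) into t ≥ 2 pairwise orthogonal, pairwise Q-isometric subspaces of equal dimension k > 1 on which the polar form is non-degenerate. Unless q = 3 and k = 3, the elements of Ω permuting the members of D form a maximal subgroup of Ω. -/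
theorem result {F : Type*} [Field F] [Fintype F] (hodd : Odd (Fintype.card F)) (m : ℕ) (hm : 6 ≤ m) {t : ℕ} (k : ℕ) (hk : 1 < k) (D : Fin t → Submodule F (Unit ⊕ (Fin m ⊕ Fin m) → F)) (hD : Cfsg.Geo.IsOrthogonalMDecomposition (Cfsg.quadFormOdd m F) k D) (hex : ¬ (Fintype.card F = 3 ∧ k = 3)) : Cfsg.Geo.IsMaximalIn (Cfsg.Geo.omegaGL (Cfsg.quadFormOdd m F)) (Cfsg.Geo.decompositionStabilizer D ⊓ Cfsg.Geo.omegaGL (Cfsg.quadFormOdd m F)) := by
  have h2 : (2 : F) ≠ 0 := by
    intro h
    have h' := FiniteField.even_card_of_char_two (CharP.ringChar_of_prime_eq_zero Nat.prime_two h)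
    rcases hodd with ⟨r, hr⟩
    omega
  have hcard : Fintype.card (Unit ⊕ (Fin m ⊕ Fin m)) = 2 * m + 1 := by
    simp only [Fintype.card_sum, Fintype.card_unit, Fintype.card_fin]
    omega
  have hco := Cfsg.Agent.Helper16.coe_qfOdd m F
  rw [← hco] at hD ⊢
  have hkt := Cfsg.Agent.Helper16.card_eq_mul_of_dec D hD.decomp.decomp
  rw [hcard] at hkt
  have hOD : Cfsg.Agent.Helper16.ODec (Cfsg.Agent.Helper16.qfOdd m F) k D :=
    ⟨fun i => Cfsg.Agent.Helper16.nd_of_nondegOn _ _ (hD.decomp.nondegenerate i),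
      hD.decomp.decomp.finrank_eq, fun i j hij => hD.decomp.orthogonal i j hij,
      hD.decomp.decomp.iSup_eq_top, hD.isometric⟩
  have hkodd : Odd k := by
    by_contra h
    rw [Nat.not_odd_iff_even] at h
    obtain ⟨r, hr⟩ := h
    rw [hr] at hkt
    have h5 : t * (r + r) = 2 * (t * r) := by ring
    omega
  obtain ⟨r, hr⟩ := hkodd
  have hq : 5 ≤ Fintype.card F ∨ 5 ≤ k := by
    by_cases h3 : Fintype.card F = 3
    · right
      have h5 : k ≠ 3 := fun h => hex ⟨h3, h⟩
      omega
    · left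
      have h5 := Fintype.one_lt_card (α := F)
      obtain ⟨r', hr'⟩ := hodd
      omega
  exact Cfsg.Agent.Helper16.dec_max h2 (by rw [hcard]; omega) (Cfsg.Agent.Helper16.qfOdd m F)
    (Cfsg.Agent.Helper16.qfOdd_nondegenerate h2) D hOD hD.decomp.decomp.two_le (by omega) hq

end Cfsg.Agent.S5677
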