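import Cfsg.Statements.S5682
-- import your own Cfsg.Agent.* helpers here
import Cfsg.Agent.S5667
import Cfsg.Agent.Helper16.NotMax2
import Cfsg.Agent.Helper16.StdForms

set_option autoImplicit false
open Cfsg

namespace Cfsg.Agent.S5682

open Matrix QuadraticMap
open scoped Kronecker
open Cfsg.Agent.Helper16 Cfsg.Agent.S5667

section gen
variable {F : Type*} [Field F] [Fintype F] {ι : Type} [Fintype ι] [DecidableEq ι]

theorem map_eq_of_le (g : GL ι F) (W : Submodule F (ι → F))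
    (h : ∀ x ∈ W, (g : Matrix ι ι F) *ᵥ x ∈ W) :
    W.map (Matrix.toLin' (g : Matrix ι ι F)) = W := by
  rw [map_toLin'_eq_mapG]
  apply Submodule.eq_of_le_of_finrank_eq
  · intro x hx
    obtain ⟨e, he, rfl⟩ := (mem_mapG g W x).1 hx
    exact h e he
  · exact finrank_mapG g W

theorem act_pair (Q : QuadraticForm F (ι → F)) (u v : ι → F) (hu : Q u ≠ 0) (hv : Q v ≠ 0)
    (x : ι → F) :
    (((reflElt Q u * reflElt Q v : ↥(Cfsg.isometryGroup F ⇑Q)) : GL ι F) : Matrix ι ι F) *ᵥ x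
      = qrefl Q u (qrefl Q v x) := by
  have h := act_mul ⇑Q (reflElt Q u) (reflElt Q v) x
  rw [act_refl Q v hv, act_refl Q u hu] at h
  exact h

/-- three mutually orthogonal vectors, two of them of the same non-zero norm -/
theorem exists_triple (hq : Fintype.card F = 3) {n₂ : ℕ} (hn₂ : 3 ≤ n₂)
    {f : (Fin n₂ → F) → (Fin n₂ → F) → F} (hf : Cfsg.Geo.IsSymmetricForm f) :
    ∃ (y₁ y₂ z : Fin n₂ → F) (ν : F), ν ≠ 0 ∧ f y₁ y₁ = ν ∧ f y₂ y₂ = ν ∧ f z z ≠ 0 ∧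
      f y₁ y₂ = 0 ∧ f y₁ z = 0 ∧ f y₂ z = 0 := by
  classical
  have h2 := two_ne hq
  letI : Invertible (2 : F) := invertibleOfNonzero h2
  let B : LinearMap.BilinForm F (Fin n₂ → F) :=
    LinearMap.mk₂ F f hf.bilinear.add_left hf.bilinear.smul_left hf.bilinear.add_right
      hf.bilinear.smul_right
  have hBf : ∀ x y, B x y = f x y := fun x y => rfl
  have hS : B.IsSymm := ⟨fun x y => by rw [hBf, hBf]; exact hf.symm x y⟩
  have hN : B.Nondegenerate := by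
    refine ⟨fun x hx => ?_, fun y hy => ?_⟩
    · by_contra hne
      obtain ⟨z, hz⟩ := (hf.nondegenerate x hne).2
      exact hz (hx z)
    · by_contra hne
      obtain ⟨z, hz⟩ := (hf.nondegenerate y hne).1
      exact hz (hy z)
  obtain ⟨e, he⟩ := LinearMap.BilinForm.exists_orthogonal_basis (LinearMap.BilinForm.isSymm_iff.1 hS)
  have ho : ∀ i j, i ≠ j → f (e i) (e j) = 0 := fun i j hij => he hij
  have hd : ∀ i, f (e i) (e i) ≠ 0 := Cfsg.Agent.S0834.diag_ne_zero B hN e ho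
  have hfr : Module.finrank F (Fin n₂ → F) = n₂ := by simp
  obtain ⟨i0, hi0⟩ : ∃ i : Fin (Module.finrank F (Fin n₂ → F)), (i : ℕ) = 0 := ⟨⟨0, by omega⟩, rfl⟩
  obtain ⟨i1, hi1⟩ : ∃ i : Fin (Module.finrank F (Fin n₂ → F)), (i : ℕ) = 1 := ⟨⟨1, by omega⟩, rfl⟩
  obtain ⟨i2, hi2⟩ : ∃ i : Fin (Module.finrank F (Fin n₂ → F)), (i : ℕ) = 2 := ⟨⟨2, by omega⟩, rfl⟩
  have h01 : i0 ≠ i1 := by intro hh; rw [hh] at hi0; omega
  have h02 : i0 ≠ i2 := by intro hh; rw [hh] at hi0; omega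
  have h12 : i1 ≠ i2 := by intro hh; rw [hh] at hi1; omega
  have o01 := ho _ _ h01
  have o02 := ho _ _ h02
  have o12 := ho _ _ h12
  have o10 := ho _ _ h01.symm
  have o20 := ho _ _ h02.symm
  have o21 := ho _ _ h12.symm
  rcases pm_of_ne hq _ _ (hd i0) (hd i1) with h | h
  · exact ⟨e i0, e i1, e i2, f (e i0) (e i0), hd i0, rfl, h, hd i2, o01, o02, o12⟩
  · rcases pm_of_ne hq _ _ (hd i0) (hd i2) with h' | h'
    · exact ⟨e i0, e i2, e i1, f (e i0) (e i0), hd i0, rfl, h', hd i1, o02, o01, o21⟩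
    · exact ⟨e i1, e i2, e i0, f (e i1) (e i1), hd i1, rfl, by rw [h', h], hd i0, o12, o10, o20⟩

/-- over the field with three elements, the stabiliser in `Ω` of a tensor decomposition with a
three-dimensional orthogonal factor is not maximal -/
theorem tens3_not_max (hq : Fintype.card F = 3) (Q : QuadraticForm F (ι → F))
    (hQ : (polarBilin Q).Nondegenerate) (n₂ : ℕ) (hn₂ : 3 ≤ n₂)
    (e : ι ≃ Fin 3 × Fin n₂) (P : GL ι F)
    (f₁ : (Fin 3 → F) → (Fin 3 → F) → F) (f₂ : (Fin n₂ → F) → (Fin n₂ → F) → F)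
    (hf₁ : Cfsg.Geo.IsSymmetricForm f₁) (hf₂ : Cfsg.Geo.IsSymmetricForm f₂)
    (hT : Cfsg.Geo.IsTensorFormStructure id (QuadraticMap.polar ⇑Q) f₁ f₂ e P) :
    ∃ K : Subgroup (GL ι F), Cfsg.Geo.tensorProductSubgroup 3 n₂ e P ⊓ Cfsg.Geo.omegaGL ⇑Q < K ∧
      K < Cfsg.Geo.omegaGL ⇑Q := by
  classical
  obtain ⟨c, hc0, hc⟩ := hT
  have hbl₁ := hf₁.bilinear
  have hbl₂ := hf₂.bilinear
  have h3z := three_zero hq
  have h2ne := two_ne hq
  obtain ⟨b, δ, hδ, hb⟩ := exists_frame hq hf₁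
  have hδδ : δ * δ = 1 := by have := Cfsg.Agent.S5667.sq_one hq hδ; linear_combination this
  have hb' : ∀ i j, i ≠ j → f₁ (b i) (b j) = 0 := fun i j h => by rw [hb, if_neg h]
  have hb'' : ∀ i, f₁ (b i) (b i) = δ := fun i => by rw [hb, if_pos rfl]
  obtain ⟨y₁, y₂, z, ν, hν, hy11, hy22, hzz, hy12, hy1z, hy2z⟩ := exists_triple hq hn₂ hf₂
  have hy21 : f₂ y₂ y₁ = 0 := by rw [hf₂.symm, hy12]
  have hzy1 : f₂ z y₁ = 0 := by rw [hf₂.symm, hy1z]
  have hzy2 : f₂ z y₂ = 0 := by rw [hf₂.symm, hy2z]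
  -- the form on pure tensors
  have hform : ∀ (a a' : Fin 3 → F) (y y' : Fin n₂ → F),
      polar Q (tau e P a y) (tau e P a' y') = c * (f₁ a a' * f₂ y y') := by
    intro a a' y y'
    unfold Cfsg.Agent.S5667.tau
    rw [hc, Cfsg.Agent.S5671.fog_kron _ (fun u v => rfl), bf_gram hbl₁, bf_gram hbl₂]
  have hQtau : ∀ (a : Fin 3 → F) (y : Fin n₂ → F),
      Q (tau e P a y) = -(c * (f₁ a a * f₂ y y)) := by
    intro a y
    have h := qf_polar_self Q (tau e P a y)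
    rw [hform] at h
    linear_combination h + Q (tau e P a y) * h3z
  -- the decomposition
  let tauL : (Fin 3 → F) → ((Fin n₂ → F) →ₗ[F] (ι → F)) := fun a =>
    { toFun := fun y => tau e P a y
      map_add' := fun y y' => tau_add_right e P a y y'
      map_smul' := fun s y => tau_smul_right e P s a y }
  let D : Fin 3 → Submodule F (ι → F) := fun i => LinearMap.range (tauL (b i))
  have hDmem : ∀ (i : Fin 3) (y : Fin n₂ → F), tau e P (b i) y ∈ D i := fun i y => ⟨y, rfl⟩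
  -- part 1
  have hle : Cfsg.Geo.tensorProductSubgroup 3 n₂ e P ⊓ Cfsg.Geo.omegaGL ⇑Q
      ≤ Cfsg.Geo.decompositionStabilizer D ⊓ Cfsg.Geo.omegaGL ⇑Q := by
    rintro g ⟨hg1, hg2⟩
    refine ⟨?_, hg2⟩
    obtain ⟨A, B, hAB⟩ := kron_tau e P g hg1
    obtain ⟨g', -, rfl⟩ := exists_of_mem_omegaGL ⇑Q g hg2
    have hGU : ∀ (a a' : Fin 3 → F) (y y' : Fin n₂ → F),
        f₁ ((A : Matrix (Fin 3) (Fin 3) F) *ᵥ a) ((A : Matrix (Fin 3) (Fin 3) F) *ᵥ a')
          * f₂ ((B : Matrix (Fin n₂) (Fin n₂) F) *ᵥ y) ((B : Matrix (Fin n₂) (Fin n₂) F) *ᵥ y')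
          = f₁ a a' * f₂ y y' := by
      intro a a' y y'
      have h := act_polar ⇑Q g' (tau e P a y) (tau e P a' y')
      unfold Cfsg.Agent.Helper16.act at h
      rw [hAB, hAB, hform, hform] at h
      exact mul_left_cancel₀ hc0 h
    obtain ⟨μ, hμ⟩ : ∃ μ : F, μ = f₂ ((B : Matrix (Fin n₂) (Fin n₂) F) *ᵥ y₁)
        ((B : Matrix (Fin n₂) (Fin n₂) F) *ᵥ y₁) := ⟨_, rfl⟩
    have hμ0 : μ ≠ 0 := by
      intro h0
      have := hGU (b 0) (b 0) y₁ y₁
      rw [← hμ, h0, mul_zero, hb'' 0, hy11] at this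
      exact mul_ne_zero hδ hν this.symm
    have hA' : ∀ a a' : Fin 3 → F, f₁ ((A : Matrix (Fin 3) (Fin 3) F) *ᵥ a)
        ((A : Matrix (Fin 3) (Fin 3) F) *ᵥ a') = (ν * μ⁻¹) * f₁ a a' := by
      intro a a'
      have := hGU a a' y₁ y₁
      rw [← hμ, hy11] at this
      have h2 : f₁ ((A : Matrix (Fin 3) (Fin 3) F) *ᵥ a) ((A : Matrix (Fin 3) (Fin 3) F) *ᵥ a')
          = f₁ a a' * ν * μ⁻¹ := by
        rw [← this, mul_assoc, mul_inv_cancel₀ hμ0, mul_one]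
      rw [h2]; ring
    have hlam0 : ν * μ⁻¹ ≠ 0 := mul_ne_zero hν (inv_ne_zero hμ0)
    have hlam1 : ν * μ⁻¹ = 1 := simil_one hq hf₁ b δ hδ hb _ _ hlam0 hA'
    have hcl : ∀ i, ∃ (j : Fin 3) (s : F), s ≠ 0 ∧
        (A : Matrix (Fin 3) (Fin 3) F) *ᵥ b i = s • b j := by
      intro i
      apply frame_classify hq hf₁ b δ hδ hb
      rw [hA', hlam1, one_mul, hb'' i]
    choose π s hs hπ using hcl
    have hinj : Function.Injective π := by
      intro i k hik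
      by_contra hne
      have h := hA' (b i) (b k)
      rw [hπ i, hπ k, hik, hbl₁.smul_left, hbl₁.smul_right, hb'' (π k), hb' i k hne, mul_zero] at h
      exact mul_ne_zero (hs i) (mul_ne_zero (hs k) hδ) h
    have hbij : Function.Bijective π := Finite.injective_iff_bijective.mp hinj
    refine ⟨Equiv.ofBijective π hbij, fun i => ?_⟩
    show (LinearMap.range (tauL (b i))).map
        (Matrix.toLin' ((g' : GL ι F) : Matrix ι ι F)) = LinearMap.range (tauL (b (π i)))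
    ext x
    constructor
    · rintro ⟨_, ⟨y, rfl⟩, rfl⟩
      refine ⟨s i • ((B : Matrix (Fin n₂) (Fin n₂) F) *ᵥ y), ?_⟩
      show tau e P (b (π i)) (s i • ((B : Matrix (Fin n₂) (Fin n₂) F) *ᵥ y))
        = Matrix.toLin' ((g' : GL ι F) : Matrix ι ι F) (tau e P (b i) y)
      rw [Matrix.toLin'_apply, hAB, hπ, tau_smul_left, tau_smul_right]
    · rintro ⟨y', rfl⟩
      refine ⟨tau e P (b i) (((B⁻¹ : GL (Fin n₂) F) : Matrix (Fin n₂) (Fin n₂) F) *ᵥ ((s i)⁻¹ • y')),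
        ⟨_, rfl⟩, ?_⟩
      show Matrix.toLin' ((g' : GL ι F) : Matrix ι ι F) (tau e P (b i) _) = tau e P (b (π i)) y'
      rw [Matrix.toLin'_apply, hAB, hπ, Matrix.mulVec_mulVec, ← Units.val_mul, mul_inv_cancel,
        Units.val_one, Matrix.one_mulVec, tau_smul_left, tau_smul_right, smul_smul,
        mul_inv_cancel₀ (hs i), one_smul]
  -- reflections in vectors of the first member
  have hne₂ : -(c * (δ * ν)) ≠ 0 := neg_ne_zero.mpr (mul_ne_zero hc0 (mul_ne_zero hδ hν))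
  have hrv : ∀ (w : Fin n₂ → F), f₂ w w = ν → ∀ y : Fin n₂ → F,
      qrefl Q (tau e P (b 0) w) (tau e P (b 0) y) = tau e P (b 0) (y + (ν⁻¹ * f₂ w y) • w) := by
    intro w hw y
    rw [qrefl_apply, hQtau, hform, hb'' 0, hw, tau_add_right, tau_smul_right]
    have hcoef : (-(c * (δ * ν)))⁻¹ * (c * (δ * f₂ w y)) = -(ν⁻¹ * f₂ w y) := by
      field_simp
    rw [hcoef, neg_smul, sub_neg_eq_add]
  have hfixr : ∀ (w : Fin n₂ → F) (i : Fin 3), i ≠ 0 → ∀ y : Fin n₂ → F,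
      qrefl Q (tau e P (b 0) w) (tau e P (b i) y) = tau e P (b i) y := by
    intro w i hi y
    rw [qrefl_apply, hform, hb' 0 i (Ne.symm hi), zero_mul, mul_zero, mul_zero, zero_smul, sub_zero]
  have hQu₂ : Q (tau e P (b 0) y₁) = -(c * (δ * ν)) := by rw [hQtau, hb'' 0, hy11]
  have hQv₂ : Q (tau e P (b 0) y₂) = -(c * (δ * ν)) := by rw [hQtau, hb'' 0, hy22]
  obtain ⟨g₂, hg₂⟩ : ∃ g₂ : ↥(Cfsg.isometryGroup F ⇑Q),
      g₂ = reflElt Q (tau e P (b 0) y₁) * reflElt Q (tau e P (b 0) y₂) := ⟨_, rfl⟩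
  have hg₂Ω : (g₂ : GL ι F) ∈ Cfsg.Geo.omegaGL ⇑Q := by
    rw [hg₂]
    exact mem_omegaGL ⇑Q _ (refl_pair_mem_Omega Q hQ _ _ (by rw [hQu₂]; exact hne₂)
      (by rw [hQv₂, hQu₂]))
  have hg₂act : ∀ x : ι → F, ((g₂ : GL ι F) : Matrix ι ι F) *ᵥ x
      = qrefl Q (tau e P (b 0) y₁) (qrefl Q (tau e P (b 0) y₂) x) := by
    intro x
    rw [hg₂]
    exact act_pair Q _ _ (by rw [hQu₂]; exact hne₂) (by rw [hQv₂]; exact hne₂) x
  have hg₂0 : ∀ y : Fin n₂ → F, ((g₂ : GL ι F) : Matrix ι ι F) *ᵥ tau e P (b 0) y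
      = tau e P (b 0) ((y + (ν⁻¹ * f₂ y₂ y) • y₂)
          + (ν⁻¹ * f₂ y₁ (y + (ν⁻¹ * f₂ y₂ y) • y₂)) • y₁) := by
    intro y
    rw [hg₂act, hrv y₂ hy22, hrv y₁ hy11]
  have hg₂fix : ∀ i : Fin 3, i ≠ 0 → ∀ y : Fin n₂ → F,
      ((g₂ : GL ι F) : Matrix ι ι F) *ᵥ tau e P (b i) y = tau e P (b i) y := by
    intro i hi y
    rw [hg₂act, hfixr y₂ i hi, hfixr y₁ i hi]
  have ht₂K : (g₂ : GL ι F) ∈ Cfsg.Geo.decompositionStabilizer D ⊓ Cfsg.Geo.omegaGL ⇑Q := by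
    refine ⟨⟨1, fun i => ?_⟩, hg₂Ω⟩
    show (D i).map (Matrix.toLin' ((g₂ : GL ι F) : Matrix ι ι F)) = D i
    apply map_eq_of_le
    rintro _ ⟨y, rfl⟩
    show ((g₂ : GL ι F) : Matrix ι ι F) *ᵥ tau e P (b i) y ∈ D i
    by_cases hi : i = 0
    · subst hi
      rw [hg₂0]
      exact hDmem 0 _
    · rw [hg₂fix i hi]
      exact hDmem i y
  have ht₂T : (g₂ : GL ι F) ∉ Cfsg.Geo.tensorProductSubgroup 3 n₂ e P := by
    intro hmem
    obtain ⟨A, B, hAB⟩ := kron_tau e P _ hmem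
    have h1 : ∀ y y' : Fin n₂ → F, f₁ ((A : Matrix (Fin 3) (Fin 3) F) *ᵥ b 1) (b 1)
        * f₂ ((B : Matrix (Fin n₂) (Fin n₂) F) *ᵥ y) y' = δ * f₂ y y' := by
      intro y y'
      have := congrArg (fun v => polar Q v (tau e P (b 1) y')) (hAB (b 1) y)
      simp only [hg₂fix 1 (by decide), hform, hb'' 1] at this
      exact (mul_left_cancel₀ hc0 this).symm
    obtain ⟨β, hβ⟩ : ∃ β : F, β = f₁ ((A : Matrix (Fin 3) (Fin 3) F) *ᵥ b 1) (b 1) := ⟨_, rfl⟩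
    rw [← hβ] at h1
    have hβ0 : β ≠ 0 := by
      intro h0
      have := h1 y₁ y₁
      rw [h0, zero_mul, hy11] at this
      exact mul_ne_zero hδ hν this.symm
    have hB : ∀ y : Fin n₂ → F, (B : Matrix (Fin n₂) (Fin n₂) F) *ᵥ y = (δ * β⁻¹) • y := by
      intro y
      by_contra hne
      have hne' : (B : Matrix (Fin n₂) (Fin n₂) F) *ᵥ y + (-(δ * β⁻¹)) • y ≠ 0 := by
        intro h0
        apply hne
        have := congrArg (fun v => v + (δ * β⁻¹) • y) h0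
        simp only [add_assoc, ← add_smul, neg_add_cancel, zero_smul, add_zero, zero_add] at this
        exact this
      obtain ⟨w, hw⟩ := (hf₂.nondegenerate _ hne').2
      apply hw
      rw [hbl₂.add_left, hbl₂.smul_left]
      have e1 : f₂ ((B : Matrix (Fin n₂) (Fin n₂) F) *ᵥ y) w = β⁻¹ * (δ * f₂ y w) := by
        rw [← h1 y w, ← mul_assoc, inv_mul_cancel₀ hβ0, one_mul]
      rw [e1]
      ring
    have h3 := hAB (b 0) (y₁ + z)
    rw [hg₂0, hB] at h3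
    have e1 := congrArg (fun v => polar Q v (tau e P (b 0) y₁)) h3
    have e2 := congrArg (fun v => polar Q v (tau e P (b 0) z)) h3
    simp only [hform, hbl₂.add_left, hbl₂.smul_left, hbl₂.add_right, hbl₂.smul_right, hb'' 0,
      hy11, hy21, hy12, hzy1, hzy2, hy1z, hy2z, mul_zero, zero_mul, add_zero, zero_add] at e1 e2
    generalize f₁ ((A : Matrix (Fin 3) (Fin 3) F) *ᵥ b 0) (b 0) = X at e1 e2
    have e1' := mul_left_cancel₀ hc0 e1
    have e2' := mul_left_cancel₀ hc0 e2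
    have hζ : f₂ z z ≠ 0 := hzz
    have hX : X * (δ * β⁻¹) = δ := by
      have : (X * (δ * β⁻¹) - δ) * f₂ z z = 0 := by linear_combination -e2'
      rcases mul_eq_zero.mp this with h | h
      · exact sub_eq_zero.mp h
      · exact absurd h hζ
    have hνν : ν * ν⁻¹ = 1 := mul_inv_cancel₀ hν
    have : δ * ν = 0 := by
      have e3 : δ * (ν + ν⁻¹ * ν * ν) = X * (δ * β⁻¹ * ν) := by linear_combination e1'
      linear_combination e3 + ν * hX - δ * ν * hνν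
    exact mul_ne_zero hδ hν this
  -- part 3
  have hf₁s : f₁ (b 0 + b 1) (b 0 + b 1) = δ + δ := by
    simp only [hbl₁.add_left, hbl₁.add_right, hb'' 0, hb'' 1, hb' 0 1 (by decide),
      hb' 1 0 (by decide), add_zero, zero_add]
  have hne₃ : -(c * ((δ + δ) * ν)) ≠ 0 := by
    apply neg_ne_zero.mpr
    apply mul_ne_zero hc0 (mul_ne_zero _ hν)
    intro h
    have : (2 : F) * δ = 0 := by linear_combination h
    rcases mul_eq_zero.mp this with h' | h'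
    · exact h2ne h'
    · exact hδ h'
  have hQu₃ : Q (tau e P (b 0 + b 1) y₁) = -(c * ((δ + δ) * ν)) := by rw [hQtau, hf₁s, hy11]
  have hQv₃ : Q (tau e P (b 0 + b 1) y₂) = -(c * ((δ + δ) * ν)) := by rw [hQtau, hf₁s, hy22]
  obtain ⟨g₃, hg₃⟩ : ∃ g₃ : ↥(Cfsg.isometryGroup F ⇑Q),
      g₃ = reflElt Q (tau e P (b 0 + b 1) y₁) * reflElt Q (tau e P (b 0 + b 1) y₂) := ⟨_, rfl⟩
  have hg₃Ω : (g₃ : GL ι F) ∈ Cfsg.Geo.omegaGL ⇑Q := by
    rw [hg₃]
    exact mem_omegaGL ⇑Q _ (refl_pair_mem_Omega Q hQ _ _ (by rw [hQu₃]; exact hne₃)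
      (by rw [hQv₃, hQu₃]))
  have hg₃1 : ((g₃ : GL ι F) : Matrix ι ι F) *ᵥ tau e P (b 0) (y₁ + z)
      = tau e P (b 0) (y₁ + z) - tau e P (b 0 + b 1) y₁ := by
    rw [hg₃, act_pair Q _ _ (by rw [hQu₃]; exact hne₃) (by rw [hQv₃]; exact hne₃)]
    have s1 : qrefl Q (tau e P (b 0 + b 1) y₂) (tau e P (b 0) (y₁ + z)) = tau e P (b 0) (y₁ + z) := by
      rw [qrefl_apply, hform, hbl₂.add_right, hy21, hy2z, add_zero, mul_zero, mul_zero, mul_zero,
        zero_smul, sub_zero]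
    rw [s1, qrefl_apply, hQu₃, hform, hbl₁.add_left, hb'' 0, hb' 1 0 (by decide), add_zero,
      hbl₂.add_right, hy11, hy1z, add_zero]
    have hcoef : (-(c * ((δ + δ) * ν)))⁻¹ * (c * (δ * ν)) = 1 := by
      rw [inv_mul_eq_iff_eq_mul₀ hne₃]
      linear_combination (c * δ * ν) * h3z
    rw [hcoef, one_smul]
  have ht₃K : (g₃ : GL ι F) ∉ Cfsg.Geo.decompositionStabilizer D := by
    rintro ⟨σ, hσ⟩
    have h0 := hσ 0
    have m1 : tau e P (b 0) (y₁ + z) - tau e P (b 0 + b 1) y₁ ∈ D (σ 0) := by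
      rw [← h0, ← hg₃1]
      exact ⟨tau e P (b 0) (y₁ + z), hDmem 0 _, rfl⟩
    obtain ⟨y', hy'⟩ := m1
    have hy'' : tau e P (b (σ 0)) y' = tau e P (b 0) (y₁ + z) - tau e P (b 0 + b 1) y₁ := hy'
    have e0 := congrArg (fun v => polar Q v (tau e P (b 0) z)) hy''
    have e1 := congrArg (fun v => polar Q v (tau e P (b 1) y₁)) hy''
    simp only [polar_sub_left, hform, hbl₁.add_left, hbl₂.add_left, hb'' 0, hb'' 1,
      hb' 0 1 (by decide), hb' 1 0 (by decide), hy11, hy1z, hzy1, zero_mul, mul_zero, zero_add,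
      add_zero, sub_zero, zero_sub] at e0 e1
    have hs0 : σ 0 = 0 := by
      by_contra hh
      rw [hb' _ _ hh, zero_mul, mul_zero] at e0
      exact mul_ne_zero hc0 (mul_ne_zero hδ hzz) e0.symm
    have hs1 : σ 0 = 1 := by
      by_contra hh
      rw [hb' _ _ hh, zero_mul, mul_zero] at e1
      exact neg_ne_zero.mpr (mul_ne_zero hc0 (mul_ne_zero hδ hν)) e1.symm
    rw [hs0] at hs1
    exact absurd hs1 (by decide)
  refine ⟨Cfsg.Geo.decompositionStabilizer D ⊓ Cfsg.Geo.omegaGL ⇑Q,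
    lt_of_le_of_ne hle ?_, lt_of_le_of_ne inf_le_right ?_⟩
  · intro h
    have := ht₂K
    rw [← h] at this
    exact ht₂T this.1
  · intro h
    have : (g₃ : GL ι F) ∈ Cfsg.Geo.decompositionStabilizer D ⊓ Cfsg.Geo.omegaGL ⇑Q := by
      rw [h]
      exact hg₃Ω
    exact ht₃K this.1

end gen

/-- Let F be the field with 3 elements, m ≥ 6, Q the standard quadratic form on F^(2m+1) and Ω the commutator subgroup of its isometry group. Suppose the polar form of Q is similar, through P and e, to the tensor product of non-degenerate symmetric bilinear forms f₁ on F^3 and f₂ on F^(n₂) with 3 < n₂. Then the elements of Ω in the stabiliser of this tensor decomposition form a subgroup that is not maximal: some subgroup lies strictly between it and Ω. -/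
theorem result {F : Type*} [Field F] [Fintype F] (hq : Fintype.card F = 3) (m : ℕ) (hm : 6 ≤ m) (n₂ : ℕ) (h2 : 3 < n₂) (e : (Unit ⊕ (Fin m ⊕ Fin m)) ≃ Fin 3 × Fin n₂) (P : Matrix.GeneralLinearGroup (Unit ⊕ (Fin m ⊕ Fin m)) F) (f₁ : (Fin 3 → F) → (Fin 3 → F) → F) (f₂ : (Fin n₂ → F) → (Fin n₂ → F) → F) (hf₁ : Cfsg.Geo.IsSymmetricForm f₁) (hf₂ : Cfsg.Geo.IsSymmetricForm f₂) (hT : Cfsg.Geo.IsTensorFormStructure id (QuadraticMap.polar (Cfsg.quadFormOdd m F)) f₁ f₂ e P) : ∃ K : Subgroup (Matrix.GeneralLinearGroup (Unit ⊕ (Fin m ⊕ Fin m)) F), Cfsg.Geo.tensorProductSubgroup 3 n₂ e P ⊓ Cfsg.Geo.omegaGL (Cfsg.quadFormOdd m F) < K ∧ K < Cfsg.Geo.omegaGL (Cfsg.quadFormOdd m F) := by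
  have h2 : (2 : F) ≠ 0 := two_ne hq
  have hco := Cfsg.Agent.Helper16.coe_qfOdd m F
  rw [← hco] at hT ⊢
  exact tens3_not_max hq (Cfsg.Agent.Helper16.qfOdd m F)
    (Cfsg.Agent.Helper16.qfOdd_nondegenerate h2) n₂ (by omega) e P f₁ f₂ hf₁ hf₂ hT

end Cfsg.Agent.S5682
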