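import Cfsg.Statements.S5683
import Cfsg.Agent.Helper16.OSubG

set_option autoImplicit false
open Cfsg

namespace Cfsg.Agent.S5683

/-- Let F be a finite field of odd order, m ≥ 6, Q the standard quadratic form on F^(2m+1) and Ω the commutator subgroup of its isometry group. Let F₀ be a subfield with |F| = |F₀| ^ r for a prime r and P an invertible matrix such that Q takes values in F₀ on the F₀-span of the columns of P. Then the elements of Ω lying in the subfield group of P (the conjugate by P of the product of GL_(2m+1)(F₀) with the scalars) form a maximal subgroup of Ω. -/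
theorem result {F : Type*} [Field F] [Fintype F] (hodd : Odd (Fintype.card F)) (m : ℕ) (hm : 6 ≤ m) (F₀ : Subfield F) (r : ℕ) (hr : r.Prime) (hcard : Fintype.card F = Nat.card F₀ ^ r) (P : Matrix.GeneralLinearGroup (Unit ⊕ (Fin m ⊕ Fin m)) F) (hP : Cfsg.Geo.IsQuadFormRationalStructure (Cfsg.quadFormOdd m F) F₀ P) : Cfsg.Geo.IsMaximalIn (Cfsg.Geo.omegaGL (Cfsg.quadFormOdd m F)) (Cfsg.Geo.subfieldSubgroup F₀ P ⊓ Cfsg.Geo.omegaGL (Cfsg.quadFormOdd m F)) := by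
  classical
  have h2 : (2 : F) ≠ 0 := by
    intro h
    have h' := FiniteField.even_card_of_char_two (CharP.ringChar_of_prime_eq_zero Nat.prime_two h)
    rcases hodd with ⟨r, hr⟩
    omega
  have hcardι : Fintype.card (Unit ⊕ (Fin m ⊕ Fin m)) = 2 * m + 1 := by
    simp only [Fintype.card_sum, Fintype.card_unit, Fintype.card_fin]
    omega
  obtain ⟨Q', hQ'⟩ : ∃ Q' : QuadraticForm F (Unit ⊕ (Fin m ⊕ Fin m) → F), ∀ v,
      Q' v = Cfsg.Agent.Helper16.qfOdd m F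
        (Matrix.mulVec (P : Matrix (Unit ⊕ (Fin m ⊕ Fin m)) (Unit ⊕ (Fin m ⊕ Fin m)) F) v) :=
    ⟨(Cfsg.Agent.Helper16.qfOdd m F).comp
      (Matrix.toLin' (P : Matrix (Unit ⊕ (Fin m ⊕ Fin m)) (Unit ⊕ (Fin m ⊕ Fin m)) F)),
      fun v => by rw [QuadraticMap.comp_apply, Matrix.toLin'_apply]⟩
  have hcoe : ⇑Q' = fun v => Cfsg.quadFormOdd m F
      (Matrix.mulVec (P : Matrix (Unit ⊕ (Fin m ⊕ Fin m)) (Unit ⊕ (Fin m ⊕ Fin m)) F) v) := by
    funext v
    rw [hQ', Cfsg.Agent.Helper16.qfOdd_apply]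
  have hpol : ∀ x y, QuadraticMap.polar Q' x y
      = QuadraticMap.polar (Cfsg.Agent.Helper16.qfOdd m F)
        (Matrix.mulVec (P : Matrix (Unit ⊕ (Fin m ⊕ Fin m)) (Unit ⊕ (Fin m ⊕ Fin m)) F) x)
        (Matrix.mulVec (P : Matrix (Unit ⊕ (Fin m ⊕ Fin m)) (Unit ⊕ (Fin m ⊕ Fin m)) F) y) := by
    intro x y
    unfold QuadraticMap.polar
    rw [hQ', hQ', hQ', Matrix.mulVec_add]
  have hnd0 := Cfsg.Agent.Helper16.qfOdd_nondegenerate (m := m) (F := F) h2
  have hnd : (QuadraticMap.polarBilin Q').Nondegenerate := by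
    apply ((Cfsg.Agent.Helper16.polarBilin_isSymm _).isRefl.nondegenerate_iff_separatingLeft).2
    intro x hx
    have h1 : ∀ z, QuadraticMap.polar (Cfsg.Agent.Helper16.qfOdd m F)
        (Matrix.mulVec (P : Matrix (Unit ⊕ (Fin m ⊕ Fin m)) (Unit ⊕ (Fin m ⊕ Fin m)) F) x) z = 0 := by
      intro z
      have h3 := hx (Matrix.mulVec ((P⁻¹ : Matrix.GeneralLinearGroup (Unit ⊕ (Fin m ⊕ Fin m)) F) :
        Matrix (Unit ⊕ (Fin m ⊕ Fin m)) (Unit ⊕ (Fin m ⊕ Fin m)) F) z)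
      have h4 : QuadraticMap.polarBilin Q' x
          (Matrix.mulVec ((P⁻¹ : Matrix.GeneralLinearGroup (Unit ⊕ (Fin m ⊕ Fin m)) F) :
            Matrix (Unit ⊕ (Fin m ⊕ Fin m)) (Unit ⊕ (Fin m ⊕ Fin m)) F) z)
          = QuadraticMap.polar Q' x
          (Matrix.mulVec ((P⁻¹ : Matrix.GeneralLinearGroup (Unit ⊕ (Fin m ⊕ Fin m)) F) :
            Matrix (Unit ⊕ (Fin m ⊕ Fin m)) (Unit ⊕ (Fin m ⊕ Fin m)) F) z) := rfl
      rw [h4, hpol, Matrix.mulVec_mulVec, ← Units.val_mul, mul_inv_cancel, Units.val_one,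
        Matrix.one_mulVec] at h3
      exact h3
    have h5 : Matrix.mulVec (P : Matrix (Unit ⊕ (Fin m ⊕ Fin m)) (Unit ⊕ (Fin m ⊕ Fin m)) F) x = 0 := by
      have h6 := ((Cfsg.Agent.Helper16.polarBilin_isSymm _).isRefl.nondegenerate_iff_separatingLeft).1
        hnd0
      exact h6 _ h1
    have h7 := congrArg (fun z => Matrix.mulVec ((P⁻¹ : Matrix.GeneralLinearGroup (Unit ⊕ (Fin m ⊕ Fin m)) F) :
        Matrix (Unit ⊕ (Fin m ⊕ Fin m)) (Unit ⊕ (Fin m ⊕ Fin m)) F) z) h5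
    simp only [Matrix.mulVec_mulVec, Matrix.mulVec_zero] at h7
    rw [← Units.val_mul, inv_mul_cancel, Units.val_one, Matrix.one_mulVec] at h7
    exact h7
  have hrat : ∀ v : Unit ⊕ (Fin m ⊕ Fin m) → F₀, Q' (Cfsg.Agent.Helper16.upv F₀ v) ∈ F₀ := by
    intro v
    rw [hQ', Cfsg.Agent.Helper16.qfOdd_apply]
    exact hP (Cfsg.Agent.Helper16.upv F₀ v) (fun i => (v i).2)
  have core := Cfsg.Agent.Helper16.osub_core F₀ r hr hcard Q' hnd h2 (by rw [hcardι]; omega)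
    (by rw [hcardι]; exact ⟨m, rfl⟩) hrat
  have h3 := Cfsg.Agent.Helper16.isMaximalIn_map (MulAut.conj P) _ _ core
  rw [Subgroup.map_inf _ _ _ (MulAut.conj P).injective, Cfsg.Agent.Helper16.sfg_conj, hcoe,
    Cfsg.Agent.Helper16.omegaGL_conj] at h3
  exact h3

end Cfsg.Agent.S5683
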