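import Cfsg.Statements.S5687
import Cfsg.Agent.Helper16.TSMax

set_option autoImplicit false
open Cfsg

namespace Cfsg.Agent.S5687

/-- Let F be a finite field with q elements, n ≥ 13 even, Q a non-degenerate quadratic form on F^n of minus type (no subspace of dimension n/2 is totally singular), and Ω the commutator subgroup of the isometry group of Q, viewed inside GL_n(F). The elements of Ω stabilising a non-zero subspace on which Q vanishes form a maximal subgroup of Ω. -/
theorem result {F : Type*} [Field F] [Fintype F] {n : ℕ} (hn : 13 ≤ n) (heven : Even n) (Q : (Fin n → F) → F) (hQ : Cfsg.Geo.IsNondegenerateQuadraticForm Q) (hminus : ¬ Cfsg.Geo.IsPlusTypeOn Q ⊤) (W : Submodule F (Fin n → F)) (hW0 : W ≠ ⊥) (hW : Cfsg.Geo.IsTotallySingularQuad Q W) : Cfsg.Geo.IsMaximalIn (Cfsg.Geo.omegaGL Q) (Cfsg.Geo.subspaceStabilizer W ⊓ Cfsg.Geo.omegaGL Q) := by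
  have h := Cfsg.Agent.Helper16.ts_max (by rw [Fintype.card_fin]; omega)
    (Cfsg.Agent.Helper16.toQF Q hQ) (Cfsg.Agent.Helper16.toQF_nondegenerate Q hQ) W hW0 hW
    (fun T hT hfin => by
      rw [Fintype.card_fin]
      intro hcon
      apply hminus
      refine ⟨T, le_top, hT, ?_⟩
      rw [finrank_top, Module.finrank_fintype_fun_eq_card, Fintype.card_fin]
      omega)
  exact h

end Cfsg.Agent.S5687
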