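import Cfsg.Statements.S5688
import Cfsg.Agent.Helper16.NDMax4

set_option autoImplicit false
open Cfsg

namespace Cfsg.Agent.S5688

/-- Let F be a finite field with q elements, n ≥ 13 even, Q a non-degenerate quadratic form on F^n of plus type (some subspace of dimension n/2 is totally singular), and Ω the commutator subgroup of the isometry group of Q, viewed inside GL_n(F). Let W be a non-zero proper subspace with dim W ≠ n/2 on which the polar form of Q is non-degenerate. Exclude the case q ≤ 3 in which W, or its orthogonal complement, is a plane containing a line on which Q vanishes. Then the elements of Ω stabilising W form a maximal subgroup of Ω. -/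
theorem result {F : Type*} [Field F] [Fintype F] {n : ℕ} (hn : 13 ≤ n) (heven : Even n) (Q : (Fin n → F) → F) (hQ : Cfsg.Geo.IsNondegenerateQuadraticForm Q) (hplus : Cfsg.Geo.IsPlusTypeOn Q ⊤) (W : Submodule F (Fin n → F)) (hW0 : W ≠ ⊥) (hW1 : W ≠ ⊤) (hdim : 2 * Module.finrank F W ≠ n) (hW : Cfsg.Geo.IsNondegenerateOn (QuadraticMap.polar Q) W) (hex : ¬ (Fintype.card F ≤ 3 ∧ (∃ U : Submodule F (Fin n → F), Module.finrank F U = 2 ∧ Cfsg.Geo.IsNondegenerateOn (QuadraticMap.polar Q) U ∧ Cfsg.Geo.IsPlusTypeOn Q U ∧ (U = W ∨ (Cfsg.Geo.AreOrthogonalFor (QuadraticMap.polar Q) U W ∧ Module.finrank F U + Module.finrank F W = n))))) : Cfsg.Geo.IsMaximalIn (Cfsg.Geo.omegaGL Q) (Cfsg.Geo.subspaceStabilizer W ⊓ Cfsg.Geo.omegaGL Q) := by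
  have h := Cfsg.Agent.Helper16.nd_max (by rw [Fintype.card_fin]; omega)
    (Cfsg.Agent.Helper16.toQF Q hQ) (Cfsg.Agent.Helper16.toQF_nondegenerate Q hQ) W hW0 hW1
    (Cfsg.Agent.Helper16.nd_of_nondegOn (Cfsg.Agent.Helper16.toQF Q hQ) W hW)
    (fun h2 => absurd (by rw [Fintype.card_fin] at h2; exact h2) hdim) (by
      rintro ⟨h1, U, hU2, hsing, hUW⟩
      obtain ⟨p1, p2, p3⟩ := Cfsg.Agent.Helper16.plus_plane_of_sing (Cfsg.Agent.Helper16.toQF Q hQ)
        (Cfsg.Agent.Helper16.toQF_nondegenerate Q hQ) W U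
        (Cfsg.Agent.Helper16.nd_of_nondegOn (Cfsg.Agent.Helper16.toQF Q hQ) W hW) hU2 hsing hUW
      rw [Fintype.card_fin] at p3
      exact hex ⟨h1, U, hU2, p1, p2, p3⟩)
  exact h

end Cfsg.Agent.S5688
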