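import Cfsg.Statements.S5702
import Cfsg.Agent.Helper16.EOE

set_option autoImplicit false
open Cfsg

namespace Cfsg.Agent.S5702

/-- Let F be a finite field with q elements, n ≥ 13 even, Q a non-degenerate quadratic form on F^n (of either type), and Ω the commutator subgroup of the isometry group of Q, viewed inside GL_n(F). Let F₀ be a subfield with |F| = |F₀| ^ r for a prime r, ζ a non-zero scalar and P an invertible matrix such that ζ·Q takes values in F₀ on the F₀-span of the columns of P. Then the elements of Ω lying in the subfield group of P (the conjugate by P of the product of GL_n(F₀) with the scalars) form a maximal subgroup of Ω. -/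
theorem result {F : Type*} [Field F] [Fintype F] {n : ℕ} (hn : 13 ≤ n) (heven : Even n) (Q : (Fin n → F) → F) (hQ : Cfsg.Geo.IsNondegenerateQuadraticForm Q) (F₀ : Subfield F) (r : ℕ) (hr : r.Prime) (hcard : Fintype.card F = Nat.card F₀ ^ r) (P : Matrix.GeneralLinearGroup (Fin n) F) (ζ : F) (hζ : ζ ≠ 0) (hP : Cfsg.Geo.IsQuadFormRationalStructure (fun v : Fin n → F => ζ * Q v) F₀ P) : Cfsg.Geo.IsMaximalIn (Cfsg.Geo.omegaGL Q) (Cfsg.Geo.subfieldSubgroup F₀ P ⊓ Cfsg.Geo.omegaGL Q) := by
  classical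
  have hn14 : 14 ≤ n := by
    obtain ⟨k, hk⟩ := heven
    omega
  obtain ⟨QF, hQF, hQFnd⟩ : ∃ QF : QuadraticForm F (Fin n → F), ⇑QF = Q ∧
      (QuadraticMap.polarBilin QF).Nondegenerate :=
    ⟨Cfsg.Agent.Helper16.toQF Q hQ, Cfsg.Agent.Helper16.coe_toQF Q hQ,
      Cfsg.Agent.Helper16.toQF_nondegenerate Q hQ⟩
  obtain ⟨Q', hQ'⟩ : ∃ Q' : QuadraticForm F (Fin n → F), ∀ v,
      Q' v = ζ * Q (Matrix.mulVec (P : Matrix (Fin n) (Fin n) F) v) :=
    ⟨(ζ • QF).comp (Matrix.toLin' (P : Matrix (Fin n) (Fin n) F)), fun v => by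
      rw [QuadraticMap.comp_apply, Matrix.toLin'_apply, QuadraticMap.smul_apply, smul_eq_mul,
        hQF]⟩
  have hpol : ∀ x y, QuadraticMap.polar Q' x y
      = ζ * QuadraticMap.polar Q (Matrix.mulVec (P : Matrix (Fin n) (Fin n) F) x)
        (Matrix.mulVec (P : Matrix (Fin n) (Fin n) F) y) := by
    intro x y
    unfold QuadraticMap.polar
    rw [hQ', hQ', hQ', Matrix.mulVec_add]
    ring
  have hnd : (QuadraticMap.polarBilin Q').Nondegenerate := by
    apply ((Cfsg.Agent.Helper16.polarBilin_isSymm _).isRefl.nondegenerate_iff_separatingLeft).2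
    intro x hx
    have h1 : ∀ z, QuadraticMap.polar (⇑QF)
        (Matrix.mulVec (P : Matrix (Fin n) (Fin n) F) x) z = 0 := by
      intro z
      have h3 := hx (Matrix.mulVec ((P⁻¹ : Matrix.GeneralLinearGroup (Fin n) F) :
        Matrix (Fin n) (Fin n) F) z)
      have h4 : QuadraticMap.polarBilin Q' x
          (Matrix.mulVec ((P⁻¹ : Matrix.GeneralLinearGroup (Fin n) F) :
            Matrix (Fin n) (Fin n) F) z)
          = QuadraticMap.polar Q' x
          (Matrix.mulVec ((P⁻¹ : Matrix.GeneralLinearGroup (Fin n) F) :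
            Matrix (Fin n) (Fin n) F) z) := rfl
      rw [h4, hpol, Matrix.mulVec_mulVec, ← Units.val_mul, mul_inv_cancel, Units.val_one,
        Matrix.one_mulVec] at h3
      rw [hQF]
      exact (mul_eq_zero.mp h3).resolve_left hζ
    have h5 : Matrix.mulVec (P : Matrix (Fin n) (Fin n) F) x = 0 := by
      have h6 := ((Cfsg.Agent.Helper16.polarBilin_isSymm _).isRefl.nondegenerate_iff_separatingLeft).1
        hQFnd
      exact h6 _ h1
    have h7 := congrArg (fun z => Matrix.mulVec ((P⁻¹ : Matrix.GeneralLinearGroup (Fin n) F) :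
        Matrix (Fin n) (Fin n) F) z) h5
    simp only [Matrix.mulVec_mulVec, Matrix.mulVec_zero] at h7
    rw [← Units.val_mul, inv_mul_cancel, Units.val_one, Matrix.one_mulVec] at h7
    exact h7
  have hrat : ∀ v : Fin n → F₀, Q' (Cfsg.Agent.Helper16.upv F₀ v) ∈ F₀ := by
    intro v
    rw [hQ']
    exact hP (Cfsg.Agent.Helper16.upv F₀ v) (fun i => (v i).2)
  have core := Cfsg.Agent.Helper16.EO.osub_core F₀ r hr hcard Q' hnd
    (by rw [Fintype.card_fin]; exact hn14) hrat
  have hiso : Cfsg.isometryGroup F ⇑Q'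
      = Cfsg.isometryGroup F (fun v => Q (Matrix.mulVec (P : Matrix (Fin n) (Fin n) F) v)) := by
    ext g
    rw [Cfsg.Agent.Helper16.mem_isometryGroup_iff, Cfsg.Agent.Helper16.mem_isometryGroup_iff]
    constructor
    · intro h u
      have h1 := h u
      rw [hQ', hQ'] at h1
      exact mul_left_cancel₀ hζ h1
    · intro h u
      rw [hQ', hQ']
      exact congrArg (fun t => ζ * t) (h u)
  have homega : Cfsg.Geo.omegaGL ⇑Q'
      = Cfsg.Geo.omegaGL (fun v => Q (Matrix.mulVec (P : Matrix (Fin n) (Fin n) F) v)) := by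
    rw [Cfsg.Agent.Helper16.omegaGL_eq_comm, Cfsg.Agent.Helper16.omegaGL_eq_comm, hiso]
  rw [homega] at core
  have h3 := Cfsg.Agent.Helper16.isMaximalIn_map (MulAut.conj P) _ _ core
  rw [Subgroup.map_inf _ _ _ (MulAut.conj P).injective, Cfsg.Agent.Helper16.sfg_conj,
    Cfsg.Agent.Helper16.omegaGL_conj] at h3
  exact h3

end Cfsg.Agent.S5702
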