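import Cfsg.Statements.S5705
-- import your own Cfsg.Agent.* helpers here
import Cfsg.Agent.S5682

set_option autoImplicit false
open Cfsg

namespace Cfsg.Agent.S5705

open Matrix QuadraticMap
open scoped Kronecker
open Cfsg.Agent.Helper16 Cfsg.Agent.S5667 Cfsg.Agent.S5682

section grp

theorem mem_norm_zpowers {G : Type*} [Group G] (g z : G)
    (h : g * z = z * g ∨ g * z = z⁻¹ * g) :
    g ∈ Subgroup.normalizer ((Subgroup.zpowers z : Subgroup G) : Set G) := by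
  have c1 : g * z * g⁻¹ = z ∨ g * z * g⁻¹ = z⁻¹ := by
    rcases h with h | h
    · left; rw [h, mul_assoc, mul_inv_cancel, mul_one]
    · right; rw [h, mul_assoc, mul_inv_cancel, mul_one]
  have c2 : g⁻¹ * z * g = z ∨ g⁻¹ * z * g = z⁻¹ := by
    rcases h with h | h
    · left; rw [mul_assoc, ← h, inv_mul_cancel_left]
    · right
      have h' : z * g = g * z⁻¹ := by
        have : g = z * (g * z) := by rw [h, mul_inv_cancel_left]
        calc z * g = z * (g * z) * z⁻¹ := by rw [mul_assoc, mul_assoc, mul_inv_cancel, mul_one]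
          _ = g * z⁻¹ := by rw [← this]
      rw [mul_assoc, h', inv_mul_cancel_left]
  rw [Subgroup.mem_normalizer_iff]
  intro x
  constructor
  · intro hx
    obtain ⟨k, rfl⟩ := Subgroup.mem_zpowers_iff.mp hx
    rw [← conj_zpow]
    rcases c1 with c | c
    · rw [c]; exact Subgroup.zpow_mem _ (Subgroup.mem_zpowers z) k
    · rw [c]; exact Subgroup.zpow_mem _ (inv_mem (Subgroup.mem_zpowers z)) k
  · intro hx
    obtain ⟨k, hk⟩ := Subgroup.mem_zpowers_iff.mp hx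
    have e1 : x = g⁻¹ * z ^ k * g := by rw [hk]; group
    have e2 : g⁻¹ * z ^ k * g = (g⁻¹ * z * g) ^ k := by
      have := @conj_zpow _ _ k g⁻¹ z
      rw [inv_inv] at this
      exact this.symm
    rw [e1, e2]
    rcases c2 with c | c
    · rw [c]; exact Subgroup.zpow_mem _ (Subgroup.mem_zpowers z) k
    · rw [c]; exact Subgroup.zpow_mem _ (inv_mem (Subgroup.mem_zpowers z)) k

theorem zpow_cases {G : Type*} [Group G] (z : G) (hz : z * z = z⁻¹) (k : ℤ) :
    z ^ k = 1 ∨ z ^ k = z ∨ z ^ k = z⁻¹ := by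
  have h3 : z ^ (3 : ℤ) = 1 := by
    have : z ^ (3 : ℤ) = z * z * z := by
      rw [show (3 : ℤ) = 1 + 1 + 1 by norm_num, _root_.zpow_add, _root_.zpow_add, zpow_one]
    rw [this, hz, inv_mul_cancel]
  obtain ⟨q, r, hr0, hr3, rfl⟩ : ∃ q r : ℤ, 0 ≤ r ∧ r < 3 ∧ k = 3 * q + r :=
    ⟨k / 3, k % 3, by omega, by omega, by omega⟩
  rw [_root_.zpow_add, _root_.zpow_mul, h3, _root_.one_zpow, one_mul]
  interval_cases r
  · left; simp
  · right; left; simp
  · right; right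
    rw [show (2 : ℤ) = 1 + 1 by norm_num, _root_.zpow_add, zpow_one, hz]

end grp

section two
variable {F : Type*} [Field F] [Fintype F] {ι : Type} [Fintype ι] [DecidableEq ι]

theorem conjW (hq : Fintype.card F = 2) (A : Matrix (Fin 2) (Fin 2) F) (hA : A.det ≠ 0) :
    A * !![0, 1; 1, 1] = !![0, 1; 1, 1] * A ∨ A * !![0, 1; 1, 1] = !![1, 1; 1, 0] * A := by
  have h2 := Cfsg.Agent.S5648.one_add_one hq
  rw [Matrix.det_fin_two] at hA
  rcases Cfsg.Agent.S5648.two_elts hq (A 0 0) with ha | ha <;>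
  rcases Cfsg.Agent.S5648.two_elts hq (A 0 1) with hb | hb <;>
  rcases Cfsg.Agent.S5648.two_elts hq (A 1 0) with hc | hc <;>
  rcases Cfsg.Agent.S5648.two_elts hq (A 1 1) with hd | hd
  all_goals first
    | (exfalso; apply hA; rw [ha, hb, hc, hd]; ring; done)
    | (left; ext i j; fin_cases i <;> fin_cases j <;>
        simp [Matrix.mul_apply, Fin.sum_univ_two, ha, hb, hc, hd, h2] ; done)
    | (right; ext i j; fin_cases i <;> fin_cases j <;>
        simp [Matrix.mul_apply, Fin.sum_univ_two, ha, hb, hc, hd, h2]; done)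

theorem conj_tau {n₁ n₂ : ℕ} (e : ι ≃ Fin n₁ × Fin n₂) (P : GL ι F) (M : GL (Fin n₁ × Fin n₂) F)
    (A : Matrix (Fin n₁) (Fin n₁) F) (B : Matrix (Fin n₂) (Fin n₂) F)
    (hM : (M : Matrix (Fin n₁ × Fin n₂) (Fin n₁ × Fin n₂) F) = A ⊗ₖ B) (a : Fin n₁ → F)
    (y : Fin n₂ → F) :
    (((MulAut.conj P).toMonoidHom ((Cfsg.Geo.glReindex e.symm).toMonoidHom M) : GL ι F)
      : Matrix ι ι F) *ᵥ tau e P a y = tau e P (A *ᵥ a) (B *ᵥ y) := by
  have h1 : (((MulAut.conj P).toMonoidHom ((Cfsg.Geo.glReindex e.symm).toMonoidHom M) : GL ι F)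
      : Matrix ι ι F)
      = (P : Matrix ι ι F) * (M : Matrix _ _ F).submatrix e e
        * ((P⁻¹ : GL ι F) : Matrix ι ι F) := rfl
  rw [h1]
  unfold Cfsg.Agent.S5667.tau
  rw [Matrix.mulVec_mulVec, mul_assoc, mul_assoc, Units.inv_mul, mul_one, ← Matrix.mulVec_mulVec]
  congr 1
  rw [Matrix.submatrix_mulVec_equiv]
  have h2 : (Cfsg.Agent.S5671.ten a y ∘ e) ∘ e.symm = Cfsg.Agent.S5671.ten a y := by
    funext p; simp
  rw [h2, hM, Cfsg.Agent.S5671.kron_mulVec_ten]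

theorem tau_surj2 {n₂ : ℕ} (e : ι ≃ Fin 2 × Fin n₂) (P : GL ι F) (v : ι → F) :
    ∃ y y' : Fin n₂ → F, v = tau e P (Pi.single 0 1) y + tau e P (Pi.single 1 1) y' := by
  refine ⟨fun j => (((P⁻¹ : GL ι F) : Matrix ι ι F) *ᵥ v) (e.symm (0, j)),
    fun j => (((P⁻¹ : GL ι F) : Matrix ι ι F) *ᵥ v) (e.symm (1, j)), ?_⟩
  unfold Cfsg.Agent.S5667.tau
  rw [← Matrix.mulVec_add]
  have key : (Cfsg.Agent.S5671.ten (Pi.single 0 1)
        (fun j => (((P⁻¹ : GL ι F) : Matrix ι ι F) *ᵥ v) (e.symm (0, j))) ∘ e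
      + Cfsg.Agent.S5671.ten (Pi.single 1 1)
        (fun j => (((P⁻¹ : GL ι F) : Matrix ι ι F) *ᵥ v) (e.symm (1, j))) ∘ e)
      = ((P⁻¹ : GL ι F) : Matrix ι ι F) *ᵥ v := by
    funext k
    simp only [Pi.add_apply, Function.comp_apply, Cfsg.Agent.S5671.ten]
    have hk : e.symm (e k) = k := e.symm_apply_apply k
    generalize e k = p at hk ⊢
    obtain ⟨i, j⟩ := p
    subst hk
    fin_cases i <;> simp [Pi.single_apply]
  rw [key, Matrix.mulVec_mulVec, ← Units.val_mul, mul_inv_cancel, Units.val_one, Matrix.one_mulVec]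

/-- over the field with two elements, the stabiliser in `Ω` of a tensor decomposition
`2 ⊗ n₂` of symplectic forms is not maximal: it normalises an element of order three -/
theorem tens2_not_max (hq : Fintype.card F = 2) (QF : QuadraticForm F (ι → F))
    (hQ : (polarBilin QF).Nondegenerate) (n₂ : ℕ) (hn₂ : 2 < n₂)
    (e : ι ≃ Fin 2 × Fin n₂) (P : GL ι F)
    (f₁ : (Fin 2 → F) → (Fin 2 → F) → F) (f₂ : (Fin n₂ → F) → (Fin n₂ → F) → F)
    (hf₁ : Cfsg.Geo.IsSymplecticForm f₁) (hf₂ : Cfsg.Geo.IsSymplecticForm f₂)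
    (hT : Cfsg.Geo.IsTensorFormStructure id (QuadraticMap.polar ⇑QF) f₁ f₂ e P)
    (hpure : ∀ (x₁ : Fin 2 → F) (x₂ : Fin n₂ → F),
      QF (Matrix.mulVec (P : Matrix ι ι F) ((fun a : Fin 2 × Fin n₂ => x₁ a.1 * x₂ a.2) ∘ e)) = 0) :
    ∃ K : Subgroup (GL ι F), Cfsg.Geo.tensorProductSubgroup 2 n₂ e P ⊓ Cfsg.Geo.omegaGL ⇑QF < K ∧
      K < Cfsg.Geo.omegaGL ⇑QF := by
  classical
  obtain ⟨c, hc0, hc⟩ := hT
  have h2F := Cfsg.Agent.S5648.one_add_one hq
  have hadd : ∀ x : F, x + x = 0 := Cfsg.Agent.S5648.add_self' hq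
  have hc1 : c = 1 := by
    rcases Cfsg.Agent.S5648.two_elts hq c with h | h
    · exact absurd h hc0
    · exact h
  subst hc1
  have hbl₁ := hf₁.bilinear
  have hbl₂ := hf₂.bilinear
  have hsym₂ : ∀ y y' : Fin n₂ → F, f₂ y y' = f₂ y' y := by
    intro y y'
    rw [hf₂.skew y y']
    linear_combination -(hadd (f₂ y' y))
  have hf0r : ∀ y : Fin n₂ → F, f₂ y 0 = 0 := bf_zero_right hbl₂
  have hf0l : ∀ y : Fin n₂ → F, f₂ 0 y = 0 := bf_zero_left hbl₂
  -- the standard basis of the plane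
  obtain ⟨x₁, hx₁⟩ : ∃ x₁ : Fin 2 → F, x₁ = Pi.single 0 1 := ⟨_, rfl⟩
  obtain ⟨x₂, hx₂⟩ : ∃ x₂ : Fin 2 → F, x₂ = Pi.single 1 1 := ⟨_, rfl⟩
  have hexp : ∀ a : Fin 2 → F, a = a 0 • x₁ + a 1 • x₂ := by
    intro a
    rw [hx₁, hx₂]
    funext i
    fin_cases i <;> simp
  have h11 : f₁ x₁ x₁ = 0 := hf₁.alternating x₁
  have h22 : f₁ x₂ x₂ = 0 := hf₁.alternating x₂
  have h12 : f₁ x₁ x₂ = 1 := by
    have hne : x₁ ≠ 0 := by
      rw [hx₁]
      intro h
      have := congrFun h 0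
      simp at this
    obtain ⟨x, hx⟩ := (hf₁.nondegenerate _ hne).2
    rw [hexp x, hbl₁.add_right, hbl₁.smul_right, hbl₁.smul_right, h11, mul_zero, zero_add] at hx
    rcases Cfsg.Agent.S5648.two_elts hq (f₁ x₁ x₂) with h | h
    · rw [h, mul_zero] at hx
      exact absurd rfl hx
    · exact h
  have h21 : f₁ x₂ x₁ = 1 := by
    rw [hf₁.skew, h12]
    linear_combination -h2F
  -- the form on pure tensors
  have hform : ∀ (a a' : Fin 2 → F) (y y' : Fin n₂ → F),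
      polar QF (tau e P a y) (tau e P a' y') = f₁ a a' * f₂ y y' := by
    intro a a' y y'
    unfold Cfsg.Agent.S5667.tau
    rw [hc, Cfsg.Agent.S5671.fog_kron _ (fun u v => rfl), bf_gram hbl₁, bf_gram hbl₂, one_mul]
  have hQt : ∀ (a : Fin 2 → F) (y : Fin n₂ → F), QF (tau e P a y) = 0 := fun a y => hpure a y
  have hBΦ : ∀ y y' w w' : Fin n₂ → F,
      polar QF (tau e P x₁ y + tau e P x₂ y') (tau e P x₁ w + tau e P x₂ w')
        = f₂ y w' + f₂ y' w := by
    intro y y' w w'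
    rw [polar_add_left, polar_add_right, polar_add_right, hform, hform, hform, hform, h11, h12,
      h21, h22]
    ring
  have hQΦ : ∀ y y' : Fin n₂ → F, QF (tau e P x₁ y + tau e P x₂ y') = f₂ y y' := by
    intro y y'
    rw [qf_add, hQt, hQt, hform, h12]
    ring
  have hsurj : ∀ v : ι → F, ∃ y y' : Fin n₂ → F, v = tau e P x₁ y + tau e P x₂ y' := by
    intro v
    rw [hx₁, hx₂]
    exact tau_surj2 e P v
  -- the element of order three
  obtain ⟨Wm, hWm⟩ : ∃ Wm : Matrix (Fin 2) (Fin 2) F, Wm = !![0, 1; 1, 1] := ⟨_, rfl⟩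
  obtain ⟨Wm', hWm'⟩ : ∃ Wm' : Matrix (Fin 2) (Fin 2) F, Wm' = !![1, 1; 1, 0] := ⟨_, rfl⟩
  have hWW' : Wm * Wm' = 1 := by
    rw [hWm, hWm']
    ext i j
    fin_cases i <;> fin_cases j <;> simp [Matrix.mul_apply, Fin.sum_univ_two, h2F]
  have hW'W : Wm' * Wm = 1 := by
    rw [hWm, hWm']
    ext i j
    fin_cases i <;> fin_cases j <;> simp [Matrix.mul_apply, Fin.sum_univ_two, h2F]
  have hWsq : Wm * Wm = Wm' := by
    rw [hWm, hWm']
    ext i j
    fin_cases i <;> fin_cases j <;> simp [Matrix.mul_apply, Fin.sum_univ_two, h2F]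
  have hWx₁ : Wm *ᵥ x₁ = x₂ := by
    rw [hWm, hx₁, hx₂]
    funext i
    fin_cases i <;> simp [Matrix.mulVec, dotProduct, Fin.sum_univ_two]
  have hWx₂ : Wm *ᵥ x₂ = x₁ + x₂ := by
    rw [hWm, hx₁, hx₂]
    funext i
    fin_cases i <;> simp [Matrix.mulVec, dotProduct, Fin.sum_univ_two]
  let Mz : GL (Fin 2 × Fin n₂) F :=
    ⟨Wm ⊗ₖ (1 : Matrix (Fin n₂) (Fin n₂) F), Wm' ⊗ₖ (1 : Matrix (Fin n₂) (Fin n₂) F),
      by rw [← Matrix.mul_kronecker_mul, hWW', Matrix.mul_one, Matrix.one_kronecker_one],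
      by rw [← Matrix.mul_kronecker_mul, hW'W, Matrix.mul_one, Matrix.one_kronecker_one]⟩
  let φ : GL (Fin 2 × Fin n₂) F →* GL ι F :=
    (MulAut.conj P).toMonoidHom.comp (Cfsg.Geo.glReindex e.symm).toMonoidHom
  obtain ⟨z, hz⟩ : ∃ z : GL ι F, z = φ Mz := ⟨_, rfl⟩
  have hzact : ∀ (a : Fin 2 → F) (y : Fin n₂ → F),
      (z : Matrix ι ι F) *ᵥ tau e P a y = tau e P (Wm *ᵥ a) y := by
    intro a y
    rw [hz]
    have := conj_tau e P Mz Wm 1 rfl a y
    rw [Matrix.one_mulVec] at this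
    exact this
  have hzΦ : ∀ y y' : Fin n₂ → F, (z : Matrix ι ι F) *ᵥ (tau e P x₁ y + tau e P x₂ y')
      = tau e P x₁ y' + tau e P x₂ (y + y') := by
    intro y y'
    rw [Matrix.mulVec_add, hzact, hzact, hWx₁, hWx₂, tau_add_left, tau_add_right]
    abel
  have hzQ : ∀ v : ι → F, QF ((z : Matrix ι ι F) *ᵥ v) = QF v := by
    intro v
    obtain ⟨y, y', rfl⟩ := hsurj v
    rw [hzΦ, hQΦ, hQΦ, hbl₂.add_right, hf₂.alternating, add_zero, hsym₂]
  have hzB : ∀ u v : ι → F, polar QF ((z : Matrix ι ι F) *ᵥ u) ((z : Matrix ι ι F) *ᵥ v)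
      = polar QF u v := by
    intro u v
    unfold QuadraticMap.polar
    rw [← Matrix.mulVec_add, hzQ, hzQ, hzQ]
  have hzz : ∀ v : ι → F, (z : Matrix ι ι F) *ᵥ ((z : Matrix ι ι F) *ᵥ v)
      = v + (z : Matrix ι ι F) *ᵥ v := by
    intro v
    obtain ⟨y, y', rfl⟩ := hsurj v
    rw [hzΦ, hzΦ]
    simp only [tau_add_right]
    abel
  have hMzsq : Mz * Mz = Mz⁻¹ := by
    apply Units.ext
    show Wm ⊗ₖ (1 : Matrix (Fin n₂) (Fin n₂) F) * Wm ⊗ₖ (1 : Matrix (Fin n₂) (Fin n₂) F)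
      = Wm' ⊗ₖ (1 : Matrix (Fin n₂) (Fin n₂) F)
    rw [← Matrix.mul_kronecker_mul, hWsq, Matrix.mul_one]
  have hzsq : z * z = z⁻¹ := by rw [hz, ← map_mul, hMzsq, map_inv]
  -- a hyperbolic pair and vectors orthogonal to it
  have hn₂pos : 0 < n₂ := by omega
  obtain ⟨y₁, y₁', hyy⟩ : ∃ y₁ y₁' : Fin n₂ → F, f₂ y₁ y₁' = 1 := by
    have hne : (Pi.single (⟨0, hn₂pos⟩ : Fin n₂) (1 : F) : Fin n₂ → F) ≠ 0 := by
      intro h
      have := congrFun h ⟨0, hn₂pos⟩
      simp at this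
    obtain ⟨x, hx⟩ := (hf₂.nondegenerate _ hne).2
    refine ⟨(Pi.single (⟨0, hn₂pos⟩ : Fin n₂) (1 : F) : Fin n₂ → F), x, ?_⟩
    rcases Cfsg.Agent.S5648.two_elts hq (f₂ (Pi.single (⟨0, hn₂pos⟩ : Fin n₂) (1 : F)) x) with h | h
    · exact absurd h hx
    · exact h
  have hyy' : f₂ y₁' y₁ = 1 := by rw [hsym₂, hyy]
  have hy₁ : f₂ y₁ y₁ = 0 := hf₂.alternating _
  have hy₁' : f₂ y₁' y₁' = 0 := hf₂.alternating _
  obtain ⟨w₀, hw₀, hw₀1, hw₀2⟩ : ∃ w₀ : Fin n₂ → F, w₀ ≠ 0 ∧ f₂ w₀ y₁ = 0 ∧ f₂ w₀ y₁' = 0 := by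
    let L : (Fin 2 → F) →ₗ[F] (Fin n₂ → F) :=
      { toFun := fun c => c 0 • y₁ + c 1 • y₁'
        map_add' := fun c d => by
          simp only [Pi.add_apply, add_smul]
          abel
        map_smul' := fun s c => by
          simp only [Pi.smul_apply, smul_eq_mul, RingHom.id_apply, smul_add, smul_smul] }
    have hlt : LinearMap.range L ≠ ⊤ := by
      intro htop
      have h1 := LinearMap.finrank_range_le L
      rw [htop, finrank_top] at h1
      simp at h1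
      omega
    obtain ⟨u, hu⟩ : ∃ u, u ∉ LinearMap.range L := by
      by_contra hcon
      push Not at hcon
      exact hlt (eq_top_iff.mpr fun x _ => hcon x)
    refine ⟨u + f₂ u y₁' • y₁ + f₂ u y₁ • y₁', ?_, ?_, ?_⟩
    · intro h0
      apply hu
      refine ⟨![f₂ u y₁', f₂ u y₁], ?_⟩
      show (![f₂ u y₁', f₂ u y₁] 0) • y₁ + (![f₂ u y₁', f₂ u y₁] 1) • y₁' = u
      simp only [Matrix.cons_val_zero, Matrix.cons_val_one]
      funext i
      have := congrFun h0 i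
      simp only [Pi.add_apply, Pi.smul_apply, smul_eq_mul, Pi.zero_apply] at this ⊢
      linear_combination this - hadd (u i)
    · rw [hbl₂.add_left, hbl₂.add_left, hbl₂.smul_left, hbl₂.smul_left, hy₁, hyy', mul_zero,
        add_zero, mul_one]
      exact hadd _
    · rw [hbl₂.add_left, hbl₂.add_left, hbl₂.smul_left, hbl₂.smul_left, hyy, hy₁', mul_one,
        mul_zero, add_zero]
      exact hadd _
  obtain ⟨w, hww₀, hwy⟩ : ∃ w : Fin n₂ → F, f₂ w w₀ = 1 ∧ f₂ w y₁' = 0 := by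
    obtain ⟨x, hx⟩ := (hf₂.nondegenerate _ hw₀).1
    have hx1 : f₂ x w₀ = 1 := by
      rcases Cfsg.Agent.S5648.two_elts hq (f₂ x w₀) with h | h
      · exact absurd h hx
      · exact h
    refine ⟨x + f₂ x y₁' • y₁, ?_, ?_⟩
    · rw [hbl₂.add_left, hbl₂.smul_left, hsym₂ y₁ w₀, hw₀1, mul_zero, add_zero, hx1]
    · rw [hbl₂.add_left, hbl₂.smul_left, hyy, mul_one]
      exact hadd _
  have hw₀w : f₂ w₀ w = 1 := by rw [hsym₂, hww₀]
  -- reflections
  have hrefl : ∀ u x : ι → F, QF u = 1 → qrefl QF u x = x + polar QF u x • u := by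
    intro u x hu
    rw [qrefl_apply, hu, inv_one, one_mul]
    funext i
    simp only [Pi.sub_apply, Pi.add_apply, Pi.smul_apply, smul_eq_mul]
    linear_combination -(hadd (polar QF u x * u i))
  obtain ⟨a, ha⟩ : ∃ a : ι → F, a = tau e P x₁ y₁ + tau e P x₂ y₁' := ⟨_, rfl⟩
  obtain ⟨a₂, ha₂⟩ : ∃ a₂ : ι → F, a₂ = tau e P x₁ y₁' + tau e P x₂ (y₁ + y₁') := ⟨_, rfl⟩
  obtain ⟨a', ha'⟩ : ∃ a' : ι → F, a' = tau e P x₁ w + tau e P x₂ w₀ := ⟨_, rfl⟩
  have hQa : QF a = 1 := by rw [ha, hQΦ, hyy]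
  have hQa₂ : QF a₂ = 1 := by rw [ha₂, hQΦ, hbl₂.add_right, hyy', hy₁', add_zero]
  have hQa' : QF a' = 1 := by rw [ha', hQΦ, hww₀]
  have hBaa₂ : polar QF a a₂ = 1 := by
    rw [ha, ha₂, hBΦ, hbl₂.add_right, hy₁, hyy, hy₁', zero_add, add_zero]
  have hBa'a : polar QF a' a = 0 := by rw [ha', ha, hBΦ, hwy, hw₀1, add_zero]
  have hza : (z : Matrix ι ι F) *ᵥ a = a₂ := by rw [ha, ha₂, hzΦ]
  have hza₂ : (z : Matrix ι ι F) *ᵥ a₂ = a + a₂ := by
    rw [ha, ha₂, hzΦ]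
    simp only [tau_add_right]
    abel
  -- the element of `K` outside the tensor product group
  obtain ⟨ρ, hρ⟩ : ∃ ρ : ↥(Cfsg.isometryGroup F ⇑QF), ρ = reflElt QF a * reflElt QF a₂ :=
    ⟨_, rfl⟩
  have hρΩ : (ρ : GL ι F) ∈ Cfsg.Geo.omegaGL ⇑QF := by
    rw [hρ]
    exact mem_omegaGL ⇑QF _ (refl_pair_mem_Omega QF hQ _ _ (by rw [hQa]; exact one_ne_zero)
      (by rw [hQa₂, hQa]))
  have hρact : ∀ x : ι → F, ((ρ : GL ι F) : Matrix ι ι F) *ᵥ x
      = x + polar QF a₂ x • a₂ + (polar QF a x + polar QF a₂ x) • a := by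
    intro x
    rw [hρ, act_pair QF _ _ (by rw [hQa]; exact one_ne_zero) (by rw [hQa₂]; exact one_ne_zero),
      hrefl a₂ x hQa₂, hrefl a _ hQa, polar_add_right, polar_smul_right, hBaa₂, smul_eq_mul,
      mul_one]
  have hρz : (ρ : GL ι F) * z = z * (ρ : GL ι F) := by
    apply Units.ext
    apply Matrix.toLin'.injective
    apply LinearMap.ext
    intro v
    simp only [Units.val_mul, Matrix.toLin'_mul, LinearMap.comp_apply, Matrix.toLin'_apply]
    rw [hρact, hρact, Matrix.mulVec_add, Matrix.mulVec_add, Matrix.mulVec_smul,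
      Matrix.mulVec_smul, hza, hza₂]
    have e1 : polar QF a₂ ((z : Matrix ι ι F) *ᵥ v) = polar QF a v := by rw [← hza, hzB]
    have e2 : polar QF a ((z : Matrix ι ι F) *ᵥ v) = polar QF a v + polar QF a₂ v := by
      have h3 : (z : Matrix ι ι F) *ᵥ (a + a₂) = a := by
        rw [Matrix.mulVec_add, hza, hza₂]
        funext i
        simp only [Pi.add_apply]
        linear_combination hadd (a₂ i)
      calc polar QF a ((z : Matrix ι ι F) *ᵥ v)
          = polar QF ((z : Matrix ι ι F) *ᵥ (a + a₂)) ((z : Matrix ι ι F) *ᵥ v) := by rw [h3]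
        _ = polar QF a v + polar QF a₂ v := by rw [hzB, polar_add_left]
    rw [e1, e2]
    generalize polar QF a v = s
    generalize polar QF a₂ v = t
    funext i
    simp only [Pi.add_apply, Pi.smul_apply, smul_eq_mul]
    linear_combination (a i) * hadd s - (a₂ i) * hadd t
  have hρT : (ρ : GL ι F) ∉ Cfsg.Geo.tensorProductSubgroup 2 n₂ e P := by
    intro hmem
    obtain ⟨A, B', hAB⟩ := kron_tau e P _ hmem
    have hfix : ∀ x : Fin 2 → F,
        ((ρ : GL ι F) : Matrix ι ι F) *ᵥ tau e P x w₀ = tau e P x w₀ := by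
      intro x
      have b1 : polar QF a (tau e P x w₀) = 0 := by
        rw [ha, polar_add_left, hform, hform, hsym₂ y₁ w₀, hsym₂ y₁' w₀, hw₀1, hw₀2, mul_zero,
          mul_zero, add_zero]
      have b2 : polar QF a₂ (tau e P x w₀) = 0 := by
        rw [ha₂, polar_add_left, hform, hform, hbl₂.add_left, hsym₂ y₁' w₀, hsym₂ y₁ w₀, hw₀1,
          hw₀2, add_zero, mul_zero, mul_zero, add_zero]
      rw [hρact, b1, b2, zero_smul, add_zero, add_zero, zero_smul, add_zero]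
    have h1 : ∀ x x' : Fin 2 → F, f₁ ((A : Matrix (Fin 2) (Fin 2) F) *ᵥ x) x'
        * f₂ ((B' : Matrix (Fin n₂) (Fin n₂) F) *ᵥ w₀) w = f₁ x x' := by
      intro x x'
      have := congrArg (fun v => polar QF v (tau e P x' w)) (hAB x w₀)
      simp only [hfix, hform, hw₀w, mul_one] at this
      exact this.symm
    have hβ : f₂ ((B' : Matrix (Fin n₂) (Fin n₂) F) *ᵥ w₀) w = 1 := by
      rcases Cfsg.Agent.S5648.two_elts hq (f₂ ((B' : Matrix (Fin n₂) (Fin n₂) F) *ᵥ w₀) w) with h | h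
      · have := h1 x₁ x₂
        rw [h, mul_zero, h12] at this
        exact absurd this zero_ne_one
      · exact h
    have hA : ∀ x : Fin 2 → F, (A : Matrix (Fin 2) (Fin 2) F) *ᵥ x = x := by
      intro x
      by_contra hne
      have hne' : (A : Matrix (Fin 2) (Fin 2) F) *ᵥ x + x ≠ 0 := by
        intro h0
        apply hne
        funext i
        have := congrFun h0 i
        simp only [Pi.add_apply, Pi.zero_apply] at this
        linear_combination this - hadd (x i)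
      obtain ⟨x', hx'⟩ := (hf₁.nondegenerate _ hne').2
      apply hx'
      rw [hbl₁.add_left]
      have := h1 x x'
      rw [hβ, mul_one] at this
      rw [this]
      exact hadd _
    have h3 := hAB x₁ y₁'
    rw [hA] at h3
    have b1 : polar QF a (tau e P x₁ y₁') = 0 := by
      rw [ha, polar_add_left, hform, hform, h11, h21, hy₁', zero_mul, mul_zero, add_zero]
    have b2 : polar QF a₂ (tau e P x₁ y₁') = 1 := by
      rw [ha₂, polar_add_left, hform, hform, h11, h21, hbl₂.add_left, hyy, hy₁', zero_mul,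
        zero_add, add_zero, one_mul]
    rw [hρact, b1, b2, one_smul, zero_add, one_smul] at h3
    have := congrArg (fun v => polar QF v (tau e P x₁ y₁')) h3
    simp only [polar_add_left, hform, h11, zero_mul, b1, b2, add_zero, zero_add] at this
    exact one_ne_zero this
  -- the element of `Ω` outside `K`
  obtain ⟨g, hg⟩ : ∃ g : ↥(Cfsg.isometryGroup F ⇑QF), g = reflElt QF a' * reflElt QF a :=
    ⟨_, rfl⟩
  have hgΩ : (g : GL ι F) ∈ Cfsg.Geo.omegaGL ⇑QF := by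
    rw [hg]
    exact mem_omegaGL ⇑QF _ (refl_pair_mem_Omega QF hQ _ _ (by rw [hQa']; exact one_ne_zero)
      (by rw [hQa, hQa']))
  have hgact : ∀ x : ι → F, ((g : GL ι F) : Matrix ι ι F) *ᵥ x
      = x + polar QF a x • a + polar QF a' x • a' := by
    intro x
    rw [hg, act_pair QF _ _ (by rw [hQa']; exact one_ne_zero) (by rw [hQa]; exact one_ne_zero),
      hrefl a x hQa, hrefl a' _ hQa', polar_add_right, polar_smul_right, hBa'a, smul_eq_mul,
      mul_zero, add_zero]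
  obtain ⟨v, hv⟩ : ∃ v : ι → F, v = tau e P x₁ y₁' + tau e P x₂ 0 := ⟨_, rfl⟩
  obtain ⟨v', hv'⟩ : ∃ v' : ι → F, v' = tau e P x₁ 0 + tau e P x₂ y₁' := ⟨_, rfl⟩
  have hzv : (z : Matrix ι ι F) *ᵥ v = v' := by rw [hv, hv', hzΦ, add_zero]
  have c1 : polar QF a v = 0 := by rw [ha, hv, hBΦ, hf0r, hy₁', add_zero]
  have c2 : polar QF a' v = 0 := by rw [ha', hv, hBΦ, hf0r, hw₀2, add_zero]
  have c3 : polar QF a v' = 1 := by rw [ha, hv', hBΦ, hyy, hf0r, add_zero]
  have c4 : polar QF a' v' = 0 := by rw [ha', hv', hBΦ, hwy, hf0r, add_zero]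
  have c5 : polar QF v v' = 0 := by rw [hv, hv', hBΦ, hy₁', hf0l, add_zero]
  have c6 : polar QF v' v' = 0 := by rw [hv', hBΦ, hf0l, hf0r, add_zero]
  have hgv : ((g : GL ι F) : Matrix ι ι F) *ᵥ v = v := by
    rw [hgact, c1, c2, zero_smul, zero_smul, add_zero, add_zero]
  have hgv' : ((g : GL ι F) : Matrix ι ι F) *ᵥ v' = v' + a := by
    rw [hgact, c3, c4, one_smul, zero_smul, add_zero]
  have hgK : (g : GL ι F) ∉ Subgroup.normalizer
      ((Subgroup.zpowers z : Subgroup (GL ι F)) : Set (GL ι F)) := by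
    intro hmem
    have h1 := (Subgroup.mem_normalizer_iff.mp hmem z).mp (Subgroup.mem_zpowers z)
    obtain ⟨k, hk⟩ := Subgroup.mem_zpowers_iff.mp h1
    have h2 : (g : GL ι F) * z = z ^ k * (g : GL ι F) := by rw [hk]; group
    have h3 : ((g : GL ι F) : Matrix ι ι F) *ᵥ ((z : Matrix ι ι F) *ᵥ v)
        = ((z ^ k : GL ι F) : Matrix ι ι F) *ᵥ (((g : GL ι F) : Matrix ι ι F) *ᵥ v) := by
      rw [Matrix.mulVec_mulVec, Matrix.mulVec_mulVec, ← Units.val_mul, ← Units.val_mul, h2]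
    rw [hzv, hgv', hgv] at h3
    rcases zpow_cases z hzsq k with h | h | h
    · rw [h, Units.val_one, Matrix.one_mulVec] at h3
      have := congrArg (fun u => polar QF u v') h3
      simp only [polar_add_left, c6, c3, c5, zero_add] at this
      exact one_ne_zero this
    · rw [h, hzv] at h3
      have ha0 : a = 0 := by
        funext i
        have := congrFun h3 i
        simp only [Pi.add_apply, Pi.zero_apply] at this ⊢
        linear_combination this
      rw [ha0, map_zero] at hQa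
      exact zero_ne_one hQa
    · rw [h, ← hzsq, Units.val_mul, ← Matrix.mulVec_mulVec, hzz, hzv] at h3
      have := congrArg (fun u => polar QF u v') h3
      simp only [polar_add_left, c6, c3, c5, zero_add, add_zero] at this
      exact one_ne_zero this
  -- part 1
  have hle : Cfsg.Geo.tensorProductSubgroup 2 n₂ e P ⊓ Cfsg.Geo.omegaGL ⇑QF
      ≤ Subgroup.normalizer ((Subgroup.zpowers z : Subgroup (GL ι F)) : Set (GL ι F))
        ⊓ Cfsg.Geo.omegaGL ⇑QF := by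
    rintro g₀ ⟨hg1, hg2⟩
    refine ⟨?_, hg2⟩
    obtain ⟨g', ⟨M, ⟨A, B', hM⟩, rfl⟩, rfl⟩ := hg1
    have hdet : (A : Matrix (Fin 2) (Fin 2) F).det ≠ 0 :=
      ((Matrix.isUnit_iff_isUnit_det _).mp A.isUnit).ne_zero
    have hcomm : M * Mz = Mz * M ∨ M * Mz = Mz⁻¹ * M := by
      rcases conjW hq (A : Matrix (Fin 2) (Fin 2) F) hdet with h | h
      · left
        apply Units.ext
        rw [Units.val_mul, Units.val_mul, hM]
        show (A : Matrix (Fin 2) (Fin 2) F) ⊗ₖ (B' : Matrix (Fin n₂) (Fin n₂) F)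
            * Wm ⊗ₖ (1 : Matrix (Fin n₂) (Fin n₂) F)
          = Wm ⊗ₖ (1 : Matrix (Fin n₂) (Fin n₂) F)
            * (A : Matrix (Fin 2) (Fin 2) F) ⊗ₖ (B' : Matrix (Fin n₂) (Fin n₂) F)
        rw [← Matrix.mul_kronecker_mul, ← Matrix.mul_kronecker_mul, hWm, h, mul_one, one_mul]
      · right
        apply Units.ext
        rw [Units.val_mul, Units.val_mul, hM]
        show (A : Matrix (Fin 2) (Fin 2) F) ⊗ₖ (B' : Matrix (Fin n₂) (Fin n₂) F)
            * Wm ⊗ₖ (1 : Matrix (Fin n₂) (Fin n₂) F)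
          = Wm' ⊗ₖ (1 : Matrix (Fin n₂) (Fin n₂) F)
            * (A : Matrix (Fin 2) (Fin 2) F) ⊗ₖ (B' : Matrix (Fin n₂) (Fin n₂) F)
        rw [← Matrix.mul_kronecker_mul, ← Matrix.mul_kronecker_mul, hWm, hWm', h, mul_one, one_mul]
    apply mem_norm_zpowers
    rw [hz]
    show φ M * φ Mz = φ Mz * φ M ∨ φ M * φ Mz = (φ Mz)⁻¹ * φ M
    rcases hcomm with h | h
    · left; rw [← map_mul, ← map_mul, h]
    · right; rw [← map_mul, ← map_inv, ← map_mul, h]
  refine ⟨Subgroup.normalizer ((Subgroup.zpowers z : Subgroup (GL ι F)) : Set (GL ι F))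
      ⊓ Cfsg.Geo.omegaGL ⇑QF, lt_of_le_of_ne hle ?_, lt_of_le_of_ne inf_le_right ?_⟩
  · intro h
    have hm : (ρ : GL ι F) ∈ Subgroup.normalizer
        ((Subgroup.zpowers z : Subgroup (GL ι F)) : Set (GL ι F)) ⊓ Cfsg.Geo.omegaGL ⇑QF :=
      ⟨mem_norm_zpowers _ _ (Or.inl hρz), hρΩ⟩
    rw [← h] at hm
    exact hρT hm.1
  · intro h
    have hm : (g : GL ι F) ∈ Subgroup.normalizer
        ((Subgroup.zpowers z : Subgroup (GL ι F)) : Set (GL ι F)) ⊓ Cfsg.Geo.omegaGL ⇑QF := by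
      rw [h]
      exact hgΩ
    exact hgK hm.1

end two

/-- Let F be the field with 2 elements, n = 2 n₂ ≥ 13 even, Q a non-degenerate quadratic form on F^n of plus type and Ω the commutator subgroup of its isometry group. Suppose that, through P and e, the polar form of Q is similar to the tensor product of non-degenerate symplectic forms f₁ on F^2 and f₂ on F^(n₂), and Q vanishes on the images of all pure tensors. Then the elements of Ω in the stabiliser of this tensor decomposition form a subgroup that is not maximal: some subgroup lies strictly between it and Ω. -/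
theorem result {F : Type*} [Field F] [Fintype F] {n : ℕ} (hn : 13 ≤ n) (heven : Even n) (Q : (Fin n → F) → F) (hQ : Cfsg.Geo.IsNondegenerateQuadraticForm Q) (hplus : Cfsg.Geo.IsPlusTypeOn Q ⊤) (hq : Fintype.card F = 2) (n₂ : ℕ) (h2 : 2 < n₂) (e : (Fin n) ≃ Fin 2 × Fin n₂) (P : Matrix.GeneralLinearGroup (Fin n) F) (f₁ : (Fin 2 → F) → (Fin 2 → F) → F) (f₂ : (Fin n₂ → F) → (Fin n₂ → F) → F) (hf₁ : Cfsg.Geo.IsSymplecticForm f₁) (hf₂ : Cfsg.Geo.IsSymplecticForm f₂) (hT : Cfsg.Geo.IsTensorFormStructure id (QuadraticMap.polar Q) f₁ f₂ e P) (hpure : (∀ (x₁ : Fin 2 → F) (x₂ : Fin n₂ → F), Q (Matrix.mulVec (P : Matrix (Fin n) (Fin n) F) ((fun a : Fin 2 × Fin n₂ => x₁ a.1 * x₂ a.2) ∘ e)) = 0)) : ∃ K : Subgroup (Matrix.GeneralLinearGroup (Fin n) F), Cfsg.Geo.tensorProductSubgroup 2 n₂ e P ⊓ Cfsg.Geo.omegaGL Q < K ∧ K < Cfsg.Geo.omegaGL Q := by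
  exact tens2_not_max hq (Cfsg.Agent.Helper16.toQF Q hQ)
    (Cfsg.Agent.Helper16.toQF_nondegenerate Q hQ) n₂ h2 e P f₁ f₂ hf₁ hf₂ hT hpure

end Cfsg.Agent.S5705
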