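import Cfsg.Statements.S5938
import Cfsg.Agent.Helper9.Prime3
import Cfsg.Agent.Helper9.Ico8
import Cfsg.Agent.S0803

set_option autoImplicit false
open Cfsg

namespace Cfsg.Agent.S5938

open Cfsg.Agent.Helper9

theorem result {F : Type*} [Field F] [Fintype F] (p : ℕ) [Fact p.Prime] (hF : Fintype.card F = p) (hp : p % 8 = 1 ∨ p % 8 = 7) : ∃ H : Subgroup (Matrix.ProjectiveSpecialLinearGroup (Fin 2) F), IsCoatom H ∧ Nonempty (H ≃* Equiv.Perm (Fin 4)) := by
  classical
  have hpp := (Fact.out : p.Prime)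
  have hp7 : 7 ≤ p := by
    have h2 := hpp.two_le
    by_contra hlt
    rw [not_le] at hlt
    interval_cases p <;> omega
  have hodd : Fintype.card F % 2 = 1 := by rw [hF]; omega
  obtain ⟨r, hr, hcard⟩ := psl2_card_odd_h9 hodd
  rw [hF] at hr
  have hr6 : 6 ≤ r := by omega
  have hbig : 336 ≤ r * (r + 1) * (r + 2) := by
    calc 336 = 6 * (6 + 1) * (6 + 2) := by norm_num
      _ ≤ r * (r + 1) * (r + 2) :=
        Nat.mul_le_mul (Nat.mul_le_mul hr6 (by omega)) (by omega)
  have h16 : p ^ 2 % 16 = 1 := by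
    have h0 : p % 16 ≡ p [MOD 16] := Nat.mod_modEq p 16
    have h1 := h0.pow 2
    unfold Nat.ModEq at h1
    rw [← h1]
    have hlt : p % 16 < 16 := Nat.mod_lt _ (by norm_num)
    have h8 : p % 16 % 8 = p % 8 := Nat.mod_mod_of_dvd p (by norm_num)
    generalize p % 16 = t at *
    interval_cases t <;> omega
  obtain ⟨H, ⟨e⟩⟩ := (Cfsg.Agent.S0803.result hF).mpr h16
  have hcH : Nat.card H = 24 := by rw [Nat.card_congr e.toEquiv, card_perm4_h9]
  obtain ⟨σ, τ, hστ⟩ := perm4_sq_not_comm_h9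
  refine ⟨H, ?_, ⟨e⟩⟩
  apply psl2_prime_coatom_h9 p hF H ?_ ?_ (e.symm σ).1 (e.symm τ).1 (e.symm σ).2 (e.symm τ).2
  · intro h
    apply hστ
    have h1 : (e.symm σ) ^ 2 * (e.symm τ) ^ 2 = (e.symm τ) ^ 2 * (e.symm σ) ^ 2 :=
      Subtype.ext h
    have h2 := congrArg e h1
    simpa using h2
  · intro M hHM hM ⟨f⟩
    have hcM : Nat.card M = 12 := by rw [Nat.card_congr f.toEquiv, card_alt4_h9]
    have := Subgroup.card_le_of_le hHM.le
    omega
  · intro M hHM hM ⟨f⟩
    have hcM : Nat.card M = 24 := by rw [Nat.card_congr f.toEquiv, card_perm4_h9]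
    have := Subgroup.eq_of_le_of_card_ge hHM.le (by rw [hcM, hcH])
    exact hHM.ne this
  · intro M hHM hM ⟨f⟩
    have hcM : Nat.card M = 60 := by rw [Nat.card_congr f.toEquiv, card_A5_h9]
    have := Subgroup.card_dvd_of_le hHM.le
    rw [hcM, hcH] at this
    omega
  · intro h
    rw [h, Subgroup.card_top] at hcH
    omega
  · rw [hcH]
    intro hdvd
    have := Nat.le_of_dvd (by norm_num) hdvd
    interval_cases p <;> omega

end Cfsg.Agent.S5938
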