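import Cfsg.Statements.S5941
import Cfsg.Agent.Helper9.Dk9

set_option autoImplicit false
open Cfsg

namespace Cfsg.Agent.S5941

open Cfsg.Agent.Helper9

theorem result {F K : Type*} [Field F] [Fintype F] [Field K] [Fintype K] (q : ℕ) (hK : Fintype.card K = q) (hF : Fintype.card F = q ^ 2) (hq : Odd q) : ∃ H : Subgroup (Matrix.ProjectiveSpecialLinearGroup (Fin 2) F), IsCoatom H ∧ Nonempty (H ≃* Matrix.ProjGenLinGroup (Fin 2) K) := by
  have hodd : Fintype.card F % 2 = 1 := by
    rw [hF]; exact Nat.odd_iff.mp hq.pow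
  have hKodd : Fintype.card K % 2 = 1 := by rw [hK]; exact Nat.odd_iff.mp hq
  obtain ⟨f⟩ := finite_field_embed_h9 (F := F) (K := K) 2 (by rw [hK, hF])
  obtain ⟨p, hcp⟩ := CharP.exists F
  have : Fact p.Prime := ⟨CharP.char_is_prime F p⟩
  have hsq : ∀ a : K, IsSquare (f a) :=
    isSquare_of_subfield_even_h9 f 1 (by rw [hK, hF]) hodd
  obtain ⟨e⟩ := pgl2Sub_equiv_h9 f hsq
  have hq1 : 1 < q := hK ▸ Fintype.one_lt_card
  obtain ⟨c, hc⟩ : ∃ c, Fintype.card K = c + 1 := ⟨Fintype.card K - 1, by omega⟩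
  have hcardK := pgl2_card_h9 (K := K) c hc
  obtain ⟨R, hR, hcardF⟩ := psl2_card_odd_h9 hodd
  have hqc : q = c + 1 := by rw [← hK, hc]
  have hRq : R + 1 = q ^ 2 := by rw [← hR, hF]
  have hc2 : 2 ≤ c := by omega
  have hRc : R = c * (c + 2) := by
    have : R + 1 = c * (c + 2) + 1 := by rw [hRq, hqc]; ring
    omega
  have hH₀ : Nat.card (pgl2Sub_h9 f) = (c + 1) * (c * (c + 2)) := by
    rw [Nat.card_congr e.toEquiv, hcardK]
  have hGpos : 0 < Nat.card (Matrix.ProjectiveSpecialLinearGroup (Fin 2) F) := Nat.card_pos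
  refine ⟨pgl2Sub_h9 f, ⟨?_, ?_⟩, ⟨e⟩⟩
  · intro htop
    have h1 : Nat.card (pgl2Sub_h9 f)
        = Nat.card (Matrix.ProjectiveSpecialLinearGroup (Fin 2) F) := by
      rw [htop, Subgroup.card_top]
    rw [hH₀] at h1
    rw [← h1, hRc] at hcardF
    have h2 : 2 * (c + 1) < (c * (c + 2) + 1) * (c * (c + 2) + 2) := by nlinarith
    have h3 : 0 < c * (c + 2) := by positivity
    have h4 : c * (c + 2) * (2 * (c + 1)) < c * (c + 2) * ((c * (c + 2) + 1) * (c * (c + 2) + 2)) :=
      Nat.mul_lt_mul_of_pos_left h2 h3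
    have h5 : 2 * ((c + 1) * (c * (c + 2))) = c * (c + 2) * (2 * (c + 1)) := by ring
    have h6 : c * (c + 2) * (c * (c + 2) + 1) * (c * (c + 2) + 2)
        = c * (c + 2) * ((c * (c + 2) + 1) * (c * (c + 2) + 2)) := by ring
    omega
  · intro M hlt
    by_contra hMtop
    have hM : ∀ x : Matrix.SpecialLinearGroup (Fin 2) K,
        (QuotientGroup.mk (Matrix.SpecialLinearGroup.map f x) :
        Matrix.ProjectiveSpecialLinearGroup (Fin 2) F) ∈ M :=
      fun x => hlt.le (psl2Sub_le_pgl2Sub_h9 f x)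
    have hle : Nat.card (pgl2Sub_h9 f) ≤ Nat.card M := Subgroup.card_le_of_le hlt.le
    have hdvd : Nat.card (pgl2Sub_h9 f) ∣ Nat.card M := Subgroup.card_dvd_of_le hlt.le
    rw [hH₀] at hle hdvd
    have hMG : Nat.card M ≤ Nat.card (Matrix.ProjectiveSpecialLinearGroup (Fin 2) F) :=
      Subgroup.card_le_card_group M
    rcases sub_over_h9 (p := p) f M hM with ⟨h3, hsm⟩ | ⟨q₁, k, j, r', h4, hcard, hk2, hkq, hq₁, hFq⟩
    · have hq3 : q = 3 := by
        obtain ⟨t, ht⟩ := hq
        omega
      have hc' : c = 2 := by omega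
      subst hc'
      have h3F : (3 : F) = 0 := by
        have h1 : ((Fintype.card K : ℕ) : K) = 0 := Nat.cast_card_eq_zero K
        rw [hK, hq3] at h1
        have h2 : f ((3 : ℕ) : K) = ((3 : ℕ) : F) := map_natCast f 3
        rw [h1, map_zero] at h2
        exact_mod_cast h2.symm
      rcases hsm h3F with ⟨⟨e'⟩⟩ | ⟨⟨e'⟩⟩ | ⟨⟨e'⟩⟩
      · have := Nat.card_congr e'.toEquiv
        rw [card_alt4_h9] at this
        omega
      · have h24 := Nat.card_congr e'.toEquiv
        rw [card_perm4_h9] at h24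
        apply hlt.ne
        apply Subgroup.eq_of_le_of_card_ge hlt.le
        rw [hH₀, h24]
      · have h60 := Nat.card_congr e'.toEquiv
        rw [card_A5_h9] at h60
        rw [h60] at hdvd
        omega
    · have hjr : 2 = j * r' := by
        have h1 : q ^ 2 = q ^ (j * r') := by rw [← hF, hFq, hq₁, hK, pow_mul]
        exact Nat.pow_right_injective hq1 h1
      have hj : j = 1 ∨ j = 2 := (Nat.dvd_prime Nat.prime_two).mp ⟨r', hjr⟩
      rcases hj with rfl | rfl
      · rw [pow_one, hc] at hq₁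
        subst hq₁
        rw [Nat.add_sub_cancel] at hkq
        rcases hkq with rfl | hk
        · apply hlt.ne
          apply Subgroup.eq_of_le_of_card_ge hlt.le
          rw [hcard, hH₀]
          apply le_of_eq
          ring
        · rw [hcard] at hle
          have h7 : (c + 1) * (c * (c + 2)) = 2 * ((c + 1 + 1) * ((c + 1) * k)) := by
            rw [← hk]; ring
          have hpos : 0 < (c + 1 + 1) * ((c + 1) * k) := by positivity
          omega
      · rw [hK, ← hRq] at hq₁
        subst hq₁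
        rw [Nat.add_sub_cancel] at hkq
        rcases hkq with rfl | hk
        · have h7 : Nat.card M = 2 * Nat.card (Matrix.ProjectiveSpecialLinearGroup (Fin 2) F) := by
            rw [hcard, hcardF]; ring
          omega
        · apply hMtop
          apply Subgroup.eq_top_of_card_eq
          have h7 : 2 * Nat.card M = 2 * Nat.card (Matrix.ProjectiveSpecialLinearGroup (Fin 2) F) := by
            rw [hcard, hcardF, ← hk]; ring
          omega

end Cfsg.Agent.S5941
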