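import Cfsg.Statements.S5942
import Cfsg.Agent.Helper9.Dk10

set_option autoImplicit false
open Cfsg

namespace Cfsg.Agent.S5942

open Cfsg.Agent.Helper9

theorem result {F K : Type*} [Field F] [Fintype F] [Field K] [Fintype K] (q r : ℕ) (hK : Fintype.card K = q) (hF : Fintype.card F = q ^ r) (hq : Odd q) (hr : r.Prime) (hr2 : r ≠ 2) : ∃ H : Subgroup (Matrix.ProjectiveSpecialLinearGroup (Fin 2) F), IsCoatom H ∧ Nonempty (H ≃* Matrix.ProjectiveSpecialLinearGroup (Fin 2) K) := by
  have hrodd : r % 2 = 1 := by
    rcases hr.eq_two_or_odd with h | h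
    · exact absurd h hr2
    · exact h
  have hodd : Fintype.card F % 2 = 1 := by
    rw [hF]; exact Nat.odd_iff.mp hq.pow
  have hKodd : Fintype.card K % 2 = 1 := by rw [hK]; exact Nat.odd_iff.mp hq
  obtain ⟨f⟩ := finite_field_embed_h9 (F := F) (K := K) r (by rw [hK, hF])
  obtain ⟨p, hcp⟩ := CharP.exists F
  have : Fact p.Prime := ⟨CharP.char_is_prime F p⟩
  obtain ⟨e⟩ := psl2Sub_equiv_h9 f
  have hq1 : 1 < q := hK ▸ Fintype.one_lt_card
  obtain ⟨c, hc, hcardK⟩ := psl2_card_odd_h9 hKodd
  obtain ⟨R, hR, hcardF⟩ := psl2_card_odd_h9 hodd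
  have hqc : q = c + 1 := by rw [← hK, hc]
  have hRq : R + 1 = q ^ r := by rw [← hR, hF]
  have hc2 : 2 ≤ c := by omega
  have hH₀ : 2 * Nat.card (psl2SubHom_h9 f).range = c * (c + 1) * (c + 2) := by
    rw [Nat.card_congr e.toEquiv, hcardK]
  have hcR : c < R := by
    have h1 : q ^ 2 ≤ q ^ r := Nat.pow_le_pow_right (by omega) hr.two_le
    nlinarith
  have hGpos : 0 < Nat.card (Matrix.ProjectiveSpecialLinearGroup (Fin 2) F) := Nat.card_pos
  refine ⟨(psl2SubHom_h9 f).range, ⟨?_, ?_⟩, ⟨e⟩⟩
  · intro htop
    have h1 : Nat.card (psl2SubHom_h9 f).range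
        = Nat.card (Matrix.ProjectiveSpecialLinearGroup (Fin 2) F) := by
      rw [htop, Subgroup.card_top]
    have h2 : c * (c + 1) < R * (R + 1) := Nat.mul_lt_mul'' hcR (by omega)
    have h3 : c * (c + 1) * (c + 2) < R * (R + 1) * (R + 2) := Nat.mul_lt_mul'' h2 (by omega)
    omega
  · intro M hlt
    by_contra hMtop
    have hM : ∀ x : Matrix.SpecialLinearGroup (Fin 2) K,
        (QuotientGroup.mk (Matrix.SpecialLinearGroup.map f x) :
        Matrix.ProjectiveSpecialLinearGroup (Fin 2) F) ∈ M := fun x => hlt.le ⟨x, rfl⟩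
    have hle : Nat.card (psl2SubHom_h9 f).range ≤ Nat.card M := Subgroup.card_le_of_le hlt.le
    have hMG : Nat.card M ≤ Nat.card (Matrix.ProjectiveSpecialLinearGroup (Fin 2) F) :=
      Subgroup.card_le_card_group M
    obtain ⟨t, ht⟩ : Nat.card M ∣ Nat.card (Matrix.ProjectiveSpecialLinearGroup (Fin 2) F) :=
      Subgroup.card_subgroup_dvd_card M
    rcases sub_over_h9 (p := p) f M hM with ⟨h3, hsm⟩ | ⟨q₁, k, j, r', h4, hcard, hk2, hkq, hq₁, hFq⟩
    · have hq3 : q = 3 := by
        obtain ⟨t, ht⟩ := hq
        omega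
      have hc' : c = 2 := by omega
      subst hc'
      have h3F : (3 : F) = 0 := by
        have h1 : ((Fintype.card K : ℕ) : K) = 0 := Nat.cast_card_eq_zero K
        rw [hK, hq3] at h1
        have h2 : f ((3 : ℕ) : K) = ((3 : ℕ) : F) := map_natCast f 3
        rw [h1, map_zero] at h2
        exact_mod_cast h2.symm
      rw [hq3] at hRq
      have h80 := psl2_three_card_h9 R r hrodd hRq
      rw [← hcardF, ht] at h80
      rcases hsm h3F with ⟨⟨e'⟩⟩ | ⟨⟨e'⟩⟩ | ⟨⟨e'⟩⟩
      · have h12 := Nat.card_congr e'.toEquiv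
        rw [card_alt4_h9] at h12
        apply hlt.ne
        apply Subgroup.eq_of_le_of_card_ge hlt.le
        omega
      · have h24 := Nat.card_congr e'.toEquiv
        rw [card_perm4_h9] at h24
        rw [h24] at h80
        omega
      · have h60 := Nat.card_congr e'.toEquiv
        rw [card_A5_h9] at h60
        rw [h60] at h80
        omega
    · have hjr : r = j * r' := by
        have h1 : q ^ r = q ^ (j * r') := by rw [← hF, hFq, hq₁, hK, pow_mul]
        exact Nat.pow_right_injective hq1 h1
      have hj : j = 1 ∨ j = r := (Nat.dvd_prime hr).mp ⟨r', hjr⟩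
      rcases hj with rfl | rfl
      · rw [pow_one, hc] at hq₁
        subst hq₁
        rw [Nat.add_sub_cancel] at hkq
        rcases hkq with hkc | hk
        · -- |M| = c (c+1) (c+2) does not divide |G|
          exfalso
          rw [hkc] at hcard
          rw [hqc] at hRq
          obtain ⟨S, hS, hSeq⟩ := odd_geom_h9 c r R (by omega) hrodd hRq
          have h7 : 2 * ((c + 1) * t) * (c * (c + 2)) = (R + 1) * S * (c * (c + 2)) := by
            calc 2 * ((c + 1) * t) * (c * (c + 2))
                = 2 * ((c + 1 + 1) * ((c + 1) * c) * t) := by ring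
              _ = 2 * Nat.card (Matrix.ProjectiveSpecialLinearGroup (Fin 2) F) := by
                  rw [ht, hcard]
              _ = R * (R + 1) * (R + 2) := hcardF
              _ = (R + 1) * (R * (R + 2)) := by ring
              _ = (R + 1) * S * (c * (c + 2)) := by rw [hSeq]; ring
          have h8 : 2 * ((c + 1) * t) = (R + 1) * S :=
            Nat.eq_of_mul_eq_mul_right (by positivity) h7
          have h9 : ((R + 1) * S) % 2 = 1 := by
            rw [Nat.mul_mod, hS]
            have : (R + 1) % 2 = 1 := by rw [← hR]; exact hodd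
            rw [this]
          omega
        · apply hlt.ne
          apply Subgroup.eq_of_le_of_card_ge hlt.le
          have h7 : 2 * Nat.card M = c * (c + 1) * (c + 2) := by
            rw [hcard, ← hk]; ring
          omega
      · rw [hK, ← hRq] at hq₁
        subst hq₁
        rw [Nat.add_sub_cancel] at hkq
        rcases hkq with rfl | hk
        · have h7 : Nat.card M = 2 * Nat.card (Matrix.ProjectiveSpecialLinearGroup (Fin 2) F) := by
            rw [hcard, hcardF]; ring
          omega
        · apply hMtop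
          apply Subgroup.eq_top_of_card_eq
          have h7 : 2 * Nat.card M = 2 * Nat.card (Matrix.ProjectiveSpecialLinearGroup (Fin 2) F) := by
            rw [hcard, hcardF, ← hk]; ring
          omega

end Cfsg.Agent.S5942
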