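import Cfsg.Statements.S5943
import Cfsg.Agent.Helper9.Dk9

set_option autoImplicit false
open Cfsg

namespace Cfsg.Agent.S5943

open Cfsg.Agent.Helper9

theorem result {F K : Type*} [Field F] [Fintype F] [Field K] [Fintype K] (q r : ℕ) (hK : Fintype.card K = q) (hF : Fintype.card F = q ^ r) (hq : Even q) (hq2 : q ≠ 2) (hr : r.Prime) : ∃ H : Subgroup (Matrix.ProjectiveSpecialLinearGroup (Fin 2) F), IsCoatom H ∧ Nonempty (H ≃* Matrix.ProjectiveSpecialLinearGroup (Fin 2) K) := by
  obtain ⟨f⟩ := finite_field_embed_h9 (F := F) (K := K) r (by rw [hK, hF])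
  obtain ⟨p, hcp⟩ := CharP.exists F
  have : Fact p.Prime := ⟨CharP.char_is_prime F p⟩
  obtain ⟨e⟩ := psl2Sub_equiv_h9 f
  have hq1 : 1 < q := hK ▸ Fintype.one_lt_card
  have hq4 : 4 ≤ q := by obtain ⟨t, ht⟩ := hq; omega
  have hKeven : Fintype.card K % 2 = 0 := by rw [hK]; exact Nat.even_iff.mp hq
  have hFeven : Fintype.card F % 2 = 0 := by
    rw [hF]; exact Nat.even_iff.mp (Nat.even_pow.mpr ⟨hq, hr.ne_zero⟩)
  obtain ⟨c, hc, hcardK⟩ := psl2_card_even_h9 hKeven
  obtain ⟨R, hR, hcardF⟩ := psl2_card_even_h9 hFeven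
  have hqc : q = c + 1 := by rw [← hK, hc]
  have hRq : R + 1 = q ^ r := by rw [← hR, hF]
  have hH₀ : Nat.card (psl2SubHom_h9 f).range = c * (c + 1) * (c + 2) := by
    rw [Nat.card_congr e.toEquiv, hcardK]
  have hcR : c < R := by
    have h1 : q ^ 2 ≤ q ^ r := Nat.pow_le_pow_right (by omega) hr.two_le
    nlinarith
  refine ⟨(psl2SubHom_h9 f).range, ⟨?_, ?_⟩, ⟨e⟩⟩
  · intro htop
    have h1 : Nat.card (psl2SubHom_h9 f).range
        = Nat.card (Matrix.ProjectiveSpecialLinearGroup (Fin 2) F) := by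
      rw [htop, Subgroup.card_top]
    rw [hH₀, hcardF] at h1
    have h2 : c * (c + 1) < R * (R + 1) := Nat.mul_lt_mul'' hcR (by omega)
    have h3 : c * (c + 1) * (c + 2) < R * (R + 1) * (R + 2) := Nat.mul_lt_mul'' h2 (by omega)
    omega
  · intro M hlt
    by_contra hMtop
    have hM : ∀ x : Matrix.SpecialLinearGroup (Fin 2) K, (QuotientGroup.mk (Matrix.SpecialLinearGroup.map f x) :
        Matrix.ProjectiveSpecialLinearGroup (Fin 2) F) ∈ M := fun x => hlt.le ⟨x, rfl⟩
    have hle : Nat.card (psl2SubHom_h9 f).range ≤ Nat.card M := Subgroup.card_le_of_le hlt.le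
    rw [hH₀] at hle
    rcases sub_over_h9 (p := p) f M hM with ⟨h3, -⟩ | ⟨q₁, k, j, r', h4, hcard, hk2, hkq, hq₁, hFq⟩
    · omega
    · have hjr : r = j * r' := by
        have h1 : q ^ r = q ^ (j * r') := by rw [← hF, hFq, hq₁, hK, pow_mul]
        exact Nat.pow_right_injective hq1 h1
      have hj : j = 1 ∨ j = r := (Nat.dvd_prime hr).mp ⟨r', hjr⟩
      rcases hj with rfl | rfl
      · rw [pow_one, hc] at hq₁
        subst hq₁
        rw [Nat.add_sub_cancel] at hkq
        rcases hkq with rfl | hk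
        · apply hlt.ne
          apply Subgroup.eq_of_le_of_card_ge hlt.le
          rw [hcard, hH₀]
          apply le_of_eq
          ring
        · rw [hcard] at hle
          have : c * (c + 1) * (c + 2) = 2 * ((c + 1 + 1) * ((c + 1) * k)) := by
            rw [← hk]; ring
          have hpos : 0 < (c + 1 + 1) * ((c + 1) * k) := by positivity
          omega
      · rw [hK, ← hRq] at hq₁
        subst hq₁
        rw [Nat.add_sub_cancel] at hkq
        rcases hkq with rfl | hk
        · apply hMtop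
          apply Subgroup.eq_top_of_card_eq
          rw [hcard, hcardF]
          ring
        · omega

end Cfsg.Agent.S5943
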