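import Cfsg.Statements.S5944
-- import your own Cfsg.Agent.* helpers here

set_option autoImplicit false
open Cfsg

namespace Cfsg.Agent.S5944

/-- For n ≠ 4, every proper subgroup of the symmetric group S_n other than the alternating group A_n has index at least n. -/
theorem result (n : ℕ) (hn : n ≠ 4) (H : Subgroup (Equiv.Perm (Fin n))) (hH : H ≠ ⊤) (hA : H ≠ alternatingGroup (Fin n)) : n ≤ H.index := by
  have h0 : H.index ≠ 0 := Subgroup.index_ne_zero_of_finite
  have h1 : H.index ≠ 1 := fun h => hH (Subgroup.index_eq_one.mp h)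
  have h2 : H.index ≠ 2 := fun h => hA (Equiv.Perm.eq_alternatingGroup_of_index_eq_two h)
  by_cases hn5 : n < 5
  · omega
  by_contra hlt
  push Not at hlt
  let ψ : alternatingGroup (Fin n) →* Equiv.Perm (Equiv.Perm (Fin n) ⧸ H) :=
    (MulAction.toPermHom (Equiv.Perm (Fin n)) (Equiv.Perm (Fin n) ⧸ H)).comp
      (alternatingGroup (Fin n)).subtype
  have hsimp : IsSimpleGroup (alternatingGroup (Fin n)) :=
    alternatingGroup.isSimpleGroup (by simp; omega)
  have hnt : Nontrivial (Fin n) := Fin.nontrivial_iff_two_le.mpr (by omega)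
  rcases ψ.normal_ker.eq_bot_or_eq_top with hk | hk
  · have hinj : Function.Injective ψ := (MonoidHom.ker_eq_bot_iff ψ).mp hk
    have hcard := Nat.card_le_card_of_injective ψ hinj
    rw [Nat.card_perm] at hcard
    have hidx : Nat.card (Equiv.Perm (Fin n) ⧸ H) = H.index := rfl
    rw [hidx] at hcard
    have h2A : 2 * Nat.card (alternatingGroup (Fin n)) = Nat.card (Equiv.Perm (Fin n)) := by
      rw [Nat.card_eq_fintype_card, Nat.card_eq_fintype_card]
      exact two_mul_card_alternatingGroup
    rw [Nat.card_perm, Nat.card_eq_fintype_card (α := Fin n), Fintype.card_fin] at h2A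
    have hk1 : H.index ≤ n - 1 := by omega
    have hfl : Nat.factorial H.index ≤ Nat.factorial (n - 1) := Nat.factorial_le hk1
    have hnf : Nat.factorial n = n * Nat.factorial (n - 1) :=
      (Nat.mul_factorial_pred (by omega)).symm
    have hpos : 0 < Nat.factorial (n - 1) := Nat.factorial_pos _
    nlinarith
  · have hle : alternatingGroup (Fin n) ≤ H := by
      intro g hg
      have hmem : (⟨g, hg⟩ : alternatingGroup (Fin n)) ∈ ψ.ker := by rw [hk]; trivial
      have h3 : ψ ⟨g, hg⟩ = 1 := hmem
      have h4 : ψ ⟨g, hg⟩ (QuotientGroup.mk 1) = QuotientGroup.mk 1 := by rw [h3]; rfl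
      have h5 : (QuotientGroup.mk (g * 1) : Equiv.Perm (Fin n) ⧸ H) = QuotientGroup.mk 1 := h4
      rw [QuotientGroup.eq] at h5
      simpa using H.inv_mem h5
    have hdvd := Subgroup.index_dvd_of_le hle
    rw [alternatingGroup.index_eq_two] at hdvd
    have := Nat.le_of_dvd (by norm_num) hdvd
    omega

end Cfsg.Agent.S5944
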