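import Cfsg.Statements.S5952
-- import your own Cfsg.Agent.* helpers here

set_option autoImplicit false
open Cfsg

namespace Cfsg.Agent.S5952


theorem exists_sub {F V : Type*} [Field F] [AddCommGroup V] [Module F V] [FiniteDimensional F V]
    (C : Submodule F V) (r : ℕ) (hr : r ≤ Module.finrank F C) :
    ∃ C' : Submodule F V, C' ≤ C ∧ Module.finrank F C' = r := by
  have hli : LinearIndependent F (fun i : Fin r => ((Module.finBasis F C) (Fin.castLE hr i) : V)) := by
    have h1 : LinearIndependent F (fun i : Fin r => (Module.finBasis F C) (Fin.castLE hr i)) :=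
      (Module.finBasis F C).linearIndependent.comp _ (Fin.castLE_injective hr)
    exact h1.map' C.subtype (Submodule.ker_subtype C)
  refine ⟨Submodule.span F (Set.range (fun i : Fin r => ((Module.finBasis F C) (Fin.castLE hr i) : V))),
    ?_, ?_⟩
  · rw [Submodule.span_le]
    rintro _ ⟨i, rfl⟩
    exact ((Module.finBasis F C) (Fin.castLE hr i)).2
  · rw [finrank_span_eq_card hli, Fintype.card_fin]

/-- Which dimensions of invariant subspaces a semisimple linear map has. Let `V` be a finite-dimensional vector space over a field `F` and `f` an invertible semisimple linear map of `V`. Suppose `V` is the internal direct sum of the fixed space `C_V(f)` (the eigenspace for 1) and subspaces `U_1, …, U_s`, each `f`-invariant of dimension `a ≥ 1` on which `f` acts irreducibly (no `f`-invariant subspaces other than 0 and `U_j`). Let `0 < m < dim V` and `ℓ = m mod a`. Then `f` leaves some `m`-dimensional subspace invariant if and only if `dim C_V(f) ≥ m`, or `a ≤ m` and `dim C_V(f) ≥ ℓ`. -/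
theorem result {F V : Type*} [Field F] [AddCommGroup V] [Module F V]
    [FiniteDimensional F V] (f : V →ₗ[F] V) (hf : Function.Bijective f) (hss : Module.End.IsSemisimple f)
    {s a : ℕ} (ha : 1 ≤ a) (U : Fin s → Submodule F V)
    (hUinv : ∀ j, (U j).map f ≤ U j) (hUdim : ∀ j, Module.finrank F ↥(U j) = a)
    (hUirr : ∀ j, ∀ W : Submodule F V, W ≤ U j → W.map f ≤ W → W = ⊥ ∨ W = U j)
    (hdec : DirectSum.IsInternal (fun o : Option (Fin s) => o.elim (Module.End.eigenspace f 1) U))
    (m : ℕ) (hm : 0 < m) (hmV : m < Module.finrank F V) :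
    (∃ W : Submodule F V, Module.finrank F ↥W = m ∧ W.map f ≤ W) ↔
    (m ≤ Module.finrank F ↥(Module.End.eigenspace f 1) ∨
      (a ≤ m ∧ m % a ≤ Module.finrank F ↥(Module.End.eigenspace f 1))) := by
  classical
  obtain ⟨C, hC⟩ : ∃ C : Submodule F V, C = Module.End.eigenspace f 1 := ⟨_, rfl⟩
  rw [← hC] at hdec ⊢
  have hCfix : ∀ v ∈ C, f v = v := by
    intro v hv
    rw [hC] at hv
    have h := Module.End.mem_eigenspace_iff.mp hv
    rw [h, one_smul]
  have hsub_inv : ∀ C' : Submodule F V, C' ≤ C → C'.map f ≤ C' := by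
    rintro C' hC' _ ⟨v, hv, rfl⟩
    rw [hCfix v (hC' hv)]; exact hv
  obtain ⟨U', hU'⟩ : ∃ U' : ℕ → Submodule F V, ∀ k (h : k < s), U' k = U ⟨k, h⟩ :=
    ⟨fun k => if h : k < s then U ⟨k, h⟩ else ⊥, fun k h => dif_pos h⟩
  obtain ⟨ch, hch0, hchS⟩ : ∃ ch : Submodule F V → ℕ → Submodule F V,
      (∀ C', ch C' 0 = C') ∧ (∀ C' k, ch C' (k + 1) = ch C' k ⊔ U' k) :=
    ⟨fun C' k => Nat.rec C' (fun k X => X ⊔ U' k) k, fun C' => rfl, fun C' k => rfl⟩
  have hch_mono : ∀ C' k l, k ≤ l → ch C' k ≤ ch C' l := by
    intro C' k l hkl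
    induction l, hkl using Nat.le_induction with
    | base => exact le_rfl
    | succ l hl ih => rw [hchS]; exact ih.trans le_sup_left
  have hch_le : ∀ C' C'' : Submodule F V, C' ≤ C'' → ∀ k, ch C' k ≤ ch C'' k := by
    intro C' C'' h k
    induction k with
    | zero => rw [hch0, hch0]; exact h
    | succ k ih => rw [hchS, hchS]; exact sup_le_sup_right ih _
  have hindep := hdec.submodule_iSupIndep
  have htop := hdec.submodule_iSup_eq_top
  have hdisj : ∀ k (hk : k < s), Disjoint (ch C k) (U' k) := by
    intro k hk
    have h1 := hindep (some ⟨k, hk⟩)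
    have h2 : ∀ k', k' ≤ k → ch C k' ≤
        ⨆ j, ⨆ (_ : j ≠ some (⟨k, hk⟩ : Fin s)), (j.elim C U : Submodule F V) := by
      intro k' hk'
      induction k' with
      | zero =>
        rw [hch0]
        exact le_iSup₂_of_le none (by simp) le_rfl
      | succ k' ih =>
        rw [hchS]
        apply sup_le (ih (by omega))
        have hk's : k' < s := by omega
        rw [hU' k' hk's]
        exact le_iSup₂_of_le (some ⟨k', hk's⟩) (by intro h; simp at h; omega) le_rfl
    rw [hU' k hk]
    exact (h1.mono_right (h2 k le_rfl)).symm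
  have hUdim' : ∀ k (hk : k < s), Module.finrank F (U' k) = a := fun k hk => by
    rw [hU' k hk]; exact hUdim _
  have hdim : ∀ C' : Submodule F V, C' ≤ C → ∀ k, k ≤ s →
      Module.finrank F (ch C' k) = Module.finrank F C' + k * a := by
    intro C' hC' k hk
    induction k with
    | zero => rw [hch0]; simp
    | succ k ih =>
      have hks : k < s := by omega
      rw [hchS]
      have hd : Disjoint (ch C' k) (U' k) := (hdisj k hks).mono_left (hch_le C' C hC' k)
      have h1 := Submodule.finrank_sup_add_finrank_inf_eq (ch C' k) (U' k)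
      rw [hd.eq_bot, finrank_bot, add_zero, ih (by omega), hUdim' k hks] at h1
      rw [h1]; ring
  have hinv : ∀ C' : Submodule F V, C'.map f ≤ C' → ∀ k, k ≤ s → (ch C' k).map f ≤ ch C' k := by
    intro C' hC' k hk
    induction k with
    | zero => rw [hch0]; exact hC'
    | succ k ih =>
      have hks : k < s := by omega
      rw [hchS, Submodule.map_sup]
      apply sup_le_sup (ih (by omega))
      rw [hU' k hks]; exact hUinv _
  have hchtop : ch C s = ⊤ := by
    rw [eq_top_iff, ← htop]
    apply iSup_le
    intro o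
    cases o with
    | none =>
      show C ≤ ch C s
      exact (le_of_eq (hch0 C).symm).trans (hch_mono C 0 s (Nat.zero_le _))
    | some j =>
      show U j ≤ ch C s
      have h1 : U j ≤ ch C (j.1 + 1) := by
        rw [hchS, hU' j.1 j.2]; exact le_sup_right
      exact h1.trans (hch_mono C _ _ j.2)
  constructor
  · rintro ⟨W, hWm, hWinv⟩
    have hstep : ∀ k, k ≤ s → ∃ t, Module.finrank F ↥(W ⊓ ch C k) =
        Module.finrank F ↥(W ⊓ C) + t * a := by
      intro k hk
      induction k with
      | zero => exact ⟨0, by rw [hch0]; simp⟩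
      | succ k ih =>
        obtain ⟨t, ht⟩ := ih (by omega)
        have hks : k < s := by omega
        obtain ⟨X, hXdef⟩ : ∃ X : Submodule F V, X = (W ⊓ ch C (k + 1)) ⊔ ch C k := ⟨_, rfl⟩
        have hXinv : X.map f ≤ X := by
          rw [hXdef, Submodule.map_sup]
          apply sup_le_sup _ (hinv C (hsub_inv C le_rfl) k (by omega))
          exact (Submodule.map_inf_le f).trans
            (inf_le_inf hWinv (hinv C (hsub_inv C le_rfl) (k + 1) hk))
        have hXle : X ≤ ch C k ⊔ U' k := by
          rw [hXdef]
          apply sup_le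
          · rw [← hchS]; exact inf_le_right
          · exact le_sup_left
        have hXge : ch C k ≤ X := by rw [hXdef]; exact le_sup_right
        have hmod : X = ch C k ⊔ (U' k ⊓ X) := by
          have h := sup_inf_assoc_of_le (U' k) hXge
          rw [← h]; exact (inf_eq_right.mpr hXle).symm
        have hXU : (U' k ⊓ X).map f ≤ U' k ⊓ X :=
          (Submodule.map_inf_le f).trans
            (inf_le_inf (by rw [hU' k hks]; exact hUinv _) hXinv)
        have hirr := hUirr ⟨k, hks⟩ (U' k ⊓ X) (by rw [← hU' k hks]; exact inf_le_left) hXU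
        rcases hirr with h0 | h1
        · have hX : X = ch C k := by rw [hmod, h0, sup_bot_eq]
          have hle : W ⊓ ch C (k + 1) ≤ ch C k := by
            calc W ⊓ ch C (k + 1) ≤ X := by rw [hXdef]; exact le_sup_left
              _ = ch C k := hX
          have heq : W ⊓ ch C (k + 1) = W ⊓ ch C k := by
            apply le_antisymm
            · exact le_inf inf_le_left hle
            · exact inf_le_inf_left W (hch_mono C k (k + 1) (Nat.le_succ k))
          exact ⟨t, by rw [heq, ht]⟩
        · have hX : X = ch C (k + 1) := by rw [hmod, h1, ← hU' k hks, ← hchS]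
          have h2 := Submodule.finrank_sup_add_finrank_inf_eq (W ⊓ ch C (k + 1)) (ch C k)
          have h3 : (W ⊓ ch C (k + 1)) ⊓ ch C k = W ⊓ ch C k := by
            rw [inf_assoc, inf_eq_right.mpr (hch_mono C k (k + 1) (Nat.le_succ k))]
          rw [h3, ← hXdef, hX, hdim C le_rfl (k + 1) hk, hdim C le_rfl k (by omega), ht] at h2
          refine ⟨t + 1, ?_⟩
          have e1 : (k + 1) * a = k * a + a := by ring
          have e2 : (t + 1) * a = t * a + a := by ring
          rw [e1] at h2
          rw [e2]
          linarith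
    obtain ⟨t, ht⟩ := hstep s le_rfl
    rw [hchtop, inf_top_eq, hWm] at ht
    have hc' : Module.finrank F ↥(W ⊓ C) ≤ Module.finrank F ↥C := Submodule.finrank_mono inf_le_right
    rcases Nat.eq_zero_or_pos t with h0 | htpos
    · left
      rw [h0, zero_mul, add_zero] at ht
      rw [ht]; exact hc'
    · right
      constructor
      · have h1 : 1 * a ≤ t * a := Nat.mul_le_mul_right a htpos
        rw [one_mul] at h1
        rw [ht]; exact h1.trans (Nat.le_add_left _ _)
      · rw [ht, Nat.add_mul_mod_self_right]
        exact (Nat.mod_le _ _).trans hc'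
  · intro h
    have hVdim : Module.finrank F V = Module.finrank F ↥C + s * a := by
      have h1 := hdim C le_rfl s le_rfl
      rw [hchtop, finrank_top] at h1; exact h1
    obtain ⟨t, r, htr, hts, hrc⟩ : ∃ t r, m = r + t * a ∧ t ≤ s ∧ r ≤ Module.finrank F ↥C := by
      rcases h with h | ⟨ham, hmod⟩
      · exact ⟨0, m, by simp, Nat.zero_le _, h⟩
      · by_cases hq : m / a ≤ s
        · exact ⟨m / a, m % a, (Nat.mod_add_div' m a).symm, hq, hmod⟩
        · have h1 : s * a ≤ m / a * a := Nat.mul_le_mul_right a (by omega)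
          have h2 : m / a * a ≤ m := Nat.div_mul_le_self m a
          refine ⟨s, m - s * a, ?_, le_rfl, ?_⟩
          · have h3 : s * a ≤ m := h1.trans h2
            exact (Nat.sub_add_cancel h3).symm
          · rw [hVdim] at hmV
            exact Nat.sub_le_of_le_add (Nat.le_of_lt hmV)
    obtain ⟨C', hC'le, hC'dim⟩ := exists_sub C r hrc
    refine ⟨ch C' t, ?_, hinv C' (hsub_inv C' hC'le) t hts⟩
    rw [hdim C' hC'le t hts, hC'dim, htr]

end Cfsg.Agent.S5952
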