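import Cfsg.Statements.S5957
-- import your own Cfsg.Agent.* helpers here

set_option autoImplicit false
open scoped MatrixGroups
open Cfsg

namespace Cfsg.Agent.S5957

section Comb

variable {ι : Type*} [DecidableEq ι] [LinearOrder ι]

theorem exists_block (π : ι → ι) (hπ : ∀ i, π (π i) = i) (a t : ℕ) (ht : 1 ≤ t)
    (s : Finset ι) (hs : ∀ i ∈ s, π i ∈ s) (hcard : s.card = a * t) :
    (∃ B ⊆ s, B.card = a ∧ ∀ i ∈ B, π i ∈ B) ∨
    (∃ B ⊆ s, B.card = a ∧ ∀ i ∈ B, π i ∉ B) := by
  classical
  have hinj : Function.Injective π := fun i j hij => by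
    have h := congrArg π hij
    rwa [hπ, hπ] at h
  obtain ⟨C, hC⟩ : ∃ C : Finset ι, C = s.filter (fun i => i < π i) := ⟨_, rfl⟩
  obtain ⟨C', hC'⟩ : ∃ C' : Finset ι, C' = s.filter (fun i => π i < i) := ⟨_, rfl⟩
  obtain ⟨Fx, hFx⟩ : ∃ Fx : Finset ι, Fx = s.filter (fun i => π i = i) := ⟨_, rfl⟩
  have hCC' : C.card = C'.card := by
    apply Finset.card_bij (fun i _ => π i)
    · intro i hi
      rw [hC, Finset.mem_filter] at hi
      rw [hC', Finset.mem_filter]
      exact ⟨hs i hi.1, by rw [hπ]; exact hi.2⟩
    · intro i _ j _ hij
      exact hinj hij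
    · intro j hj
      rw [hC', Finset.mem_filter] at hj
      exact ⟨π j, by rw [hC, Finset.mem_filter]; exact ⟨hs j hj.1, by rw [hπ]; exact hj.2⟩, hπ j⟩
  have hsum : s.card = C.card + C'.card + Fx.card := by
    have h1 := Finset.card_filter_add_card_filter_not (s := s) (fun i => π i = i)
    have h2 := Finset.card_filter_add_card_filter_not (s := s.filter (fun i => ¬ π i = i))
      (fun i => i < π i)
    have e1 : (s.filter (fun i => ¬ π i = i)).filter (fun i => i < π i) = C := by
      ext i
      simp only [hC, Finset.mem_filter]
      constructor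
      · rintro ⟨⟨h, -⟩, h'⟩
        exact ⟨h, h'⟩
      · rintro ⟨h, h'⟩
        exact ⟨⟨h, fun e => by rw [e] at h'; exact lt_irrefl _ h'⟩, h'⟩
    have e2 : (s.filter (fun i => ¬ π i = i)).filter (fun i => ¬ i < π i) = C' := by
      ext i
      simp only [hC', Finset.mem_filter]
      constructor
      · rintro ⟨⟨h, hne⟩, h'⟩
        exact ⟨h, lt_of_le_of_ne (not_lt.mp h') hne⟩
      · rintro ⟨h, h'⟩
        exact ⟨⟨h, ne_of_lt h'⟩, not_lt.mpr h'.le⟩
    rw [e1, e2] at h2
    rw [← hFx] at h1
    omega
  by_cases hca : a ≤ C.card
  · right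
    obtain ⟨B, hBC, hBcard⟩ := Finset.exists_subset_card_eq hca
    rw [hC] at hBC
    refine ⟨B, fun i hi => (Finset.mem_filter.mp (hBC hi)).1, hBcard, ?_⟩
    intro i hi hi'
    have h1 := (Finset.mem_filter.mp (hBC hi)).2
    have h2 := (Finset.mem_filter.mp (hBC hi')).2
    rw [hπ] at h2
    exact lt_asymm h1 h2
  · left
    push Not at hca
    obtain ⟨k, hk⟩ : ∃ k, k = min C.card (a / 2) := ⟨_, rfl⟩
    have hk1 : k ≤ C.card := by omega
    have hk2 : a - 2 * k ≤ Fx.card := by
      rcases Nat.lt_or_ge t 2 with h4 | h4
      · have h5 : t = 1 := by omega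
        subst h5
        rw [mul_one] at hcard
        omega
      · have h5 : a * 2 ≤ a * t := Nat.mul_le_mul_left a h4
        omega
    obtain ⟨C₁, hC₁, hC₁card⟩ := Finset.exists_subset_card_eq hk1
    obtain ⟨F₁, hF₁, hF₁card⟩ := Finset.exists_subset_card_eq hk2
    have hC₁lt : ∀ i ∈ C₁, i ∈ s ∧ i < π i := fun i hi => by
      have h := hC₁ hi
      rw [hC, Finset.mem_filter] at h
      exact h
    have hF₁fix : ∀ i ∈ F₁, i ∈ s ∧ π i = i := fun i hi => by
      have h := hF₁ hi
      rw [hFx, Finset.mem_filter] at h
      exact h
    have hd1 : Disjoint C₁ (C₁.image π) := by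
      rw [Finset.disjoint_left]
      intro i hi hi'
      obtain ⟨j, hj, rfl⟩ := Finset.mem_image.mp hi'
      have h1 := (hC₁lt _ hi).2
      rw [hπ] at h1
      exact lt_asymm h1 (hC₁lt j hj).2
    have hd2 : Disjoint (C₁ ∪ C₁.image π) F₁ := by
      rw [Finset.disjoint_left]
      intro i hi hi'
      have h3 := (hF₁fix i hi').2
      rcases Finset.mem_union.mp hi with h | h
      · have h1 := (hC₁lt i h).2
        rw [h3] at h1
        exact lt_irrefl _ h1
      · obtain ⟨j, hj, rfl⟩ := Finset.mem_image.mp h
        have h1 := (hC₁lt j hj).2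
        rw [hπ] at h3
        exact (ne_of_lt h1) h3
    refine ⟨C₁ ∪ C₁.image π ∪ F₁, ?_, ?_, ?_⟩
    · intro i hi
      rcases Finset.mem_union.mp hi with h | h
      · rcases Finset.mem_union.mp h with h | h
        · exact (hC₁lt i h).1
        · obtain ⟨j, hj, rfl⟩ := Finset.mem_image.mp h
          exact hs j (hC₁lt j hj).1
      · exact (hF₁fix i h).1
    · rw [Finset.card_union_of_disjoint hd2, Finset.card_union_of_disjoint hd1,
        Finset.card_image_of_injective _ hinj, hC₁card, hF₁card]
      omega
    · intro i hi
      rcases Finset.mem_union.mp hi with h | h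
      · rcases Finset.mem_union.mp h with h | h
        · exact Finset.mem_union_left _ (Finset.mem_union_right _ (Finset.mem_image_of_mem π h))
        · obtain ⟨j, hj, rfl⟩ := Finset.mem_image.mp h
          rw [hπ]
          exact Finset.mem_union_left _ (Finset.mem_union_left _ hj)
      · rw [(hF₁fix i h).2]
        exact Finset.mem_union_right _ h

theorem exists_labelling (π : ι → ι) (hπ : ∀ i, π (π i) = i) (a : ℕ) (ha : 1 ≤ a) :
    ∀ t : ℕ, ∀ s : Finset ι, (∀ i ∈ s, π i ∈ s) → s.card = a * t →
      ∃ f : ι → ℕ, ∃ σ : ℕ → ℕ, (∀ i ∈ s, f i < t) ∧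
        (∀ j < t, (s.filter (fun i => f i = j)).card = a) ∧
        (∀ j < t, σ j < t) ∧ (∀ j < t, σ (σ j) = j) ∧ (∀ i ∈ s, f (π i) = σ (f i)) := by
  intro t
  induction t using Nat.strong_induction_on with
  | _ t ih =>
  intro s hs hcard
  have hinj : Function.Injective π := fun i j hij => by
    have h := congrArg π hij
    rwa [hπ, hπ] at h
  rcases Nat.eq_zero_or_pos t with rfl | htpos
  · rw [mul_zero, Finset.card_eq_zero] at hcard
    subst hcard
    refine ⟨fun _ => 0, id, ?_, ?_, ?_, ?_, ?_⟩
    · intro i hi
      simp at hi
    · intro j hj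
      omega
    · intro j hj
      omega
    · intro j hj
      omega
    · intro i hi
      simp at hi
  · rcases exists_block π hπ a t htpos s hs hcard with
      ⟨B, hBs, hBcard, hBinv⟩ | ⟨B, hBs, hBcard, hBdis⟩
    · have hs' : ∀ i ∈ s \ B, π i ∈ s \ B := by
        intro i hi
        rw [Finset.mem_sdiff] at hi ⊢
        refine ⟨hs i hi.1, fun h => hi.2 ?_⟩
        have h1 := hBinv _ h
        rwa [hπ] at h1
      have hcard' : (s \ B).card = a * (t - 1) := by
        rw [Finset.card_sdiff_of_subset hBs, hcard, hBcard, Nat.mul_sub, mul_one]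
      obtain ⟨f', σ', hf', hfib', hσ', hσσ', heq'⟩ := ih (t - 1) (by omega) (s \ B) hs' hcard'
      refine ⟨fun i => if i ∈ B then t - 1 else f' i,
        fun j => if j = t - 1 then t - 1 else σ' j, ?_, ?_, ?_, ?_, ?_⟩
      · intro i hi
        by_cases hiB : i ∈ B
        · simp only [hiB, if_true]
          omega
        · simp only [hiB, if_false]
          have h1 := hf' i (Finset.mem_sdiff.mpr ⟨hi, hiB⟩)
          omega
      · intro j hj
        by_cases hjt : j = t - 1
        · subst hjt
          have h1 : s.filter (fun i => (if i ∈ B then t - 1 else f' i) = t - 1) = B := by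
            ext i
            rw [Finset.mem_filter]
            constructor
            · rintro ⟨hi, h⟩
              by_contra hiB
              simp only [hiB, if_false] at h
              have h2 := hf' i (Finset.mem_sdiff.mpr ⟨hi, hiB⟩)
              omega
            · intro hiB
              exact ⟨hBs hiB, by simp [hiB]⟩
          rw [h1, hBcard]
        · have h1 : s.filter (fun i => (if i ∈ B then t - 1 else f' i) = j)
              = (s \ B).filter (fun i => f' i = j) := by
            ext i
            rw [Finset.mem_filter, Finset.mem_filter, Finset.mem_sdiff]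
            constructor
            · rintro ⟨hi, h⟩
              by_cases hiB : i ∈ B
              · simp only [hiB, if_true] at h
                omega
              · simp only [hiB, if_false] at h
                exact ⟨⟨hi, hiB⟩, h⟩
            · rintro ⟨⟨hi, hiB⟩, h⟩
              exact ⟨hi, by simp [hiB, h]⟩
          rw [h1]
          exact hfib' j (by omega)
      · intro j hj
        by_cases hjt : j = t - 1
        · simp only [hjt, if_true]
          omega
        · simp only [hjt, if_false]
          have h1 := hσ' j (by omega)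
          omega
      · intro j hj
        by_cases hjt : j = t - 1
        · simp [hjt]
        · have h1 := hσ' j (by omega)
          have h2 : σ' j ≠ t - 1 := by omega
          simp only [hjt, if_false, h2]
          exact hσσ' j (by omega)
      · intro i hi
        by_cases hiB : i ∈ B
        · simp [hiB, hBinv i hiB]
        · have hi' : i ∈ s \ B := Finset.mem_sdiff.mpr ⟨hi, hiB⟩
          have hπi : π i ∉ B := (Finset.mem_sdiff.mp (hs' i hi')).2
          have h1 := hf' i hi'
          have h2 : f' i ≠ t - 1 := by omega
          simp only [hiB, hπi, if_false, h2]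
          exact heq' i hi'
    · -- a pair of blocks interchanged by `π`
      have hB's : B.image π ⊆ s := by
        intro i hi
        obtain ⟨j, hj, rfl⟩ := Finset.mem_image.mp hi
        exact hs j (hBs hj)
      have hd : Disjoint B (B.image π) := by
        rw [Finset.disjoint_left]
        intro i hi hi'
        obtain ⟨j, hj, rfl⟩ := Finset.mem_image.mp hi'
        exact hBdis j hj hi
      have hB'card : (B.image π).card = a := by
        rw [Finset.card_image_of_injective _ hinj, hBcard]
      have hUs : B ∪ B.image π ⊆ s := Finset.union_subset hBs hB's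
      have hUcard : (B ∪ B.image π).card = a * 2 := by
        rw [Finset.card_union_of_disjoint hd, hBcard, hB'card]
        omega
      have ht2 : 2 ≤ t := by
        have h1 := Finset.card_le_card hUs
        rw [hUcard, hcard] at h1
        exact Nat.le_of_mul_le_mul_left h1 (by omega)
      have hπB' : ∀ i ∈ B.image π, π i ∈ B := by
        intro i hi
        obtain ⟨j, hj, rfl⟩ := Finset.mem_image.mp hi
        rw [hπ]
        exact hj
      have hB'dis : ∀ i ∈ B.image π, i ∉ B := fun i hi hi' =>
        (Finset.disjoint_left.mp hd) hi' hi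
      have hs' : ∀ i ∈ s \ (B ∪ B.image π), π i ∈ s \ (B ∪ B.image π) := by
        intro i hi
        rw [Finset.mem_sdiff, Finset.mem_union] at hi ⊢
        refine ⟨hs i hi.1, fun h => hi.2 ?_⟩
        rcases h with h | h
        · right
          have h1 := Finset.mem_image_of_mem π h
          rwa [hπ] at h1
        · left
          have h1 := hπB' _ h
          rwa [hπ] at h1
      have hcard' : (s \ (B ∪ B.image π)).card = a * (t - 2) := by
        rw [Finset.card_sdiff_of_subset hUs, hcard, hUcard, Nat.mul_sub]
      obtain ⟨f', σ', hf', hfib', hσ', hσσ', heq'⟩ :=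
        ih (t - 2) (by omega) (s \ (B ∪ B.image π)) hs' hcard'
      refine ⟨fun i => if i ∈ B then t - 2 else if i ∈ B.image π then t - 1 else f' i,
        fun j => if j = t - 2 then t - 1 else if j = t - 1 then t - 2 else σ' j,
        ?_, ?_, ?_, ?_, ?_⟩
      · intro i hi
        by_cases hiB : i ∈ B
        · simp only [hiB, if_true]
          omega
        · by_cases hiB' : i ∈ B.image π
          · simp only [hiB, hiB', if_true, if_false]
            omega
          · simp only [hiB, hiB', if_false]
            have h1 := hf' i (Finset.mem_sdiff.mpr ⟨hi, by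
              rw [Finset.mem_union]; tauto⟩)
            omega
      · intro j hj
        by_cases hjt : j = t - 2
        · subst hjt
          have h1 : s.filter (fun i => (if i ∈ B then t - 2 else
              if i ∈ B.image π then t - 1 else f' i) = t - 2) = B := by
            ext i
            rw [Finset.mem_filter]
            constructor
            · rintro ⟨hi, h⟩
              by_contra hiB
              by_cases hiB' : i ∈ B.image π
              · simp only [hiB, hiB', if_true, if_false] at h
                omega
              · simp only [hiB, hiB', if_false] at h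
                have h2 := hf' i (Finset.mem_sdiff.mpr ⟨hi, by
                  rw [Finset.mem_union]; tauto⟩)
                omega
            · intro hiB
              exact ⟨hBs hiB, by simp [hiB]⟩
          rw [h1, hBcard]
        · by_cases hjt' : j = t - 1
          · subst hjt'
            have h1 : s.filter (fun i => (if i ∈ B then t - 2 else
                if i ∈ B.image π then t - 1 else f' i) = t - 1) = B.image π := by
              ext i
              rw [Finset.mem_filter]
              constructor
              · rintro ⟨hi, h⟩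
                by_contra hiB'
                by_cases hiB : i ∈ B
                · simp only [hiB, if_true] at h
                  omega
                · simp only [hiB, hiB', if_false] at h
                  have h2 := hf' i (Finset.mem_sdiff.mpr ⟨hi, by
                    rw [Finset.mem_union]; tauto⟩)
                  omega
              · intro hiB'
                exact ⟨hB's hiB', by simp [hiB', hB'dis i hiB']⟩
            rw [h1, hB'card]
          · have h1 : s.filter (fun i => (if i ∈ B then t - 2 else
                if i ∈ B.image π then t - 1 else f' i) = j)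
                = (s \ (B ∪ B.image π)).filter (fun i => f' i = j) := by
              ext i
              rw [Finset.mem_filter, Finset.mem_filter, Finset.mem_sdiff, Finset.mem_union]
              constructor
              · rintro ⟨hi, h⟩
                by_cases hiB : i ∈ B
                · simp only [hiB, if_true] at h
                  omega
                · by_cases hiB' : i ∈ B.image π
                  · simp only [hiB, hiB', if_true, if_false] at h
                    omega
                  · simp only [hiB, hiB', if_false] at h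
                    exact ⟨⟨hi, by tauto⟩, h⟩
              · rintro ⟨⟨hi, hiB⟩, h⟩
                have hiB1 : i ∉ B := fun h' => hiB (Or.inl h')
                have hiB2 : i ∉ B.image π := fun h' => hiB (Or.inr h')
                exact ⟨hi, by simp only [hiB1, hiB2, if_false]; exact h⟩
            rw [h1]
            exact hfib' j (by omega)
      · intro j hj
        by_cases hjt : j = t - 2
        · simp only [hjt, if_true]
          omega
        · by_cases hjt' : j = t - 1
          · have h1 : t - 1 ≠ t - 2 := by omega
            subst hjt'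
            simp only [h1, if_true, if_false]
            omega
          · simp only [hjt, hjt', if_false]
            have h1 := hσ' j (by omega)
            omega
      · intro j hj
        by_cases hjt : j = t - 2
        · have h1 : t - 1 ≠ t - 2 := by omega
          simp [hjt, h1]
        · by_cases hjt' : j = t - 1
          · simp [hjt']
          · have h1 := hσ' j (by omega)
            have h2 : σ' j ≠ t - 2 := by omega
            have h3 : σ' j ≠ t - 1 := by omega
            simp only [hjt, hjt', if_false, h2, h3]
            exact hσσ' j (by omega)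
      · intro i hi
        by_cases hiB : i ∈ B
        · have h1 : π i ∈ B.image π := Finset.mem_image_of_mem π hiB
          have h2 : π i ∉ B := hBdis i hiB
          simp [hiB, h1, h2]
        · by_cases hiB' : i ∈ B.image π
          · have h1 : π i ∈ B := hπB' i hiB'
            have h2 : t - 1 ≠ t - 2 := by omega
            simp [hiB, hiB', h1, h2]
          · have hi' : i ∈ s \ (B ∪ B.image π) := Finset.mem_sdiff.mpr ⟨hi, by
              rw [Finset.mem_union]; tauto⟩
            have hπi := (Finset.mem_sdiff.mp (hs' i hi')).2
            rw [Finset.mem_union] at hπi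
            have hπi1 : π i ∉ B := fun h' => hπi (Or.inl h')
            have hπi2 : π i ∉ B.image π := fun h' => hπi (Or.inr h')
            have h1 := hf' i hi'
            have h2 : f' i ≠ t - 2 := by omega
            have h3 : f' i ≠ t - 1 := by omega
            simp only [hiB, hiB', hπi1, hπi2, if_false, h2, h3]
            exact heq' i hi'

end Comb


section Basis

variable {F V : Type*} [Field F] [AddCommGroup V] [Module F V] [FiniteDimensional F V]

theorem exists_perm_basis (x : V →ₗ[F] V) (z : F) (hz : z ≠ 0) (hxx : ∀ v, x (x v) = z • v) :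
    ∀ n : ℕ, ∀ S : Submodule F V, Module.finrank F S = n → (∀ v ∈ S, x v ∈ S) →
      ∃ (ι : Type) (_ : Fintype ι) (b : ι → V) (π : ι → ι) (c : ι → F),
        LinearIndependent F b ∧ Submodule.span F (Set.range b) = S ∧ (∀ i, π (π i) = i) ∧
        (∀ i, c i ≠ 0) ∧ ∀ i, x (b i) = c i • b (π i) := by
  intro n
  induction n using Nat.strong_induction_on with
  | _ n ih =>
  intro S hn hS
  by_cases hex : ∃ v ∈ S, LinearIndependent F ![v, x v]
  · obtain ⟨v, hvS, hli⟩ := hex
    obtain ⟨φ, hφv, hφxv⟩ : ∃ φ : V →ₗ[F] F, φ v = 0 ∧ φ (x v) = 1 := by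
      have hnot : x v ∉ Submodule.span F {v} := by
        intro h
        obtain ⟨a, ha⟩ := Submodule.mem_span_singleton.mp h
        have h1 := (LinearIndependent.pair_iff.mp hli) a (-1) (by rw [ha]; simp)
        have h2 := h1.2
        simp at h2
      obtain ⟨f, hf1, hf2⟩ := Submodule.exists_dual_map_eq_bot_of_notMem hnot inferInstance
      refine ⟨(f (x v))⁻¹ • f, ?_, ?_⟩
      · have h1 : f v ∈ (Submodule.span F {v}).map f :=
          Submodule.mem_map_of_mem (Submodule.mem_span_singleton_self v)
        rw [hf2, Submodule.mem_bot] at h1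
        simp [h1]
      · simp [hf1]
    obtain ⟨S', hS'⟩ : ∃ S' : Submodule F V,
        S' = S ⊓ (LinearMap.ker φ ⊓ LinearMap.ker (φ ∘ₗ x)) := ⟨_, rfl⟩
    have hmem : ∀ w, w ∈ S' ↔ w ∈ S ∧ φ w = 0 ∧ φ (x w) = 0 := by
      intro w
      rw [hS']
      simp [Submodule.mem_inf, LinearMap.mem_ker]
    have hS'S : S' ≤ S := fun w hw => ((hmem w).mp hw).1
    have hS'inv : ∀ w ∈ S', x w ∈ S' := by
      intro w hw
      rw [hmem] at hw ⊢
      refine ⟨hS w hw.1, hw.2.2, ?_⟩
      rw [hxx, map_smul, hw.2.1, smul_zero]
    have hlt : Module.finrank F S' < Module.finrank F S := by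
      apply Submodule.finrank_lt_finrank_of_lt
      refine lt_of_le_of_ne hS'S ?_
      intro h
      have h1 : v ∈ S' := by rw [h]; exact hvS
      rw [hmem, hφxv] at h1
      exact one_ne_zero h1.2.2
    obtain ⟨ι', ft', b', π', c', hli', hspan', hπ', hc', hx'⟩ :=
      ih _ (hn ▸ hlt) S' rfl hS'inv
    have hxvS : x v ∈ S := hS v hvS
    refine ⟨Fin 2 ⊕ ι', inferInstance, Sum.elim ![v, x v] b', Sum.map (fun i => i + 1) π',
      Sum.elim ![1, z] c', ?_, ?_, ?_, ?_, ?_⟩
    · apply LinearIndependent.sum_type hli hli'
      rw [hspan', Matrix.range_cons_cons_empty, Submodule.disjoint_def]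
      intro w hw hw'
      obtain ⟨α, β, rfl⟩ := Submodule.mem_span_pair.mp hw
      rw [hmem] at hw'
      have h1 := hw'.2.1
      have h2 := hw'.2.2
      simp only [map_add, map_smul, hφv, hφxv, hxx, smul_eq_mul, mul_zero, mul_one, zero_add,
        add_zero] at h1 h2
      rw [h1, h2, zero_smul, zero_smul, add_zero]
    · rw [Set.Sum.elim_range, Submodule.span_union, hspan', Matrix.range_cons_cons_empty]
      apply le_antisymm
      · refine sup_le ?_ hS'S
        rw [Submodule.span_le]
        rintro w (rfl | rfl)
        · exact hvS
        · exact hxvS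
      · intro w hw
        have h1 : w = (φ (x w) • v + φ w • x v) + (w - (φ (x w) • v + φ w • x v)) := by abel
        rw [h1]
        refine Submodule.add_mem_sup (Submodule.mem_span_pair.mpr ⟨_, _, rfl⟩) ?_
        rw [hmem]
        refine ⟨S.sub_mem hw (S.add_mem (S.smul_mem _ hvS) (S.smul_mem _ hxvS)), ?_, ?_⟩
        · simp only [map_sub, map_add, map_smul, hφv, hφxv, smul_eq_mul, mul_zero, mul_one,
            zero_add, sub_self]
        · simp only [map_sub, map_add, map_smul, hφv, hφxv, hxx, smul_eq_mul, mul_zero, mul_one,
            add_zero, sub_self]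
    · rintro (i | i)
      · simp only [Sum.map_inl]
        congr 1
        fin_cases i <;> rfl
      · simp only [Sum.map_inr, hπ']
    · rintro (i | i)
      · fin_cases i
        · simp
        · simpa using hz
      · exact hc' i
    · rintro (i | i)
      · fin_cases i
        · simp
        · simp [hxx]
      · simpa using hx' i
  · push Not at hex
    have hfin : Module.finrank F S = n := hn
    have heig : ∀ i : Fin (Module.finrank F S), ∃ c : F, c ≠ 0 ∧
        x ((Module.finBasis F S i : S) : V) = c • ((Module.finBasis F S i : S) : V) := by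
      intro i
      obtain ⟨u, hu⟩ : ∃ u : V, u = ((Module.finBasis F S i : S) : V) := ⟨_, rfl⟩
      have huS : u ∈ S := by rw [hu]; exact (Module.finBasis F S i).2
      have hu0 : u ≠ 0 := by
        rw [hu]
        intro h
        exact (Module.finBasis F S).ne_zero i (Subtype.ext h)
      rw [← hu]
      have h1 := hex u huS
      rw [LinearIndependent.pair_iff] at h1
      push Not at h1
      obtain ⟨α, β, h2, h3⟩ := h1
      have hβ : β ≠ 0 := by
        intro hβ
        rw [hβ, zero_smul, add_zero] at h2
        rcases smul_eq_zero.mp h2 with h4 | h4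
        · exact h3 h4 hβ
        · exact hu0 h4
      have h5 : x u = (-(α / β)) • u := by
        have h6 : β • x u = -(α • u) := eq_neg_of_add_eq_zero_right h2
        calc x u = β⁻¹ • (β • x u) := by rw [smul_smul, inv_mul_cancel₀ hβ, one_smul]
          _ = (-(α / β)) • u := by
            rw [h6, smul_neg, smul_smul, neg_smul]
            congr 2
            field_simp
      refine ⟨-(α / β), ?_, h5⟩
      intro h7
      have h8 := hxx u
      rw [h5, h7, zero_smul, map_zero] at h8
      rcases smul_eq_zero.mp h8.symm with h9 | h9
      · exact hz h9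
      · exact hu0 h9
    choose c hc0 hc using heig
    refine ⟨Fin (Module.finrank F S), inferInstance,
      fun i => ((Module.finBasis F S i : S) : V), id, c, ?_, ?_, fun _ => rfl, hc0, hc⟩
    · exact (Module.finBasis F S).linearIndependent.map' S.subtype (Submodule.ker_subtype S)
    · have h1 : (fun i => ((Module.finBasis F S i : S) : V)) = S.subtype ∘ (Module.finBasis F S) :=
        rfl
      rw [h1, Set.range_comp, ← Submodule.map_span, (Module.finBasis F S).span_eq,
        Submodule.map_top, Submodule.range_subtype]

end Basis

/-- Involutions of PSL_n(q) and imprimitive subgroups. Here `T = PSL_n(F)` for a field `F` with `q = p^f` elements (`n ≥ 2`, `(n, q) ≠ (2, 2), (2, 3)`), `n = a·t` with `t ≥ 2`, and Ω is the set of direct-sum decompositions of `F^n` into `t` subspaces of dimension `a` (unordered; their number is the number of ordered ones divided by `t!`), whose stabilizers are the imprimitive subgroups of type GL_a(q) ≀ S_t (maximal except in some small cases; maximality is not assumed); an element of `T` of prime order `r` (a matrix `x` of determinant 1 with `x^r`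 scalar, `x` not scalar) fixes a point of Ω when it permutes the summands of some such decomposition. If the number of such decompositions is even, then every involution of `T` stabilizes one of them (the action is 2-elusive). -/
theorem result {F : Type*} [Field F] [Fintype F] {p : ℕ} [Fact p.Prime] [CharP F p] {q : ℕ} (hq : Fintype.card F = q)
    (n a t : ℕ) (hn : 2 ≤ n) (hT : (n, q) ≠ (2, 2) ∧ (n, q) ≠ (2, 3)) (hat : n = a * t) (ha : 1 ≤ a) (ht : 2 ≤ t)
    (hΩ : 2 ∣ Nat.card {D : Fin t → Submodule F (Fin n → F) // Cfsg.Geo.IsMDecomposition a D} / Nat.factorial t)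
    (x : Matrix.SpecialLinearGroup (Fin n) F)
    (hx1 : ∃ z : F, ((x ^ 2 : Matrix.SpecialLinearGroup (Fin n) F) : Matrix (Fin n) (Fin n) F) = z • (1 : Matrix (Fin n) (Fin n) F))
    (hx2 : ∀ z : F, (x : Matrix (Fin n) (Fin n) F) ≠ z • (1 : Matrix (Fin n) (Fin n) F)) :
    ∃ D : Fin t → Submodule F (Fin n → F), Cfsg.Geo.IsMDecomposition a D ∧
        ∃ σ : Equiv.Perm (Fin t), ∀ j, (D j).map (Matrix.toLin' (x : Matrix (Fin n) (Fin n) F)) = D (σ j) := by
  classical
  obtain ⟨z, hz⟩ := hx1
  have hz0 : z ≠ 0 := by
    intro h
    have h1 := (x ^ 2).det_coe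
    haveI : Nonempty (Fin n) := ⟨⟨0, by omega⟩⟩
    rw [hz, h, zero_smul, Matrix.det_zero] at h1
    exact zero_ne_one h1
  obtain ⟨X, hX⟩ : ∃ X : (Fin n → F) →ₗ[F] (Fin n → F),
      X = Matrix.toLin' (x : Matrix (Fin n) (Fin n) F) := ⟨_, rfl⟩
  have hxx : ∀ v, X (X v) = z • v := by
    intro v
    rw [hX, Matrix.toLin'_apply, Matrix.toLin'_apply, Matrix.mulVec_mulVec, ← pow_two,
      ← Matrix.SpecialLinearGroup.coe_pow, hz, Matrix.smul_mulVec, Matrix.one_mulVec]
  obtain ⟨ι, ft, b, π, c, hli, hspan, hπ, hc0, hxb⟩ :=
    exists_perm_basis X z hz0 hxx _ ⊤ rfl (fun _ _ => Submodule.mem_top)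
  have hcardι : Fintype.card ι = a * t := by
    have h1 := Module.finrank_eq_card_basis (Module.Basis.mk hli (by rw [hspan]))
    rw [Module.finrank_fin_fun] at h1
    rw [← h1, hat]
  letI : LinearOrder ι := LinearOrder.lift' (Fintype.equivFin ι) (Fintype.equivFin ι).injective
  obtain ⟨f, σ, hf, hfib, hσ, hσσ, heq⟩ := exists_labelling π hπ a ha t Finset.univ
    (fun i _ => Finset.mem_univ _) (by rw [Finset.card_univ, hcardι])
  rw [← hX]
  refine ⟨fun j => Submodule.span F (b '' {i | f i = (j : ℕ)}), ?_,
    Function.Involutive.toPerm (fun j => ⟨σ j, hσ j j.2⟩) (fun j => Fin.ext (hσσ j j.2)), ?_⟩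
  · refine ⟨ht, ha, ?_, ?_, ?_⟩
    · intro j
      have hli_j : LinearIndependent F (fun i : {i // f i = (j : ℕ)} => b i) :=
        hli.comp Subtype.val Subtype.val_injective
      have h1 := finrank_span_eq_card hli_j
      have h2 : Set.range (fun i : {i // f i = (j : ℕ)} => b i) = b '' {i | f i = (j : ℕ)} :=
        (Set.image_eq_range b {i | f i = (j : ℕ)}).symm
      rw [h2] at h1
      rw [h1, Fintype.card_subtype]
      exact hfib j j.2
    · intro j
      have h1 : (⨆ (k : Fin t) (_ : k ≠ j), Submodule.span F (b '' {i | f i = (k : ℕ)}))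
          ≤ Submodule.span F (b '' {i | f i ≠ (j : ℕ)}) := by
        refine iSup₂_le (fun k hk => Submodule.span_mono (Set.image_mono ?_))
        intro i hi
        simp only [Set.mem_setOf_eq] at hi ⊢
        rw [hi]
        exact fun h => hk (Fin.ext h)
      refine (hli.disjoint_span_image ?_).mono_right h1
      rw [Set.disjoint_left]
      intro i hi hi'
      exact hi' hi
    · rw [eq_top_iff, ← hspan, Submodule.span_le]
      rintro _ ⟨i, rfl⟩
      exact Submodule.mem_iSup_of_mem ⟨f i, hf i (Finset.mem_univ i)⟩
        (Submodule.subset_span ⟨i, rfl, rfl⟩)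
  · intro j
    rw [Submodule.map_span]
    apply le_antisymm
    · rw [Submodule.span_le]
      rintro _ ⟨_, ⟨i, hi, rfl⟩, rfl⟩
      rw [hxb]
      refine Submodule.smul_mem _ _ (Submodule.subset_span ⟨π i, ?_, rfl⟩)
      simp only [Set.mem_setOf_eq] at hi ⊢
      rw [heq i (Finset.mem_univ i), hi]
      rfl
    · rw [Submodule.span_le]
      rintro _ ⟨i, hi, rfl⟩
      simp only [Set.mem_setOf_eq] at hi
      have h1 : f (π i) = (j : ℕ) := by
        rw [heq i (Finset.mem_univ i), hi]
        exact hσσ j j.2
      have h2 : b i = (c (π i))⁻¹ • X (b (π i)) := by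
        rw [hxb, hπ, smul_smul, inv_mul_cancel₀ (hc0 _), one_smul]
      rw [h2]
      exact Submodule.smul_mem _ _ (Submodule.subset_span ⟨b (π i), ⟨π i, h1, rfl⟩, rfl⟩)

end Cfsg.Agent.S5957
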