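import Cfsg.Statements.S5959
-- import your own Cfsg.Agent.* helpers here

set_option autoImplicit false
open scoped MatrixGroups
open Cfsg

namespace Cfsg.Agent.S5959

section Arith

/-- `S k μ = Σ_{b ∈ μ} (b - k)` -/
def S (k : ℕ) (μ : Multiset ℕ) : ℕ := (μ.map (fun b => b - k)).sum

theorem S_cons (k b : ℕ) (μ : Multiset ℕ) : S k (b ::ₘ μ) = (b - k) + S k μ := by
  simp [S]

theorem S_count (μ : Multiset ℕ) (k : ℕ) :
    S k μ + S (k + 2) μ = 2 * S (k + 1) μ + μ.count (k + 1) := by
  induction μ using Multiset.induction_on with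
  | empty => simp [S]
  | cons b μ ih =>
    rw [S_cons, S_cons, S_cons, Multiset.count_cons]
    split_ifs with h <;> omega

theorem S_pred_p (μ : Multiset ℕ) (p : ℕ) (hp : 1 ≤ p) (hμ : ∀ b ∈ μ, b ≤ p) :
    S (p - 1) μ = μ.count p := by
  induction μ using Multiset.induction_on with
  | empty => simp [S]
  | cons b μ ih =>
    rw [S_cons, Multiset.count_cons, ih (fun c hc => hμ c (Multiset.mem_cons_of_mem hc))]
    have h1 := hμ b (Multiset.mem_cons_self b μ)
    split_ifs with h <;> omega

theorem S_zero (μ : Multiset ℕ) : S 0 μ = μ.sum := by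
  simp [S]

theorem S_one_pos (μ : Multiset ℕ) (hμ : ∃ b ∈ μ, 2 ≤ b) : 1 ≤ S 1 μ := by
  obtain ⟨b, hb, hb2⟩ := hμ
  obtain ⟨μ', rfl⟩ := Multiset.exists_cons_of_mem hb
  rw [S_cons]
  omega

theorem tele (f c : ℕ → ℕ) (hc : ∀ k, c k + 2 * f (k + 1) = f k + f (k + 2)) (m : ℕ) :
    (∑ k ∈ Finset.range m, c k * (k + 1)) + (m + 1) * f m = f 0 + m * f (m + 1) := by
  induction m with
  | zero => simp
  | succ m ih =>
    rw [Finset.sum_range_succ]
    have h1 := hc m
    zify at ih h1 ⊢
    linear_combination ih + ((m : ℤ) + 1) * h1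

end Arith

section Jordan

variable (F : Type*) [Field F] (μ : Multiset ℕ)

/-- the index set of the Jordan basis -/
abbrev JI (μ : Multiset ℕ) : Type := Σ x : μ.ToType, Fin x.1

/-- the index set of a basis of the image of the `k`-th power -/
abbrev JA (μ : Multiset ℕ) (k : ℕ) : Type := Σ x : μ.ToType, Fin (x.1 - k)

/-- shift by `k` -/
def jP (k : ℕ) : (JI μ → F) →ₗ[F] (JA μ k → F) :=
  LinearMap.funLeft F F
    (fun a : JA μ k => (⟨a.1, ⟨a.2.val + k, by have := a.2.isLt; omega⟩⟩ : JI μ))

/-- extension by zero -/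
def jE (k : ℕ) : (JA μ k → F) →ₗ[F] (JI μ → F) where
  toFun u := fun i => if h : i.2.val < i.1.1 - k then u ⟨i.1, ⟨i.2.val, h⟩⟩ else 0
  map_add' u v := by
    funext i
    by_cases h : i.2.val < i.1.1 - k <;> simp [h]
  map_smul' c u := by
    funext i
    by_cases h : i.2.val < i.1.1 - k <;> simp [h]

/-- the `k`-th power of the nilpotent Jordan operator -/
def jT (k : ℕ) : Module.End F (JI μ → F) := jE F μ k ∘ₗ jP F μ k

theorem jT_apply (k : ℕ) (v : JI μ → F) (i : JI μ) :
    jT F μ k v i = if h : i.2.val + k < i.1.1 then v ⟨i.1, ⟨i.2.val + k, h⟩⟩ else 0 := by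
  unfold jT jE jP
  simp only [LinearMap.comp_apply, LinearMap.coe_mk, AddHom.coe_mk, LinearMap.funLeft_apply]
  by_cases h : i.2.val + k < i.1.1
  · have h' : i.2.val < i.1.1 - k := by omega
    rw [dif_pos h, dif_pos h']
  · have h' : ¬ i.2.val < i.1.1 - k := by omega
    rw [dif_neg h, dif_neg h']

theorem jE_injective (k : ℕ) : Function.Injective (jE F μ k) := by
  intro u v huv
  funext a
  have h := congrFun huv ⟨a.1, ⟨a.2.val, by have := a.2.isLt; omega⟩⟩
  have h' : a.2.val < a.1.1 - k := a.2.isLt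
  simp only [jE, LinearMap.coe_mk, AddHom.coe_mk] at h
  rw [dif_pos h', dif_pos h'] at h
  exact h

theorem jP_surjective (k : ℕ) : Function.Surjective (jP F μ k) := by
  intro u
  refine ⟨fun i => if h : k ≤ i.2.val then
    u ⟨i.1, ⟨i.2.val - k, by have := i.2.isLt; omega⟩⟩ else 0, ?_⟩
  funext a
  simp only [jP, LinearMap.funLeft_apply]
  rw [dif_pos (Nat.le_add_left k a.2.val)]
  congr 1
  exact Sigma.ext rfl (heq_of_eq (Fin.ext (by simp)))

theorem finrank_range_jT (k : ℕ) :
    Module.finrank F (LinearMap.range (jT F μ k)) = S k μ := by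
  unfold jT
  rw [LinearMap.range_comp_of_range_eq_top _ (LinearMap.range_eq_top.mpr (jP_surjective F μ k)),
    LinearMap.finrank_range_of_inj (jE_injective F μ k), Module.finrank_fintype_fun_eq_card,
    Fintype.card_sigma]
  simp only [Fintype.card_fin]
  unfold S
  rw [← Multiset.map_univ μ (fun b => b - k)]
  rfl

theorem jT_zero : jT F μ 0 = 1 := by
  apply LinearMap.ext
  intro v
  funext i
  rw [jT_apply, dif_pos (by have := i.2.isLt; omega)]
  rfl

theorem jT_succ (k : ℕ) : jT F μ (k + 1) = jT F μ 1 * jT F μ k := by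
  apply LinearMap.ext
  intro v
  funext i
  rw [Module.End.mul_apply, jT_apply, jT_apply]
  by_cases h1 : i.2.val + 1 < i.1.1
  · rw [dif_pos h1, jT_apply]
    by_cases h2 : i.2.val + (k + 1) < i.1.1
    · have h3 : i.2.val + 1 + k < i.1.1 := by omega
      rw [dif_pos h2, dif_pos h3]
      congr 1
      exact Sigma.ext rfl (heq_of_eq (Fin.ext (by simp; omega)))
    · have h3 : ¬ i.2.val + 1 + k < i.1.1 := by omega
      rw [dif_neg h2, dif_neg h3]
  · have h2 : ¬ i.2.val + (k + 1) < i.1.1 := by omega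
    rw [dif_neg h1, dif_neg h2]

theorem jT_pow (k : ℕ) : (jT F μ 1) ^ k = jT F μ k := by
  induction k with
  | zero => rw [pow_zero, jT_zero]
  | succ k ih =>
    rw [pow_succ', ih]
    exact (jT_succ F μ k).symm

theorem card_JI : Fintype.card (JI μ) = μ.sum := by
  rw [Fintype.card_sigma]
  simp only [Fintype.card_fin]
  have h := Multiset.map_univ μ (fun b => b)
  rw [Multiset.map_id'] at h
  have h2 := congrArg Multiset.sum h
  rw [← h2]
  rfl

end Jordan

section Abstract

variable {F : Type*} [Field F] {V : Type*} [AddCommGroup V] [Module F V] [FiniteDimensional F V]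

/-- the dimension of the image of a subspace under the `k`-th power -/
noncomputable def fr (N : Module.End F V) (W : Submodule F V) (k : ℕ) : ℕ :=
  Module.finrank F (W.map (N ^ k))

omit [FiniteDimensional F V] in
theorem map_pow_succ (N : Module.End F V) (W : Submodule F V) (k : ℕ) :
    W.map (N ^ (k + 1)) = (W.map (N ^ k)).map N := by
  rw [pow_succ', Module.End.mul_eq_comp, Submodule.map_comp]

omit [FiniteDimensional F V] in
theorem map_pow_le (N : Module.End F V) (W : Submodule F V) (hW : W.map N ≤ W) (k : ℕ) :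
    W.map (N ^ k) ≤ W := by
  induction k with
  | zero =>
    rw [pow_zero, Module.End.one_eq_id, Submodule.map_id]
  | succ k ih =>
    rw [map_pow_succ]
    exact (Submodule.map_mono ih).trans hW

omit [FiniteDimensional F V] in
theorem map_pow_anti (N : Module.End F V) (W : Submodule F V) (hW : W.map N ≤ W) (k : ℕ) :
    W.map (N ^ (k + 1)) ≤ W.map (N ^ k) := by
  rw [pow_succ, Module.End.mul_eq_comp, Submodule.map_comp]
  exact Submodule.map_mono hW

theorem rank_nullity_sub (N : Module.End F V) (W : Submodule F V) :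
    Module.finrank F (W.map N) + Module.finrank F (W ⊓ LinearMap.ker N : Submodule F V)
      = Module.finrank F W := by
  have h := LinearMap.finrank_range_add_finrank_ker (N.domRestrict W)
  rw [LinearMap.range_domRestrict] at h
  have h2 : (LinearMap.ker (N.domRestrict W)).map W.subtype = W ⊓ LinearMap.ker N := by
    ext v
    simp only [Submodule.mem_map, LinearMap.mem_ker, Submodule.mem_inf, Submodule.subtype_apply,
      LinearMap.domRestrict_apply]
    constructor
    · rintro ⟨w, hw, rfl⟩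
      exact ⟨w.2, hw⟩
    · rintro ⟨hv, hv0⟩
      exact ⟨⟨v, hv⟩, hv0, rfl⟩
  rw [← h2, Submodule.finrank_map_subtype_eq]
  exact h

theorem fr_convex (N : Module.End F V) (W : Submodule F V) (hW : W.map N ≤ W) (k : ℕ) :
    2 * fr N W (k + 1) ≤ fr N W k + fr N W (k + 2) := by
  unfold fr
  have h1 := rank_nullity_sub N (W.map (N ^ k))
  have h2 := rank_nullity_sub N (W.map (N ^ (k + 1)))
  rw [← map_pow_succ] at h1 h2
  have e : k + 1 + 1 = k + 2 := rfl
  rw [e] at h2
  have h3 : Module.finrank F (W.map (N ^ (k + 1)) ⊓ LinearMap.ker N : Submodule F V)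
      ≤ Module.finrank F (W.map (N ^ k) ⊓ LinearMap.ker N : Submodule F V) :=
    Submodule.finrank_mono (inf_le_inf_right _ (map_pow_anti N W hW k))
  omega

theorem fr_add (N : Module.End F V) (U C : Submodule F V) (hUC : IsCompl U C)
    (hU : U.map N ≤ U) (hC : C.map N ≤ C) (k : ℕ) :
    Module.finrank F (LinearMap.range (N ^ k)) = fr N U k + fr N C k := by
  unfold fr
  have h1 : LinearMap.range (N ^ k) = U.map (N ^ k) ⊔ C.map (N ^ k) := by
    rw [← Submodule.map_sup, hUC.sup_eq_top, Submodule.map_top]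
  have h2 : U.map (N ^ k) ⊓ C.map (N ^ k) = ⊥ := by
    apply le_bot_iff.mp
    rw [← hUC.inf_eq_bot]
    exact inf_le_inf (map_pow_le N U hU k) (map_pow_le N C hC k)
  have h3 := Submodule.finrank_sup_add_finrank_inf_eq (U.map (N ^ k)) (C.map (N ^ k))
  rw [h2, finrank_bot, add_zero, ← h1] at h3
  exact h3

omit [FiniteDimensional F V] in
theorem one_add_pow_char (p : ℕ) [Fact p.Prime] [CharP F p] (N : Module.End F V)
    (hNp : N ^ p = 0) : (1 + N) ^ p = 1 := by
  have hP1 : (Polynomial.X - 1 : Polynomial F) ^ p = Polynomial.X ^ p - 1 := by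
    rw [sub_pow_char, one_pow]
  have h := congrArg (Polynomial.aeval (1 + N)) hP1
  simp only [map_pow, map_sub, Polynomial.aeval_X, map_one, add_sub_cancel_left, hNp] at h
  exact (sub_eq_zero.mp h.symm)

omit [FiniteDimensional F V] in
theorem pow_pred_eq_sum (p : ℕ) [Fact p.Prime] [CharP F p] (N : Module.End F V) :
    N ^ (p - 1) = ∑ i ∈ Finset.range p, (1 + N) ^ i := by
  have hp := (Fact.out : p.Prime)
  have hP1 : (Polynomial.X - 1 : Polynomial F) ^ p = Polynomial.X ^ p - 1 := by
    rw [sub_pow_char, one_pow]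
  have hP2 : (Polynomial.X - 1 : Polynomial F) ^ (p - 1)
      = ∑ i ∈ Finset.range p, Polynomial.X ^ i := by
    have h1 : (Polynomial.X - 1 : Polynomial F) ^ (p - 1) * (Polynomial.X - 1)
        = (∑ i ∈ Finset.range p, Polynomial.X ^ i) * (Polynomial.X - 1) := by
      rw [← pow_succ, Nat.sub_add_cancel hp.one_le, hP1, geom_sum_mul]
    have h2 : (Polynomial.X - 1 : Polynomial F) ≠ 0 := by
      have := Polynomial.X_sub_C_ne_zero (1 : F)
      rwa [Polynomial.C_1] at this
    exact mul_right_cancel₀ h2 h1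
  have h := congrArg (Polynomial.aeval (1 + N)) hP2
  simp only [map_pow, map_sub, Polynomial.aeval_X, map_one, add_sub_cancel_left, map_sum] at h
  exact h

theorem noFixed_le {t : ℕ} (p : ℕ) [Fact p.Prime] [CharP F p] (N : Module.End F V)
    (D : Fin t → Submodule F V) (hind : iSupIndep D) (hne : ∀ i, D i ≠ ⊥)
    (σ : Equiv.Perm (Fin t)) (hσ : ∀ j, (D j).map (1 + N) = D (σ j)) (hNp : N ^ p = 0)
    (j : Fin t) (hj : σ j ≠ j) :
    Module.finrank F (D j) ≤ Module.finrank F (LinearMap.range (N ^ (p - 1))) := by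
  have hp := (Fact.out : p.Prime)
  have hx1 := one_add_pow_char p N hNp
  have hx2 := pow_pred_eq_sum p N
  have hit : ∀ m : ℕ, (D j).map ((1 + N) ^ m) = D (σ^[m] j) := by
    intro m
    induction m with
    | zero =>
      rw [pow_zero, Module.End.one_eq_id, Submodule.map_id]
      rfl
    | succ m ih =>
      rw [pow_succ', Module.End.mul_eq_comp, Submodule.map_comp, ih, hσ,
        Function.iterate_succ_apply']
  have hDinj : Function.Injective D := hind.injective hne
  have hper : Function.IsPeriodicPt σ p j := by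
    have h1 := hit p
    rw [hx1, Module.End.one_eq_id, Submodule.map_id] at h1
    exact (hDinj h1).symm
  have hmin : Function.minimalPeriod σ j = p := by
    rcases (Nat.dvd_prime hp).mp hper.minimalPeriod_dvd with h1 | h1
    · exact absurd (Function.minimalPeriod_eq_one_iff_isFixedPt.mp h1) hj
    · exact h1
  have hmove : ∀ i : ℕ, i + 1 < p → σ^[i + 1] j ≠ j := by
    intro i hi h
    exact Function.not_isPeriodicPt_of_pos_of_lt_minimalPeriod (Nat.succ_ne_zero i)
      (by rw [hmin]; exact hi) h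
  have hinj : Function.Injective ((N ^ (p - 1)).domRestrict (D j)) := by
    rw [← LinearMap.ker_eq_bot, LinearMap.ker_eq_bot']
    intro d hd
    have h1 : (N ^ (p - 1)) (d : V) = 0 := hd
    rw [hx2, LinearMap.sum_apply] at h1
    obtain ⟨m, hm⟩ : ∃ m, p = m + 1 := ⟨p - 1, (Nat.sub_add_cancel hp.one_le).symm⟩
    rw [hm, Finset.sum_range_succ', pow_zero, Module.End.one_apply] at h1
    have h2 : ∑ i ∈ Finset.range m, ((1 + N) ^ (i + 1)) (d : V)
        ∈ ⨆ (k) (_ : k ≠ j), D k := by
      apply Submodule.sum_mem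
      intro i hi
      have h3 : ((1 + N) ^ (i + 1)) (d : V) ∈ (D j).map ((1 + N) ^ (i + 1)) :=
        Submodule.mem_map_of_mem d.2
      rw [hit] at h3
      have h4 : σ^[i + 1] j ≠ j := hmove i (by have := Finset.mem_range.mp hi; omega)
      exact (le_iSup₂_of_le (σ^[i + 1] j) h4 le_rfl : D (σ^[i + 1] j) ≤ _) h3
    have h5 : (d : V) ∈ ⨆ (k) (_ : k ≠ j), D k := by
      have h6 : (d : V) = - ∑ i ∈ Finset.range m, ((1 + N) ^ (i + 1)) (d : V) := by
        rw [eq_neg_iff_add_eq_zero, add_comm]
        exact h1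
      rw [h6]
      exact Submodule.neg_mem _ h2
    have h7 := Submodule.disjoint_def.mp (hind j) (d : V) d.2 h5
    exact Subtype.ext h7
  rw [← LinearMap.finrank_range_of_inj hinj]
  exact Submodule.finrank_mono (LinearMap.range_domRestrict_le_range _ _)

end Abstract

theorem exists_nu (μ : Multiset ℕ) (p a : ℕ) (fU fC : ℕ → ℕ)
    (hsum : ∀ k, S k μ = fU k + fC k)
    (hU : ∀ k, 2 * fU (k + 1) ≤ fU k + fU (k + 2))
    (hC : ∀ k, 2 * fC (k + 1) ≤ fC k + fC (k + 2))
    (hp0 : fU p = 0) (hp1 : fU (p + 1) = 0) (h0 : fU 0 = a) :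
    ∃ ν : Multiset ℕ, ν ≤ μ ∧ ν.sum = a := by
  let c : ℕ → ℕ := fun k => fU k + fU (k + 2) - 2 * fU (k + 1)
  have hc : ∀ k, c k + 2 * fU (k + 1) = fU k + fU (k + 2) := fun k => by
    have := hU k
    simp only [c]
    omega
  refine ⟨∑ k ∈ Finset.range p, Multiset.replicate (c k) (k + 1), ?_, ?_⟩
  · rw [Multiset.le_iff_count]
    intro j
    rw [Multiset.count_sum']
    simp only [Multiset.count_replicate]
    by_cases hj : ∃ k ∈ Finset.range p, k + 1 = j
    · obtain ⟨k, hk, rfl⟩ := hj
      rw [Finset.sum_eq_single k]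
      · rw [if_pos rfl]
        have h1 := S_count μ k
        have h2 := hsum k
        have h3 := hsum (k + 1)
        have h4 := hsum (k + 2)
        have h5 := hc k
        have h6 := hC k
        omega
      · intro b _ hb
        rw [if_neg (by omega)]
      · intro hk'
        exact absurd hk hk'
    · rw [Finset.sum_eq_zero]
      · exact Nat.zero_le _
      · intro k hk
        rw [if_neg (fun h => hj ⟨k, hk, h⟩)]
  · rw [← Multiset.coe_sumAddMonoidHom, map_sum]
    simp only [Multiset.coe_sumAddMonoidHom, Multiset.sum_replicate, smul_eq_mul]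
    have h := tele fU c hc p
    rw [hp0, hp1, h0] at h
    simpa using h

theorem exists_nilp (F : Type*) [Field F] (μ : Multiset ℕ) (n : ℕ) (hn : μ.sum = n) :
    ∃ N : Module.End F (Fin n → F),
      ∀ k, Module.finrank F (LinearMap.range (N ^ k)) = S k μ := by
  let e0 : JI μ ≃ Fin n := Fintype.equivFinOfCardEq ((card_JI μ).trans hn)
  let L : (JI μ → F) ≃ₗ[F] (Fin n → F) := LinearEquiv.funCongrLeft F F e0.symm
  have hpow : ∀ k, ((L : (JI μ → F) →ₗ[F] (Fin n → F)) ∘ₗ jT F μ 1 ∘ₗ
      (L.symm : (Fin n → F) →ₗ[F] (JI μ → F))) ^ k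
      = (L : (JI μ → F) →ₗ[F] (Fin n → F)) ∘ₗ jT F μ k ∘ₗ
        (L.symm : (Fin n → F) →ₗ[F] (JI μ → F)) := by
    intro k
    induction k with
    | zero =>
      rw [pow_zero, jT_zero]
      apply LinearMap.ext
      intro v
      simp
    | succ k ih =>
      rw [pow_succ', ih, jT_succ F μ k]
      apply LinearMap.ext
      intro v
      simp
  refine ⟨(L : (JI μ → F) →ₗ[F] (Fin n → F)) ∘ₗ jT F μ 1 ∘ₗ
      (L.symm : (Fin n → F) →ₗ[F] (JI μ → F)), fun k => ?_⟩
  rw [hpow, LinearMap.range_comp,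
    LinearMap.range_comp_of_range_eq_top _ (LinearEquiv.range L.symm),
    ← finrank_range_jT F μ k]
  exact LinearEquiv.finrank_map_eq L _

/-- Elements of order `p` of PSL_n(q) and imprimitive subgroups: a necessary condition. Here `T = PSL_n(F)` for a field `F` with `q = p^f` elements (`n ≥ 2`, `(n, q) ≠ (2, 2), (2, 3)`), `n = a·t` with `t ≥ 2`, and Ω is the set of direct-sum decompositions of `F^n` into `t` subspaces of dimension `a` (unordered; their number is the number of ordered ones divided by `t!`), whose stabilizers are the imprimitive subgroups of type GL_a(q) ≀ S_t (maximal except in some small cases; maximality is not assumed); an element of `T` of prime order `r` (a matrix `x` of determinant 1 with `x^r` scalar, `x` not scalar) fixes a point of Ω when it permutes the summands of some such decomposition. Suppose `p > 2` divides the number of such decompositions. If every element of `T` of order `p` stabilizes such a decomposition, then every partition of `n` into parts of size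 at most `p` in which the part `p` occurs fewer than `a` times contains (as a sub-multiset) a partition of `a`. -/
theorem result {F : Type*} [Field F] [Fintype F] {p : ℕ} [Fact p.Prime] [CharP F p] {q : ℕ} (hq : Fintype.card F = q)
    (n a t : ℕ) (hn : 2 ≤ n) (hT : (n, q) ≠ (2, 2) ∧ (n, q) ≠ (2, 3)) (hat : n = a * t) (ha : 1 ≤ a) (ht : 2 ≤ t)
    (hp : 2 < p) (hΩ : p ∣ Nat.card {D : Fin t → Submodule F (Fin n → F) // Cfsg.Geo.IsMDecomposition a D} / Nat.factorial t)
    (h : ∀ x : Matrix.SpecialLinearGroup (Fin n) F,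
      (∃ z : F, ((x ^ p : Matrix.SpecialLinearGroup (Fin n) F) : Matrix (Fin n) (Fin n) F) = z • (1 : Matrix (Fin n) (Fin n) F)) →
      (∀ z : F, (x : Matrix (Fin n) (Fin n) F) ≠ z • (1 : Matrix (Fin n) (Fin n) F)) →
      ∃ D : Fin t → Submodule F (Fin n → F), Cfsg.Geo.IsMDecomposition a D ∧
        ∃ σ : Equiv.Perm (Fin t), ∀ j, (D j).map (Matrix.toLin' (x : Matrix (Fin n) (Fin n) F)) = D (σ j)) :
    (∀ μ : Multiset ℕ, (∀ b ∈ μ, 0 < b ∧ b ≤ p) → μ.sum = n → μ.count p < a → ∃ ν : Multiset ℕ, ν ≤ μ ∧ ν.sum = a) := by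
  intro μ hμ hsum hcount
  have hp' := (Fact.out : p.Prime)
  by_cases hbig : ∃ b ∈ μ, 2 ≤ b
  swap
  · have h1 : ∀ b ∈ μ, b = 1 := fun b hb => by
      have h2 := (hμ b hb).1
      have h3 : ¬ 2 ≤ b := fun h2 => hbig ⟨b, hb, h2⟩
      omega
    obtain ⟨m, rfl⟩ : ∃ m, μ = Multiset.replicate m 1 :=
      ⟨_, Multiset.eq_replicate.mpr ⟨rfl, h1⟩⟩
    have h3 : m = n := by simpa using hsum
    refine ⟨Multiset.replicate a 1, ?_, by simp⟩
    rw [Multiset.replicate_le_replicate, h3, hat]
    exact Nat.le_mul_of_pos_right a (by omega)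
  obtain ⟨N, hN⟩ := exists_nilp F μ n hsum
  have hNp : N ^ p = 0 := by
    have h0 : S p μ = 0 := by
      unfold S
      apply Multiset.sum_eq_zero
      intro x hx
      obtain ⟨b, hb, rfl⟩ := Multiset.mem_map.mp hx
      have := (hμ b hb).2
      omega
    have h1 := hN p
    rw [h0] at h1
    have h2 : LinearMap.range (N ^ p) = ⊥ := Submodule.finrank_eq_zero.mp h1
    exact LinearMap.range_eq_bot.mp h2
  have hN1 : N ≠ 0 := by
    intro h0
    have h1 := hN 1
    rw [pow_one, h0, LinearMap.range_zero, finrank_bot] at h1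
    have := S_one_pos μ hbig
    omega
  have hx1 : (1 + N) ^ p = 1 := one_add_pow_char p N hNp
  have hXp : (LinearMap.toMatrixAlgEquiv' (1 + N) : Matrix (Fin n) (Fin n) F) ^ p = 1 := by
    rw [← map_pow, hx1, map_one]
  have hdet : (LinearMap.toMatrixAlgEquiv' (1 + N) : Matrix (Fin n) (Fin n) F).det = 1 := by
    have h1 : (LinearMap.toMatrixAlgEquiv' (1 + N) : Matrix (Fin n) (Fin n) F).det ^ p = 1 := by
      rw [← Matrix.det_pow, hXp, Matrix.det_one]
    have h2 : ((LinearMap.toMatrixAlgEquiv' (1 + N) : Matrix (Fin n) (Fin n) F).det - 1) ^ p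
        = 0 := by
      rw [sub_pow_char, h1, one_pow, sub_self]
    exact sub_eq_zero.mp ((pow_eq_zero_iff hp'.ne_zero).mp h2)
  have hlin : Matrix.toLin' (LinearMap.toMatrixAlgEquiv' (1 + N) : Matrix (Fin n) (Fin n) F)
      = 1 + N := Matrix.toLinAlgEquiv'_toMatrixAlgEquiv' (1 + N)
  obtain ⟨x, hx⟩ : ∃ x : Matrix.SpecialLinearGroup (Fin n) F,
      (x : Matrix (Fin n) (Fin n) F) = LinearMap.toMatrixAlgEquiv' (1 + N) :=
    ⟨⟨_, hdet⟩, rfl⟩
  obtain ⟨D, hD, σ, hσ⟩ := h x
    ⟨1, by
      rw [Matrix.SpecialLinearGroup.coe_pow, hx, one_smul]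
      exact hXp⟩
    (by
      intro z hz
      have hz' : (LinearMap.toMatrixAlgEquiv' (1 + N) : Matrix (Fin n) (Fin n) F)
          = z • (1 : Matrix (Fin n) (Fin n) F) := by
        rw [← hx]
        exact hz
      have h1 : (1 : Module.End F (Fin n → F)) + N = z • 1 := by
        rw [← hlin, hz', map_smul, Matrix.toLin'_one]
        rfl
      have hN' : N = (z - 1) • (1 : Module.End F (Fin n → F)) := by
        apply LinearMap.ext
        intro v
        have h5 := LinearMap.congr_fun h1 v
        simp only [LinearMap.add_apply, Module.End.one_apply, LinearMap.smul_apply] at h5 ⊢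
        rw [sub_smul, one_smul, ← h5]
        abel
      have h2 : (z - 1) ^ p • (1 : Module.End F (Fin n → F)) = 0 := by
        rw [← hNp, hN', smul_pow, one_pow]
      rcases smul_eq_zero.mp h2 with h3 | h3
      · have h4 : z - 1 = 0 := (pow_eq_zero_iff hp'.ne_zero).mp h3
        exact hN1 (by rw [hN', h4, zero_smul])
      · exact hN1 (by rw [hN', h3, smul_zero]))
  have hσ' : ∀ j, (D j).map (1 + N) = D (σ j) := fun j => by
    rw [← hlin, ← hx]
    exact hσ j
  by_cases hfix : ∃ j, σ j = j
  · obtain ⟨j, hj⟩ := hfix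
    have hUC : IsCompl (D j) (⨆ (k) (_ : k ≠ j), D k) := by
      refine ⟨hD.indep j, ?_⟩
      rw [codisjoint_iff, ← iSup_split_single]
      exact hD.iSup_eq_top
    have hU : (D j).map N ≤ D j := by
      rintro _ ⟨u, hu, rfl⟩
      have h1 : (1 + N) u ∈ D j := by
        have h0 : (1 + N) u ∈ (D j).map (1 + N) := Submodule.mem_map_of_mem hu
        rw [hσ' j, hj] at h0
        exact h0
      have h2 : N u = (1 + N) u - u := by simp
      rw [h2]
      exact Submodule.sub_mem _ h1 hu
    have hC1 : (⨆ (k) (_ : k ≠ j), D k).map (1 + N) ≤ ⨆ (k) (_ : k ≠ j), D k := by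
      rw [Submodule.map_iSup]
      apply iSup_le
      intro k
      rw [Submodule.map_iSup]
      apply iSup_le
      intro hk
      rw [hσ' k]
      exact le_iSup₂_of_le (σ k) (fun h => hk (σ.injective (h.trans hj.symm))) le_rfl
    have hC : (⨆ (k) (_ : k ≠ j), D k).map N ≤ ⨆ (k) (_ : k ≠ j), D k := by
      rintro _ ⟨u, hu, rfl⟩
      have h1 : (1 + N) u ∈ ⨆ (k) (_ : k ≠ j), D k := hC1 (Submodule.mem_map_of_mem hu)
      have h2 : N u = (1 + N) u - u := by simp
      rw [h2]
      exact Submodule.sub_mem _ h1 hu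
    refine exists_nu μ p a (fr N (D j)) (fr N (⨆ (k) (_ : k ≠ j), D k)) ?_
      (fr_convex N _ hU) (fr_convex N _ hC) ?_ ?_ ?_
    · intro k
      rw [← hN k]
      exact fr_add N _ _ hUC hU hC k
    · unfold fr
      rw [hNp, Submodule.map_zero, finrank_bot]
    · unfold fr
      rw [pow_succ, hNp, zero_mul, Submodule.map_zero, finrank_bot]
    · unfold fr
      rw [pow_zero, Module.End.one_eq_id, Submodule.map_id]
      exact hD.finrank_eq j
  · push Not at hfix
    exfalso
    have hne : ∀ i, D i ≠ ⊥ := fun i hi => by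
      have h1 := hD.finrank_eq i
      rw [hi, finrank_bot] at h1
      omega
    have h1 := noFixed_le p N D hD.indep hne σ hσ' hNp ⟨0, by omega⟩ (hfix _)
    rw [hD.finrank_eq, hN, S_pred_p μ p hp'.one_le (fun b hb => (hμ b hb).2)] at h1
    omega

end Cfsg.Agent.S5959
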