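import Cfsg.Statements.S5962
-- import your own Cfsg.Agent.* helpers here
import Cfsg.Agent.Helper6.Symp
import Cfsg.Agent.S5667

set_option autoImplicit false
open scoped MatrixGroups
open Cfsg

namespace Cfsg.Agent.S5962

section Abs

variable {F V : Type*} [Field F] [AddCommGroup V] [Module F V]

/-- `S` is `T`-invariant and `B` is nondegenerate on `S` -/
structure Good (B : LinearMap.BilinForm F V) (T : V →ₗ[F] V) (S : Submodule F V) : Prop where
  inv : ∀ v ∈ S, T v ∈ S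
  nondeg : ∀ u ∈ S, (∀ v ∈ S, B u v = 0) → u = 0

/-- the part of `S` orthogonal to `u` and `v` -/
def cut (B : LinearMap.BilinForm F V) (S : Submodule F V) (u v : V) : Submodule F V :=
  S ⊓ (LinearMap.ker (B u) ⊓ LinearMap.ker (B v))

theorem alt_swap (B : LinearMap.BilinForm F V) (hB : B.IsAlt) (x y : V) : B y x = - B x y :=
  (LinearMap.IsAlt.neg hB x y).symm

theorem mem_cut (B : LinearMap.BilinForm F V) (S : Submodule F V) (u v w : V) :
    w ∈ cut B S u v ↔ w ∈ S ∧ B u w = 0 ∧ B v w = 0 := by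
  simp [cut, Submodule.mem_inf, LinearMap.mem_ker]

theorem cut_le (B : LinearMap.BilinForm F V) (S : Submodule F V) (u v : V) : cut B S u v ≤ S :=
  inf_le_left

theorem cut_decomp (B : LinearMap.BilinForm F V) (hB : B.IsAlt) (S : Submodule F V) (u v : V)
    (hu : u ∈ S) (hv : v ∈ S) (hc : B u v ≠ 0) (s : V) (hs : s ∈ S) :
    ∃ α β : F, ∃ w ∈ cut B S u v, s = α • u + β • v + w := by
  refine ⟨-(B v s / B u v), B u s / B u v,
    s - (-(B v s / B u v)) • u - (B u s / B u v) • v, ?_, by abel⟩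
  rw [mem_cut]
  have h1 : B v u = - B u v := alt_swap B hB u v
  refine ⟨S.sub_mem (S.sub_mem hs (S.smul_mem _ hu)) (S.smul_mem _ hv), ?_, ?_⟩
  · simp only [map_sub, map_smul, smul_eq_mul, hB u]
    field_simp
    ring
  · simp only [map_sub, map_smul, smul_eq_mul, hB v, h1]
    field_simp
    ring

theorem cut_good (B : LinearMap.BilinForm F V) (hB : B.IsAlt) (T : V →ₗ[F] V) (S : Submodule F V)
    (hS : Good B T S) (u v : V) (hu : u ∈ S) (hv : v ∈ S) (hc : B u v ≠ 0)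
    (hT : ∀ w ∈ S, B u w = 0 → B v w = 0 → B u (T w) = 0 ∧ B v (T w) = 0) :
    Good B T (cut B S u v) := by
  constructor
  · intro w hw
    rw [mem_cut] at hw ⊢
    exact ⟨hS.inv w hw.1, hT w hw.1 hw.2.1 hw.2.2⟩
  · intro x hx hx0
    rw [mem_cut] at hx
    apply hS.nondeg x hx.1
    intro s hs
    obtain ⟨α, β, w, hw, rfl⟩ := cut_decomp B hB S u v hu hv hc s hs
    have h1 : B x u = 0 := by rw [alt_swap B hB u x, hx.2.1, neg_zero]
    have h2 : B x v = 0 := by rw [alt_swap B hB v x, hx.2.2, neg_zero]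
    simp [map_add, map_smul, h1, h2, hx0 w hw]

theorem cut_lt [FiniteDimensional F V] (B : LinearMap.BilinForm F V) (hB : B.IsAlt)
    (S : Submodule F V) (u v : V) (hu : u ∈ S) (hc : B u v ≠ 0) :
    Module.finrank F (cut B S u v) < Module.finrank F S := by
  apply Submodule.finrank_lt_finrank_of_lt
  refine lt_of_le_of_ne (cut_le B S u v) ?_
  intro h
  have h1 : u ∈ cut B S u v := by rw [h]; exact hu
  rw [mem_cut] at h1
  exact hc (by rw [alt_swap B hB v u, h1.2.2, neg_zero])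

theorem mem_line_sup (u : V) (U : Submodule F V) (x : V) :
    x ∈ Submodule.span F {u} ⊔ U ↔ ∃ a : F, ∃ y ∈ U, x = a • u + y := by
  rw [Submodule.mem_sup]
  constructor
  · rintro ⟨y, hy, z, hz, rfl⟩
    obtain ⟨a, rfl⟩ := Submodule.mem_span_singleton.mp hy
    exact ⟨a, z, hz, rfl⟩
  · rintro ⟨a, y, hy, rfl⟩
    exact ⟨a • u, Submodule.mem_span_singleton.mpr ⟨a, rfl⟩, y, hy, rfl⟩

theorem ti_line_sup (B : LinearMap.BilinForm F V) (hB : B.IsAlt) (u : V) (U : Submodule F V)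
    (hU : ∀ a ∈ U, ∀ b ∈ U, B a b = 0) (hu : ∀ y ∈ U, B u y = 0) :
    ∀ a ∈ Submodule.span F {u} ⊔ U, ∀ b ∈ Submodule.span F {u} ⊔ U, B a b = 0 := by
  intro a ha b hb
  rw [mem_line_sup] at ha hb
  obtain ⟨α, y, hy, rfl⟩ := ha
  obtain ⟨β, z, hz, rfl⟩ := hb
  have h1 : B y u = 0 := by rw [alt_swap B hB u y, hu y hy, neg_zero]
  simp [map_add, map_smul, hB u, hu z hz, h1, hU y hy z hz]

theorem lemA [FiniteDimensional F V] (B : LinearMap.BilinForm F V) (hB : B.IsAlt) (T : V →ₗ[F] V)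
    (hTB : ∀ x y, B (T x) (T y) = B x y) (hTT : ∀ x, T (T x) = x) (h2 : (2 : F) ≠ 0) :
    ∀ n : ℕ, ∀ S : Submodule F V, Module.finrank F S = n → Good B T S →
      ∃ U W : Submodule F V, U ≤ S ∧ W ≤ S ∧ (∀ s ∈ S, ∃ a ∈ U, ∃ b ∈ W, s = a + b) ∧
        (∀ a ∈ U, ∀ b ∈ W, a + b = 0 → a = 0 ∧ b = 0) ∧
        (∀ a ∈ U, ∀ b ∈ U, B a b = 0) ∧ (∀ a ∈ W, ∀ b ∈ W, B a b = 0) ∧
        (∀ a ∈ U, T a ∈ U) ∧ (∀ a ∈ W, T a ∈ W) := by
  intro n
  induction n using Nat.strong_induction_on with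
  | _ n ih =>
  intro S hn hS
  by_cases hbot : S = ⊥
  · subst hbot
    refine ⟨⊥, ⊥, le_refl _, le_refl _, ?_, ?_, ?_, ?_, ?_, ?_⟩
    · intro s hs
      rw [Submodule.mem_bot] at hs
      exact ⟨0, Submodule.zero_mem _, 0, Submodule.zero_mem _, by simp [hs]⟩
    · intro a ha b hb _
      rw [Submodule.mem_bot] at ha hb
      exact ⟨ha, hb⟩
    · intro a ha b hb
      rw [Submodule.mem_bot] at ha
      simp [ha]
    · intro a ha b hb
      rw [Submodule.mem_bot] at ha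
      simp [ha]
    · intro a ha
      rw [Submodule.mem_bot] at ha ⊢
      simp [ha]
    · intro a ha
      rw [Submodule.mem_bot] at ha ⊢
      simp [ha]
  · obtain ⟨s, hs, hs0⟩ := Submodule.exists_mem_ne_zero_of_ne_bot hbot
    obtain ⟨ε, u, hε, huS, hu0, hTu⟩ :
        ∃ ε : F, ∃ u : V, ε * ε = 1 ∧ u ∈ S ∧ u ≠ 0 ∧ T u = ε • u := by
      by_cases h : s + T s = 0
      · refine ⟨-1, s, by ring, hs, hs0, ?_⟩
        rw [neg_one_smul]
        exact eq_neg_of_add_eq_zero_right h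
      · refine ⟨1, s + T s, by ring, S.add_mem hs (hS.inv s hs), h, ?_⟩
        rw [map_add, hTT, one_smul, add_comm]
    obtain ⟨v', hv'S, hv'⟩ : ∃ v' ∈ S, B u v' ≠ 0 := by
      by_contra hcon
      push Not at hcon
      exact hu0 (hS.nondeg u huS hcon)
    have hε0 : ε ≠ 0 := by
      rintro rfl
      simp at hε
    obtain ⟨v, hv⟩ : ∃ v : V, v = v' + ε • T v' := ⟨_, rfl⟩
    have hvS : v ∈ S := by
      rw [hv]
      exact S.add_mem hv'S (S.smul_mem _ (hS.inv v' hv'S))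
    have hTv : T v = ε • v := by
      rw [hv, map_add, map_smul, hTT, smul_add, smul_smul, hε, one_smul, add_comm]
    have huTv' : B u (T v') = ε * B u v' := by
      have h1 : B (T u) (T v') = B u v' := hTB u v'
      rw [hTu, map_smul, LinearMap.smul_apply, smul_eq_mul] at h1
      calc B u (T v') = (ε * ε) * B u (T v') := by rw [hε, one_mul]
        _ = ε * (ε * B u (T v')) := by ring
        _ = ε * B u v' := by rw [h1]
    have hc : B u v ≠ 0 := by
      rw [hv, map_add, map_smul, huTv', smul_eq_mul, ← mul_assoc, hε, one_mul, ← two_mul]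
      exact mul_ne_zero h2 hv'
    have hcutT : ∀ w ∈ S, B u w = 0 → B v w = 0 → B u (T w) = 0 ∧ B v (T w) = 0 := by
      intro w _ h1 h2'
      have e1 : B (T u) (T w) = B u w := hTB u w
      have e2 : B (T v) (T w) = B v w := hTB v w
      rw [hTu, map_smul, LinearMap.smul_apply, smul_eq_mul, h1] at e1
      rw [hTv, map_smul, LinearMap.smul_apply, smul_eq_mul, h2'] at e2
      exact ⟨(mul_eq_zero.mp e1).resolve_left hε0, (mul_eq_zero.mp e2).resolve_left hε0⟩
    have hgood := cut_good B hB T S hS u v huS hvS hc hcutT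
    have hlt := cut_lt B hB S u v huS hc
    obtain ⟨U', W', hU'S, hW'S, hsum, hdisj, hU'ti, hW'ti, hU'T, hW'T⟩ :=
      ih _ (hn ▸ hlt) (cut B S u v) rfl hgood
    refine ⟨Submodule.span F {u} ⊔ U', Submodule.span F {v} ⊔ W', ?_, ?_, ?_, ?_, ?_, ?_, ?_, ?_⟩
    · exact sup_le (by rw [Submodule.span_singleton_le_iff_mem]; exact huS)
        (hU'S.trans (cut_le B S u v))
    · exact sup_le (by rw [Submodule.span_singleton_le_iff_mem]; exact hvS)
        (hW'S.trans (cut_le B S u v))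
    · intro s hs
      obtain ⟨α, β, w, hw, rfl⟩ := cut_decomp B hB S u v huS hvS hc s hs
      obtain ⟨a, ha, b, hb, rfl⟩ := hsum w hw
      exact ⟨α • u + a, (mem_line_sup u U' _).mpr ⟨α, a, ha, rfl⟩, β • v + b,
        (mem_line_sup v W' _).mpr ⟨β, b, hb, rfl⟩, by abel⟩
    · intro a ha b hb hab
      rw [mem_line_sup] at ha hb
      obtain ⟨α, a', ha', rfl⟩ := ha
      obtain ⟨β, b', hb', rfl⟩ := hb
      have ha'c := (mem_cut B S u v a').mp (hU'S ha')
      have hb'c := (mem_cut B S u v b').mp (hW'S hb')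
      have eu := congrArg (B u) hab
      have ev := congrArg (B v) hab
      simp only [map_add, map_smul, smul_eq_mul, hB u, hB v, ha'c.2.1, ha'c.2.2, hb'c.2.1,
        hb'c.2.2, map_zero, mul_zero, add_zero, zero_add] at eu ev
      have hβ : β = 0 := (mul_eq_zero.mp eu).resolve_right hc
      have hα : α = 0 := (mul_eq_zero.mp ev).resolve_right
        (by rw [alt_swap B hB u v]; exact neg_ne_zero.mpr hc)
      subst hα hβ
      have h3 := hdisj a' ha' b' hb' (by simpa using hab)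
      simp [h3.1, h3.2]
    · exact ti_line_sup B hB u U' hU'ti (fun y hy => ((mem_cut B S u v y).mp (hU'S hy)).2.1)
    · exact ti_line_sup B hB v W' hW'ti (fun y hy => ((mem_cut B S u v y).mp (hW'S hy)).2.2)
    · intro a ha
      rw [mem_line_sup] at ha ⊢
      obtain ⟨α, y, hy, rfl⟩ := ha
      exact ⟨α * ε, T y, hU'T y hy, by rw [map_add, map_smul, hTu, smul_smul]⟩
    · intro a ha
      rw [mem_line_sup] at ha ⊢
      obtain ⟨α, y, hy, rfl⟩ := ha
      exact ⟨α * ε, T y, hW'T y hy, by rw [map_add, map_smul, hTv, smul_smul]⟩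

theorem lemB [FiniteDimensional F V] (B : LinearMap.BilinForm F V) (hB : B.IsAlt) (T : V →ₗ[F] V)
    (hTB : ∀ x y, B (T x) (T y) = B x y) (hTT : ∀ x, T (T x) = -x) (h2 : (2 : F) ≠ 0) :
    ∀ n : ℕ, ∀ S : Submodule F V, Module.finrank F S = n → Good B T S →
      ∃ U : Submodule F V, U ≤ S ∧ (∀ s ∈ S, ∃ a ∈ U, ∃ b ∈ U, s = a + T b) ∧
        (∀ a ∈ U, ∀ b ∈ U, a + T b = 0 → a = 0 ∧ b = 0) ∧
        (∀ a ∈ U, ∀ b ∈ U, B a b = 0) := by
  intro n
  induction n using Nat.strong_induction_on with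
  | _ n ih =>
  intro S hn hS
  by_cases hbot : S = ⊥
  · subst hbot
    refine ⟨⊥, le_refl _, ?_, ?_, ?_⟩
    · intro s hs
      rw [Submodule.mem_bot] at hs
      exact ⟨0, Submodule.zero_mem _, 0, Submodule.zero_mem _, by simp [hs]⟩
    · intro a ha b hb _
      rw [Submodule.mem_bot] at ha hb
      exact ⟨ha, hb⟩
    · intro a ha b hb
      rw [Submodule.mem_bot] at ha
      simp [ha]
  · obtain ⟨s, hs, hs0⟩ := Submodule.exists_mem_ne_zero_of_ne_bot hbot
    obtain ⟨u, huS, hc⟩ : ∃ u ∈ S, B u (T u) ≠ 0 := by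
      by_contra hcon
      push Not at hcon
      have key : ∀ a ∈ S, ∀ b ∈ S, B a (T b) = 0 := by
        intro a ha b hb
        have h1 := hcon (a + b) (S.add_mem ha hb)
        simp only [map_add, LinearMap.add_apply] at h1
        have h3 : B b (T a) = B a (T b) := by
          have h4 := hTB b (T a)
          rw [hTT, map_neg] at h4
          rw [← h4]
          exact LinearMap.IsAlt.neg hB (T b) a
        have h5 : 2 * B a (T b) = 0 := by
          linear_combination h1 - hcon a ha - hcon b hb - h3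
        exact (mul_eq_zero.mp h5).resolve_left h2
      obtain ⟨t, htS, ht⟩ : ∃ t ∈ S, B s t ≠ 0 := by
        by_contra hcon'
        push Not at hcon'
        exact hs0 (hS.nondeg s hs hcon')
      apply ht
      have h6 := key s hs (-(T t)) (S.neg_mem (hS.inv t htS))
      rw [map_neg, hTT, neg_neg] at h6
      exact h6
    obtain ⟨v, hv⟩ : ∃ v : V, v = T u := ⟨_, rfl⟩
    rw [← hv] at hc
    have hvS : v ∈ S := by
      rw [hv]
      exact hS.inv u huS
    have hTv : T v = -u := by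
      rw [hv]
      exact hTT u
    have hcutT : ∀ w ∈ S, B u w = 0 → B v w = 0 → B u (T w) = 0 ∧ B v (T w) = 0 := by
      intro w _ h1 h2'
      have e1 : B (T u) (T w) = B u w := hTB u w
      have e2 : B (T v) (T w) = B v w := hTB v w
      rw [hTv, map_neg, LinearMap.neg_apply, h2', neg_eq_zero] at e2
      rw [h1, ← hv] at e1
      exact ⟨e2, e1⟩
    have hgood := cut_good B hB T S hS u v huS hvS hc hcutT
    have hlt := cut_lt B hB S u v huS hc
    obtain ⟨U', hU'S, hsum, hdisj, hU'ti⟩ := ih _ (hn ▸ hlt) (cut B S u v) rfl hgood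
    refine ⟨Submodule.span F {u} ⊔ U', ?_, ?_, ?_, ?_⟩
    · exact sup_le (by rw [Submodule.span_singleton_le_iff_mem]; exact huS)
        (hU'S.trans (cut_le B S u v))
    · intro s hs
      obtain ⟨α, β, w, hw, rfl⟩ := cut_decomp B hB S u v huS hvS hc s hs
      obtain ⟨a, ha, b, hb, rfl⟩ := hsum w hw
      refine ⟨α • u + a, (mem_line_sup u U' _).mpr ⟨α, a, ha, rfl⟩, β • u + b,
        (mem_line_sup u U' _).mpr ⟨β, b, hb, rfl⟩, ?_⟩
      rw [map_add, map_smul, ← hv]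
      abel
    · intro a ha b hb hab
      rw [mem_line_sup] at ha hb
      obtain ⟨α, a', ha', rfl⟩ := ha
      obtain ⟨β, b', hb', rfl⟩ := hb
      have hw : a' + T b' ∈ cut B S u v :=
        Submodule.add_mem _ (hU'S ha') (hgood.inv _ (hU'S hb'))
      rw [mem_cut] at hw
      have e : α • u + β • v + (a' + T b') = 0 := by
        rw [← hab, map_add, map_smul, ← hv]
        abel
      have eu := congrArg (B u) e
      have ev := congrArg (B v) e
      simp only [map_add, map_smul, smul_eq_mul, hB u, hB v, hw.2.1, hw.2.2, map_zero,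
        mul_zero, add_zero, zero_add] at eu ev
      have hβ : β = 0 := (mul_eq_zero.mp eu).resolve_right hc
      have hα : α = 0 := (mul_eq_zero.mp ev).resolve_right
        (by rw [alt_swap B hB u v]; exact neg_ne_zero.mpr hc)
      subst hα hβ
      have h3 := hdisj a' ha' b' hb' (by simpa using e)
      simp [h3.1, h3.2]
    · exact ti_line_sup B hB u U' hU'ti (fun y hy => ((mem_cut B S u v y).mp (hU'S hy)).2.1)

theorem absA [FiniteDimensional F V] (B : LinearMap.BilinForm F V) (hB : B.IsAlt)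
    (hnd : ∀ u, (∀ v, B u v = 0) → u = 0) (T : V →ₗ[F] V)
    (hTB : ∀ x y, B (T x) (T y) = B x y) (hTT : ∀ x, T (T x) = x) (h2 : (2 : F) ≠ 0) :
    ∃ U W : Submodule F V, IsCompl U W ∧ (∀ u ∈ U, ∀ v ∈ U, B u v = 0) ∧
      (∀ u ∈ W, ∀ v ∈ W, B u v = 0) ∧ U.map T = U ∧ W.map T = W := by
  obtain ⟨U, W, -, -, hsum, hdisj, hUti, hWti, hUT, hWT⟩ :=
    lemA B hB T hTB hTT h2 _ ⊤ rfl
      ⟨fun _ _ => Submodule.mem_top, fun u _ h => hnd u (fun v => h v Submodule.mem_top)⟩
  refine ⟨U, W, ⟨?_, ?_⟩, hUti, hWti, ?_, ?_⟩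
  · rw [Submodule.disjoint_def]
    intro x hx hx'
    exact (hdisj x hx (-x) (W.neg_mem hx') (by simp)).1
  · rw [codisjoint_iff, eq_top_iff]
    intro s _
    obtain ⟨a, ha, b, hb, rfl⟩ := hsum s Submodule.mem_top
    exact Submodule.add_mem_sup ha hb
  · refine le_antisymm (Submodule.map_le_iff_le_comap.mpr (fun a ha => hUT a ha)) ?_
    intro a ha
    exact ⟨T a, hUT a ha, hTT a⟩
  · refine le_antisymm (Submodule.map_le_iff_le_comap.mpr (fun a ha => hWT a ha)) ?_
    intro a ha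
    exact ⟨T a, hWT a ha, hTT a⟩

theorem absB [FiniteDimensional F V] (B : LinearMap.BilinForm F V) (hB : B.IsAlt)
    (hnd : ∀ u, (∀ v, B u v = 0) → u = 0) (T : V →ₗ[F] V)
    (hTB : ∀ x y, B (T x) (T y) = B x y) (hTT : ∀ x, T (T x) = -x) (h2 : (2 : F) ≠ 0) :
    ∃ U W : Submodule F V, IsCompl U W ∧ (∀ u ∈ U, ∀ v ∈ U, B u v = 0) ∧
      (∀ u ∈ W, ∀ v ∈ W, B u v = 0) ∧ U.map T = W ∧ W.map T = U := by
  obtain ⟨U, -, hsum, hdisj, hUti⟩ :=
    lemB B hB T hTB hTT h2 _ ⊤ rfl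
      ⟨fun _ _ => Submodule.mem_top, fun u _ h => hnd u (fun v => h v Submodule.mem_top)⟩
  refine ⟨U, U.map T, ⟨?_, ?_⟩, hUti, ?_, rfl, ?_⟩
  · rw [Submodule.disjoint_def]
    intro x hx hx'
    obtain ⟨b, hb, rfl⟩ := hx'
    exact (hdisj (T b) hx (-b) (U.neg_mem hb) (by simp)).1
  · rw [codisjoint_iff, eq_top_iff]
    intro s _
    obtain ⟨a, ha, b, hb, rfl⟩ := hsum s Submodule.mem_top
    exact Submodule.add_mem_sup ha (Submodule.mem_map_of_mem hb)
  · rintro _ ⟨a, ha, rfl⟩ _ ⟨b, hb, rfl⟩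
    rw [hTB]
    exact hUti a ha b hb
  · apply le_antisymm
    · rintro _ ⟨_, ⟨a, ha, rfl⟩, rfl⟩
      rw [hTT]
      exact U.neg_mem ha
    · intro a ha
      exact ⟨T (-a), Submodule.mem_map_of_mem (U.neg_mem ha), by rw [hTT, neg_neg]⟩

end Abs

/-- the symplectic form as a bilinear form -/
noncomputable def sfB (d : ℕ) (F : Type*) [Field F] : LinearMap.BilinForm F (Fin d ⊕ Fin d → F) :=
  LinearMap.mk₂ F (Cfsg.sympForm d F) Cfsg.Agent.Helper6.sf_add_left
    (fun c u v => Cfsg.Agent.S5667.sf_smul_left c u v) Cfsg.Agent.Helper6.sf_add_right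
    (fun c u v => Cfsg.Agent.Helper6.sf_smul_right c u v)

theorem sfB_apply (d : ℕ) (F : Type*) [Field F] (u v : Fin d ⊕ Fin d → F) :
    sfB d F u v = Cfsg.sympForm d F u v := rfl

/-- Involutions of PSp_n(q), q odd, and the subgroups GL_{n/2}(q).2. Here `T = PSp_n(q)`, `n = 2d ≥ 4`, `q` odd, realised through the symplectic matrices over the field `F` with `q` elements; Ω is the set of unordered pairs `{U, W}` of complementary totally isotropic `d`-spaces (`F^n = U ⊕ W`), whose stabilizers are the subgroups of type GL_d(q).2 (maximal except in some small cases; maximality is not assumed); an element of `T` of prime order `r` (a symplectic matrix `x` with `x^r` scalar, `x` not scalar) fixes such a pair when it fixes or interchanges `U` and `W`. If the number of such pairs is even, every involution of `T` fixes one of them (the action is 2-elusive). -/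
theorem result {F : Type*} [Field F] [Fintype F] {p : ℕ} [Fact p.Prime] [CharP F p] {q : ℕ} (hq : Fintype.card F = q)
    (d : ℕ) (hd : 2 ≤ d) (hT : (d, q) ≠ (2, 2)) (hodd : Odd q)
    (hΩ : 2 ∣ Nat.card {P : Submodule F (Fin d ⊕ Fin d → F) × Submodule F (Fin d ⊕ Fin d → F) // IsCompl P.1 P.2 ∧ (∀ u ∈ P.1, ∀ v ∈ P.1, Cfsg.sympForm d F u v = 0) ∧ (∀ u ∈ P.2, ∀ v ∈ P.2, Cfsg.sympForm d F u v = 0)} / 2)
    (x : ↥(Matrix.symplecticGroup (Fin d) F))
    (hx1 : ∃ z : F, ((x ^ 2 : ↥(Matrix.symplecticGroup (Fin d) F)) : Matrix (Fin d ⊕ Fin d) (Fin d ⊕ Fin d) F) = z • (1 : Matrix (Fin d ⊕ Fin d) (Fin d ⊕ Fin d) F))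
    (hx2 : ∀ z : F, (x : Matrix (Fin d ⊕ Fin d) (Fin d ⊕ Fin d) F) ≠ z • (1 : Matrix (Fin d ⊕ Fin d) (Fin d ⊕ Fin d) F)) :
    ∃ U W : Submodule F (Fin d ⊕ Fin d → F), IsCompl U W ∧ (∀ u ∈ U, ∀ v ∈ U, Cfsg.sympForm d F u v = 0) ∧ (∀ u ∈ W, ∀ v ∈ W, Cfsg.sympForm d F u v = 0) ∧
        ((U.map (Matrix.toLin' (x : Matrix (Fin d ⊕ Fin d) (Fin d ⊕ Fin d) F)) = U ∧ W.map (Matrix.toLin' (x : Matrix (Fin d ⊕ Fin d) (Fin d ⊕ Fin d) F)) = W) ∨
         (U.map (Matrix.toLin' (x : Matrix (Fin d ⊕ Fin d) (Fin d ⊕ Fin d) F)) = W ∧ W.map (Matrix.toLin' (x : Matrix (Fin d ⊕ Fin d) (Fin d ⊕ Fin d) F)) = U)) := by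
  classical
  have h2 : (2 : F) ≠ 0 := by
    intro h
    have h' := FiniteField.even_card_of_char_two (CharP.ringChar_of_prime_eq_zero Nat.prime_two h)
    rw [hq] at h'
    obtain ⟨k, hk⟩ := hodd
    omega
  obtain ⟨z, hz⟩ := hx1
  have hB : (sfB d F).IsAlt := fun u => Cfsg.Agent.Helper6.sf_self u
  have hnd : ∀ u, (∀ v, sfB d F u v = 0) → u = 0 := by
    intro u hu
    funext j
    rcases j with i | i
    · have h1 := hu (Pi.single (Sum.inr i) 1)
      rw [sfB_apply, Cfsg.Agent.Helper6.sf_single_inr, neg_eq_zero] at h1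
      exact h1
    · have h1 := hu (Pi.single (Sum.inl i) 1)
      rw [sfB_apply, Cfsg.Agent.Helper6.sf_single_inl] at h1
      exact h1
  have hTB : ∀ a b, sfB d F (Matrix.toLin' (x : Matrix (Fin d ⊕ Fin d) (Fin d ⊕ Fin d) F) a)
      (Matrix.toLin' (x : Matrix (Fin d ⊕ Fin d) (Fin d ⊕ Fin d) F) b) = sfB d F a b := by
    intro a b
    rw [sfB_apply, sfB_apply, Matrix.toLin'_apply, Matrix.toLin'_apply]
    exact Cfsg.Agent.Helper6.sp_preserves x a b
  have hTT : ∀ a, Matrix.toLin' (x : Matrix (Fin d ⊕ Fin d) (Fin d ⊕ Fin d) F)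
      (Matrix.toLin' (x : Matrix (Fin d ⊕ Fin d) (Fin d ⊕ Fin d) F) a) = z • a := by
    intro a
    rw [Matrix.toLin'_apply, Matrix.toLin'_apply, Matrix.mulVec_mulVec, ← pow_two,
      ← SubmonoidClass.coe_pow, hz, Matrix.smul_mulVec, Matrix.one_mulVec]
  have hzz : z * z = 1 := by
    have i : Fin d := ⟨0, by omega⟩
    have h1 := hTB (Matrix.toLin' (x : Matrix (Fin d ⊕ Fin d) (Fin d ⊕ Fin d) F)
      (Pi.single (Sum.inr i) 1)) (Matrix.toLin' (x : Matrix (Fin d ⊕ Fin d) (Fin d ⊕ Fin d) F)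
      (Pi.single (Sum.inl i) 1))
    rw [hTT, hTT, hTB, map_smul, map_smul, LinearMap.smul_apply, sfB_apply,
      Cfsg.Agent.Helper6.sf_single_inl] at h1
    simpa using h1
  rcases mul_self_eq_one_iff.mp hzz with rfl | rfl
  · obtain ⟨U, W, hc, hU, hW, h3, h4⟩ := absA (sfB d F) hB hnd _ hTB
      (fun a => by rw [hTT, one_smul]) h2
    exact ⟨U, W, hc, hU, hW, Or.inl ⟨h3, h4⟩⟩
  · obtain ⟨U, W, hc, hU, hW, h3, h4⟩ := absB (sfB d F) hB hnd _ hTB
      (fun a => by rw [hTT, neg_one_smul]) h2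
    exact ⟨U, W, hc, hU, hW, Or.inr ⟨h3, h4⟩⟩

end Cfsg.Agent.S5962
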