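import Cfsg.Statements.S5960
-- import your own Cfsg.Agent.* helpers here
import Cfsg.Agent.S5962
import Cfsg.Agent.S5957

set_option autoImplicit false
open scoped MatrixGroups
open Cfsg

namespace Cfsg.Agent.S5960

open Cfsg.Agent.S5962 (Good cut mem_cut cut_le cut_decomp cut_good cut_lt alt_swap sfB sfB_apply)

section Abs

variable {F V : Type*} [Field F] [AddCommGroup V] [Module F V]

theorem span_sup_cut (B : LinearMap.BilinForm F V) (hB : B.IsAlt) (S : Submodule F V) (u v : V)
    (hu : u ∈ S) (hv : v ∈ S) (hc : B u v ≠ 0) :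
    Submodule.span F {u, v} ⊔ cut B S u v = S := by
  apply le_antisymm
  · refine sup_le ?_ (cut_le B S u v)
    rw [Submodule.span_le]
    rintro w (rfl | rfl)
    · exact hu
    · exact hv
  · intro s hs
    obtain ⟨α, β, w, hw, rfl⟩ := cut_decomp B hB S u v hu hv hc s hs
    exact Submodule.add_mem_sup (Submodule.mem_span_pair.mpr ⟨α, β, rfl⟩) hw

theorem span_orth_cut (B : LinearMap.BilinForm F V) (S : Submodule F V) (u v : V) :
    ∀ a ∈ Submodule.span F {u, v}, ∀ c ∈ cut B S u v, B a c = 0 := by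
  intro a ha c hc
  obtain ⟨α, β, rfl⟩ := Submodule.mem_span_pair.mp ha
  rw [mem_cut] at hc
  simp [map_add, map_smul, hc.2.1, hc.2.2]

theorem span_disj_cut (B : LinearMap.BilinForm F V) (hB : B.IsAlt) (S : Submodule F V) (u v : V)
    (hc : B u v ≠ 0) : Disjoint (Submodule.span F {u, v}) (cut B S u v) := by
  rw [Submodule.disjoint_def]
  intro w hw hw2
  obtain ⟨α, β, rfl⟩ := Submodule.mem_span_pair.mp hw
  rw [mem_cut] at hw2
  obtain ⟨-, e1, e2⟩ := hw2
  simp only [map_add, map_smul, smul_eq_mul, hB u, hB v, mul_zero, add_zero, zero_add] at e1 e2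
  have hβ : β = 0 := (mul_eq_zero.mp e1).resolve_right hc
  have hα : α = 0 := (mul_eq_zero.mp e2).resolve_right
    (by rw [alt_swap B hB u v]; exact neg_ne_zero.mpr hc)
  rw [hα, hβ, zero_smul, zero_smul, add_zero]

/-- a system of mutually orthogonal planes spanning `S`, permuted by `T` -/
def PlaneSys (B : LinearMap.BilinForm F V) (T : V →ₗ[F] V) (S : Submodule F V) : Prop :=
  ∃ (ι : Type) (_ : Fintype ι) (b : ι × Fin 2 → V) (π : ι → ι),
    LinearIndependent F b ∧ Submodule.span F (Set.range b) = S ∧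
    (∀ i l ε δ, i ≠ l → B (b (i, ε)) (b (l, δ)) = 0) ∧ (∀ i, π (π i) = i) ∧
    (∀ i ε, T (b (i, ε)) ∈ Submodule.span F {b (π i, 0), b (π i, 1)})

theorem psys_bot (B : LinearMap.BilinForm F V) (T : V →ₗ[F] V) : PlaneSys B T ⊥ := by
  refine ⟨Empty, inferInstance, fun p => p.1.elim, id, linearIndependent_empty_type, ?_, ?_,
    fun _ => rfl, ?_⟩
  · rw [Set.range_eq_empty, Submodule.span_empty]
  · intro i
    exact i.elim
  · intro i
    exact i.elim

theorem psys_sum (B : LinearMap.BilinForm F V) (hB : B.IsAlt) (T : V →ₗ[F] V)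
    (S₁ S₂ : Submodule F V) (h₁ : PlaneSys B T S₁) (h₂ : PlaneSys B T S₂)
    (horth : ∀ a ∈ S₁, ∀ c ∈ S₂, B a c = 0) (hdisj : Disjoint S₁ S₂) :
    PlaneSys B T (S₁ ⊔ S₂) := by
  obtain ⟨ι₁, ft₁, b₁, π₁, hli₁, hsp₁, ho₁, hπ₁, hT₁⟩ := h₁
  obtain ⟨ι₂, ft₂, b₂, π₂, hli₂, hsp₂, ho₂, hπ₂, hT₂⟩ := h₂
  have m₁ : ∀ p, b₁ p ∈ S₁ := fun p => by
    rw [← hsp₁]
    exact Submodule.subset_span (Set.mem_range_self p)
  have m₂ : ∀ p, b₂ p ∈ S₂ := fun p => by
    rw [← hsp₂]
    exact Submodule.subset_span (Set.mem_range_self p)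
  have hb : (fun p : (ι₁ ⊕ ι₂) × Fin 2 =>
      Sum.elim (fun i => b₁ (i, p.2)) (fun i => b₂ (i, p.2)) p.1)
      = Sum.elim b₁ b₂ ∘ (Equiv.sumProdDistrib ι₁ ι₂ (Fin 2)) := by
    funext p
    rcases p with ⟨i | i, ε⟩ <;> rfl
  refine ⟨ι₁ ⊕ ι₂, inferInstance,
    fun p => Sum.elim (fun i => b₁ (i, p.2)) (fun i => b₂ (i, p.2)) p.1, Sum.map π₁ π₂,
    ?_, ?_, ?_, ?_, ?_⟩
  · rw [hb, linearIndependent_equiv]
    exact LinearIndependent.sum_type hli₁ hli₂ (by rw [hsp₁, hsp₂]; exact hdisj)
  · rw [hb, EquivLike.range_comp, Set.Sum.elim_range, Submodule.span_union, hsp₁, hsp₂]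
  · rintro (i | i) (l | l) ε δ hil
    · exact ho₁ i l ε δ (fun h => hil (by rw [h]))
    · exact horth _ (m₁ _) _ (m₂ _)
    · show B (b₂ (i, ε)) (b₁ (l, δ)) = 0
      rw [alt_swap B hB, horth _ (m₁ _) _ (m₂ _), neg_zero]
    · exact ho₂ i l ε δ (fun h => hil (by rw [h]))
  · rintro (i | i)
    · simp [hπ₁]
    · simp [hπ₂]
  · rintro (i | i) ε
    · exact hT₁ i ε
    · exact hT₂ i ε

theorem psys_plane (B : LinearMap.BilinForm F V) (hB : B.IsAlt) (T : V →ₗ[F] V) (u v : V)
    (hc : B u v ≠ 0) (hTu : T u ∈ Submodule.span F {u, v})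
    (hTv : T v ∈ Submodule.span F {u, v}) :
    PlaneSys B T (Submodule.span F {u, v}) := by
  refine ⟨Unit, inferInstance, fun p => ![u, v] p.2, id, ?_, ?_, ?_, fun _ => rfl, ?_⟩
  · rw [Fintype.linearIndependent_iff]
    intro g hg
    rw [Fintype.sum_prod_type] at hg
    simp only [Finset.univ_unique, Finset.sum_singleton, Fin.sum_univ_two, Matrix.cons_val_zero,
      Matrix.cons_val_one] at hg
    have eu := congrArg (B u) hg
    have ev := congrArg (B v) hg
    simp only [map_add, map_smul, smul_eq_mul, hB u, hB v, map_zero, mul_zero, add_zero,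
      zero_add] at eu ev
    rintro ⟨⟨⟩, ε⟩
    fin_cases ε
    · exact (mul_eq_zero.mp ev).resolve_right
        (by rw [alt_swap B hB u v]; exact neg_ne_zero.mpr hc)
    · exact (mul_eq_zero.mp eu).resolve_right hc
  · congr 1
    ext w
    constructor
    · rintro ⟨⟨⟨⟩, ε⟩, rfl⟩
      fin_cases ε
      · exact Or.inl rfl
      · exact Or.inr rfl
    · rintro (rfl | rfl)
      · exact ⟨((), 0), rfl⟩
      · exact ⟨((), 1), rfl⟩
  · intro i l ε δ hil
    exact absurd rfl hil
  · rintro ⟨⟩ ε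
    fin_cases ε
    · exact hTu
    · exact hTv

theorem psys_pair (B : LinearMap.BilinForm F V) (hB : B.IsAlt) (T : V →ₗ[F] V)
    (hTB : ∀ x y, B (T x) (T y) = B x y) (hTT : ∀ x, T (T x) = x) (u v : V) (hc : B u v ≠ 0)
    (h1 : B u (T u) = 0) (h2 : B v (T v) = 0) (h3 : B (T u) v = 0) :
    PlaneSys B T (Submodule.span F {u, v} ⊔ Submodule.span F {T u, T v}) := by
  have h4 : B u (T v) = 0 := by
    have h := hTB u (T v)
    rw [hTT] at h
    rw [← h, h3]
  have h5 : B v (T u) = 0 := by rw [alt_swap B hB (T u) v, h3, neg_zero]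
  have h6 : B (T u) u = 0 := by rw [alt_swap B hB u (T u), h1, neg_zero]
  have h7 : B (T v) u = 0 := by rw [alt_swap B hB u (T v), h4, neg_zero]
  have h8 : B (T v) v = 0 := by rw [alt_swap B hB v (T v), h2, neg_zero]
  have h9 : B (T u) (T v) = B u v := hTB u v
  have h10 : B v u = - B u v := alt_swap B hB u v
  have h11 : B (T v) (T u) = - B u v := by rw [alt_swap B hB (T u) (T v), h9]
  refine ⟨Fin 2, inferInstance, fun p => ![![u, v], ![T u, T v]] p.1 p.2, fun i => i + 1,
    ?_, ?_, ?_, ?_, ?_⟩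
  · rw [Fintype.linearIndependent_iff]
    intro g hg
    rw [Fintype.sum_prod_type] at hg
    simp only [Fin.sum_univ_two, Matrix.cons_val_zero, Matrix.cons_val_one] at hg
    have e1 := congrArg (B u) hg
    have e2 := congrArg (B v) hg
    have e3 := congrArg (B (T u)) hg
    have e4 := congrArg (B (T v)) hg
    simp only [map_add, map_smul, smul_eq_mul, hB u, hB v, hB (T u), hB (T v), h1, h2, h3, h4,
      h5, h6, h7, h8, h9, h10, h11, map_zero, mul_zero, add_zero, zero_add, mul_neg,
      neg_eq_zero] at e1 e2 e3 e4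
    rintro ⟨i, ε⟩
    fin_cases i <;> fin_cases ε
    · exact (mul_eq_zero.mp e2).resolve_right hc
    · exact (mul_eq_zero.mp e1).resolve_right hc
    · exact (mul_eq_zero.mp e4).resolve_right hc
    · exact (mul_eq_zero.mp e3).resolve_right hc
  · rw [← Submodule.span_union]
    congr 1
    ext w
    constructor
    · rintro ⟨⟨i, ε⟩, rfl⟩
      fin_cases i <;> fin_cases ε
      · exact Or.inl (Or.inl rfl)
      · exact Or.inl (Or.inr rfl)
      · exact Or.inr (Or.inl rfl)
      · exact Or.inr (Or.inr rfl)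
    · rintro ((rfl | rfl) | (rfl | rfl))
      · exact ⟨(0, 0), rfl⟩
      · exact ⟨(0, 1), rfl⟩
      · exact ⟨(1, 0), rfl⟩
      · exact ⟨(1, 1), rfl⟩
  · intro i l ε δ hil
    fin_cases i <;> fin_cases l <;> fin_cases ε <;> fin_cases δ <;>
      first
        | exact absurd rfl hil
        | exact h1
        | exact h2
        | exact h3
        | exact h4
        | exact h5
        | exact h6
        | exact h7
        | exact h8
  · intro i
    fin_cases i <;> rfl
  · intro i ε
    fin_cases i <;> fin_cases ε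
    · exact Submodule.subset_span (Or.inl rfl)
    · exact Submodule.subset_span (Or.inr rfl)
    · show T (T u) ∈ Submodule.span F {u, v}
      rw [hTT]
      exact Submodule.subset_span (Or.inl rfl)
    · show T (T v) ∈ Submodule.span F {u, v}
      rw [hTT]
      exact Submodule.subset_span (Or.inr rfl)

theorem exists_psys [FiniteDimensional F V] (B : LinearMap.BilinForm F V) (hB : B.IsAlt)
    (T : V →ₗ[F] V) (hTB : ∀ x y, B (T x) (T y) = B x y) (z : F) (hz : z = 1 ∨ z = -1)
    (hTT : ∀ x, T (T x) = z • x) :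
    ∀ n : ℕ, ∀ S : Submodule F V, Module.finrank F S = n → Good B T S → PlaneSys B T S := by
  intro n
  induction n using Nat.strong_induction_on with
  | _ n ih =>
  intro S hn hS
  have hz0 : z ≠ 0 := by
    rcases hz with rfl | rfl <;> simp
  by_cases hbot : S = ⊥
  · rw [hbot]
    exact psys_bot B T
  obtain ⟨s, hs, hs0⟩ := Submodule.exists_mem_ne_zero_of_ne_bot hbot
  have hplane : ∀ u v : V, u ∈ S → v ∈ S → B u v ≠ 0 → T u ∈ Submodule.span F {u, v} →
      T v ∈ Submodule.span F {u, v} →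
      (∀ w ∈ S, B u w = 0 → B v w = 0 → B u (T w) = 0 ∧ B v (T w) = 0) → PlaneSys B T S := by
    intro u v hu hv hc hTu hTv hcutT
    have hgood := cut_good B hB T S hS u v hu hv hc hcutT
    have hlt := cut_lt B hB S u v hu hc
    have h1 := ih _ (hn ▸ hlt) (cut B S u v) rfl hgood
    have h2 := psys_plane B hB T u v hc hTu hTv
    have h3 : PlaneSys B T (Submodule.span F {u, v} ⊔ cut B S u v) :=
      psys_sum B hB T _ _ h2 h1 (span_orth_cut B S u v) (span_disj_cut B hB S u v hc)
    rw [span_sup_cut B hB S u v hu hv hc] at h3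
    exact h3
  by_cases h1 : ∃ u ∈ S, B u (T u) ≠ 0
  · obtain ⟨u, hu, hc⟩ := h1
    refine hplane u (T u) hu (hS.inv u hu) hc (Submodule.subset_span (Or.inr rfl)) ?_ ?_
    · rw [hTT]
      exact Submodule.smul_mem _ _ (Submodule.subset_span (Or.inl rfl))
    · intro w _ h1 h2
      have e1 : B (T u) (T w) = B u w := hTB u w
      have e2 : B (T (T u)) (T w) = B (T u) w := hTB (T u) w
      rw [hTT, map_smul, LinearMap.smul_apply, smul_eq_mul, h2] at e2
      rw [h1] at e1
      exact ⟨(mul_eq_zero.mp e2).resolve_left hz0, e1⟩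
  push Not at h1
  have hz1 : z = 1 := by
    by_contra hne
    have hzm : z = -1 := hz.resolve_left hne
    have h2 : (2 : F) ≠ 0 := by
      intro h
      apply hne
      rw [hzm]
      linear_combination -h
    have key : ∀ a ∈ S, ∀ b ∈ S, B a (T b) = 0 := by
      intro a ha b hb
      have h3 := h1 (a + b) (S.add_mem ha hb)
      simp only [map_add, LinearMap.add_apply] at h3
      have h4 : B b (T a) = B a (T b) := by
        have h5 := hTB b (T a)
        rw [hTT, hzm, neg_one_smul, map_neg] at h5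
        rw [← h5]
        exact LinearMap.IsAlt.neg hB (T b) a
      have h6 : 2 * B a (T b) = 0 := by
        linear_combination h3 - h1 a ha - h1 b hb - h4
      exact (mul_eq_zero.mp h6).resolve_left h2
    obtain ⟨t, htS, ht⟩ : ∃ t ∈ S, B s t ≠ 0 := by
      by_contra hcon
      push Not at hcon
      exact hs0 (hS.nondeg s hs hcon)
    apply ht
    have h7 := key s hs (-(T t)) (S.neg_mem (hS.inv t htS))
    rw [map_neg, hTT, hzm, neg_one_smul, neg_neg] at h7
    exact h7
  have hTT' : ∀ x, T (T x) = x := fun x => by rw [hTT, hz1, one_smul]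
  by_cases h2 : ∃ u ∈ S, T u ∉ Submodule.span F {u}
  · obtain ⟨u, hu, hTu⟩ := h2
    have hTuS := hS.inv u hu
    have hTu0 : T u ≠ 0 := fun h => hTu (by rw [h]; exact Submodule.zero_mem _)
    obtain ⟨v, hv, hc, h3⟩ : ∃ v ∈ S, B u v ≠ 0 ∧ B (T u) v = 0 := by
      by_contra hcon
      push Not at hcon
      obtain ⟨w, hw, hw0⟩ : ∃ w ∈ S, B (T u) w ≠ 0 := by
        by_contra hcon'
        push Not at hcon'
        exact hTu0 (hS.nondeg (T u) hTuS hcon')
      have h4 : ∀ v ∈ S, B (u - (B u w / B (T u) w) • T u) v = 0 := by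
        intro v hv
        have h5 : B (T u) (v - (B (T u) v / B (T u) w) • w) = 0 := by
          rw [map_sub, map_smul, smul_eq_mul]
          field_simp
          ring
        have h6 : B u (v - (B (T u) v / B (T u) w) • w) = 0 := by
          by_contra h7
          exact hcon _ (S.sub_mem hv (S.smul_mem _ hw)) h7 h5
        rw [map_sub, map_smul, smul_eq_mul] at h6
        rw [map_sub, map_smul, LinearMap.sub_apply, LinearMap.smul_apply, smul_eq_mul]
        linear_combination h6
      have h8 := hS.nondeg _ (S.sub_mem hu (S.smul_mem _ hTuS)) h4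
      have h9 : u = (B u w / B (T u) w) • T u := sub_eq_zero.mp h8
      apply hTu
      have h10 : T u = (B u w / B (T u) w) • u := by
        have h11 := congrArg T h9
        rw [map_smul, hTT'] at h11
        exact h11
      rw [h10]
      exact Submodule.smul_mem _ _ (Submodule.mem_span_singleton_self u)
    have hb1 : B u (T u) = 0 := h1 u hu
    have hb2 : B v (T v) = 0 := h1 v hv
    have hTvS := hS.inv v hv
    have hb4 : B u (T v) = 0 := by
      have h5 := hTB u (T v)
      rw [hTT'] at h5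
      rw [← h5, h3]
    have hb5 : B v (T u) = 0 := by rw [alt_swap B hB (T u) v, h3, neg_zero]
    have hc' : B (T u) (T v) ≠ 0 := by
      rw [hTB]
      exact hc
    have hTu1 : T u ∈ cut B S u v := (mem_cut B S u v _).mpr ⟨hTuS, hb1, hb5⟩
    have hTv1 : T v ∈ cut B S u v := (mem_cut B S u v _).mpr ⟨hTvS, hb4, hb2⟩
    have hg1 : Good B LinearMap.id (cut B S u v) :=
      cut_good B hB LinearMap.id S ⟨fun _ h => h, hS.nondeg⟩ u v hu hv hc
        (fun w _ h h' => ⟨h, h'⟩)
    have hg2 : Good B LinearMap.id (cut B (cut B S u v) (T u) (T v)) :=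
      cut_good B hB LinearMap.id _ hg1 (T u) (T v) hTu1 hTv1 hc' (fun w _ h h' => ⟨h, h'⟩)
    have hgood : Good B T (cut B (cut B S u v) (T u) (T v)) := by
      refine ⟨?_, hg2.nondeg⟩
      intro w hw
      rw [mem_cut, mem_cut] at hw ⊢
      obtain ⟨⟨hwS, hw1, hw2⟩, hw3, hw4⟩ := hw
      refine ⟨⟨hS.inv w hwS, ?_, ?_⟩, ?_, ?_⟩
      · have h5 := hTB (T u) w
        rw [hTT'] at h5
        rw [h5]
        exact hw3
      · have h5 := hTB (T v) w
        rw [hTT'] at h5
        rw [h5]
        exact hw4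
      · rw [hTB]
        exact hw1
      · rw [hTB]
        exact hw2
    have hlt1 := cut_lt B hB S u v hu hc
    have hlt2 := cut_lt B hB (cut B S u v) (T u) (T v) hTu1 hc'
    have hps := ih _ (by rw [← hn]; exact hlt2.trans hlt1) _ rfl hgood
    have hpair := psys_pair B hB T hTB hTT' u v hc hb1 hb2 h3
    have hsum : PlaneSys B T ((Submodule.span F {u, v} ⊔ Submodule.span F {T u, T v}) ⊔
        cut B (cut B S u v) (T u) (T v)) := by
      refine psys_sum B hB T _ _ hpair hps ?_ ?_
      · intro a ha c hc2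
        obtain ⟨a1, ha1, a2, ha2, rfl⟩ := Submodule.mem_sup.mp ha
        rw [map_add, LinearMap.add_apply,
          span_orth_cut B S u v a1 ha1 c (cut_le B _ _ _ hc2),
          span_orth_cut B (cut B S u v) (T u) (T v) a2 ha2 c hc2, add_zero]
      · refine (span_disj_cut B hB (cut B S u v) (T u) (T v) hc').disjoint_sup_left_of_disjoint_sup_right
          ?_
        rw [span_sup_cut B hB (cut B S u v) (T u) (T v) hTu1 hTv1 hc']
        exact span_disj_cut B hB S u v hc
    have heq : (Submodule.span F {u, v} ⊔ Submodule.span F {T u, T v}) ⊔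
        cut B (cut B S u v) (T u) (T v) = S := by
      rw [sup_assoc, span_sup_cut B hB (cut B S u v) (T u) (T v) hTu1 hTv1 hc',
        span_sup_cut B hB S u v hu hv hc]
    rw [heq] at hsum
    exact hsum
  · push Not at h2
    obtain ⟨v, hv, hc⟩ : ∃ v ∈ S, B s v ≠ 0 := by
      by_contra hcon
      push Not at hcon
      exact hs0 (hS.nondeg s hs hcon)
    refine hplane s v hs hv hc ?_ ?_ ?_
    · exact Submodule.span_mono (by simp) (h2 s hs)
    · exact Submodule.span_mono (by simp) (h2 v hv)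
    · intro w hw h3 h4
      obtain ⟨c, hc'⟩ := Submodule.mem_span_singleton.mp (h2 w hw)
      rw [← hc', map_smul, map_smul, h3, h4, smul_zero]
      exact ⟨rfl, rfl⟩

end Abs

/-- Involutions of PSp_n(q) and imprimitive subgroups. Here `T = PSp_n(q)`, `n = 2d ≥ 4`, `(n, q) ≠ (4, 2)`, realised through the symplectic matrices over the field `F` with `q` elements and the standard alternating form; `n = a·t` with `a` even and `t ≥ 2`, and Ω is the (nonempty) set of orthogonal decompositions of `F^n` into `t` nondegenerate subspaces of dimension `a` (unordered; counted as ordered ones divided by `t!`), whose stabilizers are the imprimitive subgroups of type Sp_a(q) ≀ S_t (maximality is not assumed); an element of `T` of prime order `r` (a symplectic matrix `x` with `x^r` scalar, `x` not scalar) fixes a point of Ω when it permutes the summands of some such decomposition. If the number of such decompositions is even, then every involution of `T` stabilizes one of them (the action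 is 2-elusive). -/
theorem result {F : Type*} [Field F] [Fintype F] {p : ℕ} [Fact p.Prime] [CharP F p] {q : ℕ} (hq : Fintype.card F = q)
    (d : ℕ) (hd : 2 ≤ d) (hT : (d, q) ≠ (2, 2))
    (a t : ℕ) (hat : 2 * d = a * t) (ha : 2 ≤ a) (hae : Even a) (ht : 2 ≤ t) (hΩ : 2 ∣ Nat.card {D : Fin t → Submodule F (Fin d ⊕ Fin d → F) // (Cfsg.Geo.IsMDecomposition a D ∧ (∀ j, ∀ u ∈ D j, u ≠ 0 → ∃ v ∈ D j, Cfsg.sympForm d F u v ≠ 0) ∧
          (∀ j j', j ≠ j' → ∀ u ∈ D j, ∀ v ∈ D j', Cfsg.sympForm d F u v = 0))} / Nat.factorial t)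
    (x : ↥(Matrix.symplecticGroup (Fin d) F))
    (hx1 : ∃ z : F, ((x ^ 2 : ↥(Matrix.symplecticGroup (Fin d) F)) : Matrix (Fin d ⊕ Fin d) (Fin d ⊕ Fin d) F) = z • (1 : Matrix (Fin d ⊕ Fin d) (Fin d ⊕ Fin d) F))
    (hx2 : ∀ z : F, (x : Matrix (Fin d ⊕ Fin d) (Fin d ⊕ Fin d) F) ≠ z • (1 : Matrix (Fin d ⊕ Fin d) (Fin d ⊕ Fin d) F)) :
    ∃ D : Fin t → Submodule F (Fin d ⊕ Fin d → F), (Cfsg.Geo.IsMDecomposition a D ∧ (∀ j, ∀ u ∈ D j, u ≠ 0 → ∃ v ∈ D j, Cfsg.sympForm d F u v ≠ 0) ∧
          (∀ j j', j ≠ j' → ∀ u ∈ D j, ∀ v ∈ D j', Cfsg.sympForm d F u v = 0)) ∧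
        ∃ σ : Equiv.Perm (Fin t), ∀ j, (D j).map (Matrix.toLin' (x : Matrix (Fin d ⊕ Fin d) (Fin d ⊕ Fin d) F)) = D (σ j) := by
  classical
  obtain ⟨z, hz⟩ := hx1
  have hB : (sfB d F).IsAlt := fun u => Cfsg.Agent.Helper6.sf_self u
  have hnd : ∀ u, (∀ v, sfB d F u v = 0) → u = 0 := by
    intro u hu
    funext j
    rcases j with i | i
    · have h1 := hu (Pi.single (Sum.inr i) 1)
      rw [sfB_apply, Cfsg.Agent.Helper6.sf_single_inr, neg_eq_zero] at h1
      exact h1
    · have h1 := hu (Pi.single (Sum.inl i) 1)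
      rw [sfB_apply, Cfsg.Agent.Helper6.sf_single_inl] at h1
      exact h1
  obtain ⟨X, hX⟩ : ∃ X : (Fin d ⊕ Fin d → F) →ₗ[F] (Fin d ⊕ Fin d → F),
      X = Matrix.toLin' (x : Matrix (Fin d ⊕ Fin d) (Fin d ⊕ Fin d) F) := ⟨_, rfl⟩
  have hTB : ∀ a b, sfB d F (X a) (X b) = sfB d F a b := by
    intro a b
    rw [hX, sfB_apply, sfB_apply, Matrix.toLin'_apply, Matrix.toLin'_apply]
    exact Cfsg.Agent.Helper6.sp_preserves x a b
  have hTT : ∀ a, X (X a) = z • a := by
    intro a
    rw [hX, Matrix.toLin'_apply, Matrix.toLin'_apply, Matrix.mulVec_mulVec, ← pow_two,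
      ← SubmonoidClass.coe_pow, hz, Matrix.smul_mulVec, Matrix.one_mulVec]
  have hzz : z * z = 1 := by
    have i : Fin d := ⟨0, by omega⟩
    have h1 := hTB (X (Pi.single (Sum.inr i) 1)) (X (Pi.single (Sum.inl i) 1))
    rw [hTT, hTT, hTB, map_smul, map_smul, LinearMap.smul_apply, sfB_apply,
      Cfsg.Agent.Helper6.sf_single_inl] at h1
    simpa using h1
  have hz' : z = 1 ∨ z = -1 := mul_self_eq_one_iff.mp hzz
  have hz0 : z ≠ 0 := by
    rcases hz' with rfl | rfl <;> simp
  obtain ⟨ι, ft, b, π, hli, hspan, horth, hπ, hTb⟩ :=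
    exists_psys (sfB d F) hB X hTB z hz' hTT _ ⊤ rfl
      ⟨fun _ _ => Submodule.mem_top, fun u _ h => hnd u (fun v => h v Submodule.mem_top)⟩
  obtain ⟨a', ha'⟩ := hae
  have hcard : Fintype.card ι = a' * t := by
    have h1 := Module.finrank_eq_card_basis (Module.Basis.mk hli (by rw [hspan]))
    rw [Module.finrank_fintype_fun_eq_card, Fintype.card_sum, Fintype.card_fin,
      Fintype.card_prod, Fintype.card_fin] at h1
    rw [ha'] at hat
    have h2 : (a' + a') * t = 2 * (a' * t) := by ring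
    omega
  letI : LinearOrder ι := LinearOrder.lift' (Fintype.equivFin ι) (Fintype.equivFin ι).injective
  obtain ⟨f, σ, hf, hfib, hσ, hσσ, heq⟩ := Cfsg.Agent.S5957.exists_labelling π hπ a'
    (by omega) t Finset.univ (fun i _ => Finset.mem_univ _) (by rw [Finset.card_univ, hcard])
  rw [← hX]
  obtain ⟨D, hD⟩ : ∃ D : Fin t → Submodule F (Fin d ⊕ Fin d → F),
      D = fun j : Fin t => Submodule.span F (b '' {p | f p.1 = (j : ℕ)}) := ⟨_, rfl⟩
  have hbD : ∀ p : ι × Fin 2, ∀ j : Fin t, f p.1 = (j : ℕ) → b p ∈ D j := by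
    intro p j hp
    rw [hD]
    exact Submodule.subset_span ⟨p, hp, rfl⟩
  have hdec : Cfsg.Geo.IsMDecomposition a D := by
    rw [hD]
    refine ⟨ht, by omega, ?_, ?_, ?_⟩
    · intro j
      have hli_j : LinearIndependent F (fun i : {p : ι × Fin 2 // f p.1 = (j : ℕ)} => b i) :=
        hli.comp Subtype.val Subtype.val_injective
      have h1 := finrank_span_eq_card hli_j
      have h2 : Set.range (fun i : {p : ι × Fin 2 // f p.1 = (j : ℕ)} => b i)
          = b '' {p | f p.1 = (j : ℕ)} := (Set.image_eq_range b {p | f p.1 = (j : ℕ)}).symm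
      rw [h2] at h1
      rw [h1, Fintype.card_subtype]
      have h3 : Finset.univ.filter (fun p : ι × Fin 2 => f p.1 = (j : ℕ))
          = (Finset.univ.filter (fun i => f i = (j : ℕ))) ×ˢ Finset.univ := by
        ext ⟨i, ε⟩
        simp
      rw [h3, Finset.card_product, hfib j j.2, Finset.card_univ, Fintype.card_fin]
      omega
    · intro j
      have h1 : (⨆ (k : Fin t) (_ : k ≠ j), Submodule.span F (b '' {p | f p.1 = (k : ℕ)}))
          ≤ Submodule.span F (b '' {p | f p.1 ≠ (j : ℕ)}) := by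
        refine iSup₂_le (fun k hk => Submodule.span_mono (Set.image_mono ?_))
        intro p hp
        simp only [Set.mem_setOf_eq] at hp ⊢
        rw [hp]
        exact fun h => hk (Fin.ext h)
      refine (hli.disjoint_span_image ?_).mono_right h1
      rw [Set.disjoint_left]
      intro p hp hp'
      exact hp' hp
    · rw [eq_top_iff, ← hspan, Submodule.span_le]
      rintro _ ⟨p, rfl⟩
      exact Submodule.mem_iSup_of_mem ⟨f p.1, hf p.1 (Finset.mem_univ _)⟩
        (Submodule.subset_span ⟨p, rfl, rfl⟩)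
  have horthD : ∀ j j', j ≠ j' → ∀ u ∈ D j, ∀ v ∈ D j', sfB d F u v = 0 := by
    intro j j' hjj'
    have step1 : ∀ p : ι × Fin 2, f p.1 = (j : ℕ) → ∀ v ∈ D j', sfB d F (b p) v = 0 := by
      intro p hp v hv
      have h1 : D j' ≤ LinearMap.ker (sfB d F (b p)) := by
        rw [hD, Submodule.span_le]
        rintro _ ⟨q, hq, rfl⟩
        simp only [Set.mem_setOf_eq] at hq
        rw [SetLike.mem_coe, LinearMap.mem_ker]
        exact horth p.1 q.1 p.2 q.2 (fun h => hjj' (Fin.ext (by rw [← hp, ← hq, h])))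
      exact LinearMap.mem_ker.mp (h1 hv)
    intro u hu v hv
    have h2 : D j ≤ LinearMap.ker (LinearMap.flip (sfB d F) v) := by
      rw [hD, Submodule.span_le]
      rintro _ ⟨p, hp, rfl⟩
      rw [SetLike.mem_coe, LinearMap.mem_ker, LinearMap.flip_apply]
      exact step1 p hp v hv
    have h3 := LinearMap.mem_ker.mp (h2 hu)
    rwa [LinearMap.flip_apply] at h3
  obtain ⟨σ', hσ'⟩ : ∃ σ' : Equiv.Perm (Fin t), ∀ j, ((σ' j : Fin t) : ℕ) = σ j :=
    ⟨Function.Involutive.toPerm (fun j => ⟨σ j, hσ j j.2⟩) (fun j => Fin.ext (hσσ j j.2)),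
      fun j => rfl⟩
  have hle : ∀ j, (D j).map X ≤ D (σ' j) := by
    intro j
    have h0 : (D j).map X = Submodule.span F (X '' (b '' {p | f p.1 = (j : ℕ)})) := by
      rw [hD, Submodule.map_span]
    rw [h0, Submodule.span_le]
    rintro _ ⟨_, ⟨p, hp, rfl⟩, rfl⟩
    simp only [Set.mem_setOf_eq] at hp
    have h1 : f (π p.1) = ((σ' j : Fin t) : ℕ) := by
      rw [hσ', heq _ (Finset.mem_univ _), hp]
    have h2 : Submodule.span F {b (π p.1, 0), b (π p.1, 1)} ≤ D (σ' j) := by
      rw [Submodule.span_le]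
      rintro w (rfl | rfl)
      · exact hbD _ _ h1
      · exact hbD _ _ h1
    exact h2 (hTb p.1 p.2)
  refine ⟨D, ⟨hdec, ?_, ?_⟩, σ', ?_⟩
  · intro j u hu hu0
    by_contra hcon
    push Not at hcon
    apply hu0
    apply hnd
    intro w
    have h1 : (⊤ : Submodule F (Fin d ⊕ Fin d → F)) ≤ LinearMap.ker (sfB d F u) := by
      rw [← hdec.iSup_eq_top]
      refine iSup_le (fun k => ?_)
      intro w hw
      rw [LinearMap.mem_ker]
      by_cases hk : k = j
      · subst hk
        rw [sfB_apply]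
        exact hcon w hw
      · exact horthD j k (fun h => hk h.symm) u hu w hw
    exact LinearMap.mem_ker.mp (h1 Submodule.mem_top)
  · intro j j' hjj' u hu v hv
    exact (sfB_apply d F u v).symm.trans (horthD j j' hjj' u hu v hv)
  · intro j
    apply le_antisymm (hle j)
    intro w hw
    have h1 : X w ∈ D j := by
      have h2 := hle (σ' j) (Submodule.mem_map_of_mem hw)
      have h3 : σ' (σ' j) = j := by
        apply Fin.ext
        rw [hσ', hσ']
        exact hσσ j j.2
      rwa [h3] at h2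
    refine ⟨z⁻¹ • X w, Submodule.smul_mem _ _ h1, ?_⟩
    rw [map_smul, hTT, smul_smul, inv_mul_cancel₀ hz0, one_smul]

end Cfsg.Agent.S5960
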