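import Cfsg.Statements.S5964
import Cfsg.Agent.Helper16.JordG

set_option autoImplicit false
open scoped MatrixGroups
open Cfsg

namespace Cfsg.Agent.S5964

open Cfsg.Agent.Helper16 Cfsg.Agent.Helper16.Jord

theorem coe_conj {n : ℕ} {F : Type*} [Field F] (P x : Matrix.SpecialLinearGroup (Fin n) F) :
    ((Matrix.SpecialLinearGroup.toGL (P⁻¹ * x * P) : GL (Fin n) F) : Matrix (Fin n) (Fin n) F)
      = (P : Matrix (Fin n) (Fin n) F)⁻¹ * (x : Matrix (Fin n) (Fin n) F)
        * (P : Matrix (Fin n) (Fin n) F) := by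
  have h1 : ((Matrix.SpecialLinearGroup.toGL (P⁻¹ * x * P) : GL (Fin n) F) :
      Matrix (Fin n) (Fin n) F)
      = ((P⁻¹ * x * P : Matrix.SpecialLinearGroup (Fin n) F) : Matrix (Fin n) (Fin n) F) := rfl
  rw [h1, Matrix.SpecialLinearGroup.coe_mul, Matrix.SpecialLinearGroup.coe_mul,
    Matrix.SpecialLinearGroup.coe_inv]
  congr 2
  rw [Matrix.inv_def, P.det_coe, Ring.inverse_one, one_smul]

/-- membership of a conjugate in the subfield group from a rational conjugate of a scalar multiple -/
theorem mem_of_conj {n : ℕ} {F : Type*} [Field F] (F₀ : Subfield F)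
    (x : Matrix.SpecialLinearGroup (Fin n) F) (ζ : F) (hζ0 : ζ ≠ 0)
    (Pm : Matrix (Fin n) (Fin n) F) (hPdet : Pm.det = 1)
    (hPR : RMat F₀ (Pm⁻¹ * (ζ⁻¹ • (x : Matrix (Fin n) (Fin n) F)) * Pm)) :
    ∃ P : Matrix.SpecialLinearGroup (Fin n) F, P⁻¹ * x * P ∈
      ((Cfsg.Geo.subfieldSubgroup F₀ 1).comap (Matrix.SpecialLinearGroup.toGL :
        Matrix.SpecialLinearGroup (Fin n) F →* GL (Fin n) F)) := by
  obtain ⟨PS, hPS⟩ : ∃ PS : Matrix.SpecialLinearGroup (Fin n) F,
      (PS : Matrix (Fin n) (Fin n) F) = Pm := ⟨⟨Pm, hPdet⟩, rfl⟩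
  refine ⟨PS, ?_⟩
  rw [Subgroup.mem_comap]
  apply sfg_one_of_rmat _ ζ⁻¹ (inv_ne_zero hζ0)
  rw [coe_conj, hPS]
  have e : ζ⁻¹ • (Pm⁻¹ * (x : Matrix (Fin n) (Fin n) F) * Pm)
      = Pm⁻¹ * (ζ⁻¹ • (x : Matrix (Fin n) (Fin n) F)) * Pm := by
    rw [Matrix.mul_smul, Matrix.smul_mul]
  rw [e]
  exact hPR

/-- Involutions of PSL_n(q) and subfield subgroups. Here `T = PSL_n(F)` for a field `F` with `q = p^f` elements (`n ≥ 2`, `(n, q) ≠ (2, 2), (2, 3)`), `F₀` is the subfield with `q₀` elements where `q = q₀^k` for a prime `k`, and `H` is the subgroup of matrices of determinant 1 lying in the subfield group of `F₀` (invertible matrices over `F₀` times scalars) — a maximal subgroup of type GL_n(q₀) (the case `n = 2`, `q₀ = 2` is excluded); Ω is the set of `T`-conjugates of `H` (cosets of `H`), so an element of `T` of prime order `r` (a matrix `x` of determinant 1 with `x^r` scalar, `x` not scalar) fixes a point of Ω when some conjugate of `x` by a matrix of determinant 1 lies in `H`. Suppose the index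 of `H` is even. Then every involution of `T` is conjugate in `T` into `H` if and only if either `q` is even, or `k = 2` and `(n)_2 ≤ (q − 1)_2`. (For `q` odd and `k` odd the index of `H` is odd, so that case does not arise.) -/
theorem result {F : Type*} [Field F] [Fintype F] {p : ℕ} [Fact p.Prime] [CharP F p] {q : ℕ} (hq : Fintype.card F = q)
    (n : ℕ) (hn : 2 ≤ n) (hT : (n, q) ≠ (2, 2) ∧ (n, q) ≠ (2, 3))
    (F₀ : Subfield F) (k q₀ : ℕ) (hk : k.Prime) (hF₀ : Nat.card ↥F₀ = q₀) (hqk : q = q₀ ^ k) (hC5 : ¬ (n = 2 ∧ q₀ = 2)) (hΩ : 2 ∣ ((Cfsg.Geo.subfieldSubgroup F₀ 1).comap (Matrix.SpecialLinearGroup.toGL : Matrix.SpecialLinearGroup (Fin n) F →* GL (Fin n) F)).index) :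
    (∀ x : Matrix.SpecialLinearGroup (Fin n) F,
      (∃ z : F, ((x ^ 2 : Matrix.SpecialLinearGroup (Fin n) F) : Matrix (Fin n) (Fin n) F) = z • (1 : Matrix (Fin n) (Fin n) F)) →
      (∀ z : F, (x : Matrix (Fin n) (Fin n) F) ≠ z • (1 : Matrix (Fin n) (Fin n) F)) →
      ∃ P : Matrix.SpecialLinearGroup (Fin n) F, P⁻¹ * x * P ∈ ((Cfsg.Geo.subfieldSubgroup F₀ 1).comap (Matrix.SpecialLinearGroup.toGL : Matrix.SpecialLinearGroup (Fin n) F →* GL (Fin n) F))) ↔
    (Odd q → (k = 2 ∧ padicValNat 2 n ≤ padicValNat 2 (q - 1))) := by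
  classical
  have hqF : Fintype.card F = q₀ ^ k := by rw [hq, hqk]
  rcases Nat.even_or_odd q with hqe | hqo
  · -- even q: both sides hold
    have hch2 : ringChar F = 2 := by
      rw [FiniteField.even_card_iff_char_two, hq]
      exact Nat.even_iff.mp hqe
    have h2F : (2 : F) = 0 := by
      haveI : CharP F 2 := ringChar.of_eq hch2
      exact_mod_cast CharP.cast_eq_zero F 2
    constructor
    · intro _ hodd
      exact absurd hodd (Nat.not_odd_iff_even.mpr hqe)
    · intro _ x hx2 hns
      obtain ⟨z, hz⟩ := hx2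
      obtain ⟨xm, hxm⟩ : ∃ xm : Matrix (Fin n) (Fin n) F,
          xm = (x : Matrix (Fin n) (Fin n) F) := ⟨_, rfl⟩
      have hxdet : xm.det = 1 := by
        rw [hxm]
        exact x.det_coe
      have hx2m : xm * xm = z • (1 : Matrix (Fin n) (Fin n) F) := by
        rw [← hz, Matrix.SpecialLinearGroup.coe_pow, pow_two, hxm]
      haveI : Nonempty (Fin n) := ⟨⟨0, by omega⟩⟩
      have hz0 : z ≠ 0 := by
        rintro rfl
        have h1 := congrArg Matrix.det hx2m
        rw [Matrix.det_mul, hxdet, zero_smul, Matrix.det_zero] at h1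
        norm_num at h1
      obtain ⟨ζ, hζ⟩ := FiniteField.isSquare_of_char_two hch2 z
      have hζ0 : ζ ≠ 0 := by
        rintro rfl
        rw [mul_zero] at hζ
        exact hz0 hζ
      have hA2 : (ζ⁻¹ • xm) * (ζ⁻¹ • xm) = 1 := by
        simp only [Matrix.smul_mul, Matrix.mul_smul, smul_smul]
        rw [hx2m, smul_smul, hζ]
        have h1 : ζ⁻¹ * ζ⁻¹ * (ζ * ζ) = 1 := by
          field_simp
        rw [h1, one_smul]
      have hN2 : (ζ⁻¹ • xm - 1) * (ζ⁻¹ • xm - 1) = 0 := by
        have e : ∀ A : Matrix (Fin n) (Fin n) F,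
            (A - 1) * (A - 1) = A * A - 1 - (A + A) + (1 + 1) := by
          intro A
          noncomm_ring
        have hadd : ∀ M : Matrix (Fin n) (Fin n) F, M + M = 0 := by
          intro M
          ext i j
          simp only [Matrix.add_apply, Matrix.zero_apply]
          linear_combination (M i j) * h2F
        rw [e, hA2, hadd, hadd]
        simp
      have hsq : ∀ δ : F, δ ≠ 0 → ∃ α β, α ≠ 0 ∧ β ∈ F₀ ∧ δ = α ^ 2 * β := by
        intro δ hδ
        obtain ⟨α, hα⟩ := FiniteField.isSquare_of_char_two hch2 δ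
        refine ⟨α, 1, ?_, F₀.one_mem, by rw [hα]; ring⟩
        rintro rfl
        exact hδ (by rw [hα]; ring)
      obtain ⟨Pm, hPdet, hPR⟩ := conj_rat2 F₀ (ζ⁻¹ • xm - 1) hN2 (by omega) hsq
      have hPu : IsUnit Pm.det := by
        rw [hPdet]
        exact isUnit_one
      have hPP' : Pm⁻¹ * Pm = 1 := Matrix.nonsing_inv_mul Pm hPu
      apply mem_of_conj F₀ x ζ hζ0 Pm hPdet
      rw [← hxm]
      have e : Pm⁻¹ * (ζ⁻¹ • xm) * Pm = Pm⁻¹ * (ζ⁻¹ • xm - 1) * Pm + 1 := by
        rw [Matrix.mul_sub, Matrix.sub_mul, Matrix.mul_one, hPP', sub_add_cancel]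
      rw [e]
      exact rmat_add hPR rmat_one
  · -- odd q
    have hch : ringChar F ≠ 2 := by
      intro h
      rw [FiniteField.even_card_iff_char_two, hq] at h
      rw [Nat.odd_iff] at hqo
      omega
    have h2F : (2 : F) ≠ 0 := Ring.two_ne_zero hch
    by_cases hk2 : k = 2
    · subst hk2
      have hsqF₀ := sq_of_mem' hch F₀ q₀ hF₀ hqF
      have hm1 : IsSquare (-1 : F) := hsqF₀ _ (F₀.neg_mem F₀.one_mem)
      have h4 : Fintype.card F % 4 = 1 := by
        rw [hqF]
        have hq0 : q₀ % 2 = 1 := by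
          rw [hqk, Nat.odd_iff] at hqo
          rcases Nat.mod_two_eq_zero_or_one q₀ with h | h
          · exfalso
            rw [Nat.pow_mod, h] at hqo
            norm_num at hqo
          · exact h
        obtain ⟨t, ht⟩ : ∃ t, q₀ = 2 * t + 1 := ⟨q₀ / 2, by omega⟩
        have e : q₀ ^ 2 = 4 * (t * t + t) + 1 := by
          rw [ht]
          ring
        rw [e]
        omega
      constructor
      · intro hall _
        refine ⟨rfl, ?_⟩
        by_contra hlt
        push Not at hlt
        have hne : Even n := by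
          have hpos : 1 ≤ padicValNat 2 n := by omega
          exact even_iff_two_dvd.mpr (dvd_of_one_le_padicValNat hpos)
        obtain ⟨m, rfl⟩ := hne
        have hm : 0 < m := by omega
        have hlt' : padicValNat 2 (Fintype.card F - 1) < padicValNat 2 (2 * m) := by
          rw [hq, two_mul]
          exact hlt
        obtain ⟨z, hz, hzm⟩ := arith2 hch h4 m hlt'
        obtain ⟨B, hBdef⟩ : ∃ B : Matrix (Fin m ⊕ Fin m) (Fin m ⊕ Fin m) F,
            B = Matrix.fromBlocks 1 ((z - 1) • (1 : Matrix (Fin m) (Fin m) F)) 1 (-1) :=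
          ⟨_, rfl⟩
        have hBdet : B.det = 1 := by
          rw [hBdef, Matrix.det_fromBlocks_one₁₁, Matrix.one_mul]
          have e : (-1 : Matrix (Fin m) (Fin m) F) - (z - 1) • (1 : Matrix (Fin m) (Fin m) F)
              = (-z) • (1 : Matrix (Fin m) (Fin m) F) := by
            rw [sub_smul, one_smul, neg_smul]
            abel
          rw [e, Matrix.det_smul, Matrix.det_one, mul_one, Fintype.card_fin, hzm]
        have hB2 : B * B = z • (1 : Matrix (Fin m ⊕ Fin m) (Fin m ⊕ Fin m) F) := by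
          rw [hBdef, Matrix.fromBlocks_multiply, ← Matrix.fromBlocks_one, Matrix.fromBlocks_smul]
          have e11 : (1 : Matrix (Fin m) (Fin m) F) * 1
              + (z - 1) • (1 : Matrix (Fin m) (Fin m) F) * 1 = z • 1 := by
            rw [Matrix.one_mul, Matrix.mul_one, sub_smul, one_smul]
            abel
          have e12 : (1 : Matrix (Fin m) (Fin m) F) * (z - 1) • (1 : Matrix (Fin m) (Fin m) F)
              + (z - 1) • (1 : Matrix (Fin m) (Fin m) F) * (-1) = z • 0 := by
            rw [Matrix.one_mul, Matrix.mul_neg, Matrix.mul_one, smul_zero]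
            abel
          have e21 : (1 : Matrix (Fin m) (Fin m) F) * 1
              + (-1 : Matrix (Fin m) (Fin m) F) * 1 = z • 0 := by
            rw [Matrix.one_mul, Matrix.mul_one, smul_zero]
            abel
          have e22 : (1 : Matrix (Fin m) (Fin m) F) * (z - 1) • (1 : Matrix (Fin m) (Fin m) F)
              + (-1 : Matrix (Fin m) (Fin m) F) * (-1) = z • 1 := by
            rw [Matrix.one_mul, Matrix.neg_mul, Matrix.mul_neg, Matrix.mul_one, neg_neg, sub_smul,
              one_smul]
            abel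
          rw [e11, e12, e21, e22]
        obtain ⟨ε, hε⟩ : ∃ ε : Fin (m + m) ≃ Fin m ⊕ Fin m, ε = finSumFinEquiv.symm :=
          ⟨_, rfl⟩
        obtain ⟨xm, hxm⟩ : ∃ xm : Matrix (Fin (m + m)) (Fin (m + m)) F,
            xm = B.submatrix ε ε := ⟨_, rfl⟩
        have hxdet : xm.det = 1 := by rw [hxm, Matrix.det_submatrix_equiv_self, hBdet]
        have hx2m : xm * xm = z • (1 : Matrix (Fin (m + m)) (Fin (m + m)) F) := by
          rw [hxm, Matrix.submatrix_mul_equiv, hB2]
          ext i j
          rw [Matrix.submatrix_apply, Matrix.smul_apply, Matrix.smul_apply, Matrix.one_apply,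
            Matrix.one_apply]
          simp only [EmbeddingLike.apply_eq_iff_eq]
        obtain ⟨x, hx⟩ : ∃ x : Matrix.SpecialLinearGroup (Fin (m + m)) F,
            (x : Matrix (Fin (m + m)) (Fin (m + m)) F) = xm := ⟨⟨xm, hxdet⟩, rfl⟩
        have hx2 : ((x ^ 2 : Matrix.SpecialLinearGroup (Fin (m + m)) F) :
            Matrix (Fin (m + m)) (Fin (m + m)) F)
            = z • (1 : Matrix (Fin (m + m)) (Fin (m + m)) F) := by
          rw [Matrix.SpecialLinearGroup.coe_pow, hx, pow_two, hx2m]
        have hns : ∀ z' : F, (x : Matrix (Fin (m + m)) (Fin (m + m)) F)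
            ≠ z' • (1 : Matrix (Fin (m + m)) (Fin (m + m)) F) := by
          intro z' hz'
          have hz'' : xm = z' • (1 : Matrix (Fin (m + m)) (Fin (m + m)) F) := by
            rw [← hx]
            exact hz'
          have h1 := congrFun (congrFun hz'' (ε.symm (Sum.inr ⟨0, hm⟩)))
            (ε.symm (Sum.inl ⟨0, hm⟩))
          have hne : ε.symm (Sum.inr (⟨0, hm⟩ : Fin m)) ≠ ε.symm (Sum.inl (⟨0, hm⟩ : Fin m)) := by
            intro h
            have h2 := ε.symm.injective h
            simp at h2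
          rw [hxm, Matrix.submatrix_apply, Equiv.apply_symm_apply, Equiv.apply_symm_apply, hBdef,
            Matrix.fromBlocks_apply₂₁, Matrix.one_apply_eq, Matrix.smul_apply,
            Matrix.one_apply_ne hne, smul_zero] at h1
          exact one_ne_zero h1
        obtain ⟨P, hPx⟩ := hall x ⟨z, hx2⟩ hns
        rw [Subgroup.mem_comap] at hPx
        obtain ⟨c, hc0, hcR⟩ := rmat_of_mem_sfg_one _ hPx
        rw [coe_conj, hx] at hcR
        obtain ⟨Pm, hPm⟩ : ∃ Pm : Matrix (Fin (m + m)) (Fin (m + m)) F,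
            Pm = (P : Matrix (Fin (m + m)) (Fin (m + m)) F) := ⟨_, rfl⟩
        have hPdet : Pm.det = 1 := by
          rw [hPm]
          exact P.det_coe
        have hPu : IsUnit Pm.det := by
          rw [hPdet]
          exact isUnit_one
        have hPP : Pm * Pm⁻¹ = 1 := Matrix.mul_nonsing_inv Pm hPu
        have hPP' : Pm⁻¹ * Pm = 1 := Matrix.nonsing_inv_mul Pm hPu
        rw [← hPm] at hcR
        obtain ⟨Y, hY⟩ : ∃ Y, Y = Pm⁻¹ * xm * Pm := ⟨_, rfl⟩
        rw [← hY] at hcR
        have hY2 : Y * Y = z • (1 : Matrix (Fin (m + m)) (Fin (m + m)) F) := by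
          rw [hY]
          calc Pm⁻¹ * xm * Pm * (Pm⁻¹ * xm * Pm)
              = Pm⁻¹ * (xm * (Pm * Pm⁻¹) * xm) * Pm := by
                simp only [Matrix.mul_assoc]
            _ = z • 1 := by
                rw [hPP, Matrix.mul_one, hx2m, Matrix.mul_smul, Matrix.smul_mul, Matrix.mul_one,
                  hPP']
        have hc2 : c * c * z ∈ F₀ := by
          have h1 : RMat F₀ ((c • Y) * (c • Y)) := hcR.mul hcR
          have h2 : (c • Y) * (c • Y) = (c * c * z) • (1 : Matrix _ _ F) := by
            simp only [Matrix.smul_mul, Matrix.mul_smul, smul_smul]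
            rw [hY2, smul_smul]
          rw [h2] at h1
          have h3 := h1 (⟨0, by omega⟩ : Fin (m + m)) ⟨0, by omega⟩
          rw [Matrix.smul_apply, Matrix.one_apply_eq, smul_eq_mul, mul_one] at h3
          exact h3
        obtain ⟨s, hs⟩ := hsqF₀ _ hc2
        apply hz
        refine ⟨s / c, ?_⟩
        field_simp
        linear_combination hs
      · intro hcond x hx2 hns
        have hv := (hcond hqo).2
        obtain ⟨z, hz⟩ := hx2
        obtain ⟨xm, hxm⟩ : ∃ xm : Matrix (Fin n) (Fin n) F,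
            xm = (x : Matrix (Fin n) (Fin n) F) := ⟨_, rfl⟩
        have hxdet : xm.det = 1 := by
          rw [hxm]
          exact x.det_coe
        have hx2m : xm * xm = z • (1 : Matrix (Fin n) (Fin n) F) := by
          rw [← hz, Matrix.SpecialLinearGroup.coe_pow, pow_two, hxm]
        by_cases hzs : IsSquare z
        · obtain ⟨ζ, hζ⟩ := hzs
          haveI : Nonempty (Fin n) := ⟨⟨0, by omega⟩⟩
          have hz0 : z ≠ 0 := by
            rintro rfl
            have h1 := congrArg Matrix.det hx2m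
            rw [Matrix.det_mul, hxdet, zero_smul, Matrix.det_zero] at h1
            norm_num at h1
          have hζ0 : ζ ≠ 0 := by
            rintro rfl
            rw [mul_zero] at hζ
            exact hz0 hζ
          have hS : (ζ⁻¹ • xm) * (ζ⁻¹ • xm) = 1 := by
            simp only [Matrix.smul_mul, Matrix.mul_smul, smul_smul]
            rw [hx2m, smul_smul, hζ]
            have h1 : ζ⁻¹ * ζ⁻¹ * (ζ * ζ) = 1 := by
              field_simp
            rw [h1, one_smul]
          obtain ⟨Pm, hPdet, hPR⟩ := conj_rat_inv (by omega) F₀ h2F (ζ⁻¹ • xm) hS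
          apply mem_of_conj F₀ x ζ hζ0 Pm hPdet
          rw [← hxm]
          exact hPR
        · exfalso
          obtain ⟨a, hna, hdet⟩ := det_of_sq_nonsquare xm z hzs hx2m
          rw [hxdet] at hdet
          have ha0 : a ≠ 0 := by omega
          exact arith1 hch z hzs hm1 a ha0 hdet.symm (by rw [← hna, hq]; exact hv)
    · exfalso
      have hkodd : k % 2 = 1 := Nat.odd_iff.mp (hk.odd_of_ne_two hk2)
      exact index_odd hch n F₀ k q₀ hF₀ hqF hkodd hΩ

end Cfsg.Agent.S5964
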