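import Cfsg.Statements.S5966
import Cfsg.Agent.Helper16.JordD

set_option autoImplicit false
open scoped MatrixGroups
open Cfsg

namespace Cfsg.Agent.S5966

open Cfsg.Agent.Helper16 Cfsg.Agent.Helper16.Jord

theorem coe_conj {n : ℕ} {F : Type*} [Field F] (P x : Matrix.SpecialLinearGroup (Fin n) F) :
    ((Matrix.SpecialLinearGroup.toGL (P⁻¹ * x * P) : GL (Fin n) F) : Matrix (Fin n) (Fin n) F)
      = (P : Matrix (Fin n) (Fin n) F)⁻¹ * (x : Matrix (Fin n) (Fin n) F)
        * (P : Matrix (Fin n) (Fin n) F) := by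
  have h1 : ((Matrix.SpecialLinearGroup.toGL (P⁻¹ * x * P) : GL (Fin n) F) :
      Matrix (Fin n) (Fin n) F)
      = ((P⁻¹ * x * P : Matrix.SpecialLinearGroup (Fin n) F) : Matrix (Fin n) (Fin n) F) := rfl
  rw [h1, Matrix.SpecialLinearGroup.coe_mul, Matrix.SpecialLinearGroup.coe_mul,
    Matrix.SpecialLinearGroup.coe_inv]
  congr 2
  rw [Matrix.inv_def, P.det_coe, Ring.inverse_one, one_smul]

/-- Elements of order 3 of PSL_n(q) in characteristic 3 and subfield subgroups. Here `T = PSL_n(F)` for a field `F` with `q` elements, `q` a power of 3 (`n ≥ 2`, `(n, q) ≠ (2, 2), (2, 3)`), `F₀` is the subfield with `q₀` elements where `q = q₀^k` for a prime `k`, and `H` is the subgroup of matrices of determinant 1 lying in the subfield group of `F₀` (invertible matrices over `F₀` times scalars) — a maximal subgroup of type GL_n(q₀) (the case `n = 2`, `q₀ = 2` is excluded); Ω is the set of `T`-conjugates of `H` (cosets of `H`), so an element of `T` of prime order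 `r` (a matrix `x` of determinant 1 with `x^r` scalar, `x` not scalar) fixes a point of Ω when some conjugate of `x` by a matrix of determinant 1 lies in `H`. Suppose 3 divides the index of `H`. Then every element of `T` of order 3 is conjugate in `T` into `H` if and only if `n` is odd, or `n` is even and `k > 2`. -/
theorem result {F : Type*} [Field F] [Fintype F] [CharP F 3] {q : ℕ} (hq : Fintype.card F = q)
    (n : ℕ) (hn : 2 ≤ n) (hT : (n, q) ≠ (2, 3))
    (F₀ : Subfield F) (k q₀ : ℕ) (hk : k.Prime) (hF₀ : Nat.card ↥F₀ = q₀) (hqk : q = q₀ ^ k) (hC5 : ¬ (n = 2 ∧ q₀ = 2)) (hΩ : 3 ∣ ((Cfsg.Geo.subfieldSubgroup F₀ 1).comap (Matrix.SpecialLinearGroup.toGL : Matrix.SpecialLinearGroup (Fin n) F →* GL (Fin n) F)).index) :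
    (∀ x : Matrix.SpecialLinearGroup (Fin n) F,
      (∃ z : F, ((x ^ 3 : Matrix.SpecialLinearGroup (Fin n) F) : Matrix (Fin n) (Fin n) F) = z • (1 : Matrix (Fin n) (Fin n) F)) →
      (∀ z : F, (x : Matrix (Fin n) (Fin n) F) ≠ z • (1 : Matrix (Fin n) (Fin n) F)) →
      ∃ P : Matrix.SpecialLinearGroup (Fin n) F, P⁻¹ * x * P ∈ ((Cfsg.Geo.subfieldSubgroup F₀ 1).comap (Matrix.SpecialLinearGroup.toGL : Matrix.SpecialLinearGroup (Fin n) F →* GL (Fin n) F))) ↔
    (Odd n ∨ (Even n ∧ 2 < k)) := by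
  classical
  have hqF : Fintype.card F = q₀ ^ k := by rw [hq, hqk]
  constructor
  · intro hall
    rcases Nat.even_or_odd n with he | ho
    · right
      refine ⟨he, ?_⟩
      by_contra hk2
      have hk2' : k = 2 := by
        have := hk.two_le
        omega
      subst hk2'
      exfalso
      obtain ⟨m, rfl⟩ := he
      have hm : 0 < m := by omega
      have hsq := sq_of_mem F₀ q₀ hF₀ hqF
      obtain ⟨δ, hδ⟩ := FiniteField.exists_nonsquare (ringChar_ne_two (F := F))
      have hδ0 : δ ≠ 0 := by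
        rintro rfl
        exact hδ IsSquare.zero
      obtain ⟨D, hDdef⟩ : ∃ D : Matrix (Fin m) (Fin m) F,
          D = Matrix.diagonal (fun i => if i = (⟨0, hm⟩ : Fin m) then δ else 1) := ⟨_, rfl⟩
      have hDdet : D.det = δ := by
        rw [hDdef, Matrix.det_diagonal, Finset.prod_ite_eq']
        simp
      obtain ⟨B, hBdef⟩ : ∃ B : Matrix (Fin m ⊕ Fin m) (Fin m ⊕ Fin m) F,
          B = Matrix.fromBlocks 1 0 D 1 := ⟨_, rfl⟩
      have hBN : B = 1 + Matrix.fromBlocks 0 0 D 0 := by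
        rw [hBdef, ← Matrix.fromBlocks_one, Matrix.fromBlocks_add]
        simp
      have hBdet : B.det = 1 := by
        rw [hBdef, Matrix.det_fromBlocks_zero₁₂, Matrix.det_one, one_mul]
      have hB3 : B * B * B = 1 := by
        rw [hBdef, Matrix.fromBlocks_multiply, Matrix.fromBlocks_multiply]
        simp only [Matrix.one_mul, Matrix.mul_one, Matrix.zero_mul, Matrix.mul_zero, add_zero,
          zero_add]
        rw [add_three D, Matrix.fromBlocks_one]
      obtain ⟨ε, hε⟩ : ∃ ε : Fin (m + m) ≃ Fin m ⊕ Fin m, ε = finSumFinEquiv.symm := ⟨_, rfl⟩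
      obtain ⟨xm, hxm⟩ : ∃ xm : Matrix (Fin (m + m)) (Fin (m + m)) F, xm = B.submatrix ε ε :=
        ⟨_, rfl⟩
      have hxdet : xm.det = 1 := by rw [hxm, Matrix.det_submatrix_equiv_self, hBdet]
      have hx3m : xm * xm * xm = 1 := by
        rw [hxm, Matrix.submatrix_mul_equiv, Matrix.submatrix_mul_equiv, hB3,
          Matrix.submatrix_one_equiv]
      obtain ⟨x, hx⟩ : ∃ x : Matrix.SpecialLinearGroup (Fin (m + m)) F,
          (x : Matrix (Fin (m + m)) (Fin (m + m)) F) = xm := ⟨⟨xm, hxdet⟩, rfl⟩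
      have hx3 : ((x ^ 3 : Matrix.SpecialLinearGroup (Fin (m + m)) F) :
          Matrix (Fin (m + m)) (Fin (m + m)) F) = (1 : F) • (1 : Matrix (Fin (m + m)) (Fin (m + m)) F) := by
        rw [Matrix.SpecialLinearGroup.coe_pow, hx, pow_succ, pow_two, hx3m, one_smul]
      have hns : ∀ z : F, (x : Matrix (Fin (m + m)) (Fin (m + m)) F)
          ≠ z • (1 : Matrix (Fin (m + m)) (Fin (m + m)) F) := by
        intro z hz
        have hz' : xm = z • (1 : Matrix (Fin (m + m)) (Fin (m + m)) F) := by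
          rw [← hx]
          exact hz
        have h1 := congrFun (congrFun hz' (ε.symm (Sum.inr ⟨0, hm⟩))) (ε.symm (Sum.inl ⟨0, hm⟩))
        have hne : ε.symm (Sum.inr (⟨0, hm⟩ : Fin m)) ≠ ε.symm (Sum.inl (⟨0, hm⟩ : Fin m)) := by
          intro h
          have h2 := ε.symm.injective h
          simp at h2
        rw [hxm, Matrix.submatrix_apply, Equiv.apply_symm_apply, Equiv.apply_symm_apply, hBdef,
          Matrix.fromBlocks_apply₂₁, hDdef, Matrix.diagonal_apply_eq, if_pos rfl,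
          Matrix.smul_apply, Matrix.one_apply_ne hne, smul_zero] at h1
        exact hδ0 h1
      obtain ⟨P, hPx⟩ := hall x ⟨1, hx3⟩ hns
      rw [Subgroup.mem_comap] at hPx
      obtain ⟨c, hc0, hcR⟩ := rmat_of_mem_sfg_one _ hPx
      rw [coe_conj, hx] at hcR
      obtain ⟨Pm, hPm⟩ : ∃ Pm : Matrix (Fin (m + m)) (Fin (m + m)) F,
          Pm = (P : Matrix (Fin (m + m)) (Fin (m + m)) F) := ⟨_, rfl⟩
      have hPdet : Pm.det = 1 := by
        rw [hPm]
        exact P.det_coe
      have hPu : IsUnit Pm.det := by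
        rw [hPdet]
        exact isUnit_one
      have hPP : Pm * Pm⁻¹ = 1 := Matrix.mul_nonsing_inv Pm hPu
      have hPP' : Pm⁻¹ * Pm = 1 := Matrix.nonsing_inv_mul Pm hPu
      have hcR' : RMat F₀ (c • (Pm⁻¹ * xm * Pm)) := by
        rw [hPm]
        exact hcR
      obtain ⟨Y, hY⟩ : ∃ Y, Y = Pm⁻¹ * xm * Pm := ⟨_, rfl⟩
      rw [← hY] at hcR'
      have hY3 : Y * Y * Y = 1 := by
        rw [hY]
        calc Pm⁻¹ * xm * Pm * (Pm⁻¹ * xm * Pm) * (Pm⁻¹ * xm * Pm)
            = Pm⁻¹ * (xm * (Pm * Pm⁻¹) * xm * (Pm * Pm⁻¹) * xm) * Pm := by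
              simp only [Matrix.mul_assoc]
          _ = 1 := by
              rw [hPP, Matrix.mul_one, Matrix.mul_one, hx3m, Matrix.mul_one, hPP']
      have hc3 : c ^ 3 ∈ F₀ := by
        have h1 : RMat F₀ ((c • Y) * (c • Y) * (c • Y)) := (hcR'.mul hcR').mul hcR'
        have h2 : (c • Y) * (c • Y) * (c • Y) = (c ^ 3) • (1 : Matrix _ _ F) := by
          simp only [Matrix.smul_mul, Matrix.mul_smul, smul_smul]
          rw [hY3]
          congr 1
          ring
        rw [h2] at h1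
        have h3 := h1 (⟨0, by omega⟩ : Fin (m + m)) ⟨0, by omega⟩
        rw [Matrix.smul_apply, Matrix.one_apply_eq, smul_eq_mul, mul_one] at h3
        exact h3
      have hcF : c ∈ F₀ := cube_mem F₀ c hc3
      have hYR : RMat F₀ Y := by
        have h1 : Y = c⁻¹ • (c • Y) := by
          rw [smul_smul, inv_mul_cancel₀ hc0, one_smul]
        rw [h1]
        exact hcR'.smul (F₀.inv_mem hcF)
      have hYR1 : RMat F₀ (Y - 1) := rmat_sub hYR rmat_one
      have hx1 : xm - 1 = (Matrix.fromBlocks 0 0 D 0 :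
          Matrix (Fin m ⊕ Fin m) (Fin m ⊕ Fin m) F).submatrix ε ε := by
        rw [hxm, hBN]
        ext i j
        rw [Matrix.sub_apply, Matrix.submatrix_apply, Matrix.submatrix_apply, Matrix.add_apply,
          Matrix.one_apply, Matrix.one_apply]
        simp only [EmbeddingLike.apply_eq_iff_eq]
        rw [add_sub_cancel_left]
      have hY1 : Y - 1 = Pm⁻¹ * ((Matrix.fromBlocks 0 0 D 0 :
          Matrix (Fin m ⊕ Fin m) (Fin m ⊕ Fin m) F).submatrix ε ε) * Pm := by
        rw [← hx1, Matrix.mul_sub, Matrix.sub_mul, Matrix.mul_one, hPP', hY]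
      rw [hY1] at hYR1
      have hP'det : (Pm.submatrix ε.symm ε.symm).det = 1 := by
        rw [Matrix.det_submatrix_equiv_self, hPdet]
      refine no_conj F₀ hsq D (by rw [hDdet]; exact hδ) (Pm.submatrix ε.symm ε.symm) hP'det ?_
      have e1 : (Pm.submatrix ε.symm ε.symm)⁻¹ * Matrix.fromBlocks 0 0 D 0
          * Pm.submatrix ε.symm ε.symm
          = (Pm⁻¹ * ((Matrix.fromBlocks 0 0 D 0 :
            Matrix (Fin m ⊕ Fin m) (Fin m ⊕ Fin m) F).submatrix ε ε) * Pm).submatrix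
              ε.symm ε.symm := by
        rw [← Matrix.submatrix_mul_equiv _ _ _ ε.symm _,
          ← Matrix.submatrix_mul_equiv _ _ _ ε.symm _, Matrix.inv_submatrix_equiv,
          Matrix.submatrix_submatrix, Equiv.self_comp_symm, Matrix.submatrix_id_id]
      rw [e1]
      exact fun s t => hYR1 (ε.symm s) (ε.symm t)
    · left
      exact ho
  · intro hcase x hx3 hns
    obtain ⟨z, hz⟩ := hx3
    obtain ⟨xm, hxm⟩ : ∃ xm : Matrix (Fin n) (Fin n) F, xm = (x : Matrix (Fin n) (Fin n) F) :=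
      ⟨_, rfl⟩
    have hxdet : xm.det = 1 := by
      rw [hxm]
      exact x.det_coe
    have hx3m : xm * xm * xm = z • (1 : Matrix (Fin n) (Fin n) F) := by
      rw [← hz, Matrix.SpecialLinearGroup.coe_pow, pow_succ, pow_two, hxm]
    haveI : Nonempty (Fin n) := ⟨⟨0, by omega⟩⟩
    have hz0 : z ≠ 0 := by
      rintro rfl
      have h1 := congrArg Matrix.det hx3m
      rw [Matrix.det_mul, Matrix.det_mul, hxdet, zero_smul, Matrix.det_zero] at h1
      norm_num at h1
    obtain ⟨ζ, hζ⟩ := cube_surj z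
    have hζ0 : ζ ≠ 0 := by
      rintro rfl
      rw [zero_pow (by norm_num)] at hζ
      exact hz0 hζ.symm
    have hA3 : (ζ⁻¹ • xm) * (ζ⁻¹ • xm) * (ζ⁻¹ • xm) = 1 := by
      simp only [Matrix.smul_mul, Matrix.mul_smul, smul_smul]
      rw [hx3m, smul_smul, ← hζ]
      have h1 : ζ⁻¹ * (ζ⁻¹ * ζ⁻¹) * ζ ^ 3 = 1 := by
        field_simp
      rw [h1, one_smul]
    have hN3 := nil_of_cube (ζ⁻¹ • xm) hA3
    have hcase' : Odd n ∨ ∀ δ : F, δ ≠ 0 → ∃ α β, α ≠ 0 ∧ β ∈ F₀ ∧ δ = α ^ 2 * β := by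
      rcases hcase with ho | ⟨-, hk2⟩
      · left
        exact ho
      · right
        exact sq_decomp F₀ q₀ k hF₀ hqF (hk.odd_of_ne_two (by omega))
    obtain ⟨Pm, hPdet, hPR⟩ := conj_rat F₀ (ζ⁻¹ • xm - 1) hN3 (by omega) cube_surj hcase'
    have hPu : IsUnit Pm.det := by
      rw [hPdet]
      exact isUnit_one
    have hPP' : Pm⁻¹ * Pm = 1 := Matrix.nonsing_inv_mul Pm hPu
    obtain ⟨PS, hPS⟩ : ∃ PS : Matrix.SpecialLinearGroup (Fin n) F,
        (PS : Matrix (Fin n) (Fin n) F) = Pm := ⟨⟨Pm, hPdet⟩, rfl⟩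
    refine ⟨PS, ?_⟩
    rw [Subgroup.mem_comap]
    apply sfg_one_of_rmat _ ζ⁻¹ (inv_ne_zero hζ0)
    rw [coe_conj, hPS, ← hxm]
    have e : ζ⁻¹ • (Pm⁻¹ * xm * Pm) = Pm⁻¹ * (ζ⁻¹ • xm - 1) * Pm + 1 := by
      rw [Matrix.mul_sub, Matrix.sub_mul, Matrix.mul_one, hPP', Matrix.mul_smul, Matrix.smul_mul,
        sub_add_cancel]
    rw [e]
    exact rmat_add hPR rmat_one

end Cfsg.Agent.S5966
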