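import Cfsg.Statements.S5967
import Cfsg.Agent.Helper16.SpInvC

set_option autoImplicit false
open scoped MatrixGroups
open Cfsg

namespace Cfsg.Agent.S5967

/-- Involutions of PSL_n(q) and the symplectic-type subgroups. Here `T = PSL_n(F)` for a field `F` with `q` elements, `n ≥ 4` even, `f` is a nondegenerate alternating form on `F^n`, and `H` is the subgroup of matrices of determinant 1 preserving `f` up to a scalar — a maximal subgroup of type Sp_n(q); Ω is the set of `T`-conjugates of `H` (cosets of `H`), so an element of `T` of prime order `r` (a matrix `x` of determinant 1 with `x^r` scalar, `x` not scalar) fixes a point of Ω when some conjugate of `x` by a matrix of determinant 1 preserves `f` up to a scalar. Suppose the index of `H` is even. Then every involution of `T` is conjugate in `T` into `H` if and only if `(q − 1)_2 ≤ (n)_2`. -/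
theorem result {F : Type*} [Field F] [Fintype F] {p : ℕ} [Fact p.Prime] [CharP F p] {q : ℕ} (hq : Fintype.card F = q)
    (n : ℕ) (hn : 4 ≤ n) (he : Even n) (f : (Fin n → F) → (Fin n → F) → F) (hf : Cfsg.Geo.IsSymplecticForm f)
    (hΩ : 2 ∣ ((Cfsg.Geo.similarityGroup f).comap (Matrix.SpecialLinearGroup.toGL : Matrix.SpecialLinearGroup (Fin n) F →* GL (Fin n) F)).index) :
    (∀ x : Matrix.SpecialLinearGroup (Fin n) F,
      (∃ z : F, ((x ^ 2 : Matrix.SpecialLinearGroup (Fin n) F) : Matrix (Fin n) (Fin n) F) = z • (1 : Matrix (Fin n) (Fin n) F)) →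
      (∀ z : F, (x : Matrix (Fin n) (Fin n) F) ≠ z • (1 : Matrix (Fin n) (Fin n) F)) →
      ∃ P : Matrix.SpecialLinearGroup (Fin n) F, P⁻¹ * x * P ∈ ((Cfsg.Geo.similarityGroup f).comap (Matrix.SpecialLinearGroup.toGL : Matrix.SpecialLinearGroup (Fin n) F →* GL (Fin n) F))) ↔
    padicValNat 2 (q - 1) ≤ padicValNat 2 n := by
  classical
  subst hq
  constructor
  · intro hall
    by_contra hR
    push Not at hR
    have hch : ringChar F ≠ 2 := by
      intro h
      have h1 : Fintype.card F % 2 = 0 := FiniteField.even_card_iff_char_two.mp h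
      have h0 : 0 < Fintype.card F := Fintype.card_pos
      have h2 : padicValNat 2 (Fintype.card F - 1) = 0 :=
        padicValNat.eq_zero_of_not_dvd (by omega)
      omega
    obtain ⟨x, ζ, a, b, hζ, hba, hxm, hx2, hns⟩ :=
      Cfsg.Agent.Helper16.SpInv.neg_elt_odd (F := F) (n := n) (by omega) hch hR
    obtain ⟨P, hP⟩ := hall x hx2 hns
    exact Cfsg.Agent.Helper16.SpInv.not_conj_refl (by omega) f hf x ζ hζ a b hba
      (Ring.two_ne_zero hch) hxm P hP
  · intro hR x hx2 hns
    obtain ⟨z, hz⟩ := hx2
    have hx2m : (x : Matrix (Fin n) (Fin n) F) * (x : Matrix (Fin n) (Fin n) F)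
        = z • (1 : Matrix (Fin n) (Fin n) F) := by
      rw [← hz, Matrix.SpecialLinearGroup.coe_pow, pow_two]
    haveI : Nonempty (Fin n) := ⟨⟨0, by omega⟩⟩
    have hz0 : z ≠ 0 := by
      rintro rfl
      have h1 := congrArg Matrix.det hx2m
      rw [Matrix.det_mul, x.det_coe, zero_smul, Matrix.det_zero] at h1
      norm_num at h1
    rcases Nat.even_or_odd (Fintype.card F) with hqe | hqo
    · have hch2 : ringChar F = 2 := by
        rw [FiniteField.even_card_iff_char_two]
        exact Nat.even_iff.mp hqe
      have h2F : (2 : F) = 0 := by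
        haveI : CharP F 2 := ringChar.of_eq hch2
        exact_mod_cast CharP.cast_eq_zero F 2
      obtain ⟨ζ, rfl⟩ := FiniteField.isSquare_of_char_two hch2 z
      have hζ0 : ζ ≠ 0 := by
        rintro rfl
        rw [mul_zero] at hz0
        exact hz0 rfl
      exact Cfsg.Agent.Helper16.SpInv.pos_even (by omega) he h2F f hf x ζ hζ0 hx2m
    · have hch : ringChar F ≠ 2 := by
        intro h
        rw [FiniteField.even_card_iff_char_two] at h
        rw [Nat.odd_iff] at hqo
        omega
      by_cases hzs : IsSquare z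
      · obtain ⟨ζ, rfl⟩ := hzs
        exact Cfsg.Agent.Helper16.SpInv.pos_odd_sq hch (by omega) he hR f hf x ζ hx2m
      · obtain ⟨m, hm⟩ := he
        exact Cfsg.Agent.Helper16.SpInv.pos_nonsq (n := n) (m := m) (by omega) (by omega) f hf x z
          hzs hx2m

end Cfsg.Agent.S5967
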