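import Cfsg.Statements.S5969
import Cfsg.Agent.Helper16.QExtD

set_option autoImplicit false
open scoped MatrixGroups
open Cfsg

namespace Cfsg.Agent.S5969

/-- Involutions of PSL_n(q) and extension-field subgroups of degree 2. Here `T = PSL_n(F)` for a field `F` with `q = p^f` elements (`n ≥ 2`, `(n, q) ≠ (2, 2), (2, 3)`), `k` is a prime dividing `n`, `K` is a subalgebra of the `n × n` matrices that is a field of degree `k` over `F` (an extension-field structure F_{q^k} on `F^n`), and `H` is the subgroup of matrices of determinant 1 normalizing `K` — a subgroup of type GL_{n/k}(q^k) (maximal except in some small cases; maximality is not assumed); Ω is the set of cosets of `H` in `T`, so an element of `T` of prime order `r` (a matrix `x` of determinant 1 with `x^r` scalar, `x` not scalar) fixes a point of Ω when some conjugate of `x` by a matrix of determinant 1 normalizes `K`. Take `k = 2` and suppose the index of `H` is even. Then every involution of `T` is conjugate in `T` into `H` if and only if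 `n = 2`, or `q` is odd and `(q − 1)_2 ≤ (n)_2`. -/
theorem result {F : Type*} [Field F] [Fintype F] {p : ℕ} [Fact p.Prime] [CharP F p] {q : ℕ} (hq : Fintype.card F = q)
    (n : ℕ) (hn : 2 ≤ n) (hT : (n, q) ≠ (2, 2) ∧ (n, q) ≠ (2, 3))
    (k : ℕ) (hk : k.Prime) (hkn : k ∣ n) (K : Subalgebra F (Matrix (Fin n) (Fin n) F)) (hK : Cfsg.Geo.IsFieldSubalgebra k K) (hk2 : k = 2) (hΩ : 2 ∣ ((Cfsg.Geo.subalgebraNormalizer K).comap (Matrix.SpecialLinearGroup.toGL : Matrix.SpecialLinearGroup (Fin n) F →* GL (Fin n) F)).index) :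
    (∀ x : Matrix.SpecialLinearGroup (Fin n) F,
      (∃ z : F, ((x ^ 2 : Matrix.SpecialLinearGroup (Fin n) F) : Matrix (Fin n) (Fin n) F) = z • (1 : Matrix (Fin n) (Fin n) F)) →
      (∀ z : F, (x : Matrix (Fin n) (Fin n) F) ≠ z • (1 : Matrix (Fin n) (Fin n) F)) →
      ∃ P : Matrix.SpecialLinearGroup (Fin n) F, P⁻¹ * x * P ∈ ((Cfsg.Geo.subalgebraNormalizer K).comap (Matrix.SpecialLinearGroup.toGL : Matrix.SpecialLinearGroup (Fin n) F →* GL (Fin n) F))) ↔
    (n = 2 ∨ (Odd q ∧ padicValNat 2 (q - 1) ≤ padicValNat 2 n)) := by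
  classical
  subst hk2
  subst hq
  obtain ⟨h, hnh⟩ : ∃ h, n = 2 + (h + h) := by
    obtain ⟨m, hm⟩ := hkn
    exact ⟨m - 1, by omega⟩
  constructor
  · intro hall
    by_contra hR
    push Not at hR
    obtain ⟨hn2, hR2⟩ := hR
    have hn4 : 4 ≤ n := by omega
    obtain ⟨x, c, a, b, hc, ha, hb, hxm, hx2, hns⟩ :=
      Cfsg.Agent.Helper16.QExt.neg_elt (F := F) (n := n) hn4 hR2
    obtain ⟨P, hP⟩ := hall x hx2 hns
    exact Cfsg.Agent.Helper16.QExt.not_conj_of_rank_one (by omega) K hK x c hc a b ha hb hxm P hP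
  · intro hR x hx2 hns
    obtain ⟨θ, hθK, t, d, hθθ, hirr, hθns, hmem⟩ :=
      Cfsg.Agent.Helper16.QExt.k_struct (by omega) K hK
    obtain ⟨z, hz⟩ := hx2
    obtain ⟨xm, hxm⟩ : ∃ xm : Matrix (Fin n) (Fin n) F,
        xm = (x : Matrix (Fin n) (Fin n) F) := ⟨_, rfl⟩
    have hxdet : xm.det = 1 := by
      rw [hxm]
      exact x.det_coe
    have hx2m : xm * xm = z • (1 : Matrix (Fin n) (Fin n) F) := by
      rw [← hz, Matrix.SpecialLinearGroup.coe_pow, pow_two, hxm]
    have key : ∃ θ' : Matrix (Fin n) (Fin n) F,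
        θ' * θ' = t • θ' + d • (1 : Matrix (Fin n) (Fin n) F) ∧
        (xm * θ' = θ' * xm ∨ xm * θ' = (t • (1 : Matrix (Fin n) (Fin n) F) - θ') * xm) := by
      rcases Nat.even_or_odd (Fintype.card F) with hqe | hqo
      · have hch2 : ringChar F = 2 := by
          rw [FiniteField.even_card_iff_char_two]
          exact Nat.even_iff.mp hqe
        have hn2 : n = 2 := by
          rcases hR with h2 | ⟨hodd, -⟩
          · exact h2
          · exact absurd hodd (Nat.not_odd_iff_even.mpr hqe)
        subst hn2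
        exact Cfsg.Agent.Helper16.QExt.pos_even hch2 t d hirr xm z hx2m hxdet (by
          intro z'
          rw [hxm]
          exact hns z')
      · have hch : ringChar F ≠ 2 := by
          intro h
          rw [FiniteField.even_card_iff_char_two] at h
          rw [Nat.odd_iff] at hqo
          omega
        by_cases hzs : IsSquare z
        · obtain ⟨ζ, rfl⟩ := hzs
          have hR' : n = 2 ∨ padicValNat 2 (Fintype.card F - 1) ≤ padicValNat 2 n := by
            rcases hR with h2 | ⟨-, hv⟩
            · exact Or.inl h2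
            · exact Or.inr hv
          exact Cfsg.Agent.Helper16.QExt.pos_odd_sq hch (by omega) hkn hR' t d xm ζ hx2m hxdet
        · obtain ⟨θ', hθ', hc⟩ :=
            Cfsg.Agent.Helper16.QExt.theta_nonsq hch t d hirr xm z hzs hx2m
          exact ⟨θ', hθ', Or.inl hc⟩
    obtain ⟨θ', hθ', hxθ'⟩ := key
    rw [hxm] at hxθ'
    exact Cfsg.Agent.Helper16.QExt.pos_conj h hnh K θ t d hθθ hirr hmem x θ' hθ' hxθ'

end Cfsg.Agent.S5969
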